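import Cfsg.Statements.S5551
import Cfsg.Agent.Lib.Leech.Index

set_option autoImplicit false
open Cfsg

namespace Cfsg.Agent.S5551

/-- In the Leech lattice of the definitions (integer coordinates, minimal squared length 32), let v and w be non-zero lattice vectors of squared length at most 64 that are congruent modulo twice the lattice. Then they have the same squared length, and if that length is less than 64 then w = v or w = −v. (So a class that contains a non-zero vector of squared length at most 64 has a well-defined type 2, 3 or 4, and a class of type 2 or 3 contains no such vector other than v and −v.) -/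
theorem result (v w : Cfsg.GolayPt → ℤ) (hv : v ∈ Cfsg.leechLattice) (hw : w ∈ Cfsg.leechLattice) (hv0 : v ≠ 0) (hw0 : w ≠ 0) (hvn : Cfsg.sqNorm v ≤ 64) (hwn : Cfsg.sqNorm w ≤ 64) (hc : ∃ z ∈ Cfsg.leechLattice, v - w = 2 • z) : Cfsg.sqNorm v = Cfsg.sqNorm w ∧ (Cfsg.sqNorm v < 64 → w = v ∨ w = -v) := by
  obtain ⟨z, hz, h⟩ := hc
  have := CfsgLib.Leech.congr_short (x := ⟨v, hv⟩) (y := ⟨w, hw⟩) (z := ⟨z, hz⟩) hvn hwn
    (Subtype.ext (by simpa [two_smul] using h))
  rcases this with h | h | h
  · have h := congrArg Subtype.val h
    simp only at h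
    subst h
    exact ⟨rfl, fun _ => Or.inl rfl⟩
  · have h := congrArg Subtype.val h
    simp only [AddSubgroup.coe_neg] at h
    subst h
    exact ⟨(CfsgLib.Leech.sqNorm_neg _).symm, fun _ => Or.inr rfl⟩
  · simp only at h
    exact ⟨by omega, fun _ => by omega⟩

end Cfsg.Agent.S5551
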