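import Cfsg.Statements.S1632
import Cfsg.Agent.Lib.Theta.Form

set_option autoImplicit false
open Matrix
open Cfsg

namespace Cfsg.Agent.S1632

/-- An even unimodular lattice of rank 24 without roots has 196560, 16773120 and 398034000 vectors of norms 4, 6 and 8. -/
theorem result (B : Matrix (Fin 24) (Fin 24) ℤ) (hsymm : B.IsSymm) (hpos : ∀ x : Fin 24 → ℤ, x ≠ 0 → 0 < x ⬝ᵥ (B *ᵥ x)) (heven : ∀ x : Fin 24 → ℤ, (2 : ℤ) ∣ x ⬝ᵥ (B *ᵥ x)) (hdet : B.det = 1) (h2 : ∀ x : Fin 24 → ℤ, x ⬝ᵥ (B *ᵥ x) ≠ 2) : {x : Fin 24 → ℤ | x ⬝ᵥ (B *ᵥ x) = 4}.ncard = 196560 ∧ {x : Fin 24 → ℤ | x ⬝ᵥ (B *ᵥ x) = 6}.ncard = 16773120 ∧ {x : Fin 24 → ℤ | x ⬝ᵥ (B *ᵥ x) = 8}.ncard = 398034000 := by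
  have hp : ∀ x, 0 ≤ x ⬝ᵥ B *ᵥ x := fun x => by
    rcases eq_or_ne x 0 with rfl | h
    · simp
    · exact (hpos x h).le
  have hc := CfsgLib.Theta.thetaMF_coeff hsymm hp heven hdet
  obtain ⟨a, b, c⟩ := CfsgLib.Theta.counts_twelve (CfsgLib.Theta.thetaMF hsymm hp heven hdet)
    (by
      have : {x : Fin 24 → ℤ | x ⬝ᵥ B *ᵥ x = 2 * ((0 : ℕ) : ℤ)} = {0} := by
        ext x
        refine ⟨fun h => by_contra fun e => (hpos x e).ne' (by simpa using h), fun h => ?_⟩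
        rw [Set.mem_singleton_iff.1 h]; simp
      rw [hc, this]; simp)
    (by
      have : {x : Fin 24 → ℤ | x ⬝ᵥ B *ᵥ x = 2 * ((1 : ℕ) : ℤ)} = ∅ :=
        Set.eq_empty_of_forall_notMem fun x h => h2 x (by simpa using h)
      rw [hc, this]; simp)
  rw [hc] at a b c
  exact ⟨by exact_mod_cast a, by exact_mod_cast b, by exact_mod_cast c⟩

end Cfsg.Agent.S1632
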