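import Cfsg.Statements.S5775
import Cfsg.Agent.Lib.SLCases.Main

set_option autoImplicit false
open Cfsg CfsgLib.SLCases

namespace Cfsg.Agent.S5775

/-- Every maximal subgroup of SL_3(q) is of one of the listed geometric types or lies in the residual class. Let F be a finite field with q elements and H a maximal subgroup of SL_3(F) (viewed inside GL_3(F)). Then H is the intersection with SL_3(F) of one of: the stabiliser of a proper non-zero subspace; for q ≥ 5, the stabiliser of a decomposition of F^3 into three independent lines; for q ≠ 4, the normaliser of a degree-3 subfield of the matrix algebra; a subfield group for a subfield F₀ with |F| = |F₀|^r, r prime; for q = p ≡ 1 mod 3 prime, the normaliser of an absolutely irreducible 3-subgroup R of exponent 3 with centre of order 3, all of whose characteristic abelian subgroups are cyclic, of order 3^(1+2m) for some m ≥ 1, with F the smallest field of characteristic p containing the cube roots of unity (so R is extraspecial of order 27); for q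 odd, the similarity group of a non-degenerate quadratic form; the similarity group of a non-degenerate unitary form — or else H lies in the residual class of the linear case (modulo scalars H is almost simple, with absolutely irreducible perfect socle preimage realisable over no proper subfield and fixing no non-degenerate quadratic, symplectic or unitary form). -/
theorem result {F : Type*} [Field F] [Fintype F] (H : Subgroup (Matrix.GeneralLinearGroup (Fin 3) F)) (hH : Cfsg.Geo.IsMaximalIn (Cfsg.Geo.specialLinear (Fin 3) F) H) :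
    (∃ W : Submodule F (Fin 3 → F), W ≠ ⊥ ∧ W ≠ ⊤ ∧ H = Cfsg.Geo.subspaceStabilizer W ⊓ Cfsg.Geo.specialLinear (Fin 3) F) ∨
    (5 ≤ Fintype.card F ∧ ∃ D : Fin 3 → Submodule F (Fin 3 → F), Cfsg.Geo.IsMDecomposition 1 D ∧ H = Cfsg.Geo.decompositionStabilizer D ⊓ Cfsg.Geo.specialLinear (Fin 3) F) ∨
    (Fintype.card F ≠ 4 ∧ ∃ K : Subalgebra F (Matrix (Fin 3) (Fin 3) F), Cfsg.Geo.IsFieldSubalgebra 3 K ∧ H = Cfsg.Geo.subalgebraNormalizer K ⊓ Cfsg.Geo.specialLinear (Fin 3) F) ∨
    (∃ (F₀ : Subfield F) (r : ℕ) (P : Matrix.GeneralLinearGroup (Fin 3) F), r.Prime ∧ Fintype.card F = Nat.card F₀ ^ r ∧ H = Cfsg.Geo.subfieldSubgroup F₀ P ⊓ Cfsg.Geo.specialLinear (Fin 3) F) ∨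
    (∃ (p : ℕ) (R : Subgroup (Matrix.GeneralLinearGroup (Fin 3) F)), p.Prime ∧ Fintype.card F = p ∧ p % 3 = 1 ∧ Cfsg.Geo.IsLinearSymplecticTypeData 3 R ∧ H = Cfsg.Geo.subgroupNormalizer R ⊓ Cfsg.Geo.specialLinear (Fin 3) F) ∨
    (Odd (Fintype.card F) ∧ ∃ Q : (Fin 3 → F) → F, Cfsg.Geo.IsNondegenerateQuadraticForm Q ∧ H = Cfsg.Geo.quadSimilarityGroup Q ⊓ Cfsg.Geo.specialLinear (Fin 3) F) ∨
    (∃ (σ : F ≃+* F) (f : (Fin 3 → F) → (Fin 3 → F) → F), Cfsg.Geo.IsUnitaryForm σ f ∧ H = Cfsg.Geo.similarityGroup f ⊓ Cfsg.Geo.specialLinear (Fin 3) F) ∨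
    Cfsg.Geo.InLinearResidualClass H := by
  rcases sl_cases (by norm_num) hH with h | ⟨t, m, D, hD, hn, ht, c1, c2, c3, c4, h⟩ | ⟨r, K, hr, hd, hK, c, h⟩ | ⟨n₁, n₂, e, P, h1, h2, hn, c, h⟩ | h | ⟨r, k, R, hR, hr, hn, h⟩ | ⟨m, t, e, P, hm, ht, hn, h⟩ | ⟨he, h⟩ | h | h | h
  · exact Or.inl h
  · have h0 : (t = 3 ∧ m = 1) := by
      have : t ≤ 3 := Nat.le_of_dvd (by norm_num) ⟨m, hn⟩
      interval_cases t <;> omega
    rcases h0 with ⟨rfl, rfl⟩
    · iterate 1 right
      exact Or.inl ⟨by omega, D, hD, h⟩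
  · have h0 : r = 3 := by
      have := Nat.le_of_dvd (by norm_num) hd
      interval_cases r <;> first | omega | exact absurd hr (by decide)
    rcases h0 with rfl
    · iterate 2 right
      exact Or.inl ⟨c rfl, K, hK, h⟩
  · exfalso
    have : n₁ ≤ 3 := Nat.le_of_dvd (by norm_num) ⟨n₂, hn⟩
    interval_cases n₁ <;> omega
  · iterate 3 right
    exact Or.inl h
  · obtain rfl := eq_of_prime_dvd hr hn (s := 3) (by norm_num) (by norm_num)
    obtain ⟨p, a1, a2, a3⟩ := extra_three hR
    iterate 4 right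
    exact Or.inl ⟨p, R, a1, a2, a3, hR, h⟩
  · exact absurd (pow_bound hm ht hn (by norm_num)).1 (by norm_num)
  · exact absurd he (by decide)
  · iterate 6 right
    exact Or.inl h
  · iterate 5 right
    exact Or.inl h
  · iterate 7 right
    exact h

end Cfsg.Agent.S5775
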