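import Cfsg.Statements.S0710
import Cfsg.Agent.Lib.Perm.Centralizer

set_option autoImplicit false
open Cfsg

namespace Cfsg.Agent.S0710


/-- No transitive permutation group on 13 points has order `13 * 12 * 11 * 10 * 9 * 8`. -/
theorem result {α : Type*} [Fintype α] [DecidableEq α] (hα : Fintype.card α = 13) (G : Subgroup (Equiv.Perm α)) [MulAction.IsPretransitive G α] : Nat.card G ≠ 13 * 12 * 11 * 10 * 9 * 8 := by
  intro hG
  have h13 : Fact (Nat.Prime 13) := ⟨by norm_num⟩
  obtain ⟨P⟩ : Nonempty (Sylow 13 G) := inferInstance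
  have hP : Nat.card P = 13 := by
    rw [P.card_eq_multiplicity, hG]
    have : (13 * 12 * 11 * 10 * 9 * 8 : ℕ).factorization 13 = 1 := by
      have h1 : 1 ≤ (13 * 12 * 11 * 10 * 9 * 8 : ℕ).factorization 13 :=
        (Nat.Prime.pow_dvd_iff_le_factorization (by norm_num) (by norm_num)).1 (by norm_num)
      have h2 : ¬ 2 ≤ (13 * 12 * 11 * 10 * 9 * 8 : ℕ).factorization 13 := by
        rw [← Nat.Prime.pow_dvd_iff_le_factorization (by norm_num) (by norm_num)]
        norm_num
      omega
    rw [this, pow_one]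
  have hcyc : IsCyclic P := isCyclic_of_prime_card hP
  have htr : ∀ a b : α, ∃ g ∈ (P : Subgroup G).map G.subtype, g a = b := by
    obtain ⟨g, hg⟩ := exists_prime_orderOf_dvd_card' (G := P) 13 (by rw [hP])
    have hg' : orderOf (g.1.1 : Equiv.Perm α) = Fintype.card α := by
      rw [Subgroup.orderOf_coe, Subgroup.orderOf_coe, hg, hα]
    have hc := Equiv.Perm.isCycle_of_prime_order'' (by rw [hα]; norm_num) hg'
    have hsupp : (g.1.1 : Equiv.Perm α).support = Finset.univ := by
      apply Finset.eq_univ_of_card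
      rw [← hc.orderOf, hg']
    intro a b
    obtain ⟨n, hn⟩ := hc.exists_pow_eq (x := a) (y := b)
      (Equiv.Perm.mem_support.1 (by simp [hsupp])) (Equiv.Perm.mem_support.1 (by simp [hsupp]))
    exact ⟨_, ⟨(g ^ n).1, (g ^ n).2, rfl⟩, hn⟩
  have hne : Nonempty α := Fintype.card_pos_iff.1 (by omega)
  have hcomm : ∀ x y : P, x * y = y * x := fun x y => (IsCyclic.commGroup.mul_comm x y :)
  have hC := CfsgLib.Perm.centralizer_eq_of_transitive htr htr (by
    rintro _ ⟨n, hn, rfl⟩
    rw [Subgroup.mem_centralizer_iff]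
    rintro _ ⟨m, hm, rfl⟩
    exact congrArg Subtype.val (congrArg Subtype.val (hcomm (⟨m, hm⟩ : P) ⟨n, hn⟩)))
  have hC' : Subgroup.centralizer ((P : Subgroup G) : Set G) ≤ P := by
    intro c hc
    have : (c : Equiv.Perm α) ∈ (P : Subgroup G).map G.subtype := by
      rw [← hC, Subgroup.mem_centralizer_iff]
      rintro _ ⟨m, hm, rfl⟩
      exact congrArg Subtype.val (Subgroup.mem_centralizer_iff.1 hc m hm)
    obtain ⟨m, hm, hmc⟩ := this
    rwa [← Subtype.ext hmc]
  have hN : Nat.card (Subgroup.normalizer ((P : Subgroup G) : Set G)) ∣ 13 * 12 := by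
    have h1 := Subgroup.card_eq_card_quotient_mul_card_subgroup
      (P : Subgroup G).normalizerMonoidHom.ker
    rw [h1, mul_comm]
    apply Nat.mul_dvd_mul
    · rw [Subgroup.normalizerMonoidHom_ker]
      refine dvd_trans (Subgroup.card_dvd_of_le (Subgroup.comap_mono hC')) ?_
      exact ((Nat.card_congr (Subgroup.subgroupOfEquivOfLe Subgroup.le_normalizer).toEquiv).trans
        hP).dvd
    · rw [Nat.card_congr (QuotientGroup.quotientKerEquivRange _).toEquiv]
      refine dvd_trans (Subgroup.card_subgroup_dvd_card _) ?_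
      rw [IsCyclic.card_mulAut, hP]
      decide
  have h13N : 13 ∣ Nat.card (Subgroup.normalizer ((P : Subgroup G) : Set G)) := by
    exact hP.symm.dvd.trans (Subgroup.card_dvd_of_le Subgroup.le_normalizer)
  have hmod := card_sylow_modEq_one 13 G
  rw [P.card_eq_index_normalizer] at hmod
  have hmul := (Subgroup.normalizer ((P : Subgroup G) : Set G)).card_mul_index
  rw [hG] at hmul
  obtain ⟨d, hd⟩ := h13N
  rw [hd] at hN hmul
  have hd12 : d ∣ 12 := Nat.dvd_of_mul_dvd_mul_left (by norm_num) hN
  have hdle : d ≤ 12 := Nat.le_of_dvd (by norm_num) hd12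
  unfold Nat.ModEq at hmod
  change (Subgroup.normalizer ((P : Subgroup G) : Set G)).index % 13 = 1 % 13 at hmod
  generalize (Subgroup.normalizer ((P : Subgroup G) : Set G)).index = n at hmod hmul
  interval_cases d <;> omega

end Cfsg.Agent.S0710
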