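import Cfsg.Statements.S0821
import Cfsg.Agent.Lib.Spec.BvsC

set_option autoImplicit false
open Cfsg

namespace Cfsg.Agent.S0821

/-- PSp_2m(q) ≇ PΩ_(2m+1)(q) for q odd and m ≥ 3 (they have the same order). -/
theorem result {F : Type*} [Field F] [Fintype F] (hodd : Odd (Fintype.card F)) (m : ℕ) (hm : 3 ≤ m) : IsEmpty (Cfsg.PSp m F ≃* Cfsg.POmega F (Cfsg.quadFormOdd m F)) := by
  refine ⟨fun e => CfsgLib.Spec.spectrum_pomega_ne_psp hodd hm ?_⟩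
  ext N
  exact ⟨fun ⟨g, hg⟩ => ⟨e.symm g, by rw [MulEquiv.orderOf_eq, hg]⟩,
    fun ⟨g, hg⟩ => ⟨e g, by rw [MulEquiv.orderOf_eq, hg]⟩⟩

end Cfsg.Agent.S0821
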