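import Mathlib
import Cfsg.Statements.S0948
import Cfsg.Agent.Lib.Block.Klein
-- import your own Cfsg.Agent.* helpers here

set_option autoImplicit false
open Cfsg

namespace Cfsg.Agent.S0948

open CfsgLib.Char CfsgLib.Block

/-- Let the finite group G have a Sylow 2-subgroup P that is a Klein four-group, suppose all involutions of G are conjugate, and fix a maximal ideal M of the algebraic integers containing 2. Then the principal block consists of exactly four irreducible characters, the principal character and ζ₂, ζ₃, ζ₄, and there is a sign ε such that for every involution z: ζ₂ z = 1, ζ₃ z = ε, ζ₄ z = -1; moreover ζ₂ 1 ≡ 1, ζ₃ 1 ≡ ε, ζ₄ 1 ≡ -1 (mod 4), and 1 + ζ₂ y + ε ζ₃ y - ζ₄ y = 0 for every y of odd order. -/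
theorem result {G : Type*} [Group G] [Finite G] (M : Ideal Cfsg.AlgInt) (hM : Cfsg.IsPModular 2 M) (P : Sylow 2 G) (hP : IsKleinFour (P : Subgroup G)) (hone : ∀ s t : G, orderOf s = 2 → orderOf t = 2 → IsConj s t) : ∃ ζ₂ ζ₃ ζ₄ : Cfsg.IrrCharacter G, ∃ ε : ℤ, (ε = 1 ∨ ε = -1) ∧ (ζ₂ : G → ℂ) ≠ (fun _ => 1) ∧ (ζ₃ : G → ℂ) ≠ (fun _ => 1) ∧ ζ₂ ≠ ζ₃ ∧ ζ₂ ≠ ζ₄ ∧ ζ₃ ≠ ζ₄ ∧ Cfsg.principalBlock M G = {χ : Cfsg.IrrCharacter G | (χ : G → ℂ) = (fun _ => 1) ∨ χ = ζ₂ ∨ χ = ζ₃ ∨ χ = ζ₄} ∧ (∀ z : G, orderOf z = 2 → (ζ₂ : G → ℂ) z = 1 ∧ (ζ₃ : G → ℂ) z = (ε : ℂ) ∧ (ζ₄ : G → ℂ) z = -1) ∧ (4 : ℤ) ∣ (Cfsg.charDegree (ζ₂ : G → ℂ) : ℤ) - 1 ∧ (4 : ℤ) ∣ (Cfsg.charDegree (ζ₃ : G → ℂ) : ℤ) - ε ∧ (4 : ℤ) ∣ (Cfsg.charDegree (ζ₄ : G → ℂ) : ℤ) + 1 ∧ ∀ y : G, Odd (orderOf y) → 1 + (ζ₂ : G → ℂ) y + (ε : ℂ) * (ζ₃ : G → ℂ) y - (ζ₄ : G → ℂ) y = 0 := by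
  classical
  obtain ⟨n, hn, hd, hpm, hc, hy⟩ := klein_principal hM P hP hone
  obtain ⟨t, -, ht⟩ := (fourOmega_of_isKleinFour _ hP).exists_invol
  set S := Finset.univ.filter (· ∈ principalBlock M G) with hS
  have hmem : ∀ χ, χ ∈ S ↔ χ ∈ principalBlock M G := fun χ => by simp [hS]
  have h1S : irrOne G ∈ S := (hmem _).2 (irrOne_mem_principalBlock hM)
  have hn1 : n (irrOne G) = 1 := by exact_mod_cast (hn (irrOne G) t ht).symm.trans (irrOne_apply t)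
  have hd1 : charDegree ((irrOne G : IrrCharacter G) : G → ℂ) = 1 :=
    charDegree_eq_of_eq (n := 1) (by rw [Nat.cast_one]; rfl)
  have h0 : ∑ χ ∈ S, n χ * (charDegree (χ : G → ℂ) : ℤ) = 0 := by
    have := hy 1 (by simp)
    simp only [← charDegree_eq (irr_isCharacter _)] at this
    exact_mod_cast this
  have hpos : ∀ χ : IrrCharacter G, (1 : ℤ) ≤ charDegree (χ : G → ℂ) := fun χ => by
    exact_mod_cast Nat.pos_of_ne_zero (charDegree_ne_zero χ.2)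
  obtain ⟨ζ₄, h4S, h4⟩ : ∃ ζ ∈ S, n ζ = -1 := by
    by_contra hcon
    push Not at hcon
    refine absurd h0 (Finset.sum_pos (fun χ hχ => ?_) ⟨_, h1S⟩).ne'
    rw [(hpm χ ((hmem χ).1 hχ)).resolve_right (hcon χ hχ)]
    linarith [hpos χ]
  obtain ⟨ζ₂, h2S, h2⟩ : ∃ ζ ∈ S.erase (irrOne G), n ζ = 1 := by
    by_contra hcon
    push Not at hcon
    rw [← Finset.add_sum_erase _ _ h1S, hn1, hd1] at h0
    have := Finset.sum_le_card_nsmul (S.erase (irrOne G)) (fun χ => n χ * (charDegree (χ : G → ℂ) : ℤ))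
      (-1) fun χ hχ => by
        rw [(hpm χ ((hmem χ).1 (Finset.mem_of_mem_erase hχ))).resolve_left (hcon χ hχ)]
        linarith [hpos χ]
    rw [Finset.card_erase_of_mem h1S, hc] at this
    norm_num at this h0
    linarith
  have h21 := Finset.ne_of_mem_erase h2S
  have h41 : ζ₄ ≠ irrOne G := by rintro rfl; omega
  have h24 : ζ₄ ≠ ζ₂ := by rintro rfl; omega
  have h4S' : ζ₄ ∈ (S.erase (irrOne G)).erase ζ₂ := by simp [h24, h41, h4S]
  obtain ⟨ζ₃, h3⟩ : ∃ ζ₃, ((S.erase (irrOne G)).erase ζ₂).erase ζ₄ = {ζ₃} := by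
    rw [← Finset.card_eq_one, Finset.card_erase_of_mem h4S', Finset.card_erase_of_mem h2S,
      Finset.card_erase_of_mem h1S, hc]
  have h3S : ζ₃ ∈ ((S.erase (irrOne G)).erase ζ₂).erase ζ₄ := h3 ▸ Finset.mem_singleton_self _
  simp only [Finset.mem_erase] at h3S
  obtain ⟨h34, h32, h31, h3S⟩ := h3S
  have hSeq : S = insert (irrOne G) (insert ζ₂ (insert ζ₄ {ζ₃})) := by
    rw [← h3, Finset.insert_erase h4S', Finset.insert_erase h2S, Finset.insert_erase h1S]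
  refine ⟨ζ₂, ζ₃, ζ₄, n ζ₃, hpm _ ((hmem _).1 h3S), fun h => h21 (Subtype.ext h),
    fun h => h31 (Subtype.ext h), h32.symm, h24.symm, h34, ?_, fun z hz => ?_, h2 ▸ hd ζ₂, hd ζ₃,
    by simpa [h4] using hd ζ₄, fun y hy' => ?_⟩
  · ext χ
    rw [← hmem, hSeq]
    simp only [Finset.mem_insert, Finset.mem_singleton, Set.mem_setOf_eq]
    rw [show χ = irrOne G ↔ (χ : G → ℂ) = fun _ => 1 from Subtype.ext_iff]
    tauto
  · simp [hn _ z hz, h2, h4]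
  · have := hy y (by rwa [← even_iff_two_dvd, Nat.not_even_iff_odd])
    rw [hSeq, Finset.sum_insert (by simp [h21.symm, h41.symm, h31.symm]),
      Finset.sum_insert (by simp [h24.symm, h32.symm]), Finset.sum_insert (by simp [h34.symm]),
      Finset.sum_singleton, hn1, h2, h4, irrOne_apply] at this
    push_cast at this
    linear_combination this

end Cfsg.Agent.S0948
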