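import Cfsg.Statements.S2947
import Cfsg.Agent.Lib.ZN.JComp
import Cfsg.Agent.Lib.LocStr.SPE

set_option autoImplicit false
open Cfsg CfsgLib.ZN CfsgLib.LAE CfsgLib.LocStr

namespace Cfsg.Agent.S2947

/-- Let G be a finite group of characteristic 2 type in which every 2-local subgroup is solvable and the centralizer of Ω₁(Z(S)) lies in N_G(S) for every Sylow 2-subgroup S; suppose O₂(G) = 1, fix a Sylow 2-subgroup S and a 2-local subgroup M containing N_G(J(S)) (J the Thompson subgroup generated by the elementary abelian 2-subgroups of largest order). Then M is strongly embedded in G (a proper subgroup of even order whose intersection with each conjugate by an element outside M has odd order) if and only if no nontrivial 2-subgroup of M lies in a 2-local subgroup of G not contained in M. -/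
theorem result {G : Type*} [Group G] [Finite G] (hL : Cfsg.IsCharacteristicTwoType G) (hN : ∀ N : Subgroup G, Cfsg.IsTwoLocal N → Group.IsSolvable ↥N)
    (hZ : ∀ S : Sylow 2 G, Subgroup.centralizer (Cfsg.omegaCenterOf (S : Subgroup G) : Set G) ≤ Subgroup.normalizer ((S : Subgroup G) : Set G)) (hO : Cfsg.pCore 2 G = ⊥) (S : Sylow 2 G) (M : Subgroup G) (hM : Cfsg.IsTwoLocal M)
    (hMJ : Subgroup.normalizer (Cfsg.thompsonSubgroupOf 2 (S : Subgroup G) : Set G) ≤ M) :
    Cfsg.IsStronglyEmbedded M ↔ Cfsg.straddlingTwoSubgroups M = ∅ := by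
  haveI : Fact (Nat.Prime 2) := ⟨Nat.prime_two⟩
  have hiff : IsStronglyEmbedded M ↔ IsStronglyPEmbedded 2 M := by
    rw [spe_iff_classical]
    unfold IsStronglyEmbedded
    simp only [← even_iff_two_dvd, Nat.not_even_iff_odd, conjS_def]
  rw [hiff]
  constructor
  · intro h
    rw [Set.eq_empty_iff_forall_notMem]
    rintro T ⟨hT, hT1, hTM, L, ⟨R, hR, hR1, rfl⟩, hTL, hLM⟩
    apply hLM
    have h1 : T ⊔ R ≤ M := spe_le_of_inf_ne_bot h (isPGroup_sup hT hR hTL) (fun h0 => hT1 (by
      rw [eq_bot_iff, ← h0]; exact le_inf le_sup_left hTM))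
    exact spe_normalizer_le h hR (le_sup_right.trans h1) hR1
  · intro h
    obtain ⟨R, hR, hR1, hMR⟩ := hM
    have hRM : R ≤ M := hMR ▸ Subgroup.le_normalizer
    refine spe_of_normalizer_le ?_ ?_ ?_
    · intro htop
      apply hR1
      rw [eq_bot_iff, ← hO]
      refine le_pCore ?_ hR
      rw [← Subgroup.normalizer_eq_top_iff, ← hMR, htop]
    · exact (dvd_card_of_isPGroup hR hR1).trans (Subgroup.card_dvd_of_le hRM)
    · intro A hAM hA hA1
      by_contra hn
      have : A ∈ straddlingTwoSubgroups M :=
        ⟨hA, hA1, hAM, _, ⟨A, hA, hA1, rfl⟩, Subgroup.le_normalizer, hn⟩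
      rw [h] at this
      exact this

end Cfsg.Agent.S2947
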