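import Cfsg.Statements.S0018
import Cfsg.Agent.Lib.Core.Fitting

set_option autoImplicit false
open Cfsg

namespace Cfsg.Agent.S0018

/-- A finite solvable group whose Sylow p-subgroups are abelian has p-length one: a Sylow p-subgroup together with the largest normal subgroup of order prime to p generates a normal subgroup. -/
theorem result {G : Type*} [Group G] [Finite G] [Group.IsSolvable G]
    (p : ℕ) [Fact p.Prime] (P : Sylow p G) (hP : IsMulCommutative P) :
    ((P : Subgroup G) ⊔ Cfsg.pPrimeCore p G).Normal := by
  have hs := QuotientGroup.mk'_surjective (pPrimeCore p G)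
  have h1 : (P : Subgroup G).map (QuotientGroup.mk' (pPrimeCore p G))
      = pCore p (G ⧸ pPrimeCore p G) := by
    have hle := CfsgLib.Core.pCore_le_sylow (P.mapSurjective hs)
    refine le_antisymm ?_ hle
    have hP' : IsMulCommutative (P : Subgroup G) := hP
    refine le_trans ?_ (CfsgLib.Core.centralizer_pCore_le_of_isSolvable Fact.out
      (CfsgLib.Core.pPrimeCore_quotient_pPrimeCore p G))
    exact (Subgroup.le_centralizer _).trans (Subgroup.centralizer_le hle)
  have h2 := congrArg (Subgroup.comap (QuotientGroup.mk' (pPrimeCore p G))) h1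
  rw [Subgroup.comap_map_eq, QuotientGroup.ker_mk'] at h2
  rw [h2]
  infer_instance

end Cfsg.Agent.S0018
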