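import Cfsg.Statements.S0046
import Cfsg.Agent.Lib.SolvStruct.MinNonNilp
import Cfsg.Agent.Lib.Core.Basic

set_option autoImplicit false
open Cfsg

namespace Cfsg.Agent.S0046

/-- Schmidt's Theorem on minimal non-nilpotent groups: a finite group in which every maximal subgroup is nilpotent is solvable. -/
theorem result {G : Type*} [Group G] [Finite G]
    (h : ∀ M : Subgroup G, IsCoatom M → Group.IsNilpotent M) : Group.IsSolvable G := by
  by_cases hn : Group.IsNilpotent G
  · infer_instance
  obtain ⟨p, q, hp, hq, -, P, Q, hP, hQ, htop⟩ := CfsgLib.SolvStruct.minNonNilp_structure (G := G)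
    ⟨hn, fun H hH => by
      obtain ⟨M, hM, hle⟩ := (eq_top_or_exists_le_coatom H).resolve_left hH
      have := h M hM
      exact CfsgLib.Core.isNilpotent_of_le hle⟩
  have := Fact.mk hp
  have := Fact.mk hq
  have := P.isPGroup'.isNilpotent
  have := Q.isPGroup'.isNilpotent
  have h1 := CfsgLib.Core.isSolvable_sup_of_normal (P : Subgroup G) Q
  rw [htop] at h1
  exact CfsgLib.Core.isSolvable_of_mulEquiv Subgroup.topEquiv

end Cfsg.Agent.S0046
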