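import Cfsg.Statements.S0053
import Cfsg.Agent.Lib.SolvStruct.Frat

set_option autoImplicit false
open Cfsg

namespace Cfsg.Agent.S0053

/-- An abelian minimal normal subgroup N of a finite group is complemented exactly when N is not inside the Frattini subgroup. -/
theorem result {G : Type*} [Group G] [Finite G]
    (N : Subgroup G) [N.Normal] [IsMulCommutative N] (hN : N ≠ ⊥)
    (hmin : ∀ M : Subgroup G, M.Normal → M ≤ N → M = ⊥ ∨ M = N) :
    (∃ H : Subgroup G, Subgroup.IsComplement' N H) ↔ ¬ N ≤ frattini G := by
  constructor
  · rintro ⟨H, hH⟩ h1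
    have h3 : H = ⊤ := frattini_nongenerating
      (top_le_iff.1 (hH.sup_eq_top.ge.trans (sup_le (h1.trans le_sup_right) le_sup_left)))
    have h4 := hH.disjoint
    rw [h3, disjoint_top] at h4
    exact hN h4
  · intro h
    apply CfsgLib.SolvStruct.exists_isComplement'_of_inf_frattini
    exact (hmin _ inferInstance inf_le_left).resolve_right fun h' => h (h'.ge.trans inf_le_right)

end Cfsg.Agent.S0053
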