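import Cfsg.Statements.S0054
import Cfsg.Agent.Lib.Perm.MultiTransBurnside

set_option autoImplicit false
open Cfsg

namespace Cfsg.Agent.S0054

/-- A regular normal subgroup of a finite 2-transitive group is elementary abelian: it is commutative and all its elements have order dividing one prime. -/
theorem result {G : Type*} [Group G] [Finite G]
    {X : Type*} [Nonempty X] [MulAction G X] (h2 : MulAction.IsMultiplyPretransitive G X 2)
    (N : Subgroup G) [N.Normal] (htrans : MulAction.IsPretransitive N X) (hreg : ∀ x : X, MulAction.stabilizer N x = ⊥) :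
    IsMulCommutative N ∧ ∃ p : ℕ, p.Prime ∧ ∀ n ∈ N, n ^ p = 1 := by
  obtain ⟨a⟩ := ‹Nonempty X›
  have hr : ∀ m ∈ N, m • a = a → m = 1 := fun m hm h => by
    have : (⟨m, hm⟩ : N) ∈ MulAction.stabilizer N a := h
    rw [hreg, Subgroup.mem_bot] at this
    exact congrArg Subtype.val this
  have hconj : ∀ x ∈ N, ∀ y ∈ N, x ≠ 1 → y ≠ 1 → ∃ g : G, g * x * g⁻¹ = y := by
    intro x hx y hy hx1 hy1
    obtain ⟨g, hg1, hg2⟩ := MulAction.is_two_pretransitive_iff.1 h2
      (fun h : a = x • a => hx1 (hr x hx h.symm)) (fun h : a = y • a => hy1 (hr y hy h.symm))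
    refine ⟨g, (inv_mul_eq_one.1 (hr _ (N.mul_mem (N.inv_mem hy)
      (Subgroup.Normal.conj_mem inferInstance x hx g)) ?_)).symm⟩
    rw [mul_smul, mul_smul, mul_smul, inv_smul_eq_iff.2 hg1.symm, hg2, inv_smul_smul]
  by_cases hN : N = ⊥
  · subst hN
    exact ⟨inferInstance, 2, Nat.prime_two, fun n hn => by rw [Subgroup.mem_bot.1 hn, one_pow]⟩
  obtain ⟨z, hz, hz1, hzc⟩ := CfsgLib.Perm.exists_central_of_semiregular h2 N hN a hr
    fun g m hm => Or.inl (Subgroup.Normal.conj_mem inferInstance m hm g)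
  refine ⟨⟨⟨fun x y => Subtype.ext ?_⟩⟩, ?_⟩
  · by_cases hx : (x : G) = 1
    · simp [hx]
    obtain ⟨g, hg⟩ := hconj z hz x x.2 hz1 hx
    have := (hzc (g⁻¹ * y * g⁻¹⁻¹) (Subgroup.Normal.conj_mem inferInstance _ y.2 _)).eq
    change (x : G) * y = y * x
    rw [← hg]
    calc g * z * g⁻¹ * y = g * (z * (g⁻¹ * y * g⁻¹⁻¹)) * g⁻¹ := by group
      _ = _ := by rw [this]; group
  · obtain ⟨p, hp, hd⟩ := Nat.exists_prime_and_dvd (N.one_lt_card_iff_ne_bot.2 hN).ne'
    have := Fact.mk hp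
    obtain ⟨x, hx⟩ := exists_prime_orderOf_dvd_card' (G := N) p hd
    refine ⟨p, hp, fun n hn => ?_⟩
    by_cases hn1 : n = 1
    · rw [hn1, one_pow]
    have hx1 : (x : G) ≠ 1 := fun e => hp.ne_one (by rw [← hx, ← Subgroup.orderOf_coe, e, orderOf_one])
    obtain ⟨g, rfl⟩ := hconj x x.2 n hn hx1 hn1
    rw [conj_pow, ← hx, ← Subgroup.orderOf_coe, pow_orderOf_eq_one, mul_one, mul_inv_cancel]

end Cfsg.Agent.S0054
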