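import Cfsg.Statements.S0059
import Cfsg.Agent.Lib.Coprime.Action

set_option autoImplicit false
open Cfsg

namespace Cfsg.Agent.S0059

/-- Let a finite group act on a set on which a normal subgroup K of coprime order and index is transitive, with K or the quotient solvable. Then any complement H of K has a fixed point, and any two H-fixed points are interchanged by an element of K centralising H. -/
theorem result {G : Type*} [Group G] [Finite G] {X : Type*} [Nonempty X] [MulAction G X]
    (K H : Subgroup G) [K.Normal] (hc : Subgroup.IsComplement' K H) (hcop : (Nat.card K).Coprime K.index)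
    (hsolv : Group.IsSolvable K ∨ Group.IsSolvable (G ⧸ K)) (htrans : MulAction.IsPretransitive K X) :
    (∃ x : X, ∀ h ∈ H, h • x = x) ∧
    ∀ x y : X, (∀ h ∈ H, h • x = x) → (∀ h ∈ H, h • y = y) → ∃ k ∈ K ⊓ Subgroup.centralizer (H : Set G), k • x = y := by
  have hHK : H ≤ Subgroup.normalizer (K : Set G) := Subgroup.le_normalizer_of_normal
  have hcop' : (Nat.card H).Coprime (Nat.card K) := by
    rw [← hc.symm.index_eq_card]; exact hcop.symm
  have hs : Group.IsSolvable H ∨ Group.IsSolvable K :=
    hsolv.symm.imp (CfsgLib.Coprime.isSolvable_of_isComplement' hc) id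
  constructor
  · obtain ⟨x⟩ := ‹Nonempty X›
    obtain ⟨k, -, h⟩ := CfsgLib.Coprime.exists_fixed_in_orbit hHK hcop' hs x (fun a _ => by
      obtain ⟨k, hk⟩ := htrans.exists_smul_eq x (a • x)
      exact ⟨k, k.2, hk.symm⟩)
    exact ⟨k • x, h⟩
  · intro x y hx hy
    obtain ⟨k, rfl⟩ := htrans.exists_smul_eq x y
    exact CfsgLib.Coprime.exists_centralizer_smul_eq hHK hcop' hs x k.2 hx hy

end Cfsg.Agent.S0059
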