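import Cfsg.Statements.S0064
import Cfsg.Agent.Lib.Core.Fitting

set_option autoImplicit false
open Cfsg

namespace Cfsg.Agent.S0064

/-- A finite group is nilpotent exactly when each of its subgroups is subnormal. -/
theorem result {G : Type*} [Group G] [Finite G] :
    Group.IsNilpotent G ↔ ∀ H : Subgroup G, H.IsSubnormal := by
  constructor
  · intro _ H
    exact CfsgLib.Core.isSubnormal_of_isNilpotent H
  · intro h
    refine CfsgLib.Core.isNilpotent_of_forall_sylow_normal fun p _ P => ?_
    rw [le_antisymm (CfsgLib.Core.le_pCore_of_isSubnormal (h _) P.isPGroup')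
      (CfsgLib.Core.pCore_le_sylow P)]
    infer_instance

end Cfsg.Agent.S0064
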