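import Mathlib
import Cfsg.Statements.S0073
import Cfsg.Agent.Lib.Transfer.Frobenius

set_option autoImplicit false
open Cfsg

namespace Cfsg.Agent.S0073

/-- For a finite non-abelian simple group, either the cube of the least prime divisor of the order divides the order, or 12 does. -/
theorem result {G : Type*} [Group G] [Finite G] [IsSimpleGroup G] (hG : ∃ x y : G, x * y ≠ y * x) : (Nat.card G).minFac ^ 3 ∣ Nat.card G ∨ 12 ∣ Nat.card G := by
  by_contra hc
  rw [not_or] at hc
  obtain ⟨hc1, hc2⟩ := hc
  have h1 : Nat.card G ≠ 1 := Finite.one_lt_card.ne'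
  set p := (Nat.card G).minFac with hpdef
  have hp : Fact p.Prime := ⟨Nat.minFac_prime h1⟩
  obtain ⟨P⟩ : Nonempty (Sylow p G) := inferInstance
  obtain ⟨n, hn⟩ := P.isPGroup'.exists_card_eq
  have hn2 : n ≤ 2 := by
    by_contra h
    exact hc1 ((pow_dvd_pow p (by omega)).trans (hn ▸ Subgroup.card_subgroup_dvd_card _))
  have hN : HasNormalPComplement p G := by
    refine CfsgLib.Transfer.hasNormalPComplement_of_not_dvd_pow_sub_one P hn ?_
    intro q hq hqG i hi1 hi2 hd
    have hpq : p ≤ q := Nat.minFac_le_of_dvd hq.two_le hqG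
    have hp2 := hp.out.two_le
    have hnd : ¬ q ∣ p - 1 := fun h => by
      have := Nat.le_of_dvd (by omega) h
      omega
    have hi : i = 1 ∨ i = 2 := by omega
    rcases hi with rfl | rfl
    · exact hnd (by simpa using hd)
    · have e : p ^ 2 - 1 = (p + 1) * (p - 1) := by
        have := Nat.sq_sub_sq p 1
        simpa using this
      rw [e] at hd
      rcases (Nat.Prime.dvd_mul hq).mp hd with h | h
      · have h3 := Nat.le_of_dvd (by omega) h
        have hqp : q ≠ p := by
          rintro rfl
          exact hq.ne_one (Nat.dvd_one.mp ((Nat.dvd_add_right dvd_rfl).mp h))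
        have hq1 : q = p + 1 := by omega
        have hp2' : p = 2 := by
          rcases hp.out.eq_two_or_odd with h | h
          · exact h
          · rcases hq.eq_two_or_odd with h' | h' <;> omega
        have h4 : 4 ∣ Nat.card G := by
          have : n = 2 := by omega
          have h5 : p ^ n ∣ Nat.card G := hn ▸ Subgroup.card_subgroup_dvd_card _
          rwa [this, hp2'] at h5
        have h5 : 3 ∣ Nat.card G := by rwa [hq1, hp2'] at hqG
        exact hc2 (Nat.Coprime.mul_dvd_of_dvd_of_dvd (by norm_num : Nat.Coprime 4 3) h4 h5)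
      · exact hnd h
  have hnd := CfsgLib.Transfer.hasNormalPComplement_iff_not_dvd.mp hN
  rcases (CfsgLib.Transfer.pResidual_normal p G).eq_bot_or_eq_top with h | h
  · have hG' : IsPGroup p G := CfsgLib.Transfer.pResidual_eq_bot_iff.mp h
    obtain ⟨x, y, hxy⟩ := hG
    have := hG'.isNilpotent
    rcases (inferInstance : (Subgroup.center G).Normal).eq_bot_or_eq_top with h2 | h2
    · exact Group.IsNilpotent.center_ne_bot G h2
    · exact hxy (Subgroup.mem_center_iff.mp (h2 ▸ Subgroup.mem_top y) x)
  · rw [h, Subgroup.card_top] at hnd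
    exact hnd (Nat.minFac_dvd _)

end Cfsg.Agent.S0073
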