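import Mathlib
import Cfsg.Statements.S0076
import Cfsg.Agent.Lib.Transfer.Abelian

set_option autoImplicit false
open Cfsg

namespace Cfsg.Agent.S0076

/-- Two P-invariant subsets of a Sylow p-subgroup P that are conjugate in G are conjugate under the normalizer of P. -/
theorem result {G : Type*} [Group G] [Finite G] {p : ℕ} [Fact p.Prime] (P : Sylow p G) (X Y : Set G) (hXP : X ⊆ P) (hYP : Y ⊆ P) (hX : ∀ x ∈ P, (fun y => x * y * x⁻¹) '' X = X) (hY : ∀ x ∈ P, (fun y => x * y * x⁻¹) '' Y = Y) (g : G) (hg : (fun y => g * y * g⁻¹) '' X = Y) : ∃ n ∈ Subgroup.normalizer (P : Set G), (fun y => n * y * n⁻¹) '' X = Y := by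
  have h1 : (P : Subgroup G) ≤ Subgroup.normalizer X := fun x hx =>
    Subgroup.mem_normalizer_iff_conj_image_eq.mpr (hX x hx)
  have h2 : CfsgLib.Tech.cj g⁻¹ P ≤ Subgroup.normalizer X := by
    intro y hy
    rw [CfsgLib.Tech.mem_cj, inv_inv] at hy
    have h3 := hY _ hy
    rw [Subgroup.mem_normalizer_iff_conj_image_eq]
    apply Set.image_injective.mpr (MulAut.conj g).injective
    rw [← hg, Set.image_image] at h3
    rw [Set.image_image]
    convert h3 using 2
    · simp [mul_assoc]
    · rfl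
  obtain ⟨n, hn, k, hk, rfl⟩ := CfsgLib.Transfer.exists_normalizer_mul_of_le P h1 h2
  refine ⟨n, hn, ?_⟩
  rw [← hg]
  conv_lhs => rw [← Subgroup.mem_normalizer_iff_conj_image_eq.mp hk]
  rw [Set.image_image]
  congr 1
  ext z; simp [mul_assoc]

end Cfsg.Agent.S0076
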