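import Mathlib
import Cfsg.Statements.S0078
import Cfsg.Agent.Lib.Transfer.Abelian

set_option autoImplicit false
open Cfsg

namespace Cfsg.Agent.S0078

/-- In a p-normal group, a Sylow p-subgroup P meets O^p(G) exactly where it meets O^p(V), for any subgroup V containing the normalizer of the centre of P. -/
theorem result {G : Type*} [Group G] [Finite G] {p : ℕ} [Fact p.Prime] (P : Sylow p G) (hn : ∀ Q : Sylow p G, (P : Subgroup G) ⊓ Subgroup.centralizer (P : Set G) ≤ (Q : Subgroup G) → (Q : Subgroup G) ⊓ Subgroup.centralizer (Q : Set G) = (P : Subgroup G) ⊓ Subgroup.centralizer (P : Set G)) (V : Subgroup G) (hV : Subgroup.normalizer (((P : Subgroup G) ⊓ Subgroup.centralizer (P : Set G) : Subgroup G) : Set G) ≤ V) : (P : Subgroup G) ⊓ Cfsg.pResidual p G = (P : Subgroup G) ⊓ (Cfsg.pResidual p V).map V.subtype := by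
  set Z : Subgroup G := (P : Subgroup G) ⊓ Subgroup.centralizer (P : Set G) with hZ
  have hN : Subgroup.normalizer ((P : Subgroup G) : Set G) ≤ Subgroup.normalizer (Z : Set G) :=
    (le_inf le_rfl (CfsgLib.Core.normalizer_le_normalizer_centralizer _)).trans
      Subgroup.inf_normalizer_le_normalizer_inf
  have hW : IsWeaklyClosed Z P := by
    rw [CfsgLib.Transfer.isWeaklyClosed_iff_normal_in_sylows P inf_le_left hN]
    intro R hR
    change _ ≤ Subgroup.normalizer (Z : Set G)
    rw [← hn R hR]
    exact Subgroup.le_normalizer.trans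
      ((le_inf le_rfl (CfsgLib.Core.normalizer_le_normalizer_centralizer _)).trans
        Subgroup.inf_normalizer_le_normalizer_inf)
  rw [inf_comm, inf_comm (P : Subgroup G)]
  refine CfsgLib.Transfer.pResidual_inf_sylow_eq_of_control P
    (Subgroup.le_normalizer.trans (hN.trans hV)) fun x hx g hg => ?_
  obtain ⟨u, hu, e⟩ :=
    CfsgLib.Transfer.control_element_of_isWeaklyClosed_central P inf_le_right hW x hx g hg
  exact ⟨u, hV hu, e⟩

end Cfsg.Agent.S0078
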