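import Mathlib
import Cfsg.Statements.S0083
import Cfsg.Agent.Lib.Transfer.Abelian
import Cfsg.Agent.Lib.Transfer.Frobenius

set_option autoImplicit false
open Cfsg

namespace Cfsg.Agent.S0083

/-- For an abelian Sylow p-subgroup P, a normal p-complement exists exactly when the normalizer of P is an internal direct product of P with some subgroup. -/
theorem result {G : Type*} [Group G] [Finite G] {p : ℕ} [Fact p.Prime] (P : Sylow p G) (hP : IsMulCommutative P) : Cfsg.HasNormalPComplement p G ↔ ∃ Q : Subgroup G, Q ≤ Subgroup.centralizer (P : Set G) ∧ Q ⊓ (P : Subgroup G) = ⊥ ∧ Q ⊔ (P : Subgroup G) = Subgroup.normalizer (P : Set G) := by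
  constructor
  · intro h
    refine ⟨pResidual p G ⊓ Subgroup.normalizer ((P : Subgroup G) : Set G), ?_, ?_, ?_⟩
    · intro g hg
      exact CfsgLib.Transfer.mem_centralizer_of_mem_normalizer h P.isPGroup' hg.2
        ((CfsgLib.Transfer.mem_pResidual_iff_coprime h g).mp hg.1)
    · rw [eq_bot_iff, ← (CfsgLib.Transfer.hasNormalPComplement_iff_inf_eq_bot P).mp h]
      exact inf_le_inf_right _ inf_le_left
    · have := CfsgLib.Transfer.pResidual_normal p G
      have h1 := CfsgLib.Core.sup_inf_assoc_of_normal_right (B := pResidual p G)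
        (Subgroup.le_normalizer (H := (P : Subgroup G)))
      rw [sup_comm (P : Subgroup G) (pResidual p G), CfsgLib.Transfer.pResidual_sup_sylow,
        top_inf_eq] at h1
      rw [sup_comm]
      exact h1.symm
  · rintro ⟨Q, h1, -, h3⟩
    apply CfsgLib.Transfer.burnside_normal_complement P
    rw [P.coe_coe, ← h3]
    exact sup_le h1 ((P : Subgroup G).le_centralizer (h := hP))

end Cfsg.Agent.S0083
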