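import Mathlib
import Cfsg.Statements.S0087
import Cfsg.Agent.Lib.Transfer.Focal
import Cfsg.Agent.Lib.Tech.SylowIn
import Cfsg.Agent.S0079
import Cfsg.Agent.S0581

set_option autoImplicit false
open Cfsg

namespace Cfsg.Agent.S0087

open Subgroup CfsgLib.Transfer CfsgLib.Tech
open scoped Pointwise commutatorElement

/-- A Hall subgroup that is central in its normalizer has a normal complement. -/
theorem result {G : Type*} [Group G] [Finite G] (H : Subgroup G) (hHall : Nat.Coprime (Nat.card H) H.index) (h : Subgroup.normalizer (H : Set G) ≤ Subgroup.centralizer (H : Set G)) : ∃ N : Subgroup G, N.Normal ∧ N.IsComplement' H := by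
  have hHc : H ≤ centralizer (H : Set G) := le_normalizer.trans h
  have hcomm : IsMulCommutative H := ⟨⟨fun a b => Subtype.ext (hHc b.2 a a.2)⟩⟩
  have hnil : Group.IsNilpotent H := by
    let _ : CommGroup H := { (inferInstance : Group H) with mul_comm := hcomm.is_comm.comm }
    infer_instance
  refine (Cfsg.Agent.S0079.result H hnil hHall).2 ?_
  rintro x hx y hy ⟨g, rfl⟩
  refine ⟨1, one_mem _, ?_⟩
  set C := centralizer {x} with hC
  have hHC : H ≤ C := fun z hz => by
    rw [hC, mem_centralizer_singleton_iff]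
    exact hHc hx z hz
  have hHC' : cj g⁻¹ H ≤ C := by
    rw [cj_le_iff]
    intro z hz
    rw [hC, mem_centralizer_singleton_iff]
    have := hHc hy z hz
    calc g⁻¹ * z * g⁻¹⁻¹ * x = g⁻¹ * (z * (g * x * g⁻¹)) * g := by group
      _ = g⁻¹ * ((g * x * g⁻¹) * z) * g := by rw [this]
      _ = _ := by group
  have e := subgroupOfEquivOfLe hHC
  have e' := subgroupOfEquivOfLe hHC'
  obtain ⟨c, hc⟩ := Cfsg.Agent.S0581.result (H.subgroupOf C) ((cj g⁻¹ H).subgroupOf C)
    (Group.nilpotent_of_mulEquiv e.symm)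
    (by
      rw [Nat.card_congr e.toEquiv]
      exact hHall.coprime_dvd_right (relIndex_dvd_index_of_le hHC))
    (by
      intro p _ hp
      rwa [Nat.card_congr e'.toEquiv, card_cj, ← Nat.card_congr e.toEquiv] at hp)
  have hn : (c : G)⁻¹ * g⁻¹ ∈ normalizer (H : Set G) := by
    refine mem_normalizer_of_forall fun z hz => ?_
    have h1 : g⁻¹ * z * g⁻¹⁻¹ ∈ cj g⁻¹ H := conj_mem_cj.2 hz
    have h2 := hc (x := ⟨_, hHC' h1⟩) h1
    rw [smul_eq_cj, mem_cj, mem_subgroupOf] at h2
    simpa [mul_assoc] using h2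
  have h3 := h (inv_mem hn) x hx
  have h4 : (c : G) * x = x * c := mem_centralizer_singleton_iff.1 c.2
  calc 1 * x * 1⁻¹ = x * ((c : G)⁻¹ * g⁻¹)⁻¹ * ((c : G)⁻¹ * g⁻¹) := by group
    _ = g * ((c : G) * x) * (c : G)⁻¹ * g⁻¹ := by rw [h3]; group
    _ = _ := by rw [h4]; group

end Cfsg.Agent.S0087
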