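import Mathlib
import Cfsg.Statements.S0091
import Cfsg.Agent.Lib.Transfer.Focal

set_option autoImplicit false
open Cfsg

namespace Cfsg.Agent.S0091

/-- If a nontrivial Sylow p-subgroup controls its own fusion then it is not contained in the derived subgroup. -/
theorem result {G : Type*} [Group G] [Finite G] {p : ℕ} [Fact p.Prime] (P : Sylow p G) (hp : p ∣ Nat.card G) (h : ∀ x ∈ P, ∀ y ∈ P, (∃ g : G, g * x * g⁻¹ = y) → ∃ z ∈ P, z * x * z⁻¹ = y) : ¬ (P : Subgroup G) ≤ commutator G := by
  intro hle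
  have h1 : HasNormalPComplement p G := (CfsgLib.Transfer.hasNormalPComplement_iff_control P).mpr
    fun x hx g hg => by
      obtain ⟨z, hz, e⟩ := h x hx _ hg ⟨g, rfl⟩
      exact ⟨z, hz, e.symm⟩
  have h2 := CfsgLib.Transfer.hasNormalPComplement_iff_not_dvd.mp h1
  rw [(CfsgLib.Transfer.pResidual_eq_top_iff_le_commutator P).mpr hle, Subgroup.card_top] at h2
  exact h2 hp

end Cfsg.Agent.S0091
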