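import Mathlib
import Cfsg.Statements.S0092
import Cfsg.Agent.Lib.Transfer.Abelian
import Cfsg.Agent.Lib.Coprime.SchurZassenhaus

set_option autoImplicit false
open Cfsg

namespace Cfsg.Agent.S0092

open Subgroup CfsgLib.Transfer
open scoped Pointwise commutatorElement

/-- If the Sylow p-subgroups of O^p(G) are abelian then G splits over O^p(G). -/
theorem result {G : Type*} [Group G] [Finite G] {p : ℕ} [Fact p.Prime] (h : ∀ Q : Sylow p (Cfsg.pResidual p G), IsMulCommutative Q) : ∃ K : Subgroup G, K.IsComplement' (Cfsg.pResidual p G) := by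
  classical
  set K := Cfsg.pResidual p G with hK
  have hKn : K.Normal := pResidual_normal p G
  obtain ⟨Q₀⟩ : Nonempty (Sylow p K) := inferInstance
  set Q : Subgroup G := (Q₀ : Subgroup K).map K.subtype with hQ
  have hQK : Q ≤ K := map_subtype_le _
  have hQs : Q.subgroupOf K = Q₀ := by
    rw [hQ, subgroupOf, comap_map_eq_self_of_injective K.subtype_injective]
  have hQp : IsPGroup p Q := Q₀.isPGroup'.map _
  have hfr : normalizer (Q : Set G) ⊔ K = ⊤ := Q₀.normalizer_sup_eq_top
  set L := K ⊓ normalizer (Q : Set G) with hL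
  have hQL : Q ≤ L := le_inf hQK le_normalizer
  have hrel : ¬ p ∣ Q.relIndex L := by
    intro hd
    apply Q₀.not_dvd_index
    have h1 : Q.relIndex L ∣ Q.relIndex K := by
      rw [← relIndex_mul_relIndex Q L K hQL inf_le_left]
      exact dvd_mul_right _ _
    have := hd.trans h1
    rwa [relIndex, hQs] at this
  obtain ⟨k, hk⟩ := hQp.exists_card_eq
  have hcop : (Nat.card Q).Coprime (Q.relIndex L) := by
    rw [hk]
    exact ((Nat.Prime.coprime_iff_not_dvd Fact.out).2 hrel).pow_left k
  obtain ⟨R, hRL, hQR, hsup, hcard⟩ :=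
    CfsgLib.Coprime.exists_complement_of_le_normalizer hQL inf_le_right hcop
  set M := normalizer (Q : Set G) ⊓ normalizer (R : Set G) with hM
  have hQsol : Group.IsSolvable Q := by
    have := hQp.isNilpotent
    infer_instance
  have hNM : normalizer (Q : Set G) ≤ K ⊔ M := by
    intro n hn
    have hA : MulAut.conj n • R ≤ Q ⊔ R := by
      rw [hsup, CfsgLib.Coprime.conj_smul_le_iff]
      intro x hx
      exact ⟨hKn.conj_mem _ (hRL hx).1 _,
        (normalizer (Q : Set G)).mul_mem ((normalizer (Q : Set G)).mul_mem hn (hRL hx).2)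
          (inv_mem hn)⟩
    obtain ⟨c, hc, hce⟩ := CfsgLib.Coprime.exists_conj_smul_eq_of_le_sup (K := Q)
      (A := MulAut.conj n • R) (S := R) (hRL.trans inf_le_right) hA
      (by rw [CfsgLib.Coprime.card_conj_smul, hcard]; exact hcop.symm) (Or.inr hQsol)
      (by rw [CfsgLib.Coprime.card_conj_smul])
    have hcn : c * n ∈ M := by
      refine ⟨mul_mem (le_normalizer hc) hn, ?_⟩
      change c * n ∈ normalizer (R : Set G)
      rw [CfsgLib.Coprime.mem_normalizer_iff_conj_smul_eq, map_mul, mul_smul, hce]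
    have : n = c⁻¹ * (c * n) := by group
    rw [this]
    exact mul_mem (mem_sup_left (inv_mem (hQK hc))) (mem_sup_right hcn)
  obtain ⟨P₀⟩ : Nonempty (Sylow p M) := inferInstance
  set P : Subgroup G := (P₀ : Subgroup M).map M.subtype with hP
  have hPM : P ≤ M := map_subtype_le _
  have hPp : IsPGroup p P := P₀.isPGroup'.map _
  have hMP : M ≤ K ⊔ P := by
    have h1 := congrArg (Subgroup.map M.subtype) (pResidual_sup_sylow P₀)
    rw [Subgroup.map_sup, ← MonoidHom.range_eq_map, subtype_range] at h1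
    rw [← h1]
    exact sup_le_sup_right (map_pResidual_le _) _
  have htop : P ⊔ K = ⊤ := by
    rw [eq_top_iff, ← hfr, sup_comm P K]
    exact sup_le (hNM.trans (sup_le le_sup_left hMP)) le_sup_left
  have hbot : P ⊓ K = ⊥ := by
    rw [eq_bot_iff]
    rintro x ⟨hxP, hxK⟩
    have hxQ : x ∈ Q := by
      have h1 := IsPGroup.inf_normalizer_sylow (hPp.comap_subtype (K := K)) Q₀
      have h2 : (⟨x, hxK⟩ : K) ∈ P.comap K.subtype ⊓ normalizer (Q₀ : Set K) := by
        refine ⟨hxP, ?_⟩
        have h3 : (⟨x, hxK⟩ : K) ∈ (normalizer (Q : Set G)).subgroupOf K := (hPM hxP).1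
        rw [subgroupOf_normalizer_eq hQK, hQs] at h3
        exact h3
      rw [h1] at h2
      exact ⟨_, h2.2, rfl⟩
    have hxc : L ≤ centralizer {x} := by
      rw [← hsup]
      refine sup_le ?_ ?_
      · intro y hy
        rw [mem_centralizer_singleton_iff]
        obtain ⟨y', hy', rfl⟩ := hy
        obtain ⟨x', hx', rfl⟩ := hxQ
        have := (h Q₀).is_comm.comm ⟨y', hy'⟩ ⟨x', hx'⟩
        exact congrArg (fun z : (Q₀ : Subgroup K) => ((z : K) : G)) this
      · intro y hy
        rw [mem_centralizer_singleton_iff]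
        have h1 : x * y * x⁻¹ * y⁻¹ ∈ Q ⊓ R := by
          refine ⟨?_, R.mul_mem ((mem_normalizer_iff.1 (hPM hxP).2 y).1 hy) (inv_mem hy)⟩
          have := mul_mem hxQ ((mem_normalizer_iff.1 (hRL hy).2 x⁻¹).1 (inv_mem hxQ))
          simpa [mul_assoc] using this
        rw [hQR, mem_bot] at h1
        have h2 : x * y = x * y * x⁻¹ * y⁻¹ * (y * x) := by group
        rw [h2, h1, one_mul]
    have h4 := inf_centralizer_normalizer_eq_bot Q₀ (h Q₀) pResidual_pResidual
    have h5 : (⟨x, hxK⟩ : K) ∈ (Q₀ : Subgroup K) ⊓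
        centralizer (normalizer ((Q₀ : Subgroup K) : Set K) : Set K) := by
      refine ⟨by rw [← hQs]; exact hxQ, ?_⟩
      intro y hy
      rw [← hQs, ← subgroupOf_normalizer_eq hQK] at hy
      have := hxc (x := y) ⟨y.2, hy⟩
      rw [mem_centralizer_singleton_iff] at this
      exact Subtype.ext this
    rw [h4, mem_bot] at h5
    rw [mem_bot]
    exact congrArg Subtype.val h5
  refine ⟨P, isComplement'_of_disjoint_and_mul_eq_univ (disjoint_iff.2 hbot) ?_⟩
  rw [← mul_normal, htop, coe_top]

end Cfsg.Agent.S0092
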