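import Cfsg.Statements.S0094
import Cfsg.Agent.Lib.PGroup.Basic

set_option autoImplicit false
open Cfsg

namespace Cfsg.Agent.S0094

/-- In a special p-group every central element has order dividing p. -/
theorem result {P : Type*} [Group P] [Finite P] {p : ℕ} [Fact p.Prime] (h : Cfsg.IsSpecial p P) (z : P) (hz : z ∈ Subgroup.center P) : z ^ p = 1 := by
  obtain ⟨hP, hΦ, hc⟩ := h
  rw [← hc, commutator_eq_closure] at hz
  induction hz using Subgroup.closure_induction with
  | mem x hx =>
    obtain ⟨a, b, rfl⟩ := hx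
    have h1 := CfsgLib.PGroup.mul_eq_mul_mul_commutator b⁻¹ a⁻¹
    rw [inv_inv, inv_inv] at h1
    have h2 : commutatorElement.bracket a b ∈ Subgroup.center P :=
      hc ▸ Subgroup.commutator_mem_commutator (Subgroup.mem_top _) (Subgroup.mem_top _)
    refine CfsgLib.PGroup.comm_pow_eq_one_of_left h1 (Subgroup.mem_center_iff.1 h2 _).symm ?_
    have h3 := CfsgLib.PGroup.pow_mem_frattini hP a⁻¹
    rw [hΦ] at h3
    exact (Subgroup.mem_center_iff.1 h3 _).symm
  | one => exact one_pow p
  | mul x y hx hy ihx ihy =>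
    rw [← commutator_eq_closure, hc] at hx
    rw [(Commute.mul_pow (Subgroup.mem_center_iff.1 hx y).symm), ihx, ihy, one_mul]
  | inv x _ ih => rw [inv_pow, ih, inv_one]

end Cfsg.Agent.S0094
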