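import Cfsg.Statements.S0099
import Cfsg.Agent.Lib.ExtraTwo.Classify

set_option autoImplicit false
open Cfsg

namespace Cfsg.Agent.S0099

/-- Among three extraspecial 2-groups of equal order, some two are isomorphic. -/
theorem result {E₁ : Type*} {E₂ : Type*} {E₃ : Type*} [Group E₁] [Group E₂] [Group E₃] [Finite E₁] [Finite E₂] [Finite E₃] (h₁ : Cfsg.IsExtraspecial 2 E₁) (h₂ : Cfsg.IsExtraspecial 2 E₂) (h₃ : Cfsg.IsExtraspecial 2 E₃) (h12 : Nat.card E₁ = Nat.card E₂) (h23 : Nat.card E₂ = Nat.card E₃) : Nonempty (E₁ ≃* E₂) ∨ Nonempty (E₂ ≃* E₃) ∨ Nonempty (E₁ ≃* E₃) := by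
  obtain ⟨z₁, e₁⟩ := CfsgLib.ExtraTwo.exists_ES_top h₁
  obtain ⟨z₂, e₂⟩ := CfsgLib.ExtraTwo.exists_ES_top h₂
  obtain ⟨z₃, e₃⟩ := CfsgLib.ExtraTwo.exists_ES_top h₃
  obtain ⟨k, hk, t₁⟩ := e₁.exists_plus_or_minus
  have t₂ := (e₂.plus_or_minus (n := k + 1)
    (by rw [← hk, Subgroup.card_top, Subgroup.card_top, h12])).2
  have t₃ := (e₃.plus_or_minus (n := k + 1)
    (by rw [← hk, Subgroup.card_top, Subgroup.card_top, h12, h23])).2
  rcases t₁ with t₁ | t₁ <;> rcases t₂ with t₂ | t₂ <;> rcases t₃ with t₃ | t₃ <;>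
    first
    | exact Or.inl (CfsgLib.ExtraTwo.nonempty_mulEquiv_of_top (t₁.nonempty_mulEquiv t₂))
    | exact Or.inr (Or.inl (CfsgLib.ExtraTwo.nonempty_mulEquiv_of_top (t₂.nonempty_mulEquiv t₃)))
    | exact Or.inr (Or.inr (CfsgLib.ExtraTwo.nonempty_mulEquiv_of_top (t₁.nonempty_mulEquiv t₃)))

end Cfsg.Agent.S0099
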