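import Mathlib
import Cfsg.Statements.S0107
import Cfsg.Agent.Lib.Transfer.Thompson
import Cfsg.Agent.Lib.TwoGrp.Pres

set_option autoImplicit false
open Cfsg

namespace Cfsg.Agent.S0107

/-- A finite group with no nontrivial 2-group quotient and dihedral Sylow 2-subgroups of order at least 8 has a single class of involutions. -/
theorem result {G : Type*} [Group G] [Finite G] (T : Sylow 2 G) (n : ℕ) (hn : 2 ≤ n) (hT : Nonempty ((T : Subgroup G) ≃* DihedralGroup (2 ^ n))) (hO : Cfsg.pResidual 2 G = ⊤) (x y : G) (hx : orderOf x = 2) (hy : orderOf y = 2) : ∃ g : G, g * x * g⁻¹ = y := by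
  obtain ⟨e⟩ := hT
  obtain ⟨r, s, -, -, -, hs, hmem⟩ := CfsgLib.TwoGrp.exists_gens_of_dihedral e
  have hi : (Subgroup.zpowers r).relIndex (T : Subgroup G) = 2 := by
    refine CfsgLib.TwoGrp.relIndex_eq_two_of_mem_iff hs fun g => ?_
    rw [hmem]
    constructor
    · rintro ⟨i, rfl | rfl⟩
      · exact Or.inl ⟨i, rfl⟩
      · exact Or.inr ⟨_, ⟨i, rfl⟩, rfl⟩
    · rintro (⟨i, rfl⟩ | ⟨_, ⟨i, rfl⟩, rfl⟩)
      · exact ⟨i, Or.inl rfl⟩
      · exact ⟨i, Or.inr rfl⟩
  exact CfsgLib.Transfer.conj_of_cyclic_index_two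
    (CfsgLib.Transfer.index_ne_two_of_pResidual_eq_top hO) T.not_dvd_index hi inferInstance hx hy

end Cfsg.Agent.S0107
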