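import Cfsg.Statements.S0115
import Cfsg.Agent.Lib.PGroup.MaxClass

set_option autoImplicit false
open Cfsg

namespace Cfsg.Agent.S0115

/-- A 2-group of order 2^n, n ≥ 3, is of maximal class exactly when its commutator quotient is a Klein four-group. -/
theorem result {X : Type*} [Group X] [Finite X] (n : ℕ) (hn : 3 ≤ n) (hX : Nat.card X = 2 ^ n) : Group.nilpotencyClass X = n - 1 ↔ IsKleinFour (X ⧸ commutator X) := by
  rw [CfsgLib.PGroup.maximal_class_iff_index_commutator_eq_four hn hX]
  refine ⟨fun h => ⟨h, ?_⟩, fun h => h.card_four⟩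
  have hP := IsPGroup.of_card hX
  refine (not_isCyclic_iff_exponent_eq_prime Nat.prime_two h).1 fun hc => ?_
  have := CfsgLib.PGroup.isCyclic_of_isCyclic_quotient_commutator hP hc
  rw [commutator_eq_bot, Subgroup.index_bot, hX] at h
  have h2 : 2 ^ 3 ≤ 2 ^ n := Nat.pow_le_pow_right two_pos hn
  omega

end Cfsg.Agent.S0115
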