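import Mathlib
import Cfsg.Statements.S0116
import Cfsg.Agent.Lib.Transfer.Alperin

set_option autoImplicit false
open Cfsg

namespace Cfsg.Agent.S0116

open CfsgLib.Tech CfsgLib.Transfer

section
variable {G : Type*} [Group G] {p : ℕ}

/-- Tameness of the step `(Q, x)`. -/
def Tame (P Q : Sylow p G) (x : G) : Prop :=
  x ∈ Subgroup.normalizer ((((P : Subgroup G) ⊓ (Q : Subgroup G)) : Subgroup G) : Set G) ∧ ¬ p ∣ ((P : Subgroup G) ⊓ Subgroup.normalizer ((((P : Subgroup G) ⊓ (Q : Subgroup G)) : Subgroup G) : Set G)).relIndex (Subgroup.normalizer ((((P : Subgroup G) ⊓ (Q : Subgroup G)) : Subgroup G) : Set G)) ∧ ¬ p ∣ ((Q : Subgroup G) ⊓ Subgroup.normalizer ((((P : Subgroup G) ⊓ (Q : Subgroup G)) : Subgroup G) : Set G)).relIndex (Subgroup.normalizer ((((P : Subgroup G) ⊓ (Q : Subgroup G)) : Subgroup G) : Set G))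

/-- Chains of tame steps. -/
inductive Ch (P : Sylow p G) : Subgroup G → G → List (Sylow p G × G) → Prop
  | nil (A : Subgroup G) : Ch P A 1 []
  | cons (A : Subgroup G) (g : G) (Q : Sylow p G) (x : G) (l : List (Sylow p G × G)) :
      Tame P Q x → A ≤ (P : Subgroup G) ⊓ Q → Ch P (cj x⁻¹ A) g l → Ch P A (x * g) ((Q, x) :: l)

theorem ch_mono {P : Sylow p G} {B : Subgroup G} {g : G} {l : List (Sylow p G × G)}
    (h : Ch P B g l) : ∀ A, A ≤ B → Ch P A g l := by
  induction h with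
  | nil B => exact fun A _ => Ch.nil A
  | cons B g Q x l h1 h2 _ ih =>
    exact fun A hA => Ch.cons A g Q x l h1 (hA.trans h2) (ih _ (cj_mono _ hA))

theorem ch_comp {P : Sylow p G} {A : Subgroup G} {g : G} {l : List (Sylow p G × G)}
    (h : Ch P A g l) : ∀ k m, Ch P (cj g⁻¹ A) k m → Ch P A (g * k) (l ++ m) := by
  induction h with
  | nil B =>
    intro k m hm
    simpa [cj_one] using hm
  | cons B g Q x l h1 h2 _ ih =>
    intro k m hm
    rw [mul_assoc]
    refine Ch.cons B _ Q x _ h1 h2 (ih k m ?_)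
    rwa [← cj_mul, ← mul_inv_rev]

theorem ch_out {P : Sylow p G} {A : Subgroup G} {g : G} {l : List (Sylow p G × G)}
    (h : Ch P A g l) : (l.map Prod.snd).prod = g ∧ (∀ e ∈ l, Tame P e.1 e.2) ∧
      ∀ (i : ℕ) (hi : i < l.length),
        cj (((l.map Prod.snd).take i).prod)⁻¹ A ≤ (P : Subgroup G) ⊓ (l[i].1 : Subgroup G) := by
  induction h with
  | nil B => simp
  | cons B g Q x l h1 h2 _ ih =>
    obtain ⟨a1, a2, a3⟩ := ih
    refine ⟨by simp [a1], ?_, ?_⟩
    · intro e he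
      rcases List.mem_cons.mp he with rfl | he
      · exact h1
      · exact a2 e he
    · intro i hi
      cases i with
      | zero => simpa [cj_one] using h2
      | succ i =>
        have := a3 i (by simpa using hi)
        rw [← cj_mul, ← mul_inv_rev] at this
        simpa using this

end

/-- The Alperin fusion Theorem states that conjugation between subsets of a Sylow p-subgroup P factors through normalizers of tame intersections P ∩ Q_i with other Sylow p-subgroups, carrying the subset along step by step. -/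
theorem result {G : Type*} [Group G] [Finite G] {p : ℕ} [Fact p.Prime] (P : Sylow p G) (A : Set G) (g : G) (hA : A ⊆ (P : Set G)) (hAg : (fun a => g⁻¹ * a * g) '' A ⊆ (P : Set G)) : ∃ (n : ℕ) (Q : Fin n → Sylow p G) (x : Fin n → G), (List.ofFn x).prod = g ∧ (∀ i : Fin n, x i ∈ Subgroup.normalizer ((((P : Subgroup G) ⊓ (Q i : Subgroup G)) : Subgroup G) : Set G) ∧ ¬ p ∣ ((P : Subgroup G) ⊓ Subgroup.normalizer ((((P : Subgroup G) ⊓ (Q i : Subgroup G)) : Subgroup G) : Set G)).relIndex (Subgroup.normalizer ((((P : Subgroup G) ⊓ (Q i : Subgroup G)) : Subgroup G) : Set G)) ∧ ¬ p ∣ ((Q i : Subgroup G) ⊓ Subgroup.normalizer ((((P : Subgroup G) ⊓ (Q i : Subgroup G)) : Subgroup G) : Set G)).relIndex (Subgroup.normalizer ((((P : Subgroup G) ⊓ (Q i : Subgroup G)) : Subgroup G) : Set G))) ∧ (∀ h : 0 < n, A ⊆ (((P : Subgroup G) ⊓ (Q ⟨0, h⟩ : Subgroup G) : Subgroup G) : Set G)) ∧ ∀ i : Fin n, ∀ h : i.val + 1 < n, (fun a => (((List.ofFn x).take (i.val + 1)).prod)⁻¹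 * a * ((List.ofFn x).take (i.val + 1)).prod) '' A ⊆ (((P : Subgroup G) ⊓ (Q ⟨i.val + 1, h⟩ : Subgroup G) : Subgroup G) : Set G) := by
  have hA' : Subgroup.closure A ≤ (P : Subgroup G) := (Subgroup.closure_le _).mpr hA
  have hAg' : cj g⁻¹ (Subgroup.closure A) ≤ (P : Subgroup G) := by
    rw [cj, MonoidHom.map_closure, Subgroup.closure_le]
    rintro _ ⟨a, ha, rfl⟩
    simpa using hAg ⟨a, ha, rfl⟩
  obtain ⟨l, hl⟩ := alperin_induction P (fun A g => ∃ l, Ch P A g⁻¹ l)
    (fun A B g hAB ⟨l, hl⟩ => ⟨l, ch_mono hl A hAB⟩)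
    (fun A g h ⟨l, hl⟩ ⟨m, hm⟩ => ⟨l ++ m, by
      rw [mul_inv_rev]
      exact ch_comp hl _ _ (by rwa [inv_inv])⟩)
    (fun Q x h1 h2 hx _ => ⟨[(Q, x⁻¹)], by
      have := Ch.cons (P := P) ((P : Subgroup G) ⊓ Q) 1 Q x⁻¹ []
        ⟨inv_mem hx, h1.not_dvd, h2.not_dvd⟩ le_rfl (Ch.nil _)
      rwa [mul_one] at this⟩)
    (Subgroup.closure A) g⁻¹ hA' hAg'
  rw [inv_inv] at hl
  obtain ⟨a1, a2, a3⟩ := ch_out hl
  have e : List.ofFn (fun i : Fin l.length => l[i].2) = l.map Prod.snd := by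
    apply List.ext_getElem <;> simp
  refine ⟨l.length, fun i => l[i].1, fun i => l[i].2, by rw [e, a1], fun i => a2 _ (List.getElem_mem _),
    fun h => ?_, fun i h => ?_⟩
  · have := a3 0 h
    simp only [List.take_zero, List.prod_nil, inv_one, cj_one] at this
    exact fun a ha => this (Subgroup.subset_closure ha)
  · rw [e]
    rintro _ ⟨a, ha, rfl⟩
    have := cj_le_iff.mp (a3 (i.val + 1) h) a (Subgroup.subset_closure ha)
    rw [inv_inv] at this
    exact this

end Cfsg.Agent.S0116
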