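import Mathlib
import Cfsg.Statements.S0118
import Cfsg.Agent.Lib.ZJ.QdInvolve

set_option autoImplicit false
open Cfsg

namespace Cfsg.Agent.S0118

/-- Glauberman's ZJ-Theorem, in the case of groups with no section isomorphic to SL(2,p), p odd: conjugation of subsets of a Sylow p-subgroup P inside P is always induced from the normalizer of Z(J(P)). -/
theorem result {G : Type*} [Group G] [Finite G] {p : ℕ} [Fact p.Prime] (hp : p ≠ 2) (hfree : ¬ ∃ (H K : Subgroup G) (hK : (K.subgroupOf H).Normal), Nonempty ((H ⧸ K.subgroupOf H) ≃* Matrix.SpecialLinearGroup (Fin 2) (ZMod p))) (P : Sylow p G) (A : Set G) (hA : A ⊆ (P : Set G)) (g : G) (hAg : (fun a => g⁻¹ * a * g) '' A ⊆ (P : Set G)) : ∃ n ∈ Subgroup.normalizer (Cfsg.centerThompsonOf p (P : Subgroup G) : Set G), ∀ a ∈ A, n⁻¹ * a * n = g⁻¹ * a * g := by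
  have key := CfsgLib.ZJ.fusGen_centerThompsonOf hp (fun X _ _ h =>
    CfsgLib.ZJ.quadStable_of_not_involves_qd hp fun h' =>
      CfsgLib.ZJ.not_involves_qd_of_not_involves_SL2 hfree (CfsgLib.ZJ.involves_trans h' h))
    (CfsgLib.Tech.IsSylowIn.of_sylow_top P) (CfsgLib.ZJ.isStronglyClosed_self _)
  obtain ⟨x, hx, h⟩ := CfsgLib.CFun.fusGen_subgroup_iff.1 key A g⁻¹ (Subgroup.mem_top _) hA
    (by simpa using hAg)
  exact ⟨x⁻¹, inv_mem hx, by simpa using h⟩

end Cfsg.Agent.S0118
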