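import Mathlib
import Cfsg.Statements.S0125
import Cfsg.Agent.Lib.Transfer.Abelian

set_option autoImplicit false
open Cfsg

namespace Cfsg.Agent.S0125

/-- The centralizer of a self-centralizing normal subgroup A of a Sylow p-subgroup is the direct product of A with a normal p'-subgroup. -/
theorem result {G : Type*} [Group G] [Finite G] {p : ℕ} [Fact p.Prime] (R : Sylow p G) (A : Subgroup G) (hAR : A ≤ (R : Subgroup G)) (hAn : (R : Subgroup G) ≤ Subgroup.normalizer (A : Set G)) (hC : (R : Subgroup G) ⊓ Subgroup.centralizer (A : Set G) = A) : ∃ H : Subgroup G, H ≤ Subgroup.centralizer (A : Set G) ∧ Nat.Coprime (Nat.card H) p ∧ Subgroup.centralizer (A : Set G) ≤ Subgroup.normalizer (H : Set G) ∧ H ⊓ A = ⊥ ∧ H ⊔ A = Subgroup.centralizer (A : Set G) := by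
  set C := Subgroup.centralizer (A : Set G) with hCdef
  have hAC : A ≤ C := hC ▸ inf_le_right
  have hS : CfsgLib.Tech.IsSylowIn p A C := by
    have h1 := (CfsgLib.Tech.IsSylowIn.of_sylow R hAn).inf_of_le_normalizer
      (CfsgLib.Core.normalizer_le_normalizer_centralizer (A : Set G))
    rwa [hC, inf_eq_right.mpr (Subgroup.centralizer_le_normalizer _)] at h1
  have hN : HasNormalPComplement p C := by
    apply CfsgLib.Transfer.hasNormalPComplement_of_sylow_le_center hS.toSylow
    intro x hx
    rw [Subgroup.mem_center_iff]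
    exact fun y => Subtype.ext (y.2 x hx).symm
  have hcomp := CfsgLib.Transfer.isComplement'_pResidual hN hS.toSylow
  have := CfsgLib.Transfer.pResidual_normal p C
  refine ⟨(pResidual p C).map C.subtype, Subgroup.map_subtype_le _, ?_,
    CfsgLib.Core.le_normalizer_map_subtype_of_normal _, ?_, ?_⟩
  · rw [Subgroup.card_subtype]
    exact CfsgLib.Transfer.hasNormalPComplement_iff_coprime.mp hN
  · rw [← hS.map_toSylow, ← Subgroup.map_inf _ _ _ C.subtype_injective,
      disjoint_iff.mp hcomp.disjoint, Subgroup.map_bot]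
  · conv_lhs => rw [← hS.map_toSylow]
    rw [← Subgroup.map_sup, hcomp.sup_eq_top, ← MonoidHom.range_eq_map, Subgroup.range_subtype]

end Cfsg.Agent.S0125
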