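import Cfsg.Statements.S0129
import Cfsg.Agent.Lib.PGroup.Basic

set_option autoImplicit false
open Cfsg

namespace Cfsg.Agent.S0129

/-- The order of a p-group is bounded by p^(a(a+1)/2) when it has a maximal normal abelian subgroup of order p^a. -/
theorem result {G : Type*} [Group G] [Finite G] {p : ℕ} [Fact p.Prime] (hG : IsPGroup p G) (A : Subgroup G) [A.Normal] (hA : IsMulCommutative A) (hmax : ∀ B : Subgroup G, B.Normal → IsMulCommutative B → A ≤ B → B = A) (a : ℕ) (ha : Nat.card A = p ^ a) : Nat.card G ≤ p ^ (a * (a + 1) / 2) := by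
  have := hG.isNilpotent
  have hC := CfsgLib.PGroup.centralizer_le_of_maximal_normal_abelian hA hmax
  have h1 := CfsgLib.PGroup.index_centralizer_le_of_normal hG a A ha
  rw [le_antisymm hC (Subgroup.le_centralizer A)] at h1
  have h2 : a * (a + 1) / 2 = a + a.choose 2 := by
    have h3 : (a + 1).choose 2 = a + a.choose 2 := by
      rw [Nat.choose_succ_succ' a 1, Nat.choose_one_right]
    rw [← h3, Nat.choose_two_right, Nat.add_sub_cancel, mul_comm]
  rw [h2, pow_add, ← A.card_mul_index, ha]
  exact Nat.mul_le_mul_left _ h1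

end Cfsg.Agent.S0129
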