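import Mathlib
import Cfsg.Statements.S0131
import Cfsg.Agent.Lib.Transfer.Focal

set_option autoImplicit false
open Cfsg

namespace Cfsg.Agent.S0131

/-- P/P' has a normal complement in G exactly when the focal subgroup G' ∩ P is as small as possible, namely P'. -/
theorem result {G : Type*} [Group G] [Finite G] {p : ℕ} [Fact p.Prime] (P : Sylow p G) : (∃ N : Subgroup G, N.Normal ∧ N ⊓ (P : Subgroup G) = ⁅(P : Subgroup G), (P : Subgroup G)⁆ ∧ N ⊔ (P : Subgroup G) = ⊤) ↔ commutator G ⊓ (P : Subgroup G) = ⁅(P : Subgroup G), (P : Subgroup G)⁆ := by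
  constructor
  · rintro ⟨N, hN, h1, h2⟩
    refine le_antisymm ?_ (le_inf (Subgroup.commutator_mono le_top le_top)
      (Subgroup.commutator_le_self _))
    rw [← h1]
    refine inf_le_inf_right _ ?_
    rw [← Subgroup.Normal.quotient_commutative_iff_commutator_le]
    refine ⟨⟨fun a b => ?_⟩⟩
    have key : ∀ a : G ⧸ N, ∃ x ∈ (P : Subgroup G), a = (x : G ⧸ N) := by
      intro a
      obtain ⟨g, rfl⟩ := QuotientGroup.mk_surjective a
      have : g ∈ (P : Subgroup G) ⊔ N := by rw [sup_comm, h2]; trivial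
      rw [← SetLike.mem_coe, Subgroup.mul_normal] at this
      obtain ⟨x, hx, n, hn, rfl⟩ := this
      exact ⟨x, hx, QuotientGroup.mk_mul_of_mem x hn⟩
    obtain ⟨x, hx, rfl⟩ := key a
    obtain ⟨y, hy, rfl⟩ := key b
    rw [← commutatorElement_eq_one_iff_mul_comm]
    have : x * y * x⁻¹ * y⁻¹ ∈ N := by
      have := Subgroup.commutator_mem_commutator hx hy
      rw [← h1] at this
      exact this.1
    exact (QuotientGroup.eq_one_iff _).mpr this
  · intro h
    obtain ⟨h2, h3, -⟩ := CfsgLib.Transfer.ker_transferFocal_spec (P : Subgroup G)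
      (CfsgLib.Transfer.coprime_index_relIndex_sylow P _)
    exact ⟨_, inferInstance, by rw [h2, ← Subgroup.commutator_inf_eq_focalSubgroup, h], h3⟩

end Cfsg.Agent.S0131
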