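import Mathlib
import Cfsg.Statements.S0132
import Cfsg.Agent.Lib.Transfer.Frobenius

set_option autoImplicit false
open Cfsg

namespace Cfsg.Agent.S0132

/-- A minimal non-p-nilpotent finite group is a minimal non-nilpotent group with a normal Sylow p-subgroup. -/
theorem result {G : Type*} [Group G] [Finite G] {p : ℕ} [Fact p.Prime] (h1 : ¬ Cfsg.HasNormalPComplement p G) (h2 : ∀ H : Subgroup G, H ≠ ⊤ → Cfsg.HasNormalPComplement p H) : (∀ H : Subgroup G, H ≠ ⊤ → Group.IsNilpotent H) ∧ ¬ Group.IsNilpotent G ∧ ∀ P : Sylow p G, (P : Subgroup G).Normal := by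
  refine ⟨fun H hH => ?_, fun h => h1 CfsgLib.Transfer.hasNormalPComplement_of_isNilpotent,
    fun P => (CfsgLib.Transfer.minimal_not_hasNormalPComplement h1 h2 P).1⟩
  obtain ⟨P⟩ : Nonempty (Sylow p G) := inferInstance
  obtain ⟨hP, q, hq, hqp, g, ⟨k, hk⟩, -, htop⟩ :=
    CfsgLib.Transfer.minimal_not_hasNormalPComplement h1 h2 P
  have : Fact q.Prime := ⟨hq⟩
  have h3 : (P : Subgroup G).index ∣ q ^ k := by
    rw [← Subgroup.relIndex_top_right, ← htop, Subgroup.relIndex_sup_left]
    refine (Subgroup.relIndex_dvd_card _ _).trans ?_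
    rw [Nat.card_zpowers]
    exact orderOf_dvd_of_pow_eq_one hk
  have hq2 : IsPGroup q (H ⧸ (P : Subgroup G).subgroupOf H) :=
    IsPGroup.of_card_dvd_pow ((Subgroup.relIndex_dvd_index_of_normal _ H).trans h3)
  have := hq2.isNilpotent
  have := CfsgLib.Transfer.pResidual_normal p H
  have := (CfsgLib.Transfer.isPGroup_quotient_pResidual (p := p) (G := H)).isNilpotent
  refine CfsgLib.Transfer.isNilpotent_of_quotients (pResidual p H)
    ((P : Subgroup G).subgroupOf H) ?_
  rw [← disjoint_iff]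
  apply Subgroup.disjoint_of_coprime_natCard
  obtain ⟨m, hm⟩ := (P.isPGroup'.comap_subtype (K := H)).exists_card_eq
  rw [Subgroup.subgroupOf, hm]
  exact Nat.Coprime.pow_right m (CfsgLib.Transfer.hasNormalPComplement_iff_coprime.mp (h2 H hH))

end Cfsg.Agent.S0132
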