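import Cfsg.Statements.S0168
import Cfsg.Agent.Lib.Char.Kernel

set_option autoImplicit false
open Cfsg

namespace Cfsg.Agent.S0168

/-- The Burnside–Brauer Theorem. Let χ be the character of a faithful complex representation of a finite group, taking m distinct values. Then every irreducible character has nonzero inner product with χ ^ i for some i < m. -/
theorem result {G : Type*} [Group G] [Fintype G] {V : Type*} [AddCommGroup V] [Module ℂ V] [FiniteDimensional ℂ V] (ρ : Representation ℂ G V) (hfaithful : Function.Injective ρ) (ψ : G → ℂ) (hψ : Cfsg.IsIrrCharacter G ψ) : ∃ i : ℕ, i < Nat.card (Set.range ρ.character) ∧ Cfsg.classInner (fun g => ρ.character g ^ i) ψ ≠ 0 := by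
  classical
  by_contra hcon
  push Not at hcon
  have : Fintype (Set.range ρ.character) := Fintype.ofFinite _
  let s : Finset ℂ := (Set.range ρ.character).toFinset.erase (ρ.character 1)
  let f : Polynomial ℂ := ∏ a ∈ s, (Polynomial.X - Polynomial.C a)
  have h1 : ρ.character 1 ∈ (Set.range ρ.character).toFinset :=
    Set.mem_toFinset.mpr ⟨1, rfl⟩
  have hdeg : f.natDegree < Nat.card (Set.range ρ.character) := by
    rw [Polynomial.natDegree_prod_of_monic _ _ (fun a _ => Polynomial.monic_X_sub_C a)]
    simp only [Polynomial.natDegree_X_sub_C, Finset.sum_const, smul_eq_mul, mul_one]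
    rw [Nat.card_eq_fintype_card, ← Set.toFinset_card]
    exact Finset.card_erase_lt_of_mem h1
  have h2 : classInner (fun g => f.eval (ρ.character g)) ψ = 0 := by
    have : (fun g => f.eval (ρ.character g)) = ∑ i ∈ Finset.range (f.natDegree + 1),
        f.coeff i • (fun g => ρ.character g ^ i) := by
      funext g
      rw [Polynomial.eval_eq_sum_range]
      simp [Finset.sum_apply]
    rw [this, CfsgLib.Char.classInner_sum_left]
    refine Finset.sum_eq_zero fun i hi => ?_
    rw [CfsgLib.Char.classInner_smul_left, hcon i (by simp at hi; omega), mul_zero]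
  have h3 : ∀ g : G, g ≠ 1 → f.eval (ρ.character g) = 0 := by
    intro g hg
    rw [Polynomial.eval_prod]
    refine Finset.prod_eq_zero (i := ρ.character g) ?_ (by simp)
    refine Finset.mem_erase.mpr ⟨?_, by simp⟩
    intro h
    rw [CfsgLib.Char.char_eq_one_iff_mem_ker, MonoidHom.mem_ker, ← map_one ρ] at h
    exact hg (hfaithful h)
  have h4 : f.eval (ρ.character 1) ≠ 0 := by
    rw [Polynomial.eval_prod, Finset.prod_ne_zero_iff]
    intro a ha
    simp only [Polynomial.eval_sub, Polynomial.eval_X, Polynomial.eval_C]
    exact sub_ne_zero.mpr (Finset.ne_of_mem_erase ha).symm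
  rw [classInner, Finset.sum_eq_single (1 : G) (fun g _ hg => by rw [h3 g hg, zero_mul])
    (by simp)] at h2
  simp only [mul_eq_zero, inv_eq_zero, map_eq_zero] at h2
  rcases h2 with h | h | h
  · exact CfsgLib.Char.natCard_ne_zero h
  · exact h4 h
  · exact CfsgLib.Char.irr_one_ne_zero hψ h

end Cfsg.Agent.S0168
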