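import Cfsg.Statements.S0170
import Cfsg.Agent.Lib.Exc.Basic
import Cfsg.Agent.Lib.Char.Induce

set_option autoImplicit false
open Cfsg

namespace Cfsg.Agent.S0170

open CfsgLib.Char

/-- Exceptional characters. Let S be a subset of a finite group contained in its normalizer N and meeting its conjugates by elements outside N only in the identity. Given n ≥ 2 distinct irreducible characters of N of equal degree that vanish on N away from S, there exist a sign ε and n distinct irreducible characters θ_i of G such that inducing χ_i − χ_j to G gives ε (θ_i − θ_j) for all i, j. -/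
theorem result {G : Type*} [Group G] [Fintype G] (S : Set G) (hSN : S ⊆ Subgroup.normalizer S) (hTI : ∀ g : G, g ∉ Subgroup.normalizer S → ∀ s ∈ S, g * s * g⁻¹ ∈ S → s = 1) (n : ℕ) (hn : 2 ≤ n) (χ : Fin n → (Subgroup.normalizer S → ℂ)) (hirr : ∀ i, Cfsg.IsIrrCharacter (Subgroup.normalizer S) (χ i)) (hinj : Function.Injective χ) (hvan : ∀ i, ∀ x : Subgroup.normalizer S, (x : G) ∉ S → χ i x = 0) (hdeg : ∀ i j, χ i 1 = χ j 1) : ∃ ε : ℂ, (ε = 1 ∨ ε = -1) ∧ ∃ θ : Fin n → (G → ℂ), (∀ i, Cfsg.IsIrrCharacter G (θ i)) ∧ Function.Injective θ ∧ ∀ i j, Cfsg.indFun (Subgroup.normalizer S) (χ i) - Cfsg.indFun (Subgroup.normalizer S) (χ j) = ε • (θ i - θ j) := by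
  classical
  let i₀ : Fin n := ⟨0, by omega⟩
  have hcl : ∀ i, IsClassFunction _ (χ i - χ i₀) := fun i =>
    isClassFunction_sub (isClassFunction_of_isIrr (hirr i)) (isClassFunction_of_isIrr (hirr i₀))
  have hone : ∀ i, (χ i - χ i₀) 1 = 0 := fun i => by rw [Pi.sub_apply, hdeg i i₀, sub_self]
  have hvan' : ∀ i, ∀ x : Subgroup.normalizer S, (x : G) ∉ S → (χ i - χ i₀) x = 0 := fun i x hx => by
    rw [Pi.sub_apply, hvan i x hx, hvan i₀ x hx, sub_self]
  have hin : ∀ i j, classInner (indFun _ (χ i - χ i₀)) (indFun _ (χ j - χ i₀)) =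
      (if i = j then 1 else 0) - (if i = i₀ then 1 else 0) - ((if i₀ = j then 1 else 0) - 1) := by
    intro i j
    rw [classInner_indFun_of_ti _ S hTI (hcl j) (hvan' i) (hvan' j) (hone i), classInner_sub_left,
      classInner_sub_right, classInner_sub_right, classInner_irr (hirr _) (hirr _),
      classInner_irr (hirr _) (hirr _), classInner_irr (hirr _) (hirr _),
      classInner_irr_self (hirr _)]
    simp only [hinj.eq_iff]
  obtain ⟨ε, hε, θ, hθ, hθinj, hτ⟩ := CfsgLib.Exc.exists_exceptional i₀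
    (fun i => indFun (Subgroup.normalizer S) (χ i - χ i₀)) (by simp only [sub_self, indFun_zero])
    (fun i => isGenChar_indFun _ (isGenChar_sub (isGenChar_of_isIrr (hirr i))
      (isGenChar_of_isIrr (hirr i₀))))
    (fun i => by rw [indFun_one, hone, mul_zero])
    (fun i hi => by rw [hin, if_pos rfl, if_neg hi, if_neg hi.symm]; norm_num)
    (fun i j hi hj hij => by rw [hin, if_neg hij, if_neg hi, if_neg hj.symm]; norm_num)
  refine ⟨ε, hε, θ, hθ, hθinj, fun i j => ?_⟩
  have hi := hτ i
  have hj := hτ j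
  simp only [indFun_sub] at hi hj
  have : indFun _ (χ i) - indFun _ (χ j) = (indFun _ (χ i) - indFun _ (χ i₀)) -
      (indFun (Subgroup.normalizer S) (χ j) - indFun _ (χ i₀)) := by abel
  rw [this, hi, hj, ← smul_sub]
  congr 1
  abel

end Cfsg.Agent.S0170
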