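import Cfsg.Statements.S0177
import Cfsg.Agent.Lib.CharGal.Basic
import Cfsg.Agent.Lib.Char.Induce

set_option autoImplicit false
open Cfsg

namespace Cfsg.Agent.S0177

open CfsgLib.Char
open scoped ComplexConjugate

/-- The sum of a character over a set closed under coprime power maps is an integer. -/
theorem exists_int_sum {G : Type*} [Group G] [Finite G] {χ : G → ℂ} (hχ : IsCharacter G χ)
    (S : Finset G) (hS : ∀ m : ℕ, m.Coprime (Nat.card G) → ∀ g ∈ S, g ^ m ∈ S) :
    ∃ k : ℤ, ∑ g ∈ S, χ g = k := by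
  classical
  refine CfsgLib.CharGal.exists_int_of_forall_fixed
    (IsIntegral.sum _ fun g _ => isIntegral_char hχ g) (fun σ => ?_)
  obtain ⟨m, hm, hσ⟩ := CfsgLib.CharGal.exists_pow_of_gal G (σ : ℂ →+* ℂ)
  have hinj : Function.Injective fun g : G => g ^ m := (powCoprime hm.symm).injective
  rw [map_sum]
  refine Finset.sum_bij (fun g _ => g ^ m) (fun g hg => hS m hm g hg)
    (fun a _ b _ h => hinj h) (fun b hb => ?_) (fun g _ => hσ χ hχ g)
  obtain ⟨a, ha, rfl⟩ := Finset.surj_on_of_inj_on_of_card_le (s := S) (t := S) (fun g _ => g ^ m)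
    (fun g hg => hS m hm g hg) (fun a b _ _ h => hinj h) le_rfl b hb
  exact ⟨a, ha, rfl⟩

open Classical in
/-- The function that is `|A| χ` on the generators of `A` and zero elsewhere. -/
noncomputable def genFun {G : Type*} [Group G] (A : Subgroup G) (χ : G → ℂ) : A → ℂ :=
  fun a => if Subgroup.zpowers (a : G) = A then (Nat.card A : ℂ) * χ a else 0

theorem sum_indFun_genFun {G : Type*} [Group G] [Fintype G] [Fintype (Subgroup G)] {χ : G → ℂ}
    (hχ : IsClassFunction G χ) :
    ∑ A : Subgroup G, indFun A (genFun A χ) = (Nat.card G : ℂ) • χ := by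
  classical
  funext g
  have h1 : ∀ (A : Subgroup G) (x : G), extendByZero A (genFun A χ) x =
      if Subgroup.zpowers x = A then (Nat.card A : ℂ) * χ x else 0 := by
    intro A x
    by_cases hx : x ∈ A
    · rw [extendByZero_of_mem _ _ hx]; rfl
    · rw [extendByZero_of_not_mem _ _ hx, if_neg]
      rintro rfl
      exact hx (Subgroup.mem_zpowers x)
  simp only [Finset.sum_apply, indFun_apply', h1, Finset.mul_sum, mul_ite, mul_zero,
    inv_mul_cancel_left₀ (natCard_ne_zero (G := ↥(_ : Subgroup G)))]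
  rw [Finset.sum_comm]
  simp only [Finset.sum_ite_eq, Finset.mem_univ, if_true, hχ g]
  simp [Nat.card_eq_fintype_card]

theorem isGenChar_genFun {G : Type*} [Group G] [Finite G] (A : Subgroup G) [IsMulCommutative A]
    {χ : G → ℂ} (hχ : IsCharacter G χ) : IsGeneralizedCharacter A (genFun A χ) := by
  classical
  have : Fintype A := Fintype.ofFinite A
  refine isGenChar_of_inner_int (isClassFunction_of_comm _) fun l hl => ?_
  obtain ⟨k, hk⟩ := exists_int_sum (isCharacter_mul (isCharacter_restrict A hχ)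
    (isCharacter_conj (isCharacter_of_isIrr hl)))
    (Finset.univ.filter fun a : A => Subgroup.zpowers (a : G) = A) (fun m hm a ha => by
      rw [Finset.mem_filter] at ha ⊢
      refine ⟨Finset.mem_univ _, ?_⟩
      rw [← ha.2] at hm
      refine Eq.trans ?_ ha.2
      apply le_antisymm
      · exact Subgroup.zpowers_le.mpr (Subgroup.pow_mem _ (Subgroup.mem_zpowers _) _)
      · rw [Subgroup.zpowers_le, Subgroup.coe_pow]
        rw [Nat.card_zpowers] at hm
        exact mem_zpowers_pow_iff.mpr hm)
  refine ⟨k, ?_⟩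
  rw [← hk, classInner_def, Finset.sum_filter, Finset.mul_sum]
  refine Finset.sum_congr rfl fun a _ => ?_
  simp only [genFun, Pi.mul_apply]
  split_ifs
  · rw [mul_assoc, inv_mul_cancel_left₀ natCard_ne_zero]
  · simp

/-- The Artin induction Theorem: for a character χ of a finite group, |G| • χ is a ℤ-linear combination of functions induced from homomorphisms of cyclic subgroups into ℂˣ. -/
theorem result {G : Type*} [Group G] [Fintype G] (χ : G → ℂ) (hχ : Cfsg.IsCharacter G χ) : ∃ l : List ((A : Subgroup G) × ((A →* ℂˣ) × ℤ)), (∀ t ∈ l, IsCyclic t.1) ∧ (Nat.card G : ℂ) • χ = (l.map fun t => (t.2.2 : ℂ) • Cfsg.indFun t.1 (fun a => (t.2.1 a : ℂ))).sum := by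
  classical
  let P : (G → ℂ) → Prop := fun f => ∃ l : List ((A : Subgroup G) × ((A →* ℂˣ) × ℤ)),
    (∀ t ∈ l, IsCyclic t.1) ∧
      f = (l.map fun t => (t.2.2 : ℂ) • Cfsg.indFun t.1 (fun a => (t.2.1 a : ℂ))).sum
  have h0 : P 0 := ⟨[], by simp, by simp⟩
  have hadd : ∀ f f', P f → P f' → P (f + f') := by
    rintro _ _ ⟨l, hl, rfl⟩ ⟨l', hl', rfl⟩
    refine ⟨l ++ l', fun t ht => ?_, by simp⟩
    rcases List.mem_append.mp ht with h | h
    · exact hl t h
    · exact hl' t h
  have : Fintype (Subgroup G) := Fintype.ofFinite _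
  change P _
  rw [← sum_indFun_genFun (isClassFunction_of_isCharacter hχ)]
  refine Finset.sum_induction _ P hadd h0 fun A _ => ?_
  by_cases hA : IsCyclic A
  · have := hA.isMulCommutative
    obtain ⟨n, -, hn, -⟩ := exists_genChar_eq_sum_int (isGenChar_genFun A hχ)
    rw [hn, indFun_sum]
    refine Finset.sum_induction _ P hadd h0 fun l _ => ?_
    obtain ⟨f, hf⟩ := exists_unitsHom_of_one_eq_one (irr_isCharacter l) (irr_one_eq_one_of_comm l.2)
    refine ⟨[⟨A, f, n l⟩], by simpa using hA, ?_⟩
    simp [indFun_smul, hf]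
  · have : genFun A χ = 0 := by
      funext a
      simp only [genFun, Pi.zero_apply]
      rw [if_neg]
      intro e
      apply hA
      rw [← e]
      infer_instance
    rw [this, indFun_zero]
    exact h0

end Cfsg.Agent.S0177
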