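import Cfsg.Statements.S0180
import Cfsg.Agent.Lib.CharGal.Basic
import Cfsg.Agent.Lib.Char.Inner

set_option autoImplicit false
open Cfsg

namespace Cfsg.Agent.S0180

/-- Every irreducible complex character of a finite group takes only rational values if and only if g is conjugate to g ^ m for every element g and every m coprime to the group order. -/
theorem result {G : Type*} [Group G] [Finite G] : (∀ χ : Cfsg.IrrCharacter G, ∀ g : G, ∃ q : ℚ, (χ : G → ℂ) g = (q : ℂ)) ↔ ∀ m : ℕ, m.Coprime (Nat.card G) → ∀ g : G, IsConj g (g ^ m) := by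
  classical
  constructor
  · intro h m hm g
    have : Fintype G := Fintype.ofFinite G
    have hf : IsClassFunction G (fun x => if IsConj g x then (1 : ℂ) else 0) := by
      intro x y
      have : IsConj g (y * x * y⁻¹) ↔ IsConj g x :=
        ⟨fun h => h.trans (isConj_iff.mpr ⟨y, rfl⟩).symm, fun h => h.trans (isConj_iff.mpr ⟨y, rfl⟩)⟩
      simp only [this]
    have h1 := CfsgLib.Char.classFun_apply_eq_sum hf g
    have h2 := CfsgLib.Char.classFun_apply_eq_sum hf (g ^ m)
    have h3 : ∀ χ : IrrCharacter G, (χ : G → ℂ) (g ^ m) = (χ : G → ℂ) g := fun χ => by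
      obtain ⟨q, hq⟩ := h χ g
      exact CfsgLib.CharGal.char_pow_eq_of_rat (CfsgLib.Char.irr_isCharacter χ) g hq hm
    simp_rw [h3] at h2
    rw [← h1, if_pos (IsConj.refl g)] at h2
    by_contra hne
    rw [if_neg hne] at h2
    exact zero_ne_one h2
  · intro h χ g
    obtain ⟨k, hk⟩ := CfsgLib.CharGal.exists_int_of_pow_invariant (CfsgLib.Char.irr_isCharacter χ) g
      (fun m hm => (CfsgLib.Char.classFun_eq_of_isConj (CfsgLib.Char.irr_isClassFunction χ)
        (h m hm g)).symm)
    exact ⟨k, by rw [hk]; simp⟩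

end Cfsg.Agent.S0180
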