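import Cfsg.Statements.S0184
import Cfsg.Agent.Lib.CharDeg.Constituent

set_option autoImplicit false
open Cfsg

namespace Cfsg.Agent.S0184

/-- A finite p-group admits a faithful irreducible complex representation if and only if its centre is cyclic. -/
theorem result {G : Type*} [Group G] [Finite G] (p : ℕ) [Fact p.Prime] (hG : IsPGroup p G) : (∃ (n : ℕ) (ρ : Representation ℂ G (Fin n → ℂ)), ρ.IsIrreducible ∧ Function.Injective ρ) ↔ IsCyclic (Subgroup.center G) := by
  constructor
  · rintro ⟨n, ρ, hρ, hinj⟩
    exact CfsgLib.CharDeg.isCyclic_center_of_faithful ρ hinj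
  · intro hZ
    classical
    by_cases hG1 : Nontrivial G
    · have hp : p.Prime := Fact.out
      -- every nontrivial normal subgroup meets the centre in a subgroup of order divisible by `p`
      have key : ∀ N : Subgroup G, N.Normal → N ≠ ⊥ →
          ∃ y : Subgroup.center G, orderOf y = p ∧ (y : G) ∈ N := by
        intro N hN hN0
        have h1 : N ⊓ Subgroup.center G ≠ ⊥ := by
          have hN1 : Nontrivial N := (Subgroup.nontrivial_iff_ne_bot N).mpr hN0
          have dvd : p ∣ Nat.card N := by
            obtain ⟨n, hn0, hn⟩ := (hG.to_subgroup N).nontrivial_iff_card.mp hN1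
            exact hn.symm ▸ dvd_pow_self _ (ne_of_gt hn0)
          obtain ⟨b, hb, hb1⟩ := (hG.of_equiv ConjAct.toConjAct).exists_fixed_point_of_prime_dvd_card_of_fixed_point
            N dvd (a := 1) (fun g => Subtype.ext (by simp))
          refine (Subgroup.ne_bot_iff_exists_ne_one).mpr ⟨⟨b, b.2, ?_⟩, fun e => hb1 (Subtype.ext ?_)⟩
          · refine Subgroup.mem_center_iff.mpr ?_
            intro g
            have := congrArg Subtype.val (hb (ConjAct.toConjAct g))
            change g * b * g⁻¹ = b at this
            rw [mul_inv_eq_iff_eq_mul] at this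
            exact this
          · exact (congrArg Subtype.val e).symm
        obtain ⟨⟨x, hx⟩, hx1⟩ := (Subgroup.ne_bot_iff_exists_ne_one).mp h1
        have hx1' : x ≠ 1 := fun e => hx1 (Subtype.ext e)
        obtain ⟨k, hk⟩ := (IsPGroup.iff_orderOf.mp hG) x
        have hk0 : k ≠ 0 := by
          rintro rfl
          exact hx1' (orderOf_eq_one_iff.mp (by simpa using hk))
        have hdvd : p ∣ orderOf x := hk ▸ dvd_pow_self p hk0
        refine ⟨⟨x, hx.2⟩ ^ (orderOf x / p), ?_, N.pow_mem hx.1 _⟩
        rw [← Subgroup.orderOf_coe]
        exact orderOf_pow_orderOf_div (orderOf_pos x).ne' hdvd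
      obtain ⟨z, hz, -⟩ := key ⊤ inferInstance top_ne_bot
      refine CfsgLib.CharDeg.exists_faithful_irreducible (z := (z : G)) ?_ ?_
      · intro e
        have : z = 1 := Subtype.ext e
        rw [this, orderOf_one] at hz
        exact hp.one_lt.ne hz
      · intro N hN hN0
        obtain ⟨y, hy, hyN⟩ := key N hN hN0
        have hz' : z ∈ Subgroup.zpowers y := by
          have : Fintype (Subgroup.center G) := Fintype.ofFinite _
          have h1 := IsCyclic.card_pow_eq_one_le (α := Subgroup.center G) hp.pos
          have h2 : (Finset.univ.filter fun a : Subgroup.center G => a ∈ Subgroup.zpowers y) =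
              Finset.univ.filter fun a : Subgroup.center G => a ^ p = 1 := by
            apply Finset.eq_of_subset_of_card_le
            · intro a ha
              rw [Finset.mem_filter] at ha ⊢
              refine ⟨ha.1, ?_⟩
              rw [← hy]
              exact orderOf_dvd_iff_pow_eq_one.mp (orderOf_dvd_of_mem_zpowers ha.2)
            · refine h1.trans (le_of_eq ?_)
              rw [← Fintype.card_subtype, ← Nat.card_eq_fintype_card, Nat.card_zpowers, hy]
          have h3 : z ∈ Finset.univ.filter fun a : Subgroup.center G => a ^ p = 1 := by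
            rw [Finset.mem_filter, ← hz]
            exact ⟨Finset.mem_univ _, pow_orderOf_eq_one z⟩
          rw [← h2] at h3
          exact (Finset.mem_filter.mp h3).2
        obtain ⟨k, rfl⟩ := hz'
        exact N.zpow_mem hyN k
    · rw [not_nontrivial_iff_subsingleton] at hG1
      refine ⟨1, Representation.trivial ℂ G (Fin 1 → ℂ), ?_, fun a b _ => Subsingleton.elim a b⟩
      apply CfsgLib.CharDeg.isIrreducible_of_invariant
      intro W _
      have : IsSimpleOrder (Submodule ℂ (Fin 1 → ℂ)) := is_simple_module_of_finrank_eq_one (K := ℂ) (by simp)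
      exact eq_bot_or_eq_top W

end Cfsg.Agent.S0184
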