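import Cfsg.Statements.S0186
import Cfsg.Agent.Lib.Char.Ortho
import Cfsg.Agent.Lib.CharDeg.Constituent

set_option autoImplicit false
open Cfsg
open scoped CfsgLib.Char

namespace Cfsg.Agent.S0186

/-- Let G be a finite simple group of order n and p a prime dividing n. If G has more than n / p^2 conjugacy classes, then every Sylow p-subgroup of G is abelian. -/
theorem result {G : Type*} [Group G] [Finite G] [IsSimpleGroup G] (p : ℕ) [Fact p.Prime] (hp : p ∣ Nat.card G) (hmany : Nat.card G < p ^ 2 * Nat.card (ConjClasses G)) (P : Sylow p G) (a b : G) (ha : a ∈ P) (hb : b ∈ P) : a * b = b * a := by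
  classical
  by_contra hab
  have hp' : p.Prime := Fact.out
  let a' : (P : Subgroup G) := ⟨a, ha⟩
  let b' : (P : Subgroup G) := ⟨b, hb⟩
  have hab' : a' * b' ≠ b' * a' := fun e => hab (congrArg Subtype.val e)
  obtain ⟨k, hk⟩ := P.isPGroup'.exists_card_eq
  -- `p ^ 2` divides the group order
  have hp2 : p ^ 2 ∣ Nat.card G := by
    refine dvd_trans ?_ (P : Subgroup G).card_subgroup_dvd_card
    rw [hk]
    apply pow_dvd_pow
    by_contra hlt
    have hcyc : IsCyclic (P : Subgroup G) := by
      have : k = 0 ∨ k = 1 := by omega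
      rcases this with rfl | rfl
      · have : Subsingleton (P : Subgroup G) := (Nat.card_eq_one_iff_unique.mp hk).1
        infer_instance
      · exact isCyclic_of_prime_card (p := p) (by simpa using hk)
    have := hcyc.isMulCommutative
    exact hab' (mul_comm' a' b')
  -- every nonprincipal irreducible character has degree at least `p`
  have hdeg : ∀ χ : IrrCharacter G, χ ≠ CfsgLib.Char.irrOne G →
      ∃ n : ℕ, p ≤ n ∧ (χ : G → ℂ) 1 = n := by
    rintro ⟨χ, n, ρ, hρ, rfl⟩ hne
    refine ⟨_, ?_, ρ.char_one⟩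
    have hinj : Function.Injective ρ := by
      rw [← MonoidHom.ker_eq_bot_iff]
      refine (IsSimpleGroup.eq_bot_or_eq_top_of_normal ρ.ker inferInstance).resolve_right fun h => ?_
      apply hne
      have htriv : ∀ g : G, ρ g = 1 := fun g => (h ▸ Subgroup.mem_top g : g ∈ ρ.ker)
      have h1 : ∀ g : G, ρ.character g = ρ.character 1 := fun g => by
        rw [Representation.character, Representation.character, htriv, htriv]
      have : Fintype G := Fintype.ofFinite G
      apply Subtype.ext
      apply CfsgLib.Char.irr_eq_of_classInner_ne_zero ⟨n, ρ, hρ, rfl⟩ CfsgLib.Char.isIrr_one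
      rw [CfsgLib.Char.classInner_one_right]
      simp only [h1]
      rw [Finset.sum_const, nsmul_eq_mul]
      refine mul_ne_zero (inv_ne_zero CfsgLib.Char.natCard_ne_zero) (mul_ne_zero ?_
        (CfsgLib.Char.irr_one_ne_zero ⟨n, ρ, hρ, rfl⟩))
      exact Nat.cast_ne_zero.mpr (Finset.card_pos.mpr Finset.univ_nonempty).ne'
    obtain ⟨q, hq, hqd, hle⟩ := CfsgLib.CharDeg.exists_prime_le_finrank
      (ρ.comp (P : Subgroup G).subtype) (a := a') (b := b') (fun e => hab (hinj e))
    rw [hk] at hqd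
    rwa [(Nat.prime_dvd_prime_iff_eq hq hp').mp (hq.dvd_of_dvd_pow hqd)] at hle
  choose! d hd1 hd2 using hdeg
  have hsum := CfsgLib.Char.sum_irr_one_sq (G := G)
  rw [← Finset.add_sum_erase _ _ (Finset.mem_univ (CfsgLib.Char.irrOne G)),
    Finset.sum_congr rfl (g := fun χ => ((d χ ^ 2 : ℕ) : ℂ)) (fun χ hχ => by
      rw [hd2 χ (Finset.ne_of_mem_erase hχ)]; push_cast; rfl), CfsgLib.Char.irrOne_apply] at hsum
  have hsum' : 1 + ∑ χ ∈ Finset.univ.erase (CfsgLib.Char.irrOne G), d χ ^ 2 = Nat.card G := by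
    exact_mod_cast hsum
  have hge : (Finset.univ.erase (CfsgLib.Char.irrOne G)).card * p ^ 2 ≤
      ∑ χ ∈ Finset.univ.erase (CfsgLib.Char.irrOne G), d χ ^ 2 := by
    rw [← smul_eq_mul]
    exact Finset.card_nsmul_le_sum _ _ _ fun χ hχ =>
      Nat.pow_le_pow_left (hd1 χ (Finset.ne_of_mem_erase hχ)) 2
  rw [Finset.card_erase_of_mem (Finset.mem_univ _), Finset.card_univ, ← Nat.card_eq_fintype_card,
    CfsgLib.Char.card_irr_eq_card_conjClasses] at hge
  obtain ⟨m, hm⟩ := hp2
  rw [hm] at hmany hsum'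
  have h1 : m < Nat.card (ConjClasses G) := lt_of_mul_lt_mul_left hmany (Nat.zero_le _)
  have h2 : m * p ^ 2 ≤ (Nat.card (ConjClasses G) - 1) * p ^ 2 :=
    Nat.mul_le_mul_right _ (by omega)
  rw [mul_comm m] at h2
  omega

end Cfsg.Agent.S0186
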