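import Cfsg.Statements.S0187
import Cfsg.Agent.Lib.CharDeg.Constituent

set_option autoImplicit false
open Cfsg

namespace Cfsg.Agent.S0187

/-- A finite group is commutative if and only if every irreducible complex character has degree 1. -/
theorem result {G : Type*} [Group G] [Finite G] : (∀ a b : G, a * b = b * a) ↔ ∀ χ : Cfsg.IrrCharacter G, (χ : G → ℂ) 1 = 1 := by
  constructor
  · rintro h ⟨χ, n, ρ, hρ, rfl⟩
    have : IsMulCommutative G := ⟨⟨h⟩⟩
    have h1 := Representation.IsIrreducible.finrank_eq_one_of_isMulCommutative ρ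
    change ρ.character 1 = 1
    rw [Representation.char_one, h1, Nat.cast_one]
  · intro h a b
    by_contra hab
    obtain ⟨n, ρ, hρ, hne⟩ := CfsgLib.CharDeg.exists_irreducible_separating hab
    have h1 := h ⟨ρ.character, n, ρ, hρ, rfl⟩
    change ρ.character 1 = 1 at h1
    rw [Representation.char_one] at h1
    exact hne (CfsgLib.CharDeg.comm_of_finrank_eq_one ρ (by exact_mod_cast h1) a b)

end Cfsg.Agent.S0187
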