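import Cfsg.Statements.S0192
import Cfsg.Agent.Lib.CharDeg.Constituent

set_option autoImplicit false
open Cfsg

namespace Cfsg.Agent.S0192

theorem inner_eq_finrank {G : Type*} [Group G] {V : Type*} [AddCommGroup V] [Module ℂ V]
    [FiniteDimensional ℂ V] (ρ : Representation ℂ G V) (H : Subgroup G) [Fintype H] :
    Cfsg.classInner (fun x : H => ρ.character x) (fun _ => 1) =
      Module.finrank ℂ (Representation.invariants (ρ.comp H.subtype)) := by
  have hne : (Nat.card H : ℂ) ≠ 0 := Nat.cast_ne_zero.mpr Nat.card_pos.ne'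
  have : Invertible (Nat.card H : ℂ) := invertibleOfNonzero hne
  rw [← Representation.card_inv_mul_sum_char_eq_finrank (ρ.comp H.subtype), Cfsg.classInner]
  simp only [map_one, mul_one]
  rfl

/-- Brauer's generation criterion. Let G be a finite simple group, H₁ and H₂ subgroups, and χ a non-principal irreducible character. If the multiplicity of the principal character in χ restricted to H₁ ⊓ H₂ is less than the sum of the corresponding multiplicities for H₁ and H₂, then H₁ and H₂ do not generate G. -/
theorem result {G : Type*} [Group G] [Fintype G] [IsSimpleGroup G] (H₁ H₂ : Subgroup G) [Fintype H₁] [Fintype H₂] [Fintype ↥(H₁ ⊓ H₂)] (χ : G → ℂ) (hχ : Cfsg.IsIrrCharacter G χ) (hχ1 : χ ≠ fun _ => 1) (hlt : (Cfsg.classInner (fun x : ↥(H₁ ⊓ H₂) => χ x) (fun _ => 1)).re < (Cfsg.classInner (fun x : H₁ => χ x) (fun _ => 1)).re + (Cfsg.classInner (fun x : H₂ => χ x) (fun _ => 1)).re) : H₁ ⊔ H₂ ≠ ⊤ := by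
  obtain ⟨n, ρ, hρ, rfl⟩ := hχ
  intro htop
  rw [inner_eq_finrank, inner_eq_finrank, inner_eq_finrank, Complex.natCast_re, Complex.natCast_re,
    Complex.natCast_re, ← Nat.cast_add, Nat.cast_lt,
    ← Submodule.finrank_sup_add_finrank_inf_eq] at hlt
  set W₁ := Representation.invariants (ρ.comp H₁.subtype) with hW₁
  set W₂ := Representation.invariants (ρ.comp H₂.subtype) with hW₂
  have hfix : ∀ v ∈ W₁ ⊓ W₂, ∀ g : G, ρ g v = v := by
    intro v hv g
    let K : Subgroup G :=
      { carrier := {g | ρ g v = v}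
        mul_mem' := fun {a b} ha hb => by
          simp only [Set.mem_setOf_eq] at ha hb ⊢
          rw [map_mul, Module.End.mul_apply, hb, ha]
        one_mem' := by simp
        inv_mem' := fun {a} ha => by
          simp only [Set.mem_setOf_eq] at ha ⊢
          conv_lhs => rw [← ha]
          rw [← Module.End.mul_apply, ← map_mul, inv_mul_cancel, map_one, Module.End.one_apply] }
    have : H₁ ⊔ H₂ ≤ K := sup_le (fun x hx => hv.1 ⟨x, hx⟩) (fun x hx => hv.2 ⟨x, hx⟩)
    exact this (htop ▸ Subgroup.mem_top g)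
  have hbot : W₁ ⊓ W₂ = ⊥ := by
    rcases CfsgLib.CharDeg.eq_bot_or_eq_top_of_invariant ρ (W₁ ⊓ W₂) (fun g v hv => by
      rw [hfix v hv g]; exact hv) with h | h
    · exact h
    · exfalso
      apply hχ1
      have htriv : ∀ g : G, ρ g = 1 := fun g => LinearMap.ext fun v =>
        hfix v (h ▸ Submodule.mem_top) g
      have := CfsgLib.CharDeg.nontrivial_of_isIrreducible ρ
      obtain ⟨v, hv⟩ := exists_ne (0 : Fin n → ℂ)
      have h1 : Module.finrank ℂ (Fin n → ℂ) = 1 := by
        rcases CfsgLib.CharDeg.eq_bot_or_eq_top_of_invariant ρ (Submodule.span ℂ {v})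
          (fun g w hw => by rw [htriv g]; exact hw) with h | h
        · exact absurd (Submodule.span_singleton_eq_bot.mp h) hv
        · rw [← finrank_top, ← h, finrank_span_singleton hv]
      funext g
      rw [Representation.character, htriv g, LinearMap.trace_one, h1, Nat.cast_one]
  rw [hbot, finrank_bot, add_zero] at hlt
  refine absurd hlt (not_lt.mpr (Submodule.finrank_mono (sup_le ?_ ?_)))
  · exact fun v hv x => hv ⟨x, x.2.1⟩
  · exact fun v hv x => hv ⟨x, x.2.2⟩

end Cfsg.Agent.S0192
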