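import Cfsg.Statements.S0211
import Mathlib
import Cfsg.Agent.Lib.Invol.Dihedral

set_option autoImplicit false
open Cfsg

namespace Cfsg.Agent.S0211

open CfsgLib.Invol

/-- Let x, y be involutions with xy of even order n and z = (xy)^(n/2). Then xz is conjugate to x by an element of the subgroup generated by x, y if and only if 4 divides n. -/
theorem result {G : Type*} [Group G] [Finite G] (x y : G) (hx : orderOf x = 2) (hy : orderOf y = 2) (heven : Even (orderOf (x * y))) : (∃ d ∈ Subgroup.closure ({x, y} : Set G), d * x * d⁻¹ = x * (x * y) ^ (orderOf (x * y) / 2)) ↔ 4 ∣ orderOf (x * y) := by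
  have hx2 := mul_self_of_orderOf_two hx
  have hy2 := mul_self_of_orderOf_two hy
  rw [exists_conj_in_closure_iff hx2 hy2]
  obtain ⟨m, hm⟩ := heven
  have h2 : orderOf (x * y) / 2 = m := by omega
  rw [h2]
  constructor
  · rintro ⟨k, hk⟩
    have h1 : (x * y) ^ (m : ℤ) = (x * y) ^ (2 * k) := by
      rw [zpow_natCast]; exact mul_left_cancel hk
    have h3 := zpow_eq_zpow_iff_modEq.1 h1
    rw [hm] at h3 ⊢
    have h4 : (2 : ℤ) ∣ 2 * k - m := Dvd.dvd.trans ⟨m, by push_cast; ring⟩ h3.dvd
    omega
  · intro h4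
    have : 2 ∣ m := by omega
    obtain ⟨k, rfl⟩ := this
    exact ⟨k, by rw [← zpow_natCast]; push_cast; rfl⟩

end Cfsg.Agent.S0211
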