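import Cfsg.Statements.S0212
import Cfsg.Agent.Lib.SmallSimple.NC
import Cfsg.Agent.Lib.Invol.Count

set_option autoImplicit false
open Cfsg

namespace Cfsg.Agent.S0212

open CfsgLib CfsgLib.SmallSimple Subgroup

/-- The Brauer–Fowler bound: if G is a finite simple group and t an involution of G whose centralizer has order n, then |G| ≤ (2n^2)!. -/
theorem result {G : Type*} [Group G] [Finite G] [IsSimpleGroup G] (t : G) (ht : orderOf t = 2) : Nat.card G ≤ Nat.factorial (2 * (Nat.card (Subgroup.centralizer ({t} : Set G))) ^ 2) := by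
  set c := Nat.card (Subgroup.centralizer ({t} : Set G)) with hc
  have hcpos : 0 < c := Nat.card_pos
  by_cases hG : IsMulCommutative G
  · have : centralizer ({t} : Set G) = ⊤ := by
      rw [eq_top_iff]; exact fun g _ => mem_centralizer_singleton_iff.2 (hG.is_comm.comm _ _)
    have h1 : Nat.card G = c := by rw [hc, this, card_top]
    exact le_trans (by nlinarith) (Nat.self_le_factorial _)
  have heven : Even (Nat.card G) := even_iff_two_dvd.2 (ht ▸ orderOf_dvd_natCard t)
  have hZ : center G = ⊥ := (inferInstance : (center G).Normal).eq_bot_or_eq_top.resolve_right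
    fun e => hG ⟨⟨fun a b => mem_center_iff.1 (e ▸ mem_top b) a⟩⟩
  obtain ⟨H, hH, h⟩ := Invol.brauerFowler_index heven (by rw [hZ]; simp)
  have h1 := Nat.le_of_dvd (Nat.factorial_pos _) (two_mul_card_dvd_factorial hG H hH)
  have h2 := Invol.index_centralizer_le_card_involutions ht
  have h3 := (centralizer ({t} : Set G)).card_mul_index
  set n := Nat.card {t : G // orderOf t = 2} with hn
  have h4 : Nat.card G ≤ c * n := by rw [← h3]; exact Nat.mul_le_mul_left _ h2
  have hi : H.index ≤ 2 * c ^ 2 := by
    rcases h with h | h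
    · nlinarith
    · have a1 : Nat.card G * (Nat.card G + n) ≤ (c * n) * (c * n + n) :=
        Nat.mul_le_mul h4 (by omega)
      have a2 : 2 * H.index * n ^ 2 < (c * (c + 1)) * n ^ 2 := by nlinarith
      have a3 := lt_of_mul_lt_mul_right a2 (Nat.zero_le _)
      nlinarith
  exact le_trans (by omega) (Nat.factorial_le hi)

end Cfsg.Agent.S0212
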