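import Cfsg.Statements.S0216
import Mathlib
import Cfsg.Agent.Lib.Isol.Basic
import Cfsg.Agent.Lib.Invol.SylowElem

set_option autoImplicit false
open Cfsg

namespace Cfsg.Agent.S0216

open CfsgLib.Invol

/-- For an involution u in a Sylow 2-subgroup P of a finite group G, the following are equivalent: no G-conjugate of u other than u lies in P; every commutator of u with an element of G has odd order. -/
theorem result {G : Type*} [Group G] [Finite G] (P : Sylow 2 G) (u : G) (hu : orderOf u = 2) (huP : u ∈ P) : (∀ g : G, g * u * g⁻¹ ∈ P → g * u * g⁻¹ = u) ↔ (∀ g : G, Odd (orderOf (u * g * u⁻¹ * g⁻¹))) := by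
  have : Fact (Nat.Prime 2) := ⟨Nat.prime_two⟩
  have huu := mul_self_of_orderOf_two hu
  have hcomm : ∀ g : G, u * g * u⁻¹ * g⁻¹ = u * (g * u * g⁻¹) := fun g => by
    rw [inv_eq_of_mul_eq_one_right huu]; simp only [mul_assoc]
  constructor
  · intro hiso g
    have hI : IsIsolatedInvolution u := by
      refine ⟨hu, fun g hg => ?_⟩
      obtain ⟨h, h1, h2⟩ := exists_conj_mem_sylow_of_commute P
        (isPGroup_zpowers_of_mem_sylow P huP)
        (isPGroup_zpowers_of_mul_self (mul_self_of_orderOf_two (by rw [orderOf_conj, hu]))) hg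
      have h3 := hiso h h1
      have h4 := hiso (h * g) (by simpa [mul_assoc] using h2)
      have h5 : h * (g * u * g⁻¹) * h⁻¹ = h * u * h⁻¹ := by
        calc h * (g * u * g⁻¹) * h⁻¹ = h * g * u * (h * g)⁻¹ := by group
          _ = h * u * h⁻¹ := by rw [h3, h4]
      simpa using h5
    rw [hcomm]
    exact CfsgLib.Isol.odd_orderOf_mul hI (IsConj.refl u) (CfsgLib.Isol.isConj_conj u g)
  · intro hodd g hg
    have h1 := hodd g
    rw [hcomm] at h1
    obtain ⟨k, hk⟩ := exists_pow_eq_one_of_mem_sylow P (P.mul_mem huP hg)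
    have h2 : u * (g * u * g⁻¹) = 1 :=
      orderOf_eq_one_iff.1 (Nat.eq_one_of_dvd_coprimes ((Nat.coprime_two_right.2 h1).pow_right k)
        dvd_rfl (orderOf_dvd_of_pow_eq_one hk))
    rw [eq_inv_of_mul_eq_one_right h2, inv_eq_of_mul_eq_one_right huu]

end Cfsg.Agent.S0216
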