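import Cfsg.Statements.S0218
import Mathlib
import Cfsg.Agent.Lib.Invol.Dihedral

set_option autoImplicit false
open Cfsg

namespace Cfsg.Agent.S0218

open CfsgLib.Invol QuaternionGroup

/-- The generalized quaternion group of order 2^(n+3) contains exactly one element of order 2. -/
theorem result (n : ℕ) : Nat.card {x : QuaternionGroup (2 ^ (n + 1)) // orderOf x = 2} = 1 := by
  set m := 2 ^ (n + 1) with hm
  have hm0 : 0 < m := by positivity
  have : NeZero m := ⟨hm0.ne'⟩
  have : NeZero (2 * m) := ⟨by omega⟩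
  have hmm : (m : ZMod (2 * m)) + m = 0 := by
    rw [← two_mul]; exact_mod_cast ZMod.natCast_self (2 * m)
  have hm1 : (m : ZMod (2 * m)) ≠ 0 := by
    rw [Ne, ZMod.natCast_eq_zero_iff]
    intro h
    have := Nat.le_of_dvd hm0 h
    omega
  have h1 : orderOf (a (m : ZMod (2 * m)) : QuaternionGroup m) = 2 := by
    refine orderOf_eq_two (fun h => hm1 ?_) (by rw [a_mul_a, hmm, a_zero])
    rw [one_def] at h
    exact a.inj h
  rw [Nat.card_eq_one_iff_exists]
  refine ⟨⟨_, h1⟩, ?_⟩
  rintro ⟨i | i, hx⟩
  · apply Subtype.ext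
    have h2 := mul_self_of_orderOf_two hx
    have h3 := ne_one_of_orderOf_two hx
    rw [a_mul_a, one_def] at h2
    have h4 : i + i = 0 := a.inj h2
    have h5 : i ≠ 0 := by rintro rfl; exact h3 a_zero
    have h6 : (2 * m) ∣ i.val + i.val := by
      rw [← ZMod.natCast_eq_zero_iff]; push_cast; rw [ZMod.natCast_zmod_val]; exact h4
    have h7 := ZMod.val_lt i
    have h8 : i.val ≠ 0 := fun h => h5 ((ZMod.val_eq_zero i).1 h)
    obtain ⟨c, hc⟩ := h6
    have h9 : c = 1 := by
      rcases c with _ | _ | c
      · omega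
      · rfl
      · nlinarith
    have h10 : i.val = m := by subst h9; omega
    change a i = a (m : ZMod (2 * m))
    exact congrArg a ((ZMod.natCast_zmod_val i).symm.trans (congrArg Nat.cast h10))
  · rw [orderOf_xa] at hx
    exact absurd hx (by decide)

end Cfsg.Agent.S0218
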