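import Cfsg.Statements.S0220
import Cfsg.Agent.Lib.SylTools.Basic
import Cfsg.Agent.Lib.Transfer.Thompson

set_option autoImplicit false
open Cfsg

namespace Cfsg.Agent.S0220

open CfsgLib CfsgLib.SylTools Subgroup

/-- If x is an involution of a finite group G and a Sylow 2-subgroup of the centralizer of x is cyclic, then G has a subgroup of index 2; in particular G is not simple unless it has order 2. -/
theorem result {G : Type*} [Group G] [Finite G] (x : G) (hx : orderOf x = 2) (S : Sylow 2 ↥(Subgroup.centralizer ({x} : Set G))) (hS : IsCyclic (S : Subgroup ↥(Subgroup.centralizer ({x} : Set G)))) : ∃ H : Subgroup G, H.index = 2 := by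
  set T := (S : Subgroup (centralizer ({x} : Set G))).map (centralizer ({x} : Set G)).subtype with hT
  have hTp : IsPGroup 2 T := S.isPGroup'.map _
  have hTc : IsCyclic T := isCyclic_of_surjective _
    (Subgroup.equivMapOfInjective _ _ (centralizer ({x} : Set G)).subtype_injective).surjective
  have hTi : ¬ 2 ∣ T.relIndex (centralizer ({x} : Set G)) := by
    rw [hT, relIndex, subgroupOf, comap_map_eq_self_of_injective (Subgroup.subtype_injective _)]
    exact S.not_dvd_index
  have hxC : x ∈ centralizer ({x} : Set G) := mem_centralizer_singleton_iff.2 rfl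
  have hxT : x ∈ T := by
    obtain ⟨h, hh, h1⟩ := exists_conj_le_of_not_dvd_relIndex
      (isPGroup_zpowers_of_orderOf (p := 2) (k := 1) (by simpa using hx)) (zpowers_le_of_mem hxC) hTp hTi
    have := h1 x (mem_zpowers x)
    rwa [mem_centralizer_singleton_iff.1 hh, mul_inv_cancel_right] at this
  obtain ⟨P, hP⟩ := hTp.exists_le_sylow
  have hTP : T = P := by
    by_contra hne
    obtain ⟨b, hb, hbN, hbT⟩ := exists_mem_normalizer_not_mem P.isPGroup' hP hne
    have h1 : b * x * b⁻¹ = x := Transfer.eq_of_orderOf_eq_two_of_isCyclic hTc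
      ((mem_normalizer_iff.1 hbN x).1 hxT) hxT
      (by rw [← hx]; simpa using (MulAut.conj b).orderOf_eq x) hx
    have h2 := eq_of_le_of_not_dvd_relIndex (R := T) (A := (P : Subgroup G) ⊓ centralizer {x})
      (P.isPGroup'.to_le inf_le_left) inf_le_right (le_inf hP (map_subtype_le _)) hTi
    exact hbT (h2 ▸ mem_inf.2 ⟨hb, mem_centralizer_singleton_iff.2 (mul_inv_eq_iff_eq_mul.1 h1)⟩)
  have hPc : IsCyclic (P : Subgroup G) := hTP ▸ hTc
  have h2 : 2 ∣ Nat.card G := hx ▸ orderOf_dvd_natCard x
  have hN : HasNormalPComplement 2 G := Transfer.burnside_normal_complement P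
    (hPc.normalizer_le_centralizer ((Nat.minFac_eq_two_iff _).2 h2))
  by_contra hcon
  push Not at hcon
  have h3 := (Transfer.hasNormalPComplement_iff_inf_eq_bot P).1 hN
  rw [Transfer.pResidual_two_eq_top_iff.2 hcon, top_inf_eq] at h3
  have : x = 1 := by simpa [hTP, h3] using hxT
  simp [this] at hx

end Cfsg.Agent.S0220
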