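import Cfsg.Statements.S0226
import Mathlib
import Cfsg.Agent.Lib.Invol.SylowElem

set_option autoImplicit false
open Cfsg

namespace Cfsg.Agent.S0226

open CfsgLib.Invol

/-- A finite group of even order has an odd number of involutions. -/
theorem result {G : Type*} [Group G] [Finite G] (heven : Even (Nat.card G)) : Odd (Nat.card {t : G // orderOf t = 2}) := by
  classical
  have : Fact (Nat.Prime 2) := ⟨Nat.prime_two⟩
  have := Fintype.ofFinite G
  have hf : (fun g : G => g⁻¹)^[2 ^ 1] = id := by ext g; simp
  have h1 := Equiv.Perm.card_fixedPoints_modEq hf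
  have h2 : Fintype.card (Function.fixedPoints (fun g : G => g⁻¹)) =
      Nat.card {t : G // orderOf t = 2} + 1 := by
    rw [Nat.card_eq_fintype_card, Fintype.card_subtype, Fintype.card_subtype,
      ← Finset.card_insert_of_notMem (a := 1) (by simp)]
    congr 1
    ext g
    simp only [Function.mem_fixedPoints_iff, Finset.mem_filter, Finset.mem_univ, true_and,
      Finset.mem_insert, CfsgLib.Invol.orderOf_eq_two_iff, inv_eq_iff_mul_eq_one]
    constructor
    · intro h; by_cases h' : g = 1 <;> simp [h, h']
    · rintro (rfl | h)
      · simp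
      · exact h.2
  rw [h2, ← Nat.card_eq_fintype_card] at h1
  rw [Nat.even_iff] at heven
  rw [Nat.odd_iff]
  unfold Nat.ModEq at h1
  omega

end Cfsg.Agent.S0226
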