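import Cfsg.Statements.S0229
import Mathlib
import Cfsg.Agent.Lib.Isol.Basic
import Cfsg.Agent.Lib.Invol.SylowElem

set_option autoImplicit false
open Cfsg

namespace Cfsg.Agent.S0229

open CfsgLib.Invol

/-- Let t be an involution of a Sylow 2-subgroup S of a finite group G, conjugate in G to no other element of S, and let s be an involution of G not conjugate to t. Then the order of st is twice an odd number. -/
theorem result {G : Type*} [Group G] [Finite G] (S : Sylow 2 G) (t : G) (ht : orderOf t = 2) (htS : t ∈ S) (hiso : ∀ g : G, g * t * g⁻¹ ∈ S → g * t * g⁻¹ = t) (s : G) (hs : orderOf s = 2) (hns : ¬ IsConj s t) : orderOf (s * t) % 4 = 2 := by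
  have : Fact (Nat.Prime 2) := ⟨Nat.prime_two⟩
  have htt := mul_self_of_orderOf_two ht
  have hss := mul_self_of_orderOf_two hs
  have hI : IsIsolatedInvolution t := by
    refine ⟨ht, fun g hg => ?_⟩
    obtain ⟨h, h1, h2⟩ := exists_conj_mem_sylow_of_commute S
      (isPGroup_zpowers_of_mem_sylow S htS)
      (isPGroup_zpowers_of_mul_self (mul_self_of_orderOf_two (by rw [orderOf_conj, ht]))) hg
    have h3 := hiso h h1
    have h4 := hiso (h * g) (by simpa [mul_assoc] using h2)
    have h5 : h * (g * t * g⁻¹) * h⁻¹ = h * t * h⁻¹ := by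
      calc h * (g * t * g⁻¹) * h⁻¹ = h * g * t * (h * g)⁻¹ := by group
        _ = h * t * h⁻¹ := by rw [h3, h4]
    simpa using h5
  have heven : Even (orderOf (s * t)) := by
    by_contra h'
    exact hns (isConj_of_odd hss htt (Nat.not_even_iff_odd.1 h'))
  have h1 := CfsgLib.Isol.odd_orderOf_mul hI (CfsgLib.Isol.isConj_conj t s) (IsConj.refl t)
  have h2 : s * t * s⁻¹ * t = (s * t) ^ 2 := by
    rw [inv_eq_of_mul_eq_one_right hss, pow_two]; simp only [mul_assoc]
  obtain ⟨m, hm⟩ := heven
  rw [h2, orderOf_pow' _ two_ne_zero, hm, ← two_mul, Nat.gcd_mul_right_left,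
    Nat.mul_div_cancel_left _ two_pos, Nat.odd_iff] at h1
  omega

end Cfsg.Agent.S0229
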