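import Cfsg.Statements.S0230
import Mathlib
import Cfsg.Agent.Lib.Invol.Count

set_option autoImplicit false
open Cfsg

namespace Cfsg.Agent.S0230

open CfsgLib.Invol Finset

/-- Let G be a finite group with two non-conjugate involutions, and let t be an involution whose centralizer has maximal order among centralizers of involutions. Then |G| < |C_G(t)|^3. -/
theorem result {G : Type*} [Group G] [Finite G] (s t : G) (hs : orderOf s = 2) (ht : orderOf t = 2) (hnc : ¬ IsConj s t) (hmax : ∀ u : G, orderOf u = 2 → Nat.card (Subgroup.centralizer ({u} : Set G)) ≤ Nat.card (Subgroup.centralizer ({t} : Set G))) : Nat.card G < Nat.card (Subgroup.centralizer ({t} : Set G)) ^ 3 := by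
  classical
  have := Fintype.ofFinite G
  set m := Nat.card (Subgroup.centralizer ({t} : Set G)) with hm
  have hinv : ∀ u : G, (univ.filter (fun z : G => orderOf z = 2 ∧
      z ∈ Subgroup.centralizer ({u} : Set G))).card + 1 ≤
      Nat.card (Subgroup.centralizer ({u} : Set G)) := fun u => by
    have := card_involutions_add_one_le (Subgroup.centralizer ({u} : Set G))
    rwa [Nat.card_eq_fintype_card, Fintype.card_subtype] at this
  have h1 : (univ.filter (fun u : G => IsConj s u)) ⊆
      (univ.filter (fun z : G => orderOf z = 2 ∧ z ∈ Subgroup.centralizer ({t} : Set G))).biUnion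
        (fun z => univ.filter (fun u : G => orderOf u = 2 ∧
          u ∈ Subgroup.centralizer ({z} : Set G))) := by
    intro u hu
    simp only [mem_filter, mem_univ, true_and, mem_biUnion,
      Subgroup.mem_centralizer_singleton_iff] at hu ⊢
    have hu2 : orderOf u = 2 := by rw [← orderOf_eq_of_isConj hu, hs]
    obtain ⟨z, -, h1, h2, h3⟩ := exists_central_involution_of_not_isConj
      (mul_self_of_orderOf_two hu2) (mul_self_of_orderOf_two ht) (fun h => hnc (hu.trans h))
    exact ⟨z, ⟨h1, h3.eq⟩, hu2, h2.eq.symm⟩
  have h2 := (card_le_card h1).trans (card_biUnion_le_card_mul _ _ (m - 1) (fun z hz => by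
    have := (hinv z).trans (hmax z (mem_filter.1 hz).2.1)
    omega))
  have h3 : (univ.filter (fun u : G => IsConj s u)).card *
      Nat.card (Subgroup.centralizer ({s} : Set G)) = Nat.card G := by
    have h := card_eq_sum_card_fiberwise (f := fun g : G => g * s * g⁻¹) (s := univ)
        (t := univ.filter (fun u : G => IsConj s u))
        (fun g _ => mem_coe.2 (mem_filter.2 ⟨mem_univ _, isConj_iff.2 ⟨g, rfl⟩⟩))
    rw [sum_congr rfl (g := fun _ => Nat.card (Subgroup.centralizer ({s} : Set G))) (fun u hu => by
        rw [← card_conj_eq_card_centralizer (mem_filter.1 hu).2, Nat.card_eq_fintype_card,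
          Fintype.card_subtype]), sum_const, smul_eq_mul, card_univ] at h
    rw [← h, Nat.card_eq_fintype_card (α := G)]
  have h4 := hinv t
  have h5 := hmax s hs
  rw [← hm] at h4
  obtain ⟨k, hk⟩ : ∃ k, m = k + 1 := ⟨m - 1, by omega⟩
  rw [← h3]
  rw [hk] at h2 h4 h5 ⊢
  rw [Nat.add_sub_cancel] at h2
  have h6 := Nat.mul_le_mul (h2.trans (Nat.mul_le_mul_right k (Nat.le_of_succ_le_succ h4))) h5
  nlinarith

end Cfsg.Agent.S0230
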