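import Cfsg.Statements.S0231
import Mathlib
import Cfsg.Agent.Lib.Invol.SylowElem

set_option autoImplicit false
open scoped Pointwise
open Cfsg

namespace Cfsg.Agent.S0231

open CfsgLib.Invol

/-- Let T be a Sylow 2-subgroup of the finite group G which is not normal and which intersects every other Sylow 2-subgroup trivially. Then G has a single conjugacy class of involutions. -/
theorem result {G : Type*} [Group G] [Finite G] (T : Sylow 2 G) (hnn : ¬ (T : Subgroup G).Normal) (hTI : ∀ g : G, MulAut.conj g • (T : Subgroup G) ≠ T → MulAut.conj g • (T : Subgroup G) ⊓ T = ⊥) (s t : G) (hs : orderOf s = 2) (ht : orderOf t = 2) : IsConj s t := by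
  have : Fact (Nat.Prime 2) := ⟨Nat.prime_two⟩
  have hTI' : ∀ P Q : Sylow 2 G, ∀ x, x ≠ 1 → x ∈ P → x ∈ Q → P = Q := by
    intro P Q x hx hP hQ
    obtain ⟨a, rfl⟩ := MulAction.exists_smul_eq G T P
    obtain ⟨b, rfl⟩ := MulAction.exists_smul_eq G T Q
    by_contra hne
    have h1 : MulAut.conj (b⁻¹ * a) • (T : Subgroup G) ≠ T := by
      intro h
      apply hne
      have h2 : (b⁻¹ * a) • T = T := Sylow.ext h
      rw [mul_smul, inv_smul_eq_iff] at h2
      exact h2
    have h3 : b⁻¹ * x * b ∈ MulAut.conj (b⁻¹ * a) • (T : Subgroup G) ⊓ T := by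
      constructor
      · obtain ⟨y, hy, rfl⟩ : x ∈ MulAut.conj a • (T : Subgroup G) := hP
        exact ⟨y, hy, by simp [mul_assoc]⟩
      · obtain ⟨y, hy, rfl⟩ : x ∈ MulAut.conj b • (T : Subgroup G) := hQ
        simpa [mul_assoc] using hy
    rw [hTI _ h1, Subgroup.mem_bot] at h3
    apply hx
    calc x = b * (b⁻¹ * x * b) * b⁻¹ := by group
      _ = 1 := by rw [h3]; group
  by_contra hnc
  obtain ⟨P, hP⟩ := exists_sylow_mem (isPGroup_zpowers_of_mul_self (mul_self_of_orderOf_two hs))
  -- a Sylow subgroup different from `P`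
  have hex : ∃ Q : Sylow 2 G, Q ≠ P := by
    by_contra h
    push Not at h
    apply hnn
    have : Subsingleton (Sylow 2 G) := ⟨fun a b => (h a).trans (h b).symm⟩
    exact Sylow.normal_of_subsingleton T
  obtain ⟨Q, hQ⟩ := hex
  obtain ⟨g, hg⟩ := exists_conj_involution_mem_sylow Q (mul_self_of_orderOf_two ht)
  have ht' : orderOf (g * t * g⁻¹) = 2 := by rw [orderOf_conj, ht]
  obtain ⟨z, -, hz, hzs, hzt⟩ := exists_central_involution_of_not_isConj
    (mul_self_of_orderOf_two hs) (mul_self_of_orderOf_two ht')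
    (fun h => hnc (h.trans (isConj_iff.2 ⟨g, rfl⟩).symm))
  have hz' := isPGroup_zpowers_of_mul_self (mul_self_of_orderOf_two hz)
  obtain ⟨A, hA1, hA2⟩ := exists_sylow_mem_of_commute hz'
    (isPGroup_zpowers_of_mul_self (mul_self_of_orderOf_two hs)) hzs
  obtain ⟨B, hB1, hB2⟩ := exists_sylow_mem_of_commute hz'
    (isPGroup_zpowers_of_mul_self (mul_self_of_orderOf_two ht')) hzt
  apply hQ
  rw [hTI' Q B _ (ne_one_of_orderOf_two ht') hg hB2, hTI' B A _ (ne_one_of_orderOf_two hz) hB1 hA1,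
    hTI' A P _ (ne_one_of_orderOf_two hs) hA2 hP]

end Cfsg.Agent.S0231
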