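import Cfsg.Statements.S0232
import Cfsg.Agent.S0220
import Cfsg.Agent.Lib.Invol.Count
import Cfsg.Agent.Lib.StrEmb.Basic
import Cfsg.Agent.Lib.Core.Basic

set_option autoImplicit false
open Cfsg

namespace Cfsg.Agent.S0232

open CfsgLib Subgroup

universe u

theorem of_index_two {G : Type*} [Group G] [Finite G] (hgt : 2 < Nat.card G) {H : Subgroup G}
    (h : H.index = 2) : ∃ H : Subgroup G, H ≠ ⊤ ∧ Nat.card G < (Nat.card H) ^ 3 := by
  refine ⟨H, fun e => by simp [e] at h, ?_⟩
  have h1 := H.card_mul_index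
  rw [h] at h1
  have h2 : 2 ≤ Nat.card H := by omega
  have h3 : 4 ≤ Nat.card H ^ 2 := by nlinarith
  rw [← h1, pow_succ']
  nlinarith

theorem aux (n : ℕ) : ∀ (G : Type u) [Group G] [Finite G], Nat.card G = n → Even (Nat.card G) →
    2 < Nat.card G → ∃ H : Subgroup G, H ≠ ⊤ ∧ Nat.card G < (Nat.card H) ^ 3 := by
  induction n using Nat.strong_induction_on with
  | _ n ih =>
  intro G _ _ hn heven hgt
  rcases Nat.even_or_odd (Nat.card (center G)) with hZ | hZ
  · obtain ⟨z, hz, hzo⟩ := StrEmb.exists_involution_of_even hZ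
    have hn' : (zpowers z).Normal := ⟨fun a ha g => by
      rw [mem_center_iff.1 (zpowers_le_of_mem hz ha) g]; simpa using ha⟩
    have hc := card_eq_card_quotient_mul_card_subgroup (zpowers z)
    rw [Nat.card_zpowers, hzo] at hc
    rcases Nat.even_or_odd (Nat.card (G ⧸ zpowers z)) with hq | hq
    · by_cases h2 : Nat.card (G ⧸ zpowers z) = 2
      · exact of_index_two hgt (H := zpowers z) h2
      obtain ⟨K, hK, h3⟩ := ih _ (by omega) (G ⧸ zpowers z) rfl hq (by
        obtain ⟨k, hk⟩ := hq; omega)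
      refine ⟨K.comap (QuotientGroup.mk' _), fun e => hK ?_, ?_⟩
      · rw [← map_comap_eq_self_of_surjective (QuotientGroup.mk'_surjective _) K, e]
        exact map_top_of_surjective _ (QuotientGroup.mk'_surjective _)
      · rw [Core.card_comap_mk', Nat.card_zpowers, hzo, hc, mul_pow]
        omega
    · obtain ⟨S⟩ : Nonempty (Sylow 2 (centralizer ({z} : Set G))) := inferInstance
      obtain ⟨H, hH⟩ := Cfsg.Agent.S0220.result z hzo S (by
        obtain ⟨k, hk⟩ := S.isPGroup'.exists_card_eq
        have h1 : 2 ^ k ∣ Nat.card G := hk ▸ (card_subgroup_dvd_card _).trans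
          (card_subgroup_dvd_card _)
        rcases k with _ | _ | k
        · have := (Nat.card_eq_one_iff_unique.1 hk).1
          infer_instance
        · exact isCyclic_of_prime_card (p := 2) hk
        · exfalso
          have h2 : 2 ^ 2 ∣ Nat.card G := (pow_dvd_pow 2 (by omega)).trans h1
          obtain ⟨j, hj⟩ := hq
          omega)
      exact of_index_two hgt hH
  obtain ⟨H, hH, h⟩ := Invol.brauerFowler_index heven hZ
  rcases h with h | h
  · exact of_index_two hgt h
  obtain ⟨t, -, ht⟩ := StrEmb.exists_involution_of_even (D := (⊤ : Subgroup G)) (by rwa [card_top])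
  have hC : centralizer ({t} : Set G) ≠ ⊤ := fun e => by
    have h1 : t ∈ center G := mem_center_iff.2 fun g =>
      mem_centralizer_singleton_iff.1 (e ▸ mem_top g)
    have := StrEmb.odd_orderOf_of_mem hZ h1
    rw [ht] at this
    exact absurd this (by decide)
  by_cases hc3 : Nat.card G < Nat.card (centralizer ({t} : Set G)) ^ 3
  · exact ⟨_, hC, hc3⟩
  refine ⟨H, hH, ?_⟩
  have h2 := Invol.index_centralizer_le_card_involutions ht
  have h3 := (centralizer ({t} : Set G)).card_mul_index
  have h5 := H.card_mul_index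
  have hcpos : 0 < Nat.card (centralizer ({t} : Set G)) := Nat.card_pos
  have hHpos : 0 < Nat.card H := Nat.card_pos
  generalize Nat.card (centralizer ({t} : Set G)) = c at *
  generalize Nat.card {t : G // orderOf t = 2} = m at *
  generalize Nat.card G = N at *
  generalize Nat.card H = a at *
  have h4 : N ≤ c * m := by rw [← h3]; exact Nat.mul_le_mul_left _ h2
  have a1 : N * (N + m) ≤ (c * m) * (c * m + m) := Nat.mul_le_mul h4 (by omega)
  have a2 : 2 * H.index * m ^ 2 < (c * (c + 1)) * m ^ 2 := by nlinarith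
  have a3 := lt_of_mul_lt_mul_right a2 (Nat.zero_le _)
  have a4 : H.index < c ^ 2 := by nlinarith
  have a5 : N < a * c ^ 2 := by rw [← h5]; exact Nat.mul_lt_mul_of_pos_left a4 hHpos
  have a6 : N ^ 3 < (a * c ^ 2) ^ 3 := Nat.pow_lt_pow_left a5 (by norm_num)
  have a7 : (c ^ 3) ^ 2 ≤ N ^ 2 := Nat.pow_le_pow_left (by omega) 2
  have a8 : N * (c ^ 3) ^ 2 < a ^ 3 * (c ^ 3) ^ 2 := by
    calc N * (c ^ 3) ^ 2 ≤ N * N ^ 2 := Nat.mul_le_mul_left _ a7
      _ = N ^ 3 := by ring
      _ < (a * c ^ 2) ^ 3 := a6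
      _ = _ := by ring
  exact lt_of_mul_lt_mul_right a8 (Nat.zero_le _)

/-- A finite group G of even order greater than 2 has a proper subgroup H with |G| < |H|^3. -/
theorem result {G : Type*} [Group G] [Finite G] (heven : Even (Nat.card G)) (hgt : 2 < Nat.card G) : ∃ H : Subgroup G, H ≠ ⊤ ∧ Nat.card G < (Nat.card H) ^ 3 := by
  exact aux _ G rfl heven hgt

end Cfsg.Agent.S0232
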