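import Cfsg.Statements.S0234
import Cfsg.Agent.Lib.SmallSimple.NC
import Cfsg.Agent.Lib.Invol.Count

set_option autoImplicit false
open Cfsg

namespace Cfsg.Agent.S0234

open CfsgLib CfsgLib.SmallSimple Subgroup

theorem card_inv : Fintype.card {σ : Equiv.Perm (Fin 5) // σ * σ = 1 ∧ σ ≠ 1 ∧ Equiv.Perm.sign σ = 1} = 15 := by
  decide +kernel

theorem not_small {G : Type*} [Group G] [Finite G] [IsSimpleGroup G] (hG : ¬ IsMulCommutative G)
    (h : Nat.card G = 4 ∨ Nat.card G = 6 ∨ Nat.card G = 10 ∨ Nat.card G = 12) : False := by
  have : Fact (Nat.Prime 5) := ⟨by norm_num⟩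
  have key : ∀ (p a m : ℕ) [Fact p.Prime], Nat.card G = p ^ a * m → ¬ p ∣ m →
      2 * Nat.card G ∣ m.factorial := by
    intro p a m _ h1 h2
    obtain ⟨P⟩ : Nonempty (Sylow p G) := inferInstance
    rw [← index_sylow_eq P h1 h2]
    exact two_mul_card_dvd_factorial hG _ (sylow_ne_top hG P)
  rcases h with h | h | h | h
  · have := key 2 2 1 (by omega) (by omega); rw [h] at this; revert this; decide
  · have := key 3 1 2 (by omega) (by omega); rw [h] at this; revert this; decide
  · have := key 5 1 2 (by omega) (by omega); rw [h] at this; revert this; decide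
  · have := key 2 2 3 (by omega) (by omega); rw [h] at this; revert this; decide

/-- In a finite simple group G of even order greater than 2, the number n of involutions satisfies 3n < |G|. -/
theorem result {G : Type*} [Group G] [Finite G] [IsSimpleGroup G] (heven : Even (Nat.card G)) (hgt : 2 < Nat.card G) : 3 * Nat.card {t : G // orderOf t = 2} < Nat.card G := by
  have hG : ¬ IsMulCommutative G := not_comm_of_not_prime fun hp => by
    have := hp.even_iff.1 heven
    omega
  have hZ : center G = ⊥ := (inferInstance : (center G).Normal).eq_bot_or_eq_top.resolve_right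
    fun e => hG ⟨⟨fun a b => mem_center_iff.1 (e ▸ mem_top b) a⟩⟩
  obtain ⟨H, hH, h⟩ := Invol.brauerFowler_index heven (by rw [hZ]; simp)
  have h1 := two_mul_card_dvd_factorial hG H hH
  by_contra hcon
  set n := Nat.card {t : G // orderOf t = 2} with hn
  have hi : H.index ≤ 5 := by
    rcases h with h | h
    · omega
    · by_contra h6
      have a1 : Nat.card G * (Nat.card G + n) ≤ (3 * n) * (3 * n + n) :=
        Nat.mul_le_mul (by omega) (by omega)
      have a2 : 2 * 6 * n ^ 2 ≤ 2 * H.index * n ^ 2 :=
        Nat.mul_le_mul_right _ (by omega)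
      nlinarith
  obtain ⟨k, hk⟩ := heven
  by_cases h5 : H.index = 5
  · obtain ⟨f, hf⟩ := exists_embedding_alt_of_action hG (exists_smul_ne_of_ne_top H hH) 5 h5
    have h60 : Nat.card (alternatingGroup (Fin 5)) = 60 := by
      have := two_mul_nat_card_alternatingGroup (α := Fin 5)
      rw [Nat.card_perm, Nat.card_fin] at this
      simp [Nat.factorial] at this ⊢
      omega
    have hr : Nat.card f.range * f.range.index = 60 := by rw [card_mul_index, h60]
    rw [← Nat.card_congr (MonoidHom.ofInjective hf).toEquiv] at hr
    by_cases ht : f.range = ⊤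
    · rw [ht, index_top] at hr
      have : n ≤ 15 := by
        rw [← card_inv, ← Nat.card_eq_fintype_card]
        refine Nat.card_le_card_of_injective (fun t => ⟨(f t.1).1, ?_, ?_, (f t.1).2⟩) ?_
        · rw [← coe_mul, ← map_mul, Invol.mul_self_of_orderOf_two t.2]; simp
        · intro e
          have : t.1 = 1 := hf (by rw [map_one]; exact Subtype.ext e)
          simpa [this] using t.2
        · intro a b e
          simp only [Subtype.mk.injEq] at e
          exact Subtype.ext (hf (Subtype.ext e))
      omega
    · have h2 := two_mul_card_dvd_factorial (G := alternatingGroup (Fin 5))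
        (not_comm_of_not_prime (by rw [h60]; norm_num)) _ ht
      rw [h60] at h2
      have h3 : 5 ≤ f.range.index := by
        by_contra h4
        have h5 : f.range.index ≤ 4 := by omega
        generalize f.range.index = j at *
        interval_cases j <;> revert h2 <;> decide
      have h4 : Nat.card G ≤ 12 := by nlinarith
      have h6 : Nat.card G ∣ 60 := ⟨_, hr.symm⟩
      apply not_small hG
      generalize Nat.card G = N at *
      interval_cases N <;> omega
  · have h2 : 2 * Nat.card G ∣ 24 := h1.trans (by
      have : H.index ≤ 4 := by omega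
      exact Nat.factorial_dvd_factorial this)
    have h3 := Nat.le_of_dvd (by norm_num) h2
    have h4 : Nat.card G ≤ 12 := by omega
    apply not_small hG
    generalize Nat.card G = N at *
    interval_cases N <;> omega

end Cfsg.Agent.S0234
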