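import Cfsg.Statements.S0239
import Mathlib
import Cfsg.Agent.Lib.Invol.SylowElem

set_option autoImplicit false
open Cfsg

namespace Cfsg.Agent.S0239

open CfsgLib.Invol

/-- If some nontrivial element x of a finite group G is conjugate to x⁻¹, then |G| is even. -/
theorem result {G : Type*} [Group G] [Finite G] (x : G) (hx : x ≠ 1) (hreal : IsConj x x⁻¹) : Even (Nat.card G) := by
  by_contra h
  rw [Nat.not_even_iff_odd] at h
  obtain ⟨g, hg⟩ := isConj_iff.1 hreal
  have h2 : ∀ n : ℕ, g ^ (2 * n) * x * (g ^ (2 * n))⁻¹ = x := by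
    intro n
    induction n with
    | zero => simp
    | succ n ih =>
      calc g ^ (2 * (n + 1)) * x * (g ^ (2 * (n + 1)))⁻¹
          = g ^ (2 * n) * (g * (g * x * g⁻¹) * g⁻¹) * (g ^ (2 * n))⁻¹ := by group
        _ = x := by
          rw [hg, show g * x⁻¹ * g⁻¹ = (g * x * g⁻¹)⁻¹ by group, hg, inv_inv, ih]
  obtain ⟨m, hm⟩ := h
  have h3 : g ^ (2 * (m + 1)) = g := by
    rw [show 2 * (m + 1) = Nat.card G + 1 by omega, pow_succ, pow_card_eq_one', one_mul]
  have h4 := h2 (m + 1)
  rw [h3, hg] at h4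
  have h5 : orderOf x = 2 := orderOf_eq_two hx (by nth_rewrite 1 [← h4]; exact inv_mul_cancel x)
  have h6 := orderOf_dvd_natCard x
  rw [h5, hm] at h6
  omega

end Cfsg.Agent.S0239
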