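import Cfsg.Statements.S0240
import Mathlib
import Cfsg.Agent.Lib.Invol.Count

set_option autoImplicit false
open Cfsg

namespace Cfsg.Agent.S0240

open CfsgLib.Invol

/-- Let G be a finite group with n involutions and H a subgroup with |H|·(n+1) > |G|. Then some nontrivial h ∈ H is strongly real in G: an involution t of G satisfies t h t⁻¹ = h⁻¹. -/
theorem result {G : Type*} [Group G] [Finite G] (H : Subgroup G) (hH : Nat.card G < Nat.card H * (Nat.card {t : G // orderOf t = 2} + 1)) : ∃ h : G, h ∈ H ∧ h ≠ 1 ∧ ∃ t : G, orderOf t = 2 ∧ t * h * t⁻¹ = h⁻¹ := by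
  have h1 : H.index < Nat.card {t : G // orderOf t = 2} + 1 := by
    rw [← H.card_mul_index] at hH
    exact Nat.lt_of_mul_lt_mul_left hH
  have h2 : Nat.card {t : G // orderOf t = 2} + 1 = Nat.card {t : G // t * t = 1} := by
    rw [← card_subtype_ne_add_one (fun t : G => t * t = 1) (one_mul 1)]
    congr 1
    exact Nat.card_congr (Equiv.subtypeEquivRight (fun t => by
      rw [CfsgLib.Invol.orderOf_eq_two_iff, and_comm]))
  rw [h2] at h1
  have h3 : ¬ Function.Injective (fun t : {t : G // t * t = 1} => (t.1 : G ⧸ H)) := fun h =>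
    absurd (Nat.card_le_card_of_injective _ h) (not_le.2 h1)
  obtain ⟨⟨a, ha⟩, ⟨b, hb⟩, hab, hne⟩ := Function.not_injective_iff.1 h3
  have hne' : a ≠ b := fun h => hne (Subtype.ext h)
  rw [QuotientGroup.eq, inv_eq_of_mul_eq_one_right ha] at hab
  have h4 : a * b ≠ 1 := fun h => hne' (by
    rw [eq_inv_of_mul_eq_one_left h, inv_eq_of_mul_eq_one_right hb])
  refine ⟨a * b, hab, h4, ?_⟩
  by_cases ha1 : a = 1
  · subst ha1
    refine ⟨b, orderOf_eq_two hne'.symm hb, ?_⟩
    simp [inv_eq_of_mul_eq_one_right hb, hb]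
  · exact ⟨a, orderOf_eq_two ha1 ha, conj_mul_eq_inv ha hb⟩

end Cfsg.Agent.S0240
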