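import Cfsg.Statements.S0241
import Mathlib
import Cfsg.Agent.Lib.Invol.Count

set_option autoImplicit false
open Cfsg

namespace Cfsg.Agent.S0241

open CfsgLib.Invol

/-- If x ≠ 1 is conjugate to x⁻¹ in a finite group G and |C_G(x)| is odd, then some involution t satisfies t x t⁻¹ = x⁻¹. -/
theorem result {G : Type*} [Group G] [Finite G] (x : G) (hx : x ≠ 1) (hreal : IsConj x x⁻¹) (hodd : Odd (Nat.card (Subgroup.centralizer ({x} : Set G)))) : ∃ t : G, orderOf t = 2 ∧ t * x * t⁻¹ = x⁻¹ := by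
  obtain ⟨g, hg⟩ := isConj_iff.1 hreal
  have hx2 : x⁻¹ ≠ x := fun h => odd_card_iff_forall.1 hodd x
    (Subgroup.mem_centralizer_singleton_iff.2 rfl)
    (orderOf_eq_two hx (by nth_rewrite 1 [← h]; exact inv_mul_cancel x))
  have h1 : g * g ∈ Subgroup.centralizer ({x} : Set G) := by
    rw [Subgroup.mem_centralizer_singleton_iff, ← mul_inv_eq_iff_eq_mul]
    calc g * g * x * (g * g)⁻¹ = g * (g * x * g⁻¹) * g⁻¹ := by group
      _ = (g * x * g⁻¹)⁻¹ := by rw [hg]; nth_rewrite 2 [← hg]; group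
      _ = x := by rw [hg, inv_inv]
  obtain ⟨m, hm⟩ := odd_orderOf_of_mem hodd h1
  have h2 : (g * g) ^ m * g * x * ((g * g) ^ m * g)⁻¹ = x⁻¹ := by
    have h3 := Subgroup.mem_centralizer_singleton_iff.1 (Subgroup.pow_mem _ h1 m)
    calc (g * g) ^ m * g * x * ((g * g) ^ m * g)⁻¹
        = ((g * g) ^ m * (g * x * g⁻¹)⁻¹ * ((g * g) ^ m)⁻¹)⁻¹ := by group
      _ = x⁻¹ := by rw [hg, inv_inv, h3, mul_inv_cancel_right]
  refine ⟨(g * g) ^ m * g, orderOf_eq_two (fun h => ?_) ?_, h2⟩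
  · rw [h] at h2
    exact hx2 (by simpa using h2.symm)
  · have h4 := pow_orderOf_eq_one (g * g)
    rw [hm] at h4
    rw [← h4, ← pow_two g, ← pow_mul, ← pow_mul, ← pow_succ, ← pow_add]
    congr 1
    ring

end Cfsg.Agent.S0241
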