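import Cfsg.Statements.S0257
import Cfsg.Agent.Lib.Classical.SmallIso
import Cfsg.Agent.Lib.Classical.SL2Torus

set_option autoImplicit false
open Cfsg

namespace Cfsg.Agent.S0257

/-- SL_2(3) has a normal subgroup of index 3 isomorphic to the quaternion group of order 8, and its centre has order 2. -/
theorem result {F : Type*} [Field F] [Fintype F] (hF : Fintype.card F = 3) : (∃ Q : Subgroup (Matrix.SpecialLinearGroup (Fin 2) F), Q.Normal ∧ Q.index = 3 ∧ Nonempty (Q ≃* QuaternionGroup 2)) ∧ Nat.card (Subgroup.center (Matrix.SpecialLinearGroup (Fin 2) F)) = 2 := by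
  have hcard : Nat.card (Matrix.SpecialLinearGroup (Fin 2) F) = 24 := by
    rw [CfsgLib.Classical.sl2_card, hF]; rfl
  have hz : Nat.card (Subgroup.center (Matrix.SpecialLinearGroup (Fin 2) F)) = 2 := by
    rw [CfsgLib.Classical.sl_card_center, hF]; rfl
  refine ⟨?_, hz⟩
  obtain ⟨P⟩ : Nonempty (Sylow 2 (Matrix.SpecialLinearGroup (Fin 2) F)) := inferInstance
  have hP : Nat.card P = 8 := by
    rw [P.card_eq_multiplicity, hcard]
    have : (24 : ℕ) = 2 ^ 3 * 3 := rfl
    rw [this, Nat.factorization_mul (by norm_num) (by norm_num), Nat.prime_two.factorization_pow]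
    simp [Nat.factorization_eq_zero_of_not_dvd (by norm_num : ¬ 2 ∣ 3)]
  obtain ⟨k, hk, ⟨e⟩⟩ := CfsgLib.Classical.sl2_sylow_two_quaternion (by rw [hF]; decide) P
  have hk1 : k = 1 := by
    have hP' := hP
    rw [Nat.card_congr e.toEquiv, Nat.card_eq_fintype_card, QuaternionGroup.card] at hP'
    have : 2 ^ k = 2 ^ 1 := by omega
    exact Nat.pow_right_injective le_rfl this
  subst hk1
  have hidx : (P : Subgroup (Matrix.SpecialLinearGroup (Fin 2) F)).index = 3 := by
    have := (P : Subgroup (Matrix.SpecialLinearGroup (Fin 2) F)).card_mul_index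
    rw [hP, hcard] at this
    omega
  refine ⟨P, ?_, hidx, ⟨e⟩⟩
  have h := CfsgLib.Classical.psl2_card_mul (F := F)
  rw [hF] at h
  obtain ⟨φ⟩ := CfsgLib.Classical.equiv_alternating_of_faithful
    (G := Matrix.ProjectiveSpecialLinearGroup (Fin 2) F) (α := Projectivization F (Fin 2 → F))
    (n := 4) (by rw [CfsgLib.Classical.sl2_card_projectiveLine, hF]) h
  let f := φ.toMonoidHom.comp
    (QuotientGroup.mk' (Subgroup.center (Matrix.SpecialLinearGroup (Fin 2) F)))
  have hf : Function.Surjective f := φ.surjective.comp (QuotientGroup.mk'_surjective _)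
  have h4 : Nat.card (Fin 4) = 4 := by simp
  have hn := alternatingGroup.normal_kleinFour h4
  let N := (alternatingGroup.kleinFour (Fin 4)).comap f
  have hN : N.index = 3 := by
    rw [Subgroup.index_comap_of_surjective _ hf]
    have h1 := (alternatingGroup.kleinFour (Fin 4)).card_mul_index
    have h2 := CfsgLib.Classical.alt_card_mul 4 (by norm_num)
    rw [alternatingGroup.kleinFour_card_of_card_eq_four h4] at h1
    have : Nat.factorial 4 = 24 := rfl
    omega
  have hNc : Nat.card N = 2 ^ 3 := by
    have := N.card_mul_index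
    rw [hN, hcard] at this
    omega
  have hNp : IsPGroup 2 N := IsPGroup.of_card hNc
  have hle : N ≤ P := hNp.le_sylow_of_normal P
  have : N = P := Subgroup.eq_of_le_of_card_ge hle (by rw [hNc]; exact hP.le)
  rw [← this]
  infer_instance

end Cfsg.Agent.S0257
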