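import Cfsg.Statements.S0267
import Cfsg.Agent.Lib.Classical.ProjLine

set_option autoImplicit false
open Cfsg

namespace Cfsg.Agent.S0267

/-- SL_2(q) is 3-transitive on the q+1 points of the projective line if and only if q is even. -/
theorem result {F : Type*} [Field F] [Fintype F] : MulAction.IsMultiplyPretransitive (Matrix.SpecialLinearGroup (Fin 2) F) (Projectivization F (Fin 2 → F)) 3 ↔ ringChar F = 2 := by
  rw [CfsgLib.Classical.sl2_three_pretransitive_iff]
  constructor
  · intro h
    by_contra h2
    obtain ⟨a, ha⟩ := FiniteField.exists_nonsquare (F := F) h2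
    exact ha (h a)
  · intro h a
    exact FiniteField.isSquare_of_char_two h a

end Cfsg.Agent.S0267
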