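import Cfsg.Statements.S0273
import Mathlib

set_option autoImplicit false
open Cfsg

namespace Cfsg.Agent.S0273

theorem det_eq {F : Type*} [Field F] (N : Matrix (Fin 2) (Fin 2) F) (htr : N.trace = 0)
    (hdet : N.det = 0) (s t : F) : (s • (1 : Matrix (Fin 2) (Fin 2) F) + t • N).det = s ^ 2 := by
  rw [Matrix.trace_fin_two] at htr
  rw [Matrix.det_fin_two] at hdet ⊢
  simp
  linear_combination (s * t) * htr + t ^ 2 * hdet

theorem exists_of_commute {F : Type*} [Field F] (N M : Matrix (Fin 2) (Fin 2) F)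
    (htr : N.trace = 0) (hdet : N.det = 0) (hN : N ≠ 0) (h : M * N = N * M) :
    ∃ s t : F, M = s • (1 : Matrix (Fin 2) (Fin 2) F) + t • N := by
  rw [Matrix.trace_fin_two] at htr
  rw [Matrix.det_fin_two] at hdet
  have h00 := congrFun (congrFun h 0) 0
  have h01 := congrFun (congrFun h 0) 1
  have h10 := congrFun (congrFun h 1) 0
  simp only [Matrix.mul_apply, Fin.sum_univ_two] at h00 h01 h10
  by_cases hb : N 0 1 = 0
  · by_cases hc : N 1 0 = 0
    · exfalso
      apply hN
      have h0 : N 0 0 = 0 := by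
        have : N 0 0 ^ 2 = 0 := by rw [hb] at hdet; linear_combination N 0 0 * htr - hdet
        exact pow_eq_zero_iff'.1 this |>.1
      have h1 : N 1 1 = 0 := by linear_combination htr - h0
      ext i j
      fin_cases i <;> fin_cases j <;> simp [h0, h1, hb, hc]
    · refine ⟨M 0 0 - M 1 0 / N 1 0 * N 0 0, M 1 0 / N 1 0, ?_⟩
      ext i j
      fin_cases i <;> fin_cases j <;> simp <;> field_simp
      · linear_combination h00
      · linear_combination h10
  · refine ⟨M 0 0 - M 0 1 / N 0 1 * N 0 0, M 0 1 / N 0 1, ?_⟩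
    ext i j
    fin_cases i <;> fin_cases j <;> simp <;> field_simp
    · linear_combination -h00
    · linear_combination -h01

/-- In GL_2(q) the centraliser of a non-trivial element of a Sylow p-subgroup (p the characteristic) has order q (q-1): the Sylow subgroup times the scalars. -/
theorem result {F : Type*} [Field F] [Fintype F] {q : ℕ} (hF : Fintype.card F = q) (p : ℕ) [Fact p.Prime] [CharP F p] (P : Sylow p (Matrix.GeneralLinearGroup (Fin 2) F)) (a : Matrix.GeneralLinearGroup (Fin 2) F) (ha : a ∈ P) (ha1 : a ≠ 1) : Nat.card (Subgroup.centralizer ({a} : Set (Matrix.GeneralLinearGroup (Fin 2) F))) = q * (q - 1) := by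
  classical
  obtain ⟨k, hk⟩ := P.isPGroup' ⟨a, ha⟩
  have hk' : (a : Matrix (Fin 2) (Fin 2) F) ^ p ^ k = 1 := by
    have := congrArg (fun x : P => ((x : Matrix.GeneralLinearGroup (Fin 2) F) :
      Matrix (Fin 2) (Fin 2) F)) hk
    simpa using this
  set N : Matrix (Fin 2) (Fin 2) F := (a : Matrix (Fin 2) (Fin 2) F) - 1 with hN
  have hnil : IsNilpotent N := ⟨p ^ k, by
    rw [hN, sub_pow_char_pow_of_commute p k (Commute.one_right _), hk', one_pow, sub_self]⟩
  have htr : N.trace = 0 := (Matrix.isNilpotent_trace_of_isNilpotent hnil).eq_zero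
  have hdet : N.det = 0 := by
    obtain ⟨m, hm⟩ := hnil
    have := congrArg Matrix.det hm
    rw [Matrix.det_pow, Matrix.det_zero] at this
    exact pow_eq_zero_iff'.1 this |>.1
  have hN0 : N ≠ 0 := fun h => ha1 (Units.ext (sub_eq_zero.1 h))
  have haN : (a : Matrix (Fin 2) (Fin 2) F) = 1 + N := by rw [hN]; abel
  have hdet' : ∀ (s : Fˣ) (t : F), ((s : F) • (1 : Matrix (Fin 2) (Fin 2) F) + t • N).det ≠ 0 := by
    intro s t
    rw [det_eq N htr hdet]
    exact pow_ne_zero _ s.ne_zero
  have : Nat.card (F × Fˣ) = q * (q - 1) := by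
    rw [Nat.card_prod, Nat.card_units, Nat.card_eq_fintype_card, hF]
  rw [← this]
  symm
  refine Nat.card_congr (Equiv.ofBijective (fun x => ⟨Matrix.GeneralLinearGroup.mkOfDetNeZero _
    (hdet' x.2 x.1), ?_⟩) ⟨?_, ?_⟩)
  · rw [Subgroup.mem_centralizer_singleton_iff]
    apply Units.ext
    change (_ + _) * (a : Matrix (Fin 2) (Fin 2) F) = (a : Matrix (Fin 2) (Fin 2) F) * (_ + _)
    rw [haN]
    simp only [mul_add, add_mul, smul_mul_assoc, mul_smul_comm, one_mul, mul_one, smul_add]
    abel
  · rintro ⟨t, s⟩ ⟨t', s'⟩ h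
    have h' : (s : F) • (1 : Matrix (Fin 2) (Fin 2) F) + t • N =
        (s' : F) • (1 : Matrix (Fin 2) (Fin 2) F) + t' • N :=
      congrArg (fun x : Subgroup.centralizer ({a} : Set (Matrix.GeneralLinearGroup (Fin 2) F)) =>
        ((x : Matrix.GeneralLinearGroup (Fin 2) F) : Matrix (Fin 2) (Fin 2) F)) h
    have h1 : ((s : F) - s') • (1 : Matrix (Fin 2) (Fin 2) F) + (t - t') • N = 0 := by
      rw [sub_smul, sub_smul]
      rw [← sub_eq_zero] at h'
      rw [← h']
      abel
    have h2 := congrArg Matrix.det h1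
    rw [det_eq N htr hdet, Matrix.det_zero] at h2
    have h3 : (s : F) - s' = 0 := pow_eq_zero_iff'.1 h2 |>.1
    rw [h3, zero_smul, zero_add, smul_eq_zero] at h1
    exact Prod.ext (sub_eq_zero.1 (h1.resolve_right hN0)) (Units.ext (sub_eq_zero.1 h3))
  · rintro ⟨g, hg⟩
    have hg' := congrArg Units.val (Subgroup.mem_centralizer_singleton_iff.1 hg)
    rw [Units.val_mul, Units.val_mul, haN, mul_add, add_mul, mul_one, one_mul,
      add_right_inj] at hg'
    obtain ⟨s, t, hst⟩ := exists_of_commute N g htr hdet hN0 hg'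
    have hs : s ≠ 0 := by
      rintro rfl
      have := g.det_ne_zero
      rw [hst, det_eq N htr hdet] at this
      simp at this
    exact ⟨(t, Units.mk0 s hs), Subtype.ext (Units.ext hst.symm)⟩

end Cfsg.Agent.S0273
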