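import Cfsg.Statements.S0275
import Cfsg.Agent.Lib.Classical.SL2Dickson
import Cfsg.Agent.Lib.Classical.SL2Torus
import Cfsg.Agent.Lib.Frob.Quaternion

set_option autoImplicit false
open Cfsg

namespace Cfsg.Agent.S0275

/-- If p is odd and H is a subgroup of SL_2(q), q a power of p, with more than one Sylow p-subgroup, then the Sylow 2-subgroups of H are generalised quaternion. -/
theorem result {F : Type*} [Field F] [Fintype F] (p : ℕ) [Fact p.Prime] [CharP F p] (hp : p ≠ 2) (H : Subgroup (Matrix.SpecialLinearGroup (Fin 2) F)) (hH : 1 < Nat.card (Sylow p H)) (S : Sylow 2 H) : ∃ k : ℕ, 1 ≤ k ∧ Nonempty ((S : Subgroup H) ≃* QuaternionGroup (2 ^ k)) := by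
  classical
  have hpp : p.Prime := Fact.out
  have h2 : (2 : F) ≠ 0 := by
    intro h
    have := (CharP.cast_eq_zero_iff F p 2).mp (by exact_mod_cast h)
    exact hp ((Nat.prime_dvd_prime_iff_eq hpp Nat.prime_two).mp this)
  haveI : Fact (Nat.Prime 2) := ⟨Nat.prime_two⟩
  rcases CfsgLib.Frob.cyclic_or_quaternion_of_forall_mem_zpowers S.isPGroup' (fun x y hx hy => by
    have key : ∀ w : (S : Subgroup H), orderOf w = 2 →
        (((w : H) : Matrix.SpecialLinearGroup (Fin 2) F) : Matrix (Fin 2) (Fin 2) F) = -1 := by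
      intro w hw
      refine CfsgLib.Classical.sl2_eq_neg_one_of_mul_self h2 _ (fun e => ?_) ?_
      · have : w = 1 := Subtype.ext (Subtype.ext e)
        rw [this, orderOf_one] at hw
        exact absurd hw (by norm_num)
      · have : w * w = 1 := by have h := pow_orderOf_eq_one w; rwa [hw, pow_two] at h
        exact congrArg (fun z : (S : Subgroup H) => ((z : H) : Matrix.SpecialLinearGroup (Fin 2) F)) this
    have : y = x := Subtype.ext (Subtype.ext (Subtype.ext ((key y hy).trans (key x hx).symm)))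
    rw [this]
    exact Subgroup.mem_zpowers x) with hc | ⟨-, h⟩
  swap
  · exact h
  exfalso
  obtain ⟨f, hf, hle⟩ := CfsgLib.Classical.sl2_exists_hom_prime_field_of_sylow p hp H hH
  obtain ⟨P⟩ : Nonempty (Sylow 2 (Matrix.SpecialLinearGroup (Fin 2) (ZMod p))) := inferInstance
  obtain ⟨k, hk, ⟨e⟩⟩ := CfsgLib.Classical.sl2_sylow_two_quaternion (F := ZMod p)
    (by rw [ZMod.card]; exact hpp.odd_of_ne_two hp) P
  let g : Matrix.SpecialLinearGroup (Fin 2) (ZMod p) →* H := f.codRestrict H (fun x => hle ⟨x, rfl⟩)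
  have hg : Function.Injective g := fun a b h => hf (congrArg Subtype.val h)
  obtain ⟨T, hT⟩ := (P.isPGroup'.map g).exists_le_sylow
  have hTc : IsCyclic (T : Subgroup H) := (Sylow.equiv S T).isCyclic.mp hc
  have hPc : IsCyclic (P : Subgroup (Matrix.SpecialLinearGroup (Fin 2) (ZMod p))) := by
    have h1 : IsCyclic ((P : Subgroup _).map g) := Subgroup.isCyclic_of_le hT
    exact (Subgroup.equivMapOfInjective _ g hg).isCyclic.mpr h1
  have hQ : IsCyclic (QuaternionGroup (2 ^ k)) := e.isCyclic.mp hPc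
  have hcomm := hQ.commGroup.mul_comm (QuaternionGroup.a 1) (QuaternionGroup.xa 0)
  have hcomm' : QuaternionGroup.a (n := 2 ^ k) 1 * QuaternionGroup.xa 0 =
      QuaternionGroup.xa 0 * QuaternionGroup.a 1 := hcomm
  rw [QuaternionGroup.a_mul_xa, QuaternionGroup.xa_mul_a] at hcomm'
  have h3 : (0 : ZMod (2 * 2 ^ k)) - 1 = 0 + 1 := QuaternionGroup.xa.inj hcomm'
  have h4 : ((2 : ℕ) : ZMod (2 * 2 ^ k)) = 0 := by
    push_cast
    linear_combination -h3
  rw [ZMod.natCast_eq_zero_iff] at h4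
  have h5 := Nat.le_of_dvd (by norm_num) h4
  have h6 : 2 ≤ 2 ^ k := by
    calc 2 = 2 ^ 1 := by norm_num
      _ ≤ 2 ^ k := Nat.pow_le_pow_right (by norm_num) hk
  omega

end Cfsg.Agent.S0275
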