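import Mathlib
import Cfsg.Statements.S0289
import Cfsg.Agent.Lib.OrthE.OrderStd
-- import your own Cfsg.Agent.* helpers here

set_option autoImplicit false
open Cfsg

namespace Cfsg.Agent.S0289

/-- The hyperbolic quadratic form on F^(2m), m at least 1, has q^(2m-1) + q^m - q^(m-1) zeros (that is, (q^m - 1)(q^(m-1) + 1) non-zero isotropic vectors). -/
theorem result {F : Type*} [Field F] [Fintype F] {q : ℕ} (hF : Fintype.card F = q) (m : ℕ) (hm : 1 ≤ m) : Nat.card {v : Fin m ⊕ Fin m → F // Cfsg.quadFormPlus m F v = 0} = q ^ (2 * m - 1) + q ^ m - q ^ (m - 1) := by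
  subst hF
  obtain ⟨k, rfl⟩ : ∃ k, m = k + 1 := ⟨m - 1, by omega⟩
  have h := CfsgLib.OrthE.card_zeros_qPlus (F := F) k
  simp only [← CfsgLib.OrthE.qPlus_eq] at h
  rw [Nat.card_eq_fintype_card (α := F)] at h
  have h1 : Fintype.card F ^ k ≤ Fintype.card F ^ (k + 1) :=
    Nat.pow_le_pow_right Fintype.card_pos (Nat.le_succ k)
  rw [show 2 * (k + 1) - 1 = 2 * k + 1 by omega, Nat.add_sub_cancel]
  zify [h1, le_add_left h1]
  rw [h]; ring

end Cfsg.Agent.S0289
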