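import Mathlib
import Cfsg.Statements.S0299
import Cfsg.Agent.Lib.OrthE.Low2
-- import your own Cfsg.Agent.* helpers here

set_option autoImplicit false
open Cfsg

namespace Cfsg.Agent.S0299

/-- PΩ^+_4(q) is isomorphic to PSL_2(q) x PSL_2(q) for q at least 3. -/
theorem result {F : Type*} [Field F] [Fintype F] (hF : 3 ≤ Fintype.card F) : Nonempty (Cfsg.POmega F (Cfsg.quadFormPlus 2 F) ≃* Matrix.ProjectiveSpecialLinearGroup (Fin 2) F × Matrix.ProjectiveSpecialLinearGroup (Fin 2) F) := by
  classical
  refine CfsgLib.OrthE.nonempty_POmega_four_plus ?_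
  by_contra h
  push Not at h
  have : (Finset.univ : Finset F) ⊆ {0, 1} := fun a _ => by
    by_cases ha : a = 0
    · simp [ha]
    · simp [h a ha]
  have h2 := (Finset.card_le_card this).trans Finset.card_le_two
  rw [Finset.card_univ] at h2
  omega

end Cfsg.Agent.S0299
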