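import Cfsg.Statements.S0307
import Cfsg.Agent.Lib.Classical.SLCard

set_option autoImplicit false
open Cfsg

namespace Cfsg.Agent.S0307

/-- PSL_n(q) is normal in PGL_n(q) with cyclic quotient of order gcd(n, q-1): the image of the natural map PSL_n → PGL_n is the kernel of a surjective homomorphism onto the cyclic group of that order. -/
theorem result {F : Type*} [Field F] [Fintype F] {q : ℕ} (hF : Fintype.card F = q) (n : ℕ) (hn : 1 ≤ n) : ∃ g : Matrix.ProjGenLinGroup (Fin n) F →* Multiplicative (ZMod (Nat.gcd n (q - 1))), Function.Surjective g ∧ g.ker = (Matrix.ProjectiveSpecialLinearGroup.toPGL : Matrix.ProjectiveSpecialLinearGroup (Fin n) F →* Matrix.ProjGenLinGroup (Fin n) F).range := by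
  classical
  subst hF
  haveI : Nonempty (Fin n) := ⟨⟨0, hn⟩⟩
  let R : Subgroup Fˣ := (powMonoidHom n : Fˣ →* Fˣ).range
  haveI : IsCyclic (Fˣ ⧸ R) := isCyclic_of_surjective _ (QuotientGroup.mk'_surjective R)
  have hcard : Nat.card (Fˣ ⧸ R) = Nat.card (Multiplicative (ZMod (Nat.gcd n (Fintype.card F - 1)))) := by
    rw [Nat.card_congr Multiplicative.toAdd, Nat.card_zmod, ← Subgroup.index_eq_card,
      IsCyclic.index_powMonoidHom_range, CfsgLib.Classical.sl_card_units, Nat.gcd_comm]
  let e := mulEquivOfCyclicCardEq hcard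
  let f : GL (Fin n) F →* Fˣ ⧸ R := (QuotientGroup.mk' R).comp Matrix.GeneralLinearGroup.det
  have hf : f.comp (Matrix.GeneralLinearGroup.scalar (Fin n)) = 1 := by
    ext u
    simp only [f, MonoidHom.comp_apply, Matrix.GeneralLinearGroup.det_scalar, Fintype.card_fin,
      MonoidHom.one_apply, QuotientGroup.mk'_apply, QuotientGroup.eq_one_iff]
    exact ⟨u, rfl⟩
  let φ := Matrix.ProjGenLinGroup.lift f hf
  have hφ : ∀ A, φ (Matrix.ProjGenLinGroup.mk A) = f A := fun A => rfl
  refine ⟨e.toMonoidHom.comp φ, ?_, ?_⟩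
  · refine e.surjective.comp ?_
    intro y
    obtain ⟨u, rfl⟩ := QuotientGroup.mk_surjective y
    obtain ⟨A, rfl⟩ := Matrix.GeneralLinearGroup.det_surjective (n := Fin n) u
    exact ⟨Matrix.ProjGenLinGroup.mk A, rfl⟩
  · ext x
    induction x using Matrix.ProjGenLinGroup.induction_on with
    | mk A =>
    simp only [MonoidHom.mem_ker, MonoidHom.comp_apply, MulEquiv.coe_toMonoidHom,
      EmbeddingLike.map_eq_one_iff, hφ, MonoidHom.mem_range, f, QuotientGroup.mk'_apply,
      QuotientGroup.eq_one_iff]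
    constructor
    · rintro ⟨u, hu⟩
      have hu' : u ^ n = Matrix.GeneralLinearGroup.det A := hu
      have hm : A * Matrix.GeneralLinearGroup.scalar (Fin n) u⁻¹ ∈
          (Matrix.GeneralLinearGroup.det : GL (Fin n) F →* Fˣ).ker := by
        rw [MonoidHom.mem_ker, map_mul, Matrix.GeneralLinearGroup.det_scalar, Fintype.card_fin, ← hu',
          inv_pow, mul_inv_cancel]
      rw [← CfsgLib.Classical.sl_range_toGL] at hm
      obtain ⟨B, hB⟩ := hm
      refine ⟨(B : Matrix.ProjectiveSpecialLinearGroup (Fin n) F), ?_⟩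
      rw [Matrix.ProjectiveSpecialLinearGroup.toPGL_mk, hB, map_mul, Matrix.ProjGenLinGroup.mk_scalar, mul_one]
    · rintro ⟨y, hy⟩
      obtain ⟨B, rfl⟩ := QuotientGroup.mk_surjective y
      rw [Matrix.ProjectiveSpecialLinearGroup.toPGL_mk, Matrix.ProjGenLinGroup.mk_eq_mk_iff] at hy
      obtain ⟨u, rfl⟩ := hy
      refine ⟨u, ?_⟩
      have hB : Matrix.GeneralLinearGroup.det (Matrix.SpecialLinearGroup.toGL B) = 1 := by
        have : Matrix.SpecialLinearGroup.toGL B ∈ (Matrix.GeneralLinearGroup.det : GL (Fin n) F →* Fˣ).ker := by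
          rw [← CfsgLib.Classical.sl_range_toGL]; exact ⟨B, rfl⟩
        exact this
      rw [map_mul, hB, one_mul, Matrix.GeneralLinearGroup.det_scalar, Fintype.card_fin]
      rfl

end Cfsg.Agent.S0307
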