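import Cfsg.Statements.S0310
import Cfsg.Agent.Lib.BN.Parabolic

set_option autoImplicit false
open Cfsg

namespace Cfsg.Agent.S0310

/-- For a set `J` of distinguished generators, the subgroup generated by `B` and `J` is exactly the union of
the double cosets `B n B` with `n` in the subgroup generated by `J` (so `B W_J B` is a subgroup). -/
theorem result {G : Type*} [Group G] (P : Cfsg.BNPair G) {J : Set G}
    (hJ : J ⊆ P.S) (g : G) :
    g ∈ P.parabolic J ↔ ∃ n ∈ Subgroup.closure J, g ∈ DoubleCoset.doubleCoset n (P.B : Set G) P.B := by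
  rw [← CfsgLib.BN.image_preimage_of_subset hJ, CfsgLib.BN.mem_parabolic_iff]
  constructor
  · rintro ⟨w, hw, hg⟩
    obtain ⟨n, hn, h1, rfl⟩ := CfsgLib.BN.exists_rep_of_mem_par hw
    exact ⟨n, h1, by rwa [CfsgLib.BN.cell_cls] at hg⟩
  · rintro ⟨n, hn, hg⟩
    obtain ⟨hn', h⟩ := CfsgLib.BN.cls_mem_par_of_mem_closure hn
    exact ⟨_, h, by rwa [CfsgLib.BN.cell_cls]⟩

end Cfsg.Agent.S0310
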