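import Cfsg.Statements.S0314
import Cfsg.Agent.Lib.BN.Parabolic

set_option autoImplicit false
open Cfsg

namespace Cfsg.Agent.S0314

/-- Distinct sets of distinguished generators give distinct standard parabolic subgroups. -/
theorem result {G : Type*} [Group G] (P : Cfsg.BNPair G) {J K : Set G}
    (hJ : J ⊆ P.S) (hK : K ⊆ P.S) (h : P.parabolic J = P.parabolic K) : J = K := by
  ext s
  constructor
  · intro hs
    exact (CfsgLib.BN.S_mem_parabolic_iff hK (hJ hs)).1 (h ▸ CfsgLib.BN.mem_parabolic_of_mem hs)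
  · intro hs
    exact (CfsgLib.BN.S_mem_parabolic_iff hJ (hK hs)).1 (h ▸ CfsgLib.BN.mem_parabolic_of_mem hs)

end Cfsg.Agent.S0314
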