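import Cfsg.Statements.S0316
import Cfsg.Agent.Lib.BN.Parabolic

set_option autoImplicit false
open Cfsg

namespace Cfsg.Agent.S0316

/-- The map `J ↦ P_J` is a lattice isomorphism from the power set of the set of distinguished generators onto the
subgroups containing `B`. -/
theorem result {G : Type*} [Group G] (P : Cfsg.BNPair G) :
    ∃ e : Set P.S ≃o {M : Subgroup G // P.B ≤ M},
      ∀ J : Set P.S, ((e J : {M : Subgroup G // P.B ≤ M}) : Subgroup G) = P.parabolic (Subtype.val '' J) := by
  let f : Set P.S → {M : Subgroup G // P.B ≤ M} :=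
    fun J => ⟨P.parabolic (Subtype.val '' J), CfsgLib.BN.B_le_parabolic _⟩
  have hle : ∀ J K, f J ≤ f K ↔ J ≤ K := by
    intro J K
    refine ⟨fun h s hs => ?_, fun h => CfsgLib.BN.parabolic_mono (Set.image_mono h)⟩
    have h1 : (s : G) ∈ P.parabolic (Subtype.val '' K) :=
      h (CfsgLib.BN.mem_parabolic_of_mem ⟨s, hs, rfl⟩)
    rw [CfsgLib.BN.S_mem_parabolic_iff (Subtype.coe_image_subset _ _) s.2] at h1
    obtain ⟨t, ht, he⟩ := h1
    exact Subtype.ext he ▸ ht
  have hsurj : Function.Surjective f := by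
    rintro ⟨M, hM⟩
    refine ⟨Subtype.val ⁻¹' (P.S ∩ M), Subtype.ext ?_⟩
    change P.parabolic _ = M
    rw [CfsgLib.BN.image_preimage_of_subset Set.inter_subset_left]
    exact (CfsgLib.BN.eq_parabolic_of_le hM).symm
  exact ⟨RelIso.ofSurjective (OrderEmbedding.ofMapLEIff f hle) hsurj, fun J => rfl⟩

end Cfsg.Agent.S0316
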