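import Cfsg.Statements.S0321
import Cfsg.Agent.Lib.BN.Parabolic

set_option autoImplicit false
open Cfsg

namespace Cfsg.Agent.S0321

/-- For `n ∈ N` not in `B`, the union `B ∪ B n B` is (the underlying set of) a subgroup exactly when `n` agrees
modulo `B ⊓ N` with one of the distinguished representatives; thus the distinguished involutions are
determined by `B` and `N`. -/
theorem result {G : Type*} [Group G] (P : Cfsg.BNPair G) {n : G}
    (hn : n ∈ P.N) (hnB : n ∉ P.B) :
    (∃ H : Subgroup G, (H : Set G) = (P.B : Set G) ∪ DoubleCoset.doubleCoset n (P.B : Set G) P.B) ↔ ∃ s ∈ P.S, s⁻¹ * n ∈ P.B := by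
  constructor
  · rintro ⟨H, hH⟩
    have hB : P.B ≤ H := fun b hb => by
      rw [← SetLike.mem_coe, hH]; exact Or.inl hb
    have hnH : n ∈ H := by
      rw [← SetLike.mem_coe, hH]; exact Or.inr (DoubleCoset.mem_doubleCoset_self _ _ n)
    have hM := CfsgLib.BN.eq_parabolic_of_le hB
    by_cases hne : (P.S ∩ H).Nonempty
    · obtain ⟨s, hs, hsH⟩ := hne
      refine ⟨s, hs, ?_⟩
      rw [hH] at hsH
      rcases hsH with h | h
      · exact absurd h (CfsgLib.BN.S_not_mem_B hs)
      · rw [← CfsgLib.BN.cell_cls P hn] at h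
        exact (CfsgLib.BN.cls_eq_iff P (P.subset hs) hn).1
          (CfsgLib.BN.cell_unique (CfsgLib.BN.S_mem_cell ⟨s, hs⟩) h)
    · rw [Set.not_nonempty_iff_eq_empty] at hne
      rw [hne, CfsgLib.BN.parabolic_empty] at hM
      exact absurd (hM ▸ hnH) hnB
  · rintro ⟨s, hs, h⟩
    refine ⟨P.parabolic {s}, ?_⟩
    ext g
    rw [← CfsgLib.BN.cell_cls P hn, ← (CfsgLib.BN.cls_eq_iff P (P.subset hs) hn).2 h]
    exact CfsgLib.BN.mem_parabolic_singleton (s := ⟨s, hs⟩)

end Cfsg.Agent.S0321
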