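import Cfsg.Statements.S0322
import Cfsg.Agent.Lib.BN.Parabolic

set_option autoImplicit false
open Cfsg

namespace Cfsg.Agent.S0322

/-- A group with a (B,N)-pair of rank one acts doubly transitively on the left cosets of `B`. -/
theorem result {G : Type*} [Group G] (P : Cfsg.BNPair G) (h : P.rank = 1) : MulAction.IsMultiplyPretransitive G (G ⧸ P.B) 2 := by
  have hS : ∃ s : P.S, ∀ t : P.S, t = s := by
    obtain ⟨h1, ⟨s⟩⟩ := Nat.card_eq_one_iff_unique.1 h
    exact ⟨s, fun t => Subsingleton.elim _ _⟩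
  obtain ⟨s, hs⟩ := hS
  have hSs : P.S = {(s : G)} := by
    ext t
    exact ⟨fun ht => congrArg Subtype.val (hs ⟨t, ht⟩), fun ht => ht ▸ s.2⟩
  have hG : ∀ g : G, g ∉ P.B → g ∈ CfsgLib.BN.cell P (CfsgLib.BN.sW P s) := by
    intro g hg
    have : g ∈ P.parabolic {(s : G)} := by
      rw [← hSs, CfsgLib.BN.parabolic_S]; trivial
    exact (CfsgLib.BN.mem_parabolic_singleton.1 this).resolve_left hg
  rw [MulAction.is_two_pretransitive_iff]
  intro a b c d hab hcd
  obtain ⟨a, rfl⟩ := QuotientGroup.mk_surjective a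
  obtain ⟨b, rfl⟩ := QuotientGroup.mk_surjective b
  obtain ⟨c, rfl⟩ := QuotientGroup.mk_surjective c
  obtain ⟨d, rfl⟩ := QuotientGroup.mk_surjective d
  rw [ne_eq, QuotientGroup.eq] at hab hcd
  obtain ⟨x, hx, y, hy, he⟩ := CfsgLib.BN.exists_of_mem_cell (hG _ hab) (hG _ hcd)
  refine ⟨c * x * a⁻¹, ?_, ?_⟩
  · rw [MulAction.Quotient.smul_mk, QuotientGroup.eq]
    simpa using hx
  · rw [MulAction.Quotient.smul_mk, QuotientGroup.eq]
    have : d = c * (x * (a⁻¹ * b) * y) := by rw [← he]; group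
    rw [this]
    simpa [mul_assoc] using hy

end Cfsg.Agent.S0322
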