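import Cfsg.Statements.S0326


set_option autoImplicit false
open Cfsg

namespace Cfsg.Agent.S0326

/-- The Suzuki–Tits ovoid over a finite field with `q` elements has `q² + 1` points. -/
theorem result {F : Type*} [Field F] [Fintype F] (m : ℕ) :
    Nat.card (Cfsg.suzukiOvoid F m) = Fintype.card F ^ 2 + 1 := by
-----PROOF-----
  let v : Option (F × F) → Fin 4 → F := fun o =>
    o.elim ![1, 0, 0, 0] fun p => ![p.1 * p.2 + p.1 ^ (2 ^ (m + 1) + 2) + p.2 ^ (2 ^ (m + 1)), p.2, p.1, 1]
  have hv : ∀ o, v o ≠ 0 := by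
    rintro (_ | p) h
    · simpa [v] using congrFun h 0
    · simpa [v] using congrFun h 3
  have hr : Cfsg.suzukiOvoid F m = Set.range fun o => Projectivization.mk F (v o) (hv o) := by
    ext p
    constructor
    · rintro ⟨w, hw, rfl, rfl | ⟨x, y, rfl⟩⟩
      · exact ⟨none, rfl⟩
      · exact ⟨some (x, y), rfl⟩
    · rintro ⟨_ | ⟨x, y⟩, rfl⟩
      · exact ⟨_, _, rfl, Or.inl rfl⟩
      · exact ⟨_, _, rfl, Or.inr ⟨x, y, rfl⟩⟩
  have hinj : Function.Injective fun o => Projectivization.mk F (v o) (hv o) := by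
    intro a b h
    obtain ⟨c, hc⟩ := (Projectivization.mk_eq_mk_iff F _ _ _ _).1 h
    have h1 := congrFun hc 1
    have h2 := congrFun hc 2
    have h3 := congrFun hc 3
    rcases a with _ | ⟨x, y⟩ <;> rcases b with _ | ⟨x', y'⟩
    · rfl
    · simp [v, Units.smul_def] at h3
    · simp [v] at h3
    · simp [v, Units.smul_def] at h1 h2 h3
      simp [← h1, ← h2, h3]
  rw [hr, Nat.card_range_of_injective hinj, Finite.card_option, Nat.card_prod, Nat.card_eq_fintype_card, pow_two]

end Cfsg.Agent.S0326
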