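import Cfsg.Statements.S0327
import Cfsg.Agent.Lib.Sz.Models
import Cfsg.Agent.Lib.Sz.Struct

set_option autoImplicit false
open Cfsg

namespace Cfsg.Agent.S0327

open CfsgLib.Sz

/-- The Suzuki group (`m ≥ 1`) is a Zassenhaus group on the `q² + 1` points of the Suzuki–Tits ovoid. -/
theorem result {F : Type*} [Field F] [Fintype F] {m : ℕ} (hm : 1 ≤ m)
    (hF : Fintype.card F = 2 ^ (2 * m + 1)) :
    Cfsg.IsZassenhausGroup (Cfsg.Sz F m) (Cfsg.suzukiOvoid F m) := by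
  have hs := Tits.isSimpleGroup_grp (τ := tits hF) (exists_ne_zero_one hm hF)
  have hs' := (szEquiv hm hF).symm.isSimpleGroup
  have h3 : ∀ g : Cfsg.Sz F m, ∀ a b c : Cfsg.suzukiOvoid F m, a ≠ b → b ≠ c → a ≠ c → g • a = a → g • b = b →
      g • c = c → g = 1 := by
    intro g a b c hab hbc hac ha hb hc
    obtain ⟨g, rfl⟩ := (szEquiv hm hF).surjective g
    obtain ⟨a, rfl⟩ := (ovoidEquiv hF).surjective a
    obtain ⟨b, rfl⟩ := (ovoidEquiv hF).surjective b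
    obtain ⟨c, rfl⟩ := (ovoidEquiv hF).surjective c
    rw [szEquiv_smul_ovoidEquiv, (ovoidEquiv hF).apply_eq_iff_eq] at ha hb hc
    rw [Tits.eq_one_of_three (fun h => hab (by rw [h])) (fun h => hac (by rw [h])) (fun h => hbc (by rw [h])) ha hb hc,
      map_one]
  obtain ⟨t, ht0, ht1⟩ := exists_ne_zero_one hm hF
  have hM : szEquiv hm hF ((tits hF).M (Units.mk0 t ht0)) ≠ 1 := by
    rw [Ne, map_eq_one_iff _ (szEquiv hm hF).injective, Tits.M_eq_one]
    exact fun h => ht1 (congrArg Units.val h)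
  have hMinf : szEquiv hm hF ((tits hF).M (Units.mk0 t ht0)) • ovoidEquiv hF .inf = ovoidEquiv hF .inf := by
    rw [szEquiv_smul_ovoidEquiv, Tits.M_smul_inf]
  refine ⟨⟨fun {g h} e => ?_⟩, MulAction.is_two_pretransitive_iff.2 fun {a b c d} hab hcd => ?_, h3,
    ⟨_, hM, ovoidEquiv hF .inf, ovoidEquiv hF (.aff 0 0), by simp, hMinf, ?_⟩, fun N hN htr => ?_⟩
  · have := h3 (h⁻¹ * g) (ovoidEquiv hF .inf) (ovoidEquiv hF (.aff 0 0)) (ovoidEquiv hF (.aff 1 0)) (by simp)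
      (by simp) (by simp) (by rw [mul_smul, e, inv_smul_smul]) (by rw [mul_smul, e, inv_smul_smul])
      (by rw [mul_smul, e, inv_smul_smul])
    exact (inv_mul_eq_one.1 this).symm
  · obtain ⟨a, rfl⟩ := (ovoidEquiv hF).surjective a
    obtain ⟨b, rfl⟩ := (ovoidEquiv hF).surjective b
    obtain ⟨c, rfl⟩ := (ovoidEquiv hF).surjective c
    obtain ⟨d, rfl⟩ := (ovoidEquiv hF).surjective d
    obtain ⟨g, h1, h2⟩ := Tits.two_transitive (τ := tits hF) (α := a) (β := b) (γ := c) (δ := d)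
      (fun h => hab (by rw [h])) (fun h => hcd (by rw [h]))
    exact ⟨szEquiv hm hF g, by rw [szEquiv_smul_ovoidEquiv, h1], by rw [szEquiv_smul_ovoidEquiv, h2]⟩
  · rw [szEquiv_smul_ovoidEquiv, Tits.M_smul_aff, mul_zero, mul_zero]
  · rcases hN.eq_bot_or_eq_top with rfl | rfl
    · obtain ⟨⟨g, hg⟩, e⟩ := htr.exists_smul_eq (ovoidEquiv hF .inf) (ovoidEquiv hF (.aff 0 0))
      obtain rfl := Subgroup.mem_bot.1 hg
      have e' : (1 : Cfsg.Sz F m) • ovoidEquiv hF .inf = ovoidEquiv hF (.aff 0 0) := e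
      simp at e'
    · refine ⟨ovoidEquiv hF .inf, Subgroup.ne_bot_iff_exists_ne_one.2 ⟨⟨⟨_, Subgroup.mem_top _⟩, hMinf⟩, fun h => hM ?_⟩⟩
      exact congrArg (fun x => (x.1.1 : Cfsg.Sz F m)) h

end Cfsg.Agent.S0327
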