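import Cfsg.Statements.S0328
import Cfsg.Agent.Lib.Sz.Models
import Cfsg.Agent.Lib.Sz.Struct

set_option autoImplicit false
open Cfsg

namespace Cfsg.Agent.S0328

open CfsgLib.Sz

/-- The stabiliser in the Suzuki group of the two ovoid points spanned by `(1,0,0,0)` and `(0,0,0,1)` is
isomorphic to the multiplicative group of the field (cyclic of order `q - 1`). -/
theorem result {F : Type*} [Field F] [Fintype F] {m : ℕ} (hm : 1 ≤ m)
    (hF : Fintype.card F = 2 ^ (2 * m + 1)) :
    Nonempty (↥(MulAction.stabilizer (Cfsg.Sz F m) (Cfsg.suzukiPointInfinity F) ⊓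
        MulAction.stabilizer (Cfsg.Sz F m) (Cfsg.suzukiPointZero F)) ≃* Fˣ) := by
  have : MulAction.stabilizer (Cfsg.Sz F m) (Cfsg.suzukiPointInfinity F) ⊓
      MulAction.stabilizer (Cfsg.Sz F m) (Cfsg.suzukiPointZero F) = (tits hF).H.map (szEquiv hm hF).toMonoidHom := by
    ext g
    obtain ⟨g, rfl⟩ := (szEquiv hm hF).surjective g
    rw [Subgroup.mem_inf, MulAction.mem_stabilizer_iff, MulAction.mem_stabilizer_iff, ← proj_inf hF, ← proj_zero hF,
      szEquiv_smul_proj, szEquiv_smul_proj, (tits hF).proj_injective.eq_iff, (tits hF).proj_injective.eq_iff,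
      ← Tits.mem_H_iff]
    exact (Subgroup.mem_map_iff_mem (f := (szEquiv hm hF).toMonoidHom) (szEquiv hm hF).injective).symm
  rw [this]
  exact ⟨((szEquiv hm hF).subgroupMap _).symm.trans (tits hF).hEquiv.symm⟩

end Cfsg.Agent.S0328
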