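import Cfsg.Statements.S0329
import Cfsg.Agent.Lib.Sz.Models
import Cfsg.Agent.Lib.Sz.Struct

set_option autoImplicit false
open Cfsg

namespace Cfsg.Agent.S0329

open CfsgLib.Sz

/-- The stabiliser in the Suzuki group of the ovoid point spanned by `(1,0,0,0)` has order `q² (q - 1)`. -/
theorem result {F : Type*} [Field F] [Fintype F] {m : ℕ} (hm : 1 ≤ m)
    (hF : Fintype.card F = 2 ^ (2 * m + 1)) :
    Nat.card (MulAction.stabilizer (Cfsg.Sz F m) (Cfsg.suzukiPointInfinity F)) =
      (2 ^ (2 * m + 1)) ^ 2 * (2 ^ (2 * m + 1) - 1) := by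
  have : MulAction.stabilizer (Cfsg.Sz F m) (Cfsg.suzukiPointInfinity F) =
      (tits hF).B.map (szEquiv hm hF).toMonoidHom := by
    ext g
    obtain ⟨g, rfl⟩ := (szEquiv hm hF).surjective g
    rw [MulAction.mem_stabilizer_iff, ← proj_inf hF, szEquiv_smul_proj, (tits hF).proj_injective.eq_iff,
      ← Tits.mem_B]
    exact (Subgroup.mem_map_iff_mem (f := (szEquiv hm hF).toMonoidHom) (szEquiv hm hF).injective).symm
  rw [this, Subgroup.card_map_of_injective (szEquiv hm hF).injective, Tits.card_B, Nat.card_eq_fintype_card, hF]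

end Cfsg.Agent.S0329
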