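import Cfsg.Statements.S0330
import Cfsg.Agent.Lib.Sz.Models
import Cfsg.Agent.Lib.Sz.Sylow

set_option autoImplicit false
open Cfsg

namespace Cfsg.Agent.S0330

open CfsgLib.Sz

/-- A Sylow 2-subgroup `P` of the Suzuki group (field with `q = 2^(2m+1)` elements, `m ≥ 1`) has order `q²` and
exponent `4`; its centre coincides with its commutator subgroup and has order `q`. -/
theorem result {F : Type*} [Field F] [Fintype F] {m : ℕ} (hm : 1 ≤ m)
    (hF : Fintype.card F = 2 ^ (2 * m + 1)) (P : Sylow 2 (Cfsg.Sz F m)) :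
    Nat.card P = (2 ^ (2 * m + 1)) ^ 2 ∧ Monoid.exponent P = 4 ∧
      Subgroup.center P = commutator P ∧ Nat.card (Subgroup.center P) = 2 ^ (2 * m + 1) := by
  have ht := exists_ne_zero_one hm hF
  obtain ⟨e, he⟩ := Tits.exists_equiv_sylow (szEquiv hm hF) P
  have f : (tits hF).U ≃* P := (e.subgroupMap _).trans (MulEquiv.subgroupCongr he.symm)
  have hc : Subgroup.center P = (Subgroup.center (tits hF).U).map f.toMonoidHom := by
    ext x
    obtain ⟨x, rfl⟩ := f.surjective x
    rw [show f x = f.toMonoidHom x from rfl, Subgroup.mem_map_iff_mem f.injective, Subgroup.mem_center_iff,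
      Subgroup.mem_center_iff, f.surjective.forall]
    exact forall_congr' fun y => by simp [← map_mul]
  refine ⟨?_, ?_, ?_, ?_⟩
  · rw [← Nat.card_congr f.toEquiv, Tits.card_U, Nat.card_eq_fintype_card, hF]
  · rw [← Monoid.exponent_eq_of_mulEquiv f, Tits.exponent_U]
  · rw [hc, Tits.center_U ht, ← Tits.commutator_U ht, commutator_def, Subgroup.map_commutator,
      Subgroup.map_top_of_surjective _ f.surjective, commutator_def]
  · rw [hc, Subgroup.card_map_of_injective f.injective, Tits.center_U ht,
      Nat.card_congr (Subgroup.subgroupOfEquivOfLe (tits hF).Z_le_U).toEquiv, Tits.card_Z, Nat.card_eq_fintype_card, hF]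

end Cfsg.Agent.S0330
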