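import Cfsg.Statements.S0331
import Cfsg.Agent.Lib.Sz.Models
import Cfsg.Agent.Lib.Sz.Tori

set_option autoImplicit false
open Cfsg

namespace Cfsg.Agent.S0331

open CfsgLib.Sz

/-- For every odd prime `p` the Sylow `p`-subgroups of the Suzuki group are cyclic. -/
theorem result {F : Type*} [Field F] [Fintype F] {m : ℕ} (hm : 1 ≤ m)
    (hF : Fintype.card F = 2 ^ (2 * m + 1)) {p : ℕ} [Fact p.Prime] (hp : p ≠ 2)
    (P : Sylow p (Cfsg.Sz F m)) : IsCyclic P := by
  have ht := exists_ne_zero_one hm hF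
  set e := szEquiv hm hF
  by_cases hP : (P : Subgroup (Cfsg.Sz F m)) = ⊥
  · rw [hP]
    infer_instance
  obtain ⟨⟨x, hx⟩, hx1⟩ := Subgroup.ne_bot_iff_exists_ne_one.1 hP
  replace hx1 : x ≠ 1 := fun h => hx1 (Subtype.ext h)
  obtain ⟨g, rfl⟩ := e.surjective x
  obtain ⟨n, hn⟩ := P.isPGroup'.exists_orderOf_eq_pow ⟨_, hx⟩
  rw [Subgroup.orderOf_mk, MulEquiv.orderOf_eq] at hn
  have hA := Tits.isTorus_centralizer ht (g := g) (fun h => hx1 (by rw [h, map_one]))
    (hn ▸ ((Fact.out : p.Prime).odd_of_ne_two hp).pow)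
  have hle := (hA.selfCent.map_equiv e).le_of_isPGroup P.isPGroup'
    (Subgroup.mem_map_of_mem _ (Subgroup.mem_centralizer_singleton_iff.2 rfl)) hx hx1
  have := hA.cyclic
  have : IsCyclic ((Subgroup.centralizer {g}).map e.toMonoidHom) :=
    isCyclic_of_surjective (e.subgroupMap (Subgroup.centralizer {g})) (e.subgroupMap _).surjective
  exact Subgroup.isCyclic_of_le hle

end Cfsg.Agent.S0331
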