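import Cfsg.Statements.S0332
import Cfsg.Agent.Lib.Sz.Models
import Cfsg.Agent.Lib.Sz.Tori

set_option autoImplicit false
open Cfsg

namespace Cfsg.Agent.S0332

open CfsgLib.Sz

/-- The Suzuki group is a CN-group: every non-identity element has nilpotent centraliser. -/
theorem result {F : Type*} [Field F] [Fintype F] {m : ℕ} (hm : 1 ≤ m)
    (hF : Fintype.card F = 2 ^ (2 * m + 1)) : Cfsg.IsCNGroup (Cfsg.Sz F m) := by
  have ht := exists_ne_zero_one hm hF
  set e := szEquiv hm hF
  intro x hx1
  obtain ⟨g, rfl⟩ := e.surjective x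
  have hg : g ≠ 1 := fun h => hx1 (by rw [h, map_one])
  have hc : Subgroup.centralizer {e g} = (Subgroup.centralizer {g}).map e.toMonoidHom := by
    ext y
    obtain ⟨y, rfl⟩ := e.surjective y
    rw [show e y = e.toMonoidHom y from rfl, Subgroup.mem_map_iff_mem e.injective,
      Subgroup.mem_centralizer_singleton_iff, Subgroup.mem_centralizer_singleton_iff]
    simp [← map_mul]
  have : Group.IsNilpotent (Subgroup.centralizer {g}) := by
    rcases Tits.mem_Upt_or_isTorus ht hg with ⟨ω, h⟩ | h
    · refine IsPGroup.isNilpotent (p := 2) fun c => ⟨2, Subtype.ext ?_⟩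
      exact (Tits.mem_Upt_of_comm h hg (Subgroup.mem_centralizer_singleton_iff.1 c.2)).2
    · have := h.cyclic
      let _ := IsCyclic.commGroup (α := Subgroup.centralizer {g})
      exact CommGroup.isNilpotent
  rw [hc]
  exact Group.nilpotent_of_mulEquiv (e.subgroupMap _)

end Cfsg.Agent.S0332
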