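import Cfsg.Statements.S0333
import Cfsg.Agent.Lib.Sz.Models
import Cfsg.Agent.Lib.Sz.Tori

set_option autoImplicit false
open Cfsg

namespace Cfsg.Agent.S0333

open CfsgLib.Sz

/-- With `q = 2^(2m+1)` and `r = 2^m`, the Suzuki group has cyclic subgroups of orders `q + 2r + 1` and
`q - 2r + 1`; each is the centraliser of each of its non-identity elements and has index `4` in its normaliser. -/
theorem result {F : Type*} [Field F] [Fintype F] {m : ℕ} (hm : 1 ≤ m)
    (hF : Fintype.card F = 2 ^ (2 * m + 1)) :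
    ∀ k ∈ ({2 ^ (2 * m + 1) + 2 ^ (m + 1) + 1, 2 ^ (2 * m + 1) - 2 ^ (m + 1) + 1} : Set ℕ),
      ∃ U : Subgroup (Cfsg.Sz F m), IsCyclic U ∧ Nat.card U = k ∧
        (∀ u ∈ U, u ≠ 1 → Subgroup.centralizer {u} = U) ∧ Nat.card (Subgroup.normalizer (U : Set (Cfsg.Sz F m))) = 4 * k := by
  have hF' : Nat.card F = 2 ^ (2 * m + 1) := by rw [Nat.card_eq_fintype_card, hF]
  set e := szEquiv hm hF
  have key : ∀ A : Subgroup (tits hF).grp, (tits hF).IsAniso A →
      ∃ U : Subgroup (Cfsg.Sz F m), IsCyclic U ∧ Nat.card U = Nat.card A ∧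
        (∀ u ∈ U, u ≠ 1 → Subgroup.centralizer {u} = U) ∧
        Nat.card (Subgroup.normalizer (U : Set (Cfsg.Sz F m))) = 4 * Nat.card A := fun A hA => by
    have := hA.cyclic
    refine ⟨A.map e.toMonoidHom, isCyclic_of_surjective (e.subgroupMap A) (e.subgroupMap A).surjective,
      Subgroup.card_map_of_injective e.injective, (hA.selfCent.map_equiv e).2, ?_⟩
    rw [← Subgroup.map_equiv_normalizer_eq, Subgroup.card_map_of_injective e.injective, Tits.card_normalizer_eq,
      (hA.card_eq hm hF').2]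
  obtain ⟨A₁, A₂, h₁, h₂, c₁, c₂, -⟩ := Tits.exists_two_tori (τ := tits hF) hm hF'
  rintro k (rfl | rfl)
  · exact c₁ ▸ key A₁ h₁
  · exact c₂ ▸ key A₂ h₂

end Cfsg.Agent.S0333
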