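import Cfsg.Statements.S0335
import Cfsg.Agent.Lib.Sz.Models

set_option autoImplicit false
open Cfsg

namespace Cfsg.Agent.S0335

open CfsgLib.Sz Matrix

theorem linearIndependent_vec {F : Type*} [Field F] (τ : Tits F) (ω : Fin 3 → τ.Pt) (hω : Function.Injective ω) :
    LinearIndependent F fun i => τ.vec (ω i) := by
  obtain ⟨g, h0, h1⟩ := Tits.exists_smul_pair (τ := τ) (α := ω 0) (β := ω 1) (hω.ne (by simp))
  rw [Fintype.linearIndependent_iff]
  intro c hc
  obtain ⟨d0, hd0, e0⟩ := Tits.mulVec_vec g⁻¹ (ω 0)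
  obtain ⟨d1, hd1, e1⟩ := Tits.mulVec_vec g⁻¹ (ω 1)
  obtain ⟨d2, hd2, e2⟩ := Tits.mulVec_vec g⁻¹ (ω 2)
  have hc' := congrArg (τ.mat g⁻¹ *ᵥ ·) hc
  simp only [Fin.sum_univ_three, Matrix.mulVec_add, Matrix.mulVec_smul, e0, e1, e2, Matrix.mulVec_zero] at hc'
  rw [← h0, ← h1, inv_smul_smul, inv_smul_smul] at hc'
  cases h2 : g⁻¹ • ω 2 with
  | inf => exact absurd (hω (h0.symm.trans (by rw [← h2, smul_inv_smul]))) (by simp)
  | aff x y =>
    rw [h2] at hc'
    have a0 := congrFun hc' 0
    have a1 := congrFun hc' 1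
    have a2 := congrFun hc' 2
    have a3 := congrFun hc' 3
    simp [Tits.vec_inf, Tits.vec_aff, hd2] at a0 a1 a2 a3
    have hc2 : c 2 = 0 := by
      by_contra h
      rw [a1.resolve_left h, a2.resolve_left h] at h2
      exact absurd (hω (h1.symm.trans (by rw [← h2, smul_inv_smul]))) (by simp)
    simp [hc2, hd0, hd1] at a0 a3
    intro i
    fin_cases i <;> assumption

/-- The Suzuki–Tits point set is an ovoid: any three distinct points of it are projectively independent
(no line of projective 3-space meets it in more than two points). -/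
theorem result {F : Type*} [Field F] [Fintype F] {m : ℕ} (hm : 1 ≤ m)
    (hF : Fintype.card F = 2 ^ (2 * m + 1)) (p : Fin 3 ↪ Cfsg.suzukiOvoid F m) :
    Projectivization.Independent (fun i => (p i : Projectivization F (Fin 4 → F))) := by
  have : (fun i => (p i : Projectivization F (Fin 4 → F))) =
      fun i => Projectivization.mk F ((tits hF).vec ((ovoidEquiv hF).symm (p i))) ((tits hF).vec_ne_zero _) := by
    funext i
    change _ = (tits hF).proj _
    rw [← coe_ovoidEquiv, Equiv.apply_symm_apply]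
  rw [this]
  exact .mk _ _ (linearIndependent_vec _ _ ((ovoidEquiv hF).symm.injective.comp p.injective))

end Cfsg.Agent.S0335
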