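import Cfsg.Statements.S0344
import Cfsg.Agent.Lib.Perm.ZassSharp

set_option autoImplicit false
open Cfsg

namespace Cfsg.Agent.S0344


/-- A finite simple Zassenhaus group with a two-point stabiliser of even order is isomorphic to `PSL₂(F)` for a finite
field `F` with more than three elements. -/
theorem result {G Ω : Type*} [Group G] [Finite G] [MulAction G Ω] [Finite Ω]
    (hZ : Cfsg.IsZassenhausGroup G Ω) [IsSimpleGroup G]
    {a b : Ω} (hab : a ≠ b) (heven : Even (Nat.card ↥(MulAction.stabilizer G a ⊓ MulAction.stabilizer G b))) :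
    ∃ (F : Type) (_ : Field F) (_ : Fintype F), 3 < Fintype.card F ∧ Nonempty (G ≃* Matrix.ProjectiveSpecialLinearGroup (Fin 2) F) := by
  have hT := CfsgLib.Perm.isZT_of_zass hZ
  have hc := CfsgLib.Perm.zass_three_le_card hZ
  have hpos : 0 < Nat.card (CfsgLib.Perm.stab2 G a b) := Nat.card_pos
  obtain ⟨k, hk⟩ := hT.card_stab2_dvd hab
  have h2 := hT.card_le_two_mul_of_even hab heven
  change Even (Nat.card (CfsgLib.Perm.stab2 G a b)) at heven
  by_cases hd : 2 * Nat.card (CfsgLib.Perm.stab2 G a b) ≤ Nat.card Ω - 2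
  · obtain ⟨K, _, _, hK, -, φ, -⟩ := hT.psl_of_even hab heven hd
    refine ⟨K, inferInstance, inferInstance, ?_, ⟨φ⟩⟩
    obtain ⟨r, hr⟩ := heven
    omega
  exfalso
  have hk1 : k = 1 := by
    rcases k with _ | _ | k
    · omega
    · rfl
    · rw [hk] at hd
      nlinarith
  rw [hk1, mul_one] at hk
  obtain ⟨M, hM⟩ := hT.exists_index_two_of_sharp (hT.three_trans_of_card hab hk.le) hc (by
    obtain ⟨r, hr⟩ := heven
    exact ⟨r + 1, by omega⟩)
  rcases (Subgroup.normal_of_index_eq_two hM).eq_bot_or_eq_top with h | h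
  · rw [h, Subgroup.index_bot, hT.card_group hab] at hM
    have h3 : 3 * 2 * 1 ≤ Nat.card Ω * (Nat.card Ω - 1) * Nat.card (CfsgLib.Perm.stab2 G a b) :=
      Nat.mul_le_mul (Nat.mul_le_mul hc (by omega)) hpos
    omega
  · rw [h, Subgroup.index_top] at hM
    omega

end Cfsg.Agent.S0344
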