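import Cfsg.Statements.S0346
import Cfsg.Agent.Lib.Perm.ZassFeitUse

set_option autoImplicit false
open Cfsg

namespace Cfsg.Agent.S0346


/-- The number of points of a finite simple Zassenhaus group is `p^k + 1` for some prime power `p^k` (the regular normal
subgroup of a point stabiliser is a `p`-group). -/
theorem result {G Ω : Type*} [Group G] [Finite G] [MulAction G Ω] [Fintype Ω]
    (hZ : Cfsg.IsZassenhausGroup G Ω) [IsSimpleGroup G] :
    IsPrimePow (Fintype.card Ω - 1) := by
  rw [← Nat.card_eq_fintype_card]
  exact CfsgLib.Perm.zass_isPrimePow hZ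

end Cfsg.Agent.S0346
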