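import Cfsg.Statements.S0364
import Cfsg.Agent.Lib.Mathieu.M24

set_option autoImplicit false
open Cfsg

namespace Cfsg.Agent.S0364

/-- The permutation group of the 24 points preserving the length-24 code has order 244823040 = 2^10·3^3·5·7·11·23. -/
theorem result : Nat.card Cfsg.M24 = 244823040 := by
  exact CfsgLib.Mathieu.card_M24

end Cfsg.Agent.S0364
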