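import Cfsg.Statements.S0371
import Cfsg.Agent.Lib.Mathieu.M24

set_option autoImplicit false
open Cfsg

namespace Cfsg.Agent.S0371

open CfsgLib.Mathieu CfsgLib.Golay in
theorem two_mem : Equiv.optionCongr (Units.mulLeft (Units.mkOfMulEqOne (5 * 5 : ZMod 23) 12 (by decide))) ∈ Cfsg.M24 := by
  apply mem_M24_of_presCode
  rw [code_eq_of_forall (a := pack 24 fun i => if i = 23 then 23 else 2 * i % 23) (by decide +kernel)
    (by decide +kernel)]
  decide +kernel

/-- Multiplication by a nonzero square residue modulo 23, fixing the extra point, lies in the group of the length-24 code. -/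
theorem result (u : (ZMod 23)ˣ) (hu : IsSquare u) : Equiv.optionCongr (Units.mulLeft u) ∈ Cfsg.M24 := by
  obtain ⟨r, rfl⟩ := hu
  have h : ∀ x : ZMod 23, x ≠ 0 → ∃ n : Fin 11, x * x = 2 ^ (n : ℕ) := by decide +kernel
  obtain ⟨n, hn⟩ := h r (haveI : Fact (Nat.Prime 23) := ⟨by norm_num⟩; r.ne_zero)
  have e : Equiv.optionCongr (Units.mulLeft (r * r)) =
      (Equiv.optionCongr (Units.mulLeft (Units.mkOfMulEqOne (5 * 5 : ZMod 23) 12 (by decide)))) ^ (n : ℕ) := by
    ext1 p
    have key : ∀ (m : ℕ) (x : ZMod 23), ((Equiv.optionCongr (Units.mulLeft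
        (Units.mkOfMulEqOne (5 * 5 : ZMod 23) 12 (by decide)))) ^ m) (some x) = some (2 ^ m * x) := by
      intro m
      induction m with
      | zero => intro x; simp
      | succ m ih =>
        intro x
        rw [pow_succ', Equiv.Perm.mul_apply, ih, pow_succ']
        show some ((5 * 5 : ZMod 23) * (2 ^ m * x)) = _
        rw [show (5 * 5 : ZMod 23) = 2 by decide, mul_assoc]
    cases p with
    | none => exact (Equiv.Perm.pow_apply_eq_self_of_apply_eq_self rfl _).symm
    | some x =>
      rw [key, ← hn]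
      rfl
  rw [e]
  exact Cfsg.M24.pow_mem two_mem _

end Cfsg.Agent.S0371
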