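import Cfsg.Statements.S0384
import Cfsg.Agent.Lib.Mathieu.Simple

set_option autoImplicit false
open scoped Pointwise
open Cfsg

namespace Cfsg.Agent.S0384

open CfsgLib.Mathieu CfsgLib.Golay
open scoped Pointwise

/-- A dodecad stabiliser is sharply 5-transitive on the dodecad. -/
theorem result (d : Finset Cfsg.GolayPt) (hd : d ∈ Cfsg.dodecads) (x y : Fin 5 ↪ Cfsg.GolayPt) (hx : ∀ i, x i ∈ d) (hy : ∀ i, y i ∈ d) : ∃! g : MulAction.stabilizer Cfsg.M24 d, ∀ i, ((g : Cfsg.M24) : Equiv.Perm Cfsg.GolayPt) (x i) = y i := by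
  obtain ⟨k, hk, rfl⟩ := dodecad_trans dod0_mem hd
  have hm : ∀ z : GolayPt, z ∈ k • ofMask dod0 → k.symm z ∈ ofMask dod0 := fun z hz => by
    rwa [← apply_mem_smul_iff (g := k), Equiv.apply_symm_apply]
  obtain ⟨g, hg, e⟩ := M12_five_trans (x.trans k.symm.toEmbedding) (y.trans k.symm.toEmbedding)
    (fun i => hm _ (hx i)) (fun i => hm _ (hy i))
  have e' : ∀ i, (k * g * k⁻¹) (x i) = y i := fun i => by
    show k (g (k.symm (x i))) = y i
    rw [show g (k.symm (x i)) = k.symm (y i) from e i, Equiv.apply_symm_apply]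
  refine ⟨⟨⟨k * g * k⁻¹, M24.mul_mem (M24.mul_mem hk (M12_le_M24 hg)) (M24.inv_mem hk)⟩, ?_⟩, e', ?_⟩
  · show (k * g * k⁻¹) • k • ofMask dod0 = k • ofMask dod0
    rw [mul_smul, inv_smul_smul, mul_smul, M12_smul hg]
  · rintro ⟨⟨h, hh⟩, hs⟩ eh
    have h1 : k⁻¹ * h * k ∈ Spor.M12 :=
      mem_M12.2 ⟨(conj_mem_iff hk).2 hh, (conj_mem_stabilizer rfl).2 hs⟩
    have h2 : g⁻¹ * (k⁻¹ * h * k) = 1 := by
      refine M12_eq_one (Spor.M12.mul_mem (Spor.M12.inv_mem hg) h1) (x.trans k.symm.toEmbedding)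
        (fun i => hm _ (hx i)) fun i => ?_
      show g.symm (k.symm (h (k (k.symm (x i))))) = k.symm (x i)
      rw [Equiv.apply_symm_apply, show h (x i) = y i from eh i, Equiv.symm_apply_eq]
      exact (e i).symm
    apply Subtype.ext
    apply Subtype.ext
    show h = k * g * k⁻¹
    rw [inv_mul_eq_one.1 h2]; group

end Cfsg.Agent.S0384
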