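import Cfsg.Statements.S0385
import Cfsg.Agent.Lib.Mathieu.Simple

set_option autoImplicit false
open Cfsg

namespace Cfsg.Agent.S0385

open CfsgLib.Mathieu CfsgLib.Golay

/-- The 6-point intersections of octads with a fixed dodecad form a Steiner system S(5, 6, 12) on the dodecad. -/
theorem result (d : Finset Cfsg.GolayPt) (hd : d ∈ Cfsg.dodecads) : Cfsg.IsSteinerSystem 5 6 {h : Finset {p : Cfsg.GolayPt // p ∈ d} | ∃ o ∈ Cfsg.octads, (o ∩ d).card = 6 ∧ h = Finset.subtype (fun p => p ∈ d) o} := by
  classical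
  constructor
  · rintro b ⟨o, _, h6, rfl⟩
    rw [Finset.card_subtype, ← h6, Finset.filter_mem_eq_inter]
  · intro s hs
    let t : Finset GolayPt := s.map (Function.Embedding.subtype _)
    have ht : t.card = 5 := by rw [Finset.card_map, hs]
    have hsub : ∀ o : Finset GolayPt, s ⊆ Finset.subtype (fun p => p ∈ d) o ↔ t ⊆ o := by
      intro o
      constructor
      · intro h p hp
        obtain ⟨q, hq, rfl⟩ := Finset.mem_map.1 hp
        exact Finset.mem_subtype.1 (h hq)
      · intro h q hq
        exact Finset.mem_subtype.2 (h (Finset.mem_map_of_mem _ hq))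
    obtain ⟨o, ho, hto⟩ := exists_octad_of_card_le ht.le
    have h5 : 5 ≤ (o ∩ d).card := by
      rw [← ht]
      refine Finset.card_le_card (Finset.subset_inter hto fun p hp => ?_)
      obtain ⟨q, _, rfl⟩ := Finset.mem_map.1 hp
      exact q.2
    have h6 : (o ∩ d).card = 6 := by
      have := card_octad_inter_dodecad ho hd
      omega
    refine ⟨_, ⟨⟨o, ho, h6, rfl⟩, (hsub o).2 hto⟩, ?_⟩
    rintro b ⟨⟨o', ho', _, rfl⟩, hb⟩
    rw [octad_eq_of_five_le ho' ho (ht ▸ Finset.card_le_card
      (Finset.subset_inter ((hsub o').1 hb) hto))]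

end Cfsg.Agent.S0385
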