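import Cfsg.Statements.S0386
import Cfsg.Agent.Lib.Mathieu.Simple

set_option autoImplicit false
open Cfsg

namespace Cfsg.Agent.S0386

open CfsgLib.Mathieu CfsgLib.Golay
open scoped Pointwise

theorem key {k : P24} (hk : k ∈ M24) (n : ℕ) :
    {o : Finset GolayPt | o ∈ octads ∧ (o ∩ k • ofMask dod0).card = n}.ncard =
      cntLT 4096 fun j => (fun m => and (Nat.beq (pc m) 8) (Nat.beq (pc (Nat.land m dod0)) n)) (cw j) := by
  refine Eq.trans ?_ (ncard_code (S := {o : Finset GolayPt | o ∈ octads ∧ (o ∩ ofMask dod0).card = n})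
    (fun m => and (Nat.beq (pc m) 8) (Nat.beq (pc (Nat.land m dod0)) n))
    (fun _ h => h.1.1) (fun m hm => by
      have hl := lt_of_isCode hm
      rw [Set.mem_setOf_eq, ofMask_mem_octads hl, card_inter_ofMask hl, Bool.and_eq_true, Nat.beq_eq,
        Nat.beq_eq, and_iff_right hm]
      rfl))
  symm
  refine Set.ncard_congr (fun o _ => k • o) ?_ ?_ ?_
  · rintro o ⟨h1, h2⟩
    exact ⟨smul_mem_octads hk h1, by rw [← smul_inter, card_smul, h2]⟩
  · intro a b _ _ h
    exact smul_left_cancel k h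
  · rintro o ⟨h1, h2⟩
    refine ⟨k⁻¹ • o, ⟨smul_mem_octads (M24.inv_mem hk) h1, ?_⟩, smul_inv_smul k o⟩
    rw [← card_smul k, smul_inter, smul_inv_smul, h2]

/-- For a fixed dodecad, 132 octads meet it in 6 points, 132 in 2 points and 495 in 4 points. -/
theorem result (d : Finset Cfsg.GolayPt) (hd : d ∈ Cfsg.dodecads) : {o : Finset Cfsg.GolayPt | o ∈ Cfsg.octads ∧ (o ∩ d).card = 6}.ncard = 132 ∧ {o : Finset Cfsg.GolayPt | o ∈ Cfsg.octads ∧ (o ∩ d).card = 2}.ncard = 132 ∧ {o : Finset Cfsg.GolayPt | o ∈ Cfsg.octads ∧ (o ∩ d).card = 4}.ncard = 495 := by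
  obtain ⟨k, hk, rfl⟩ := dodecad_trans dod0_mem hd
  rw [key hk, key hk, key hk]
  decide +kernel

end Cfsg.Agent.S0386
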