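import Cfsg.Statements.S0389
import Cfsg.Agent.Lib.Mathieu.Simple

set_option autoImplicit false
open scoped Pointwise
open Cfsg

namespace Cfsg.Agent.S0389

open CfsgLib.Mathieu CfsgLib.Golay
open scoped Pointwise

/-- The stabiliser of a dodecad and a point on it is 3-transitive on the complementary dodecad. -/
theorem result (d : Finset Cfsg.GolayPt) (hd : d ∈ Cfsg.dodecads) (p : Cfsg.GolayPt) (hp : p ∈ d) (x y : Fin 3 ↪ Cfsg.GolayPt) (hx : ∀ i, x i ∉ d) (hy : ∀ i, y i ∉ d) : ∃ g ∈ MulAction.stabilizer Cfsg.M24 d ⊓ MulAction.stabilizer Cfsg.M24 p, ∀ i, (g : Equiv.Perm Cfsg.GolayPt) (x i) = y i := by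
  obtain ⟨k, hk, rfl, rfl⟩ := dodecad_flag_trans hd hp
  have hm : ∀ z : GolayPt, z ∉ k • ofMask dod0 → k.symm z ∉ ofMask dod0 := fun z hz => by
    rwa [← apply_mem_smul_iff (g := k), Equiv.apply_symm_apply]
  obtain ⟨g, hg, e⟩ := M11_three_trans_compl (x.trans k.symm.toEmbedding)
    (y.trans k.symm.toEmbedding) (fun i => hm _ (hx i)) (fun i => hm _ (hy i))
  obtain ⟨h1, h2, h3⟩ := mem_M11.1 hg
  refine ⟨⟨k * g * k⁻¹, M24.mul_mem (M24.mul_mem hk h1) (M24.inv_mem hk)⟩, ⟨?_, ?_⟩, fun i => ?_⟩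
  · show (k * g * k⁻¹) • k • ofMask dod0 = k • ofMask dod0
    rw [mul_smul, inv_smul_smul, mul_smul, h2]
  · show k (g (k.symm (k (pt 0)))) = k (pt 0)
    rw [Equiv.symm_apply_apply, h3]
  · show k (g (k.symm (x i))) = y i
    rw [show g (k.symm (x i)) = k.symm (y i) from e i, Equiv.apply_symm_apply]

end Cfsg.Agent.S0389
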