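import Cfsg.Statements.S0402
import Cfsg.Agent.Lib.Leech.CCo2.Lat

set_option autoImplicit false
open Cfsg

namespace Cfsg.Agent.S0402

open CfsgLib.Leech

/-- Stabiliser of a minimal vector is simple of order 42305421312000. -/
theorem result (v : Cfsg.leechLattice) (hv : Cfsg.sqNorm (v : Cfsg.GolayPt → ℤ) = 32) : Cfsg.IsCo2 (MulAction.stabilizer Cfsg.Co0 v) := by
  obtain ⟨g, hg⟩ := exists_smul_eq_of_sqNorm v Spor.leechU (by rw [hv, sqNorm_U]) (by omega)
  have := (CCo2.simple_and_card (card_stabilizer_32 _ sqNorm_U).le).1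
  exact ⟨(stabEquiv hg).isSimpleGroup, card_stabilizer_32 v hv⟩

end Cfsg.Agent.S0402
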