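import Cfsg.Statements.S0404
import Cfsg.Agent.Lib.Leech.Conf2
import Cfsg.Agent.Lib.Leech.CMcL.Lat

set_option autoImplicit false
open Cfsg

namespace Cfsg.Agent.S0404

open CfsgLib.Leech Spor MulAction

/-- Joint stabiliser of two minimal vectors with coordinate dot product −8 is simple of order 898128000. -/
theorem result (v w : Cfsg.leechLattice) (hv : Cfsg.sqNorm (v : Cfsg.GolayPt → ℤ) = 32) (hw : Cfsg.sqNorm (w : Cfsg.GolayPt → ℤ) = 32) (hvw : Cfsg.dotInt (v : Cfsg.GolayPt → ℤ) (w : Cfsg.GolayPt → ℤ) = -8) : Cfsg.IsMcL ↥(MulAction.stabilizer Cfsg.Co0 v ⊓ MulAction.stabilizer Cfsg.Co0 w) := by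
  obtain ⟨g, h1, h2⟩ := exists_pair_32_32 hv hw hvw
  obtain ⟨h3, h4⟩ := CMcL.simple_and_card card_McL.le
  have e := (stabEquiv₂ h1 h2).trans (MulEquiv.subgroupCongr (by
    rw [add_comm, stab_inf_neg_add, inf_comm] :
      stabilizer Co0 leechU ⊓ stabilizer Co0 (-(leechV + leechU)) =
        stabilizer Co0 leechV ⊓ stabilizer Co0 leechU))
  exact ⟨e.isSimpleGroup, (Nat.card_congr e.toEquiv).trans h4⟩

end Cfsg.Agent.S0404
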