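import Cfsg.Statements.S0417
import Cfsg.Agent.Lib.Sharp.Four
import Cfsg.Agent.S0710

set_option autoImplicit false
open Cfsg

namespace Cfsg.Agent.S0417

open MulAction CfsgLib.Sharp in
theorem not_thirteen {G α : Type*} [Group G] [MulAction G α] [Fintype α] (h : IsSharp G α 6) :
    Fintype.card α ≠ 13 := by
  classical
  intro hα
  have hfaith := h.faithful (by omega)
  have htr := h.pretransitive (by omega)
  have : IsPretransitive (toPermHom G α).range α := ⟨fun a b => by
    obtain ⟨g, hg⟩ := exists_smul_eq G a b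
    exact ⟨⟨toPermHom G α g, g, rfl⟩, hg⟩⟩
  apply S0710.result hα (toPermHom G α).range
  rw [← Nat.card_congr (MonoidHom.ofInjective (f := toPermHom G α) toPerm_injective).toEquiv,
    h.card (by omega), hα]
  rfl

open MulAction CfsgLib.Sharp in
theorem not_add (j : ℕ) {G α : Type*} [Group G] [MulAction G α] [Fintype α]
    (h : IsSharp G α (6 + j)) : Fintype.card α ≠ 13 + j := by
  induction j generalizing G α with
  | zero => exact not_thirteen h
  | succ j ih =>
    classical
    intro hα
    obtain ⟨a⟩ : Nonempty α := Fintype.card_pos_iff.1 (by omega)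
    have hc := card_ofStabilizer (G := G) a
    have := ih (IsSharp.ofStabilizer (k := 6 + j) h (by omega) a)
    omega


/-- For k ≥ 6, sharply k-transitive groups have degree k, k+1 or k+2. -/
theorem result {α : Type*} [Fintype α] [DecidableEq α] (G : Subgroup (Equiv.Perm α)) (k : ℕ) (hk : 6 ≤ k) (hn : k ≤ Fintype.card α) [MulAction.IsMultiplyPretransitive G α k] (hsharp : ∀ x : Fin k ↪ α, MulAction.stabilizer G x = ⊥) : Fintype.card α = k ∨ Fintype.card α = k + 1 ∨ Fintype.card α = k + 2 := by
  obtain ⟨j, rfl⟩ := Nat.exists_eq_add_of_le hk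
  have h : CfsgLib.Sharp.IsSharp G α (6 + j) := ⟨inferInstance, hsharp⟩
  have h1 := not_add j h
  have h2 := CfsgLib.Sharp.IsSharp.card_add (G := G) (α := α) (2 + j)
    (by rw [← add_assoc]; exact h) (by omega)
  omega

end Cfsg.Agent.S0417
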