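import Cfsg.Statements.S0432
open scoped Pointwise

set_option autoImplicit false
open Cfsg

namespace Cfsg.Agent.S0432

/-- Coordinate permutations from the code's group preserve the lattice. -/
theorem result (σ : Equiv.Perm Cfsg.GolayPt) (hσ : σ ∈ Cfsg.M24) (x : Cfsg.GolayPt → ℤ) (hx : x ∈ Cfsg.leechLattice) : (fun i => x (σ i)) ∈ Cfsg.leechLattice := by
  have hinv : σ⁻¹ ∈ Cfsg.M24 := inv_mem hσ
  have hset : ∀ y ∈ leechSet, (fun i => y (σ i)) ∈ leechSet := by
    rintro y ⟨m, h1, h2, h3⟩
    refine ⟨m, fun i => h1 _, ?_, fun k => ?_⟩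
    · rw [Equiv.sum_comp σ y]
      exact h2
    · have h4 := h3 k
      have h5 : σ⁻¹ • supports (golayCode : Set (GolayPt → ZMod 2)) =
          supports (golayCode : Set (GolayPt → ZMod 2)) := hinv
      rw [← h5]
      refine ⟨_, h4, ?_⟩
      ext i
      simp only [Finset.mem_filter, Finset.mem_univ, true_and]
      rw [Finset.mem_inv_smul_finset_iff]
      simp
  induction hx using AddSubgroup.closure_induction with
  | mem y hy => exact AddSubgroup.subset_closure (hset y hy)
  | zero => exact zero_mem _
  | add a b _ _ ha hb => exact add_mem ha hb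
  | neg a _ ha => exact neg_mem ha

end Cfsg.Agent.S0432
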