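import Cfsg.Statements.S0439

set_option autoImplicit false
open Cfsg

namespace Cfsg.Agent.S0439

/-- In the symmetric group of degree n ≥ 2, the set of transpositions is a conjugacy class of 3-transpositions which generates the group. -/
theorem result (n : ℕ) (hn : 2 ≤ n) : Cfsg.IsThreeTranspositionClass {σ : Equiv.Perm (Fin n) | σ.IsSwap} := by
  refine ⟨⟨fun d hd => Equiv.Perm.IsSwap.orderOf hd, ?_⟩, ?_, ?_⟩
  · rintro d ⟨a, b, hab, rfl⟩ e ⟨c, d, hcd, rfl⟩
    have key : ∀ x y z : Fin n, x ≠ y → x ≠ z →
        (Equiv.swap x y * Equiv.swap x z) ^ 2 = 1 ∨ (Equiv.swap x y * Equiv.swap x z) ^ 3 = 1 := by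
      intro x y z hxy hxz
      by_cases hyz : y = z
      · subst hyz
        left
        simp
      · right
        have h3 := (Equiv.Perm.isThreeCycle_swap_mul_swap_same hxy hxz hyz).orderOf
        rw [← h3]
        exact pow_orderOf_eq_one _
    by_cases h1 : a = c
    · subst h1
      exact key a b d hab hcd
    by_cases h2 : a = d
    · subst h2
      rw [Equiv.swap_comm c a]
      exact key a b c hab h1
    by_cases h3 : b = c
    · subst h3
      rw [Equiv.swap_comm a b]
      exact key b a d hab.symm hcd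
    by_cases h4 : b = d
    · subst h4
      rw [Equiv.swap_comm a b, Equiv.swap_comm c b]
      exact key b a c hab.symm h3
    left
    have hd : (Equiv.swap a b).Disjoint (Equiv.swap c d) := by
      intro x
      by_cases hx : x = a ∨ x = b
      · right
        rcases hx with rfl | rfl
        · exact Equiv.swap_apply_of_ne_of_ne h1 h2
        · exact Equiv.swap_apply_of_ne_of_ne h3 h4
      · left
        push Not at hx
        exact Equiv.swap_apply_of_ne_of_ne hx.1 hx.2
    rw [hd.commute.mul_pow]
    simp [pow_two]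
  · have h01 : (⟨0, by omega⟩ : Fin n) ≠ ⟨1, by omega⟩ := by simp
    refine ⟨Equiv.swap ⟨0, by omega⟩ ⟨1, by omega⟩, ⟨_, _, h01, rfl⟩, ?_⟩
    ext σ
    constructor
    · rintro ⟨a, b, hab, rfl⟩
      exact Equiv.Perm.isConj_swap h01 hab
    · intro h
      obtain ⟨c, rfl⟩ := isConj_iff.1 h
      refine ⟨c ⟨0, by omega⟩, c ⟨1, by omega⟩, c.injective.ne h01, ?_⟩
      rw [Equiv.swap_apply_apply]
  · exact Equiv.Perm.closure_isSwap

end Cfsg.Agent.S0439
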