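import Cfsg.Statements.S0442
import Mathlib

set_option autoImplicit false
open Cfsg

namespace Cfsg.Agent.S0442

/-- A standard trick for producing elements of an involution centraliser: for an involution a and an element g, let b be the conjugate g⁻¹ * a * g. If a * b has odd order 2m + 1 then g * (a * b) ^ m commutes with a; if a * b has even order 2m then (a * b) ^ m and (a * (g * a * g⁻¹)) ^ m commute with a. -/
theorem result {G : Type*} [Group G] (a g : G) (ha : orderOf a = 2) : (∀ m : ℕ, orderOf (a * (g⁻¹ * a * g)) = 2 * m + 1 → Commute (g * (a * (g⁻¹ * a * g)) ^ m) a) ∧ (∀ m : ℕ, orderOf (a * (g⁻¹ * a * g)) = 2 * m → Commute ((a * (g⁻¹ * a * g)) ^ m) a ∧ Commute ((a * (g * a * g⁻¹)) ^ m) a) := by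
  have ha2 : a * a = 1 := by
    have h := pow_orderOf_eq_one a
    rw [ha, pow_two] at h
    exact h
  have key : ∀ (h : G) (m : ℕ), a * (a * (h⁻¹ * a * h)) ^ m * a * (a * (h⁻¹ * a * h)) ^ m = 1 := by
    intro h m
    have hb2 : (h⁻¹ * a * h) * (h⁻¹ * a * h) = 1 := by
      calc (h⁻¹ * a * h) * (h⁻¹ * a * h) = h⁻¹ * (a * a) * h := by group
        _ = 1 := by rw [ha2]; group
    have ha' : a⁻¹ = a := inv_eq_of_mul_eq_one_right ha2
    have h1 : a * (a * (h⁻¹ * a * h)) * a⁻¹ = (a * (h⁻¹ * a * h))⁻¹ := by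
      rw [mul_inv_rev, inv_eq_of_mul_eq_one_right hb2, ← mul_assoc a a, ha2, one_mul]
    have h2 : a * (a * (h⁻¹ * a * h)) ^ m * a⁻¹ = ((a * (h⁻¹ * a * h)) ^ m)⁻¹ := by
      rw [← conj_pow, h1, inv_pow]
    rw [ha'] at h2
    rw [h2, inv_mul_cancel]
  have even : ∀ (h : G) (m : ℕ), orderOf (a * (h⁻¹ * a * h)) = 2 * m →
      Commute ((a * (h⁻¹ * a * h)) ^ m) a := by
    intro h m hm
    have h1 := pow_orderOf_eq_one (a * (h⁻¹ * a * h))
    rw [hm, two_mul, pow_add] at h1
    have h2 := key h m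
    set t := (a * (h⁻¹ * a * h)) ^ m
    have h3 : a * t * a = t := mul_right_cancel (h2.trans h1.symm)
    show t * a = a * t
    calc t * a = (a * t * a) * a := by rw [h3]
      _ = a * t := by rw [mul_assoc, ha2, mul_one]
  refine ⟨?_, ?_⟩
  · intro m hm
    have h1 := pow_orderOf_eq_one (a * (g⁻¹ * a * g))
    rw [hm, pow_succ', two_mul, pow_add] at h1
    have h2 := key g m
    set t := (a * (g⁻¹ * a * g)) ^ m
    show g * t * a = a * (g * t)
    have h3 : a * t * a = t⁻¹ := eq_inv_of_mul_eq_one_left h2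
    have h4 : t * a = a * t⁻¹ := by
      rw [← h3, ← mul_assoc, ← mul_assoc, ha2, one_mul]
    have h5 : t⁻¹ = a * (g⁻¹ * a * g) * t := by
      rw [← mul_assoc] at h1
      exact (eq_inv_of_mul_eq_one_left h1).symm
    rw [mul_assoc, h4, h5, ← mul_assoc a, ← mul_assoc a a, ha2]
    group
  · intro m hm
    refine ⟨even g m hm, ?_⟩
    have h1 : orderOf (a * (g⁻¹⁻¹ * a * g⁻¹)) = 2 * m := by
      rw [← hm, inv_inv]
      have h2 : a * (g * a * g⁻¹) = g * ((g⁻¹ * a * g) * a) * g⁻¹ := by group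
      have ha' : a⁻¹ = a := inv_eq_of_mul_eq_one_right ha2
      have h3 : (g⁻¹ * a * g) * a = (a * (g⁻¹ * a * g))⁻¹ := by
        simp only [mul_inv_rev, inv_inv, ha', mul_assoc]
      rw [h2, h3]
      have h4 : ∀ y : G, orderOf (g * y * g⁻¹) = orderOf y := fun y =>
        ((MulAut.conj g).orderOf_eq y)
      rw [h4, orderOf_inv]
    have := even g⁻¹ m h1
    rwa [inv_inv] at this

end Cfsg.Agent.S0442
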