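import Cfsg.Statements.S0446

set_option autoImplicit false
open Cfsg

namespace Cfsg.Agent.S0446

/-- Every finite group of even order contains a 2-central involution, i.e. an element of order 2 in the centre of some Sylow 2-subgroup. -/
theorem result {G : Type*} [Group G] [Finite G] (h : Even (Nat.card G)) : ∃ t : G, Cfsg.IsTwoCentralInvolution t := by
  haveI : Fact (Nat.Prime 2) := ⟨Nat.prime_two⟩
  obtain ⟨P⟩ : Nonempty (Sylow 2 G) := inferInstance
  have hP : Nontrivial (P : Subgroup G) := by
    have h1 : 2 ∣ Nat.card (P : Subgroup G) := P.dvd_card_of_dvd_card h.two_dvd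
    rw [← Finite.one_lt_card_iff_nontrivial]
    have h2 : 0 < Nat.card (P : Subgroup G) := Nat.card_pos
    omega
  have hZ : Nontrivial (Subgroup.center (P : Subgroup G)) := P.isPGroup'.center_nontrivial
  have hZp : IsPGroup 2 (Subgroup.center (P : Subgroup G)) := P.isPGroup'.to_subgroup _
  have h2 : 2 ∣ Nat.card (Subgroup.center (P : Subgroup G)) := by
    obtain ⟨n, hn⟩ := hZp.exists_card_eq
    have h3 : 1 < Nat.card (Subgroup.center (P : Subgroup G)) :=
      Finite.one_lt_card_iff_nontrivial.2 hZ
    rw [hn] at h3 ⊢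
    cases n with
    | zero => simp at h3
    | succ n => exact Dvd.intro_left _ rfl
  obtain ⟨z, hz⟩ := exists_prime_orderOf_dvd_card' 2 h2
  refine ⟨((z : (P : Subgroup G)) : G), ?_, P, (z : (P : Subgroup G)).2, ?_⟩
  · rw [Subgroup.orderOf_coe, Subgroup.orderOf_coe, hz]
  · intro x hx
    have := Subgroup.mem_center_iff.1 z.2 ⟨x, hx⟩
    exact congrArg Subtype.val this

end Cfsg.Agent.S0446
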