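import Cfsg.Statements.S0458
import Cfsg.Agent.Lib.J3.P.Main
import Cfsg.Agent.Lib.Comput.PermFacts

set_option autoImplicit false
open Cfsg

namespace Cfsg.Agent.S0458

open CfsgLib.Comput CfsgLib.J3.P

/-- Janko's third group exists as a transitive permutation group of degree 6156 with point stabiliser of order 8160: a simple group of order 50232960. -/
theorem result : ∃ H : Subgroup (Equiv.Perm (Fin 6156)), Cfsg.IsJ3 H ∧ MulAction.IsPretransitive H (Fin 6156) ∧ Nat.card (MulAction.stabilizer H (0 : Fin 6156)) = 8160 := by
  have ht : MulAction.IsPretransitive (cl (permG 6156 W) top) (Fin 6156) := by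
    rw [top_eq E]
    exact pretransitive_of_ncard ((good_0 M E).ncard_orbit (M.fixes s_fix))
  exact ⟨cl (permG 6156 W) top, ⟨simple_perm, card_perm⟩, ht, card_stabilizer_eq _ (by rw [card_perm])⟩

end Cfsg.Agent.S0458
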