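import Cfsg.Statements.S0459
import Cfsg.Agent.Lib.Ru.P.Main
import Cfsg.Agent.Lib.Ru.T.Main

set_option autoImplicit false
open Cfsg

namespace Cfsg.Agent.S0459

open CfsgLib.Comput CfsgLib.Ru

theorem ea : permG 4060 T.W 0 = evL (permG 4060 P.W) [0x1a171c1809170f17] :=
  permG_eq_of_table (k := 12) P.W_ok (by norm_num) (by decide +kernel)

theorem eb : permG 4060 T.W 1 = evL (permG 4060 P.W) [0x1d1804091a0e161818] :=
  permG_eq_of_table (k := 12) P.W_ok (by norm_num) (by decide +kernel)

theorem T_le : cl (permG 4060 T.W) T.top ≤ cl (permG 4060 P.W) P.top := by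
  rw [cl_le]
  refine List.forall_mem_cons.2 ⟨?_, List.forall_mem_cons.2 ⟨?_, List.forall_mem_nil _⟩⟩
  · rw [ev_letter _ (m := 0) (by norm_num), ea, evL_one]
    exact ev_mem (P.inA_top P.E) (by decide +kernel)
  · rw [ev_letter _ (m := 1) (by norm_num), eb, evL_one]
    exact ev_mem (P.inA_top P.E) (by decide +kernel)

theorem T_fix : ∀ x ∈ cl (permG 4060 T.W) T.top, x • finPt 4060 0 = finPt 4060 0 :=
  T.M.fixes (by decide +kernel)

/-- The Rudvalis group exists as a transitive permutation group of degree 4060: simple of order 145926144000, with point stabiliser of order 35942400 containing a simple subgroup of order 17971200 (the order of the Tits group). -/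
theorem result : ∃ H : Subgroup (Equiv.Perm (Fin 4060)), Cfsg.IsRu H ∧ MulAction.IsPretransitive H (Fin 4060) ∧ Nat.card (MulAction.stabilizer H (0 : Fin 4060)) = 35942400 ∧ ∃ T : Subgroup (MulAction.stabilizer H (0 : Fin 4060)), Cfsg.IsTits T := by
  have ht : MulAction.IsPretransitive (cl (permG 4060 P.W) P.top) (Fin 4060) := by
    rw [P.top_eq P.E]
    exact pretransitive_of_ncard ((P.good_0 P.M P.E).ncard_orbit (P.M.fixes P.s_fix))
  refine ⟨cl (permG 4060 P.W) P.top, ⟨P.simple_perm, P.card_perm⟩, ht,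
    card_stabilizer_eq _ (by rw [P.card_perm]), ?_⟩
  have hle : cl (permG 4060 T.W) T.top ≤ cl (permG 4060 P.W) P.top ⊓ MulAction.stabilizer _ (0 : Fin 4060) :=
    fun x hx => ⟨T_le hx, T_fix x hx⟩
  let e := (Subgroup.subgroupOfEquivOfLe hle).symm.trans
    ((stabilizerEquivInf (cl (permG 4060 P.W) P.top) (0 : Fin 4060)).symm.subgroupMap _)
  have := T.simple T.M T.E
  exact ⟨_, e.symm.isSimpleGroup, (Nat.card_congr e.toEquiv).symm.trans T.card_perm⟩

end Cfsg.Agent.S0459
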