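import Cfsg.Statements.S0460
import Cfsg.Agent.Lib.ON.Subs

set_option autoImplicit false
open Cfsg

namespace Cfsg.Agent.S0460

/-- The O'Nan group exists as a transitive permutation group of degree 122760: simple of order 460815505920, point stabiliser of order 3753792, and containing simple subgroups of orders 175560 and 7920. -/
theorem result : ∃ H : Subgroup (Equiv.Perm (Fin 122760)), Cfsg.IsON H ∧ MulAction.IsPretransitive H (Fin 122760) ∧ Nat.card (MulAction.stabilizer H (0 : Fin 122760)) = 3753792 ∧ (∃ K : Subgroup H, Cfsg.IsJ1 K) ∧ (∃ K : Subgroup H, Cfsg.IsM11 K) := by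
  obtain ⟨K, e, h1, ⟨e'⟩⟩ := CfsgLib.CosetEnum.exists_permFin CfsgLib.ON.φ (n := 122760)
    (CfsgLib.ON.top_eq ▸ CfsgLib.ON.orb_top) fun x h => CfsgLib.ON.base x fun p hp =>
      h p (by revert p; decide)
  have := CfsgLib.ON.simple
  have key : ∀ (L : Subgroup Cfsg.Spor.ON) (n : ℕ), IsSimpleGroup L ∧ Nat.card L = n →
      ∃ M : Subgroup K, IsSimpleGroup M ∧ Nat.card M = n := fun L n h =>
    have := h.1
    have f := L.equivMapOfInjective e.toMonoidHom e.injective
    ⟨_, f.symm.isSimpleGroup, by rw [← Nat.card_congr f.toEquiv, h.2]⟩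
  refine ⟨K, ⟨e.symm.isSimpleGroup, ?_⟩, h1, ?_, key _ _ CfsgLib.ON.J_simple,
    key _ _ CfsgLib.ON.M_simple⟩
  · rw [← Nat.card_congr e.toEquiv, CfsgLib.ON.card_eq]
  · rw [Nat.card_congr e'.toEquiv, ← CfsgLib.ON.hs_eq, CfsgLib.ON.card_hs]

end Cfsg.Agent.S0460
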