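import Cfsg.Statements.S0461
import Cfsg.Agent.Lib.J4.Simple

set_option autoImplicit false
open Cfsg

namespace Cfsg.Agent.S0461

open CfsgLib.J4

theorem aux {G H : Type*} [Group G] [Group H] (f : G →* H) (hf : Function.Injective f) (h : IsJ4 G) :
    ∃ K : Subgroup H, IsJ4 K := by
  have := h.1
  have e := MonoidHom.ofInjective hf
  exact ⟨f.range, e.symm.isSimpleGroup, (Nat.card_congr e.toEquiv).symm.trans h.2⟩

/-- Janko's fourth group exists as a group of 112 × 112 matrices over the field with two elements: GL(112, 2) has a simple subgroup of order 86775571046077562880. -/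
theorem result : ∃ H : Subgroup (GL (Fin 112) (ZMod 2)), Cfsg.IsJ4 H := by
  exact aux rho rho_inj isJ4

end Cfsg.Agent.S0461
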