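import Cfsg.Statements.S0462
import Cfsg.Agent.Lib.He.Sp4

set_option autoImplicit false
open Cfsg

namespace Cfsg.Agent.S0462

/-- The Held group exists as a transitive permutation group of degree 2058: simple of order 4030387200, with point stabiliser containing, with index 2, a copy of the 4-dimensional symplectic group over the field with four elements. -/
theorem result : ∃ H : Subgroup (Equiv.Perm (Fin 2058)), Cfsg.IsHe H ∧ MulAction.IsPretransitive H (Fin 2058) ∧ ∃ (F : Type) (_ : Field F) (_ : Fintype F), Fintype.card F = 4 ∧ ∃ N : Subgroup (MulAction.stabilizer H (0 : Fin 2058)), N.index = 2 ∧ Nonempty (N ≃* Matrix.symplecticGroup (Fin 2) F) := by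
  obtain ⟨K, e, h1, ⟨e2⟩⟩ := CfsgLib.CosetEnum.exists_permFin CfsgLib.He.φ (n := 2058)
    (by rw [← CfsgLib.He.top_eq]; exact CfsgLib.He.orb_top)
    (fun x hx => CfsgLib.He.base x fun p hp => hx p (by revert p; decide))
  obtain ⟨N, h2, ⟨e3⟩⟩ := CfsgLib.He.exists_sp4
  let e4 := e2.trans (MulEquiv.subgroupCongr CfsgLib.He.hs_eq.symm)
  have := CfsgLib.He.simple
  refine ⟨K, ⟨e.symm.isSimpleGroup, (Nat.card_congr e.toEquiv).symm.trans CfsgLib.He.card_eq⟩, h1,
    CfsgLib.Classical.GF4, inferInstance, inferInstance, CfsgLib.Classical.card_GF4,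
    N.map e4.symm.toMonoidHom, ?_, ⟨(N.equivMapOfInjective _ e4.symm.injective).symm.trans e3⟩⟩
  rw [Subgroup.index_map_of_bijective e4.symm.bijective, h2]

end Cfsg.Agent.S0462
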