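import Cfsg.Statements.S0464
import Cfsg.Agent.Lib.Th.Main
-- import your own Cfsg.Agent.* helpers here

set_option autoImplicit false
open Cfsg

namespace Cfsg.Agent.S0464

open CfsgLib.Th

theorem aux {Γ : Type} [Group Γ] (f : Spor.Th →* Γ) (hf : Function.Injective f) : ∃ H : Subgroup Γ, Cfsg.IsTh H ∧
    ∃ K : Subgroup H, K.index = 143127000 ∧ ∃ L : Subgroup H, L ≤ K ∧ Cfsg.Is3D4 L := by
  let e := MonoidHom.ofInjective hf
  have h : Function.Injective (e.toMonoidHom.comp πH) := e.injective.comp πH_inj
  have := N_simple.1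
  refine ⟨f.range, ⟨e.symm.isSimpleGroup, (Nat.card_congr e.toEquiv).symm.trans card_Th⟩, πH.range.map e.toMonoidHom,
    (Subgroup.index_map_equiv _ e).trans index_H, N.map (e.toMonoidHom.comp πH), ?_,
    (N.equivMapOfInjective _ h).symm.isSimpleGroup, 2, Nat.prime_two.isPrimePow, ?_⟩
  · rintro _ ⟨x, -, rfl⟩
    exact ⟨_, ⟨x, rfl⟩, rfl⟩
  · rw [Subgroup.card_map_of_injective h, N_simple.2]
    norm_num

/-- The Thompson group exists as a group of 248 × 248 matrices over the field with three elements: a simple subgroup of GL(248, 3) of order 90745943887872000, possessing a subgroup of index 143127000 which contains a simple subgroup of the order of a triality-twisted D4 group. -/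
theorem result : ∃ H : Subgroup (GL (Fin 248) (ZMod 3)), Cfsg.IsTh H ∧ ∃ K : Subgroup H, K.index = 143127000 ∧ ∃ L : Subgroup H, L ≤ K ∧ Cfsg.Is3D4 L := by
  exact aux ρ ρ_inj

end Cfsg.Agent.S0464
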