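import Cfsg.Statements.S0475
import Cfsg.Agent.Lib.Th.Main
-- import your own Cfsg.Agent.* helpers here

set_option autoImplicit false
open Cfsg

namespace Cfsg.Agent.S0475

open CfsgLib.Th

/-- In some simple group of the Thompson group's order there is an involution whose centraliser C has a normal extraspecial subgroup Q of order 2 ^ 9 such that C / Q is isomorphic to the alternating group of degree 9. -/
theorem result : ∃ (G : Type) (_ : Group G) (_ : Finite G), Cfsg.IsTh G ∧ ∃ z : G, orderOf z = 2 ∧ ∃ (Q : Subgroup (Subgroup.centralizer ({z} : Set G))) (_ : Q.Normal), Nat.card Q = 2 ^ 9 ∧ Cfsg.IsExtraspecial 2 Q ∧ Nonempty ((Subgroup.centralizer ({z} : Set G)) ⧸ Q ≃* alternatingGroup (Fin 9)) := by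
  refine ⟨Spor.Th, inferInstance, inferInstance, isTh, g 0, CfsgLib.ExtraTwo.orderOf_eq_two ga_ne a_inv,
    (ψA.comp centE.symm.toMonoidHom).ker, inferInstance, ?_, ?_,
    ⟨QuotientGroup.quotientKerEquivOfSurjective _ (ψA_surj.comp centE.symm.surjective)⟩⟩
  all_goals rw [← MonoidHom.comap_ker, ψA, MonoidHom.ker_codRestrict]
  · rw [← Subgroup.card_map_of_injective (f := centE.symm.toMonoidHom) centE.symm.injective,
      Subgroup.map_comap_eq_self_of_surjective centE.symm.surjective, card_Q]
    norm_num
  · exact (es.comap _ centE.symm.injective (fun x _ => centE.symm.surjective x) (centE.symm_apply_apply _)).isExtraspecial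

end Cfsg.Agent.S0475
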