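import Cfsg.Statements.S0478
import Cfsg.Agent.Lib.J3.Unitary

set_option autoImplicit false
open Cfsg

namespace Cfsg.Agent.S0478

open CfsgLib.J3 CfsgLib.Comput

/-- A triple cover of Janko's third group inside a unitary group: for a field F with four elements, the special unitary group of dimension 9 (with respect to the form with q = 2) has a subgroup whose centre has order 3 and whose quotient by its centre is simple of order 50232960. -/
theorem result : ∃ (F : Type) (_ : Field F) (_ : Fintype F), Fintype.card F = 4 ∧ ∃ H : Subgroup (Cfsg.SU 9 F 2), Nat.card (Subgroup.center H) = 3 ∧ Cfsg.IsJ3 (H ⧸ Subgroup.center H) := by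
  obtain ⟨F, _, _, hF⟩ := exists_field_card 2 2 (by norm_num)
  obtain ⟨ω, hω⟩ := exists_omega hF
  obtain ⟨H, ⟨e⟩⟩ := exists_SU hF hω
  have h := Hyp.of_card hF hω
  have := h.simple_J3
  exact ⟨F, inferInstance, inferInstance, hF, H, (card_center_equiv e).symm.trans (card_center hF hω),
    (quotCenterEquiv e).symm.isSimpleGroup, (Nat.card_congr (quotCenterEquiv e).toEquiv).symm.trans h.card_J3⟩

end Cfsg.Agent.S0478
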