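import Cfsg.Statements.S0479
import Cfsg.Agent.Lib.ON.Rep45

set_option autoImplicit false
open Cfsg

namespace Cfsg.Agent.S0479

/-- A triple cover of the O'Nan group as 45 × 45 matrices over the field with seven elements: SL(45, 7) has a subgroup whose centre has order 3 and whose quotient by its centre is simple of order 460815505920. -/
theorem result : ∃ H : Subgroup (Matrix.SpecialLinearGroup (Fin 45) (ZMod 7)), Nat.card (Subgroup.center H) = 3 ∧ Cfsg.IsON (H ⧸ Subgroup.center H) := by
  obtain ⟨H, h, ⟨e⟩⟩ := CfsgLib.ON.exists_cover45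
  have := CfsgLib.ON.simple
  exact ⟨H, h, e.isSimpleGroup, by rw [Nat.card_congr e.toEquiv, CfsgLib.ON.card_eq]⟩

end Cfsg.Agent.S0479
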