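import Cfsg.Statements.S0480
import Cfsg.Agent.Lib.FTHM.Gen
import Cfsg.Agent.Lib.FTHM.IdentF

set_option autoImplicit false
open Cfsg

namespace Cfsg.Agent.S0480

open CfsgLib.ThreeTrans CfsgLib.FTHM CfsgLib.Fischer

/-- The simple 3-transposition groups: if a finite non-abelian simple group G is generated by a conjugacy class of 3-transpositions, then G is isomorphic to a symplectic group Sp(2n, 2), or to a projective special unitary group PSU(n, 2) (defined over the field with four elements), or to the projective commutator subgroup of an orthogonal group in odd dimension over the field with three elements, or G has order 64561751654400, or G has order 4089470473293004800. -/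
theorem result {G : Type*} [Group G] [Finite G] [IsSimpleGroup G] (hna : ∃ x y : G, x * y ≠ y * x) {D : Set G} (hD : Cfsg.IsThreeTranspositionClass D) : (∃ n : ℕ, Nonempty (G ≃* Matrix.symplecticGroup (Fin n) (ZMod 2))) ∨ (∃ (F : Type) (_ : Field F) (_ : Fintype F) (n : ℕ), Fintype.card F = 4 ∧ Nonempty (G ≃* Cfsg.PSU n F 2)) ∨ (∃ m : ℕ, Nonempty (G ≃* Cfsg.POmega (ZMod 3) (Cfsg.quadFormOdd m (ZMod 3)))) ∨ Cfsg.IsFi22 G ∨ Cfsg.IsFi23 G := by
  have ht : Subgroup.closure D = ⊤ := hD.2.2
  obtain ⟨x, y, hxy⟩ := hna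
  have hp : commutator G = ⊤ := (IsSimpleGroup.eq_bot_or_eq_top_of_normal _ inferInstance).resolve_left fun h => by
    have := Subgroup.commutator_mem_commutator (Subgroup.mem_top x) (Subgroup.mem_top y)
    rw [← commutator_def, h, Subgroup.mem_bot, commutatorElement_eq_one_iff_mul_comm] at this
    exact hxy this
  have hZ : Subgroup.center G = ⊥ := (IsSimpleGroup.eq_bot_or_eq_top_of_normal _ inferInstance).resolve_right fun h =>
    hxy (Subgroup.mem_center_iff.1 (h ▸ Subgroup.mem_top y) x)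
  have hs : IsSimpleGroup (commutator G) := CfsgLib.FiType.simple_commutator_of_simple (a := x) (b := y) hxy
  have hns : ¬ Group.IsSolvable (commutator G) := fun h => by
    rw [hp] at h
    have : Group.IsSolvable G := Group.isSolvable_of_surjective (f := (⊤ : Subgroup G).subtype) fun g => ⟨⟨g, trivial⟩, rfl⟩
    exact hxy (IsSimpleGroup.comm_iff_isSolvable.2 this x y)
  have hK := kprim_of_prim (prim_of_simple hD (wide_of_not_solvable hD hns) hs)
  have sym : ∀ n, 5 ≤ n → ¬ SymT D n := fun n hn T => by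
    obtain ⟨e, -⟩ := T.ident ht
    exact commutator_perm_ne_top (by omega) (perfect_equiv e.symm hp)
  rcases cls' hK with T | (⟨n, hn, T⟩ | ⟨n, hn, T⟩) | ⟨n, hn, T⟩ | ⟨n, hn, T⟩ | ⟨n, hn, T⟩ | ⟨n, hn, T⟩ | T | T | T
  · exact absurd T (sym 5 le_rfl)
  · obtain ⟨e, -⟩ := T.ident (by omega) hK.tt ht hZ
    exact Or.inl ⟨n, ⟨e⟩⟩
  · obtain ⟨e, -⟩ := T.ident hn hK.tt ht hZ
    exact Or.inr (Or.inl ⟨_, inferInstance, inferInstance, n, CfsgLib.Classical.card_GF4, ⟨e⟩⟩)
  · exact absurd T (sym n (by omega))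
  · obtain ⟨e, -⟩ := T.ident hn hK.tt ht hZ
    exact (commutator_isom2_ne_top (CfsgLib.Orth.qPlus_nondegenerate n) (by simp; omega)
      (perfect_equiv e.symm hp)).elim
  · obtain ⟨e, -⟩ := T.ident hn hK.tt ht hZ
    exact (commutator_isom2_ne_top (qMinus2_nondegenerate n) (by simp; omega) (perfect_equiv e.symm hp)).elim
  · exact Or.inr (Or.inr (Or.inl (T.ident_perfect hn ht hZ hp)))
  · obtain ⟨e, -⟩ := T.ident22 ht hZ
    exact Or.inr (Or.inr (Or.inr (Or.inl ⟨inferInstance, (Nat.card_congr e.toEquiv).trans card22⟩)))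
  · obtain ⟨e, -⟩ := T.ident23 ht hZ
    exact Or.inr (Or.inr (Or.inr (Or.inr ⟨inferInstance, (Nat.card_congr e.toEquiv).trans card23⟩)))
  · obtain ⟨e, -⟩ := T.ident24 ht hZ
    exact absurd (perfect_equiv e.symm hp ▸ Subgroup.mem_top _) l_not_mem24

end Cfsg.Agent.S0480
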