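import Cfsg.Statements.S0481

set_option autoImplicit false
open Cfsg

namespace Cfsg.Agent.S0481

/-- Large extraspecial subgroups: let z be an involution of a finite group G whose centraliser C contains a normal 2-subgroup Q with centre of order 2 and all squares central, such that every element of G centralising Q lies in Q. Then C contains a Sylow 2-subgroup of G, and any involution of G whose centraliser contains a Sylow 2-subgroup of G is conjugate to z. -/
theorem result {G : Type*} [Group G] [Finite G] (z : G) (hz : orderOf z = 2) (Q : Subgroup G) (hQC : Q ≤ Subgroup.centralizer ({z} : Set G)) (hQn : ∀ g ∈ Subgroup.centralizer ({z} : Set G), ∀ q ∈ Q, g * q * g⁻¹ ∈ Q) (hQ2 : IsPGroup 2 Q) (hZ : Nat.card (Subgroup.center Q) = 2) (hsq : ∀ x : Q, x ^ 2 ∈ Subgroup.center Q) (hlarge : Subgroup.centralizer (Q : Set G) ≤ Q) : (∃ P : Sylow 2 G, (P : Subgroup G) ≤ Subgroup.centralizer ({z} : Set G)) ∧ ∀ u : G, orderOf u = 2 → (∃ P : Sylow 2 G, (P : Subgroup G) ≤ Subgroup.centralizer ({u} : Set G)) → IsConj z u := by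
  have : Fact (Nat.Prime 2) := ⟨Nat.prime_two⟩
  have hz1 : z ≠ 1 := by
    rintro rfl
    simp at hz
  -- every element centralising `Q` is `1` or `z`
  have hzc : z ∈ Subgroup.centralizer (Q : Set G) := by
    intro q hq
    have := hQC hq
    rw [Subgroup.mem_centralizer_iff] at this
    exact (this z rfl).symm
  have key : ∀ u : G, u ∈ Subgroup.centralizer (Q : Set G) → u = 1 ∨ u = z := by
    intro u hu
    have huQ := hlarge hu
    have hzQ := hlarge hzc
    have hu' : (⟨u, huQ⟩ : Q) ∈ Subgroup.center Q := by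
      rw [Subgroup.mem_center_iff]
      intro q
      exact Subtype.ext (hu q q.2)
    have hz' : (⟨z, hzQ⟩ : Q) ∈ Subgroup.center Q := by
      rw [Subgroup.mem_center_iff]
      intro q
      exact Subtype.ext (hzc q q.2)
    obtain ⟨y, -, hy⟩ := (Nat.card_eq_two_iff' (1 : Subgroup.center Q)).1 hZ
    by_cases h1 : u = 1
    · exact Or.inl h1
    · right
      have e1 := hy ⟨⟨u, huQ⟩, hu'⟩ (by
        intro h
        apply h1
        simpa using congrArg (fun t : Subgroup.center Q => ((t : Q) : G)) h)
      have e2 := hy ⟨⟨z, hzQ⟩, hz'⟩ (by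
        intro h
        apply hz1
        simpa using congrArg (fun t : Subgroup.center Q => ((t : Q) : G)) h)
      simpa using congrArg (fun t : Subgroup.center Q => ((t : Q) : G)) (e1.trans e2.symm)
  obtain ⟨T, hT⟩ := hQ2.exists_le_sylow
  have hzT : z ∈ (T : Subgroup G) := hT (hlarge hzc)
  have : Nontrivial (T : Subgroup G) := ⟨⟨⟨z, hzT⟩, 1, fun h => hz1 (congrArg Subtype.val h)⟩⟩
  have hcen : Nontrivial (Subgroup.center (T : Subgroup G)) := T.isPGroup'.center_nontrivial
  obtain ⟨⟨⟨c, hcT⟩, hc⟩, hc1⟩ := exists_ne (1 : Subgroup.center (T : Subgroup G))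
  have hc' := Subgroup.mem_center_iff.1 hc
  have hcz : c = z := by
    rcases key c (fun q hq => congrArg Subtype.val (hc' ⟨q, hT hq⟩)) with h | h
    · exact absurd (by subst h; rfl) hc1
    · exact h
  subst hcz
  refine ⟨⟨T, fun t ht => ?_⟩, ?_⟩
  · rw [Subgroup.mem_centralizer_iff]
    rintro _ rfl
    exact (congrArg Subtype.val (hc' ⟨t, ht⟩)).symm
  · rintro u hu ⟨P, hP⟩
    obtain ⟨g, hg⟩ := MulAction.exists_smul_eq G P T
    have hcu : g * u * g⁻¹ ∈ Subgroup.centralizer (Q : Set G) := by
      intro q hq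
      have hq' : q ∈ (g • P : Sylow 2 G) := by rw [hg]; exact hT hq
      have : g⁻¹ * q * g ∈ (P : Subgroup G) := by
        have h2 := Subgroup.mem_pointwise_smul_iff_inv_smul_mem.1
          (Sylow.coe_subgroup_smul (g := g) (P := P) ▸ (show q ∈ ((g • P : Sylow 2 G) : Subgroup G) from hq'))
        simpa using h2
      have h3 := hP this
      rw [Subgroup.mem_centralizer_iff] at h3
      have h4 := h3 u rfl
      calc q * (g * u * g⁻¹) = g * ((g⁻¹ * q * g) * u) * g⁻¹ := by group
        _ = g * (u * (g⁻¹ * q * g)) * g⁻¹ := by rw [h4]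
        _ = g * u * g⁻¹ * q := by group
    rcases key _ hcu with h | h
    · exfalso
      have : u = 1 := by simpa [mul_inv_eq_one] using h
      subst this
      simp at hu
    · exact (isConj_iff.2 ⟨g, h⟩).symm

end Cfsg.Agent.S0481
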