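import Cfsg.Statements.S0499
import Cfsg.Agent.Lib.Transfer.Frobenius

set_option autoImplicit false
open Cfsg

namespace Cfsg.Agent.S0499

open Subgroup

/-- A non-abelian finite simple group of even order has order divisible by 12, 16 or 56. -/
theorem result {G : Type*} [Group G] [Finite G] [IsSimpleGroup G]
    (hG : ¬ IsMulCommutative G) (h2 : Even (Nat.card G)) :
    12 ∣ Nat.card G ∨ 16 ∣ Nat.card G ∨ 56 ∣ Nat.card G := by
  haveI : Fact (Nat.Prime 2) := ⟨Nat.prime_two⟩
  obtain ⟨P⟩ : Nonempty (Sylow 2 G) := inferInstance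
  have hP : (P : Subgroup G) ≠ ⊥ := P.ne_bot_of_dvd_card (even_iff_two_dvd.1 h2)
  have hn : ¬ HasNormalPComplement 2 G := by
    rintro ⟨P', N, hN, hc⟩
    rcases hN.eq_bot_or_eq_top with h | h
    · subst h
      have hP' : (P' : Subgroup G) = ⊤ := by
        have := hc.sup_eq_top
        simpa using this
      have hp : IsPGroup 2 G := by
        have := P'.isPGroup'
        rw [hP'] at this
        exact this.of_surjective (⊤ : Subgroup G).subtype (fun x => ⟨⟨x, trivial⟩, rfl⟩)
      haveI := hp.isNilpotent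
      have hz : center G ≠ ⊥ := by
        haveI := hp.center_nontrivial
        exact (Subgroup.nontrivial_iff_ne_bot _).1 this
      rcases (inferInstance : (center G).Normal).eq_bot_or_eq_top with h | h
      · exact hz h
      · refine hG ⟨⟨fun a b => ?_⟩⟩
        have : b ∈ center G := h ▸ mem_top b
        exact mem_center_iff.1 this a
    · subst h
      have := hc.disjoint
      rw [disjoint_iff, top_inf_eq] at this
      exact P'.ne_bot_of_dvd_card (even_iff_two_dvd.1 h2) this
  obtain ⟨Q, hQP, hQ, q, hq, hq2, hqG, g, hg, hk, hgc⟩ :=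
    CfsgLib.Transfer.exists_of_not_hasNormalPComplement P hn
  haveI : Fact q.Prime := ⟨hq⟩
  have hmod := CfsgLib.Transfer.card_modEq_card_inf_centralizer hg hk
  set C := Q ⊓ centralizer ({g} : Set G) with hC
  have hCQ : C ≤ Q := inf_le_left
  have hne : C ≠ Q := by
    intro h
    apply hgc
    rw [mem_centralizer_iff]
    intro x hx
    have : x ∈ C := h ▸ hx
    exact ((mem_centralizer_iff.1 this.2) g rfl).symm
  have hlt : Nat.card C < Nat.card Q := by
    have h1 := card_le_of_le hCQ
    rcases h1.lt_or_eq with h | h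
    · exact h
    · exact absurd (eq_of_le_of_card_ge hCQ h.ge) hne
  obtain ⟨a, ha⟩ := (P.isPGroup'.to_le hQP).exists_card_eq
  obtain ⟨b, hb⟩ := (P.isPGroup'.to_le (hCQ.trans hQP)).exists_card_eq
  have hQG : Nat.card Q ∣ Nat.card G := card_subgroup_dvd_card Q
  rw [ha, hb] at hmod hlt
  rw [ha] at hQG
  have hab : b < a := (Nat.pow_lt_pow_iff_right (by norm_num)).1 hlt
  by_cases h4 : 4 ≤ a
  · right; left
    exact (Nat.pow_dvd_pow 2 h4).trans hQG
  have hd : q ∣ 2 ^ a - 2 ^ b := (Nat.modEq_iff_dvd' hlt.le).1 hmod.symm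
  have hq3 : ∀ n, q ∣ 2 ^ n → False := fun n h =>
    hq2 ((Nat.prime_dvd_prime_iff_eq hq Nat.prime_two).1 (hq.dvd_of_dvd_pow h))
  have key3 : q ∣ 3 → 4 ∣ Nat.card G → 12 ∣ Nat.card G := fun h h' => by
    have : q = 3 := (Nat.prime_dvd_prime_iff_eq hq Nat.prime_three).1 h
    subst this
    exact Nat.Coprime.mul_dvd_of_dvd_of_dvd (show Nat.Coprime 3 4 by norm_num) hqG h'
  have ha3 : a ≤ 3 := by omega
  interval_cases a <;> interval_cases b <;> norm_num at hd hQG
  · exact absurd hd hq.one_lt.ne'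
  · exact Or.inl (key3 hd hQG)
  · exact (hq3 1 (by simpa using hd)).elim
  · right; right
    have : q = 7 := (Nat.prime_dvd_prime_iff_eq hq (by norm_num)).1 hd
    subst this
    exact Nat.Coprime.mul_dvd_of_dvd_of_dvd (show Nat.Coprime 7 8 by norm_num) hqG hQG
  · left
    refine key3 ?_ (Dvd.dvd.trans (by norm_num) hQG)
    rcases (Nat.Prime.dvd_mul hq).1 (show q ∣ 2 * 3 from hd) with h | h
    · exact (hq3 1 (by simpa using h)).elim
    · exact h
  · exact (hq3 2 (by simpa using hd)).elim

end Cfsg.Agent.S0499
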