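import Cfsg.Statements.S0518
import Cfsg.Agent.Lib.ZN.Final
import Cfsg.Agent.S2947

set_option autoImplicit false
open Cfsg CfsgLib.ZN CfsgLib.LAE

namespace Cfsg.Agent.S0518

/-- Let G be a finite group of characteristic 2 type with trivial 2-core in which every 2-local subgroup is solvable
and, for every Sylow 2-subgroup S, the centralizer of the set of central involutions of S lies in the normalizer of S.
Then either G has a strongly embedded subgroup, or the subgroup generated by the elements of odd order has two distinct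
maximal 2-local subgroups, each isomorphic to the symmetric group of degree 4, whose intersection has order 8. -/
theorem result {G : Type*} [Group G] [Finite G]
    (hL : Cfsg.IsCharacteristicTwoType G) (hO : Cfsg.pCore 2 G = ⊥)
    (hN : ∀ N : Subgroup G, Cfsg.IsTwoLocal N → Group.IsSolvable N)
    (hZ : ∀ S : Sylow 2 G,
      Subgroup.centralizer {z : G | z ∈ (S : Subgroup G) ∧ z ^ 2 = 1 ∧ ∀ s ∈ (S : Subgroup G), s * z = z * s} ≤
        Subgroup.normalizer ((S : Subgroup G) : Set G))
    (H : Subgroup G) (hH : H = Subgroup.closure {g : G | Odd (orderOf g)}) :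
    (∃ K : Subgroup G, Cfsg.IsStronglyEmbedded K) ∨
      ∃ M₁ M₂ : Subgroup H, M₁ ≠ M₂ ∧ Cfsg.IsMaximalTwoLocal M₁ ∧ Cfsg.IsMaximalTwoLocal M₂ ∧
        Nonempty (M₁ ≃* Equiv.Perm (Fin 4)) ∧ Nonempty (M₂ ≃* Equiv.Perm (Fin 4)) ∧ Nat.card ↥(M₁ ⊓ M₂) = 8 := by
  haveI : Fact (Nat.Prime 2) := ⟨Nat.prime_two⟩
  have hZ' : ∀ S : Sylow 2 G, Subgroup.centralizer (omegaCenterOf (S : Subgroup G) : Set G) ≤
      Subgroup.normalizer ((S : Subgroup G) : Set G) := fun S => by
    convert hZ S using 2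
    ext z
    rw [omegaCenterOf_eq, SetLike.mem_coe, mem_omegaZ, Set.mem_setOf_eq]
    exact and_congr_right fun _ => and_comm
  obtain ⟨S⟩ : Nonempty (Sylow 2 G) := inferInstance
  have hS := isSylowIn_top S
  have hM : IsTwoLocal (Subgroup.normalizer (thompsonSubgroupOf 2 (S : Subgroup G) : Set G)) :=
    ⟨_, isPGroup_thompson hS.isPGroup, thompson_ne_bot hS.isPGroup
      (hS.ne_bot (by rw [Subgroup.card_top]; exact hL.1.two_dvd)), rfl⟩
  rcases (straddlingTwoSubgroups (Subgroup.normalizer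
    (thompsonSubgroupOf 2 (S : Subgroup G) : Set G))).eq_empty_or_nonempty with h | h
  · exact Or.inl ⟨_, (Cfsg.Agent.S2947.result hL hN hZ' hO S _ hM le_rfl).mpr h⟩
  obtain ⟨T, hT⟩ := exists_mem_maxStraddling h
  obtain ⟨K₁, L₁, K₂, L₂, hp⟩ := Str.exists_pair ⟨⟨hL, hN, hZ'⟩, hS, le_rfl, hT⟩ hO
  exact Or.inr (hp.exists_residual (by rw [hH, pResOf_two]; simp))

end Cfsg.Agent.S0518
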