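import Cfsg.Statements.S0520
import Cfsg.Agent.Lib.Classif.Conn

set_option autoImplicit false
open Cfsg

namespace Cfsg.Agent.S0520

open CfsgLib.Classif


/-- Let G be a finite group of 2-rank at least 2 and S a Sylow 2-subgroup whose commuting graph of Klein four-subgroups is
connected. Then the commuting graph of Klein four-subgroups of G is disconnected if and only if the 2-generated core — the
subgroup generated by the normalizers N_G(Q) of the subgroups Q of S that contain a Klein four-group — is a proper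
subgroup of G. -/
theorem result {G : Type*} [Group G] [Finite G] (h2 : ¬ Cfsg.PRankLE 2 1 G)
    (S : Sylow 2 G) (hS : Cfsg.IsFourConnected (S : Subgroup G)) :
    ¬ Cfsg.IsFourConnected G ↔
      (⨆ Q : {Q : Subgroup G // Q ≤ (S : Subgroup G) ∧ ¬ Cfsg.PRankLE 2 1 Q},
          Subgroup.normalizer ((Q : Subgroup G) : Set G)) ≠ ⊤ := by
  set M := (⨆ Q : {Q : Subgroup G // Q ≤ (S : Subgroup G) ∧ ¬ Cfsg.PRankLE 2 1 Q},
    Subgroup.normalizer ((Q : Subgroup G) : Set G)) with hMdef
  have hM : ∀ Q : Subgroup G, Q ≤ S → ¬ PRankLE 2 1 Q → Subgroup.normalizer (Q : Set G) ≤ M :=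
    fun Q h1 h2 => le_iSup (fun Q : {Q : Subgroup G // Q ≤ (S : Subgroup G) ∧ ¬ Cfsg.PRankLE 2 1 Q} =>
      Subgroup.normalizer ((Q : Subgroup G) : Set G)) ⟨Q, h1, h2⟩
  have hconj : ∀ V : Subgroup G, IsKleinFour V →
      ∃ g : G, V.map (MulAut.conj g).toMonoidHom ≤ (S : Subgroup G) := by
    intro V hV
    obtain ⟨g, -, hg⟩ := exists_conj_le_sylow S le_top
      (isPGroup_of_sq_eq_one (isKleinFour_iff.mp hV).2) le_top
    exact ⟨g, hg⟩
  obtain ⟨U, hUS, hU⟩ : ∃ U : Subgroup G, U ≤ S ∧ IsKleinFour U := by
    have h3 : ¬ PRankLE 2 1 (⊤ : Subgroup G) := by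
      intro h
      apply h2
      intro A hA hA2
      have h1 : ∀ a ∈ A.subgroupOf ⊤, a ^ 2 = 1 := fun a ha => Subtype.ext (hA2 a ha)
      have := h _ (isElementaryAbelian_two_iff.mpr h1).1 h1
      rwa [Nat.card_congr (Subgroup.subgroupOfEquivOfLe le_top).toEquiv] at this
    obtain ⟨V, -, hV⟩ := not_pRankLE_one_iff.mp h3
    obtain ⟨g, hg⟩ := hconj V hV
    exact ⟨_, hg, isKleinFour_map_conj hV g⟩
  have hSM : (S : Subgroup G) ≤ M :=
    Subgroup.le_normalizer.trans (hM S le_rfl (not_pRankLE_one_iff.mpr ⟨U, hUS, hU⟩))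
  rw [not_iff_comm, not_not]
  constructor
  · intro htop
    set r : Subgroup G → Subgroup G → Prop :=
      fun A B => IsKleinFour A ∧ IsKleinFour B ∧ ∀ a ∈ A, ∀ b ∈ B, a * b = b * a with hr
    have hsymm : ∀ A B, r A B → r B A :=
      fun A B h => ⟨h.2.1, h.1, fun b hb a ha => (h.2.2 a ha b hb).symm⟩
    let N : Subgroup G :=
      { carrier := {g | Relation.ReflTransGen r U (U.map (MulAut.conj g).toMonoidHom)}
        one_mem' := by
          change Relation.ReflTransGen r U (U.map (MulAut.conj 1).toMonoidHom)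
          rw [map_conj_one]
        mul_mem' := by
          intro a b ha hb
          have h1 := fourConn_map_conj a hb
          rw [map_conj_map_conj] at h1
          exact Relation.ReflTransGen.trans ha h1
        inv_mem' := by
          intro a ha
          have h1 := fourConn_map_conj a⁻¹ ha
          rw [map_conj_map_conj, inv_mul_cancel, map_conj_one] at h1
          exact reflTransGen_symm hsymm h1 }
    have hMN : M ≤ N := by
      refine iSup_le ?_
      rintro ⟨Q, hQS, hQ⟩ g hg
      obtain ⟨W, hWQ, hW⟩ := not_pRankLE_one_iff.mp hQ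
      have h1 := fourConn_of_le hS hU hW hUS (hWQ.trans hQS)
      have h2 := fourConn_of_le hS hU (isKleinFour_map_conj hW g) hUS
        ((map_conj_le_of_mem hWQ hg).trans hQS)
      exact h2.trans (reflTransGen_symm hsymm (fourConn_map_conj g h1))
    have key : ∀ V : Subgroup G, IsKleinFour V → Relation.ReflTransGen r U V := by
      intro V hV
      obtain ⟨g, hg⟩ := hconj V hV
      have h1 := fourConn_map_conj g⁻¹ (fourConn_of_le hS hU (isKleinFour_map_conj hV g) hUS hg)
      rw [map_conj_map_conj, inv_mul_cancel, map_conj_one] at h1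
      have h2 : g⁻¹ ∈ N := hMN (htop ▸ Subgroup.mem_top _)
      exact Relation.ReflTransGen.trans h2 h1
    intro V W hV hW
    exact (reflTransGen_symm hsymm (key V hV)).trans (key W hW)
  · intro hconn
    rw [eq_top_iff]
    intro g _
    refine mem_of_core_le S hSM hM hU (hUS.trans hSM) ?_
    have h1 := hconn U _ hU (isKleinFour_map_conj hU g)
    generalize U.map (MulAut.conj g).toMonoidHom = W at h1
    induction h1 with
    | refl => exact hUS.trans hSM
    | @tail B C _ hBC ih =>
      refine le_trans ?_ (normalizer_le_of_core_le S hSM hM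
        (isPGroup_of_sq_eq_one (isKleinFour_iff.mp hBC.1).2) ih hBC.1 le_rfl)
      intro c hc
      exact Subgroup.centralizer_le_normalizer _
        (Subgroup.mem_centralizer_iff.mpr fun b hb => hBC.2.2 b hb c hc)

end Cfsg.Agent.S0520
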