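import Cfsg.Statements.S0521
import Cfsg.Agent.Lib.PLen.Basic
import Cfsg.Agent.Lib.PStab.Stable
import Cfsg.Agent.Lib.Fus2.Base

set_option autoImplicit false
open Cfsg

namespace Cfsg.Agent.S0521

open Subgroup Cfsg CfsgLib.Core
open scoped commutatorElement

theorem key {Y : Type*} [Group Y] [Finite Y] (hY : Odd (Nat.card Y)) {p : ℕ} [hp : Fact p.Prime]
    (hp2 : p ≠ 2) (hV : IsElementaryAbelian p (pCore p Y))
    (hc : centralizer (pCore p Y : Set Y) ≤ pCore p Y) (T : Sylow p Y)
    (hT : IsCyclic ↥(⁅(T : Subgroup Y), (T : Subgroup Y)⁆)) {a : Y} (ha : a ∈ (T : Subgroup Y)) :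
    a ∈ pCore p Y := by
  have hVn : (pCore p Y).Normal := pCore_normal p Y
  have hVT : pCore p Y ≤ T := pCore_le_sylow T
  have haT : zpowers a ≤ T := zpowers_le.2 ha
  set W : Subgroup Y := ⁅pCore p Y, zpowers a⁆ with hW
  have hWV : W ≤ pCore p Y := commutator_le_left _ _
  have hWT : W ≤ ⁅(T : Subgroup Y), (T : Subgroup Y)⁆ := commutator_mono hVT haT
  have hWc : IsCyclic W := isCyclic_of_le hWT
  have hq : ⁅W, zpowers a⁆ = ⊥ := by
    obtain ⟨w, hw⟩ := hWc.exists_ofOrder_eq_natCard
    have hw1 : w ^ p = 1 := Subtype.ext (hV.2 w (hWV w.2))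
    have hd : Nat.card W ∣ p := hw ▸ orderOf_dvd_of_pow_eq_one hw1
    rcases (Nat.dvd_prime hp.out).1 hd with h1 | h1
    · rw [Subgroup.card_eq_one.1 h1, commutator_bot_left]
    · have hn : zpowers a ⊔ W ≤ normalizer (W : Set Y) :=
        sup_le (normalizer_commutator_ge_right _ _) le_normalizer
      have := CfsgLib.Fus2.le_centralizer_of_card_prime (P := zpowers a ⊔ W)
        (T.2.to_le (sup_le haT (hWV.trans hVT))) le_sup_right hn h1
      rw [commutator_comm, commutator_eq_bot_iff_le_centralizer]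
      exact le_sup_left.trans this
  have h := CfsgLib.PStab.isPStableOn_of_odd hY hp2 (pCore p Y) (isPGroup_pCore p Y) a hq
  have h2 := comap_mk'_pCore (p := p) (N := centralizer (pCore p Y : Set Y))
    ((isPGroup_pCore p Y).to_le hc)
  rw [← h2]
  exact h

/-- Let X be a finite solvable group of odd order, p a prime and S a Sylow p-subgroup of X whose commutator subgroup is
cyclic. Then the product of the largest normal subgroup of X of order prime to p with S is a normal subgroup of X. -/
theorem result {X : Type*} [Group X] [Finite X] [Group.IsSolvable X]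
    (hX : Odd (Nat.card X)) (p : ℕ) [Fact p.Prime] (S : Sylow p X) (hS : IsCyclic (commutator (S : Subgroup X))) :
    (Cfsg.pPrimeCore p X ⊔ (S : Subgroup X)).Normal := by
  have hp : p.Prime := Fact.out
  have hOn : (pPrimeCore p X).Normal := pPrimeCore_normal p X
  by_cases hp2 : p = 2
  · subst hp2
    have h1 : (S : Subgroup X) = ⊥ := by
      obtain ⟨k, hk⟩ := S.2.exists_card_eq
      have hd := (S : Subgroup X).card_subgroup_dvd_card
      have ho : Odd (2 ^ k) := hk ▸ hX.of_dvd_nat hd
      rcases k with _ | k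
      · exact Subgroup.card_eq_one.1 (by simpa using hk)
      · exact absurd ho (by rw [pow_succ]; exact Nat.not_odd_iff_even.2 (by simp))
    rw [h1, sup_bot_eq]; exact hOn
  obtain ⟨Y, _, _, f, hf, -, hV, hc, hcom⟩ :=
    CfsgLib.PLen.exists_reduction (p := p) (G := X) CfsgLib.PLocal.PSolv.of_isSolvable
  have hY : Odd (Nat.card Y) := hX.of_dvd_nat (Subgroup.card_dvd_of_surjective f hf)
  have hT : IsCyclic ↥(⁅((S.mapSurjective hf : Sylow p Y) : Subgroup Y),
      ((S.mapSurjective hf : Sylow p Y) : Subgroup Y)⁆) := by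
    rw [Sylow.coe_mapSurjective, ← map_commutator]
    have h1 : ⁅(S : Subgroup X), (S : Subgroup X)⁆ =
        (commutator (S : Subgroup X)).map (S : Subgroup X).subtype := by
      rw [commutator_def, map_commutator, ← MonoidHom.range_eq_map, range_subtype]
    rw [h1, map_map]
    exact isCyclic_of_surjective _ (MonoidHom.subgroupMap_surjective _ _)
  have hS2 : (S : Subgroup X) ≤ pPrimePCore p X := by
    intro s hs
    rw [← hcom]
    exact key hY hp2 hV hc _ hT (by rw [Sylow.coe_mapSurjective]; exact mem_map_of_mem _ hs)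
  have hsurj := QuotientGroup.mk'_surjective (pPrimeCore p X)
  have h3 : (S : Subgroup X).map (QuotientGroup.mk' (pPrimeCore p X)) =
      pCore p (X ⧸ pPrimeCore p X) := by
    refine le_antisymm (map_le_iff_le_comap.2 hS2) ?_
    have := pCore_le_sylow (S.mapSurjective hsurj)
    rwa [Sylow.coe_mapSurjective] at this
  have h4 : pPrimeCore p X ⊔ (S : Subgroup X) = pPrimePCore p X := by
    rw [pPrimePCore, ← h3, comap_map_eq, QuotientGroup.ker_mk', sup_comm]
  rw [h4]
  exact CfsgLib.PLen.pPrimePCore_normal' p X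

end Cfsg.Agent.S0521
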