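import Cfsg.Statements.S0522
import Cfsg.Agent.Lib.BG.S7_5
import Cfsg.Agent.Lib.BG.Top
import Cfsg.Agent.Lib.FT.OddOrder

set_option autoImplicit false
open Cfsg

namespace Cfsg.Agent.S0522

open CfsgLib.BG


/-- Transitivity Theorem (odd-order setting). Let X be a finite group of odd order in which the normalizer of every
nontrivial p-subgroup is solvable, P a Sylow p-subgroup, and B an abelian subgroup of P, normalized by P, with
C_P(B) = B and containing an elementary abelian subgroup of order p^3. Then for every prime q ≠ p, any two q-subgroups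
that are maximal among the q-subgroups normalized by B are conjugate by an element of the centralizer of B. -/
theorem result {X : Type*} [Group X] [Finite X] (hX : Odd (Nat.card X)) (p : ℕ)
    [Fact p.Prime] (hloc : ∀ T : Subgroup X, IsPGroup p T → T ≠ ⊥ → Group.IsSolvable (Subgroup.normalizer (T : Set X)))
    (P : Sylow p X) (B : Subgroup X) (hBP : B ≤ (P : Subgroup X))
    (hBn : ∀ x ∈ (P : Subgroup X), ∀ b ∈ B, x * b * x⁻¹ ∈ B) (hBa : IsMulCommutative B)
    (hBc : (P : Subgroup X) ⊓ Subgroup.centralizer (B : Set X) = B)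
    (hB3 : ∃ E : Subgroup X, E ≤ B ∧ (∀ e ∈ E, e ^ p = 1) ∧ p ^ 3 ≤ Nat.card E)
    (q : ℕ) [Fact q.Prime] (hqp : q ≠ p) (Q₁ Q₂ : Subgroup X)
    (h₁ : IsPGroup q Q₁ ∧ B ≤ Subgroup.normalizer (Q₁ : Set X) ∧
      ∀ R : Subgroup X, IsPGroup q R → B ≤ Subgroup.normalizer (R : Set X) → Q₁ ≤ R → R = Q₁)
    (h₂ : IsPGroup q Q₂ ∧ B ≤ Subgroup.normalizer (Q₂ : Set X) ∧
      ∀ R : Subgroup X, IsPGroup q R → B ≤ Subgroup.normalizer (R : Set X) → Q₂ ≤ R → R = Q₂) :
    ∃ c ∈ Subgroup.centralizer (B : Set X), Q₂ = Q₁.map (MulAut.conj c).toMonoidHom := by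
  have hp : p.Prime := Fact.out
  have hq : q.Prime := Fact.out
  haveI : Group.IsSolvable X := CfsgLib.FT.odd_order_aux _ X rfl hX
  have hs : Group.IsSolvable (⊤ : Subgroup X) := inferInstance
  have hP := isSylowOf_top hp P
  have hSCN : IsSCN (P : Subgroup X) B :=
    ⟨hBP, fun x hx => Subgroup.mem_normalizer_fintype fun b hb => hBn x hx b hb, hBc⟩
  have hBp : IsPiSubgroup {p} B := pigroupS hBP (pHall_pgroup hP)
  have hn : B ≤ 𝒩(oppOf p (⊤ : Subgroup X)) := le_top.trans (pcore_norm _ _)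
  have hco : (Nat.card (oppOf p (⊤ : Subgroup X))).Coprime (Nat.card B) :=
    pigroup_coprime' (pcore_pgroup _ _) hBp
  have key : ∀ Q : Subgroup X, (IsPGroup q Q ∧ B ≤ 𝒩(Q) ∧
      ∀ R : Subgroup X, IsPGroup q R → B ≤ 𝒩(R) → Q ≤ R → R = Q) →
      IsSylowOf q Q (oppOf p ⊤) := by
    rintro Q ⟨h1, h2, h3⟩
    have h4 : Q ≤ oppOf p ⊤ := SCN_norm_p'group_le_core hp (Top.odd_top hX) hs hP hSCN le_top
      (pgroup_p'group hq h1 hqp) h2
    obtain ⟨R, hR, hBR, hQR⟩ := coprime_Sylow_subset hq hn hco (.inl (abelian_sol hBa)) h4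
      ((pigroup_singleton hq).2 h1) h2
    rwa [h3 R (Sylow_isPGroup hR) hBR hQR] at hR
  obtain ⟨x, hx, e⟩ := coprime_Sylow_trans hq hn hco (.inl (abelian_sol hBa)) (key Q₁ h₁) h₁.2.1
    (key Q₂ h₂) h₂.2.1
  exact ⟨x, hx.2, e⟩

end Cfsg.Agent.S0522
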