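import Cfsg.Statements.S0534
import Cfsg.Agent.Lib.SolvStruct.Supersolvable2
import Cfsg.Agent.Lib.Coprime.Hall

set_option autoImplicit false
open Cfsg

namespace Cfsg.Agent.S0534

/-- Let G be a finite solvable group and A a finite abelian group such that every prime dividing the order of A divides the order of G and, for each prime p dividing the order of G, the exponent of p in the order of A is one less than its exponent in the order of G. Then G × A has a subgroup of every order dividing its order. -/
theorem result {G A : Type*} [Group G] [CommGroup A] [Finite G] [Finite A] [Group.IsSolvable G] (hA : ∀ p : ℕ, p.Prime → p ∣ Nat.card A → p ∣ Nat.card G) (hexp : ∀ p : ℕ, p.Prime → p ∣ Nat.card G → (Nat.card A).factorization p + 1 = (Nat.card G).factorization p) : Cfsg.HasSubgroupOfEveryOrder (G × A) := by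
  intro d hd
  rw [Nat.card_prod] at hd
  have hG0 : Nat.card G ≠ 0 := Nat.card_pos.ne'
  have hA0 : Nat.card A ≠ 0 := Nat.card_pos.ne'
  have hd0 : d ≠ 0 := fun h => by
    rw [h, zero_dvd_iff] at hd; exact mul_ne_zero hG0 hA0 hd
  obtain ⟨H, hH⟩ := CfsgLib.Coprime.exists_isPiHall
    {p | (Nat.card G).factorization p ≤ d.factorization p} G
  have hH0 : Nat.card H ≠ 0 := Nat.card_pos.ne'
  have hI0 : H.index ≠ 0 := Subgroup.FiniteIndex.index_ne_zero
  have hmul : ∀ p, (Nat.card G).factorization p =
      (Nat.card H).factorization p + H.index.factorization p := fun p => by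
    rw [← H.card_mul_index, Nat.factorization_mul hH0 hI0]; rfl
  have hdle : ∀ p, d.factorization p ≤ (Nat.card G).factorization p + (Nat.card A).factorization p :=
    fun p => by
      have := (Nat.factorization_le_iff_dvd hd0 (mul_ne_zero hG0 hA0)).mpr hd p
      rwa [Nat.factorization_mul hG0 hA0] at this
  have h1 : Nat.card H ∣ d := by
    rw [← Nat.factorization_prime_le_iff_dvd hH0 hd0]
    intro p hp
    by_cases hpd : p ∣ Nat.card H
    · have h := hH.1 p hp hpd
      have h2 := hmul p
      simp only [Set.mem_setOf_eq] at h
      omega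
    · rw [Nat.factorization_eq_zero_of_not_dvd hpd]; exact Nat.zero_le _
  obtain ⟨e, rfl⟩ := h1
  have he0 : e ≠ 0 := right_ne_zero_of_mul hd0
  have h2 : e ∣ Nat.card A := by
    rw [← Nat.factorization_prime_le_iff_dvd he0 hA0]
    intro p hp
    have h3 := hdle p
    have h4 := hmul p
    rw [Nat.factorization_mul hH0 he0] at h3
    simp only [Finsupp.add_apply] at h3
    by_cases hπ : (Nat.card G).factorization p ≤ (Nat.card H * e).factorization p
    · have h5 := Nat.factorization_eq_zero_of_not_dvd (hH.2 p hp hπ)
      omega
    · have h5 : ¬ p ∣ Nat.card H := fun h => hπ (hH.1 p hp h)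
      have h6 := Nat.factorization_eq_zero_of_not_dvd h5
      rw [Nat.factorization_mul hH0 he0] at hπ
      simp only [Finsupp.add_apply] at hπ
      have h7 : p ∣ Nat.card G := by
        by_contra h
        rw [Nat.factorization_eq_zero_of_not_dvd h] at hπ
        omega
      have h8 := hexp p hp h7
      omega
  obtain ⟨K, hK⟩ := CfsgLib.SolvStruct.ss_clt (CfsgLib.SolvStruct.ss_of_nilpotent A) e h2
  exact ⟨H.prod K, by rw [Nat.card_congr (Subgroup.prodEquiv H K).toEquiv, Nat.card_prod, hK]⟩

end Cfsg.Agent.S0534
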