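import Cfsg.Statements.S0535
import Cfsg.Agent.S0006

set_option autoImplicit false
open Cfsg

namespace Cfsg.Agent.S0535

/-- Suppose that for every nontrivial subgroup H of a finite group and every prime p dividing the order of H there is a proper subgroup of H whose index in H is a power of p. Then the group is solvable. -/
theorem result {G : Type*} [Group G] [Finite G] (h : ∀ H : Subgroup G, H ≠ ⊥ → ∀ p : ℕ, p.Prime → p ∣ Nat.card H → ∃ K : Subgroup H, K ≠ ⊤ ∧ ∃ k : ℕ, K.index = p ^ k) : Group.IsSolvable G := by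
  apply Cfsg.Agent.S0006.result
  intro p hp
  obtain ⟨K, ⟨k, hk⟩, hmin⟩ := exists_minimal_of_wellFoundedLT
    (fun K : Subgroup G => ∃ k : ℕ, K.index = p ^ k) ⟨⊤, 0, by simp⟩
  have hnd : ¬ p ∣ Nat.card K := by
    intro hd
    have hne : K ≠ ⊥ := by
      rintro rfl
      rw [Subgroup.card_bot] at hd
      exact hp.one_lt.ne' (Nat.dvd_one.1 hd)
    obtain ⟨L, hL, l, hl⟩ := h K hne p hp hd
    have h1 : (L.map K.subtype).index = p ^ (l + k) := by
      rw [Subgroup.index_map_subtype, hl, hk, pow_add]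
    have h2 := hmin ⟨_, h1⟩ (Subgroup.map_subtype_le L)
    apply hL
    rw [eq_top_iff]
    intro x _
    obtain ⟨y, hy, e⟩ := h2 x.2
    have : y = x := Subtype.ext e
    exact this ▸ hy
  refine ⟨K, ?_⟩
  rw [hk, ← K.card_mul_index, hk, Nat.factorization_mul Nat.card_pos.ne' (pow_ne_zero _ hp.ne_zero)]
  simp [Nat.factorization_eq_zero_of_not_dvd hnd, hp.factorization_pow]

end Cfsg.Agent.S0535
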