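import Cfsg.Statements.S0542
import Cfsg.Agent.Lib.SolvStruct.Subnormal

set_option autoImplicit false
open Cfsg

namespace Cfsg.Agent.S0542

/-- A Sylow p-subgroup of a finite group meets every subnormal subgroup H in a Sylow p-subgroup of H. -/
theorem result {G : Type*} [Group G] [Finite G] (p : ℕ) [Fact p.Prime] (H : Subgroup G) (hH : H.IsSubnormal) (S : Sylow p G) : ∃ Q : Sylow p H, (Q : Subgroup H) = (S : Subgroup G).subgroupOf H := by
  exact CfsgLib.SolvStruct.exists_sylow_eq_subgroupOf_of_isSubnormal hH S

end Cfsg.Agent.S0542
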