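import Cfsg.Statements.S0552
import Cfsg.Agent.Lib.Core.Fitting

set_option autoImplicit false
open Cfsg

namespace Cfsg.Agent.S0552

/-- Let σ be an automorphism of a finite solvable group G fixing every element of the Fitting subgroup. If σ is not the identity then the order of σ and the order of G have a common prime factor. -/
theorem result {G : Type*} [Group G] [Finite G] [Group.IsSolvable G] (σ : G ≃* G) (hσ : ∀ x ∈ Cfsg.fittingSubgroup G, σ x = x) (hne : σ ≠ MulEquiv.refl G) : ¬ (orderOf σ).Coprime (Nat.card G) := by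
  intro hcop
  apply hne
  ext g
  have hn := CfsgLib.Core.fittingSubgroup_normal G
  have hz : g⁻¹ * σ g ∈ Cfsg.fittingSubgroup G := by
    apply CfsgLib.Core.centralizer_fittingSubgroup_le
    intro f hf
    have h1 := hσ _ (hn.conj_mem f hf g)
    rw [map_mul, map_mul, map_inv, hσ f hf] at h1
    calc f * (g⁻¹ * σ g) = g⁻¹ * (g * f * g⁻¹) * σ g := by group
      _ = g⁻¹ * (σ g * f * (σ g)⁻¹) * σ g := by rw [h1]
      _ = _ := by group
  have hk : ∀ k : ℕ, (σ ^ k) g = g * (g⁻¹ * σ g) ^ k := by
    intro k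
    induction k with
    | zero => simp
    | succ k ih =>
      rw [pow_succ', MulAut.mul_apply, ih, map_mul, map_pow, hσ _ hz, pow_succ',
        mul_assoc g⁻¹, mul_inv_cancel_left]
  have h1 := hk (orderOf σ)
  rw [pow_orderOf_eq_one, MulAut.one_apply, left_eq_mul] at h1
  have h2 : (g⁻¹ * σ g) ^ Nat.card G = 1 := pow_card_eq_one'
  have h3 : orderOf (g⁻¹ * σ g) = 1 :=
    Nat.eq_one_of_dvd_coprimes hcop (orderOf_dvd_of_pow_eq_one h1) (orderOf_dvd_of_pow_eq_one h2)
  rw [orderOf_eq_one_iff, inv_mul_eq_one] at h3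
  exact h3.symm

end Cfsg.Agent.S0552
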