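import Cfsg.Statements.S0554
import Cfsg.Agent.Lib.Core.MinNormal

set_option autoImplicit false
open Cfsg

namespace Cfsg.Agent.S0554

theorem shift {G : Type*} [Group G] (N : Subgroup G) [hN : N.Normal] :
    ∀ (t : ℕ) (s : Fin t → G) (j : Fin t) (n : G), n ∈ N →
      ∃ m ∈ N, n * (List.ofFn s).prod = (List.ofFn (Function.update s j (m * s j))).prod := by
  intro t
  induction t with
  | zero => intro s j; exact j.elim0
  | succ t ih =>
    intro s j n hn
    refine Fin.cases ?_ (fun j => ?_) j
    · refine ⟨n, hn, ?_⟩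
      simp only [List.ofFn_succ, List.prod_cons, Function.update_self, mul_assoc]
      congr 3
    · obtain ⟨m, hm, e⟩ := ih (fun i => s i.succ) j _ (hN.conj_mem' n hn (s 0))
      refine ⟨m, hm, ?_⟩
      have h0 : Function.update s j.succ (m * s j.succ) 0 = s 0 :=
        Function.update_of_ne (Fin.succ_ne_zero j).symm _ _
      have h1 : (fun i : Fin t => Function.update s j.succ (m * s j.succ) i.succ) =
          Function.update (fun i => s i.succ) j (m * s j.succ) := by
        funext i
        by_cases h : i = j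
        · subst h; simp
        · rw [Function.update_of_ne h, Function.update_of_ne (fun e => h (Fin.succ_injective _ e))]
      simp only [List.ofFn_succ, List.prod_cons]
      rw [h0, h1, ← e]
      group

universe u

theorem aux (t : ℕ) (p : Fin t → ℕ) (hp : ∀ i, (p i).Prime) (n : ℕ) :
    ∀ (G : Type u) [Group G] [Finite G] [Group.IsSolvable G], Nat.card G = n →
    (∀ q : ℕ, q.Prime → q ∣ Nat.card G → ∃ i, p i = q) → ∀ (S : (i : Fin t) → Sylow (p i) G),
    ∀ g : G, ∃ s : (i : Fin t) → G, (∀ i, s i ∈ (S i : Subgroup G)) ∧ g = (List.ofFn s).prod := by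
  induction n using Nat.strong_induction_on with
  | _ n ih =>
  intro G _ _ _ hn hall S g
  rcases subsingleton_or_nontrivial G with hs | hs
  · exact ⟨fun _ => 1, fun i => one_mem _, Subsingleton.elim _ _⟩
  obtain ⟨q, N, hq, hN, hN1, hNe, -⟩ := CfsgLib.Core.exists_elementaryAbelian_minimal_normal G
  have hNq : IsPGroup q N := CfsgLib.Core.isElementaryAbelian_isPGroup hNe
  have := Fact.mk hq
  obtain ⟨j, hj⟩ := hall q hq
    ((CfsgLib.Core.dvd_card_of_isPGroup_of_ne_bot hNq hN1).trans N.card_subgroup_dvd_card)
  have hNS : N ≤ S j := by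
    subst hj
    exact (CfsgLib.Core.le_pCore hNq).trans (CfsgLib.Core.pCore_le_sylow _)
  have hf : Function.Surjective (QuotientGroup.mk' N) := QuotientGroup.mk'_surjective N
  have hfact : ∀ i, Fact (p i).Prime := fun i => ⟨hp i⟩
  obtain ⟨s, hs1, hs2⟩ := ih _ (hn ▸ CfsgLib.Core.card_quotient_lt_of_ne_bot hN1) (G ⧸ N) rfl
    (fun r hr h => hall r hr (h.trans N.card_quotient_dvd_card))
    (fun i => (S i).mapSurjective hf) (QuotientGroup.mk g)
  choose r hr1 hr2 using hs1
  have h1 : (QuotientGroup.mk' N) (List.ofFn r).prod = QuotientGroup.mk g := by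
    rw [hs2, map_list_prod, List.map_ofFn]
    congr 2
    funext i
    exact hr2 i
  have h2 : g * (List.ofFn r).prod⁻¹ ∈ N := by
    rw [← QuotientGroup.eq_one_iff, QuotientGroup.mk_mul, QuotientGroup.mk_inv, ← h1]
    simp
  obtain ⟨m, hm, e⟩ := shift N t r j _ h2
  refine ⟨_, ?_, by rw [← e]; simp⟩
  intro i
  by_cases h : i = j
  · subst h
    rw [Function.update_self]
    exact mul_mem (hNS hm) (hr1 i)
  · rw [Function.update_of_ne h]
    exact hr1 i

/-- Let G be a finite solvable group and let S assign to each of t distinct primes, including every prime divisor of the order of G, a Sylow subgroup of G. Then every element of G is a product s_0 s_1 ⋯ s_(t-1) with s_i in S i, the factors taken in the given order. -/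
theorem result {G : Type*} [Group G] [Finite G] [Group.IsSolvable G] (t : ℕ) (p : Fin t → ℕ) (hp : ∀ i, (p i).Prime) (hinj : Function.Injective p) (hall : ∀ q : ℕ, q.Prime → q ∣ Nat.card G → ∃ i, p i = q) (S : (i : Fin t) → Sylow (p i) G) : ∀ g : G, ∃ s : (i : Fin t) → G, (∀ i, s i ∈ (S i : Subgroup G)) ∧ g = (List.ofFn s).prod := by
  exact aux t p hp _ G rfl hall S

end Cfsg.Agent.S0554
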