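import Cfsg.Statements.S0555
import Cfsg.Agent.Lib.Core.MinNormal
import Cfsg.Agent.Lib.SolvStruct.Util

set_option autoImplicit false
open Cfsg

namespace Cfsg.Agent.S0555

theorem cyc_map {G Q : Type*} [Group G] [Group Q] (f : G →* Q) (A B : Subgroup G)
    [(B.subgroupOf A).Normal] (h : IsCyclic (A ⧸ B.subgroupOf A)) :
    ∃ a ∈ A.map f, ∀ x ∈ A.map f, ∃ k : ℤ, ∃ b ∈ B.map f, x = a ^ k * b := by
  obtain ⟨c, hc⟩ := h.exists_generator
  obtain ⟨a, rfl⟩ := QuotientGroup.mk_surjective c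
  refine ⟨f a, ⟨a, a.2, rfl⟩, ?_⟩
  rintro _ ⟨x, hx, rfl⟩
  obtain ⟨k, hk⟩ := Subgroup.mem_zpowers_iff.1 (hc (QuotientGroup.mk ⟨x, hx⟩))
  rw [← QuotientGroup.mk_zpow, QuotientGroup.eq] at hk
  refine ⟨k, _, ⟨_, hk, rfl⟩, ?_⟩
  simp

/-- Let i ≥ 1. If in the derived series of a group the quotient of the i-th term by the (i+1)-st and the quotient of the (i+1)-st by the (i+2)-nd are both cyclic, then the (i+1)-st and (i+2)-nd terms coincide. -/
theorem result {G : Type*} [Group G] (i : ℕ) (hi : 1 ≤ i) (h₁ : IsCyclic (↥(derivedSeries G i) ⧸ (derivedSeries G (i + 1)).subgroupOf (derivedSeries G i))) (h₂ : IsCyclic (↥(derivedSeries G (i + 1)) ⧸ (derivedSeries G (i + 2)).subgroupOf (derivedSeries G (i + 1)))) : derivedSeries G (i + 1) = derivedSeries G (i + 2) := by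
  obtain ⟨j, rfl⟩ : ∃ j, i = j + 1 := ⟨i - 1, by omega⟩
  set D := derivedSeries G (j + 1 + 2) with hD
  set f := QuotientGroup.mk' D with hf
  have hfs : Function.Surjective f := QuotientGroup.mk'_surjective D
  obtain ⟨a, ha, h1⟩ := cyc_map f _ _ h₁
  obtain ⟨c, hc, h2⟩ := cyc_map f _ _ h₂
  have hbot : D.map f = ⊥ := (CfsgLib.SolvStruct.map_mk'_eq_bot_iff D D).2 le_rfl
  set C := (derivedSeries G (j + 1 + 1)).map f with hC
  set A := (derivedSeries G (j + 1)).map f with hA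
  have hCn : C.Normal := Subgroup.Normal.map inferInstance f hfs
  have hCc : IsCyclic C := by
    refine ⟨⟨⟨c, hc⟩, fun x => ?_⟩⟩
    obtain ⟨k, b, hb, e⟩ := h2 x x.2
    rw [hbot, Subgroup.mem_bot] at hb
    refine ⟨k, Subtype.ext ?_⟩
    simp [e, hb]
  have h3 : A ≤ Subgroup.centralizer (C : Set (G ⧸ D)) := by
    refine le_trans ?_ (CfsgLib.SolvStruct.commutator_le_centralizer_of_cyclic C)
    rw [hA, derivedSeries_succ, Subgroup.map_commutator]
    exact Subgroup.commutator_mono le_top le_top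
  have hCA : C ≤ A := Subgroup.map_mono (derivedSeries_antitone G (by omega))
  have h4 : ⁅A, A⁆ = ⊥ := by
    rw [Subgroup.commutator_eq_bot_iff_le_centralizer]
    intro x hx y hy
    obtain ⟨k, b, hb, rfl⟩ := h1 x hx
    obtain ⟨l, d, hd, rfl⟩ := h1 y hy
    have e1 : Commute b a := h3 ha b hb
    have e2 : Commute d a := h3 ha d hd
    have e3 : Commute d b := h3 (hCA hb) d hd
    exact (((Commute.refl a).zpow_zpow l k).mul_right (e1.symm.zpow_left l)).mul_left
      ((e2.zpow_right k).mul_right e3)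
  have h5 : C = ⊥ := by
    rw [← h4, hC, hA, derivedSeries_succ G (j + 1), Subgroup.map_commutator]
  exact le_antisymm ((CfsgLib.SolvStruct.map_mk'_eq_bot_iff D _).1 h5)
    (derivedSeries_antitone G (by omega))

end Cfsg.Agent.S0555
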