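import Cfsg.Statements.S0556
import Cfsg.Agent.Lib.SolvStruct.Factor
import Cfsg.Agent.Lib.SolvStruct.Util
import Cfsg.Agent.Lib.Core.Frattini
import Cfsg.Agent.Lib.Frob.Kernel
import Cfsg.Agent.Lib.Coprime.Sylow

set_option autoImplicit false
open Cfsg

namespace Cfsg.Agent.S0556

open Subgroup CfsgLib CfsgLib.SolvStruct in
theorem aux_normal {G : Type*} [Group G] [Finite G] (A : Subgroup G) (hA : IsCoatom A)
    [IsMulCommutative A] [A.Normal] : derivedSeries G 2 = ⊥ := by
  have h1 := Core.commutator_le_of_index_prime (Core.index_prime_of_isCoatom_of_normal hA)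
  have := Core.isMulCommutative_of_le h1
  exact commutator_self_eq_bot_iff.mpr this

open Subgroup CfsgLib CfsgLib.SolvStruct in
theorem aux_ti {G : Type*} [Group G] [Finite G] (A : Subgroup G) (hA : IsCoatom A)
    [IsMulCommutative A] (hti : ∀ g h : G, h ∈ A → h ≠ 1 → g * h * g⁻¹ ∈ A → g ∈ A) :
    derivedSeries G 2 = ⊥ := by
  by_cases hb : A = ⊥
  · have : A.Normal := by rw [hb]; infer_instance
    exact aux_normal A hA
  obtain ⟨N, -, hN, hc, hN1, hf⟩ :=
    Frob.exists_kernel_fpf (Frob.isFrobeniusComplement_iff.mpr ⟨hb, hA.1, hti⟩)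
  obtain ⟨p, hp, hd⟩ := Nat.exists_prime_and_dvd ((one_lt_card_iff_ne_bot N).mpr hN1).ne'
  have := Fact.mk hp
  obtain ⟨P, hPN, hP, hi, hAP⟩ := Coprime.exists_invariant_sylow' p (K := N) (A := A)
    le_normalizer_of_normal (Frob.coprime_card_of_fpf le_normalizer_of_normal hf)
    (Or.inl Core.isSolvable_of_isMulCommutative)
  have hP1 : P ≠ ⊥ := by
    rintro rfl
    rw [relIndex_bot_left] at hi
    exact hi hd
  have hZ1 : P ⊓ centralizer (P : Set G) ≠ ⊥ :=
    Core.inf_centralizer_ne_bot_of_isPGroup hP hP le_normalizer hP1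
  set Z := P ⊓ centralizer (P : Set G) with hZ
  have hZc : IsMulCommutative Z :=
    Core.isMulCommutative_iff_forall.mpr fun a ha b hb => hb.2 a ha.1
  have hAZ : A ≤ normalizer (Z : Set G) :=
    le_normalizer_inf hAP (hAP.trans (Core.normalizer_le_normalizer_centralizer _))
  have htop : Z ⊔ A = ⊤ := by
    refine hA.2 _ (right_lt_sup.mpr fun h => hZ1 ?_)
    rw [eq_bot_iff, ← hc.disjoint.eq_bot]
    exact le_inf (inf_le_left.trans hPN) h
  have : Z.Normal := by
    rw [← normalizer_eq_top_iff, eq_top_iff, ← htop]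
    exact sup_le le_normalizer hAZ
  exact (isFactor_of_sup_eq_top_of_normal_left htop).derivedSeries_two

/-- If a finite group has a maximal subgroup that is abelian, then the third term of its derived series is trivial (so the group is solvable of derived length at most three). -/
theorem result {G : Type*} [Group G] [Finite G] (A : Subgroup G) (hA : IsCoatom A) [IsMulCommutative A] : derivedSeries G 3 = ⊥ := by
  open Subgroup CfsgLib CfsgLib.SolvStruct in
  by_cases hn : A.Normal
  · have h := aux_normal A hA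
    rw [derivedSeries_succ, h, commutator_bot_left]
  have hN : normalizer (A : Set G) = A := by
    by_contra h
    exact hn (normalizer_eq_top_iff.mp (hA.2 _ (lt_of_le_of_ne le_normalizer (Ne.symm h))))
  have hZ : center G ≤ A := hN ▸ center_le_normalizer _
  have hs := QuotientGroup.mk'_surjective (center G)
  have hA' := isCoatom_map_mk' (center G) hA hZ
  have hmem : ∀ x : G, (QuotientGroup.mk' (center G)) x ∈ A.map (QuotientGroup.mk' (center G)) →
      x ∈ A := fun x hx => by
    rwa [← mem_comap, comap_map_mk'_of_le _ hZ] at hx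
  have h2 : derivedSeries (G ⧸ center G) 2 = ⊥ := by
    refine aux_ti _ hA' fun g h hh h1 hg => ?_
    obtain ⟨g, rfl⟩ := hs g
    obtain ⟨h, rfl⟩ := hs h
    rw [← map_inv, ← map_mul, ← map_mul] at hg
    have hh' := hmem _ hh
    have hg' := hmem _ hg
    refine mem_map_of_mem _ ?_
    have hC : centralizer ({h} : Set G) = A := by
      have hle : A ≤ centralizer ({h} : Set G) := fun a ha => mem_centralizer_singleton_iff.mpr
        (setLike_mul_comm ha hh')
      by_contra hne
      have := hA.2 _ (lt_of_le_of_ne hle (Ne.symm hne))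
      refine h1 ((QuotientGroup.eq_one_iff h).mpr (mem_center_iff.mpr fun x => ?_))
      exact mem_centralizer_singleton_iff.mp (this.ge (mem_top x))
    rw [← hN, ← inv_mem_iff]
    refine Core.mem_normalizer_of_forall_conj_mem fun x hx => ?_
    rw [← hC, mem_centralizer_singleton_iff]
    have := setLike_mul_comm hx hg'
    calc g⁻¹ * x * g⁻¹⁻¹ * h = g⁻¹ * (x * (g * h * g⁻¹)) * g := by group
      _ = g⁻¹ * ((g * h * g⁻¹) * x) * g := by rw [this]
      _ = h * (g⁻¹ * x * g⁻¹⁻¹) := by group
  have h3 : derivedSeries G 2 ≤ center G := by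
    rw [← map_derivedSeries_eq hs, Subgroup.map_eq_bot_iff, QuotientGroup.ker_mk'] at h2
    exact h2
  rw [derivedSeries_succ, commutator_eq_bot_iff_le_centralizer]
  exact h3.trans (center_le_centralizer _)

end Cfsg.Agent.S0556
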