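import Cfsg.Statements.S0558
import Cfsg.Agent.Lib.Transfer.Abelian
import Cfsg.Agent.Lib.SolvStruct.HallMisc

set_option autoImplicit false
open Cfsg

namespace Cfsg.Agent.S0558

/-- Let H be a subgroup of a finite group G that is not a Sylow subgroup of G for any prime, and suppose that for every prime p dividing the order of H and every Sylow p-subgroup P of H the normalizer of P in G is exactly H. Then some normal subgroup of G is a complement to H. -/
theorem result {G : Type*} [Group G] [Finite G] (H : Subgroup G) (hnot : ∀ p : ℕ, p.Prime → ∀ P : Sylow p G, (P : Subgroup G) ≠ H) (hnorm : ∀ p : ℕ, p.Prime → p ∣ Nat.card H → ∀ P : Sylow p H, Subgroup.normalizer (((P : Subgroup H).map H.subtype : Subgroup G) : Set G) = H) : ∃ N : Subgroup G, N.Normal ∧ Subgroup.IsComplement' N H := by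
  have hnil : Group.IsNilpotent H := by
    apply CfsgLib.Core.isNilpotent_of_forall_sylow_normal
    intro p hp P
    by_cases hd : p ∣ Nat.card H
    · have h1 := (Subgroup.normal_subgroupOf_iff_le_normalizer
        (Subgroup.map_subtype_le (P : Subgroup H))).2 (hnorm p hp.out hd P).ge
      rwa [Subgroup.subgroupOf, Subgroup.comap_map_eq_self_of_injective H.subtype_injective] at h1
    · have : (P : Subgroup H) = ⊥ := by
        by_contra hne
        exact hd ((CfsgLib.Core.dvd_card_of_isPGroup_of_ne_bot P.isPGroup' hne).trans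
          (Subgroup.card_subgroup_dvd_card _))
      rw [this]; infer_instance
  have hsyl : ∀ p : ℕ, p.Prime → p ∣ Nat.card H → ∃ P : Sylow p G, (P : Subgroup G) ≤ H ∧
      Subgroup.normalizer ((P : Subgroup G) : Set G) = H := by
    intro p hp hd
    have := Fact.mk hp
    obtain ⟨P⟩ : Nonempty (Sylow p H) := inferInstance
    have h1 := hnorm p hp hd P
    have h2 : IsPGroup p ((P : Subgroup H).map H.subtype) := P.isPGroup'.map _
    have h3 := CfsgLib.Coprime.not_dvd_relIndex_of_normalizer (K := ⊤) le_top h2 (by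
      rw [top_inf_eq, h1]; exact CfsgLib.Coprime.not_dvd_relIndex_sylow P)
    rw [Subgroup.relIndex_top_right] at h3
    exact ⟨h2.toSylow h3, Subgroup.map_subtype_le _, h1⟩
  have hcompl : ∀ p : ℕ, p.Prime → p ∣ Nat.card H → Cfsg.HasNormalPComplement p G := by
    intro p hp hd
    have := Fact.mk hp
    obtain ⟨P, hPH, -⟩ := hsyl p hp hd
    have hne : (P : Subgroup G).relIndex H ≠ 1 := by
      rw [Ne, Subgroup.relIndex_eq_one]
      intro h
      exact hnot p hp P (le_antisymm hPH h)
    obtain ⟨r, hr, hrd⟩ := Nat.exists_prime_and_dvd hne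
    have := Fact.mk hr
    have hrp : r ≠ p := by
      rintro rfl
      exact P.not_dvd_index (hrd.trans (Subgroup.relIndex_dvd_index_of_le hPH))
    obtain ⟨R, hRH, hR⟩ := hsyl r hr (hrd.trans (Subgroup.relIndex_dvd_card _ _))
    have hc : (P : Subgroup G) ≤ Subgroup.centralizer ((R : Subgroup G) : Set G) :=
      CfsgLib.Core.le_centralizer_of_coprime_of_le_isNilpotent hPH hRH
        (IsPGroup.coprime_card_of_ne p r hrp.symm _ _ P.isPGroup' R.isPGroup')
    refine CfsgLib.Transfer.hasNormalPComplement_of_control P hPH ?_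
      CfsgLib.Transfer.hasNormalPComplement_of_isNilpotent
    intro x hx g hg
    rw [← hR]
    exact CfsgLib.Transfer.exists_normalizer_conj_of_mem_centralizer R (hc hx) (hc hg)
  let N : Subgroup G := ⨅ p : {p : ℕ // p.Prime ∧ p ∣ Nat.card H}, Cfsg.pResidual p.1 G
  have hNmem : ∀ x : G, x ∈ N ↔ ∀ p : ℕ, p.Prime → p ∣ Nat.card H → (orderOf x).Coprime p := by
    intro x
    rw [Subgroup.mem_iInf]
    constructor
    · intro h p hp hd
      have := Fact.mk hp
      exact (CfsgLib.Transfer.mem_pResidual_iff_coprime (hcompl p hp hd) x).1 (h ⟨p, hp, hd⟩)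
    · rintro h ⟨p, hp, hd⟩
      have := Fact.mk hp
      exact (CfsgLib.Transfer.mem_pResidual_iff_coprime (hcompl p hp hd) x).2 (h p hp hd)
  have hNn : N.Normal := by
    constructor
    intro x hx g
    rw [hNmem] at hx ⊢
    have : orderOf (g * x * g⁻¹) = orderOf x := (MulAut.conj g).orderOf_eq x
    rw [this]
    exact hx
  refine ⟨N, hNn, CfsgLib.SolvStruct.index_eq_card_of_inf_eq_bot_of_sup_eq_top ?_ ?_⟩
  · rw [eq_bot_iff]
    rintro x ⟨hx, hxH⟩
    rw [Subgroup.mem_bot, ← orderOf_eq_one_iff]
    by_contra hne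
    obtain ⟨p, hp, hd⟩ := Nat.exists_prime_and_dvd hne
    have := (hNmem x).1 hx p hp (hd.trans (Subgroup.orderOf_dvd_natCard H hxH))
    exact hp.one_lt.ne' (Nat.eq_one_of_dvd_coprimes this hd dvd_rfl)
  · apply CfsgLib.Coprime.eq_of_forall_sylow_le le_top
    intro q hq _
    have := Fact.mk hq
    by_cases hd : q ∣ Nat.card H
    · obtain ⟨P, hPH, -⟩ := hsyl q hq hd
      exact ⟨P, hPH.trans le_sup_right, by rw [Subgroup.relIndex_top_right]; exact P.not_dvd_index⟩
    · obtain ⟨P⟩ : Nonempty (Sylow q G) := inferInstance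
      refine ⟨P, le_trans ?_ le_sup_left,
        by rw [Subgroup.relIndex_top_right]; exact P.not_dvd_index⟩
      intro x hx
      rw [hNmem]
      intro p hp hpd
      obtain ⟨k, hk⟩ := (IsPGroup.iff_orderOf.1 P.isPGroup') ⟨x, hx⟩
      rw [Subgroup.orderOf_mk] at hk
      rw [hk]
      apply Nat.Coprime.pow_left
      rw [Nat.coprime_primes hq hp]
      rintro rfl
      exact hd hpd

end Cfsg.Agent.S0558
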