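import Cfsg.Statements.S0561
import Cfsg.Agent.Lib.SolvStruct.HallMisc

set_option autoImplicit false
open Pointwise
open Cfsg

namespace Cfsg.Agent.S0561

/-- Let the finite solvable group G be the product HK of subgroups, and let A be normal in H and B normal in K, where A and B are Hall subgroups of G (order coprime to index). Then for all x, y the product set of xAx⁻¹ and yBy⁻¹ is a subgroup of G. -/
theorem result {G : Type*} [Group G] [Finite G] [Group.IsSolvable G] (H K A B : Subgroup G) (hHK : ∀ g : G, ∃ h ∈ H, ∃ k ∈ K, g = h * k) (hA : A ≤ H) (hAn : (A.subgroupOf H).Normal) (hB : B ≤ K) (hBn : (B.subgroupOf K).Normal) (hAh : (Nat.card A).Coprime A.index) (hBh : (Nat.card B).Coprime B.index) (x y : G) : ∃ S : Subgroup G, (S : Set G) = ((MulAut.conj x • A : Subgroup G) : Set G) * ((MulAut.conj y • B : Subgroup G) : Set G) := by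
  have hA' : H ≤ Subgroup.normalizer (A : Set G) :=
    (Subgroup.normal_subgroupOf_iff_le_normalizer hA).1 hAn
  have hB' : K ≤ Subgroup.normalizer (B : Set G) :=
    (Subgroup.normal_subgroupOf_iff_le_normalizer hB).1 hBn
  have h : CfsgLib.SolvStruct.IsFactor H K := hHK
  obtain ⟨g, h1, h2⟩ := h.exists_conj hA' hB' x y
  obtain ⟨S, hS⟩ := h.exists_coe_eq_mul_of_hall hA' hB' hAh hBh
  rw [← h1, ← h2]
  exact ⟨_, ((CfsgLib.SolvStruct.permutes_of_coe_eq hS).conj g).coe_sup⟩

end Cfsg.Agent.S0561
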