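import Cfsg.Statements.S0563
import Cfsg.Agent.Lib.SolvStruct.Wielandt2

set_option autoImplicit false
open Pointwise
open Cfsg

namespace Cfsg.Agent.S0563

/-- If a finite group G is the product AB of two nilpotent subgroups of coprime orders, then G is solvable, and for every Sylow p-subgroup P of A and Sylow q-subgroup Q of B the product set PQ is a subgroup. -/
theorem result {G : Type*} [Group G] [Finite G] (A B : Subgroup G) (hA : Group.IsNilpotent A) (hB : Group.IsNilpotent B) (hcop : (Nat.card A).Coprime (Nat.card B)) (hAB : ∀ g : G, ∃ a ∈ A, ∃ b ∈ B, g = a * b) : Group.IsSolvable G ∧ ∀ (p q : ℕ) [Fact p.Prime] [Fact q.Prime] (P : Sylow p A) (Q : Sylow q B), ∃ S : Subgroup G, (S : Set G) = (((P : Subgroup A).map A.subtype : Subgroup G) : Set G) * (((Q : Subgroup B).map B.subtype : Subgroup G) : Set G) := by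
  have h : CfsgLib.SolvStruct.WGood A B := ⟨hA, hB, hcop, hAB⟩
  have hs := h.isSolvable
  refine ⟨hs, fun p q hp hq P Q => ?_⟩
  rw [CfsgLib.SolvStruct.sylow_map_eq_sylP hA, CfsgLib.SolvStruct.sylow_map_eq_sylP hB]
  have key : ∀ {A B : Subgroup G}, CfsgLib.SolvStruct.WGood A B → ∀ (p : ℕ) [Fact p.Prime],
      (Nat.card (CfsgLib.SolvStruct.sylP p A)).Coprime (CfsgLib.SolvStruct.sylP p A).index := by
    intro A B h p hp
    by_cases hd : p ∣ Nat.card A
    · apply CfsgLib.Core.isPGroup_coprime_card (CfsgLib.SolvStruct.isPGroup_sylP p A)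
      exact ((Nat.Prime.coprime_iff_not_dvd hp.out).2 (h.not_dvd_index_sylP hp.out hd)).symm
    · have : CfsgLib.SolvStruct.sylP p A = ⊥ := by
        by_contra hne
        exact hd ((CfsgLib.Core.dvd_card_of_isPGroup_of_ne_bot
          (CfsgLib.SolvStruct.isPGroup_sylP p A) hne).trans
          (Subgroup.card_dvd_of_le (CfsgLib.SolvStruct.sylP_le p A)))
      rw [this, Subgroup.card_bot]
      exact Nat.coprime_one_left _
  exact h.fac.exists_coe_eq_mul_of_hall (CfsgLib.SolvStruct.le_normalizer_sylP p A)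
    (CfsgLib.SolvStruct.le_normalizer_sylP q B) (key h p) (key h.symm q)

end Cfsg.Agent.S0563
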