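import Cfsg.Statements.S0567
import Cfsg.Agent.Lib.SolvStruct.Subnormal

set_option autoImplicit false
open Cfsg

namespace Cfsg.Agent.S0567

/-- A subgroup H of a group G is subnormal exactly when, for some m, the subgroup obtained from G by taking the commutator with H m times in succession is contained in H. -/
theorem result {G : Type*} [Group G] (H : Subgroup G) : H.IsSubnormal ↔ ∃ m : ℕ, (fun K : Subgroup G => ⁅K, H⁆)^[m] ⊤ ≤ H := by
  exact CfsgLib.SolvStruct.isSubnormal_iff_iterate_commutator_le H

end Cfsg.Agent.S0567
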