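import Cfsg.Statements.S0571
import Cfsg.Agent.Lib.SolvStruct.Supersolvable
import Cfsg.Agent.Lib.SolvStruct.Factor

set_option autoImplicit false
open Cfsg

namespace Cfsg.Agent.S0571

/-- If a finite group G is the product AB of two cyclic subgroups (every element is a product ab), then G is supersolvable. -/
theorem result {G : Type*} [Group G] [Finite G] (A B : Subgroup G) [IsCyclic A] [IsCyclic B] (hAB : ∀ g : G, ∃ a ∈ A, ∃ b ∈ B, g = a * b) : Cfsg.IsSupersolvable G := by
  open CfsgLib.SolvStruct in
  refine ss_of_class (P := fun G _ _ => ∃ A B : Subgroup G, IsCyclic A ∧ IsCyclic B ∧ IsFactor A B)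
    ?_ G ⟨A, B, inferInstance, inferInstance, hAB⟩
  intro G _ _ _ ⟨A, B, hA, hB, h⟩
  have : IsMulCommutative A := ⟨⟨fun a b => by
    letI := IsCyclic.commGroup (α := A); exact mul_comm a b⟩⟩
  have : IsMulCommutative B := ⟨⟨fun a b => by
    letI := IsCyclic.commGroup (α := B); exact mul_comm a b⟩⟩
  obtain ⟨N, hN, hne, hle⟩ := h.exists_normal_le_of_isMulCommutative
  refine ⟨N, hN, hne, ?_, A.map (QuotientGroup.mk' N), B.map (QuotientGroup.mk' N),
    isCyclic_of_surjective _ ((QuotientGroup.mk' N).subgroupMap_surjective A),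
    isCyclic_of_surjective _ ((QuotientGroup.mk' N).subgroupMap_surjective B),
    h.map (QuotientGroup.mk'_surjective N)⟩
  rcases hle with hle | hle
  · exact isCyclic_of_injective (Subgroup.inclusion hle) (Subgroup.inclusion_injective hle)
  · exact isCyclic_of_injective (Subgroup.inclusion hle) (Subgroup.inclusion_injective hle)

end Cfsg.Agent.S0571
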