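import Cfsg.Statements.S0578
import Cfsg.Agent.Lib.Core.MinNormal
import Cfsg.Agent.Lib.Transfer.Abelian

set_option autoImplicit false
open Cfsg

namespace Cfsg.Agent.S0578

/-- If in a finite group the normalizer of each abelian subgroup coincides with its centralizer, then the group is abelian. -/
theorem result {G : Type*} [Group G] [Finite G] (h : ∀ A : Subgroup G, IsMulCommutative A → Subgroup.normalizer (A : Set G) = Subgroup.centralizer (A : Set G)) : IsMulCommutative G := by
  -- every Sylow subgroup is abelian
  have hab : ∀ (p : ℕ) [Fact p.Prime] (P : Sylow p G), IsMulCommutative (P : Subgroup G) := by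
    intro p _ P
    obtain ⟨A, ⟨hAP, hA⟩, hmax⟩ := exists_maximal_of_wellFoundedGT
      (fun A : Subgroup G => A ≤ P ∧ IsMulCommutative A) ⟨⊥, bot_le, inferInstance⟩
    rcases hAP.eq_or_lt with e | hlt
    · rw [← e]; exact hA
    · exfalso
      have h1 := CfsgLib.Core.lt_inf_normalizer_of_isPGroup P.isPGroup' hlt
      obtain ⟨x, hx, hxA⟩ := SetLike.exists_of_lt h1
      have hxc : x ∈ Subgroup.centralizer (A : Set G) := by
        rw [← h A hA]; exact hx.2
      have hc : IsMulCommutative (A ⊔ Subgroup.zpowers x : Subgroup G) := by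
        apply CfsgLib.Core.isMulCommutative_sup
        rw [Subgroup.le_centralizer_iff]
        exact Subgroup.zpowers_le.2 hxc
      have := hmax (y := A ⊔ Subgroup.zpowers x)
        ⟨sup_le hAP (Subgroup.zpowers_le.2 hx.1), hc⟩ le_sup_left
      exact hxA (this (Subgroup.mem_sup_right (Subgroup.mem_zpowers x)))
  have hbot : commutator G = ⊥ := by
    rw [← Subgroup.card_eq_one]
    by_contra hne
    obtain ⟨p, hp, hd⟩ := Nat.exists_prime_and_dvd hne
    have := Fact.mk hp
    obtain ⟨P⟩ : Nonempty (Sylow p G) := inferInstance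
    have h1 := CfsgLib.Transfer.burnside_normal_complement P (h _ (hab p P)).le
    have h2 := CfsgLib.Transfer.commutator_le_pResidual_of_abelian_sylow P (hab p P)
    exact CfsgLib.Transfer.hasNormalPComplement_iff_not_dvd.1 h1
      (hd.trans (Subgroup.card_dvd_of_le h2))
  refine ⟨⟨fun a b => ?_⟩⟩
  have :=
    Subgroup.commutator_mem_commutator (Subgroup.mem_top a) (Subgroup.mem_top b)
  rw [← commutator_def, hbot, Subgroup.mem_bot] at this
  exact commutatorElement_eq_one_iff_mul_comm.1 this

end Cfsg.Agent.S0578
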