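import Cfsg.Statements.S0584
import Cfsg.Agent.Lib.SolvStruct.MinNormal

set_option autoImplicit false
open Cfsg

namespace Cfsg.Agent.S0584

/-- Let B ≤ A be normal subgroups of a finite group G with B contained in the Frattini subgroup of G. If A modulo B is nilpotent then A is nilpotent. -/
theorem result {G : Type*} [Group G] [Finite G] (A B : Subgroup G) [A.Normal] [B.Normal] (hBA : B ≤ A) (hB : B ≤ frattini G) (h : Group.IsNilpotent (↥A ⧸ B.subgroupOf A)) : Group.IsNilpotent A := by
  apply CfsgLib.SolvStruct.nilpotent_of_map_nilpotent_of_le_frattini A B hB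
  let f : A →* A.map (QuotientGroup.mk' B) := (QuotientGroup.mk' B).subgroupMap A
  have hf : Function.Surjective f := MonoidHom.subgroupMap_surjective _ _
  have hk : B.subgroupOf A ≤ f.ker := by
    intro x hx
    rw [MonoidHom.mem_ker]
    apply Subtype.ext
    exact (QuotientGroup.eq_one_iff _).2 hx
  refine nilpotent_of_surjective (QuotientGroup.lift _ f hk) ?_
  intro y
  obtain ⟨x, rfl⟩ := hf y
  exact ⟨QuotientGroup.mk x, rfl⟩

end Cfsg.Agent.S0584
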