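import Cfsg.Statements.S0586
import Cfsg.Agent.Lib.SolvStruct.Frat

set_option autoImplicit false
open Cfsg

namespace Cfsg.Agent.S0586

/-- If the Frattini subgroup of a finite group G is trivial, then the Fitting subgroup of G equals the join of all abelian minimal normal subgroups of G. -/
theorem result {G : Type*} [Group G] [Finite G] (hΦ : frattini G = ⊥) : Cfsg.fittingSubgroup G = sSup {N : Subgroup G | N.Normal ∧ N ≠ ⊥ ∧ IsMulCommutative N ∧ ∀ K : Subgroup G, K.Normal → K ≤ N → K = ⊥ ∨ K = N} := by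
  set s := {N : Subgroup G | N.Normal ∧ N ≠ ⊥ ∧ IsMulCommutative N ∧ ∀ K : Subgroup G, K.Normal → K ≤ N → K = ⊥ ∨ K = N} with hs
  have hFn := CfsgLib.Core.fittingSubgroup_normal G
  have hFnil := CfsgLib.Core.isNilpotent_fittingSubgroup G
  have hFc := CfsgLib.SolvStruct.isMulCommutative_of_frattini_eq_bot hΦ (Cfsg.fittingSubgroup G)
  have hle : sSup s ≤ Cfsg.fittingSubgroup G := by
    apply sSup_le
    rintro N ⟨h1, -, h3, -⟩
    exact CfsgLib.Core.le_fittingSubgroup_of_isMulCommutative N
  have hSn : (sSup s).Normal := by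
    refine CfsgLib.Core.sSup_induction_finite (P := fun A => A.Normal) inferInstance ?_ ?_
    · intro A B hA hB
      exact Subgroup.sup_normal A B
    · intro A hA
      exact hA.1
  have hSc : IsMulCommutative (sSup s : Subgroup G) := CfsgLib.Core.isMulCommutative_of_le hle
  obtain ⟨H, hH⟩ := CfsgLib.SolvStruct.exists_isComplement'_of_inf_frattini (sSup s)
    (by rw [hΦ, inf_bot_eq])
  have hsup : sSup s ⊔ H = ⊤ := hH.sup_eq_top
  have hdis : sSup s ⊓ H = ⊥ := disjoint_iff.1 hH.disjoint
  have hn : (H ⊓ Cfsg.fittingSubgroup G).Normal := by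
    rw [← Subgroup.normalizer_eq_top_iff, eq_top_iff, ← hsup]
    apply sup_le
    · intro a ha
      apply CfsgLib.Core.mem_normalizer_of_forall_conj_mem
      intro x hx
      have : a * x = x * a :=
        CfsgLib.Core.isMulCommutative_iff_forall.1 hFc a (hle ha) x hx.2
      rw [this, mul_inv_cancel_right]
      exact hx
    · intro g hg
      apply CfsgLib.Core.mem_normalizer_of_forall_conj_mem
      intro x hx
      exact ⟨H.mul_mem (H.mul_mem hg hx.1) (H.inv_mem hg), hFn.conj_mem x hx.2 g⟩
  have hbot : H ⊓ Cfsg.fittingSubgroup G = ⊥ := by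
    by_contra hne
    obtain ⟨N, h1, h2, h3, h4⟩ := CfsgLib.Core.exists_minimal_normal_le hne
    have hNs : N ∈ s := ⟨h1, h2, CfsgLib.Core.isMulCommutative_of_le (h3.trans inf_le_right), h4⟩
    apply h2
    rw [eq_bot_iff, ← hdis]
    exact le_inf (le_sSup hNs) (h3.trans inf_le_left)
  have := CfsgLib.Core.sup_inf_assoc_of_normal_left (B := H) hle
  rw [hsup, top_inf_eq, hbot, sup_bot_eq] at this
  exact this

end Cfsg.Agent.S0586
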