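import Cfsg.Statements.S0588
import Cfsg.Agent.Lib.SolvStruct.HallMisc

set_option autoImplicit false
open Cfsg

namespace Cfsg.Agent.S0588

/-- If a subgroup H of a finite group G contains the centralizer of every non-identity element of H, then the order of H is coprime to its index. -/
theorem result {G : Type*} [Group G] [Finite G] (H : Subgroup G) (h : ∀ x ∈ H, x ≠ 1 → Subgroup.centralizer ({x} : Set G) ≤ H) : (Nat.card H).Coprime H.index := by
  apply Nat.coprime_of_dvd
  intro p hp h1 h2
  have := Fact.mk hp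
  obtain ⟨x, hx, hxp⟩ := CfsgLib.Core.exists_mem_orderOf_eq_of_dvd_card hp h1
  have hx1 : x ≠ 1 := by
    rintro rfl
    rw [orderOf_one] at hxp
    exact hp.one_lt.ne hxp
  obtain ⟨P, hP⟩ := (CfsgLib.SolvStruct.isPGroup_zpowers_of_orderOf_eq hxp).exists_le_sylow
  have hxP : x ∈ (P : Subgroup G) := hP (Subgroup.mem_zpowers x)
  have hne : (P : Subgroup G) ≠ ⊥ := by
    intro e
    rw [e] at hxP
    exact hx1 hxP
  have h3 := CfsgLib.Core.inf_centralizer_ne_bot_of_isPGroup P.isPGroup' P.isPGroup'
    Subgroup.le_normalizer hne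
  obtain ⟨⟨z, hz⟩, hz1⟩ := Subgroup.ne_bot_iff_exists_ne_one.1 h3
  have hz1' : z ≠ 1 := fun e => hz1 (Subtype.ext e)
  have hzH : z ∈ H := by
    apply h x hx hx1
    rw [Subgroup.mem_centralizer_singleton_iff]
    exact (hz.2 x hxP).symm
  have hPH : (P : Subgroup G) ≤ H := by
    intro y hy
    apply h z hzH hz1'
    rw [Subgroup.mem_centralizer_singleton_iff]
    exact hz.2 y hy
  exact P.not_dvd_index (h2.trans (Subgroup.index_dvd_of_le hPH))

end Cfsg.Agent.S0588
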