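import Cfsg.Statements.S0589
import Cfsg.Agent.Lib.SolvStruct.HallMisc
import Cfsg.Agent.Lib.Frob.Basic

set_option autoImplicit false
open Pointwise
open Cfsg

namespace Cfsg.Agent.S0589

/-- Let H be a Frobenius complement in a finite group G and L a subgroup of G whose order divides the order of H. Then L is contained in some conjugate of H. -/
theorem result {G : Type*} [Group G] [Finite G] (H : Subgroup G) (hH : Cfsg.IsFrobeniusComplement H) (L : Subgroup G) (hL : Nat.card L ∣ Nat.card H) : ∃ x : G, L ≤ MulAut.conj x • H := by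
  by_contra hcon
  push Not at hcon
  obtain ⟨g, hg⟩ := Finite.exists_max
    (fun g : G => Nat.card ((MulAut.conj g • H : Subgroup G).subgroupOf L))
  have hcop := CfsgLib.Frob.frob_coprime_card_index hH
  set H1 : Subgroup G := MulAut.conj g • H with hH1
  have hne : (H1.subgroupOf L).index ≠ 1 := by
    rw [Ne, Subgroup.index_eq_one, Subgroup.subgroupOf_eq_top]
    exact hcon g
  obtain ⟨q, hq, hqd⟩ := Nat.exists_prime_and_dvd hne
  have hqL : q ∣ Nat.card L := hqd.trans (Subgroup.index_dvd_card _)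
  obtain ⟨y, hy, hyq⟩ := CfsgLib.Core.exists_mem_orderOf_eq_of_dvd_card hq hqL
  have hqi : ¬ q ∣ H.index := fun h =>
    hq.one_lt.ne' (Nat.eq_one_of_dvd_coprimes hcop (hqL.trans hL) h)
  obtain ⟨k, hk⟩ := CfsgLib.SolvStruct.exists_mem_conj_of_not_dvd_index hq hqi hyq
  set H2 : Subgroup G := MulAut.conj k • H with hH2
  have hq2 : q ∣ Nat.card (H2.subgroupOf L) := by
    have : orderOf (⟨y, hy⟩ : L) = q := by rw [← hyq, Subgroup.orderOf_mk]
    rw [← this]
    exact Subgroup.orderOf_dvd_natCard _ hk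
  have hle : Nat.card (H2.subgroupOf L) ≤ Nat.card (H1.subgroupOf L) := hg k
  have hne2 : H2 ⊓ L ≠ ⊥ := by
    intro e
    rw [CfsgLib.Core.card_subgroupOf, e, Subgroup.card_bot] at hq2
    exact hq.one_lt.ne' (Nat.dvd_one.1 hq2)
  have hne1 : H1 ⊓ L ≠ ⊥ := by
    intro e
    rw [CfsgLib.Core.card_subgroupOf H1, e, Subgroup.card_bot] at hle
    have := Nat.le_of_dvd Nat.card_pos hq2
    have := hq.one_lt
    omega
  have f1 := CfsgLib.Frob.frob_subgroupOf (CfsgLib.Frob.frob_conj hH g) hne1 (hcon g)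
  have f2 := CfsgLib.Frob.frob_subgroupOf (CfsgLib.Frob.frob_conj hH k) hne2 (hcon k)
  obtain ⟨u, hu⟩ := CfsgLib.Frob.exists_conj_le_of_frob f1 f2 hle
  have hq1 : q ∣ Nat.card (H1.subgroupOf L) := by
    refine hq2.trans ?_
    rw [← CfsgLib.Core.card_conj_smul _ u]
    exact Subgroup.card_dvd_of_le hu
  exact hq.one_lt.ne' (Nat.eq_one_of_dvd_coprimes (CfsgLib.Frob.frob_coprime_card_index f1) hq1 hqd)

end Cfsg.Agent.S0589
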