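import Cfsg.Statements.S0591
import Cfsg.Agent.Lib.PLocal.ElemRep

set_option autoImplicit false
open Cfsg

namespace Cfsg.Agent.S0591

/-- For a quadratically acting element a on an elementary abelian p-group V, the fixed points C_V(a) have order at least the square root of the order of V. -/
theorem result {G : Type*} [Group G] [Finite G] {p : ℕ} [Fact p.Prime] (V : Subgroup G) (hV : Cfsg.IsElementaryAbelian p V) (a : G) (ha : a ∈ Subgroup.normalizer (V : Set G)) (hq : ⁅⁅V, Subgroup.zpowers a⁆, Subgroup.zpowers a⁆ = ⊥) : Nat.card V ≤ Nat.card ↥(V ⊓ Subgroup.centralizer (Subgroup.zpowers a : Set G)) ^ 2 := by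
  have hA : Subgroup.zpowers a ≤ Subgroup.normalizer (V : Set G) := Subgroup.zpowers_le_of_mem ha
  let ρ := CfsgLib.PLocal.ElemMod.rep hV hA
  let a' : Subgroup.zpowers a := ⟨a, Subgroup.mem_zpowers a⟩
  let x : Module.End (ZMod p) (CfsgLib.PLocal.ElemMod hV) := ρ a' - 1
  have hker : LinearMap.ker x =
      CfsgLib.PLocal.ElemMod.sub hV (Subgroup.centralizer (Subgroup.zpowers a : Set G)) := by
    ext w
    rw [LinearMap.mem_ker, CfsgLib.PLocal.ElemMod.mem_sub, Subgroup.zpowers_eq_closure,
      Subgroup.centralizer_closure, Subgroup.mem_centralizer_singleton_iff, eq_comm (b := a * _),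
      ← CfsgLib.PLocal.ElemMod.rep_apply_eq_iff hA a' w, ← sub_eq_zero (a := ρ a' w)]
    rfl
  have hrange : LinearMap.range x ≤ LinearMap.ker x := by
    rintro _ ⟨w, rfl⟩
    exact sub_eq_zero.mpr (CfsgLib.PLocal.ElemMod.rep_quadratic hA a' hq w)
  rw [← CfsgLib.PLocal.ElemMod.card_sub (hV := hV), ← hker,
    ← CfsgLib.PLocal.ElemMod.card_eq (hV := hV), Submodule.card_eq_card_quotient_mul_card
      (LinearMap.ker x), Nat.card_congr x.quotKerEquivRange.toEquiv, sq]
  exact Nat.mul_le_mul_left _ (Nat.card_le_card_of_injective _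
    (Submodule.inclusion_injective hrange))

end Cfsg.Agent.S0591
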