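import Cfsg.Statements.S0592
import Cfsg.Agent.Lib.PLocal.QuadPair

set_option autoImplicit false
open Cfsg

namespace Cfsg.Agent.S0592

open Polynomial in
theorem exists_split_annihilator {K A : Type*} [Field K] [Ring A] [Algebra K A] (c : A)
    {g : K[X]} (hg0 : g ≠ 0) (hg : g.Splits) (hc : aeval c g = 0) (P : K[X]) :
    ∃ f : K[X], f ≠ 0 ∧ f.Splits ∧ aeval (aeval c P) f = 0 := by
  refine ⟨(g.roots.map fun l => X - C (P.eval l)).prod, ?_, ?_, ?_⟩
  · exact (monic_multiset_prod_of_monic _ _ fun l _ => monic_X_sub_C _).ne_zero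
  · refine Splits.multisetProd fun f hf => ?_
    obtain ⟨l, -, rfl⟩ := Multiset.mem_map.mp hf
    exact Splits.X_sub_C _
  · rw [← aeval_comp, multiset_prod_comp, Multiset.map_map]
    have h1 : (g.roots.map (X - C ·)).prod ∣
        (g.roots.map ((fun q : K[X] => q.comp P) ∘ fun l => X - C (P.eval l))).prod :=
      Multiset.prod_dvd_prod_of_dvd _ _ fun l _ => by
        simpa using X_sub_C_dvd_sub_C_eval
    obtain ⟨r, hr⟩ := h1
    have h2 : aeval c (g.roots.map (X - C ·)).prod = 0 := by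
      rw [hg.eq_prod_roots, map_mul, aeval_C, ← Algebra.smul_def] at hc
      have := congrArg (g.leadingCoeff⁻¹ • ·) hc
      simpa [smul_smul, inv_mul_cancel₀ (leadingCoeff_ne_zero.mpr hg0)] using this
    rw [hr, map_mul, h2, zero_mul]

/-- Two quadratically acting generators of a linear group that is not a p-group, with the p'-part of the order of their product dividing q - 1, give a homomorphism onto a subgroup of SL(2, q) that is not a p-group. -/
theorem result {K : Type*} [Field K] [Fintype K] {p : ℕ} [Fact p.Prime] [CharP K p] {W : Type*} [AddCommGroup W] [Module K W] [FiniteDimensional K W] [Finite W] [Nontrivial W] (H : Subgroup (W ≃ₗ[K] W)) (a b : W ≃ₗ[K] W) (hH : H = Subgroup.closure {a, b}) (ha : ∀ w : W, a (a w - w) = a w - w) (hb : ∀ w : W, b (b w - w) = b w - w) (hnp : ¬ IsPGroup p H) (hk : ∃ e k : ℕ, orderOf (a * b) = p ^ e * k ∧ k ∣ Fintype.card K - 1) : ∃ φ : H →* Matrix.SpecialLinearGroup (Fin 2) K, ¬ IsPGroup p φ.range := by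
  classical
  have hp : p.Prime := Fact.out
  subst hH
  let ρ : Representation K (Subgroup.closure ({a, b} : Set (W ≃ₗ[K] W))) W :=
    LinearEquiv.automorphismGroup.toLinearMapMonoidHom.comp (Subgroup.subtype _)
  have hchar : (p : Module.End K W) = 0 := by
    rw [← map_natCast (algebraMap K _), CharP.cast_eq_zero, map_zero]
  obtain ⟨h, hh⟩ : ∃ h, ¬ IsNilpotent (ρ h - 1) := by
    by_contra hc
    push Not at hc
    refine hnp fun g => ?_
    obtain ⟨k, hk⟩ := CfsgLib.PLocal.pow_prime_pow_eq_one_of_isNilpotent hp hchar (hc g)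
    rw [← map_pow] at hk
    exact ⟨k, Subtype.ext (LinearEquiv.toLinearMap_injective hk)⟩
  set a' : Subgroup.closure ({a, b} : Set (W ≃ₗ[K] W)) :=
    ⟨a, Subgroup.subset_closure (Set.mem_insert _ _)⟩ with ha'
  set b' : Subgroup.closure ({a, b} : Set (W ≃ₗ[K] W)) :=
    ⟨b, Subgroup.subset_closure (Set.mem_insert_of_mem _ rfl)⟩ with hb'
  obtain ⟨e, k, hord, m, hm⟩ := hk
  have hq1 : 1 < Fintype.card K := Fintype.one_lt_card
  have h1 : (a' * b') ^ ((Fintype.card K - 1) * p ^ e) = 1 := by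
    apply Subtype.ext
    change (a * b) ^ _ = 1
    rw [← orderOf_dvd_iff_pow_eq_one, hord, hm]
    exact ⟨m, by ring⟩
  obtain ⟨N, hN⟩ := CfsgLib.PLocal.isNilpotent_of_pow_prime_pow_eq_one hp hchar
    (g := ρ (a' * b') ^ (Fintype.card K - 1)) (k := e) (by rw [← pow_mul, ← map_pow, h1, map_one])
  have hg0 : (Polynomial.X ^ Fintype.card K - Polynomial.X : Polynomial K) ≠ 0 :=
    FiniteField.X_pow_card_sub_X_ne_zero K hq1
  have hgs : (Polynomial.X ^ Fintype.card K - Polynomial.X : Polynomial K).Splits := by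
    rw [Polynomial.splits_iff_card_roots, FiniteField.roots_X_pow_card_sub_X,
      FiniteField.X_pow_card_sub_X_natDegree_eq K hq1]
    rfl
  have hann : Polynomial.aeval (ρ (a' * b'))
      ((Polynomial.X ^ Fintype.card K - Polynomial.X : Polynomial K) ^ N) = 0 := by
    have : (Polynomial.X ^ Fintype.card K - Polynomial.X : Polynomial K) =
        (Polynomial.X ^ (Fintype.card K - 1) - 1) * Polynomial.X := by
      rw [sub_mul, ← pow_succ, Nat.sub_add_cancel hq1.le, one_mul]
    rw [this, mul_pow, map_mul, map_pow, map_sub, map_pow, Polynomial.aeval_X, map_one, hN,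
      zero_mul]
  obtain ⟨f, hf0, hfs, hf⟩ := exists_split_annihilator _ (pow_ne_zero N hg0) (hgs.pow N) hann
    (Polynomial.X + Polynomial.X ^ ((Fintype.card K - 1) * p ^ e - 1) - 2)
  have hpos : 0 < (Fintype.card K - 1) * p ^ e := Nat.mul_pos (by omega) (pow_pos hp.pos e)
  have hinv : ∀ g : Subgroup.closure ({a, b} : Set (W ≃ₗ[K] W)),
      (∀ w, ρ g (ρ g w - w) = ρ g w - w) → ρ g⁻¹ = 2 - ρ g := by
    intro g hg
    refine LinearMap.ext fun w => ?_
    rw [Representation.inv_apply_eq_iff]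
    have := hg w
    rw [map_sub] at this
    simp only [LinearMap.sub_apply, Module.End.ofNat_apply, map_sub, map_nsmul]
    rw [eq_comm, sub_eq_iff_eq_add, sub_eq_iff_eq_add.mp this]
    abel
  have hz : Polynomial.aeval (ρ (a' * b')) (Polynomial.X +
      Polynomial.X ^ ((Fintype.card K - 1) * p ^ e - 1) - 2 : Polynomial K) =
      (ρ a' - 1) * (ρ b' - 1) + (ρ b' - 1) * (ρ a' - 1) := by
    have h2 : (a' * b') ^ ((Fintype.card K - 1) * p ^ e - 1) = b'⁻¹ * a'⁻¹ := by
      rw [← mul_inv_rev, eq_inv_iff_mul_eq_one, ← pow_succ, Nat.sub_add_cancel hpos, h1]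
    rw [map_sub, map_add, map_pow, Polynomial.aeval_X, ← map_pow, h2, map_mul, map_mul,
      hinv a' ha, hinv b' hb, map_ofNat, ← one_add_one_eq_two]
    noncomm_ring
  rw [hz] at hf
  obtain ⟨μ, hμ, φ, h2, h3, -⟩ := CfsgLib.PLocal.exists_hom_SL2_of_not_unipotent_of_splits ρ
    (CfsgLib.PLocal.closure_pair_subtype_eq_top a b) ha hb f hf0 hfs hf hh
  refine ⟨φ, fun hP => ?_⟩
  obtain ⟨j, hj⟩ := hP ⟨φ (a' * b'), _, rfl⟩
  have h4 := CfsgLib.PLocal.SL2_trace_eq_two_of_pow (p := p) (k := j) (g := φ (a' * b'))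
    (congrArg Subtype.val hj)
  rw [map_mul, h2, h3, CfsgLib.PLocal.trace_upperSL_mul_lowerSL] at h4
  exact hμ (by linear_combination h4)

end Cfsg.Agent.S0592
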