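import Mathlib
-- Template for statement S0593 (row 593; see /opt/grader/pristine/manifest.json for weights).
-- Copy to Cfsg/Agent/S0593.lean and replace the sorry. The statement below is byte-identical to the frozen
-- statement Cfsg.CfsgFrozen.S0593 (Cfsg/Statements/S0593.lean; the theorem Cfsg.two_quadratic_generators_sylow_two_nonabelian);
-- the grader kernel-checks Cfsg.Agent.S0593.result against that frozen type. Keep the theorem IN THIS FILE
-- (a `result` declared elsewhere and merely imported here is not credited); helpers may live anywhere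
-- under Cfsg/Agent/.
import Cfsg.Statements.S0593
import Cfsg.Agent.Lib.PStab.Stable

set_option autoImplicit false
open Cfsg

namespace Cfsg.Agent.S0593

/-- For odd p, a faithful group on an elementary abelian p-group generated by two quadratically acting elements is a p-group or has non-abelian Sylow 2-subgroups. -/
theorem result {G : Type*} [Group G] [Finite G] {p : ℕ} [Fact p.Prime] (hp : p ≠ 2) (V H : Subgroup G) (hV : Cfsg.IsElementaryAbelian p V) (hHV : H ≤ Subgroup.normalizer (V : Set G)) (hf : H ⊓ Subgroup.centralizer (V : Set G) = ⊥) (a b : G) (hab : H = Subgroup.closure {a, b}) (ha : ⁅⁅V, Subgroup.zpowers a⁆, Subgroup.zpowers a⁆ = ⊥) (hb : ⁅⁅V, Subgroup.zpowers b⁆, Subgroup.zpowers b⁆ = ⊥) (hnp : ¬ IsPGroup p H) (T : Sylow 2 H) : ¬ IsMulCommutative T := by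
  intro hT
  subst hab
  apply hnp
  rw [CfsgLib.Core.isPGroup_subgroup_iff]
  intro h hh
  obtain ⟨k, hk⟩ := CfsgLib.PStab.quad_pair_elemAb hp hV (hHV (Subgroup.subset_closure (Set.mem_insert _ _)))
    (hHV (Subgroup.subset_closure (Set.mem_insert_of_mem _ rfl))) ha hb
    (fun T' => by
        obtain ⟨g, rfl⟩ := MulAction.exists_smul_eq (Subgroup.closure ({a, b} : Set G)) T T'
        exact (inferInstance : IsMulCommutative (T.1.map (MulAut.conj g).toMonoidHom))) hh
  exact ⟨k, Subgroup.mem_bot.mp (hf ▸ Subgroup.mem_inf.mpr ⟨pow_mem hh _, hk⟩)⟩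

end Cfsg.Agent.S0593
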