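import Cfsg.Statements.S0594
import Cfsg.Agent.Lib.PLocal.QuadSep

set_option autoImplicit false
open Cfsg

namespace Cfsg.Agent.S0594

/-- For odd p, two quadratic generators of a faithful group that is not a p-group, one of which acts nontrivially on a normal subgroup of order prime to p, force p = 3 and a section isomorphic to SL(2,3). -/
theorem result {G : Type*} [Group G] [Finite G] {p : ℕ} [Fact p.Prime] (hp : p ≠ 2) (V H : Subgroup G) (hV : Cfsg.IsElementaryAbelian p V) (hHV : H ≤ Subgroup.normalizer (V : Set G)) (hf : H ⊓ Subgroup.centralizer (V : Set G) = ⊥) (a b : G) (hab : H = Subgroup.closure {a, b}) (ha : ⁅⁅V, Subgroup.zpowers a⁆, Subgroup.zpowers a⁆ = ⊥) (hb : ⁅⁅V, Subgroup.zpowers b⁆, Subgroup.zpowers b⁆ = ⊥) (hnp : ¬ IsPGroup p H) (Q : Subgroup G) (hQH : Q ≤ H) (hQn : H ≤ Subgroup.normalizer (Q : Set G)) (hQ : (Nat.card Q).Coprime p) (hQa : ⁅Q, Subgroup.zpowers a⁆ ≠ ⊥) : p = 3 ∧ ∃ (K L : Subgroup G) (hL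 : (L.subgroupOf K).Normal), K ≤ H ∧ Nonempty ((K ⧸ L.subgroupOf K) ≃* Matrix.SpecialLinearGroup (Fin 2) (ZMod 3)) := by
  obtain ⟨q, hq, hne⟩ := CfsgLib.PLocal.exists_commutatorElement_ne_one hQa
  have haH : a ∈ H := hab ▸ Subgroup.subset_closure (Set.mem_insert _ _)
  obtain ⟨h3, ψ, hψ, -⟩ := CfsgLib.PLocal.three_of_quadratic_conj hp hV hHV H.subtype
    (fun g hg => by
      have : (g : G) ∈ H ⊓ Subgroup.centralizer (V : Set G) := ⟨g.2, hg⟩
      rwa [hf, Subgroup.mem_bot] at this)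
    (fun g hg => ⟨0, by
      rw [show (g : G) = 1 from hg, one_pow]
      exact Subgroup.one_mem _⟩)
    Q (by rwa [Subgroup.range_subtype]) hQ ⟨a, haH⟩ ⟨q, hQH hq⟩ ha hq hne
  obtain ⟨L, hL, -, he⟩ := CfsgLib.PLocal.exists_section_of_surjective ψ hψ
  refine ⟨h3, _, L, hL, ?_, he⟩
  rw [Subgroup.closure_le]
  rintro _ (rfl | rfl)
  · exact haH
  · exact H.mul_mem (H.mul_mem (hQH hq) haH) (H.inv_mem (hQH hq))

end Cfsg.Agent.S0594
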