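import Mathlib
-- Template for statement S0595 (row 595; see /opt/grader/pristine/manifest.json for weights).
-- Copy to Cfsg/Agent/S0595.lean and replace the sorry. The statement below is byte-identical to the frozen
-- statement Cfsg.CfsgFrozen.S0595 (Cfsg/Statements/S0595.lean; the theorem Cfsg.sylow_two_nonabelian_of_faithful_not_p_stable);
-- the grader kernel-checks Cfsg.Agent.S0595.result against that frozen type. Keep the theorem IN THIS FILE
-- (a `result` declared elsewhere and merely imported here is not credited); helpers may live anywhere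
-- under Cfsg/Agent/.
import Cfsg.Statements.S0595
import Cfsg.Agent.Lib.PStab.Stable

set_option autoImplicit false
open Cfsg

namespace Cfsg.Agent.S0595

/-- For odd p, a faithful action on an elementary abelian p-group that is not p-stable forces non-abelian Sylow 2-subgroups. -/
theorem result {G : Type*} [Group G] [Finite G] {p : ℕ} [Fact p.Prime] (hp : p ≠ 2) (V H : Subgroup G) (hV : Cfsg.IsElementaryAbelian p V) (hHV : H ≤ Subgroup.normalizer (V : Set G)) (hf : H ⊓ Subgroup.centralizer (V : Set G) = ⊥) (a : G) (haH : a ∈ H) (hq : ⁅⁅V, Subgroup.zpowers a⁆, Subgroup.zpowers a⁆ = ⊥) (hna : a ∉ (Cfsg.pCore p H).map H.subtype) (T : Sylow 2 H) : ¬ IsMulCommutative T := by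
  intro hT
  apply hna
  refine ⟨⟨a, haH⟩, ?_, rfl⟩
  refine CfsgLib.PStab.map_mem_pCore_of_quadratic hp (CfsgLib.PLocal.elemAb_isPGroup hV) hHV
    (fun T'' => by
        obtain ⟨g, rfl⟩ := MulAction.exists_smul_eq H T T''
        exact (inferInstance : IsMulCommutative (T.1.map (MulAut.conj g).toMonoidHom)))
    (MonoidHom.id H) Function.surjective_id (fun x hx => Subtype.ext ?_) ⟨a, haH⟩ hq
  exact Subgroup.mem_bot.mp (hf ▸ Subgroup.mem_inf.mpr ⟨x.2, hx⟩)

end Cfsg.Agent.S0595
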