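import Cfsg.Statements.S0596
import Cfsg.Agent.Lib.PLocal.QuadSep

set_option autoImplicit false
open Cfsg

namespace Cfsg.Agent.S0596

/-- For odd p, a p-separable group with a faithful action on an elementary abelian p-group that is not p-stable has p = 3 and involves SL(2,3). -/
theorem result {G : Type*} [Group G] [Finite G] {p : ℕ} [Fact p.Prime] (hp : p ≠ 2) (V H : Subgroup G) (hV : Cfsg.IsElementaryAbelian p V) (hHV : H ≤ Subgroup.normalizer (V : Set G)) (hf : H ⊓ Subgroup.centralizer (V : Set G) = ⊥) (hsep : Cfsg.IsPSolvable p H) (a : G) (haH : a ∈ H) (hq : ⁅⁅V, Subgroup.zpowers a⁆, Subgroup.zpowers a⁆ = ⊥) (hna : a ∉ (Cfsg.pCore p H).map H.subtype) : p = 3 ∧ ∃ (K L : Subgroup G) (hL : (L.subgroupOf K).Normal), K ≤ H ∧ Nonempty ((K ⧸ L.subgroupOf K) ≃* Matrix.SpecialLinearGroup (Fin 2) (ZMod 3)) := by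
  obtain ⟨h3, q, ψ, hψ, -⟩ := CfsgLib.PLocal.three_of_quadratic_pSolvable hp hV hHV
    (MonoidHom.id H) Function.surjective_id
    (fun g => ⟨fun hg => by
      rw [show g = 1 from hg]
      exact Subgroup.one_mem _, fun hg => by
      have : (g : G) ∈ H ⊓ Subgroup.centralizer (V : Set G) := ⟨g.2, hg⟩
      rw [hf, Subgroup.mem_bot] at this
      exact Subtype.ext this⟩)
    hsep ⟨a, haH⟩ hq (fun h => hna ⟨_, h, rfl⟩)
  obtain ⟨L, hL, -, he⟩ := CfsgLib.PLocal.exists_section_of_surjective ψ hψ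
  refine ⟨h3, _, L, hL, ?_, he⟩
  rw [Subgroup.closure_le]
  rintro _ (rfl | rfl)
  · exact haH
  · exact H.mul_mem (H.mul_mem q.2 haH) (H.inv_mem q.2)

end Cfsg.Agent.S0596
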