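import Cfsg.Statements.S0597
import Cfsg.Agent.Lib.PLocal.Offender
import Cfsg.Agent.Lib.PLocal.QuadSep
import Cfsg.Agent.Lib.SolvStruct.Subnormal

set_option autoImplicit false
open Cfsg

namespace Cfsg.Agent.S0597

/-- If two subnormal subgroups of a faithful group on an elementary abelian p-group satisfy [V, E₁, E₂] = 1, then their commutator lies in the largest normal p-subgroup. -/
theorem result {G : Type*} [Group G] [Finite G] {p : ℕ} [Fact p.Prime] (V H : Subgroup G) (hV : Cfsg.IsElementaryAbelian p V) (hHV : H ≤ Subgroup.normalizer (V : Set G)) (hf : H ⊓ Subgroup.centralizer (V : Set G) = ⊥) (E₁ E₂ : Subgroup G) (h₁ : E₁ ≤ H) (h₂ : E₂ ≤ H) (hs₁ : (E₁.subgroupOf H).IsSubnormal) (hs₂ : (E₂.subgroupOf H).IsSubnormal) (hc : ⁅⁅V, E₁⁆, E₂⁆ = ⊥) : ⁅E₁, E₂⁆ ≤ (Cfsg.pCore p H).map H.subtype := by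
  have hE₂ : E₂ ≤ Subgroup.centralizer ((⁅V, E₁⁆ : Subgroup G) : Set G) :=
    Subgroup.le_centralizer_iff.mp (Subgroup.commutator_eq_bot_iff_le_centralizer.mp hc)
  have hN₁ : E₁ ≤ Subgroup.normalizer ((⁅V, E₁⁆ : Subgroup G) : Set G) :=
    Subgroup.normalizer_commutator_ge_right V E₁
  have hN₂ := CfsgLib.PLocal.le_normalizer_of_le_centralizer hE₂
  have hD₁ : ⁅E₁, E₂⁆ ≤ Subgroup.centralizer ((⁅V, E₁⁆ : Subgroup G) : Set G) := by
    have := hN₁.trans (CfsgLib.Core.normalizer_le_normalizer_centralizer _)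
    exact (Subgroup.commutator_mono le_rfl hE₂).trans
      (Subgroup.le_normalizer_iff_commutator_le_right.mp this)
  have hD₂ : ⁅⁅E₁, E₂⁆, V⁆ ≤ ⁅V, E₁⁆ := by
    refine CfsgLib.Core.three_subgroups_of_le_normalizer hN₁ hN₂
      (Subgroup.normalizer_commutator_ge_left V E₁) ?_ (by rw [hc]; exact bot_le)
    rw [Subgroup.commutator_comm E₂ V]
    exact Subgroup.commutator_mono
      (CfsgLib.PLocal.commutator_le_of_le_of_normalizes (h₂.trans hHV) le_rfl) le_rfl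
  have hq : ⁅⁅V, ⁅E₁, E₂⁆⁆, ⁅E₁, E₂⁆⁆ = ⊥ := by
    rw [Subgroup.commutator_eq_bot_iff_le_centralizer, Subgroup.commutator_comm V]
    exact hD₂.trans (Subgroup.le_centralizer_iff.mp hD₁)
  have hDH : ⁅E₁, E₂⁆ ≤ H := CfsgLib.Core.commutator_le_of_le h₁ h₂
  have hP : IsPGroup p ↥(⁅E₁, E₂⁆) := by
    intro d
    have h3 := CfsgLib.PLocal.pow_mem_centralizer_of_quadratic hV (hHV (hDH d.2))
      (CfsgLib.PLocal.quadratic_mono hq (Subgroup.zpowers_le_of_mem d.2))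
    have h4 : (d : G) ^ p ∈ H ⊓ Subgroup.centralizer (V : Set G) := ⟨H.pow_mem (hDH d.2) p, h3⟩
    rw [hf, Subgroup.mem_bot] at h4
    exact ⟨1, Subtype.ext (by simpa using h4)⟩
  have hsub : ((⁅E₁, E₂⁆).subgroupOf H).IsSubnormal := by
    rw [← CfsgLib.Core.commutator_subgroupOf h₁ h₂]
    exact Subgroup.IsSubnormal.trans (Subgroup.commutator_le_sup _ _)
      (Subgroup.Normal.isSubnormal inferInstance) (CfsgLib.SolvStruct.isSubnormal_sup hs₁ hs₂)
  rw [← Subgroup.map_subgroupOf_eq_of_le hDH]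
  exact Subgroup.map_mono (CfsgLib.Core.le_pCore_of_isSubnormal hsub hP.comap_subtype)

end Cfsg.Agent.S0597
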