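import Cfsg.Statements.S0601
import Cfsg.Agent.Lib.PLocal.Factorization

set_option autoImplicit false
open Cfsg

namespace Cfsg.Agent.S0601

/-- When O_p(G) contains its centralizer, the normal closure of Ω₁(Z(S)) is elementary abelian and G has no nontrivial normal p-subgroup modulo its centralizer. -/
theorem result {G : Type*} [Group G] [Finite G] {p : ℕ} [Fact p.Prime] (hc : Subgroup.centralizer (Cfsg.pCore p G : Set G) ≤ Cfsg.pCore p G) : (⨆ S : Sylow p G, Cfsg.omegaOne p (((S : Subgroup G)) ⊓ Subgroup.centralizer ((S : Subgroup G) : Set G))).Normal ∧ Cfsg.IsElementaryAbelian p (⨆ S : Sylow p G, Cfsg.omegaOne p (((S : Subgroup G)) ⊓ Subgroup.centralizer ((S : Subgroup G) : Set G))) ∧ ∀ D : Subgroup G, D.Normal → Subgroup.centralizer ((⨆ S : Sylow p G, Cfsg.omegaOne p (((S : Subgroup G)) ⊓ Subgroup.centralizer ((S : Subgroup G) : Set G)) : Subgroup G) : Set G) ≤ D → (∃ k : ℕ, (Subgroup.centralizer ((⨆ S : Sylow p G, Cfsg.omegaOne p (((S : Subgroup G)) ⊓ Subgroup.centralizer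 ((S : Subgroup G) : Set G)) : Subgroup G) : Set G)).relIndex D = p ^ k) → D = Subgroup.centralizer ((⨆ S : Sylow p G, Cfsg.omegaOne p (((S : Subgroup G)) ⊓ Subgroup.centralizer ((S : Subgroup G) : Set G)) : Subgroup G) : Set G) := by
  rw [← CfsgLib.PLocal.omegaClosure_def]
  have hn := CfsgLib.PLocal.omegaClosure_normal (p := p) (G := G)
  refine ⟨hn, CfsgLib.PLocal.elemAb_omegaClosure hc, ?_⟩
  rintro D hD hCD ⟨k, hk⟩
  refine le_antisymm (fun d hd => ?_) hCD
  refine CfsgLib.PLocal.mem_centralizer_of_mem_pCore CfsgLib.PLocal.omegaClosure_le_iSup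
    (QuotientGroup.mk'_surjective _) (QuotientGroup.ker_mk' _).le ?_
  have hDn := hD.map _ (QuotientGroup.mk'_surjective
    (Subgroup.centralizer (CfsgLib.PLocal.omegaClosure p G : Set G)))
  refine CfsgLib.Core.le_pCore (hN := hDn) (IsPGroup.of_card (n := k) ?_)
    (Subgroup.mem_map_of_mem _ hd)
  rw [← Subgroup.relIndex_ker, QuotientGroup.ker_mk', hk]

end Cfsg.Agent.S0601
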