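import Cfsg.Statements.S0619
import Cfsg.Agent.Lib.PLocal.FFApply
import Cfsg.Agent.Lib.ZJ.Thompson
import Cfsg.Agent.S0610

set_option autoImplicit false
open Cfsg

namespace Cfsg.Agent.S0619

open Subgroup CfsgLib CfsgLib.PLocal CfsgLib.PLocal.FF CfsgLib.PLocal.Holo in
theorem aux {G : Type*} [Group G] [Finite G] {p : ℕ} [Fact p.Prime] (hsep : IsPSolvable p G)
    (V : Subgroup G) [V.Normal] (hV : IsElementaryAbelian p V)
    (hO : pCore p (G ⧸ centralizer (V : Set G)) = ⊥) {A : Subgroup G}
    (hA : A ∈ maxElemIn p (⊤ : Subgroup G)) :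
    (centralizer (V : Set G) ⊓ A) ⊔ V ∈ maxElemIn p (centralizer (V : Set G)) := by
  have h1 : IsElementaryAbelian p ((centralizer (V : Set G) ⊓ A) ⊔ V) :=
    elemAb_sup (elemAb_mono hA.2.1 inf_le_right) hV inf_le_left
  refine ⟨sup_le inf_le_left (elemAb_le_centralizer hV), h1,
    fun B _ hB => (hA.2.2 B le_top hB).trans ?_⟩
  by_cases hAC : A ≤ centralizer (V : Set G)
  · exact card_le_card_of_le (le_sup_of_le_left (le_inf hAC le_rfl))
  have hAJ : A ≤ thompsonSubgroup p G := le_thompsonSubgroup (maxElemIn_top (p := p) (G := G) ▸ hA)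
  have h := ffHyp_thompson_top hV hsep hO fun h => hAC (hAJ.trans h)
  have h2 := Cfsg.Agent.S0610.result _ _ h.1 h.2 h.3 h.4 h.5 h.6 (A.map (rho V)) (map_mono hAJ)
    (bestOffender_map (bestOffender_of_mem_maxElemIn hV le_top hA))
    fun h => hAC (map_rho_eq_bot_iff.mp h)
  rw [card_im_inf_centralizer, card_im le_rfl] at h2
  have h3 := card_sup_mul_card_inf (A := centralizer (V : Set G) ⊓ A) (B := V)
    le_normalizer_of_normal
  have h4 : centralizer (V : Set G) ⊓ A ⊓ V = V ⊓ centralizer (A : Set G) := by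
    apply le_antisymm
    · exact le_inf inf_le_right
        ((inf_le_left.trans inf_le_right).trans (elemAb_le_centralizer hA.2.1))
    · exact le_inf (le_inf (inf_le_left.trans (elemAb_le_centralizer hV))
        (le_of_mem_maxElemIn_of_centralizes hA le_top (elemAb_mono hV inf_le_left) inf_le_right))
        inf_le_left
  rw [h4, ← h2, mul_left_comm, ← mul_assoc, card_map_rho_mul] at h3
  exact (Nat.eq_of_mul_eq_mul_right Nat.card_pos h3).ge

/-- For a p-separable group and a normal elementary abelian p-subgroup V with no nontrivial normal p-subgroup modulo its centralizer C, the Thompson subgroup J(G) moves Ω₁(Z(J(C))) only inside V. -/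
theorem result {G : Type*} [Group G] [Finite G] {p : ℕ} [Fact p.Prime] (hsep : Cfsg.IsPSolvable p G) (V : Subgroup G) [V.Normal] (hV : Cfsg.IsElementaryAbelian p V) (hO : Cfsg.pCore p (G ⧸ Subgroup.centralizer (V : Set G)) = ⊥) : ⁅Cfsg.omegaOne p (Cfsg.centerThompsonOf p (Subgroup.centralizer (V : Set G))), Cfsg.thompsonSubgroup p G⁆ ≤ V := by
  open Subgroup CfsgLib CfsgLib.PLocal in
  rw [commutator_comm, thompsonSubgroup]
  open Subgroup CfsgLib CfsgLib.PLocal in
  refine Core.commutator_sSup_left_le (fun _ _ => le_normalizer_of_normal) fun A hA => ?_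
  open Subgroup CfsgLib CfsgLib.PLocal in
  · have hA' : A ∈ maxElemIn p (⊤ : Subgroup G) := by rwa [maxElemIn_top]
    refine (commutator_mono le_rfl (ZJ.zj_le_of_mem (aux hsep V hV hO hA'))).trans ?_
    rw [commutator_comm]
    refine Core.commutator_sup_left_le le_normalizer_of_normal le_normalizer_of_normal ?_
      (commutator_le_left _ _)
    rw [commutator_eq_bot_iff_le_centralizer.mpr (inf_le_right.trans (elemAb_le_centralizer hA.1))]
    exact bot_le

end Cfsg.Agent.S0619
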