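import Cfsg.Statements.S0621
import Cfsg.Agent.Lib.PLocal.FFApply

set_option autoImplicit false
open Cfsg

namespace Cfsg.Agent.S0621

/-- Let K be p-separable with O_p'(K) = 1, normalized by an elementary abelian q-group X for a prime q not dividing the order of K. If the Thompson factorization fails in K, then p is 2 or 3 and the fixed points of X contain a plane W of order p² and a subgroup inducing SL(2, p) on it. -/
theorem result {G : Type*} [Group G] [Finite G] {p : ℕ} [Fact p.Prime] {q : ℕ} [Fact q.Prime] (K X : Subgroup G) (hXK : X ≤ Subgroup.normalizer (K : Set G)) (hX : Cfsg.IsElementaryAbelian q X) (hq : ¬ q ∣ Nat.card K) (hsep : Cfsg.IsPSolvable p ↥K) (hO : Cfsg.pPrimeCore p ↥K = ⊥) (hnf : ¬ Cfsg.IsThompsonFactorizable p ↥K) : (p = 2 ∨ p = 3) ∧ ∃ W D : Subgroup G, W ≤ K ⊓ Subgroup.centralizer (X : Set G) ∧ D ≤ K ⊓ Subgroup.centralizer (X : Set G) ∧ Cfsg.IsElementaryAbelian p W ∧ Nat.card W = p ^ 2 ∧ D ≤ Subgroup.normalizer (W : Set G) ∧ ∃ hn : ((Subgroup.centralizer (W : Set G)).subgroupOf D).Normal, Nonempty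 ((↥D ⧸ (Subgroup.centralizer (W : Set G)).subgroupOf D) ≃* Matrix.SpecialLinearGroup (Fin 2) (ZMod p)) := by
  open Subgroup CfsgLib CfsgLib.PLocal CfsgLib.PLocal.FF in
  · set N := normalizer (K : Set G) with hN
    have : (inclusion (le_normalizer : K ≤ N)).range.Normal := by
      rw [inclusion_range]
      exact normal_in_normalizer
    obtain ⟨h1, W, D, hW, hD, h2, h3, h4, ψ, h5, h6⟩ := exists_plane_of_operator
      (X := X.subgroupOf N) (inclusion_injective (le_normalizer : K ≤ N))
      (elemAb_isPGroup hX).comap_subtype hq hsep hO fun h => hnf (isThompsonFactorizable_of_le h)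
    have key : ((inclusion (le_normalizer : K ≤ N)).range ⊓
        centralizer (X.subgroupOf N : Set N)).map N.subtype ≤ K ⊓ centralizer (X : Set G) := by
      rintro _ ⟨_, ⟨⟨k, rfl⟩, hk⟩, rfl⟩
      exact ⟨k.2, fun x hx => congrArg Subtype.val (hk ⟨x, hXK hx⟩ hx)⟩
    have h7 : D.map N.subtype ≤ normalizer (W.map N.subtype : Set G) :=
      (map_mono h4).trans (le_normalizer_map _)
    have h8 := normal_subgroupOf_of_le_normalizer
      (h7.trans (Core.normalizer_le_normalizer_centralizer _))
    refine ⟨h1, W.map N.subtype, D.map N.subtype, (map_mono hW).trans key, (map_mono hD).trans key,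
      elemAb_map h2 _, by rw [card_map_subtype, h3], h7, h8, ⟨?_⟩⟩
    let e := D.equivMapOfInjective N.subtype N.subtype_injective
    refine (QuotientGroup.quotientMulEquivOfEq ?_).trans
      (QuotientGroup.quotientKerEquivOfSurjective (ψ.comp e.symm.toMonoidHom)
        (h5.comp e.symm.surjective))
    ext x
    obtain ⟨x, rfl⟩ := e.surjective x
    rw [mem_subgroupOf, MonoidHom.mem_ker, MonoidHom.comp_apply, MulEquiv.coe_toMonoidHom,
      e.symm_apply_apply, h6, ← mem_centralizer_map_iff N.subtype_injective]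
    rfl

end Cfsg.Agent.S0621
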