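import Cfsg.Statements.S0628
import Cfsg.Agent.Lib.PLocal.StableClosure
import Cfsg.Agent.Lib.Transfer.NormalComplement
import Cfsg.Agent.Lib.Coprime.Sylow
import Cfsg.Agent.S2005

set_option autoImplicit false
open Cfsg

namespace Cfsg.Agent.S0628

open Subgroup CfsgLib CfsgLib.PLocal in
theorem sylow_two_comm_aux {X : Type*} [Group X] [Finite X] {p : ℕ} [hp : Fact p.Prime] (hp2 : p ≠ 2)
    (h : HasNormalPComplement p X) (T : Sylow p X)
    (hT : ∀ H : Subgroup X, (T : Subgroup X) ≤ H → H = T ∨ H = ⊤) (R : Sylow 2 X) :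
    IsMulCommutative R := by
  have hc := Transfer.isComplement'_pResidual h T
  have hKn : (pResidual p X).Normal := Transfer.pResidual_normal p X
  set K := pResidual p X with hK
  have hKc : (Nat.card K).Coprime p := Transfer.hasNormalPComplement_iff_coprime.mp h
  obtain ⟨k, hk⟩ := T.isPGroup'.exists_card_eq
  obtain ⟨Q, hQK, hQ, hi, hTQ⟩ := Coprime.exists_invariant_sylow' 2 (K := K) (A := (T : Subgroup X))
    le_normalizer_of_normal (by rw [hk]; exact (hKc.pow_right k).symm)
    (Or.inl (have := T.isPGroup'.isNilpotent; inferInstance))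
  have hQ' : ⁅Q, Q⁆ ≤ Q := ZJ.commutator_self_le Q
  have hTK : ∀ x ∈ (T : Subgroup X), x ∈ K → x = 1 := fun x h1 h2 =>
    disjoint_def.mp hc.disjoint h2 h1
  have hQc : IsMulCommutative Q := by
    rw [← commutator_self_eq_bot_iff]
    rcases hT ((T : Subgroup X) ⊔ ⁅Q, Q⁆) le_sup_left with h1 | h1
    · exact eq_bot_iff.mpr fun x hx => hTK x (h1 ▸ mem_sup_right hx) (hQK (hQ' hx))
    · have hn : (T : Subgroup X) ≤ normalizer ((⁅Q, Q⁆ : Subgroup X) : Set X) := by
        intro t ht
        have := mem_normalizer_iff_map_conj_eq.mp (hTQ ht)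
        rw [mem_normalizer_iff_map_conj_eq, map_commutator, this]
      have h2 : Q ≤ ⁅Q, Q⁆ := by
        intro q hq
        obtain ⟨t, ht, y, hy, rfl⟩ := (mem_sup_of_le_normalizer hn).mp (h1 ▸ mem_top q)
        have : t = 1 := hTK t ht (hQK (by simpa using Q.mul_mem hq (Q.inv_mem (hQ' hy))))
        rwa [this, one_mul]
      by_contra hne
      have hQb : Q ≠ ⊥ := by rintro rfl; simp at hne
      have := hQ.isNilpotent
      have h3 := Group.IsSolvable.commutator_lt_of_ne_bot (G := Q) (H := ⊤) (by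
        have : Nontrivial Q := (nontrivial_iff_ne_bot Q).mpr hQb
        exact top_ne_bot)
      refine h3.not_ge fun x _ => ?_
      have h4 : (x : X) ∈ (⁅(⊤ : Subgroup Q), (⊤ : Subgroup Q)⁆).map Q.subtype := by
        rw [map_commutator, ← MonoidHom.range_eq_map, range_subtype]
        exact h2 x.2
      obtain ⟨y, hy, hxy⟩ := h4
      rwa [← Subtype.ext hxy]
  have hQi : ¬ 2 ∣ Q.index := by
    rw [← relIndex_mul_index hQK, hc.symm.index_eq_card, hk]
    intro hd
    rcases (Nat.Prime.dvd_mul Nat.prime_two).mp hd with h1 | h1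
    · exact hi h1
    · exact hp2 ((Nat.prime_dvd_prime_iff_eq Nat.prime_two hp.out).mp
        (Nat.prime_two.dvd_of_dvd_pow h1)).symm
  have e := Sylow.equiv (hQ.toSylow hQi) R
  exact ⟨⟨fun a b => e.symm.injective (by
    rw [map_mul, map_mul]; exact hQc.is_comm.comm _ _)⟩⟩

open Subgroup CfsgLib CfsgLib.PLocal in
theorem sylow_two_comm {X : Type*} [Group X] [Finite X] {p : ℕ} [hp : Fact p.Prime] (hp2 : p ≠ 2)
    (h : HasNormalPComplement p (X ⧸ pCore p X)) (T : Sylow p X) (hT : IsCoatom (T : Subgroup X))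
    (R : Sylow 2 X) : IsMulCommutative R := by
  have hf := QuotientGroup.mk'_surjective (pCore p X)
  obtain ⟨R', hR'⟩ := (R.isPGroup'.map (QuotientGroup.mk' (pCore p X))).exists_le_sylow
  have hc := sylow_two_comm_aux hp2 h (T.mapSurjective hf) (fun H hH => by
    rw [Sylow.coe_mapSurjective] at hH ⊢
    rw [← map_comap_eq_self_of_surjective hf H]
    rcases (map_le_iff_le_comap.mp hH).eq_or_lt with h1 | h1
    · exact Or.inl (by rw [← h1])
    · exact Or.inr (by rw [hT.2 _ h1, map_top_of_surjective _ hf])) R'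
  have hd : Disjoint (R : Subgroup X) (pCore p X) :=
    IsPGroup.disjoint_of_ne 2 p hp2.symm _ _ R.isPGroup' (Core.isPGroup_pCore p X)
  rw [← commutator_self_eq_bot_iff, eq_bot_iff, ← hd.eq_bot]
  refine le_inf (ZJ.commutator_self_le _) ?_
  rw [← QuotientGroup.ker_mk' (pCore p X), ← Subgroup.map_eq_bot_iff, map_commutator, eq_bot_iff,
    ← commutator_self_eq_bot_iff.mpr hc]
  exact commutator_mono hR' hR'

/-- The normal p-complement Theorem of Thompson in the form with W(S): for odd p, G has a normal p-complement as soon as the normalizer of the characteristic subgroup W(S) of a Sylow p-subgroup S has one. -/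
theorem result {G : Type*} [Group G] [Finite G] {p : ℕ} [Fact p.Prime] (hp : p ≠ 2) (S : Sylow p G) (hN : Cfsg.HasNormalPComplement p ↥(Subgroup.normalizer (((Cfsg.stableNormalClosure p ↥(S : Subgroup G)).map (S : Subgroup G).subtype) : Set G))) : Cfsg.HasNormalPComplement p G := by
  open CfsgLib.PLocal.StableW in
  exact Cfsg.Agent.S2005.result (fun Q _ => stableNormalClosure p Q)
    ⟨fun _ _ _ hQ _ => ne_bot hQ, fun _ _ _ _ _ _ φ => map_equiv φ⟩ S hN
    fun K R _ hc h T hT =>
      wOf_normal (isActionPStable_of_sylow_two_comm hp (sylow_two_comm hp h T hT)) hc T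

end Cfsg.Agent.S0628
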