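import Cfsg.Statements.S0630
import Cfsg.Agent.Lib.PLocal.Constrained

set_option autoImplicit false
open Cfsg

namespace Cfsg.Agent.S0630

/-- p-constraint passes to and from the quotient by the largest normal subgroup of order prime to p. -/
theorem result {G : Type*} [Group G] [Finite G] {p : ℕ} [Fact p.Prime] : Cfsg.IsPConstrained p G ↔ Cfsg.IsPConstrained p (G ⧸ Cfsg.pPrimeCore p G) := by
  exact CfsgLib.PLocal.Constr.isPConstrained_iff_of_coprime_ker (QuotientGroup.mk'_surjective _)
    CfsgLib.PLocal.Constr.coprime_ker_mk'

end Cfsg.Agent.S0630
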