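import Cfsg.Statements.S0632
import Cfsg.Agent.Lib.PLocal.Constrained

set_option autoImplicit false
open Cfsg

namespace Cfsg.Agent.S0632

open CfsgLib.PLocal CfsgLib.PLocal.PSolv CfsgLib.PLocal.Constr

/-- Transport of the conclusion of `p`-stability along a surjection with `p'`-kernel. -/
theorem conclusion_iff {G Q : Type*} [Group G] [Finite G] [Group Q] {p : ℕ} [Fact p.Prime]
    {f : G →* Q} (hf : Function.Surjective f) (hk : (Nat.card f.ker).Coprime p)
    {A P : Subgroup G} (hP : IsPGroup p P) (hAP : A ≤ Subgroup.normalizer (P : Set G)) :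
    (A.subgroupOf (Subgroup.normalizer (P : Set G))).map
          (QuotientGroup.mk' ((Subgroup.centralizer (P : Set G)).subgroupOf
            (Subgroup.normalizer (P : Set G)))) ≤ pCore p _ ↔
    ((A.map f).subgroupOf (Subgroup.normalizer (P.map f : Set Q))).map
          (QuotientGroup.mk' ((Subgroup.centralizer (P.map f : Set Q)).subgroupOf
            (Subgroup.normalizer (P.map f : Set Q)))) ≤ pCore p _ := by
  let φ : Subgroup.normalizer (P : Set G) →* Subgroup.normalizer (P.map f : Set Q) :=
    (f.comp (Subgroup.normalizer (P : Set G)).subtype).codRestrict _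
      (fun x => Subgroup.le_normalizer_map f (Subgroup.mem_map_of_mem f x.2))
  have hφ : Function.Surjective φ := by
    rintro ⟨y, hy⟩
    obtain ⟨g, rfl⟩ := hf y
    obtain ⟨n, hn, hng⟩ := exists_mem_normalizer_of_coprime_ker hk hP hy
    exact ⟨⟨n, hn⟩, Subtype.ext hng⟩
  obtain ⟨e, he⟩ := exists_quotient_equiv hφ ((Subgroup.centralizer (P.map f : Set Q)).subgroupOf
    (Subgroup.normalizer (P.map f : Set Q))) ((Subgroup.centralizer (P : Set G)).subgroupOf
    (Subgroup.normalizer (P : Set G))) (by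
      ext x
      constructor
      · intro hx
        exact (map_centralizer_of_coprime_ker hf hk hP).le (Subgroup.mem_map_of_mem f hx)
      · intro hx
        exact mem_centralizer_of_coprime_ker hk hP x.2 hx)
  constructor
  · rintro h _ ⟨⟨_, hy⟩, ⟨a, ha, rfl⟩, rfl⟩
    have h1 := h (Subgroup.mem_map_of_mem _ (x := ⟨a, hAP ha⟩) ha)
    have h2 := (mem_pCore_equiv e _).2 h1
    rw [QuotientGroup.mk'_apply, he] at h2
    exact h2
  · rintro h _ ⟨x, hx, rfl⟩
    rw [← mem_pCore_equiv e, QuotientGroup.mk'_apply, he]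
    exact h (Subgroup.mem_map_of_mem _ (x := φ x) (Subgroup.mem_map_of_mem f hx))

/-- For a group with a nontrivial normal p-subgroup, p-stability passes to and from the quotient by the largest normal subgroup of order prime to p. -/
theorem result {G : Type*} [Group G] [Finite G] {p : ℕ} [Fact p.Prime] (hO : Cfsg.pCore p G ≠ ⊥) : Cfsg.IsPStable p G ↔ Cfsg.IsPStable p (G ⧸ Cfsg.pPrimeCore p G) := by
  set N := pPrimeCore p G with hN
  have hs := QuotientGroup.mk'_surjective N
  have hk : (Nat.card (QuotientGroup.mk' N).ker).Coprime p := coprime_ker_mk'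
  have hker : (QuotientGroup.mk' N).ker = N := QuotientGroup.ker_mk' N
  have h0 : pPrimeCore p (G ⧸ N) = ⊥ := pPrimeCore_quotient
  constructor
  · rintro ⟨hodd, -, h⟩
    refine ⟨hodd, fun h1 => hO ?_, fun A P hA hP hAP hPO hPn hq => ?_⟩
    · have h2 := map_pCore_le (p := p) hs
      rw [h1, le_bot_iff, Subgroup.map_eq_bot_iff] at h2
      exact (disjoint_of_isPGroup_of_coprime isPGroup_pCore hk).eq_bot_of_le h2
    · have hAP' : A ≤ Subgroup.normalizer (P : Set (G ⧸ N)) := Subgroup.le_normalizer_iff.2 hAP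
      obtain ⟨T, hT, hTm⟩ := exists_isPGroup_map_eq hs (hA.to_sup_of_normal_right' hP hAP')
      have hmap : ∀ X : Subgroup (G ⧸ N), X ≤ A ⊔ P →
          (T ⊓ X.comap (QuotientGroup.mk' N)).map (QuotientGroup.mk' N) = X := by
        intro X hX
        apply le_antisymm
        · rintro _ ⟨x, hx, rfl⟩; exact hx.2
        · intro y hy
          obtain ⟨t, ht, rfl⟩ := (hTm.ge (hX hy))
          exact ⟨t, ⟨ht, hy⟩, rfl⟩
      set A₀ := T ⊓ A.comap (QuotientGroup.mk' N) with hA₀
      set P₀ := T ⊓ P.comap (QuotientGroup.mk' N) with hP₀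
      have hA₀m : A₀.map (QuotientGroup.mk' N) = A := hmap A le_sup_left
      have hP₀m : P₀.map (QuotientGroup.mk' N) = P := hmap P le_sup_right
      have hAP₀ : ∀ a ∈ A₀, ∀ x ∈ P₀, a * x * a⁻¹ ∈ P₀ := by
        intro a ha x hx
        refine ⟨T.mul_mem (T.mul_mem ha.1 hx.1) (T.inv_mem ha.1), ?_⟩
        have := hAP _ ha.2 _ hx.2
        simpa using this
      have h3 := h A₀ P₀ hT.to_inf_left hT.to_inf_left hAP₀ (by
          rw [← comap_pPrimePCore_of_coprime_ker hs hk]
          exact inf_le_right.trans (Subgroup.comap_mono hPO)) (by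
          rw [h0, bot_sup_eq] at hPn
          have h4 : N ⊔ P₀ = P.comap (QuotientGroup.mk' N) := by
            rw [← hP₀m, Subgroup.comap_map_eq, hker, sup_comm]
          change (N ⊔ P₀).Normal
          rw [h4]
          infer_instance) (by
          have h5 : ⁅⁅P₀, A₀⁆, A₀⁆ ≤ T :=
            (Subgroup.commutator_le_sup _ _).trans (sup_le ((Subgroup.commutator_le_sup _ _).trans
              (sup_le inf_le_left inf_le_left)) inf_le_left)
          have h6 : ⁅⁅P₀, A₀⁆, A₀⁆ ≤ (QuotientGroup.mk' N).ker := by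
            rw [← Subgroup.map_eq_bot_iff, Subgroup.map_commutator, Subgroup.map_commutator,
              hA₀m, hP₀m, hq]
          exact le_bot_iff.1 ((le_inf h5 h6).trans (disjoint_of_isPGroup_of_coprime hT hk).le_bot))
      have h7 := (conclusion_iff hs hk hT.to_inf_left (Subgroup.le_normalizer_iff.2 hAP₀)).1 h3
      rw [hA₀m, hP₀m] at h7
      exact h7
  · rintro ⟨hodd, -, h⟩
    refine ⟨hodd, hO, fun A P hA hP hAP hPO hPn hq => ?_⟩
    refine (conclusion_iff hs hk hP (Subgroup.le_normalizer_iff.2 hAP)).2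
      (h _ _ (hA.map _) (hP.map _) ?_ ?_ ?_ ?_)
    · rintro _ ⟨a, ha, rfl⟩ _ ⟨x, hx, rfl⟩
      exact ⟨_, hAP a ha x hx, by simp⟩
    · rw [← map_pPrimePCore_of_coprime_ker hs hk]
      exact Subgroup.map_mono hPO
    · have := Subgroup.Normal.map hPn _ hs
      rw [Subgroup.map_sup, QuotientGroup.map_mk'_self] at this
      rwa [h0]
    · rw [← Subgroup.map_commutator, ← Subgroup.map_commutator, hq, Subgroup.map_bot]

end Cfsg.Agent.S0632
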