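import Cfsg.Statements.S0633
import Mathlib
import Cfsg.Agent.Lib.PLen.HHB

set_option autoImplicit false
open Cfsg

namespace Cfsg.Agent.S0633

open CfsgLib.HH CfsgLib.PLen in

/-- Theorem B of Hall and Higman on the minimal polynomial of a p-element of order p^n in a p-solvable linear group on a nonzero vector space in characteristic p with no nontrivial normal p-subgroup: its degree is p^n, except when some p^n₀ - 1 (n₀ ≤ n) is a power of a prime q for which the Sylow q-subgroups are non-abelian, in which case the degree is at least p^(n-n₀)(p^n₀ - 1). -/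
theorem result {F : Type*} [Field F] {p : ℕ} [Fact p.Prime] [CharP F p] {V : Type*} [AddCommGroup V] [Module F V] [FiniteDimensional F V] [Nontrivial V] (H : Subgroup (V ≃ₗ[F] V)) [Finite H] (hsol : Cfsg.IsPSolvable p H) (hOp : Cfsg.pCore p H = ⊥) (x : V ≃ₗ[F] V) (hx : x ∈ H) (n : ℕ) (hn : orderOf x = p ^ n) (r : ℕ) (hr : minpoly F (x : Module.End F V) = (Polynomial.X - 1) ^ r) : r = p ^ n ∨ ∃ n₀ q m : ℕ, 1 ≤ n₀ ∧ n₀ ≤ n ∧ q.Prime ∧ 1 ≤ m ∧ p ^ n₀ - 1 = q ^ m ∧ (∀ Q : Sylow q H, ¬ IsMulCommutative Q) ∧ p ^ (n - n₀) * (p ^ n₀ - 1) ≤ r := by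
  have hz : ((x : Module.End F V) - 1) ^ r = 0 := by
    have := minpoly.aeval F (x : Module.End F V)
    rw [hr] at this
    simpa using this
  have hxn : x ^ p ^ n = 1 := by rw [← hn]; exact pow_orderOf_eq_one x
  have hle : r ≤ p ^ n := by
    have h1 : minpoly F (x : Module.End F V) ∣ (Polynomial.X - 1) ^ p ^ n := by
      apply minpoly.dvd
      rw [sub_pow_char_pow, one_pow, map_sub, map_pow, Polynomial.aeval_X, map_one, sub_eq_zero]
      exact (map_pow LinearEquiv.automorphismGroup.toLinearMapMonoidHom x _).symm.trans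
        (by rw [hxn, map_one])
    rw [hr] at h1
    have h2 : (Polynomial.X - 1 : Polynomial F).Monic := by
      simpa using Polynomial.monic_X_sub_C (1 : F)
    have h3 := Polynomial.natDegree_le_of_dvd h1 (h2.pow _).ne_zero
    have h4 : (Polynomial.X - 1 : Polynomial F).natDegree = 1 := by
      simpa using Polynomial.natDegree_X_sub_C (x := (1 : F))
    simpa [h2.natDegree_pow, h4] using h3
  rcases n with _ | a
  · left
    rcases r with _ | r
    · simp at hz
    · simp at hle ⊢; omega
  let ρ : Representation F H V :=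
    { toFun := fun g => ((g : V ≃ₗ[F] V) : Module.End F V)
      map_one' := rfl
      map_mul' := fun _ _ => rfl }
  have hρ : ∀ y, ρ y = 1 → y = 1 := fun y hy => by
    ext v
    exact LinearMap.congr_fun hy v
  obtain ⟨q, Q, hq, hqp, hQ, -, -, h⟩ := hhb hsol hOp ρ hρ ⟨x, hx⟩ a (Subtype.ext hxn) (by
    intro h
    have h1 : x ^ p ^ a = 1 := congrArg Subtype.val h
    have h2 := orderOf_dvd_of_pow_eq_one h1
    rw [hn, Nat.pow_dvd_pow_iff_le_right (Fact.out : p.Prime).one_lt] at h2
    omega)
  rcases h with h | ⟨c, b, k, h1, h2, h3, h4, ⟨g, hg, g', hg', h5⟩, h6⟩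
  · exact Or.inl (le_antisymm hle (h.le_of_sub_one_pow hz))
  · refine Or.inr ⟨b, q, k, h2, by omega, hq, h3, by omega, ?_, ?_⟩
    · intro S hS
      have := Fact.mk hq
      obtain ⟨T, hT⟩ := hQ.exists_le_sylow
      obtain ⟨y, hy⟩ := MulAction.exists_smul_eq H S T
      apply h5
      rw [← map_mul, ← map_mul]
      congr 1
      have e : ∀ z ∈ Q, y⁻¹ * z * y ∈ (S : Subgroup H) := fun z hz => by
        have h7 := hT hz
        rw [← hy, Sylow.coe_subgroup_smul, CfsgLib.Core.mem_conj_smul_iff] at h7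
        exact h7
      have h8 := CfsgLib.Core.isMulCommutative_iff_forall.1 hS _ (e g hg) _ (e g' hg')
      calc g * g' = y * ((y⁻¹ * g * y) * (y⁻¹ * g' * y)) * y⁻¹ := by group
        _ = y * ((y⁻¹ * g' * y) * (y⁻¹ * g * y)) * y⁻¹ := by rw [h8]
        _ = _ := by group
    · rw [show a + 1 - b = c by omega]
      exact h6.le_of_sub_one_pow hz

end Cfsg.Agent.S0633
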