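import Cfsg.Statements.S0635
import Cfsg.Agent.Lib.PLocal.Constrained

set_option autoImplicit false
open Cfsg

namespace Cfsg.Agent.S0635

/-- The p-length of a p-soluble group is at most the nilpotency class of its Sylow p-subgroups. -/
theorem result {G : Type*} [Group G] [Finite G] {p : ℕ} [Fact p.Prime] (hsol : Cfsg.IsPSolvable p G) (S : Sylow p G) : Cfsg.PLengthLE p (Group.nilpotencyClass ↥(S : Subgroup G)) G := by
  open CfsgLib.PLocal CfsgLib.PLocal.PSolv CfsgLib.PLocal.Constr commutatorElement in
  have key : ∀ k : ℕ, (Subgroup.upperCentralSeries (S : Subgroup G) k).map (S : Subgroup G).subtype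
      ≤ (Cfsg.upperPSeries p G (2 * k)).1 := by
    intro k
    induction k with
    | zero => simp
    | succ k ih =>
      rintro _ ⟨z, hz, rfl⟩
      set N := (Cfsg.upperPSeries p G (2 * k + 1)).1 with hN
      have hs := QuotientGroup.mk'_surjective N
      have h1 : QuotientGroup.mk' N z ∈ Subgroup.centralizer (pCore p (G ⧸ N) : Set (G ⧸ N)) := by
        rw [Subgroup.mem_centralizer_iff]
        intro y hy
        obtain ⟨s, hs', rfl⟩ := pCore_le_sylow (S.mapSurjective hs) hy
        have h2 := Subgroup.mem_upperCentralSeries_succ_iff.1 hz ⟨s, hs'⟩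
        have h3 : ⁅(z : G), s⁆ ∈ N :=
          upperPSeries_le_succ _ (ih ⟨_, h2, rfl⟩)
        have h4 : QuotientGroup.mk' N ⁅(z : G), s⁆ = 1 := (QuotientGroup.eq_one_iff _).2 h3
        rw [map_commutatorElement, commutatorElement_eq_one_iff_mul_comm] at h4
        exact h4.symm
      have h5 := centralizer_pCore_le (quotient hsol N) (pPrimeCore_quotient_upperPSeries_odd k) h1
      have h6 : 2 * (k + 1) = 2 * k + 1 + 1 := by ring
      rw [h6, upperPSeries_succ_of_odd (by simp)]
      exact h5
  have hnil : Group.IsNilpotent (S : Subgroup G) := S.isPGroup'.isNilpotent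
  have h1 := key (Group.nilpotencyClass (S : Subgroup G))
  rw [Subgroup.upperCentralSeries_nilpotencyClass, ← MonoidHom.range_eq_map,
    Subgroup.range_subtype] at h1
  unfold Cfsg.PLengthLE
  rw [CfsgLib.PLocal.Constr.upperPSeries_succ_of_even (even_two_mul _),
    CfsgLib.PLocal.PSolv.pPrimeCore_eq_top_of_coprime, Subgroup.comap_top]
  refine ((Nat.Prime.coprime_iff_not_dvd Fact.out).2 fun h => S.not_dvd_index ?_).symm
  exact h.trans (Subgroup.index_dvd_of_le h1)

end Cfsg.Agent.S0635
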