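import Cfsg.Statements.S0641
-- import your own Cfsg.Agent.* helpers here

set_option autoImplicit false
open Cfsg

namespace Cfsg.Agent.S0641

/-- Regularity of a p-group passes to quotient groups. -/
theorem result {G : Type*} [Group G] {p : ℕ} [Fact p.Prime] (hG : Cfsg.IsRegularPGroup p G) (N : Subgroup G) [N.Normal] : Cfsg.IsRegularPGroup p (G ⧸ N) := by
  refine ⟨hG.1.to_quotient N, ?_⟩
  intro a b n
  obtain ⟨a, rfl⟩ := QuotientGroup.mk'_surjective N a
  obtain ⟨b, rfl⟩ := QuotientGroup.mk'_surjective N b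
  obtain ⟨c, hc, habc⟩ := hG.2 a b n
  refine ⟨QuotientGroup.mk' N c, ?_, ?_⟩
  · have hcl : Subgroup.closure ({QuotientGroup.mk' N a, QuotientGroup.mk' N b} : Set (G ⧸ N))
        = (Subgroup.closure ({a, b} : Set G)).map (QuotientGroup.mk' N) := by
      rw [MonoidHom.map_closure, Set.image_pair]
    rw [hcl, ← Subgroup.map_commutator]
    have : (Cfsg.powerClosure p n ⁅Subgroup.closure ({a, b} : Set G),
        Subgroup.closure ({a, b} : Set G)⁆).map (QuotientGroup.mk' N) ≤
        Cfsg.powerClosure p n ((⁅Subgroup.closure ({a, b} : Set G),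
        Subgroup.closure ({a, b} : Set G)⁆).map (QuotientGroup.mk' N)) := by
      rw [Subgroup.map_le_iff_le_comap]
      refine (Subgroup.closure_le _).2 ?_
      rintro y ⟨x, hx, rfl⟩
      refine Subgroup.subset_closure ⟨QuotientGroup.mk' N x, Subgroup.mem_map_of_mem _ hx, ?_⟩
      simp
    exact this (Subgroup.mem_map_of_mem _ hc)
  · rw [← map_mul, ← map_pow, habc]
    simp

end Cfsg.Agent.S0641
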