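import Mathlib
import Cfsg.Statements.S0642
import Cfsg.Agent.Lib.Tech.SylowIn
import Cfsg.Agent.Lib.Core.Frattini
import Cfsg.Agent.Lib.Core.Commutator

set_option autoImplicit false
open Cfsg

namespace Cfsg.Agent.S0642

/-- Among finite 2-groups the regular ones are exactly the abelian ones. -/
theorem result {G : Type*} [Group G] [Finite G] (hG : IsPGroup 2 G) : Cfsg.IsRegularPGroup 2 G ↔ ∀ a b : G, a * b = b * a := by
  open Subgroup CfsgLib CfsgLib.Tech commutatorElement in
  refine ⟨fun h a b => ?_, fun h => ⟨hG, fun a b n => ⟨1, one_mem _, by rw [mul_one, Commute.mul_pow (h a b)]⟩⟩⟩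
  obtain ⟨c, hc, h1⟩ := h.2 a b 1
  have ha : a ∈ closure ({a, b} : Set G) := subset_closure (by simp)
  have hb : b ∈ closure ({a, b} : Set G) := subset_closure (by simp)
  set H := closure ({a, b} : Set G) with hH
  set F := (frattini (⁅H, H⁆ : Subgroup G)).map (⁅H, H⁆ : Subgroup G).subtype with hF
  have hn : H ≤ normalizer (F : Set G) := ((le_inf le_normalizer le_normalizer).trans
    (Core.normalizer_inf_le_normalizer_commutator H H)).trans (Core.normalizer_le_normalizer_map_frattini _)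
  have hcF : c ∈ F := (closure_le F).2 (by
    rintro _ ⟨x, hx, rfl⟩
    exact Core.pow_mem_map_frattini (p := 2) (hG.to_subgroup _) hx) hc
  have h2 : ⁅b, a⁆ = (a * b * b) * c * (a * b * b)⁻¹ := by
    have h3 : c = (a ^ 2 * b ^ 2)⁻¹ * (a * b) ^ 2 := by rw [eq_inv_mul_iff_mul_eq]; exact h1.symm
    rw [h3, commutatorElement_def, pow_two, pow_two, pow_two]
    group
  have h3 : ⁅b, a⁆ ∈ F := h2 ▸ conj_mem_of_mem_normalizer (hn (H.mul_mem (H.mul_mem ha hb) hb)) hcF
  have h4 : ∀ x ∈ ({a, b} : Set G), ∀ y ∈ H, ⁅y, x⁆ ∈ F := by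
    intro x hx y hy
    induction hy using closure_induction with
    | mem y hy =>
      rcases hx with rfl | rfl <;> rcases hy with rfl | rfl
      exacts [by simp, h3, by rw [← commutatorElement_inv]; exact F.inv_mem h3, by simp]
    | one => simp
    | mul y z hy _ h5 h6 =>
      rw [show ⁅y * z, x⁆ = y * ⁅z, x⁆ * y⁻¹ * ⁅y, x⁆ by group]
      exact F.mul_mem (conj_mem_of_mem_normalizer (hn hy) h6) h5
    | inv y hy h5 =>
      rw [show ⁅y⁻¹, x⁆ = y⁻¹ * ⁅y, x⁆⁻¹ * y by group]
      exact conj_mem_of_mem_normalizer' (hn hy) (F.inv_mem h5)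
  have h5 : ⁅H, H⁆ ≤ F := Core.commutator_closure_left_le (fun y hy => hn (subset_closure hy))
    fun x hx y hy => commutatorElement_inv y x ▸ F.inv_mem (h4 x hx y hy)
  have h6 : ⁅H, H⁆ = ⊥ := by_contra fun h6 => (Core.map_frattini_lt h6).not_ge h5
  exact commutatorElement_eq_one_iff_mul_comm.1 (mem_bot.1 (h6 ▸ commutator_mem_commutator ha hb))

end Cfsg.Agent.S0642
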