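import Mathlib
import Cfsg.Statements.S0656
import Cfsg.Agent.Lib.ZJ.QdInvolve

set_option autoImplicit false
open Cfsg

namespace Cfsg.Agent.S0656

/-- For odd p, a faithful group on an elementary abelian p-group with no nontrivial normal p-subgroup in which some nontrivial p-element acts quadratically has a section isomorphic to SL(2, p). -/
theorem result {G : Type*} [Group G] [Finite G] {p : ℕ} [Fact p.Prime] (hp : p ≠ 2) (V H : Subgroup G) (hV : Cfsg.IsElementaryAbelian p V) (hHV : H ≤ Subgroup.normalizer (V : Set G)) (hf : H ⊓ Subgroup.centralizer (V : Set G) = ⊥) (hO : Cfsg.pCore p ↥H = ⊥) (x : G) (hxH : x ∈ H) (hx1 : x ≠ 1) (hxp : ∃ k : ℕ, orderOf x = p ^ k) (hq : ⁅⁅V, Subgroup.zpowers x⁆, Subgroup.zpowers x⁆ = ⊥) : ∃ (K L : Subgroup G) (hL : (L.subgroupOf K).Normal), K ≤ H ∧ Nonempty ((K ⧸ L.subgroupOf K) ≃* Matrix.SpecialLinearGroup (Fin 2) (ZMod p)) := by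
  by_contra hcon
  have hni : ¬ Cfsg.Involves (Matrix.SpecialLinearGroup (Fin 2) (ZMod p)) H := by
    intro h
    obtain ⟨K, f, hf⟩ := CfsgLib.ZJ.involves_iff.1 h
    obtain ⟨L, hL, -, e⟩ := CfsgLib.PLocal.exists_section_of_surjective (K := K.map H.subtype)
      (f.comp (K.equivMapOfInjective _ H.subtype_injective).symm.toMonoidHom)
      (hf.comp (MulEquiv.surjective _))
    exact hcon ⟨_, L, hL, Subgroup.map_subtype_le K, e⟩
  have := CfsgLib.ZJ.map_mem_pCore_of_not_involves hp (CfsgLib.PLocal.elemAb_isPGroup hV) hHV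
    (fun h => hni h.2) (MonoidHom.id H) Function.surjective_id (fun y hy => Subtype.ext
      (Subgroup.mem_bot.mp (hf ▸ Subgroup.mem_inf.mpr ⟨y.2, hy⟩))) ⟨x, hxH⟩ hq
  rw [hO, Subgroup.mem_bot] at this
  exact hx1 (congrArg Subtype.val this)

end Cfsg.Agent.S0656
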