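import Mathlib
import Cfsg.Statements.S0657
import Cfsg.Agent.Lib.ZJ.QdInvolve

set_option autoImplicit false
open Cfsg

namespace Cfsg.Agent.S0657

/-- For odd p, a group that fails to be p-stable modulo its largest normal subgroup of order prime to p, and whose upper p-series does not stop there, has a section isomorphic to SL(2, p). -/
theorem result {G : Type*} [Group G] [Finite G] {p : ℕ} [Fact p.Prime] (hp : p ≠ 2) (hO : Cfsg.pPrimeCore p G < Cfsg.pPrimePCore p G) (hns : ¬ Cfsg.IsPStable p (G ⧸ Cfsg.pPrimeCore p G)) : ∃ (K L : Subgroup G) (hL : (L.subgroupOf K).Normal), K ≤ ⊤ ∧ Nonempty ((K ⧸ L.subgroupOf K) ≃* Matrix.SpecialLinearGroup (Fin 2) (ZMod p)) := by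
  by_contra hcon
  have hni : ¬ Cfsg.Involves (Matrix.SpecialLinearGroup (Fin 2) (ZMod p)) G :=
    fun ⟨K, L, hL, e⟩ => hcon ⟨K, L, hL, le_top, e⟩
  have hst := CfsgLib.ZJ.isNormalizerPStable_of_not_involves_qd (G := G ⧸ Cfsg.pPrimeCore p G) hp
    fun h => CfsgLib.ZJ.not_involves_qd_of_not_involves_SL2 hni
      (CfsgLib.ZJ.involves_trans h (CfsgLib.ZJ.involves_quotient _))
  refine hns ⟨(Fact.out : p.Prime).odd_of_ne_two hp, fun h => hO.not_ge ?_, ?_⟩
  · rw [← CfsgLib.PLocal.Constr.map_pPrimePCore, Subgroup.map_eq_bot_iff, QuotientGroup.ker_mk'] at h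
    exact h
  · rintro A P - hP - - - hq _ ⟨a, ha, rfl⟩
    exact hst P hP a a.2 (CfsgLib.ZJ.quadratic_mono hq (Subgroup.zpowers_le_of_mem ha))

end Cfsg.Agent.S0657
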