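import Mathlib
import Cfsg.Statements.S0658
import Cfsg.Agent.Lib.ZJ.FunctorApp

set_option autoImplicit false
open Cfsg

namespace Cfsg.Agent.S0658

/-- In a group of characteristic p type all of whose p-locals are p-stable (p odd), the normalizer of Z(J(P)) contains the normalizer of every nontrivial subgroup of the Sylow p-subgroup P. -/
theorem result {G : Type*} [Group G] [Finite G] {p : ℕ} [Fact p.Prime] (hp : p ≠ 2) (hloc : ∀ Q : Subgroup G, IsPGroup p Q → Q ≠ ⊥ → Cfsg.pPrimeCore p ↥(Subgroup.normalizer (Q : Set G)) = ⊥ ∧ Cfsg.IsPConstrained p ↥(Subgroup.normalizer (Q : Set G)) ∧ Cfsg.IsPStable p ↥(Subgroup.normalizer (Q : Set G))) (P : Sylow p G) (Q : Subgroup G) (hQP : Q ≤ (P : Subgroup G)) (hQ1 : Q ≠ ⊥) : Subgroup.normalizer (Q : Set G) ≤ Subgroup.normalizer (Cfsg.centerThompsonAOf ((P : Subgroup G)) : Set G) := by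
  open CfsgLib.ZJ CfsgLib.CFun CfsgLib.Tech Subgroup in
  rw [← zj_zero]
  have hW := isSubFunctor_zj (p := p) (e := 0) (Or.inl rfl)
  have hP := IsSylowIn.of_sylow_top P
  induction hn : Nat.card G - Nat.card ((P : Subgroup G) ⊓ normalizer (Q : Set G) : Subgroup G)
    using Nat.strong_induction_on generalizing Q with
  | _ n ih =>
  have ih' : ∀ Q' ≤ (P : Subgroup G), Q' ≠ ⊥ →
      Nat.card ((P : Subgroup G) ⊓ normalizer (Q : Set G) : Subgroup G) <
        Nat.card ((P : Subgroup G) ⊓ normalizer (Q' : Set G) : Subgroup G) →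
      normalizer (Q' : Set G) ≤ normalizer (zj 0 (P : Subgroup G) : Set G) := fun Q' h1 h2 h3 =>
    ih _ (by
      have := card_le_card_group ((P : Subgroup G) ⊓ normalizer (Q' : Set G) : Subgroup G)
      omega) Q' h1 h2 rfl
  set R := (P : Subgroup G) ⊓ normalizer (Q : Set G) with hR
  have hRp : IsPGroup p R := P.isPGroup'.to_le inf_le_left
  have hR1 : R ≠ ⊥ := fun h => hQ1 (le_bot_iff.1 (h ▸ le_inf hQP le_normalizer))
  have hlt : ∀ {A B : Subgroup G}, A < B → Nat.card A < Nat.card B := fun h =>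
    lt_of_le_of_ne (card_le_of_le h.le) fun h' => h.ne (eq_of_le_of_card_ge h.le h'.ge)
  have hloc' : IsSylowIn p R (normalizer (Q : Set G)) → normalizer (Q : Set G) ≤ normalizer (zj 0 R : Set G) := by
    intro hS
    obtain ⟨h1, h2, h3⟩ := hloc Q (P.isPGroup'.to_le hQP) hQ1
    have h4 := pPrimeCore_sup_normalizer_zj hp (Or.inl rfl) h2 (quadStable_quotient_of_isPStable h3)
      (isSylowIn_subgroupOf_top hS).toSylowTop (isStronglyClosed_self _)
    rw [h1, bot_sup_eq, IsSylowIn.coe_toSylowTop] at h4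
    have h5 := hW.map_normalizer_subgroupOf P.isPGroup' (normalizer (Q : Set G))
    rw [h4, ← MonoidHom.range_eq_map, range_subtype] at h5
    exact h5.le.trans inf_le_right
  rcases (inf_le_left : R ≤ P).eq_or_lt with h | h
  · replace h : R = P := h
    have h' : (P : Subgroup G) ≤ normalizer (Q : Set G) := h.ge.trans inf_le_right
    rw [h] at hloc'
    exact hloc' (hP.of_le h' le_top)
  have h1 := lt_inf_normalizer_of_lt P.isPGroup' h
  by_cases hS : IsSylowIn p R (normalizer (Q : Set G))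
  · exact (hloc' hS).trans (ih' _ ((zj_le _).trans inf_le_left) (hW.ne_bot hRp hR1)
      (hlt (h1.trans_le (inf_le_inf_left _ (hW.norm_le hRp)))))
  obtain ⟨R', hR'p, hRR', hR'Q, hR'R⟩ := exists_lt_pgroup_normalizer hRp inf_le_right hS
  have h2 := ih' R inf_le_left hR1 (hlt h1)
  obtain ⟨m, hm, hmR⟩ := (hP.of_le (le_normalizer.trans (hW.norm_le P.isPGroup')) le_top).exists_cj_le hR'p
    (hR'R.trans h2)
  have h3 := ih' (cj m Q) ((cj_mono m ((le_inf hQP le_normalizer).trans hRR'.le)).trans hmR)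
    (by rwa [Ne, cj_eq_bot_iff]) ((hlt hRR').trans_le (by
      rw [← card_cj m R']
      exact card_le_of_le (le_inf hmR (by rw [← cj_normalizer]; exact cj_mono m hR'Q))))
  rwa [← cj_normalizer, ← cj_eq_of_mem hm, cj_le_cj_iff] at h3

end Cfsg.Agent.S0658
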