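import Cfsg.Statements.S0666
import Cfsg.Agent.Lib.Frob.Kernel
import Cfsg.Agent.Lib.Frob.Nilpotent

set_option autoImplicit false
open Cfsg

namespace Cfsg.Agent.S0666

/-- A Frobenius group acting on a nontrivial abelian group of order prime to that of its kernel, with the kernel acting without nontrivial fixed points, has a complement with a nontrivial fixed point. -/
theorem result {G : Type*} [Group G] [Finite G] (V F : Subgroup G) (hVab : IsMulCommutative V) (hV1 : V ≠ ⊥) (hFV : F ≤ Subgroup.normalizer (V : Set G)) (H : Subgroup ↥F) (hH : Cfsg.IsFrobeniusComplement H) (hcop : (Nat.card V).Coprime (Nat.card (Cfsg.frobeniusKernel H))) (hCK : V ⊓ Subgroup.centralizer (Subtype.val '' Cfsg.frobeniusKernel H : Set G) = ⊥) : V ⊓ Subgroup.centralizer ((H.map F.subtype : Subgroup G) : Set G) ≠ ⊥ := by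
  intro hfix
  obtain ⟨N, hN, hNn, hc, -, hfpf⟩ := CfsgLib.Frob.exists_kernel_fpf hH
  have hK : ((N.map F.subtype : Subgroup G) : Set G) = Subtype.val '' Cfsg.frobeniusKernel H := by
    rw [Subgroup.coe_map, hN]; rfl
  have hle : V ≤ Subgroup.centralizer ((N.map F.subtype : Subgroup G) : Set G) := by
    refine CfsgLib.Frob.le_centralizer_of_frobenius (H := H.map F.subtype) ?_ ?_
      ((Subgroup.map_subtype_le N).trans hFV) ((Subgroup.map_subtype_le H).trans hFV) ?_ hfix
    · rw [Subgroup.le_normalizer_iff]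
      rintro _ ⟨h, -, rfl⟩ _ ⟨k, hk, rfl⟩
      exact ⟨_, hNn.conj_mem k hk h, rfl⟩
    · rintro _ ⟨h, hh, rfl⟩ h1
      rw [CfsgLib.Frob.fpf_iff]
      rintro _ ⟨k, hk, rfl⟩ e
      have := CfsgLib.Frob.eq_one_of_fpf (hfpf h hh (fun e => h1 (by rw [e]; rfl))) hk
        (Subtype.ext e)
      rw [this]; rfl
    · rw [Subgroup.card_map_of_injective F.subtype_injective]
      rw [← hN] at hcop
      exact hcop
  rw [hK] at hle
  exact hV1 ((inf_eq_left.2 hle).symm.trans hCK)

end Cfsg.Agent.S0666
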