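import Cfsg.Statements.S0668
import Cfsg.Agent.Lib.Perm.PermModule

set_option autoImplicit false
open Cfsg

namespace Cfsg.Agent.S0668

/-- The equivariant linear maps between the permutation modules of two finite `G`-sets form a space whose dimension is the number of `G`-orbits on the product of the two sets. -/
theorem result {G : Type*} [Group G] {K : Type*} [Field K] {Ω₁ Ω₂ : Type*} [Fintype Ω₁] [Fintype Ω₂] [MulAction G Ω₁] [MulAction G Ω₂] : Module.finrank K ((Cfsg.permRep K G Ω₁).linHom (Cfsg.permRep K G Ω₂)).invariants = Nat.card (MulAction.orbitRel.Quotient G (Ω₁ × Ω₂)) := by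
  classical
  let Q := MulAction.orbitRel.Quotient G (Ω₁ × Ω₂)
  let mat : (Q → K) →ₗ[K] Matrix Ω₂ Ω₁ K :=
    { toFun := fun c y x => c (Quotient.mk'' (x, y))
      map_add' := fun _ _ => rfl
      map_smul' := fun _ _ => rfl }
  let Φ : (Q → K) →ₗ[K] ((Ω₁ → K) →ₗ[K] (Ω₂ → K)) := Matrix.toLin'.toLinearMap ∘ₗ mat
  have hinj : Function.Injective Φ := by
    refine Matrix.toLin'.injective.comp ?_
    intro c c' h
    funext q
    induction q using Quotient.inductionOn' with
    | h q => exact congrFun (congrFun h q.2) q.1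
  have hrange : LinearMap.range Φ =
      ((Cfsg.permRep K G Ω₁).linHom (Cfsg.permRep K G Ω₂)).invariants := by
    ext f
    rw [Representation.mem_invariants]
    constructor
    · rintro ⟨c, rfl⟩ g
      have hM : ∀ (g : G) s x, mat c (g • s) (g • x) = mat c s x := by
        intro g s x
        exact congrArg c (Quotient.sound' ⟨g, rfl⟩)
      refine LinearMap.ext fun v => ?_
      show Cfsg.permRep K G Ω₂ g ((mat c).mulVec (Cfsg.permRep K G Ω₁ g⁻¹ v)) = (mat c).mulVec v
      rw [← CfsgLib.Perm.mulVec_permRep _ hM, ← Module.End.mul_apply, ← map_mul]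
      simp
    · intro hf
      have key : ∀ (g : G) x y, f (Pi.single (g • x) 1) (g • y) = f (Pi.single x 1) y := by
        intro g x y
        have h1 := congrFun (LinearMap.congr_fun (hf g) (Pi.single (g • x) 1)) (g • y)
        have h2 : Cfsg.permRep K G Ω₁ g⁻¹ (Pi.single (g • x) 1) = Pi.single x 1 := by
          funext z
          simp [CfsgLib.Perm.permRep_apply, Pi.single_apply]
        rw [← h1]
        show f (Cfsg.permRep K G Ω₁ g⁻¹ (Pi.single (g • x) 1)) (g⁻¹ • g • y) = _
        rw [h2, inv_smul_smul]
      refine ⟨Quotient.lift (fun q : Ω₁ × Ω₂ => f (Pi.single q.1 1) q.2) ?_, ?_⟩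
      · rintro q q' ⟨g, rfl⟩
        exact key g q'.1 q'.2
      · apply LinearMap.toMatrix'.injective
        show LinearMap.toMatrix' (Matrix.toLin' _) = _
        rw [LinearMap.toMatrix'_toLin']
        ext y x
        rw [LinearMap.toMatrix'_apply]
        rfl
  have : Fintype Q := Fintype.ofFinite Q
  rw [← hrange, LinearMap.finrank_range_of_inj hinj, Module.finrank_fintype_fun_eq_card,
    Nat.card_eq_fintype_card]

end Cfsg.Agent.S0668
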