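import Cfsg.Statements.S0672
import Cfsg.Agent.Lib.Perm.PermModule2

set_option autoImplicit false
open Cfsg

namespace Cfsg.Agent.S0672

/-- Let a finite group act faithfully and doubly transitively with point stabilisers of even order, and let `K` have characteristic `p` dividing the degree. If the heart of the permutation module admits no non-zero equivariant map to the permutation module on unordered pairs (phrased: every intertwining map from the sum-zero functions vanishing on the constants is zero), the action is triply transitive. -/
theorem result {G : Type*} [Group G] [Finite G] {K : Type*} [Field K] {p : ℕ} [Fact p.Prime] [CharP K p] {Ω : Type*} [Fintype Ω] [DecidableEq Ω] [MulAction G Ω] [FaithfulSMul G Ω] (h2 : MulAction.IsMultiplyPretransitive G Ω 2) (hp : p ∣ Fintype.card Ω) (heven : ∀ a : Ω, Even (Nat.card (MulAction.stabilizer G a))) (h : ∀ f : Representation.IntertwiningMap (Cfsg.permSumZero K G Ω).toRepresentation (Cfsg.permRep K G (Set.powersetCard Ω 2)), (∀ v : (Cfsg.permSumZero K G Ω).toSubmodule, (v : Ω → K) ∈ (Cfsg.permConstants K G Ω).toSubmodule → f v = 0) → f = 0) : MulAction.IsMultiplyPretransitive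 G Ω 3 := by
  refine CfsgLib.Perm.three_transitive_of_hom_pairs (K := K) h2 heven fun M hM hrow v hv => ?_
  let f : Representation.IntertwiningMap (Cfsg.permSumZero K G Ω).toRepresentation
      (Cfsg.permRep K G (Set.powersetCard Ω 2)) :=
    (M.mulVecLin ∘ₗ (Cfsg.permSumZero K G Ω).toSubmodule.subtype).intertwiningMap_of_isIntertwiningMap
      _ _ (fun g w => CfsgLib.Perm.mulVec_permRep M hM g w)
  have hf := h f (by
    intro w hw
    obtain ⟨c, hc⟩ := CfsgLib.Perm.mem_permConstants.mp hw
    show M.mulVec (w : Ω → K) = 0
    funext s
    simp [Matrix.mulVec, dotProduct, hc, ← Finset.sum_mul, hrow])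
  have : f ⟨v, hv⟩ = 0 := by rw [hf]; rfl
  exact this

end Cfsg.Agent.S0672
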