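import Cfsg.Statements.S0674
import Cfsg.Agent.Lib.Perm.PrimeDegree

set_option autoImplicit false
open Cfsg

namespace Cfsg.Agent.S0674

/-- Let `G` be a non-solvable transitive permutation group of prime degree `p` and `K` a field of characteristic `p`. Then the heart of the permutation module is irreducible: an invariant subspace containing the constants and contained in the sum-zero functions is one or the other. -/
theorem result {α : Type*} [Fintype α] [DecidableEq α] {p : ℕ} [Fact p.Prime] (hα : Fintype.card α = p) (G : Subgroup (Equiv.Perm α)) [MulAction.IsPretransitive G α] (hG : ¬ Group.IsSolvable G) {K : Type*} [Field K] [CharP K p] (W : Subrepresentation (Cfsg.permRep K G α)) (h₁ : (Cfsg.permConstants K G α).toSubmodule ≤ W.toSubmodule) (h₂ : W.toSubmodule ≤ (Cfsg.permSumZero K G α).toSubmodule) : W = Cfsg.permConstants K G α ∨ W = Cfsg.permSumZero K G α := by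
  obtain ⟨T, e, -, hT⟩ := CfsgLib.Perm.exists_coord_of_transitive (G := G) (Ω := α) (p := p)
    (by rw [Nat.card_eq_fintype_card, hα])
  rcases CfsgLib.Perm.heart_irreducible_of_not_affine hT
    (fun h => hG (CfsgLib.Perm.isSolvable_of_affine h)) W.toSubmodule
    (fun g v hv => W.apply_mem_toSubmodule g hv) h₁ h₂ with h | h
  · exact Or.inl (Subrepresentation.ext h)
  · exact Or.inr (Subrepresentation.ext h)

end Cfsg.Agent.S0674
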