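import Cfsg.Statements.S0680
import Cfsg.Agent.Lib.Perm.Sharp2

set_option autoImplicit false
open Cfsg

namespace Cfsg.Agent.S0680

/-- A finite sharply doubly transitive permutation group has degree a prime power `p ^ j`; a Sylow `p`-subgroup is normal, elementary abelian and regular, and consists of the identity together with the elements without fixed points. (Frobenius' Theorem is not needed.) -/
theorem result {α : Type*} [Fintype α] [DecidableEq α] (G : Subgroup (Equiv.Perm α)) [MulAction.IsMultiplyPretransitive G α 2] (hsharp : ∀ x : Fin 2 ↪ α, MulAction.stabilizer G x = ⊥) (h2 : 2 ≤ Fintype.card α) : ∃ p j : ℕ, p.Prime ∧ 1 ≤ j ∧ Fintype.card α = p ^ j ∧ ∀ (hp : Fact p.Prime) (P : Sylow p G), (P : Subgroup G).Normal ∧ IsMulCommutative (P : Subgroup G) ∧ (∀ x ∈ (P : Subgroup G), x ^ p = 1) ∧ MulAction.IsPretransitive (P : Subgroup G) α ∧ (∀ a : α, MulAction.stabilizer (P : Subgroup G) a = ⊥) ∧ ∀ g : G, g ∈ (P : Subgroup G) ↔ g = 1 ∨ ∀ a : α, g • a ≠ a := by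
  have h := CfsgLib.Perm.isSharp2_of (G := G) inferInstance hsharp
  have : Nontrivial α := Fintype.one_lt_card_iff_nontrivial.mp h2
  obtain ⟨p, j, hp, hj, hcard, hpk, hP⟩ := h.exists_prime_pow
  refine ⟨p, j, hp, hj, by rw [← hcard, Nat.card_eq_fintype_card], fun hp' P => ?_⟩
  rw [hP hp' P]
  exact ⟨h.kernel_normal, h.kernel_isMulCommutative, hpk, h.kernel_isPretransitive,
    h.kernel_stabilizer, fun g => h.mem_kernel⟩

end Cfsg.Agent.S0680
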