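import Cfsg.Statements.S0683
import Cfsg.Agent.Lib.Perm.NearField

set_option autoImplicit false
open Cfsg

namespace Cfsg.Agent.S0683

/-- A finite sharply doubly transitive permutation group is the affine group of a near-field: the permuted set carries a near-field structure for which the group consists exactly of the maps `x ↦ x * a + b` with `a ≠ 0`. -/
theorem result {α : Type*} [Fintype α] [DecidableEq α] (H : Subgroup (Equiv.Perm α)) [MulAction.IsMultiplyPretransitive H α 2] (hsharp : ∀ x : Fin 2 ↪ α, MulAction.stabilizer H x = ⊥) (h2 : 2 ≤ Fintype.card α) : ∃ _ : Cfsg.NearField α, ∀ σ : Equiv.Perm α, σ ∈ H ↔ ∃ a b : α, a ≠ 0 ∧ ∀ x : α, σ x = x * a + b := by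
  have h := CfsgLib.Perm.isSharp2_of (G := H) inferInstance hsharp
  have : Nontrivial α := Fintype.one_lt_card_iff_nontrivial.mp h2
  obtain ⟨o, e, hoe⟩ := exists_pair_ne α
  obtain ⟨N, -, -, h1, h2, -⟩ := h.exists_nearField hoe
  refine ⟨N, fun σ => ⟨fun hσ => h1 ⟨σ, hσ⟩, ?_⟩⟩
  rintro ⟨a, b, ha, hσ⟩
  obtain ⟨g, hg⟩ := h2 a b ha
  have : σ = g := by
    ext x
    rw [hσ, ← hg]
    rfl
  rw [this]
  exact g.2

end Cfsg.Agent.S0683
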