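import Cfsg.Statements.S0690
import Cfsg.Agent.Lib.FrobCompl.Zassenhaus

set_option autoImplicit false
open Cfsg

namespace Cfsg.Agent.S0690

/-- Zassenhaus: a perfect non-trivial group of fixed-point-free automorphisms of a finite group is isomorphic to `SL(2,5)`. -/
theorem result {K : Type*} [Group K] [Finite K] (G : Subgroup (MulAut K)) (hfpf : ∀ φ ∈ G, φ ≠ 1 → ∀ k : K, φ k = k → k = 1) (hperf : commutator G = ⊤) (hne : G ≠ ⊥) : Nonempty (G ≃* Matrix.SpecialLinearGroup (Fin 2) (ZMod 5)) := by
  have := (Subgroup.nontrivial_iff_ne_bot _).2 hne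
  have : Nontrivial K := by
    by_contra h
    have := not_nontrivial_iff_subsingleton.1 h
    exact hne (Subgroup.eq_bot_iff_forall _ |>.2 fun φ _ => MulEquiv.ext fun _ => Subsingleton.elim _ _)
  exact (CfsgLib.FrobCompl.hasFree_of_action G.subtype fun g hg =>
    hfpf g g.2 fun e => hg (Subtype.ext e)).equiv_SL25_of_perfect hperf

end Cfsg.Agent.S0690
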