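import Cfsg.Statements.S0691
import Cfsg.Agent.Lib.Perm.Sharp2Table

set_option autoImplicit false
open Cfsg

namespace Cfsg.Agent.S0691

def tab0 : ℕ := 0x30c30c11041040c1041042082082100000000

def tab1 : ℕ := 0x20440c00811030020440c0081103004083040

def tabd : ℕ := 0x40420c10831030820c40c21030c20c2043000

def look (T : ℕ) (x y : ZMod 5) : ℕ := (T >>> (6 * (x.val + 5 * y.val))) % 64

def c0 (x y : ZMod 5) : ZMod 5 := (look tab0 x y : ℕ)

def c1 (x y : ZMod 5) : ZMod 5 := (look tab1 x y : ℕ)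

theorem keyA : ∀ x y : ZMod 5, (x ≠ 0 ∨ y ≠ 0) →
    c0 (2 * x + 0 * y) (0 * x + -2 * y) = (2 * c0 x y + 0 * c1 x y) ∧
    c1 (2 * x + 0 * y) (0 * x + -2 * y) = (0 * c0 x y + -2 * c1 x y) := by
  decide +kernel

theorem keyB : ∀ x y : ZMod 5, (x ≠ 0 ∨ y ≠ 0) →
    c0 (0 * x + -1 * y) (1 * x + 0 * y) = (0 * c0 x y + -1 * c1 x y) ∧
    c1 (0 * x + -1 * y) (1 * x + 0 * y) = (1 * c0 x y + 0 * c1 x y) := by
  decide +kernel

theorem keyC : ∀ x y : ZMod 5, (x ≠ 0 ∨ y ≠ 0) →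
    c0 (1 * x + 2 * y) (1 * x + -2 * y) = (1 * c0 x y + 2 * c1 x y) ∧
    c1 (1 * x + 2 * y) (1 * x + -2 * y) = (1 * c0 x y + -2 * c1 x y) := by
  decide +kernel

theorem keyd : ∀ x y : ZMod 5, (x ≠ 0 ∨ y ≠ 0) → (x = 1 ∧ y = 0) ∨
    look tabd (2 * x + 0 * y) (0 * x + -2 * y) < look tabd x y ∨
    look tabd (0 * x + -1 * y) (1 * x + 0 * y) < look tabd x y ∨
    look tabd (1 * x + 2 * y) (1 * x + -2 * y) < look tabd x y := by
  decide +kernel


/-- An exceptional sharply doubly transitive group of degree 5^2: the listed matrices generate a subgroup of GL(2,5) of order 24 acting regularly on the non-zero vectors. -/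
theorem result (A : Matrix.GeneralLinearGroup (Fin 2) (ZMod 5)) (B : Matrix.GeneralLinearGroup (Fin 2) (ZMod 5)) (C : Matrix.GeneralLinearGroup (Fin 2) (ZMod 5)) (hA : (A : Matrix (Fin 2) (Fin 2) (ZMod 5)) = !![2, 0; 0, -2]) (hB : (B : Matrix (Fin 2) (Fin 2) (ZMod 5)) = !![0, -1; 1, 0]) (hC : (C : Matrix (Fin 2) (Fin 2) (ZMod 5)) = !![1, 2; 1, -2]) : Nat.card (Subgroup.closure ({A, B, C} : Set (Matrix.GeneralLinearGroup (Fin 2) (ZMod 5)))) = 24 ∧ ∀ v w : Fin 2 → ZMod 5, v ≠ 0 → w ≠ 0 → ∃! h : Subgroup.closure ({A, B, C} : Set (Matrix.GeneralLinearGroup (Fin 2) (ZMod 5))), Matrix.mulVec ((h : Matrix.GeneralLinearGroup (Fin 2) (ZMod 5)) : Matrix (Fin 2) (Fin 2) (ZMod 5)) v = w := by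
  have : Nontrivial (ZMod 5) := ⟨⟨0, 1, by decide⟩⟩
  have h := CfsgLib.Perm.regular_of_table ({A, B, C} : Set (Matrix.GeneralLinearGroup (Fin 2) (ZMod 5)))
    c0 c1 (look tabd) (by decide +kernel) (by
      rintro g (rfl | rfl | rfl)
      · rw [hA]; exact keyA
      · rw [hB]; exact keyB
      · rw [hC]; exact keyC) (by
      intro x y hxy
      rcases keyd x y hxy with h | h | h | h
      · exact Or.inl h
      · exact Or.inr ⟨A, by simp, by rw [hA]; exact h⟩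
      · exact Or.inr ⟨B, by simp, by rw [hB]; exact h⟩
      · exact Or.inr ⟨C, by simp, by rw [hC]; exact h⟩)
  rw [Nat.card_zmod] at h
  exact h

end Cfsg.Agent.S0691
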