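import Cfsg.Statements.S0692
import Cfsg.Agent.Lib.Perm.Sharp2Table

set_option autoImplicit false
open Cfsg

namespace Cfsg.Agent.S0692

def tab0 : ℕ := 0xa1c700924600a08104924628a2052081842082052091c92441ca2871c01c80030c51422460ca1851491861412050891860880031001040411080821020c60c30c71c30c60c10450822852410050820041012801012841c1287000

def tab1 : ℕ := 0x90c22061471012800430801852882471001840c508a2091c11430840491c818028204300818714a2440811841430082891c01431022872481811020c124620714028408304614024828704a1c41850c920200a147202243106040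

def tabd : ℕ := 0x710120a24b1c518118a3041c808b2432082ca20828524b1072c318c28530b0c720a24b1851091c62461c814b18720c1c810914930730b10528a0892c330628c28a2452c910624628820610724c1c81830850c214824714a287000

def look (T : ℕ) (x y : ZMod 11) : ℕ := (T >>> (6 * (x.val + 11 * y.val))) % 64

def c0 (x y : ZMod 11) : ZMod 11 := (look tab0 x y : ℕ)

def c1 (x y : ZMod 11) : ZMod 11 := (look tab1 x y : ℕ)

theorem keyA : ∀ x y : ZMod 11, (x ≠ 0 ∨ y ≠ 0) →
    c0 (0 * x + -1 * y) (1 * x + 0 * y) = (0 * c0 x y + -1 * c1 x y) ∧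
    c1 (0 * x + -1 * y) (1 * x + 0 * y) = (1 * c0 x y + 0 * c1 x y) := by
  decide +kernel

theorem keyB : ∀ x y : ZMod 11, (x ≠ 0 ∨ y ≠ 0) →
    c0 (2 * x + 4 * y) (1 * x + -3 * y) = (2 * c0 x y + 4 * c1 x y) ∧
    c1 (2 * x + 4 * y) (1 * x + -3 * y) = (1 * c0 x y + -3 * c1 x y) := by
  decide +kernel

theorem keyd : ∀ x y : ZMod 11, (x ≠ 0 ∨ y ≠ 0) → (x = 1 ∧ y = 0) ∨
    look tabd (0 * x + -1 * y) (1 * x + 0 * y) < look tabd x y ∨
    look tabd (2 * x + 4 * y) (1 * x + -3 * y) < look tabd x y := by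
  decide +kernel


/-- An exceptional sharply doubly transitive group of degree 11^2: the listed matrices generate a subgroup of GL(2,11) of order 120 acting regularly on the non-zero vectors. -/
theorem result (A : Matrix.GeneralLinearGroup (Fin 2) (ZMod 11)) (B : Matrix.GeneralLinearGroup (Fin 2) (ZMod 11)) (hA : (A : Matrix (Fin 2) (Fin 2) (ZMod 11)) = !![0, -1; 1, 0]) (hB : (B : Matrix (Fin 2) (Fin 2) (ZMod 11)) = !![2, 4; 1, -3]) : Nat.card (Subgroup.closure ({A, B} : Set (Matrix.GeneralLinearGroup (Fin 2) (ZMod 11)))) = 120 ∧ ∀ v w : Fin 2 → ZMod 11, v ≠ 0 → w ≠ 0 → ∃! h : Subgroup.closure ({A, B} : Set (Matrix.GeneralLinearGroup (Fin 2) (ZMod 11))), Matrix.mulVec ((h : Matrix.GeneralLinearGroup (Fin 2) (ZMod 11)) : Matrix (Fin 2) (Fin 2) (ZMod 11)) v = w := by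
  have : Nontrivial (ZMod 11) := ⟨⟨0, 1, by decide⟩⟩
  have h := CfsgLib.Perm.regular_of_table ({A, B} : Set (Matrix.GeneralLinearGroup (Fin 2) (ZMod 11)))
    c0 c1 (look tabd) (by decide +kernel) (by
      rintro g (rfl | rfl)
      · rw [hA]; exact keyA
      · rw [hB]; exact keyB) (by
      intro x y hxy
      rcases keyd x y hxy with h | h | h
      · exact Or.inl h
      · exact Or.inr ⟨A, by simp, by rw [hA]; exact h⟩
      · exact Or.inr ⟨B, by simp, by rw [hB]; exact h⟩)
  rw [Nat.card_zmod] at h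
  exact h

end Cfsg.Agent.S0692
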