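import Cfsg.Statements.S0694
import Mathlib

set_option autoImplicit false
open Cfsg

namespace Cfsg.Agent.S0694

theorem modEq_iff {q : ℕ} (hq : 2 ≤ q) (n i : ℕ) :
    q ^ i ≡ 1 [MOD n * (q - 1)] ↔ n ∣ ∑ k ∈ Finset.range i, q ^ k := by
  have h1 : ((q - 1 : ℕ) : ℤ) = (q : ℤ) - 1 := by rw [Nat.cast_sub (by omega)]; simp
  rw [Nat.ModEq.comm, Nat.modEq_iff_dvd, ← Int.natCast_dvd_natCast]
  push_cast
  rw [h1, ← geom_sum_mul]
  exact mul_dvd_mul_iff_right (by omega)

theorem geom_modEq {q r : ℕ} (hq : 2 ≤ q) (h : r ∣ q - 1) (i : ℕ) :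
    ∑ k ∈ Finset.range i, q ^ k ≡ i [MOD r] := by
  have h1 : q ≡ 1 [MOD r] := ((Nat.modEq_iff_dvd' (by omega)).mpr h).symm
  induction i with
  | zero => rfl
  | succ i ih =>
    rw [Finset.sum_range_succ]
    exact ih.add (by simpa using h1.pow i)

theorem pow_dvd_iff {q r k : ℕ} (hq : 2 ≤ q) (hr : r.Prime) (h : r ∣ q - 1)
    (h2 : r = 2 → 4 ∣ q - 1 ∨ k ≤ 1) (i : ℕ) :
    r ^ k ∣ ∑ k ∈ Finset.range i, q ^ k ↔ r ^ k ∣ i := by
  by_cases hk : k ≤ 1
  · have : k = 0 ∨ k = 1 := by omega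
    rcases this with rfl | rfl
    · simp
    · rw [pow_one]
      exact (geom_modEq hq h i).dvd_iff dvd_rfl
  have h1 : ((q - 1 : ℕ) : ℤ) = (q : ℤ) - 1 := by rw [Nat.cast_sub (by omega)]; simp
  have hd : (r : ℤ) ∣ (q : ℤ) - 1 := by rw [← h1]; exact_mod_cast h
  have hnd : ¬ (r : ℤ) ∣ q := by
    intro h3
    have := dvd_sub h3 hd
    simp only [sub_sub_cancel] at this
    exact hr.one_lt.ne' (by exact_mod_cast Int.eq_one_of_dvd_one (by positivity) this)
  have key : emultiplicity (r : ℤ) ((q : ℤ) ^ i - 1 ^ i) =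
      emultiplicity (r : ℤ) ((q : ℤ) - 1) + emultiplicity (r : ℤ) (i : ℤ) := by
    rcases hr.eq_two_or_odd' with rfl | hodd
    · have h4 : (4 : ℤ) ∣ (q : ℤ) - 1 := by
        rw [← h1]; exact_mod_cast (h2 rfl).resolve_right hk
      exact Int.two_pow_sub_pow' i h4 hnd
    · rw [Int.emultiplicity_pow_sub_pow hr hodd hd hnd, Int.natCast_emultiplicity]
  rw [one_pow, ← mul_geom_sum, emultiplicity_mul (Nat.prime_iff_prime_int.mp hr)] at key
  have hfin : emultiplicity (r : ℤ) ((q : ℤ) - 1) ≠ ⊤ := by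
    rw [← finiteMultiplicity_iff_emultiplicity_ne_top, Int.finiteMultiplicity_iff]
    exact ⟨by simpa using hr.one_lt.ne', by omega⟩
  have key2 := WithTop.add_left_cancel hfin key
  rw [← Int.natCast_dvd_natCast, ← Int.natCast_dvd_natCast]
  push_cast
  rw [pow_dvd_iff_le_emultiplicity, pow_dvd_iff_le_emultiplicity, key2]


/-- The Dickson pair condition: for a prime power `q` and `n > 1`, (every prime factor of `n` divides `q - 1`, and `4 ∣ n → 4 ∣ q - 1`) holds exactly when `q ^ n ≡ 1` modulo `n * (q - 1)` but `q ^ i` is not, for `0 < i < n`. -/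
theorem result (q n : ℕ) (hq : IsPrimePow q) (hn : 1 < n) : ((∀ r : ℕ, r.Prime → r ∣ n → r ∣ q - 1) ∧ (4 ∣ n → 4 ∣ q - 1)) ↔ (q ^ n ≡ 1 [MOD n * (q - 1)] ∧ ∀ i : ℕ, 0 < i → i < n → ¬ q ^ i ≡ 1 [MOD n * (q - 1)]) := by
  have hq2 : 2 ≤ q := hq.two_le
  simp only [modEq_iff hq2]
  constructor
  · rintro ⟨h1, h2⟩
    have key : ∀ i, n ∣ ∑ k ∈ Finset.range i, q ^ k ↔ n ∣ i := by
      intro i
      rw [Nat.dvd_iff_prime_pow_dvd_dvd, Nat.dvd_iff_prime_pow_dvd_dvd]
      refine forall_congr' fun r => forall_congr' fun k => forall_congr' fun hr =>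
        forall_congr' fun hk => ?_
      rcases Nat.eq_zero_or_pos k with rfl | hk0
      · simp
      refine pow_dvd_iff hq2 hr (h1 r hr ((dvd_pow_self r hk0.ne').trans hk)) ?_ i
      rintro rfl
      by_cases hk1 : k ≤ 1
      · exact Or.inr hk1
      · exact Or.inl (h2 ((pow_dvd_pow 2 (show 2 ≤ k by omega)).trans hk))
    exact ⟨(key n).mpr dvd_rfl, fun i h0 hi h => Nat.not_dvd_of_pos_of_lt h0 hi ((key i).mp h)⟩
  · rintro ⟨h1, h2⟩
    have hcop : Nat.Coprime n q := by
      have h3 := (modEq_iff hq2 n n).mpr h1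
      have h4 : q ^ n ≡ 1 [MOD n] := h3.of_mul_right _
      have h5 : Nat.Coprime (q ^ n) n := by
        rw [Nat.Coprime, h4.gcd_eq]; simp
      exact ((Nat.coprime_pow_left_iff (by omega) _ _).mp h5).symm
    have : NeZero n := ⟨by omega⟩
    let S : Fin n → ZMod n := fun i => ((∑ k ∈ Finset.range i, q ^ k : ℕ) : ZMod n)
    have hlt : ∀ i j : Fin n, i < j → S i ≠ S j := by
      intro i j hij h
      obtain ⟨d, hd⟩ : ∃ d, (j : ℕ) = i + d := ⟨j - i, by have : (i : ℕ) < j := hij; omega⟩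
      have h3 : (i : ℕ) < j := hij
      have h4 := (ZMod.natCast_eq_natCast_iff _ _ _).mp h
      rw [hd, Finset.sum_range_add] at h4
      have h5 := (Nat.modEq_iff_dvd' (Nat.le_add_right _ _)).mp h4
      rw [Nat.add_sub_cancel_left] at h5
      simp only [pow_add, ← Finset.mul_sum] at h5
      exact h2 d (by omega) (by omega) ((hcop.pow_right _).dvd_of_dvd_mul_left h5)
    have hinj : Function.Injective S := by
      intro i j h
      rcases lt_trichotomy i j with h1 | h1 | h1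
      · exact absurd h (hlt i j h1)
      · exact h1
      · exact absurd h.symm (hlt j i h1)
    have hsurj : ∀ m, m ∣ n → ∀ x : ZMod m, ∃ i : ℕ, ∑ k ∈ Finset.range i, (q : ZMod m) ^ k = x := by
      intro m hm x
      have hb := hinj.bijective_of_nat_card_le (by simp)
      obtain ⟨y, rfl⟩ := ZMod.castHom_surjective hm x
      obtain ⟨i, rfl⟩ := hb.2 y
      exact ⟨i, by simp only [S, map_natCast]; push_cast; rfl⟩
    have hA : ∀ r : ℕ, r.Prime → r ∣ n → r ∣ q - 1 := by
      intro r hr hrn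
      have := Fact.mk hr
      by_contra hne
      have h3 : (q : ZMod r) - 1 ≠ 0 := by
        intro h0
        apply hne
        rw [← ZMod.natCast_eq_zero_iff, Nat.cast_sub (by omega)]
        simpa using h0
      obtain ⟨i, hi⟩ := hsurj r hrn (-((q : ZMod r) - 1)⁻¹)
      have h4 := mul_geom_sum (q : ZMod r) i
      rw [hi, mul_neg, mul_inv_cancel₀ h3] at h4
      have h5 : (q : ZMod r) ^ i = 0 := by linear_combination -h4
      have h6 : (q : ZMod r) = 0 := pow_eq_zero_iff'.mp h5 |>.1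
      rw [ZMod.natCast_eq_zero_iff] at h6
      exact hr.one_lt.ne' (Nat.eq_one_of_dvd_coprimes hcop hrn h6)
    refine ⟨hA, fun h4 => ?_⟩
    have h5 := hA 2 Nat.prime_two (dvd_trans (by decide) h4)
    by_contra h6
    have h7 : (q : ZMod 4) = 3 := by
      have : q % 4 = 3 := by omega
      rw [← ZMod.natCast_mod, this]
      rfl
    obtain ⟨i, hi⟩ := hsurj 4 h4 2
    rw [h7] at hi
    have h8 : ∀ j : ℕ, ∑ k ∈ Finset.range j, (3 : ZMod 4) ^ k = 0 ∨
        ∑ k ∈ Finset.range j, (3 : ZMod 4) ^ k = 1 := by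
      intro j
      induction j with
      | zero => simp
      | succ j ih =>
        rw [geom_sum_succ]
        rcases ih with h | h <;> rw [h] <;> decide
    rcases h8 i with h | h <;> rw [h] at hi <;> exact absurd hi (by decide)

end Cfsg.Agent.S0694
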