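import Cfsg.Statements.S0695
import Cfsg.Agent.Lib.Perm.Sharp2Regular

set_option autoImplicit false
open Cfsg

namespace Cfsg.Agent.S0695

/-- A regular normal subgroup of a doubly primitive group of finite degree at least 2 is an elementary abelian 2-group (and the degree is a power of 2), unless the degree is 3. -/
theorem result {G : Type*} [Group G] {X : Type*} [Fintype X] [MulAction G X] (hX : 2 ≤ Fintype.card X) (h2 : MulAction.IsMultiplyPreprimitive G X 2) (N : Subgroup G) [N.Normal] (htrans : MulAction.IsPretransitive N X) (hreg : ∀ x : X, MulAction.stabilizer N x = ⊥) : Fintype.card X = 3 ∨ (IsMulCommutative N ∧ (∀ n ∈ N, n ^ 2 = 1) ∧ ∃ m : ℕ, Fintype.card X = 2 ^ m) := by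
  rcases CfsgLib.Perm.two_primitive_regular_normal (by rwa [Nat.card_eq_fintype_card]) h2 N htrans
    hreg with h | h
  · exact Or.inl (by rw [← Nat.card_eq_fintype_card, h])
  · refine Or.inr ⟨⟨⟨fun a b => Subtype.ext (CfsgLib.Perm.comm_of_sq_eq_one h a.2 b.2)⟩⟩, h, ?_⟩
    have : Nonempty X := Fintype.card_pos_iff.mp (by omega)
    have hc := CfsgLib.Perm.card_eq_of_regular N htrans hreg
    have : Finite N := Nat.finite_of_card_ne_zero (by rw [hc]; exact Nat.card_pos.ne')
    have : Fact (Nat.Prime 2) := ⟨Nat.prime_two⟩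
    obtain ⟨m, hm⟩ := IsPGroup.iff_card.mp (CfsgLib.Perm.isPGroup_of_forall_pow h)
    exact ⟨m, by rw [← Nat.card_eq_fintype_card, ← hc, hm]⟩

end Cfsg.Agent.S0695
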