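import Cfsg.Statements.S0701
import Cfsg.Agent.Lib.Perm.Centralizer

set_option autoImplicit false
open Cfsg

namespace Cfsg.Agent.S0701


/-- The centraliser in the full symmetric group of a transitive permutation group `G` is semiregular, and it is transitive if and only if `G` is regular. -/
theorem result {α : Type*} (G : Subgroup (Equiv.Perm α)) [MulAction.IsPretransitive G α] : (∀ c ∈ Subgroup.centralizer (G : Set (Equiv.Perm α)), ∀ a : α, c a = a → c = 1) ∧ (MulAction.IsPretransitive (Subgroup.centralizer (G : Set (Equiv.Perm α))) α ↔ ∀ a : α, MulAction.stabilizer G a = ⊥) := by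
  have hG : ∀ a b : α, ∃ g ∈ G, g a = b := (CfsgLib.Perm.isPretransitive_iff_perm G).1 ‹_›
  refine ⟨fun c hc a ha => CfsgLib.Perm.eq_one_of_mem_centralizer_of_fix hG hc ha, ?_⟩
  rw [CfsgLib.Perm.isPretransitive_iff_perm]
  constructor
  · intro hC a
    rw [CfsgLib.Perm.stabilizer_eq_bot_iff]
    intro g hg ha
    refine CfsgLib.Perm.eq_one_of_mem_centralizer_of_fix hC ?_ ha
    rw [Subgroup.mem_centralizer_iff]
    intro c hc
    exact (Subgroup.mem_centralizer_iff.mp hc g hg).symm
  · intro h a b
    apply CfsgLib.Perm.exists_mem_centralizer_apply_eq hG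
    intro g hg
    constructor
    · intro ha
      rw [(CfsgLib.Perm.stabilizer_eq_bot_iff G a).1 (h a) g hg ha]; rfl
    · intro hb
      rw [(CfsgLib.Perm.stabilizer_eq_bot_iff G b).1 (h b) g hg hb]; rfl

end Cfsg.Agent.S0701
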