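import Cfsg.Statements.S0702
import Cfsg.Agent.Lib.Perm.Centralizer

set_option autoImplicit false
open Cfsg

namespace Cfsg.Agent.S0702


/-- For a transitive permutation group `G` on a finite set, the centraliser of `G` in the symmetric group is isomorphic to `N_G(G_ω)/G_ω`, and its orbit of `ω` is the set of fixed points of `G_ω`. -/
theorem result {α : Type*} [Finite α] (G : Subgroup (Equiv.Perm α)) [MulAction.IsPretransitive G α] (a : α) : Nonempty (Subgroup.centralizer (G : Set (Equiv.Perm α)) ≃* Subgroup.normalizer ((MulAction.stabilizer G a : Subgroup G) : Set G) ⧸ (MulAction.stabilizer G a).subgroupOf (Subgroup.normalizer ((MulAction.stabilizer G a : Subgroup G) : Set G))) ∧ MulAction.orbit (Subgroup.centralizer (G : Set (Equiv.Perm α))) a = MulAction.fixedPoints (MulAction.stabilizer G a) α := by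
  have hG : ∀ a b : α, ∃ g ∈ G, g a = b := (CfsgLib.Perm.isPretransitive_iff_perm G).1 ‹_›
  have huniq : ∀ c c' : Subgroup.centralizer (G : Set (Equiv.Perm α)),
      c.1 a = c'.1 a → c = c' := by
    intro c c' h
    have h3 : (c'⁻¹ * c).1 = 1 := by
      refine CfsgLib.Perm.eq_one_of_mem_centralizer_of_fix hG (a := a) (c'⁻¹ * c).2 ?_
      simp only [Subgroup.coe_mul, Subgroup.coe_inv, Equiv.Perm.coe_mul, Function.comp_apply,
        Equiv.Perm.inv_eq_iff_eq, h]
    have h4 : c'⁻¹ * c = 1 := Subtype.ext h3
    rw [inv_mul_eq_one] at h4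
    exact h4.symm
  have hcomm : ∀ (c : Subgroup.centralizer (G : Set (Equiv.Perm α))) (g : G) (x : α),
      c.1 (g • x) = g • c.1 x := by
    intro c g x
    have h := Subgroup.mem_centralizer_iff.mp c.2 g.1 g.2
    have h2 : (g.1 * c.1) x = (c.1 * g.1) x := by rw [h]
    exact h2.symm
  constructor
  · have hex : ∀ n : Subgroup.normalizer ((MulAction.stabilizer G a : Subgroup G) : Set G),
        ∃ c : Subgroup.centralizer (G : Set (Equiv.Perm α)), c.1 a = (n : G)⁻¹ • a := by
      intro n
      obtain ⟨c, hc, hca⟩ := CfsgLib.Perm.exists_mem_centralizer_apply_eq hG (a := a)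
        (b := (n : G)⁻¹ • a) (by
          intro g hg
          have := Subgroup.mem_normalizer_iff.mp n.2 ⟨g, hg⟩
          simp only [MulAction.mem_stabilizer_iff, mul_smul] at this
          rw [smul_eq_iff_eq_inv_smul (n : G)] at this
          exact this)
      exact ⟨⟨c, hc⟩, hca⟩
    choose f hf using hex
    have hfmul : ∀ m n, f (m * n) = f m * f n := by
      intro m n
      apply huniq
      simp only [Subgroup.coe_mul, Equiv.Perm.coe_mul, Function.comp_apply, hf, hcomm, mul_inv_rev,
        mul_smul]
    let φ := MonoidHom.mk' f hfmul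
    have hsurj : Function.Surjective φ := by
      intro c
      obtain ⟨g, hg⟩ := MulAction.exists_smul_eq G (c.1 a) a
      have hg' : c.1 a = g⁻¹ • a := by rw [← hg, inv_smul_smul, hg]
      have hgN : g ∈ Subgroup.normalizer ((MulAction.stabilizer G a : Subgroup G) : Set G) := by
        rw [Subgroup.mem_normalizer_iff]
        intro h
        simp only [MulAction.mem_stabilizer_iff, mul_smul]
        rw [smul_eq_iff_eq_inv_smul g, ← hg', ← hcomm, c.1.injective.eq_iff]
      refine ⟨⟨g, hgN⟩, huniq _ _ ?_⟩
      change (f _).1 a = _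
      rw [hf, hg']
    have hker : φ.ker = (MulAction.stabilizer G a).subgroupOf
        (Subgroup.normalizer ((MulAction.stabilizer G a : Subgroup G) : Set G)) := by
      ext n
      rw [MonoidHom.mem_ker, Subgroup.mem_subgroupOf, MulAction.mem_stabilizer_iff]
      constructor
      · intro h
        have h1 := hf n
        change f n = 1 at h
        rw [h] at h1
        change a = _ at h1
        rw [eq_inv_smul_iff] at h1
        exact h1
      · intro h
        apply huniq
        change (f n).1 a = a
        rw [hf, inv_smul_eq_iff, h]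
    exact ⟨((QuotientGroup.quotientMulEquivOfEq hker.symm).trans
      (QuotientGroup.quotientKerEquivOfSurjective φ hsurj)).symm⟩
  · ext b
    constructor
    · rintro ⟨c, rfl⟩ g
      change (g : G) • c.1 a = c.1 a
      rw [← hcomm, g.2]
    · intro hb
      have hle : MulAction.stabilizer G a ≤ MulAction.stabilizer G b := fun g hg => hb ⟨g, hg⟩
      have hcard : Nat.card (MulAction.stabilizer G b) ≤ Nat.card (MulAction.stabilizer G a) := by
        obtain ⟨g, hg⟩ := MulAction.exists_smul_eq G a b
        exact (Nat.card_congr (MulAction.stabilizerEquivStabilizer hg.symm).toEquiv).ge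
      have heq := Subgroup.eq_of_le_of_card_ge hle hcard
      obtain ⟨c, hc, hca⟩ := CfsgLib.Perm.exists_mem_centralizer_apply_eq hG (a := a) (b := b) (by
        intro g hg
        change (⟨g, hg⟩ : G) ∈ MulAction.stabilizer G a ↔ (⟨g, hg⟩ : G) ∈ MulAction.stabilizer G b
        rw [heq])
      exact ⟨⟨c, hc⟩, hca⟩

end Cfsg.Agent.S0702
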