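import Cfsg.Statements.S0703
import Cfsg.Agent.Lib.Perm.Centralizer

set_option autoImplicit false
open Cfsg

namespace Cfsg.Agent.S0703


/-- An abelian transitive minimal normal subgroup `M` of a permutation group on a finite set is self-centralising in the symmetric group, regular, elementary abelian, and is the unique minimal normal subgroup. -/
theorem result {α : Type*} [Finite α] (G : Subgroup (Equiv.Perm α)) (M : Subgroup G) [M.Normal] (hM : M ≠ ⊥) (hmin : ∀ L : Subgroup G, L.Normal → L ≤ M → L = ⊥ ∨ L = M) (hab : IsMulCommutative M) (htrans : MulAction.IsPretransitive M α) : Subgroup.centralizer ((M.map G.subtype : Subgroup (Equiv.Perm α)) : Set (Equiv.Perm α)) = M.map G.subtype ∧ (∀ a : α, MulAction.stabilizer M a = ⊥) ∧ (∃ p : ℕ, p.Prime ∧ ∀ m ∈ M, m ^ p = 1) ∧ ∀ L : Subgroup G, L.Normal → L ≠ ⊥ → (∀ L' : Subgroup G, L'.Normal → L' ≤ L → L' = ⊥ ∨ L' = L) → L = M := by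
  have hne : Nonempty α := CfsgLib.Perm.nonempty_of_ne_bot hM
  have ht := (CfsgLib.Perm.isPretransitive_iff_sub M).1 htrans
  have hle : M.map G.subtype ≤ Subgroup.centralizer
      ((M.map G.subtype : Subgroup (Equiv.Perm α)) : Set (Equiv.Perm α)) := by
    rintro _ ⟨n, hn, rfl⟩
    rw [Subgroup.mem_centralizer_iff]
    rintro _ ⟨m, hm, rfl⟩
    exact congrArg Subtype.val (congrArg Subtype.val (hab.is_comm.comm (⟨m, hm⟩ : M) ⟨n, hn⟩))
  have hC := CfsgLib.Perm.centralizer_eq_of_transitive ht ht hle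
  refine ⟨hC, fun a => ?_,
    CfsgLib.Perm.exists_prime_pow_eq_one_of_minimal_normal_comm M hM hmin hab, ?_⟩
  · rw [CfsgLib.Perm.stabilizer_sub_eq_bot_iff]
    intro g hg ha
    exact CfsgLib.Perm.eq_one_of_mem_centralizer_of_fix ht (hle hg) ha
  · intro L hL hL0 hLmin
    by_contra hLM
    have hdis := CfsgLib.Perm.disjoint_of_minimal_normal M L hM hmin hLmin (Ne.symm hLM)
    have h1 := CfsgLib.Perm.map_le_centralizer_map_of_disjoint M L hdis
    rw [hC, Subgroup.map_le_map_iff_of_injective G.subtype_injective] at h1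
    rcases hmin L hL h1 with h | h
    · exact hL0 h
    · exact hLM h

end Cfsg.Agent.S0703
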