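import Cfsg.Statements.S0704
import Cfsg.Agent.Lib.Perm.Centralizer

set_option autoImplicit false
open Cfsg

namespace Cfsg.Agent.S0704


/-- Two distinct transitive minimal normal subgroups `M`, `N` of a permutation group are regular, non-abelian, isomorphic, each other's centraliser in the symmetric group, and the only minimal normal subgroups. -/
theorem result {α : Type*} (G : Subgroup (Equiv.Perm α)) (M N : Subgroup G) [M.Normal] [N.Normal] (hM : M ≠ ⊥) (hN : N ≠ ⊥) (hMmin : ∀ L : Subgroup G, L.Normal → L ≤ M → L = ⊥ ∨ L = M) (hNmin : ∀ L : Subgroup G, L.Normal → L ≤ N → L = ⊥ ∨ L = N) (hMN : M ≠ N) (hMt : MulAction.IsPretransitive M α) (hNt : MulAction.IsPretransitive N α) : (∀ a : α, MulAction.stabilizer M a = ⊥) ∧ (∀ a : α, MulAction.stabilizer N a = ⊥) ∧ ¬ IsMulCommutative M ∧ Nonempty (M ≃* N) ∧ Subgroup.centralizer ((M.map G.subtype : Subgroup (Equiv.Perm α)) : Set (Equiv.Perm α)) = N.map G.subtype ∧ Subgroup.centralizer ((N.map G.subtype : Subgroup (Equiv.Perm α)) : Set (Equiv.Perm α))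 = M.map G.subtype ∧ ∀ L : Subgroup G, L.Normal → L ≠ ⊥ → (∀ L' : Subgroup G, L'.Normal → L' ≤ L → L' = ⊥ ∨ L' = L) → L = M ∨ L = N := by
  have hne : Nonempty α := CfsgLib.Perm.nonempty_of_ne_bot hM
  have hMt' := (CfsgLib.Perm.isPretransitive_iff_sub M).1 hMt
  have hNt' := (CfsgLib.Perm.isPretransitive_iff_sub N).1 hNt
  have hdis := CfsgLib.Perm.disjoint_of_minimal_normal M N hM hMmin hNmin hMN
  have h1 := CfsgLib.Perm.map_le_centralizer_map_of_disjoint M N hdis
  have h2 := CfsgLib.Perm.map_le_centralizer_map_of_disjoint N M hdis.symm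
  have hCM := CfsgLib.Perm.centralizer_eq_of_transitive hMt' hNt' h1
  have hCN := CfsgLib.Perm.centralizer_eq_of_transitive hNt' hMt' h2
  have hMreg : ∀ g ∈ M.map G.subtype, ∀ a, g a = a → g = 1 := fun g hg a ha =>
    CfsgLib.Perm.eq_one_of_mem_centralizer_of_fix hNt' (h2 hg) ha
  have hNreg : ∀ g ∈ N.map G.subtype, ∀ a, g a = a → g = 1 := fun g hg a ha =>
    CfsgLib.Perm.eq_one_of_mem_centralizer_of_fix hMt' (h1 hg) ha
  refine ⟨fun a => ?_, fun a => ?_, ?_, ?_, hCM, hCN, ?_⟩
  · rw [CfsgLib.Perm.stabilizer_sub_eq_bot_iff]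
    exact fun g hg ha => hMreg g hg a ha
  · rw [CfsgLib.Perm.stabilizer_sub_eq_bot_iff]
    exact fun g hg ha => hNreg g hg a ha
  · intro hab
    have hle : M.map G.subtype ≤ Subgroup.centralizer
        ((M.map G.subtype : Subgroup (Equiv.Perm α)) : Set (Equiv.Perm α)) := by
      rintro _ ⟨n, hn, rfl⟩
      rw [Subgroup.mem_centralizer_iff]
      rintro _ ⟨m, hm, rfl⟩
      exact congrArg Subtype.val (congrArg Subtype.val (hab.is_comm.comm (⟨m, hm⟩ : M) ⟨n, hn⟩))
    rw [hCM, Subgroup.map_le_map_iff_of_injective G.subtype_injective] at hle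
    rcases hNmin M inferInstance hle with h | h
    · exact hM h
    · exact hMN h
  · obtain ⟨a⟩ := hne
    have hcomm : ∀ (m : M) (n : N), (m : G) * n = n * m := fun m n =>
      (Subgroup.commute_of_normal_of_disjoint M N inferInstance inferInstance hdis m n m.2 n.2).eq
    have hex : ∀ m : M, ∃ n : N, m • n • a = a := by
      intro m
      obtain ⟨n, hn⟩ := hNt.exists_smul_eq a (m⁻¹ • a)
      exact ⟨n, by rw [hn, smul_inv_smul]⟩
    have huniqN : ∀ n n' : N, n • a = n' • a → n = n' := by
      intro n n' h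
      have : (n'⁻¹ * n) • a = a := by rw [mul_smul, h, inv_smul_smul]
      have h3 := hNreg ((n'⁻¹ * n : N) : G) ⟨_, (n'⁻¹ * n).2, rfl⟩ a this
      have h4 : n'⁻¹ * n = 1 := Subtype.ext (Subtype.ext h3)
      rw [inv_mul_eq_one] at h4
      exact h4.symm
    have huniqM : ∀ n n' : M, n • a = n' • a → n = n' := by
      intro n n' h
      have : (n'⁻¹ * n) • a = a := by rw [mul_smul, h, inv_smul_smul]
      have h3 := hMreg ((n'⁻¹ * n : M) : G) ⟨_, (n'⁻¹ * n).2, rfl⟩ a this
      have h4 : n'⁻¹ * n = 1 := Subtype.ext (Subtype.ext h3)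
      rw [inv_mul_eq_one] at h4
      exact h4.symm
    have hsw : ∀ (m : M) (n : N) (x : α), m • n • x = n • m • x := by
      intro m n x
      change (m : G) • (n : G) • x = (n : G) • (m : G) • x
      rw [← mul_smul, hcomm, mul_smul]
    choose f hf using hex
    have hfmul : ∀ m m' : M, f (m * m') = f m * f m' := by
      intro m m'
      apply huniqN
      have e1 : (m * m') • (f m * f m') • a = a := by
        rw [mul_smul, mul_smul, hsw m' (f m), hf, hf]
      have e2 := hf (m * m')
      exact MulAction.injective (m * m') (e2.trans e1.symm)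
    refine ⟨MulEquiv.ofBijective (MonoidHom.mk' f hfmul) ⟨?_, ?_⟩⟩
    · intro m m' h
      change f m = f m' at h
      apply huniqM
      have e1 := hf m
      have e2 := hf m'
      rw [hsw] at e1 e2
      rw [h] at e1
      exact MulAction.injective (f m') (e1.trans e2.symm)
    · intro n
      obtain ⟨m, hm⟩ := hMt.exists_smul_eq a (n⁻¹ • a)
      refine ⟨m, huniqN _ _ ?_⟩
      change f m • a = n • a
      have e1 : m • n • a = a := by rw [hsw, hm, smul_inv_smul]
      exact MulAction.injective m ((hf m).trans e1.symm)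
  · intro L hL hL0 hLmin
    by_cases hLM : L = M
    · exact Or.inl hLM
    right
    have hdis' := CfsgLib.Perm.disjoint_of_minimal_normal M L hM hMmin hLmin (Ne.symm hLM)
    have h3 := CfsgLib.Perm.map_le_centralizer_map_of_disjoint M L hdis'
    rw [hCM, Subgroup.map_le_map_iff_of_injective G.subtype_injective] at h3
    rcases hNmin L hL h3 with h | h
    · exact absurd h hL0
    · exact h

end Cfsg.Agent.S0704
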