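import Cfsg.Statements.S0705
import Cfsg.Agent.Lib.Perm.MultiTrans

set_option autoImplicit false
open scoped Pointwise
open Cfsg

namespace Cfsg.Agent.S0705

theorem gen {α : Type*} [DecidableEq α] (G : Subgroup (Equiv.Perm α)) {k : ℕ}
    (hgen : ∀ s : Finset α, s.card = k + 1 → ∀ σ : Equiv.Perm ↥s, ∃ g ∈ G, ∀ x : ↥s,
      g (x : α) = σ x) (s : Finset α) (hs : s.card = k + 1) (τ : Equiv.Perm α)
    (hτ : ∀ x, τ x ∈ s ↔ x ∈ s) : ∃ g ∈ G, ∀ x ∈ s, g x = τ x := by
  obtain ⟨g, hg, h⟩ := hgen s hs (τ.subtypePerm hτ)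
  exact ⟨g, hg, fun x hx => h ⟨x, hx⟩⟩


/-- A generously `k`-transitive permutation group (every `(k+1)`-subset has its full symmetric group induced by the setwise stabiliser) of degree greater than `k` is `k`-transitive, and for a `k`-subset the setwise and pointwise stabilisers have the same orbits outside it. -/
theorem result {α : Type*} [Fintype α] [DecidableEq α] (G : Subgroup (Equiv.Perm α)) {k : ℕ} (hk : k < Fintype.card α) (hgen : ∀ s : Finset α, s.card = k + 1 → ∀ σ : Equiv.Perm ↥s, ∃ g ∈ G, ∀ x : ↥s, g (x : α) = σ x) : MulAction.IsMultiplyPretransitive G α k ∧ ∀ s : Finset α, s.card = k → ∀ a b : α, a ∉ s → b ∉ s → (∃ g ∈ G, g • s = s ∧ g a = b) → ∃ g ∈ G, (∀ x ∈ s, g x = x) ∧ g a = b := by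
  constructor
  · suffices h : ∀ j, j ≤ k → MulAction.IsMultiplyPretransitive G α j from h k le_rfl
    intro j
    induction j with
    | zero => exact fun _ => MulAction.is_zero_pretransitive
    | succ j ih =>
      intro hj
      apply CfsgLib.Perm.isMultiplyPretransitive_succ_of_forall (ih (by omega))
      intro s hs a ha b hb
      obtain ⟨t, hst, ht⟩ := Finset.exists_superset_card_eq (s := insert a (insert b s))
        (n := k + 1) (by
          have h1 := Finset.card_insert_le a (insert b s)
          have h2 := Finset.card_insert_le b s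
          omega) (by omega)
      have hat : a ∈ t := hst (by simp)
      have hbt : b ∈ t := hst (by simp)
      obtain ⟨g, hg, h⟩ := gen G hgen t ht (Equiv.swap a b) (by
        intro x
        rw [Equiv.swap_apply_def]
        split_ifs with h1 h2
        · simp [h1, hat, hbt]
        · simp [h2, hat, hbt]
        · rfl)
      refine ⟨⟨g, hg⟩, fun x hx => ?_, ?_⟩
      · change g x = x
        rw [h x (hst (by simp [hx])), Equiv.swap_apply_of_ne_of_ne]
        · rintro rfl; exact ha hx
        · rintro rfl; exact hb hx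
      · change g a = b
        rw [h a hat, Equiv.swap_apply_left]
  · rintro s hs a b ha hb ⟨g, hg, hgs, hgab⟩
    have hmem : ∀ x, g⁻¹ x ∈ s ↔ x ∈ s := by
      intro x
      conv_rhs => rw [← hgs]
      exact Finset.inv_smul_mem_iff (a := g) (b := x)
    let τ : Equiv.Perm α := Equiv.Perm.ofSubtype (g⁻¹.subtypePerm hmem)
    have hτ1 : ∀ x ∈ s, τ x = g⁻¹ x := fun x hx =>
      Equiv.Perm.ofSubtype_subtypePerm_of_mem hmem hx
    have hτ2 : ∀ x ∉ s, τ x = x := fun x hx =>
      Equiv.Perm.ofSubtype_subtypePerm_of_not_mem hmem hx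
    obtain ⟨u, hu, h⟩ := gen G hgen (insert a s) (by rw [Finset.card_insert_of_notMem ha, hs]) τ (by
      intro x
      by_cases hx : x ∈ s
      · rw [hτ1 x hx]
        simp only [Finset.mem_insert, hx, (hmem x).2 hx, or_true]
      · rw [hτ2 x hx])
    refine ⟨g * u, G.mul_mem hg hu, fun x hx => ?_, ?_⟩
    · rw [Equiv.Perm.mul_apply, h x (by simp [hx]), hτ1 x hx]
      simp
    · rw [Equiv.Perm.mul_apply, h a (by simp), hτ2 a ha, hgab]

end Cfsg.Agent.S0705
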