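import Cfsg.Statements.S0706
import Cfsg.Agent.Lib.Perm.MultiTransGenerous

set_option autoImplicit false
open Cfsg

namespace Cfsg.Agent.S0706


/-- In a generously `k`-transitive permutation group, for a prime `p ≤ k` and a `k`-set `Γ`, there are no `p` points outside `Γ` lying in distinct orbits of the pointwise stabiliser of `Γ` all of length prime to `p` (at most `p - 1` such orbits). -/
theorem result {α : Type*} [Fintype α] [DecidableEq α] (G : Subgroup (Equiv.Perm α)) {k : ℕ} (hk : k < Fintype.card α) (hgen : ∀ s : Finset α, s.card = k + 1 → ∀ σ : Equiv.Perm ↥s, ∃ g ∈ G, ∀ x : ↥s, g (x : α) = σ x) {p : ℕ} (hp : p.Prime) (hpk : p ≤ k) (Γ : Finset α) (hΓ : Γ.card = k) (f : Fin p → α) (hf : ∀ i, f i ∉ Γ) (hdist : ∀ i j, i ≠ j → f j ∉ MulAction.orbit (fixingSubgroup G (Γ : Set α)) (f i)) : ∃ i, p ∣ Nat.card (MulAction.orbit (fixingSubgroup G (Γ : Set α)) (f i)) := by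
  refine CfsgLib.Perm.exists_dvd_card_orbit_of_generous hk ?_ hp hpk Γ hΓ f hf hdist
  intro s hs τ hτ
  obtain ⟨g, hg, h⟩ := hgen s hs (τ.subtypePerm hτ)
  exact ⟨⟨g, hg⟩, fun x hx => h ⟨x, hx⟩⟩

end Cfsg.Agent.S0706
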