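import Cfsg.Statements.S0708
import Cfsg.Agent.Lib.Perm.MultiTrans

set_option autoImplicit false
open Cfsg

namespace Cfsg.Agent.S0708

theorem inj4 {Ω : Type*} {a b c d : Ω} (hab : a ≠ b) (hac : a ≠ c) (had : a ≠ d) (hbc : b ≠ c)
    (hbd : b ≠ d) (hcd : c ≠ d) : Function.Injective ![a, b, c, d] := by
  intro i j
  fin_cases i <;> fin_cases j <;>
    simp [hab, hac, hbc, hab.symm, hac.symm, hbc.symm, had, hbd, hcd, had.symm, hbd.symm, hcd.symm]


/-- Tits' argument: a sharply 4-transitive group (no finiteness assumed) has finite degree at most 11, and at most 6 when the degree is even. -/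
theorem result {G : Type*} [Group G] {Ω : Type*} [MulAction G Ω] (h4 : MulAction.IsMultiplyPretransitive G Ω 4) (hsharp : ∀ x : Fin 4 ↪ Ω, MulAction.stabilizer G x = ⊥) (hne : Nonempty (Fin 4 ↪ Ω)) : Finite Ω ∧ Nat.card Ω ≤ 11 ∧ (Even (Nat.card Ω) → Nat.card Ω ≤ 6) := by
  classical
  have huniq : ∀ (g h : G) (a b c d : Ω), a ≠ b → a ≠ c → a ≠ d → b ≠ c → b ≠ d → c ≠ d →
      g • a = h • a → g • b = h • b → g • c = h • c → g • d = h • d → g = h := by
    intro g h a b c d hab hac had hbc hbd hcd h1 h2 h3 h4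
    have : h⁻¹ * g ∈ MulAction.stabilizer G
        (⟨![a, b, c, d], inj4 hab hac had hbc hbd hcd⟩ : Fin 4 ↪ Ω) := by
      rw [MulAction.mem_stabilizer_iff]
      ext i
      change (h⁻¹ * g) • ![a, b, c, d] i = ![a, b, c, d] i
      rw [mul_smul, inv_smul_eq_iff]
      fin_cases i
      · exact h1
      · exact h2
      · exact h3
      · exact h4
    rw [hsharp, Subgroup.mem_bot, inv_mul_eq_one] at this
    exact this.symm
  obtain ⟨x⟩ := hne
  obtain ⟨a, b, c, d, hab, hac, had, hbc, hbd, hcd⟩ : ∃ a b c d : Ω, a ≠ b ∧ a ≠ c ∧ a ≠ d ∧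
      b ≠ c ∧ b ≠ d ∧ c ≠ d := ⟨x 0, x 1, x 2, x 3, by simp, by simp, by simp, by simp, by simp,
        by simp⟩
  obtain ⟨t, hta, htb, htc, htd⟩ := CfsgLib.Perm.exists_smul_four h4 hab hac had hbc hbd hcd
    hab had hac hbd hbc hcd.symm
  have htt : t * t = 1 := huniq _ _ a b c d hab hac had hbc hbd hcd
    (by simp [mul_smul, hta]) (by simp [mul_smul, htb]) (by simp [mul_smul, htc, htd])
    (by simp [mul_smul, htc, htd])
  have htt' : ∀ y : Ω, t • t • y = y := fun y => by rw [← mul_smul, htt, one_smul]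
  -- the fixed points of `t`
  obtain ⟨F, hF, hFc⟩ : ∃ F : Finset Ω, (∀ y, y ∈ F ↔ t • y = y) ∧ F.card ≤ 3 := by
    by_cases he : ∃ e, t • e = e ∧ e ≠ a ∧ e ≠ b
    · obtain ⟨e, he, hea, heb⟩ := he
      refine ⟨{a, b, e}, fun y => ⟨?_, fun hy => ?_⟩, Finset.card_le_three⟩
      · simp only [Finset.mem_insert, Finset.mem_singleton]
        rintro (rfl | rfl | rfl) <;> assumption
      · by_contra hy'
        simp only [Finset.mem_insert, Finset.mem_singleton, not_or] at hy'
        have : t = 1 := huniq _ _ a b e y hab hea.symm (Ne.symm hy'.1) heb.symm (Ne.symm hy'.2.1)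
          (Ne.symm hy'.2.2) (by simp [hta]) (by simp [htb]) (by simp [he]) (by simp [hy])
        rw [this, one_smul] at htc
        exact hcd htc
    · refine ⟨{a, b}, fun y => ⟨?_, fun hy => ?_⟩, Finset.card_le_two.trans (by norm_num)⟩
      · simp only [Finset.mem_insert, Finset.mem_singleton]
        rintro (rfl | rfl) <;> assumption
      · by_contra hy'
        simp only [Finset.mem_insert, Finset.mem_singleton, not_or] at hy'
        exact he ⟨y, hy, hy'.1, hy'.2⟩
  let R : Set Ω := {y | t • y ≠ y ∧ y ≠ c ∧ y ≠ d}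
  have hR : R.Finite ∧ R.ncard ≤ F.offDiag.card := by
    rcases R.eq_empty_or_nonempty with h | ⟨y₀, hy₀⟩
    · simp [h]
    have hRt : ∀ y ∈ R, c ≠ t • y ∧ d ≠ t • y := by
      rintro y ⟨h1, h2, h3⟩
      constructor
      · intro h
        apply h3
        rw [← htt' y, ← h, htc]
      · intro h
        apply h2
        rw [← htt' y, ← h, htd]
    have hex : ∀ y ∈ R, ∃ g : G, g • c = c ∧ g • d = d ∧ g • y₀ = y ∧ g • t • y₀ = t • y :=
      fun y hy => CfsgLib.Perm.exists_smul_four h4 hcd hy₀.2.1.symm (hRt _ hy₀).1 hy₀.2.2.symm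
        (hRt _ hy₀).2 hy₀.1.symm hcd hy.2.1.symm (hRt _ hy).1 hy.2.2.symm (hRt _ hy).2 hy.1.symm
    choose! g hg1 hg2 hg3 hg4 using hex
    have hcomm : ∀ y ∈ R, g y * t = t * g y := fun y hy =>
      huniq _ _ c d y₀ (t • y₀) hcd hy₀.2.1.symm (hRt _ hy₀).1 hy₀.2.2.symm
        (hRt _ hy₀).2 hy₀.1.symm (by simp [mul_smul, htc, hg1 y hy, hg2 y hy])
        (by simp [mul_smul, htd, hg1 y hy, hg2 y hy]) (by simp [mul_smul, hg3 y hy, hg4 y hy])
        (by simp [mul_smul, htt', hg3 y hy, hg4 y hy])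
    have hmaps : ∀ y ∈ R, (g y • a, g y • b) ∈ (F.offDiag : Set (Ω × Ω)) := by
      intro y hy
      simp only [Finset.mem_coe, Finset.mem_offDiag, hF]
      refine ⟨?_, ?_, fun h => hab (MulAction.injective _ h)⟩
      · rw [← mul_smul, ← hcomm y hy, mul_smul, hta]
      · rw [← mul_smul, ← hcomm y hy, mul_smul, htb]
    have hinj : Set.InjOn (fun y => (g y • a, g y • b)) R := by
      intro y hy z hz h
      simp only [Prod.mk.injEq] at h
      have := huniq (g y) (g z) a b c d hab hac had hbc hbd hcd h.1 h.2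
        (by rw [hg1 y hy, hg1 z hz]) (by rw [hg2 y hy, hg2 z hz])
      rw [← hg3 y hy, this, hg3 z hz]
    refine ⟨Set.Finite.of_injOn (fun y hy => hmaps y hy) hinj (Finset.finite_toSet _), ?_⟩
    rw [← Set.ncard_coe_finset]
    exact Set.ncard_le_ncard_of_injOn _ hmaps hinj
  have hcover : (Set.univ : Set Ω) ⊆ (F : Set Ω) ∪ ({c, d} ∪ R) := by
    intro y _
    by_cases h1 : t • y = y
    · exact Or.inl ((hF y).2 h1)
    by_cases h2 : y = c
    · exact Or.inr (Or.inl (Or.inl h2))
    by_cases h3 : y = d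
    · exact Or.inr (Or.inl (Or.inr h3))
    exact Or.inr (Or.inr ⟨h1, h2, h3⟩)
  have hfin : ((F : Set Ω) ∪ ({c, d} ∪ R)).Finite :=
    F.finite_toSet.union ((Set.toFinite _).union hR.1)
  have hΩ : Finite Ω := Set.finite_univ_iff.1 (hfin.subset hcover)
  have hcard : Nat.card Ω ≤ F.card + (2 + F.offDiag.card) := by
    rw [← Set.ncard_univ]
    refine (Set.ncard_le_ncard hcover hfin).trans ((Set.ncard_union_le _ _).trans ?_)
    rw [Set.ncard_coe_finset]
    refine Nat.add_le_add_left ((Set.ncard_union_le _ _).trans ?_) _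
    rw [Set.ncard_pair hcd]
    exact Nat.add_le_add_left hR.2 _
  rw [Finset.offDiag_card] at hcard
  refine ⟨hΩ, ?_, fun hev => ?_⟩
  · generalize F.card = r at hcard hFc
    interval_cases r <;> omega
  · have := Fintype.ofFinite Ω
    have h2 : Fact (Nat.Prime 2) := ⟨Nat.prime_two⟩
    have hmod := Equiv.Perm.card_fixedPoints_modEq (f := (fun y : Ω => t • y : Function.End Ω))
      (p := 2) (n := 1) (by erw [pow_one, pow_two]; exact funext htt')
    have hFF : Fintype.card (Function.fixedPoints (fun y : Ω => t • y)) =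
        F.card := by
      rw [← Fintype.card_coe]
      exact Fintype.card_congr (Equiv.subtypeEquivRight fun y => (hF y).symm)
    rw [← Nat.card_eq_fintype_card] at hmod
    erw [hFF] at hmod
    unfold Nat.ModEq at hmod
    rw [Nat.even_iff] at hev
    generalize F.card = r at hcard hFc hmod
    interval_cases r <;> omega

end Cfsg.Agent.S0708
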