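import Cfsg.Statements.S0709
import Cfsg.Agent.Lib.Perm.MultiTransWitt

set_option autoImplicit false
open Cfsg

namespace Cfsg.Agent.S0709


/-- Witt's Lemma for constructing transitive extensions. Points `q 1, …, q t` (`t ≥ 2`) of a finite set are given; `G` fixes `q i` for `i ≥ 3` and is doubly transitive on the remaining points; `s 1 ∈ G` swaps `q 1, q 2`; for `2 ≤ i ≤ t-1`, `s i` swaps `q i, q (i+1)` and fixes the other `q j`; with `H` the stabiliser of `q 1, q 2` in `G`: `s i ^ 2 ∈ H`, `(s i * s (i+1)) ^ 3 ∈ H`, `(s i * s j) ^ 2 ∈ H` for `j ≥ i + 2`, and `s i` (`i ≥ 2`) normalises the stabiliser of `q 2` in `G`. Then `G` and the `s i` generate a `t`-transitive group whose pointwise stabiliser of the `q`'s is `H`. -/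
theorem result {α : Type*} [Fintype α] [DecidableEq α] (t : ℕ) (ht : 2 ≤ t) (q : ℕ → α) (hq : ∀ i j : ℕ, 1 ≤ i → i ≤ t → 1 ≤ j → j ≤ t → q i = q j → i = j) (G : Subgroup (Equiv.Perm α)) (hfix : ∀ g ∈ G, ∀ i : ℕ, 3 ≤ i → i ≤ t → g (q i) = q i) (h2 : ∀ a b c d : α, (∀ i, 3 ≤ i → i ≤ t → a ≠ q i ∧ b ≠ q i ∧ c ≠ q i ∧ d ≠ q i) → a ≠ b → c ≠ d → ∃ g ∈ G, g a = c ∧ g b = d) (s : ℕ → Equiv.Perm α) (hs1 : s 1 ∈ G) (hs1q : s 1 (q 1) = q 2 ∧ s 1 (q 2) = q 1) (hsq : ∀ i : ℕ, 2 ≤ i → i + 1 ≤ t → s i (q i) = q (i + 1) ∧ s i (q (i + 1)) = q i ∧ ∀ j : ℕ, 1 ≤ j → j ≤ t → j ≠ i → j ≠ i + 1 → s i (q j) = q j) (H : Subgroup (Equiv.Perm α)) (hH : H = G ⊓ MulAction.stabilizer (Equiv.Perm α) (q 1) ⊓ MulAction.stabilizer (Equiv.Perm α) (q 2)) (hsq2 : ∀ i : ℕ, 1 ≤ i → i + 1 ≤ t → s i ^ 2 ∈ H) (hbraid : ∀ i : ℕ, 1 ≤ i → i + 2 ≤ t → (s i * s (i + 1)) ^ 3 ∈ H) (hcomm : ∀ i j : ℕ, 1 ≤ i → i + 2 ≤ j → j + 1 ≤ t → (s i * s j) ^ 2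 ∈ H ∧ (s j * s i) ^ 2 ∈ H) (hnorm : ∀ i : ℕ, 2 ≤ i → i + 1 ≤ t → ∀ g ∈ G ⊓ MulAction.stabilizer (Equiv.Perm α) (q 2), s i * g * (s i)⁻¹ ∈ G ⊓ MulAction.stabilizer (Equiv.Perm α) (q 2)) : MulAction.IsMultiplyPretransitive ↥(Subgroup.closure ((G : Set (Equiv.Perm α)) ∪ {x | ∃ i : ℕ, 2 ≤ i ∧ i + 1 ≤ t ∧ x = s i})) α t ∧ Subgroup.closure ((G : Set (Equiv.Perm α)) ∪ {x | ∃ i : ℕ, 2 ≤ i ∧ i + 1 ≤ t ∧ x = s i}) ⊓ fixingSubgroup (Equiv.Perm α) {x | ∃ i : ℕ, 1 ≤ i ∧ i ≤ t ∧ x = q i} = H := by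
  let G₁ : Subgroup (Equiv.Perm α) := G ⊓ MulAction.stabilizer (Equiv.Perm α) (q 2)
  let K : ℕ → Subgroup (Equiv.Perm α) := fun i =>
    Subgroup.closure ((G₁ : Set (Equiv.Perm α)) ∪ {x | ∃ j : ℕ, 1 ≤ j ∧ j + 1 ≤ i ∧ x = s j})
  have hK1 : K 1 = G₁ := by
    apply le_antisymm
    · rw [Subgroup.closure_le]
      rintro x (hx | ⟨j, h1, h2, -⟩)
      · exact hx
      · omega
    · exact fun x hx => Subgroup.subset_closure (Or.inl hx)
  have hK : ∀ i, 1 ≤ i → K (i + 1) = K i ⊔ Subgroup.zpowers (s i) := by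
    intro i hi
    apply le_antisymm
    · rw [Subgroup.closure_le]
      rintro x (hx | ⟨j, h1, h2, rfl⟩)
      · exact Subgroup.mem_sup_left (Subgroup.subset_closure (Or.inl hx))
      · rcases Nat.eq_or_lt_of_le h2 with h3 | h3
        · rw [show j = i by omega]
          exact Subgroup.mem_sup_right (Subgroup.mem_zpowers _)
        · exact Subgroup.mem_sup_left (Subgroup.subset_closure (Or.inr ⟨j, h1, by omega, rfl⟩))
    · refine sup_le (Subgroup.closure_mono ?_) ?_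
      · rintro x (hx | ⟨j, h1, h2, rfl⟩)
        · exact Or.inl hx
        · exact Or.inr ⟨j, h1, by omega, rfl⟩
      · rw [Subgroup.zpowers_le]
        exact Subgroup.subset_closure (Or.inr ⟨i, hi, le_rfl, rfl⟩)
  have hK2 : K 2 ≤ G := by
    rw [hK 1 le_rfl, hK1]
    exact sup_le inf_le_left (by rwa [Subgroup.zpowers_le])
  have hHK : H ≤ K 1 := by
    rw [hK1, hH]
    exact fun x hx => ⟨hx.1.1, hx.2⟩
  have hq' : ∀ i j : ℕ, 1 ≤ i → i < j → j ≤ t → q i ≠ q j := fun i j h1 h2 h3 h4 => by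
    have := hq i j h1 (by omega) (by omega) h3 h4; omega
  obtain ⟨hfixK, htrK, hstK⟩ := CfsgLib.Perm.witt_tower t q hq K s (fun i h _ => hK i h) (by
      intro g hg j h1 h2
      rw [hK1] at hg
      rcases Nat.eq_or_lt_of_le h1 with h3 | h3
      · rw [← h3]; exact hg.2
      · exact hfix g hg.1 j h3 h2) (by
      intro a b hab
      obtain ⟨g, hg, h1, h2⟩ := h2 (q 2) a (q 2) b (fun i h1 h2 =>
        ⟨hq' 2 i (by omega) h1 h2, (hab i (by omega) h2).1, hq' 2 i (by omega) h1 h2,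
          (hab i (by omega) h2).2⟩) (hab 2 le_rfl ht).1.symm (hab 2 le_rfl ht).2.symm
      exact ⟨g, hK1 ▸ ⟨hg, h1⟩, h2⟩) (fun _ g hg h => hK1 ▸ ⟨hK2 hg, h⟩) (by
      intro i h1 h2
      rcases Nat.eq_or_lt_of_le h1 with h3 | h3
      · subst h3
        exact ⟨hs1q.2, hs1q.1, fun j h4 h5 => hfix _ hs1 j h4 h5⟩
      · obtain ⟨h4, h5, h6⟩ := hsq i h3 h2
        exact ⟨h5, h4, fun j h7 h8 => h6 j (by omega) h8 (by omega) (by omega)⟩)
    (fun i h1 h2 => hHK (hsq2 i h1 h2)) (fun i h1 h2 => hHK (hbraid i h1 h2))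
    (fun i j h1 h2 h3 => hHK (hcomm i j h1 h2 h3).2)
    (fun i h1 h2 g hg => hK1 ▸ hnorm i h1 h2 g (hK1 ▸ hg :))
  have hmono : ∀ i j, i ≤ j → K i ≤ K j := by
    intro i j hij
    apply Subgroup.closure_mono
    rintro x (hx | ⟨l, h1, h2, rfl⟩)
    · exact Or.inl hx
    · exact Or.inr ⟨l, h1, by omega, rfl⟩
  have hGK : G ≤ K 2 := by
    intro g hg
    obtain ⟨k, hk, hkq⟩ := htrK 2 (by omega) ht (q 2) (g (q 2)) (fun j h1 h2 =>
      ⟨hq' 2 j (by omega) h1 h2, fun h3 => hq' 2 j (by omega) h1 h2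
        (g.injective (h3.trans (hfix g hg j h1 h2).symm))⟩)
    have h1 : k⁻¹ * g ∈ K 1 := by
      rw [hK1]
      refine ⟨G.mul_mem (G.inv_mem (hK2 hk)) hg, ?_⟩
      change (k⁻¹ * g) • q 2 = q 2
      rw [mul_smul, inv_smul_eq_iff, hkq]
      rfl
    simpa using (K 2).mul_mem hk (hmono 1 2 (by omega) h1)
  have hC : Subgroup.closure ((G : Set (Equiv.Perm α)) ∪
      {x | ∃ i : ℕ, 2 ≤ i ∧ i + 1 ≤ t ∧ x = s i}) = K t := by
    apply le_antisymm
    · rw [Subgroup.closure_le]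
      rintro x (hx | ⟨j, h1, h2, rfl⟩)
      · exact hmono 2 t ht (hGK hx)
      · exact Subgroup.subset_closure (Or.inr ⟨j, by omega, h2, rfl⟩)
    · rw [Subgroup.closure_le]
      rintro x (hx | ⟨j, h1, h2, rfl⟩)
      · exact Subgroup.subset_closure (Or.inl hx.1)
      · rcases Nat.eq_or_lt_of_le h1 with h3 | h3
        · subst h3
          exact Subgroup.subset_closure (Or.inl hs1)
        · exact Subgroup.subset_closure (Or.inr ⟨j, h3, h2, rfl⟩)
  rw [hC]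
  constructor
  · suffices h : ∀ j, j ≤ t → MulAction.IsMultiplyPretransitive (K t) α j from h t le_rfl
    intro j
    induction j with
    | zero => exact fun _ => MulAction.is_zero_pretransitive
    | succ j ih =>
      intro hj
      refine CfsgLib.Perm.isMultiplyPretransitive_succ_of_exists (ih (by omega))
        ((Finset.Ioc (t - j) t).image q) ?_ ?_
      · rw [Finset.card_image_of_injOn, Nat.card_Ioc]
        · omega
        · intro a ha b hb hab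
          simp only [Finset.coe_Ioc, Set.mem_Ioc] at ha hb
          exact hq a b (by omega) ha.2 (by omega) hb.2 hab
      · intro a ha b hb
        simp only [Finset.mem_image, Finset.mem_Ioc, not_exists, not_and] at ha hb
        obtain ⟨g, hg, hgab⟩ := htrK (t - j) (by omega) (by omega) a b
          (fun l h1 h2 => ⟨(ha l ⟨h1, h2⟩ ·.symm), (hb l ⟨h1, h2⟩ ·.symm)⟩)
        refine ⟨⟨g, hmono _ _ (by omega) hg⟩, fun x hx => ?_, hgab⟩
        obtain ⟨l, hl, rfl⟩ := Finset.mem_image.1 hx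
        rw [Finset.mem_Ioc] at hl
        exact hfixK (t - j) (by omega) (by omega) g hg l hl.1 hl.2
  · apply le_antisymm
    · rintro g ⟨hg, hg'⟩
      have hgq : ∀ i, 1 ≤ i → i ≤ t → g • q i = q i := fun i h1 h2 =>
        (mem_fixingSubgroup_iff _).1 hg' _ ⟨i, h1, h2, rfl⟩
      have hdown : ∀ i, 1 ≤ i → i ≤ t → g ∈ K i → g ∈ K 1 := by
        intro i h1
        induction i, h1 using Nat.le_induction with
        | base => exact fun _ h => h
        | succ i hi ih =>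
          exact fun h2 h3 => ih (by omega) (hstK i hi h2 g h3 (hgq _ (by omega) h2))
      have h1 := hdown t (by omega) le_rfl hg
      rw [hK1] at h1
      rw [hH]
      exact ⟨⟨h1.1, hgq 1 le_rfl (by omega)⟩, h1.2⟩
    · intro g hg
      refine ⟨hmono 1 t (by omega) (hHK hg), ?_⟩
      refine (mem_fixingSubgroup_iff _).2 ?_
      rintro _ ⟨i, h1, h2, rfl⟩
      rcases Nat.eq_or_lt_of_le h1 with h3 | h3
      · subst h3
        rw [hH] at hg
        exact hg.1.2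
      · exact hfixK 1 le_rfl (by omega) g (hHK hg) i h3 h2

end Cfsg.Agent.S0709
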