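import Cfsg.Statements.S0712
import Cfsg.Agent.Lib.Perm.MultiTrans

set_option autoImplicit false
open Cfsg

namespace Cfsg.Agent.S0712


/-- Jordan: a primitive group in which the pointwise stabiliser of a set `s` is doubly transitive on the complement of `s` (which has at least 2 points) is `(|s| + 2)`-transitive. -/
theorem result {α : Type*} [Fintype α] [DecidableEq α] (G : Subgroup (Equiv.Perm α)) (hG : MulAction.IsPreprimitive G α) (s : Set α) {m : ℕ} (hsm : s.ncard = m) (hm : m + 2 ≤ Fintype.card α) (h2 : MulAction.IsMultiplyPretransitive (fixingSubgroup G s) (SubMulAction.ofFixingSubgroup G s) 2) : MulAction.IsMultiplyPretransitive G α (m + 2) := by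
  have hm' : MulAction.IsMultiplyPretransitive G α m := by
    rcases m with _ | k
    · exact MulAction.is_zero_pretransitive
    · have h1 : MulAction.IsMultiplyPreprimitive G α (k + 2) :=
        hG.isMultiplyPreprimitive hsm (by rw [Nat.card_eq_fintype_card]; omega)
          (MulAction.isPreprimitive_of_is_two_pretransitive h2)
      have h3 : MulAction.IsMultiplyPretransitive G α (k + 2) := h1.isMultiplyPretransitive
      exact MulAction.isMultiplyPretransitive_of_le (n := k + 2) (by omega)
        (by rw [Nat.card_eq_fintype_card]; omega)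
  refine CfsgLib.Perm.isMultiplyPretransitive_add_of_fixing hm' s.toFinite.toFinset
    (by rw [← Set.ncard_eq_toFinset_card s, hsm]) ?_
  intro t ht hdis f hf hfs
  obtain ⟨g, hg1, hg2⟩ := CfsgLib.Perm.exists_fix_of_ofFixingSubgroup s h2 t ht
    (fun x hx hxs => Finset.disjoint_right.1 hdis hx (by simpa using hxs)) f hf
    (fun x hx hxs => hfs x hx (by simpa using hxs))
  exact ⟨g, fun x hx => hg1 x (by simpa using hx), hg2⟩

end Cfsg.Agent.S0712
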