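import Cfsg.Statements.S0714
import Cfsg.Agent.Lib.Perm.MultiTrans

set_option autoImplicit false
open Cfsg

namespace Cfsg.Agent.S0714

theorem three_cycle_mem {α : Type*} [Fintype α] [DecidableEq α] {a b c : α} (hab : a ≠ b)
    (hac : a ≠ c) : Equiv.swap a b * Equiv.swap a c ∈ alternatingGroup α := by
  simp [Equiv.Perm.mem_alternatingGroup, Equiv.Perm.sign_swap hab, Equiv.Perm.sign_swap hac]


/-- Over any field, the permutation module of the alternating group of degree at least 5 has exactly four invariant subspaces: zero, the constant functions, the functions with coordinate sum zero, and everything. -/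
theorem result {α : Type*} [Fintype α] [DecidableEq α] (hα : 5 ≤ Fintype.card α) {K : Type*} [Field K] (W : Subrepresentation (Cfsg.permRep K (alternatingGroup α) α)) : W.toSubmodule = ⊥ ∨ W = Cfsg.permConstants K (alternatingGroup α) α ∨ W = Cfsg.permSumZero K (alternatingGroup α) α ∨ W.toSubmodule = ⊤ := by
  have hinv : ∀ (g : Equiv.Perm α), g ∈ alternatingGroup α → ∀ f ∈ W.toSubmodule,
      (fun x => f (g x)) ∈ W.toSubmodule := by
    intro g hg f hf
    have := W.apply_mem_toSubmodule (⟨g, hg⟩ : alternatingGroup α)⁻¹ hf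
    exact this
  by_cases hconst : ∀ f ∈ W.toSubmodule, ∀ a b, f a = f b
  · have hne : Nonempty α := Fintype.card_pos_iff.1 (by omega)
    obtain ⟨a⟩ := hne
    by_cases hbot : W.toSubmodule = ⊥
    · exact Or.inl hbot
    right; left
    obtain ⟨f, hf, hf0⟩ := Submodule.exists_mem_ne_zero_of_ne_bot hbot
    have hfa : f a ≠ 0 := by
      intro h
      apply hf0
      ext x
      rw [hconst f hf x a, h]; rfl
    apply Subrepresentation.toSubmodule_injective
    change W.toSubmodule = Submodule.span K {fun _ => (1 : K)}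
    apply le_antisymm
    · intro u hu
      rw [Submodule.mem_span_singleton]
      exact ⟨u a, funext fun x => by simp [hconst u hu x a]⟩
    · rw [Submodule.span_le, Set.singleton_subset_iff]
      have := W.toSubmodule.smul_mem (f a)⁻¹ hf
      have h2 : (f a)⁻¹ • f = fun _ => 1 := by
        ext x
        simp [hconst f hf x a, hfa]
      rwa [h2] at this
  push Not at hconst
  obtain ⟨f, hf, a, b, hfab⟩ := hconst
  have hab : a ≠ b := fun h => hfab (h ▸ rfl)
  obtain ⟨c, d, e, hc, hd, he, hcd, hce, hde⟩ : ∃ c d e, c ∈ ({a, b} : Finset α)ᶜ ∧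
      d ∈ ({a, b} : Finset α)ᶜ ∧ e ∈ ({a, b} : Finset α)ᶜ ∧ c ≠ d ∧ c ≠ e ∧ d ≠ e := by
    apply Finset.two_lt_card_iff.1
    rw [Finset.card_compl, Finset.card_pair hab]
    omega
  simp only [Finset.mem_compl, Finset.mem_insert, Finset.mem_singleton, not_or] at hc hd he
  obtain ⟨hca, hcb⟩ := hc
  obtain ⟨hda, hdb⟩ := hd
  obtain ⟨hea, heb⟩ := he
  let v : α → K := f - fun x => f ((Equiv.swap a c * Equiv.swap a b) x)
  have hv : v ∈ W.toSubmodule :=
    W.toSubmodule.sub_mem hf (hinv _ (three_cycle_mem (Ne.symm hca) hab) f hf)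
  have hva : v a ≠ 0 := by
    simp only [v, Pi.sub_apply, Equiv.Perm.coe_mul, Function.comp_apply, Equiv.swap_apply_left]
    rw [Equiv.swap_apply_of_ne_of_ne hab.symm (Ne.symm hcb)]
    exact sub_ne_zero.2 hfab
  have hvx : ∀ x, x ≠ a → x ≠ b → x ≠ c → v x = 0 := by
    intro x h1 h2 h3
    simp only [v, Pi.sub_apply, Equiv.Perm.coe_mul, Function.comp_apply]
    rw [Equiv.swap_apply_of_ne_of_ne h1 h2, Equiv.swap_apply_of_ne_of_ne h1 h3, sub_self]
  have hvd := hvx d hda hdb hcd.symm
  have hve := hvx e hea heb hce.symm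
  let w : α → K := v - fun x => v ((Equiv.swap a e * Equiv.swap a d) x)
  have hw : w ∈ W.toSubmodule :=
    W.toSubmodule.sub_mem hv (hinv _ (three_cycle_mem (Ne.symm hea) (Ne.symm hda)) v hv)
  have hw' : (Pi.single a 1 - Pi.single e 1 : α → K) ∈ W.toSubmodule := by
    have := W.toSubmodule.smul_mem (v a)⁻¹ hw
    convert this using 1
    ext x
    simp only [w, Pi.sub_apply, Equiv.Perm.coe_mul, Function.comp_apply, Pi.smul_apply,
      smul_eq_mul]
    by_cases hxa : x = a
    · subst hxa
      rw [Equiv.swap_apply_left, Equiv.swap_apply_of_ne_of_ne hda hde, hvd]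
      simp [hva, hea]
    by_cases hxd : x = d
    · subst hxd
      rw [Equiv.swap_apply_right, Equiv.swap_apply_left, hvd, hve]
      simp [hxa, hde]
    by_cases hxe : x = e
    · subst hxe
      rw [Equiv.swap_apply_of_ne_of_ne hxa hxd, Equiv.swap_apply_right, hve]
      simp [hxa, hva]
    · rw [Equiv.swap_apply_of_ne_of_ne hxa hxd, Equiv.swap_apply_of_ne_of_ne hxa hxe]
      simp [hxa, hxe]
  have h2 : MulAction.IsMultiplyPretransitive (alternatingGroup α) α 2 := by
    have := alternatingGroup.isMultiplyPretransitive α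
    exact MulAction.isMultiplyPretransitive_of_le (n := Nat.card α - 2)
      (by rw [Nat.card_eq_fintype_card]; omega) (by omega)
  have hall : ∀ x, (Pi.single x 1 - Pi.single a 1 : α → K) ∈ W.toSubmodule := by
    intro x
    by_cases hx : x = a
    · simp [hx]
    obtain ⟨g, hg1, hg2⟩ := CfsgLib.Perm.exists_smul_pair h2 hx (Ne.symm hea)
    change g.1 x = a at hg1
    change g.1 a = e at hg2
    have := hinv g.1 g.2 _ hw'
    convert this using 1
    ext y
    simp only [Pi.sub_apply, Pi.single_apply]
    congr 1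
    · rw [← hg1]; simp
    · rw [← hg2]; simp
  have hdecomp : ∀ u : α → K, u - (∑ x, u x) • (Pi.single a 1 : α → K) ∈ W.toSubmodule := by
    intro u
    have : u - (∑ x, u x) • (Pi.single a 1 : α → K) =
        ∑ x, u x • (Pi.single x 1 - Pi.single a 1 : α → K) := by
      simp only [smul_sub, Finset.sum_sub_distrib, Finset.sum_smul]
      congr 1
      ext y
      simp [Finset.sum_apply, Pi.single_apply]
    rw [this]
    exact W.toSubmodule.sum_mem fun x _ => W.toSubmodule.smul_mem _ (hall x)
  by_cases hsum : ∀ u ∈ W.toSubmodule, ∑ x, u x = 0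
  · right; right; left
    apply Subrepresentation.toSubmodule_injective
    ext u
    constructor
    · exact hsum u
    · intro hu
      have hu' : ∑ x, u x = 0 := hu
      have := hdecomp u
      rwa [hu', zero_smul, sub_zero] at this
  · right; right; right
    push Not at hsum
    obtain ⟨u, hu, hu0⟩ := hsum
    have h1 : (Pi.single a 1 : α → K) ∈ W.toSubmodule := by
      have h3 := W.toSubmodule.sub_mem hu (hdecomp u)
      rw [sub_sub_cancel] at h3
      exact (W.toSubmodule.smul_mem_iff hu0).1 h3
    rw [eq_top_iff]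
    intro u' _
    have := W.toSubmodule.add_mem (hdecomp u') (W.toSubmodule.smul_mem (∑ x, u' x) h1)
    rwa [sub_add_cancel] at this

end Cfsg.Agent.S0714
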