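import Cfsg.Statements.S0715
import Cfsg.Agent.Lib.Perm.PermCharMat

set_option autoImplicit false
open Cfsg

namespace Cfsg.Agent.S0715

open CfsgLib.Char CfsgLib.Perm in
theorem aux {G : Type*} [Group G] [Fintype G] {Ω : Type*} [Fintype Ω] [MulAction G Ω]
    [MulAction.IsPretransitive G Ω] (f : ℕ)
    (hf : ∀ χ : G → ℂ, Cfsg.IsIrrCharacter G χ → χ ≠ (fun _ => 1) →
      Cfsg.classInner (permChar G Ω) χ ≠ 0 → ∃ m : ℕ, χ 1 = (f : ℂ) * m) (a b : Ω) (hab : b ≠ a) :
    ∃ z : ℂ, IsIntegral ℤ z ∧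
      (Nat.card (MulAction.orbit (MulAction.stabilizer G a) b) : ℂ) = f * z := by
  classical
  have hA := isInvMat_orbMat (G := G) a b
  have htr : (orbMat G a b).trace = 0 := by
    simp [Matrix.trace, orbMat_diag hab]
  rw [trace_eq_sum_classInner_matFun hA, ← Finset.add_sum_erase _ _ (Finset.mem_univ (irrOne G))]
    at htr
  have h1 : ∀ χ : Cfsg.IrrCharacter G, χ ≠ irrOne G → ∃ z : ℂ, IsIntegral ℤ z ∧
      Cfsg.classInner (matFun G (orbMat G a b)) χ * (χ : G → ℂ) 1 = f * z := by
    intro χ hχ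
    by_cases h0 : Cfsg.classInner (permChar G Ω) χ = 0
    · exact ⟨0, isIntegral_zero, by rw [classInner_matFun_eq_zero hA χ.2 h0]; simp⟩
    · obtain ⟨m, hm⟩ := hf χ χ.2 (fun h => hχ (Subtype.ext h)) h0
      refine ⟨Cfsg.classInner (matFun G (orbMat G a b)) χ * m, ?_, by rw [hm]; ring⟩
      exact (isIntegral_classInner_matFun hA (orbMat_int a b) (isCharacter_of_isIrr χ.2)).mul
        (isIntegral_natCast m)
  choose! z hz using h1
  refine ⟨-∑ χ ∈ Finset.univ.erase (irrOne G), z χ, ?_, ?_⟩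
  · exact (IsIntegral.sum _ fun χ hχ => (hz χ (Finset.ne_of_mem_erase hχ)).1).neg
  · rw [Finset.sum_congr rfl fun χ hχ => (hz χ (Finset.ne_of_mem_erase hχ)).2,
      ← Finset.mul_sum] at htr
    have : Cfsg.classInner (matFun G (orbMat G a b)) (irrOne G : G → ℂ) =
        Nat.card (MulAction.orbit (MulAction.stabilizer G a) b) := by
      rw [← sum_orbMat]; exact classInner_matFun_one hA a
    rw [this] at htr
    have h1 : (irrOne G : G → ℂ) 1 = 1 := rfl
    rw [h1] at htr
    linear_combination htr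


/-- If a natural number `f` divides the degree of every non-principal irreducible constituent of the permutation character of a transitive group, then `f` divides every non-trivial subdegree. -/
theorem result {G : Type*} [Group G] [Fintype G] {Ω : Type*} [Fintype Ω] [MulAction G Ω] [MulAction.IsPretransitive G Ω] (f : ℕ) (hf : ∀ χ : G → ℂ, Cfsg.IsIrrCharacter G χ → χ ≠ (fun _ => 1) → Cfsg.classInner (fun g : G => (Nat.card (MulAction.fixedBy Ω g) : ℂ)) χ ≠ 0 → ∃ m : ℕ, χ 1 = (f : ℂ) * m) (a b : Ω) (hab : b ≠ a) : f ∣ Nat.card (MulAction.orbit (MulAction.stabilizer G a) b) := by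
  obtain ⟨z, hz, h⟩ := aux f hf a b hab
  rcases Nat.eq_zero_or_pos f with rfl | hf0
  · have : (Nat.card (MulAction.orbit (MulAction.stabilizer G a) b) : ℂ) = 0 := by simpa using h
    rw [Nat.cast_eq_zero.1 this]
  · have hq : z = ((Nat.card (MulAction.orbit (MulAction.stabilizer G a) b) : ℚ) / f : ℚ) := by
      have : (f : ℂ) ≠ 0 := Nat.cast_ne_zero.2 hf0.ne'
      push_cast
      rw [h]; field_simp
    rw [hq] at hz
    have hz' : IsIntegral ℤ ((Nat.card (MulAction.orbit (MulAction.stabilizer G a) b) : ℚ) / f : ℚ) :=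
      (isIntegral_algebraMap_iff (algebraMap ℚ ℂ).injective).1 hz
    obtain ⟨n, hn⟩ := IsIntegrallyClosed.isIntegral_iff.1 hz'
    have hf' : (f : ℚ) ≠ 0 := Nat.cast_ne_zero.2 hf0.ne'
    have : (Nat.card (MulAction.orbit (MulAction.stabilizer G a) b) : ℤ) = f * n := by
      have h2 : (Nat.card (MulAction.orbit (MulAction.stabilizer G a) b) : ℚ) = f * n := by
        simp only [eq_intCast] at hn
        rw [hn]; field_simp
      exact_mod_cast h2
    exact Int.natCast_dvd_natCast.1 ⟨n, this⟩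

end Cfsg.Agent.S0715
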