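import Cfsg.Statements.S0716
import Cfsg.Agent.Lib.Perm.PermCharRank
import Cfsg.Agent.S0715

set_option autoImplicit false
open Cfsg

namespace Cfsg.Agent.S0716

open CfsgLib.Char CfsgLib.Perm MulAction in
theorem aux {G : Type*} [Group G] [Fintype G] {Ω : Type*} [Fintype Ω] [MulAction G Ω]
    [MulAction.IsPretransitive G Ω] (a : Ω) (f : ℕ)
    (hf : ∀ χ : G → ℂ, Cfsg.IsIrrCharacter G χ → χ ≠ (fun _ => 1) →
      Cfsg.classInner (permChar G Ω) χ ≠ 0 → χ 1 = f) :
    (∀ χ : G → ℂ, Cfsg.IsIrrCharacter G χ →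
      Cfsg.classInner (permChar G Ω) χ = 0 ∨ Cfsg.classInner (permChar G Ω) χ = 1) ∧
      ∀ b : Ω, b ≠ a → Nat.card (orbit (stabilizer G a) b) = f := by
  classical
  have := Fintype.ofFinite (orbitRel.Quotient (stabilizer G a) Ω)
  obtain ⟨m, hm, h1, hn, hr⟩ := exists_permChar_mult (G := G) a
  have hdvd := fun b hb => Cfsg.Agent.S0715.result f
    (fun χ hχ h1 h0 => ⟨1, by rw [hf χ hχ h1 h0]; simp⟩) a b hb
  have hn' : Fintype.card Ω = 1 + (∑ χ ∈ Finset.univ.erase (irrOne G), m χ) * f := by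
    have : ∀ χ ∈ Finset.univ.erase (irrOne G), (m χ : ℂ) * (χ : G → ℂ) 1 = m χ * f := by
      intro χ hχ
      by_cases h0 : m χ = 0
      · simp [h0]
      · rw [hf χ χ.2 (fun h => Finset.ne_of_mem_erase hχ (Subtype.ext h))
          (by rw [hm]; exact_mod_cast h0)]
    rw [Finset.sum_congr rfl this, ← Finset.sum_mul] at hn
    exact_mod_cast hn
  have hsub := card_eq_one_add_sum_subdegrees (G := G) a
  set S := (Finset.univ : Finset (orbitRel.Quotient (stabilizer G a) Ω)).erase (Quotient.mk _ a)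
    with hS
  have hge : ∀ ω ∈ S, f ≤ Nat.card ω.orbit := by
    intro ω hω
    obtain ⟨b, rfl⟩ := Quotient.exists_rep ω
    have hb : b ≠ a := fun h => Finset.ne_of_mem_erase hω (by rw [h])
    exact Nat.le_of_dvd (card_orbit_pos b) (hdvd b hb)
  have hcard : S.card = ∑ χ ∈ Finset.univ.erase (irrOne G), m χ ^ 2 := by
    rw [hS, Finset.card_erase_of_mem (Finset.mem_univ _), Finset.card_univ,
      ← Nat.card_eq_fintype_card, hr]
    simp
  have h2 : S.card * f ≤ ∑ ω ∈ S, Nat.card ω.orbit := by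
    simpa using Finset.card_nsmul_le_sum S _ _ hge
  have h3 : ∀ χ ∈ Finset.univ.erase (irrOne G), m χ ≤ m χ ^ 2 := fun χ _ => Nat.le_self_pow
    two_ne_zero _
  have h4 := Finset.sum_le_sum h3
  rw [Nat.card_eq_fintype_card, hn'] at hsub
  have h5 : (∑ χ ∈ Finset.univ.erase (irrOne G), m χ) * f = ∑ ω ∈ S, Nat.card ω.orbit := by omega
  have h6 : S.card * f = ∑ ω ∈ S, Nat.card ω.orbit := by
    refine le_antisymm h2 ?_
    rw [← h5, hcard]
    exact Nat.mul_le_mul_right _ h4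
  constructor
  · intro χ hχ
    by_cases hχ1 : χ = fun _ => 1
    · right
      have := hm (irrOne G)
      rw [h1] at this
      rw [hχ1]; exact_mod_cast this
    by_cases h0 : Cfsg.classInner (permChar G Ω) χ = 0
    · exact Or.inl h0
    right
    have hf0 : 0 < f := by
      have := hf χ hχ hχ1 h0
      rcases Nat.eq_zero_or_pos f with rfl | h
      · exact absurd (by simpa using this) (irr_one_ne_zero hχ)
      · exact h
    have h7 : ∑ χ ∈ Finset.univ.erase (irrOne G), m χ =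
        ∑ χ ∈ Finset.univ.erase (irrOne G), m χ ^ 2 := by
      rw [← hcard]
      exact Nat.eq_of_mul_eq_mul_right hf0 (h5.trans h6.symm)
    have h8 := (Finset.sum_eq_sum_iff_of_le h3).1 h7 ⟨χ, hχ⟩
      (Finset.mem_erase.2 ⟨fun h => hχ1 (congrArg Subtype.val h), Finset.mem_univ _⟩)
    have h9 := hm ⟨χ, hχ⟩
    have h10 : m ⟨χ, hχ⟩ ≠ 0 := fun h => h0 (by simpa [h] using h9)
    have h11 : m ⟨χ, hχ⟩ = 1 := by
      rw [sq] at h8
      exact (Nat.eq_of_mul_eq_mul_left (Nat.pos_of_ne_zero h10) (by rw [← h8, mul_one])).symm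
    simpa [h11] using h9
  · intro b hb
    have h7 : ∑ ω ∈ S, f = ∑ ω ∈ S, Nat.card ω.orbit := by
      rw [← h6]; simp
    exact ((Finset.sum_eq_sum_iff_of_le hge).1 h7 (Quotient.mk _ b)
      (Finset.mem_erase.2 ⟨fun h => hb ((mk_ne_mk_stabilizer_iff a b).1 h),
        Finset.mem_univ _⟩)).symm

open CfsgLib.Char CfsgLib.Perm MulAction in
theorem aux2 {G : Type*} [Group G] [Fintype G] {Ω : Type*} [Fintype Ω] [MulAction G Ω]
    [MulAction.IsPretransitive G Ω] (a : Ω)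
    (hr5 : Nat.card (orbitRel.Quotient (stabilizer G a) Ω) ≤ 5) :
    ∀ χ : G → ℂ, Cfsg.IsIrrCharacter G χ →
      Cfsg.classInner (permChar G Ω) χ = 0 ∨ Cfsg.classInner (permChar G Ω) χ = 1 := by
  classical
  obtain ⟨m, hm, h1, -, hr⟩ := exists_permChar_mult (G := G) a
  intro χ hχ
  by_contra hne
  push Not at hne
  have h9 := hm ⟨χ, hχ⟩
  have h10 : m ⟨χ, hχ⟩ ≠ 0 := fun h => hne.1 (by simpa [h] using h9)
  have h11 : m ⟨χ, hχ⟩ ≠ 1 := fun h => hne.2 (by simpa [h] using h9)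
  have hmem : (⟨χ, hχ⟩ : Cfsg.IrrCharacter G) ∈ Finset.univ.erase (irrOne G) :=
    Finset.mem_erase.2 ⟨fun h => h11 (by rw [h, h1]), Finset.mem_univ _⟩
  rw [← Finset.add_sum_erase _ _ hmem] at hr
  have h4 : 2 ^ 2 ≤ m ⟨χ, hχ⟩ ^ 2 := Nat.pow_le_pow_left (by omega) 2
  have h5 : ∑ ψ ∈ (Finset.univ.erase (irrOne G)).erase ⟨χ, hχ⟩, m ψ ^ 2 = 0 := by
    have : ∀ x y : ℕ, 2 ^ 2 ≤ x → 1 + (x + y) ≤ 5 → y = 0 := by omega
    exact this _ _ h4 (hr ▸ hr5)
  obtain ⟨f, -, hf⟩ := exists_irr_one_eq_nat hχ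
  have := (aux a f fun ψ hψ hψ1 hψ0 => by
    by_cases h : ψ = χ
    · rw [h, hf]
    · have := (Finset.sum_eq_zero_iff.1 h5) ⟨ψ, hψ⟩ (Finset.mem_erase.2
        ⟨fun h' => h (congrArg Subtype.val h'), Finset.mem_erase.2
          ⟨fun h' => hψ1 (congrArg Subtype.val h'), Finset.mem_univ _⟩⟩)
      have h2 := hm ⟨ψ, hψ⟩
      rw [pow_eq_zero_iff two_ne_zero] at this
      exact absurd (by simpa [this] using h2) hψ0).1 χ hχ
  tauto


/-- (a) If all non-principal irreducible constituents of the permutation character of a transitive group have the same degree `f`, the character is multiplicity-free and all non-trivial subdegrees equal `f`. (b) A transitive group of rank at most 5 has multiplicity-free permutation character. -/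
theorem result {G : Type*} [Group G] [Fintype G] {Ω : Type*} [Fintype Ω] [MulAction G Ω] [MulAction.IsPretransitive G Ω] (a : Ω) : ((f : ℕ) → (∀ χ : G → ℂ, Cfsg.IsIrrCharacter G χ → χ ≠ (fun _ => 1) → Cfsg.classInner (fun g : G => (Nat.card (MulAction.fixedBy Ω g) : ℂ)) χ ≠ 0 → χ 1 = f) → (∀ χ : G → ℂ, Cfsg.IsIrrCharacter G χ → Cfsg.classInner (fun g : G => (Nat.card (MulAction.fixedBy Ω g) : ℂ)) χ = 0 ∨ Cfsg.classInner (fun g : G => (Nat.card (MulAction.fixedBy Ω g) : ℂ)) χ = 1) ∧ ∀ b : Ω, b ≠ a → Nat.card (MulAction.orbit (MulAction.stabilizer G a) b) = f) ∧ (Nat.card (MulAction.orbitRel.Quotient (MulAction.stabilizer G a) Ω) ≤ 5 → ∀ χ : G → ℂ, Cfsg.IsIrrCharacter G χ → Cfsg.classInner (fun g : G => (Nat.card (MulAction.fixedBy Ω g) : ℂ)) χ = 0 ∨ Cfsg.classInner (fun g : G => (Nat.card (MulAction.fixedBy Ω g) : ℂ)) χ = 1) := by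
  exact ⟨fun f hf => aux a f hf, aux2 a⟩

end Cfsg.Agent.S0716
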