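import Cfsg.Statements.S0717
import Cfsg.Agent.Lib.Perm.PermCharMat

set_option autoImplicit false
open Cfsg

namespace Cfsg.Agent.S0717

open CfsgLib.Char CfsgLib.Perm Matrix in
theorem aux {G : Type*} [Group G] [Fintype G] {Ω : Type*} [Fintype Ω] [MulAction G Ω] :
    (∀ a b : Ω, (∃ g : G, g • a = b) → ∃ g : G, g • a = b ∧ g • b = a) →
    [MulAction.IsPretransitive G Ω] → ∀ χ : G → ℂ, Cfsg.IsIrrCharacter G χ →
      Cfsg.classInner (permChar G Ω) χ ≠ 0 →
        Cfsg.classInner (permChar G Ω) χ = 1 ∧ ∀ g : G, (starRingEnd ℂ) (χ g) = χ g := by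
  classical
  intro h _ χ hχ h0
  have hsymm : ∀ A : Matrix Ω Ω ℂ, IsInvMat G A → Aᵀ = A := by
    intro A hA
    ext x y
    obtain ⟨g, h1, h2⟩ := h x y (MulAction.exists_smul_eq G x y)
    rw [Matrix.transpose_apply, ← hA g x y, h1, h2]
  have hfree := (multFree_iff_mat_comm (G := G) (Ω := Ω)).2 fun A B hA hB => by
    rw [← hsymm _ (hA.mul hB), Matrix.transpose_mul, hsymm A hA, hsymm B hB]
  refine ⟨(hfree χ hχ).resolve_left h0, ?_⟩
  have h1 := hsymm _ (isInvMat_idemMat (Ω := Ω) (isClassFunction_of_isIrr hχ))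
  rw [idemMat_transpose (isCharacter_of_isIrr hχ)] at h1
  by_contra hne
  have hne' : (fun g => (starRingEnd ℂ) (χ g)) ≠ χ := fun h => hne (congrFun h)
  have h2 := idemMat_mul_of_ne (Ω := Ω) (isIrr_conj hχ) hχ hne'
  rw [h1, idemMat_mul_self hχ, idemMat_eq_zero_iff hχ] at h2
  exact h0 h2

open CfsgLib.Char CfsgLib.Perm Matrix in
theorem aux2 {G : Type*} [Group G] [Fintype G] {Ω : Type*} [Fintype Ω] [MulAction G Ω]
    (h : ∀ χ : G → ℂ, Cfsg.IsIrrCharacter G χ →
      Cfsg.classInner (permChar G Ω) χ ≠ 0 →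
        Cfsg.classInner (permChar G Ω) χ = 1 ∧ ∀ g : G, (starRingEnd ℂ) (χ g) = χ g)
    (a b : Ω) : ∃ g : G, g • a = b ∧ g • b = a := by
  classical
  have hA := isInvMat_orbMat (G := G) a b
  have h1 := eq_sum_idemMat_of_multFree (fun χ hχ => by
    by_cases h0 : Cfsg.classInner (permChar G Ω) χ = 0
    · exact Or.inl h0
    · exact Or.inr (h χ hχ h0).1) hA
  have h2 : (orbMat G a b)ᵀ = orbMat G a b := by
    conv_lhs => rw [h1]
    conv_rhs => rw [h1]
    rw [Matrix.transpose_sum]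
    refine Finset.sum_congr rfl fun χ _ => ?_
    rw [Matrix.transpose_smul]
    by_cases h0 : Cfsg.classInner (permChar G Ω) χ = 0
    · rw [(idemMat_eq_zero_iff χ.2).2 h0]; simp
    · rw [idemMat_transpose (isCharacter_of_isIrr χ.2), funext (h χ χ.2 h0).2]
  have h3 : orbMat G a b a b = 1 := orbMat_eq_one_iff.2 ⟨1, one_smul _ _, one_smul _ _⟩
  rw [← h2, Matrix.transpose_apply, orbMat_eq_one_iff] at h3
  exact h3


/-- All suborbits of a transitive group are self-paired (every pair of points is interchanged by some group element) if and only if the permutation character is multiplicity-free and each of its irreducible constituents is real-valued. -/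
theorem result {G : Type*} [Group G] [Fintype G] {Ω : Type*} [Fintype Ω] [MulAction G Ω] [MulAction.IsPretransitive G Ω] : (∀ a b : Ω, ∃ g : G, g • a = b ∧ g • b = a) ↔ ∀ χ : G → ℂ, Cfsg.IsIrrCharacter G χ → Cfsg.classInner (fun g : G => (Nat.card (MulAction.fixedBy Ω g) : ℂ)) χ ≠ 0 → Cfsg.classInner (fun g : G => (Nat.card (MulAction.fixedBy Ω g) : ℂ)) χ = 1 ∧ ∀ g : G, (starRingEnd ℂ) (χ g) = χ g := by
  exact ⟨fun h => aux fun a b _ => h a b, fun h => aux2 h⟩

end Cfsg.Agent.S0717
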