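import Cfsg.Statements.S0718
import Cfsg.Agent.Lib.Perm.PermCharMat

set_option autoImplicit false
open Cfsg

namespace Cfsg.Agent.S0718


/-- Multiplicity-freeness of the permutation character is equivalent to commutativity of the centraliser ring, i.e. of the algebra of `G`-equivariant endomorphisms of the complex permutation module. -/
theorem result {G : Type*} [Group G] [Fintype G] {Ω : Type*} [Fintype Ω] [MulAction G Ω] : (∀ χ : G → ℂ, Cfsg.IsIrrCharacter G χ → Cfsg.classInner (fun g : G => (Nat.card (MulAction.fixedBy Ω g) : ℂ)) χ = 0 ∨ Cfsg.classInner (fun g : G => (Nat.card (MulAction.fixedBy Ω g) : ℂ)) χ = 1) ↔ ∀ S T : (Ω → ℂ) →ₗ[ℂ] (Ω → ℂ), S ∈ ((Cfsg.permRep ℂ G Ω).linHom (Cfsg.permRep ℂ G Ω)).invariants → T ∈ ((Cfsg.permRep ℂ G Ω).linHom (Cfsg.permRep ℂ G Ω)).invariants → S ∘ₗ T = T ∘ₗ S := by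
  change (∀ χ : G → ℂ, Cfsg.IsIrrCharacter G χ →
    Cfsg.classInner (CfsgLib.Perm.permChar G Ω) χ = 0 ∨
      Cfsg.classInner (CfsgLib.Perm.permChar G Ω) χ = 1) ↔ _
  rw [← CfsgLib.Perm.permRep_character, CfsgLib.Perm.multFree_iff_comm]
  have key : ∀ S : (Ω → ℂ) →ₗ[ℂ] (Ω → ℂ),
      S ∈ ((Cfsg.permRep ℂ G Ω).linHom (Cfsg.permRep ℂ G Ω)).invariants ↔
        ∀ g, S * Cfsg.permRep ℂ G Ω g = Cfsg.permRep ℂ G Ω g * S := by
    intro S
    rw [Representation.mem_invariants]
    refine forall_congr' fun g => ?_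
    rw [Representation.linHom_apply]
    constructor
    · intro h
      conv_lhs => rw [← h]
      rw [← Module.End.mul_eq_comp, ← Module.End.mul_eq_comp, mul_assoc, mul_assoc, ← map_mul,
        inv_mul_cancel, map_one, mul_one]
    · intro h
      rw [← Module.End.mul_eq_comp, ← Module.End.mul_eq_comp, ← mul_assoc, ← h, mul_assoc,
        ← map_mul, mul_inv_cancel, map_one, mul_one]
  simp only [key]
  rfl

end Cfsg.Agent.S0718
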