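import Cfsg.Statements.S0719
import Cfsg.Agent.Lib.Perm.PermCharPrim

set_option autoImplicit false
open Cfsg

namespace Cfsg.Agent.S0719

open CfsgLib.Char CfsgLib.Perm MulAction Matrix in
theorem aux {G : Type*} [Group G] [Fintype G] {Ω : Type*} [Fintype Ω] [MulAction G Ω]
    [IsPreprimitive G Ω] {m : ℕ} (hm : Fintype.card Ω = 2 * m) (a₀ : Ω)
    (hrank : Nat.card (orbitRel.Quotient (stabilizer G a₀) Ω) = 3) (χ₁ χ₂ : G → ℂ)
    (h₁ : Cfsg.IsIrrCharacter G χ₁) (h₂ : Cfsg.IsIrrCharacter G χ₂)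
    (hπ : permChar G Ω = fun g => 1 + χ₁ g + χ₂ g) (hd₁ : χ₁ 1 = (m : ℂ) - 1) (hd₂ : χ₂ 1 = m)
    (hm2 : 2 ≤ m) (b : Ω) (hb : b ≠ a₀) :
    ∃ s : ℤ, (m : ℤ) - 1 = 2 * s * (s + 1) ∧
      (Nat.card (orbit (stabilizer G a₀) b) : ℤ) = s * (2 * s + 1) := by
  classical
  have := Fintype.ofFinite (orbitRel.Quotient (stabilizer G a₀) Ω)
  have hne : Nonempty Ω := ⟨a₀⟩
  have hin : ∀ ψ, Cfsg.classInner (permChar G Ω) ψ =
      Cfsg.classInner (fun _ => 1) ψ + Cfsg.classInner χ₁ ψ + Cfsg.classInner χ₂ ψ := by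
    intro ψ
    rw [hπ, ← classInner_add_left, ← classInner_add_left]
    rfl
  have h12 : χ₁ ≠ χ₂ := fun h => by
    rw [h, hd₂] at hd₁
    have : (1 : ℂ) = 0 := by linear_combination hd₁
    exact one_ne_zero this
  have h20 : χ₂ ≠ fun _ => 1 := fun h => by
    rw [h] at hd₂
    have : m = 1 := by exact_mod_cast (show (m : ℂ) = 1 from hd₂.symm)
    omega
  have h10 : χ₁ ≠ fun _ => 1 := fun h => by
    have := hin fun _ => 1
    rw [classInner_permChar_one_of_transitive, classInner_irr_of_ne h₂ isIrr_one h20, h,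
      classInner_one_one] at this
    norm_num at this
  have hi1 : Cfsg.classInner (permChar G Ω) χ₁ = 1 := by
    rw [hin, classInner_irr_of_ne isIrr_one h₁ h10.symm, classInner_irr_self h₁,
      classInner_irr_of_ne h₂ h₁ h12.symm]; simp
  have hi2 : Cfsg.classInner (permChar G Ω) χ₂ = 1 := by
    rw [hin, classInner_irr_of_ne isIrr_one h₂ h20.symm, classInner_irr_self h₂,
      classInner_irr_of_ne h₁ h₂ h12]; simp
  have hi0 : ∀ ψ, Cfsg.IsIrrCharacter G ψ → ψ ≠ (fun _ => 1) → ψ ≠ χ₁ → ψ ≠ χ₂ →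
      Cfsg.classInner (permChar G Ω) ψ = 0 := by
    intro ψ hψ h0 h1 h2
    rw [hin, classInner_irr_of_ne isIrr_one hψ h0.symm, classInner_irr_of_ne h₁ hψ h1.symm,
      classInner_irr_of_ne h₂ hψ h2.symm]; simp
  set E₀ := idemMat Ω (fun _ : G => (1 : ℂ)) with hE₀
  set E₁ := idemMat Ω χ₁ with hE₁
  set E₂ := idemMat Ω χ₂ with hE₂
  have hsum : E₀ + E₁ + E₂ = 1 := by
    rw [← sum_idemMat (G := G), ← Finset.sum_subset (Finset.subset_univ
      ({irrOne G, ⟨χ₁, h₁⟩, ⟨χ₂, h₂⟩} : Finset (Cfsg.IrrCharacter G)))]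
    · rw [Finset.sum_insert, Finset.sum_pair, add_assoc]
      · rfl
      · exact fun h => h12 (congrArg Subtype.val h)
      · simp only [Finset.mem_insert, Finset.mem_singleton, not_or]
        exact ⟨fun h => h10 (congrArg Subtype.val h).symm,
          fun h => h20 (congrArg Subtype.val h).symm⟩
    · intro ψ _ hψ
      simp only [Finset.mem_insert, Finset.mem_singleton, not_or] at hψ
      exact (idemMat_eq_zero_iff ψ.2).2 (hi0 ψ ψ.2 (fun h => hψ.1 (Subtype.ext h))
        (fun h => hψ.2.1 (Subtype.ext h)) fun h => hψ.2.2 (Subtype.ext h))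
  have hreal : (fun g => (starRingEnd ℂ) (χ₂ g)) = χ₂ := by
    by_contra hne
    have hd : (starRingEnd ℂ) (χ₂ 1) = m := by rw [hd₂]; simp
    have := hi0 _ (isIrr_conj h₂) (fun h => by
      have := congrFun h 1
      rw [hd] at this
      have : m = 1 := by exact_mod_cast this
      omega) (fun h => by
      have := congrFun h 1
      rw [hd, hd₁] at this
      have : (1 : ℂ) = 0 := by linear_combination this
      exact one_ne_zero this) hne
    have h2 : permChar G Ω = fun g => (starRingEnd ℂ) (permChar G Ω g) := by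
      ext g; simp [permChar]
    rw [h2, classInner_conj_conj, ← classInner_conj_symm, hi2] at this
    simp at this
  have hs2 : E₂ᵀ = E₂ := by rw [hE₂, idemMat_transpose (isCharacter_of_isIrr h₂), hreal]
  have hs0 : E₀ᵀ = E₀ := by
    ext x y; simp [hE₀, idemMat_one_apply]
  have hs1 : E₁ᵀ = E₁ := by
    have : E₁ = 1 - E₀ - E₂ := by rw [← hsum]; abel
    rw [this, Matrix.transpose_sub, Matrix.transpose_sub, hs0, hs2, Matrix.transpose_one]
  set A := orbMat G a₀ b with hAdef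
  have hA : IsInvMat G A := isInvMat_orbMat a₀ b
  set k := Nat.card (orbit (stabilizer G a₀) b) with hk
  set r := Cfsg.classInner (matFun G A) χ₁
  set s := Cfsg.classInner (matFun G A) χ₂
  have hA0 : A * E₀ = (k : ℂ) • E₀ := by
    rw [mul_idemMat_eq_smul hA isIrr_one classInner_permChar_one_of_transitive,
      classInner_matFun_one hA a₀, sum_orbMat]
  have hA1 : A * E₁ = r • E₁ := mul_idemMat_eq_smul hA h₁ hi1
  have hA2 : A * E₂ = s • E₂ := mul_idemMat_eq_smul hA h₂ hi2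
  have hAe : A = (k : ℂ) • E₀ + r • E₁ + s • E₂ := by
    rw [← hA0, ← hA1, ← hA2, ← mul_add, ← mul_add, hsum, mul_one]
  have hAs : Aᵀ = A := by
    rw [hAe]; simp [hs0, hs1, hs2]
  have hAA : A * A = ((k : ℂ) * k) • E₀ + (r * r) • E₁ + (s * s) • E₂ := by
    conv_lhs => rw [hAe, ← hAe]
    conv_lhs => congr; rfl; rw [hAe]
    simp only [mul_add, Matrix.mul_smul, hA0, hA1, hA2, smul_smul]
  have ht0 : E₀.trace = 1 := by
    rw [hE₀, trace_idemMat isIrr_one, classInner_permChar_one_of_transitive, mul_one]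
  have ht1 : E₁.trace = m - 1 := by rw [hE₁, trace_idemMat h₁, hi1, hd₁, one_mul]
  have ht2 : E₂.trace = m := by rw [hE₂, trace_idemMat h₂, hi2, hd₂, one_mul]
  have htA : (k : ℂ) + r * (m - 1) + s * m = 0 := by
    have : A.trace = 0 := by simp [hAdef, Matrix.trace, orbMat_diag hb]
    rw [hAe] at this
    simpa [ht0, ht1, ht2] using this
  have htAA : (k : ℂ) * k + r * r * (m - 1) + s * s * m = 2 * m * k := by
    have := trace_orbMat_mul_transpose hA a₀ b
    have h1 : A a₀ b = 1 := orbMat_self a₀ b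
    rw [hAs, h1, ← hAdef, hAA, hm, ← hk] at this
    simpa [ht0, ht1, ht2] using this
  -- a third orbit
  obtain ⟨ω, -, hω⟩ := Finset.exists_mem_notMem_of_card_lt_card
    (s := ({Quotient.mk _ a₀, Quotient.mk _ b} : Finset (orbitRel.Quotient (stabilizer G a₀) Ω)))
    (t := Finset.univ) (by
      rw [Finset.card_univ, ← Nat.card_eq_fintype_card, hrank]
      exact Nat.lt_succ_of_le Finset.card_le_two)
  obtain ⟨b', rfl⟩ := Quotient.exists_rep ω
  simp only [Finset.mem_insert, Finset.mem_singleton, not_or] at hω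
  have hb' : b' ≠ a₀ := fun h => hω.1 (by rw [h])
  have hAb' : A a₀ b' = 0 := by
    refine (orbMat_zero_or_one a₀ b a₀ b').resolve_right fun h => hω.2 ?_
    exact Quotient.sound (orbMat_apply_eq_one_iff_mem.1 h)
  have hnp : ¬ (Nat.card Ω).Prime := by
    rw [Nat.card_eq_fintype_card, hm]
    exact Nat.not_prime_mul (by norm_num) (by omega)
  have hk2 : 2 ≤ k := two_le_card_orbit_stabilizer hnp hb
  have hk3 : k + 3 ≤ 2 * m := by
    have h1 := card_eq_one_add_sum_subdegrees (G := G) a₀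
    have h2 := two_le_card_orbit_stabilizer (G := G) hnp hb'
    have h3 := Finset.sum_le_sum_of_subset (f := fun ω : orbitRel.Quotient (stabilizer G a₀) Ω =>
      Nat.card ω.orbit) (s := {Quotient.mk _ b', Quotient.mk _ b})
      (t := Finset.univ.erase (Quotient.mk _ a₀)) (by
        intro ω hω'
        simp only [Finset.mem_insert, Finset.mem_singleton] at hω'
        rcases hω' with rfl | rfl
        · exact Finset.mem_erase.2 ⟨hω.1, Finset.mem_univ _⟩
        · exact Finset.mem_erase.2 ⟨fun h => hb ((mk_ne_mk_stabilizer_iff a₀ b).1 h),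
            Finset.mem_univ _⟩)
    rw [Finset.sum_pair hω.2] at h3
    change Nat.card (orbit (stabilizer G a₀) b') + k ≤ _ at h3
    rw [Nat.card_eq_fintype_card, hm] at h1
    omega
  have hint : ∀ x y, ∃ n : ℤ, (A * A) x y = n := by
    choose B hB using orbMat_int (G := G) a₀ b
    exact fun x y => ⟨∑ z, B x z * B z y, by simp [hAdef, Matrix.mul_apply, hB]⟩
  have hpoly : A * A - (r + s) • A + (r * s) • (1 : Matrix Ω Ω ℂ) =
      ((k - r) * (k - s)) • E₀ := by
    rw [hAA, ← hsum]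
    conv_lhs => congr; congr; rfl; rw [hAe]
    module
  obtain ⟨n₁, hn₁⟩ := hint a₀ b
  obtain ⟨n₂, hn₂⟩ := hint a₀ b'
  have e1 := congrFun (congrFun hpoly a₀) b
  have e2 := congrFun (congrFun hpoly a₀) b'
  simp only [Matrix.add_apply, Matrix.sub_apply, Matrix.smul_apply, smul_eq_mul, hn₁, hn₂, hAb',
    hE₀, idemMat_one_apply, Matrix.one_apply_ne hb.symm, Matrix.one_apply_ne hb'.symm] at e1 e2
  rw [hAdef, orbMat_self] at e1
  obtain ⟨t, ht⟩ : ∃ t : ℤ, r + s = -t := ⟨n₂ - n₁, by push_cast; linear_combination e2 - e1⟩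
  obtain ⟨s', hs'⟩ : ∃ s' : ℤ, s = s' ∧ (k : ℤ) = (m - 1) * t - s' :=
    ⟨(m - 1) * t - k, by push_cast; linear_combination htA - (m - 1) * ht, by ring⟩
  have hr : r = -t - s' := by rw [← hs'.1]; linear_combination ht
  have hkc : (k : ℂ) = (m - 1) * t - s' := by exact_mod_cast hs'.2
  rw [hr, hs'.1, hkc] at htAA
  have hm0 : (m : ℂ) ≠ 0 := Nat.cast_ne_zero.2 (by omega)
  have key : ((m : ℂ) - 1) * (t * (t - 2)) + 2 * (s' * (s' + 1)) = 0 := by
    apply mul_left_cancel₀ hm0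
    linear_combination htAA
  have key' : ((m : ℤ) - 1) * (t * (t - 2)) + 2 * (s' * (s' + 1)) = 0 := by exact_mod_cast key
  have hss : 0 ≤ s' * (s' + 1) := by nlinarith [sq_nonneg (2 * s' + 1), Int.emod_emod_of_dvd]
  have hm' : (1 : ℤ) ≤ m - 1 := by omega
  have htt : t * (t - 2) ≤ 0 := by nlinarith
  have ht0 : 0 ≤ t := by nlinarith
  have ht2 : t ≤ 2 := by nlinarith
  have hk' := hs'.2
  refine ⟨s', ?_⟩
  interval_cases t
  · have : s' * (s' + 1) = 0 := by linarith
    rcases mul_eq_zero.1 this with h | h <;> omega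
  · constructor <;> linarith
  · have : s' * (s' + 1) = 0 := by linarith
    rcases mul_eq_zero.1 this with h | h <;> omega


/-- Groups of Wielandt type: if a primitive group of degree `2m` has rank 3 and permutation character `1 + χ₁ + χ₂` with irreducible `χ₁, χ₂` of degrees `m - 1` and `m`, then `m = 2a² + 2a + 1` for some positive integer `a` and the two non-trivial subdegrees are `a(2a+1)` and `(a+1)(2a+1)`. -/
theorem result {G : Type*} [Group G] [Fintype G] {Ω : Type*} [Fintype Ω] [MulAction G Ω] (hprim : MulAction.IsPreprimitive G Ω) {m : ℕ} (hm : Fintype.card Ω = 2 * m) (a₀ : Ω) (hrank : Nat.card (MulAction.orbitRel.Quotient (MulAction.stabilizer G a₀) Ω) = 3) (χ₁ χ₂ : G → ℂ) (h₁ : Cfsg.IsIrrCharacter G χ₁) (h₂ : Cfsg.IsIrrCharacter G χ₂) (hπ : (fun g : G => (Nat.card (MulAction.fixedBy Ω g) : ℂ)) = fun g => 1 + χ₁ g + χ₂ g) (hd₁ : χ₁ 1 = (m : ℂ) - 1) (hd₂ : χ₂ 1 = m) : ∃ a : ℕ, 0 < a ∧ m = 2 * a ^ 2 + 2 * a + 1 ∧ ∀ b : Ω, b ≠ a₀ → Nat.card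 (MulAction.orbit (MulAction.stabilizer G a₀) b) = a * (2 * a + 1) ∨ Nat.card (MulAction.orbit (MulAction.stabilizer G a₀) b) = (a + 1) * (2 * a + 1) := by
  have hm2 : 2 ≤ m := by
    obtain ⟨n, hn, h⟩ := CfsgLib.Char.exists_irr_one_eq_nat h₁
    have : (m : ℂ) = n + 1 := by linear_combination h - hd₁
    have : m = n + 1 := by exact_mod_cast this
    omega
  have key := aux hm a₀ hrank χ₁ χ₂ h₁ h₂ hπ hd₁ hd₂ hm2
  have hnt : Nontrivial Ω := Fintype.one_lt_card_iff_nontrivial.1 (by omega)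
  obtain ⟨b₀, hb₀⟩ := exists_ne a₀
  obtain ⟨s₀, hs₀, -⟩ := key b₀ hb₀
  obtain ⟨a, ha⟩ : ∃ a : ℕ, (m : ℤ) - 1 = 2 * a * (a + 1) := by
    rcases le_or_gt 0 s₀ with h | h
    · exact ⟨s₀.toNat, by rw [Int.toNat_of_nonneg h, hs₀]⟩
    · exact ⟨(-s₀ - 1).toNat, by rw [Int.toNat_of_nonneg (by omega), hs₀]; ring⟩
  refine ⟨a, ?_, ?_, fun b hb => ?_⟩
  · rcases Nat.eq_zero_or_pos a with rfl | h
    · simp at ha; omega
    · exact h
  · zify; linarith
  · obtain ⟨s, hs, hk⟩ := key b hb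
    have : (s - a) * (s + a + 1) = 0 := by linarith
    rcases mul_eq_zero.1 this with h | h
    · left; zify; rw [hk, show s = a by linarith]
    · right; zify; rw [hk, show s = -a - 1 by linarith]; ring

end Cfsg.Agent.S0719
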