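import Cfsg.Statements.S0720
import Cfsg.Agent.Lib.Perm.PermChar2pB
import Cfsg.Agent.Lib.Perm.JordanPrime
import Cfsg.Agent.Lib.Perm.MultiTrans

set_option autoImplicit false
open Cfsg

namespace Cfsg.Agent.S0720


/-- Wielandt's Theorem on primitive groups of degree `2p`: such a group is doubly transitive, or it has rank 3, `p = 2a² + 2a + 1`, and subdegrees `a(2a+1)` and `(a+1)(2a+1)`. -/
theorem result {α : Type*} [Fintype α] [DecidableEq α] {p : ℕ} (hp : p.Prime) (hα : Fintype.card α = 2 * p) (G : Subgroup (Equiv.Perm α)) (hG : MulAction.IsPreprimitive G α) (a₀ : α) : MulAction.IsMultiplyPretransitive G α 2 ∨ (Nat.card (MulAction.orbitRel.Quotient (MulAction.stabilizer G a₀) α) = 3 ∧ ∃ a : ℕ, 0 < a ∧ p = 2 * a ^ 2 + 2 * a + 1 ∧ ∀ b : α, b ≠ a₀ → Nat.card (MulAction.orbit (MulAction.stabilizer G a₀) b) = a * (2 * a + 1) ∨ Nat.card (MulAction.orbit (MulAction.stabilizer G a₀) b) = (a + 1) * (2 * a + 1)) := by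
  classical
  have : Fact p.Prime := ⟨hp⟩
  have hdvd : p ∣ Nat.card G := by
    have h := (MulAction.stabilizer G a₀).index_dvd_card
    rw [MulAction.index_stabilizer_of_transitive, Nat.card_eq_fintype_card, hα] at h
    exact (Dvd.intro_left 2 rfl).trans h
  obtain ⟨σ, hσ⟩ := exists_prime_orderOf_dvd_card' p hdvd
  have hσ' : orderOf (σ : Equiv.Perm α) = p := by rw [Subgroup.orderOf_coe, hσ]
  obtain ⟨n, hn⟩ := Equiv.Perm.cycleType_prime_order (hσ' ▸ hp)
  rw [hσ'] at hn
  have hsupp := Equiv.Perm.sum_cycleType (σ : Equiv.Perm α)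
  rw [hn, Multiset.sum_replicate, smul_eq_mul] at hsupp
  have hle := Finset.card_le_univ (σ : Equiv.Perm α).support
  have hn1 : n + 1 ≤ 2 := Nat.le_of_mul_le_mul_right (by rw [hsupp, ← hα]; exact hle) hp.pos
  rcases Nat.eq_zero_or_pos n with rfl | hn0
  · left
    have hc : (σ : Equiv.Perm α).IsCycle :=
      Equiv.Perm.card_cycleType_eq_one.1 (by rw [hn]; simp)
    rw [zero_add, one_mul] at hsupp
    have halt : MulAction.IsMultiplyPretransitive (alternatingGroup α) α 2 := by
      have := alternatingGroup.isMultiplyPretransitive α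
      have hp2 := hp.two_le
      exact MulAction.isMultiplyPretransitive_of_le (n := Nat.card α - 2)
        (by rw [Nat.card_eq_fintype_card]; omega) (Nat.sub_le _ _)
    refine CfsgLib.Perm.isMultiplyPretransitive_mono ?_ halt
    rcases hp.eq_two_or_odd' with rfl | hodd
    · have := Equiv.Perm.subgroup_eq_top_of_isPreprimitive_of_isSwap_mem hG σ
        (Equiv.Perm.card_support_eq_two.1 hsupp.symm) σ.2
      exact this ▸ le_top
    · have hp3 : 3 ≤ p := by
        have := hp.two_le
        rcases hodd with ⟨k, hk⟩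
        omega
      exact CfsgLib.Perm.alternatingGroup_le_of_isPreprimitive_of_prime_cycle G hG hp
        (by omega) hc hsupp.symm σ.2
  · have hn' : n = 1 := by omega
    subst hn'
    have huniv : (σ : Equiv.Perm α).support = Finset.univ :=
      Finset.eq_univ_of_card _ (by rw [← hsupp, hα])
    refine CfsgLib.Perm.wielandt_two_mul_prime hp hα (Subgroup.zpowers σ)
      (by rw [Nat.card_zpowers, hσ]) (fun g hg hg1 x hx => ?_) a₀
    obtain ⟨k, rfl⟩ := (mem_powers_iff_mem_zpowers.2 hg)
    have hk : k.Coprime (orderOf (σ : Equiv.Perm α)) := by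
      rw [hσ', Nat.coprime_comm, hp.coprime_iff_not_dvd, ← hσ, orderOf_dvd_iff_pow_eq_one]
      exact hg1
    have := Equiv.Perm.support_pow_coprime hk
    rw [huniv] at this
    exact Equiv.Perm.mem_support.1 (this ▸ Finset.mem_univ x) hx

end Cfsg.Agent.S0720
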