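import Cfsg.Statements.S0724
import Mathlib

set_option autoImplicit false
open Cfsg

namespace Cfsg.Agent.S0724

open MulAction in
theorem card_dvd_sum_pow {G α : Type*} [Group G] [Fintype G] [MulAction G α] [Finite α] (k : ℕ) :
    Nat.card G ∣ ∑ g : G, Nat.card (fixedBy α g) ^ k := by
  classical
  haveI : Fintype α := Fintype.ofFinite α
  haveI : ∀ g : G, Fintype (fixedBy (Fin k → α) g) := fun g => Fintype.ofFinite _
  haveI : Fintype (Quotient (orbitRel G (Fin k → α))) := Fintype.ofFinite _
  have h := sum_card_fixedBy_eq_card_orbits_mul_card_group G (Fin k → α)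
  have h2 : ∀ g : G, Fintype.card (fixedBy (Fin k → α) g) = Nat.card (fixedBy α g) ^ k := by
    intro g
    rw [← Nat.card_eq_fintype_card]
    have e : fixedBy (Fin k → α) g ≃ (Fin k → fixedBy α g) :=
      { toFun := fun f i => ⟨f.1 i, congrFun (show g • f.1 = f.1 from f.2) i⟩
        invFun := fun f => ⟨fun i => (f i).1, funext fun i => (f i).2⟩
        left_inv := fun f => rfl
        right_inv := fun f => rfl }
    rw [Nat.card_congr e, Nat.card_fun, Nat.card_fin]
  simp only [h2] at h
  rw [h, Nat.card_eq_fintype_card]
  exact Dvd.intro_left _ rfl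

open MulAction in
theorem card_dvd_sum_poly {G α : Type*} [Group G] [Fintype G] [MulAction G α] [Finite α]
    (P : Polynomial ℤ) :
    (Nat.card G : ℤ) ∣ ∑ g : G, P.eval (Nat.card (fixedBy α g) : ℤ) := by
  induction P using Polynomial.induction_on' with
  | add p q hp hq =>
    simp only [Polynomial.eval_add, Finset.sum_add_distrib]
    exact dvd_add hp hq
  | monomial n c =>
    simp only [Polynomial.eval_monomial, ← Finset.mul_sum]
    apply Dvd.dvd.mul_left
    have := card_dvd_sum_pow (G := G) (α := α) n
    exact_mod_cast this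


/-- Blichfeldt's Theorem: if a finite set `L` of natural numbers contains the number of fixed points of every non-identity element of a permutation group `G` of degree `n`, then the order of `G` divides `∏ (n - l)` over `l ∈ L`. -/
theorem result {α : Type*} [Fintype α] [DecidableEq α] (G : Subgroup (Equiv.Perm α)) (L : Finset ℕ) (hL : ∀ g ∈ G, g ≠ 1 → Nat.card (MulAction.fixedBy α g) ∈ L) : Nat.card G ∣ ∏ l ∈ L, (Fintype.card α - l) := by
  classical
  by_cases hz : ∃ l ∈ L, Fintype.card α ≤ l
  · obtain ⟨l, hl, hle⟩ := hz
    rw [Finset.prod_eq_zero hl (Nat.sub_eq_zero_of_le hle)]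
    exact dvd_zero _
  push Not at hz
  haveI : Fintype G := Fintype.ofFinite G
  have h := card_dvd_sum_poly (G := G) (α := α) (∏ l ∈ L, (Polynomial.X - Polynomial.C (l : ℤ)))
  rw [Finset.sum_eq_single (1 : G)] at h
  · have h1 : Nat.card (MulAction.fixedBy α (1 : G)) = Fintype.card α := by
      rw [MulAction.fixedBy_one_eq_univ, Nat.card_univ, Nat.card_eq_fintype_card]
    rw [h1, Polynomial.eval_prod] at h
    simp only [Polynomial.eval_sub, Polynomial.eval_X, Polynomial.eval_C] at h
    rw [← Int.natCast_dvd_natCast]
    convert h using 1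
    rw [Nat.cast_prod]
    refine Finset.prod_congr rfl fun l hl => ?_
    rw [Nat.cast_sub (hz l hl).le]
  · intro g _ hg
    rw [Polynomial.eval_prod]
    have := hL g g.2 (fun h => hg (Subtype.ext h))
    refine Finset.prod_eq_zero this ?_
    simp only [Polynomial.eval_sub, Polynomial.eval_X, Polynomial.eval_C]
    exact sub_self _
  · intro h
    exact absurd (Finset.mem_univ _) h

end Cfsg.Agent.S0724
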