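import Cfsg.Statements.S0725
import Cfsg.Agent.Lib.Psx.FF
import Cfsg.Agent.Lib.Psx.Q1
import Cfsg.Agent.Lib.Psx.Q2U
import Cfsg.Agent.Lib.Psx.Q2V
import Cfsg.Agent.Lib.Psx.Q2W
import Cfsg.Agent.Lib.Psx.Q2I
import Cfsg.Agent.Lib.Psx.Q3I

set_option autoImplicit false
open Cfsg

namespace Cfsg.Agent.S0725

/-- The Praeger–Saxl bound: a primitive permutation group of degree `n` not containing the alternating group has order at most `4 ^ n`. -/
theorem result {α : Type*} [Fintype α] [DecidableEq α] (G : Subgroup (Equiv.Perm α)) (hG : MulAction.IsPreprimitive G α) (hA : ¬ alternatingGroup α ≤ G) : Nat.card G ≤ 4 ^ Fintype.card α := by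
  open CfsgLib.Psx in
  by_cases h8 : Fintype.card α ≤ 8
  · have h1 : Nat.card G ≤ (Fintype.card α).factorial := by
      rw [← Fintype.card_perm, ← Nat.card_eq_fintype_card]
      exact Subgroup.card_le_card_group G
    refine h1.trans ?_
    generalize Fintype.card α = n at h8
    interval_cases n <;> simp [Nat.factorial]
  have hP := prim_of_isPreprimitive hG
  obtain ⟨t, ht, hT, h⟩ := case_split hP hA
  have hc := com hP hA (by omega) ht hT
  rcases h with ⟨Δ, hΔ, h1, h2⟩ | ⟨h2, Δ, R, k, hΔ, h3, hR⟩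
  · obtain ⟨d, hd⟩ := f_u ht hT hΔ h1 h2 (by omega)
    by_cases a1 : Fintype.card α ≤ 160
    · exact q1 (by omega) a1 hc (Or.inl ⟨d, hd⟩)
    by_cases a2 : Fintype.card α ≤ 16384
    · exact q2U (by omega) a2 hc hd
    by_cases a3 : Fintype.card α ≤ 56000
    · exact q2V (by omega) a3 hc hd
    by_cases a4 : Fintype.card α ≤ 1048576
    · exact q2W (by omega) a4 hc hd
    · exact q3U (by omega) hc hd
  · have hk := f_i h2 hT hΔ h3 hR
    by_cases a1 : Fintype.card α ≤ 160
    · exact q1 (by omega) a1 hc (Or.inr ⟨k, hk⟩)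
    by_cases a2 : Fintype.card α ≤ 65536
    · exact q2I (by omega) a2 hc hk
    · exact q3I (by omega) hc hk

end Cfsg.Agent.S0725
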