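import Cfsg.Statements.S0726
import Mathlib

set_option autoImplicit false
open Cfsg

namespace Cfsg.Agent.S0726

theorem centralizer_eq {G : Type*} [Group G] :
    Subgroup.centralizer ((MulAction.toPermHom G G).range : Set (Equiv.Perm G)) =
      (MulAction.toPermHom Gᵐᵒᵖ G).range := by
  ext σ
  rw [Subgroup.mem_centralizer_iff]
  constructor
  · intro h
    refine ⟨MulOpposite.op (σ 1), ?_⟩
    ext x
    have := congrArg (fun τ : Equiv.Perm G => τ 1) (h (MulAction.toPermHom G G x) ⟨x, rfl⟩)
    simpa using this
  · rintro ⟨y, rfl⟩ τ ⟨x, rfl⟩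
    ext z
    simp [mul_assoc]


/-- The left and right regular permutation representations of a group are each other's centralisers in the symmetric group: the centraliser of the left regular image is the right regular image, and a transitive subgroup centralising the left regular image is the whole right regular image. -/
theorem result {G : Type*} [Group G] : Subgroup.centralizer ((MulAction.toPermHom G G).range : Set (Equiv.Perm G)) = (MulAction.toPermHom Gᵐᵒᵖ G).range ∧ ∀ H : Subgroup (Equiv.Perm G), H ≤ Subgroup.centralizer ((MulAction.toPermHom G G).range : Set (Equiv.Perm G)) → MulAction.IsPretransitive H G → H = (MulAction.toPermHom Gᵐᵒᵖ G).range := by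
  refine ⟨centralizer_eq, ?_⟩
  intro H hH htr
  rw [centralizer_eq] at hH
  refine le_antisymm hH ?_
  rintro σ ⟨y, rfl⟩
  obtain ⟨h, hh⟩ := htr.exists_smul_eq (1 : G) (MulOpposite.unop y)
  obtain ⟨z, hz⟩ := hH h.2
  have h1 : (h : Equiv.Perm G) 1 = MulOpposite.unop y := hh
  rw [← hz] at h1
  have h2 : z = y := by
    apply MulOpposite.unop_injective
    simpa using h1
  rw [← h2, hz]
  exact h.2

end Cfsg.Agent.S0726
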