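import Cfsg.Statements.S0727
import Cfsg.Agent.Lib.Perm.Sharp2
import Cfsg.Agent.Lib.StrEmb.PSL2Recog

set_option autoImplicit false
open Cfsg

namespace Cfsg.Agent.S0727

open CfsgLib.StrEmb CfsgLib.Perm MulAction

theorem sharp_three {G α : Type*} [Group G] [MulAction G α]
    (hsharp : ∀ x : Fin 3 ↪ α, MulAction.stabilizer G x = ⊥) {g : G} {a b c : α} (hab : a ≠ b)
    (hac : a ≠ c) (hbc : b ≠ c) (ha : g • a = a) (hb : g • b = b) (hc : g • c = c) : g = 1 := by
  have inj : Function.Injective ![a, b, c] := by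
    intro i j hij
    have hba := hab.symm
    have hca := hac.symm
    have hcb := hbc.symm
    fin_cases i <;> fin_cases j <;> first | rfl | exact absurd hij ‹_›
  rw [← Subgroup.mem_bot, ← hsharp ⟨_, inj⟩, mem_stabilizer_iff]
  ext i
  fin_cases i <;> simp [ha, hb, hc]

theorem main {G α : Type*} [Group G] [MulAction G α] [Fintype α] {f : ℕ} (hf : 1 ≤ f)
    (hα : Fintype.card α = 2 ^ f + 1) (h3 : MulAction.IsMultiplyPretransitive G α 3)
    (hsharp : ∀ x : Fin 3 ↪ α, MulAction.stabilizer G x = ⊥) :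
    ∃ (F : Type) (_ : Field F) (_ : Fintype F), Fintype.card F = 2 ^ f ∧
      Nonempty (G ≃* Matrix.ProjGenLinGroup (Fin 2) F) := by
  classical
  rw [CfsgLib.Classical.pl_three_pretransitive_iff] at h3
  have h2f : 2 ≤ 2 ^ f := by
    calc 2 = 2 ^ 1 := rfl
      _ ≤ 2 ^ f := Nat.pow_le_pow_right (by norm_num) hf
  obtain ⟨x₀, y₀, w, hxy, hxw, hyw⟩ := Fintype.two_lt_card_iff.1 (show 2 < Fintype.card α by omega)
  have : FaithfulSMul G α := by
    rw [faithfulSMul_iff]
    exact fun g hg => sharp_three hsharp hxy hxw hyw (hg _) (hg _) (hg _)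
  have : Finite G := Finite.of_injective _ (MulAction.toPerm_injective (α := G) (β := α))
  let Ω := SubMulAction.ofStabilizer G x₀
  have hS : IsSharp2 (stabilizer G x₀) Ω :=
    { two_trans := fun {a b c d} hab hcd => by
        obtain ⟨g, g1, g2, g3⟩ := h3 x₀ a b x₀ c d (Ne.symm a.2) (Ne.symm b.2)
          (fun h => hab (Subtype.ext h)) (Ne.symm c.2) (Ne.symm d.2) (fun h => hcd (Subtype.ext h))
        exact ⟨⟨g, g1⟩, Subtype.ext g2, Subtype.ext g3⟩
      sharp := fun {g a b} hab ha hb => Subtype.ext (sharp_three hsharp (Ne.symm a.2) (Ne.symm b.2)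
        (fun h => hab (Subtype.ext h)) g.2 (congrArg Subtype.val ha) (congrArg Subtype.val hb)) }
  let y : Ω := ⟨y₀, hxy.symm⟩
  let w' : Ω := ⟨w, hxw.symm⟩
  have hyw' : y ≠ w' := fun h => hyw (congrArg Subtype.val h)
  have : Nonempty Ω := ⟨y⟩
  let T : Subgroup G := hS.kernel.map (stabilizer G x₀).subtype
  have hcardT : Nat.card T = 2 ^ f := by
    rw [Subgroup.card_map_of_injective (Subgroup.subtype_injective _), hS.card_kernel]
    have : Nat.card Ω = Fintype.card {a : α // ¬ a = x₀} := by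
      rw [← Nat.card_eq_fintype_card]; rfl
    rw [this, Fintype.card_subtype_compl, Fintype.card_subtype_eq, hα]
    simp
  obtain ⟨s, hs, hsy⟩ := hS.kernel_exists_smul_eq y w'
  have hs1 : s ≠ 1 := by
    rintro rfl
    exact hyw' (by simpa using hsy)
  obtain ⟨u, hux, huy, huw⟩ := h3 x₀ y₀ w y₀ x₀ w hxy hxw hyw hxy.symm hyw hxw
  have huu : u * u = 1 := sharp_three hsharp hxy hxw hyw (by rw [mul_smul, hux, huy])
    (by rw [mul_smul, huy, hux]) (by rw [mul_smul, huw, huw])
  have hu1 : u ≠ 1 := by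
    rintro rfl
    exact hxy (by simpa using hux)
  -- every element interchanging `x₀` and `y₀` with square one fixes exactly one point
  have hfix : ∀ v : G, v * v = 1 → v • x₀ = y₀ → ∀ a b : α, v • a = a → v • b = b → a = b := by
    intro v hvv hvx a b ha hb
    by_contra hab
    have hv1 : v ≠ 1 := by
      rintro rfl
      exact hxy (by simpa using hvx)
    have hP : IsPGroup 2 (Subgroup.zpowers v) :=
      CfsgLib.SylTools.isPGroup_zpowers_of_orderOf (k := 1) (by rw [orderOf_eq_two hvv hv1]; rfl)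
    have hm := hP.card_modEq_card_fixedPoints α
    have hset : fixedPoints (Subgroup.zpowers v) α = {a, b} := by
      ext c
      rw [mem_fixedPoints]
      constructor
      · intro hc
        by_contra hcon
        simp only [Set.mem_insert_iff, Set.mem_singleton_iff, not_or] at hcon
        exact hv1 (sharp_three hsharp hab (Ne.symm hcon.1) (Ne.symm hcon.2) ha hb
          (hc ⟨v, Subgroup.mem_zpowers v⟩))
      · rintro (rfl | rfl) ⟨g, hg⟩
        · exact (Subgroup.zpowers_le.2 (show v ∈ stabilizer G c from ha)) hg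
        · exact (Subgroup.zpowers_le.2 (show v ∈ stabilizer G c from hb)) hg
    rw [hset, Nat.card_coe_set_eq, Set.ncard_pair hab, Nat.card_eq_fintype_card, hα] at hm
    obtain ⟨k, rfl⟩ := Nat.exists_eq_add_of_le' hf
    rw [pow_succ] at hm
    unfold Nat.ModEq at hm
    omega
  let D : Subgroup G := stabilizer G x₀ ⊓ stabilizer G y₀
  have hui : u⁻¹ = u := inv_eq_of_mul_eq_one_right huu
  have hDu : ∀ d ∈ D, u * d * u⁻¹ ∈ D := by
    intro d hd
    rw [hui]
    have d1 : d • x₀ = x₀ := hd.1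
    have d2 : d • y₀ = y₀ := hd.2
    exact ⟨mem_stabilizer_iff.2 (by rw [mul_smul, mul_smul, hux, d2, huy]),
      mem_stabilizer_iff.2 (by rw [mul_smul, mul_smul, huy, d1, hux])⟩
  let φ : D →* D :=
    { toFun := fun d => ⟨u * d * u⁻¹, hDu d d.2⟩
      map_one' := Subtype.ext (by simp)
      map_mul' := fun a b => Subtype.ext (by simp [mul_assoc]) }
  have hφ : MonoidHom.FixedPointFree φ := by
    intro d hd
    have hd' : u * d * u⁻¹ = d := congrArg Subtype.val hd
    have : (d : G) • w = w := hfix u huu hux _ _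
      (by rw [← mul_smul, mul_inv_eq_iff_eq_mul.1 hd', mul_smul, huw]) huw
    exact Subtype.ext (sharp_three hsharp hxy hxw hyw d.2.1 d.2.2 this)
  have hinv := hφ.coe_eq_inv_of_involutive (fun d => Subtype.ext (by
    change u * (u * d * u⁻¹) * u⁻¹ = d
    calc u * (u * d * u⁻¹) * u⁻¹ = (u * u) * d * (u * u)⁻¹ := by group
      _ = d := by rw [huu]; group))
  have hR : RankOneAb x₀ y₀ T u (s : G) :=
    { ne := hxy.symm
      fix := by rintro _ ⟨t, -, rfl⟩; exact t.2
      trans := fun z hz => by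
        obtain ⟨t, ht, hty⟩ := hS.kernel_exists_smul_eq y ⟨z, hz⟩
        exact ⟨t, ⟨t, ht, rfl⟩, congrArg Subtype.val hty⟩
      free := by
        rintro _ ⟨t, ht, rfl⟩ hty
        rw [hS.kernel_eq_one ht (a := y) (Subtype.ext hty)]
        rfl
      norm := by
        rintro d d1 - _ ⟨t, ht, rfl⟩
        exact ⟨_, hS.kernel_normal.conj_mem t ht ⟨d, d1⟩, rfl⟩
      ux := hux
      uy := huy
      inv := fun d d1 d2 => congrArg Subtype.val (congrFun hinv ⟨d, d1, d2⟩)
      s_mem := ⟨s, hs, rfl⟩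
      s_ne := fun h => hs1 (Subtype.ext h)
      conj := by
        rintro _ ⟨t, ht, rfl⟩ ht1
        obtain ⟨d, d1, d2⟩ := hS.kernel_conj y hs ht hs1 (fun h => ht1 (by rw [h]; rfl))
        exact ⟨d, d.2, congrArg Subtype.val d1, congrArg Subtype.val d2⟩ }
  obtain ⟨F, _, _, hF, he⟩ := hR.nonempty_pgl
  exact ⟨F, inferInstance, inferInstance, hF.trans hcardT, he⟩


/-- A sharply triply transitive permutation group of degree `2^f + 1` is isomorphic to the projective general linear group of degree 2 over the field with `2^f` elements. -/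
theorem result {α : Type*} [Fintype α] [DecidableEq α] {f : ℕ} (hf : 1 ≤ f) (hα : Fintype.card α = 2 ^ f + 1) (G : Subgroup (Equiv.Perm α)) (h3 : MulAction.IsMultiplyPretransitive G α 3) (hsharp : ∀ x : Fin 3 ↪ α, MulAction.stabilizer G x = ⊥) : ∃ (F : Type) (_ : Field F) (_ : Fintype F), Fintype.card F = 2 ^ f ∧ Nonempty (G ≃* Matrix.ProjGenLinGroup (Fin 2) F) := by
  exact main hf hα h3 hsharp

end Cfsg.Agent.S0727
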