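import Cfsg.Statements.S0728
import Cfsg.Agent.Lib.Perm.ZassSharp

set_option autoImplicit false
open Cfsg

namespace Cfsg.Agent.S0728


/-- In a sharply triply transitive group of even degree at least 6 (degree `q + 1`, `q` odd), a two-point stabiliser has at most one subgroup of order 3. -/
theorem result {α : Type*} [Fintype α] [DecidableEq α] (heven : Even (Fintype.card α)) (h6 : 6 ≤ Fintype.card α) (G : Subgroup (Equiv.Perm α)) (h3 : MulAction.IsMultiplyPretransitive G α 3) (hsharp : ∀ x : Fin 3 ↪ α, MulAction.stabilizer G x = ⊥) {a b : α} (hab : a ≠ b) (A B : Subgroup G) (hA : A ≤ MulAction.stabilizer G a ⊓ MulAction.stabilizer G b) (hB : B ≤ MulAction.stabilizer G a ⊓ MulAction.stabilizer G b) (hA3 : Nat.card A = 3) (hB3 : Nat.card B = 3) : A = B := by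
  have hc : 3 ≤ Nat.card α := by rw [Nat.card_eq_fintype_card]; omega
  have hZ := CfsgLib.Perm.isZT_of_sharp3 hc h3 hsharp
  have : Fact (Nat.Prime 3) := ⟨Nat.prime_three⟩
  have key : ∀ C : Subgroup G, Nat.card C = 3 →
      ∃ t ∈ C, t ^ 3 = 1 ∧ t ≠ 1 ∧ Subgroup.zpowers t = C := by
    intro C hC
    obtain ⟨t, ht⟩ := exists_prime_orderOf_dvd_card' (G := C) 3 (by rw [hC])
    rw [← Subgroup.orderOf_coe] at ht
    refine ⟨t, t.2, by rw [← ht, pow_orderOf_eq_one], fun e => ?_, ?_⟩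
    · rw [e, orderOf_one] at ht
      omega
    · exact Subgroup.eq_of_le_of_card_ge (Subgroup.zpowers_le.mpr t.2)
        (by rw [Nat.card_zpowers, ht, hC])
  obtain ⟨t, ht, ht3, ht1, rfl⟩ := key A hA3
  obtain ⟨t', ht', ht3', ht1', rfl⟩ := key B hB3
  rcases hZ.eq_or_eq_inv_of_pow_three h3 hc hab (hA ht) ht3 ht1 (hB ht') ht3' ht1' with e | e
  · rw [e]
  · rw [e, Subgroup.zpowers_inv]

end Cfsg.Agent.S0728
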