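import Cfsg.Statements.S0731
import Cfsg.Agent.Lib.Perm.ZassFeitUse

set_option autoImplicit false
open Cfsg

namespace Cfsg.Agent.S0731


/-- A finite Zassenhaus group whose point stabiliser has an abelian regular normal subgroup on the remaining points is sharply triply transitive or isomorphic to `PSL(2, F)` for a finite field `F` of odd characteristic. -/
theorem result {G Ω : Type*} [Group G] [Finite G] [MulAction G Ω] [Finite Ω] (hZ : Cfsg.IsZassenhausGroup G Ω) (x : Ω) (F : Subgroup G) (hFle : F ≤ MulAction.stabilizer G x) (hFn : (F.subgroupOf (MulAction.stabilizer G x)).Normal) (hFab : IsMulCommutative F) (hreg : ∀ y z : Ω, y ≠ x → z ≠ x → ∃! u : F, (u : G) • y = z) : (MulAction.IsMultiplyPretransitive G Ω 3 ∧ ∀ t : Fin 3 ↪ Ω, MulAction.stabilizer G t = ⊥) ∨ ∃ (K : Type) (_ : Field K) (_ : Fintype K), ringChar K ≠ 2 ∧ Nonempty (G ≃* Matrix.ProjectiveSpecialLinearGroup (Fin 2) K) := by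
  have hT := CfsgLib.Perm.isZT_of_zass hZ
  have hc := CfsgLib.Perm.zass_three_le_card hZ
  have : Nontrivial Ω := Finite.one_lt_card_iff_nontrivial.mp (by omega)
  obtain ⟨b, hb⟩ := exists_ne x
  rcases hT.card_eq_or_two_mul_le hc hb.symm with h | h
  · exact Or.inl ⟨hT.three_trans_of_card hb.symm h.ge, hT.stabilizer_fin3⟩
  · obtain ⟨K, _, _, -, hK, φ, -⟩ := CfsgLib.Perm.zass_psl_of_comm hZ hb.symm
      (CfsgLib.Perm.isRootGrp_of hFle hFn hreg)
      (fun u hu v hv => congrArg Subtype.val (hFab.is_comm.comm ⟨u, hu⟩ ⟨v, hv⟩)) h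
    exact Or.inr ⟨K, inferInstance, inferInstance, hK, ⟨φ⟩⟩

end Cfsg.Agent.S0731
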