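import Cfsg.Statements.S0732
import Cfsg.Agent.Lib.Perm.ZassFeitUse
import Cfsg.Agent.Lib.Perm.MultiTransField
import Cfsg.Agent.Lib.Perm.Sharp2Regular
import Cfsg.Agent.Lib.Perm.Sharp2
import Cfsg.Agent.Lib.PSL2Rec.Prime
import Cfsg.Agent.Lib.Sz.Aut
import Cfsg.Agent.Lib.Classical.SmallIso

set_option autoImplicit false
open Cfsg

namespace Cfsg.Agent.S0732

open Subgroup MulAction CfsgLib CfsgLib.Perm CfsgLib.PSL2Rec
open scoped IsMulCommutative OnePoint

theorem exists_field {H N : Type*} [Group H] [Finite H] [CommGroup N] [Finite N] [MulDistribMulAction H N]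
    (hf : ∀ g k : H, (∀ v : N, g • v = k • v) → g = k) (htr : ∀ v w : N, v ≠ 1 → w ≠ 1 → ∃ g : H, g • v = w) {p d q : ℕ} [hp : Fact p.Prime]
    (hH : Nat.card H = p * d) (hd : d < p) (hN : Nat.card N = 2 ^ q) (hq : p + 1 = 2 ^ q) :
    d ∣ q ∧ ∃ e : Additive N ≃+ GaloisField 2 q, ∀ g : H, ∃ (a : GaloisField 2 q)
      (σ : GaloisField 2 q ≃+* GaloisField 2 q), ∀ v : N, e (.ofMul (g • v)) = a * σ (e (.ofMul v)) := by
  have hp1 := hp.out.one_lt
  have : Nontrivial N := Finite.one_lt_card_iff_nontrivial.1 (by omega)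
  let _ : DistribMulAction H (Additive N) :=
    { smul := fun g v => .ofMul (g • v.toMul)
      one_smul := fun v => congrArg Additive.ofMul (one_smul H v.toMul)
      mul_smul := fun g k v => congrArg Additive.ofMul (mul_smul g k v.toMul)
      smul_zero := fun g => congrArg Additive.ofMul (smul_one g)
      smul_add := fun g v w => congrArg Additive.ofMul (smul_mul' g v.toMul w.toMul) }
  have : FaithfulSMul H (Additive N) := ⟨fun h => hf _ _ fun v => h (.ofMul v)⟩
  have hd0 : 0 < d := Nat.pos_of_mul_pos_left (hH ▸ Nat.card_pos)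
  have hpd := Nat.not_dvd_of_pos_of_lt hd0 hd
  rw [← pow_one p] at hH
  obtain ⟨A⟩ : Nonempty (Sylow p H) := inferInstance
  have hA := (card_sylow_of_eq hH hpd A).trans (pow_one p)
  have : (A : Subgroup H).Normal := by
    apply sylow_normal_of_card_eq_one
    have h2 := card_sylow_mod (G := H) (p := p)
    rwa [Nat.mod_eq_of_lt ((Nat.le_of_dvd hd0 (card_sylow_dvd_of_eq hH hpd)).trans_lt hd)] at h2
  have := (isCyclic_of_prime_card hA).isMulCommutative
  obtain ⟨K, _, _, _, σ, ι, hσ, hι, -⟩ := exists_field_of_comm (V := Additive N)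
    (fun v w hv hw => htr v.toMul w.toMul hv hw) (A : Subgroup H)
  have hιi : Function.Injective ι := (injective_iff_map_eq_one ι).2 fun a ha =>
    Subtype.ext (FaithfulSMul.eq_of_smul_eq_smul (α := Additive N) fun v => by rw [hι, ha]; simp)
  have h1 := Nat.card_le_card_of_injective _ hιi
  rw [hA, Nat.card_units] at h1
  have h2 := Module.natCard_eq_pow_finrank (K := K) (V := Additive N)
  rw [show Nat.card (Additive N) = p + 1 from hN.trans hq.symm] at h2
  have hm : Module.finrank K (Additive N) = 1 := by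
    have := Module.finrank_pos (R := K) (M := Additive N)
    by_contra h
    have := Nat.pow_le_pow_right (by omega : 0 < Nat.card K) (by omega : 2 ≤ Module.finrank K (Additive N))
    have : p + 1 ≤ Nat.card K := by omega
    nlinarith
  rw [hm, pow_one] at h2
  let e : Additive N ≃ₗ[K] K := LinearEquiv.ofFinrankEq _ K (by rw [Module.finrank_self, hm])
  have he : ∀ (g : H) (v : Additive N), e (g • v) = e (g • e.symm 1) * σ g (e v) := fun g v => by
    rw [mul_comm, ← smul_eq_mul, ← map_smul, ← hσ, ← map_smul, smul_eq_mul, mul_one, e.symm_apply_apply]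
  have hker : σ.ker = A := by
    have h3 : Function.Surjective ι := (hιi.bijective_of_nat_card_le (by rw [hA, Nat.card_units]; omega)).2
    ext g
    refine ⟨fun hg => ?_, fun hg => RingEquiv.ext fun c => ?_⟩
    · obtain ⟨a, ha⟩ := h3 (Units.mk0 (e (g • e.symm 1)) (by simp [smul_eq_zero_iff_eq]))
      rw [FaithfulSMul.eq_of_smul_eq_smul (α := Additive N) (m₁ := g) (m₂ := a) fun v => e.injective (by
        rw [he, hι, ha, Units.val_mk0, e.map_smul _ v, MonoidHom.mem_ker.1 hg]; rfl)]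
      exact a.2
    · have := hσ g c (e.symm 1)
      rw [hι ⟨g, hg⟩, hι ⟨g, hg⟩, smul_comm, ← mul_smul, ← mul_smul] at this
      exact (mul_right_cancel₀ (Units.ne_zero _) (smul_left_injective K (by simp) this)).symm
  have : Fact (Nat.Prime 2) := ⟨Nat.prime_two⟩
  have := Fintype.ofFinite (GaloisField 2 q)
  let ψ : K ≃+* GaloisField 2 q := FiniteField.ringEquivOfCardEq (by
    rw [← Nat.card_eq_fintype_card, ← Nat.card_eq_fintype_card, GaloisField.card 2 q (by rintro rfl; omega),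
      ← hq, h2])
  refine ⟨?_, e.toAddEquiv.trans ψ.toAddEquiv, fun g => ⟨ψ (e (g • e.symm 1)),
    ψ.symm.trans ((σ g).trans ψ), fun v => ?_⟩⟩
  · rw [← index_sylow_of_eq hH hpd A, ← hker, index_ker, ← Sz.card_ringEquiv (h2.symm.trans hq)]
    exact card_subgroup_dvd_card _
  · exact (congrArg ψ (he g (.ofMul v))).trans (by simp)

theorem affine {α : Type*} [Finite α] {p d : ℕ} [hp : Fact p.Prime] (hp2 : p ≠ 2) (hα : Nat.card α = p + 1)
    (G : Subgroup (Equiv.Perm α)) (hZ : IsZT G α) (hG : Nat.card G = (p + 1) * p * d) (hd : d < p)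
    (N : Subgroup G) [hN : N.Normal] (htr : IsPretransitive N α) (hreg : ∀ a : α, stabilizer N a = ⊥) :
    ∃ q : ℕ, q.Prime ∧ p + 1 = 2 ^ q ∧ (d = 1 ∨ d = q) ∧ ∃ e : α ≃ GaloisField 2 q,
      ∀ g : G, (e.symm.trans (((g : Equiv.Perm α)).trans e)) ∈ Cfsg.semiaffineGroup (GaloisField 2 q) := by
  have : Fact (Nat.Prime 2) := ⟨Nat.prime_two⟩
  obtain ⟨a⟩ : Nonempty α := (Nat.card_pos_iff.1 (by omega)).1
  have hinj : ∀ m n : N, (m : G) • a = (n : G) • a → m = n := fun m n h =>
    (inv_mul_eq_one.1 (mem_bot.1 (hreg a ▸ show n⁻¹ * m ∈ stabilizer N a from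
      (mul_smul _ _ _).trans (inv_smul_eq_iff.2 h)))).symm
  let ε : N ≃ α := Equiv.ofBijective (fun n => (n : G) • a) ⟨hinj, fun b => exists_smul_eq N a b⟩
  have hε : ∀ n, ε n = (n : G) • a := fun _ => rfl
  let _ : MulDistribMulAction (stabilizer G a) N :=
    MulDistribMulAction.compHom N ((MulAut.conjNormal : G →* MulAut N).comp (stabilizer G a).subtype)
  have hsm : ∀ (h : stabilizer G a) (n : N), ε (h • n) = (h : G) • ε n := fun h n => by
    change ((h : G) * n * (h : G)⁻¹) • a = (h : G) • (n : G) • a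
    rw [mul_smul, mul_smul, show (h : G)⁻¹ • a = a from inv_mem h.2]
  have ht : ∀ v w : N, v ≠ 1 → w ≠ 1 → ∃ g : stabilizer G a, g • v = w := fun v w hv hw => by
    obtain ⟨g, h1, h3⟩ := hZ.two_trans (a := a) (b := ε v) (c := a) (d := ε w)
      (fun h => hv (hinj v 1 (h.symm.trans (one_smul _ _).symm)))
      fun h => hw (hinj w 1 (h.symm.trans (one_smul _ _).symm))
    exact ⟨⟨g, h1⟩, ε.injective ((hsm _ _).trans h3)⟩
  have hc := (Nat.card_congr ε).trans hα
  obtain ⟨t, ht2⟩ := exists_prime_orderOf_dvd_card' (G := N) 2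
    (hc ▸ (hp.out.odd_of_ne_two hp2).add_one.two_dvd)
  have hsq : ∀ n : N, n ^ 2 = 1 := fun n => by
    by_cases h : n = 1
    · simp [h]
    obtain ⟨g, rfl⟩ := ht t n (ne_one_of_orderOf_prime Nat.prime_two ht2) h
    rw [← smul_pow', ← ht2, pow_orderOf_eq_one, smul_one]
  have : IsMulCommutative N := ⟨⟨fun m n => Subtype.ext
    (comm_of_sq_eq_one (fun n hn => congrArg Subtype.val (hsq ⟨n, hn⟩)) m.2 n.2)⟩⟩
  obtain ⟨q, hq⟩ := IsPGroup.iff_card.1 (show IsPGroup 2 N from fun n => ⟨1, hsq n⟩)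
  have hqp : q.Prime := Nat.Prime.of_mersenne (by rw [mersenne, ← hq, hc]; exact hp.out)
  have := hZ.isPretransitive
  obtain ⟨h1, e, he⟩ := exists_field (fun g k h => Subtype.ext (Subtype.ext (Equiv.ext fun b => by
    obtain ⟨n, rfl⟩ := ε.surjective b
    exact (hsm g n).symm.trans ((congrArg ε (h n)).trans (hsm k n))))) ht (p := p) (d := d) (by
    have := card_orbit_mul_card_stabilizer (H := G) a
    rw [orbit_eq_univ, Nat.card_univ, hα, hG, mul_assoc] at this
    exact Nat.eq_of_mul_eq_mul_left (Nat.succ_pos p) this) hd hq (hc.symm.trans hq)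
  let E : α ≃ GaloisField 2 q := ε.symm.trans (Additive.ofMul.trans e.toEquiv)
  have hE : ∀ n : N, E (ε n) = e (.ofMul n) := fun n => by simp [E]
  have hadd : ∀ (n : N) (x : α), E ((n : G) • x) = E x + e (.ofMul n) := fun n x => by
    obtain ⟨m, rfl⟩ := ε.surjective x
    rw [hE, ← map_add, ← ofMul_mul, ← hE, mul_comm, hε, hε, coe_mul, mul_smul]
  refine ⟨q, hqp, hc.symm.trans hq, (Nat.dvd_prime hqp).1 h1, E, fun g => ?_⟩
  obtain ⟨n, h⟩ := exists_smul_eq N a (g • a)
  obtain ⟨c, σ, hc⟩ := he ⟨(n : G)⁻¹ * g, by rw [mem_stabilizer_iff, mul_smul, inv_smul_eq_iff]; exact h.symm⟩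
  have hc0 : c ≠ 0 := fun h0 => by
    have := hc t
    rw [h0, zero_mul, map_eq_zero_iff _ e.injective] at this
    exact ne_one_of_orderOf_prime Nat.prime_two ht2
      (MulAction.injective _ ((ofMul_eq_zero.1 this).trans (smul_one _).symm))
  refine ⟨Units.mk0 _ hc0, e (.ofMul n), σ, fun x => ?_⟩
  obtain ⟨x, rfl⟩ := E.surjective x
  obtain ⟨m, rfl⟩ := ε.surjective x
  change E (g • E.symm (E (ε m))) = c * σ (E (ε m)) + _
  rw [E.symm_apply_apply, hE, ← hc, ← hE, hsm, ← hadd, smul_smul, mul_inv_cancel_left]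

/-- A transitive permutation group on `p + 1` points (`p` prime) of order `(p+1) p d` with `d < p` is isomorphic to `PGL(2,p)` with `d = p - 1`, or to `PSL(2,p)` with `2d = p - 1`, or else `p + 1 = 2^q` for a prime `q`, `d = 1` or `d = q`, and the group is permutation-isomorphic to a group of semi-affine maps `x ↦ a φ(x) + b` of the field with `2^q` elements. -/
theorem result {α : Type*} [Fintype α] [DecidableEq α] {p d : ℕ} (hp : p.Prime) (hα : Fintype.card α = p + 1) (G : Subgroup (Equiv.Perm α)) [MulAction.IsPretransitive G α] (hG : Nat.card G = (p + 1) * p * d) (hd : d < p) : (d = p - 1 ∧ Nonempty (G ≃* Matrix.ProjGenLinGroup (Fin 2) (ZMod p))) ∨ (2 * d = p - 1 ∧ Nonempty (G ≃* Matrix.ProjectiveSpecialLinearGroup (Fin 2) (ZMod p))) ∨ (∃ q : ℕ, q.Prime ∧ p + 1 = 2 ^ q ∧ (d = 1 ∨ d = q) ∧ ∃ e : α ≃ GaloisField 2 q, ∀ g : G, (e.symm.trans (((g : Equiv.Perm α)).trans e)) ∈ Cfsg.semiaffineGroup (GaloisField 2 q)) := by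
  have := Fact.mk hp
  rw [← Nat.card_eq_fintype_card] at hα
  obtain ⟨_, ⟨e, he⟩, hA, hm⟩ := exists_affLine_prime (G := G) (Ω := α)
    (fun g hg => Subtype.ext (Equiv.ext hg)) hα hG hd
  have h1 := card_subgroup_dvd_card (mults G (ZMod p))
  rw [hm, Nat.card_units, Nat.card_zmod] at h1
  have h2 := hp.two_le
  by_cases hdp : d = p - 1
  · refine Or.inl ⟨hdp, hA.iso_pgl (eq_top_of_card_eq _ (by rw [hm, Nat.card_units, Nat.card_zmod, hdp]))
      fun h3 s _ _ g hg hg0 => ?_⟩
    obtain rfl : p = 2 := (Nat.prime_dvd_prime_iff_eq hp Nat.prime_two).1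
      ((ZMod.natCast_eq_zero_iff 2 p).1 h3)
    obtain ⟨a, -, ha⟩ := hA.mult hg hg0
    rw [hA.ext (g := g) (k := 1) (by rw [hg, one_smul]) fun x => by rw [ha, Subsingleton.elim a 1]; simp]
    simp
  right
  have hZ : IsZT G α := by
    refine ⟨fun {a b c d} hab hcd => ?_, fun {g a b c} hab hac hbc ha hb hc => ?_⟩
    · obtain ⟨g, hg, hg'⟩ := hA.two_trans (e.symm.injective.ne hab)
      obtain ⟨k, hk, hk'⟩ := hA.two_trans (e.symm.injective.ne hcd)
      rw [Equiv.eq_symm_apply, he] at hg hg' hk hk'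
      exact ⟨k * g⁻¹, by rw [← hg, ← hk, mul_smul, inv_smul_smul],
        by rw [← hg', ← hk', mul_smul, inv_smul_smul]⟩
    · refine hA.eq_one_of_fix_three (e.symm.injective.ne hab) (e.symm.injective.ne hac)
        (e.symm.injective.ne hbc) ?_ ?_ ?_ <;> rwa [Equiv.eq_symm_apply, he, e.apply_symm_apply]
  have h3 : 2 * d ≤ p - 1 := by
    obtain ⟨c, hc⟩ := h1
    have : 2 ≤ c := by
      by_contra! h
      interval_cases c <;> omega
    rw [hc, mul_comm]
    exact Nat.mul_le_mul_left d this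
  have hd0 : 0 < d := Nat.pos_of_mul_pos_left (hG ▸ Nat.card_pos)
  by_cases hN : ∃ N : Subgroup G, N.Normal ∧ IsPretransitive N α ∧ ∀ a : α, stabilizer N a = ⊥
  · obtain ⟨N, _, h4, h5⟩ := hN
    exact Or.inr (affine (by omega) hα G hZ hG hd N h4 h5)
  have hZ' : Cfsg.IsZassenhausGroup G α := by
    refine ⟨inferInstance, hZ.isMultiplyPretransitive, fun g a b c hab hbc hac => hZ.sharp hab hac hbc, ?_,
      fun N h4 h5 => by_contra fun h => hN ⟨N, h4, h5, by simpa using h⟩⟩
    by_contra! h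
    have h4 : IsSharp2 G α := ⟨hZ.two_trans, fun {g a b} hab ha hb => by_contra fun hg => h g hg a b hab ha hb⟩
    exact hN ⟨_, h4.kernel_normal, h4.kernel_isPretransitive, h4.kernel_stabilizer⟩
  have : Nontrivial α := Finite.one_lt_card_iff_nontrivial.1 (by omega)
  obtain ⟨a, b, hab⟩ := exists_pair_ne α
  obtain ⟨F, hF⟩ := hZ.exists_rootGrp hab
  have hc : ∀ u ∈ F, ∀ v ∈ F, u * v = v * u := fun u hu v hv => congrArg Subtype.val
    ((isCyclic_of_prime_card (p := p) (by rw [hF.card hab, hα]; rfl)).isMulCommutative.is_comm.comm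
      (⟨u, hu⟩ : F) ⟨v, hv⟩)
  have h4 := hZ.card_group hab
  rw [hG, hα, Nat.add_sub_cancel] at h4
  replace h4 := Nat.eq_of_mul_eq_mul_left (by positivity) h4
  have h5 := zass_le_of_comm hZ' hab hF hc
  obtain ⟨K, _, _, hK, -, φ, -⟩ := zass_psl_of_comm hZ' hab hF hc (by omega)
  exact Or.inl ⟨by omega, ⟨φ.trans (Classical.pslMapEquiv
    (FiniteField.ringEquivOfCardEq (by rw [ZMod.card]; omega)))⟩⟩

end Cfsg.Agent.S0732
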