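import Cfsg.Statements.S0733
import Mathlib

set_option autoImplicit false
open Cfsg

namespace Cfsg.Agent.S0733


/-- A permutation group of affine type — generated by the translations of a finite vector space `V` over `ZMod p` together with a group `G₀` of linear automorphisms — is primitive on `V` if and only if `G₀` is irreducible on `V`. -/
theorem result {p : ℕ} [Fact p.Prime] {V : Type*} [AddCommGroup V] [Module (ZMod p) V] [Finite V] [Nontrivial V] (G₀ : Subgroup (V ≃ₗ[ZMod p] V)) (G : Subgroup (Equiv.Perm V)) (hG : ∀ σ : Equiv.Perm V, σ ∈ G ↔ ∃ g ∈ G₀, ∃ b : V, ∀ x : V, σ x = (g : V ≃ₗ[ZMod p] V) x + b) : MulAction.IsPreprimitive G V ↔ ∀ W : Submodule (ZMod p) V, (∀ g ∈ G₀, ∀ v ∈ W, (g : V ≃ₗ[ZMod p] V) v ∈ W) → W = ⊥ ∨ W = ⊤ := by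
  have htr : ∀ b : V, Equiv.addRight b ∈ G := fun b =>
    (hG _).mpr ⟨1, G₀.one_mem, b, fun x => by simp⟩
  have hlin : ∀ g ∈ G₀, (g : V ≃ₗ[ZMod p] V).toEquiv ∈ G := fun g hg =>
    (hG _).mpr ⟨g, hg, 0, fun x => by simp⟩
  constructor
  · intro hprim W hW
    have hB : MulAction.IsBlock G (W : Set V) := by
      rw [MulAction.isBlock_iff_smul_eq_of_mem]
      intro σ a ha hσa
      obtain ⟨g, hg, b, hσ⟩ := (hG σ).mp σ.2
      have hs : ∀ x : V, σ • x = g x + b := hσ
      rw [hs] at hσa
      have hb : b ∈ W := by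
        have := W.sub_mem hσa (hW g hg a ha)
        simpa using this
      ext w
      rw [Set.mem_smul_set]
      constructor
      · rintro ⟨x, hx, rfl⟩
        rw [hs]
        exact W.add_mem (hW g hg x hx) hb
      · intro hw
        refine ⟨(g⁻¹ : V ≃ₗ[ZMod p] V) (w - b), hW _ (G₀.inv_mem hg) _ (W.sub_mem hw hb), ?_⟩
        rw [hs]
        have : g ((g⁻¹ : V ≃ₗ[ZMod p] V) (w - b)) = w - b := by
          rw [← LinearEquiv.mul_apply, mul_inv_cancel]; rfl
        rw [this, sub_add_cancel]
    rcases hprim.isTrivialBlock_of_isBlock hB with h | h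
    · left
      rw [eq_bot_iff]
      intro x hx
      exact h hx W.zero_mem
    · right
      rw [eq_top_iff]
      intro x _
      have : x ∈ (W : Set V) := h ▸ Set.mem_univ x
      exact this
  · intro hirr
    have : MulAction.IsPretransitive G V := ⟨fun x y => ⟨⟨Equiv.addRight (y - x), htr _⟩, by
      change x + (y - x) = y
      abel⟩⟩
    apply MulAction.IsPreprimitive.of_isTrivialBlock_base (0 : V)
    intro B h0 hB
    rw [MulAction.isBlock_iff_smul_eq_of_mem] at hB
    have hadd : ∀ b ∈ B, ∀ x, x ∈ B ↔ x + b ∈ B := by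
      intro b hb x
      have h1 := hB (g := ⟨Equiv.addRight b, htr b⟩) h0 (by
        change (0 : V) + b ∈ B
        simpa using hb)
      conv_rhs => rw [← h1]
      exact (Set.smul_mem_smul_set_iff (a := (⟨Equiv.addRight b, htr b⟩ : G))).symm
    let A : AddSubgroup V :=
      { carrier := B
        zero_mem' := h0
        add_mem' := fun {x y} hx hy => (hadd y hy x).mp hx
        neg_mem' := fun {x} hx => (hadd x hx (-x)).mpr (by simpa using h0) }
    have hinv : ∀ g ∈ G₀, ∀ v ∈ AddSubgroup.toZModSubmodule p A,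
        (g : V ≃ₗ[ZMod p] V) v ∈ AddSubgroup.toZModSubmodule p A := by
      intro g hg v hv
      have h1 := hB (g := ⟨g.toEquiv, hlin g hg⟩) h0 (by
        change g 0 ∈ B
        simpa using h0)
      change g v ∈ B
      rw [← h1]
      exact ⟨v, hv, rfl⟩
    rcases hirr _ hinv with h | h
    · left
      intro x hx y hy
      have hx' : x ∈ AddSubgroup.toZModSubmodule p A := hx
      have hy' : y ∈ AddSubgroup.toZModSubmodule p A := hy
      rw [h, Submodule.mem_bot] at hx' hy'
      rw [hx', hy']
    · right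
      rw [Set.eq_univ_iff_forall]
      intro x
      have hx' : x ∈ AddSubgroup.toZModSubmodule p A := h ▸ Submodule.mem_top
      exact hx'

end Cfsg.Agent.S0733
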