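import Cfsg.Statements.S0735
import Cfsg.Agent.Lib.Perm2.Homog

set_option autoImplicit false
open Cfsg

namespace Cfsg.Agent.S0735

/-- A 2-homogeneous permutation group (transitive on 2-subsets) of even order is doubly transitive; a non-trivial 2-homogeneous group is primitive. -/
theorem result {α : Type*} [Fintype α] [DecidableEq α] (G : Subgroup (Equiv.Perm α)) (h2 : MulAction.IsPretransitive G (Set.powersetCard α 2)) (hα : 3 ≤ Fintype.card α) : (Even (Nat.card G) → MulAction.IsMultiplyPretransitive G α 2) ∧ (G ≠ ⊥ → MulAction.IsPreprimitive G α) := by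
  rw [← CfsgLib.Perm2.isHomog_iff'] at h2
  have key : ∀ a b c d : α, a ≠ b → c ≠ d → ∃ g : G, (g • a = c ∧ g • b = d) ∨ (g • a = d ∧ g • b = c) := by
    intro a b c d hab hcd
    obtain ⟨g, hg⟩ := h2 {a, b} {c, d} (Finset.card_pair hab) (Finset.card_pair hcd)
    refine ⟨g, ?_⟩
    have ha : g • a ∈ ({c, d} : Finset α) := by
      rw [← hg]; exact Finset.smul_mem_smul_finset (by simp)
    have hb : g • b ∈ ({c, d} : Finset α) := by
      rw [← hg]; exact Finset.smul_mem_smul_finset (by simp)
    have hne : g • a ≠ g • b := fun h => hab (smul_left_cancel g h)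
    simp only [Finset.mem_insert, Finset.mem_singleton] at ha hb
    rcases ha with ha | ha <;> rcases hb with hb | hb
    · exact absurd (ha.trans hb.symm) hne
    · exact Or.inl ⟨ha, hb⟩
    · exact Or.inr ⟨ha, hb⟩
    · exact absurd (ha.trans hb.symm) hne
  constructor
  · intro hev
    have := Fact.mk Nat.prime_two
    obtain ⟨t, ht⟩ := exists_prime_orderOf_dvd_card' (G := G) 2 hev.two_dvd
    have ht1 : t ≠ 1 := by rintro rfl; simp at ht
    obtain ⟨a, ha⟩ : ∃ a : α, t • a ≠ a := by
      by_contra h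
      push Not at h
      exact ht1 (Subtype.ext (Equiv.ext h))
    have htt : t • t • a = a := by
      rw [← mul_smul, ← pow_two, ← ht, pow_orderOf_eq_one, one_smul]
    have swap : ∀ c d : α, c ≠ d → ∃ g : G, g • c = d ∧ g • d = c := by
      intro c d hcd
      obtain ⟨g, hg | hg⟩ := key a (t • a) c d ha.symm hcd
      · refine ⟨g * t * g⁻¹, ?_, ?_⟩
        · rw [← hg.1, ← hg.2]; simp [mul_smul]
        · rw [← hg.1, ← hg.2]; simp [mul_smul, htt]
      · refine ⟨g * t * g⁻¹, ?_, ?_⟩
        · rw [← hg.1, ← hg.2]; simp [mul_smul, htt]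
        · rw [← hg.1, ← hg.2]; simp [mul_smul]
    rw [MulAction.is_two_pretransitive_iff]
    intro a b c d hab hcd
    obtain ⟨g, hg | hg⟩ := key a b c d hab hcd
    · exact ⟨g, hg⟩
    · obtain ⟨s, hs1, hs2⟩ := swap c d hcd
      exact ⟨s * g, by rw [mul_smul, hg.1, hs2], by rw [mul_smul, hg.2, hs1]⟩
  · intro _
    have h1 : CfsgLib.Perm2.IsHomog G α 1 := h2.pred (by omega)
    have : MulAction.IsPretransitive G α := ⟨fun a b => by
      obtain ⟨g, hg⟩ := h1 {a} {b} (Finset.card_singleton a) (Finset.card_singleton b)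
      exact ⟨g, by simpa using hg⟩⟩
    refine ⟨fun {B} hB => ?_⟩
    by_contra hnt
    rw [MulAction.IsTrivialBlock, not_or, Set.not_subsingleton_iff] at hnt
    obtain ⟨⟨a, ha, b, hb, hab⟩, hu⟩ := hnt
    obtain ⟨c, hc⟩ : ∃ c, c ∉ B := by
      by_contra h
      push Not at h
      exact hu (Set.eq_univ_of_forall h)
    have hac : a ≠ c := fun h => hc (h ▸ ha)
    obtain ⟨g, hg | hg⟩ := key a b a c hab hac
    · have := hB.smul_eq_of_mem ha (hg.1.symm ▸ ha)
      apply hc
      rw [← this, ← hg.2]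
      exact Set.smul_mem_smul_set hb
    · have := hB.smul_eq_of_mem hb (hg.2.symm ▸ ha)
      apply hc
      rw [← this, ← hg.1]
      exact Set.smul_mem_smul_set ha

end Cfsg.Agent.S0735
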