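import Cfsg.Statements.S0740
import Mathlib
import Cfsg.Agent.Lib.Perm.ZassAbel

set_option autoImplicit false
open Cfsg

namespace Cfsg.Agent.S0740


/-- In a finite Zassenhaus group any two points `a ≠ b` are swapped by an involution; every such involution has exactly one fixed point when the degree is odd and 0 or 2 fixed points when the degree is even; and if the two-point stabiliser has even order, some such involution has exactly 2 fixed points. -/
theorem result {G Ω : Type*} [Group G] [Finite G] [MulAction G Ω] [Fintype Ω] (hZ : Cfsg.IsZassenhausGroup G Ω) {a b : Ω} (hab : a ≠ b) : (∃ s : G, orderOf s = 2 ∧ s • a = b ∧ s • b = a) ∧ (∀ s : G, orderOf s = 2 → s • a = b → s • b = a → (Odd (Fintype.card Ω) → Nat.card (MulAction.fixedBy Ω s) = 1) ∧ (Even (Fintype.card Ω) → Nat.card (MulAction.fixedBy Ω s) = 0 ∨ Nat.card (MulAction.fixedBy Ω s) = 2)) ∧ (Even (Fintype.card Ω) → Even (Nat.card ↥(MulAction.stabilizer G a ⊓ MulAction.stabilizer G b)) → ∃ s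 : G, orderOf s = 2 ∧ s • a = b ∧ s • b = a ∧ Nat.card (MulAction.fixedBy Ω s) = 2) := by
  have hZ' := CfsgLib.Perm.isZT_of_zass hZ
  have h3 := CfsgLib.Perm.zass_three_le_card hZ
  have := hZ.1
  have hne : ∀ s : G, s • a = b → s ≠ 1 := by
    rintro s hs rfl
    exact hab (by rw [← hs, one_smul])
  rw [← Nat.card_eq_fintype_card]
  refine ⟨?_, ?_, ?_⟩
  · obtain ⟨s, hs, hsa, hsb⟩ := hZ'.exists_swap_invol hab
    exact ⟨s, CfsgLib.Perm.orderOf_eq_two_iff'.mpr ⟨hs, hne s hsa⟩, hsa, hsb⟩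
  · intro s hs _ _
    obtain ⟨hs2, hs1⟩ := CfsgLib.Perm.orderOf_eq_two_iff'.mp hs
    have h1 := hZ'.card_fixedBy_le_two hs1
    have h2 := CfsgLib.Perm.card_modEq_card_fixedBy_two (Ω := Ω) hs2
    constructor
    · intro h
      rw [Nat.odd_iff] at h
      omega
    · intro h
      rw [Nat.even_iff] at h
      omega
  · intro _ heven
    obtain ⟨z, hz, hz2, hz1⟩ := CfsgLib.Perm.exists_invol_of_even_card heven
    obtain ⟨c, hac, hbc⟩ := CfsgLib.Perm.exists_ne_ne_of_card h3 a b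
    obtain ⟨s, hs, hsa, hsb, hsc, hszc⟩ := hZ'.exists_swap_fix hab hz hz2 hz1 hac hbc
    exact ⟨s, CfsgLib.Perm.orderOf_eq_two_iff'.mpr ⟨hs, hne s hsa⟩, hsa, hsb,
      hZ'.card_fixedBy_eq_two (hne s hsa)
        (fun e => hz1 (hZ'.sharp hab hac hbc hz.1 hz.2 e.symm)) hsc hszc⟩

end Cfsg.Agent.S0740
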