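import Cfsg.Statements.S0748
import Cfsg.Agent.Lib.Perm2.LW2

set_option autoImplicit false
open Cfsg

namespace Cfsg.Agent.S0748

/-- The Livingstone–Wagner Theorem: a `k`-homogeneous permutation group of degree `n` with `10 ≤ 2k ≤ n` is `k`-transitive. -/
theorem result {α : Type*} [Fintype α] [DecidableEq α] (G : Subgroup (Equiv.Perm α)) {k : ℕ} (hk : 5 ≤ k) (hkn : 2 * k ≤ Fintype.card α) (hh : MulAction.IsPretransitive G (Set.powersetCard α k)) : MulAction.IsMultiplyPretransitive G α k := by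
  obtain ⟨t, rfl⟩ : ∃ t, k = t + 4 + 1 := ⟨k - 5, by omega⟩
  rw [← CfsgLib.Perm2.isHomog_iff'] at hh
  exact hh.transitive_of_five_le hkn

end Cfsg.Agent.S0748
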