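import Cfsg.Statements.S0753


set_option autoImplicit false
open Cfsg

namespace Cfsg.Agent.S0753

/-- If σ is a ring endomorphism of the field F other than the identity and B is a σ-sesquilinear conjugate-symmetric form with B v v = 0 for every v, then B = 0. -/
theorem result {F V : Type*} [Field F] [AddCommGroup V] [Module F V] (σ : F →+* F) (hσ : σ ≠ RingHom.id F) (B : V →ₛₗ[σ] V →ₗ[F] F) (hS : B.IsSymm) (h0 : ∀ v : V, B v v = 0) : B = 0 := by
  obtain ⟨t, ht⟩ : ∃ t, σ t ≠ t := by
    by_contra h
    push Not at h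
    exact hσ (RingHom.ext h)
  ext x y
  have h1 := h0 (x + y)
  have h2 := h0 (x + t • y)
  simp only [map_add, LinearMap.add_apply, h0, LinearMap.map_smulₛₗ, LinearMap.smul_apply,
    smul_eq_mul, RingHom.id_apply] at h1 h2
  have h3 : (t - σ t) * B x y = 0 := by linear_combination h2 - σ t * h1
  simpa using (mul_eq_zero.1 h3).resolve_left (sub_ne_zero.2 ht.symm)

end Cfsg.Agent.S0753
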