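import Cfsg.Statements.S0757


set_option autoImplicit false
open Cfsg

namespace Cfsg.Agent.S0757

/-- The two diagonal forms Σ x_i^2 and Σ_(i<n) x_i^2 + α x_n^2 on F^(n+1), with α a non-square and 2 ≠ 0 in F, are inequivalent quadratic forms (so over a finite field of odd order there are exactly two classes of non-singular symmetric bilinear forms in each dimension). -/
theorem result {F : Type*} [Field F] (h2 : (2 : F) ≠ 0) (n : ℕ) (α : F) (hα : ¬ IsSquare α) : ¬ (QuadraticMap.weightedSumSquares F (fun _ : Fin (n + 1) => (1 : F))).Equivalent (QuadraticMap.weightedSumSquares F (fun i : Fin (n + 1) => if i = Fin.last n then α else (1 : F))) := by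
  rintro ⟨e⟩
  have : Invertible (2 : F) := invertibleOfNonzero h2
  have key : ∀ w : Fin (n + 1) → F,
      QuadraticForm.discr' (QuadraticMap.weightedSumSquares F w) = ∏ i, w i := by
    intro w
    rw [QuadraticForm.discr', ← Matrix.det_diagonal]
    congr 1
    ext i j
    simp only [QuadraticForm.toMatrix', LinearMap.toMatrix₂'_apply, QuadraticMap.associated_apply,
      QuadraticMap.weightedSumSquares_apply, smul_eq_mul, Module.End.smul_def,
      Pi.add_apply, mul_add, add_mul, Finset.sum_add_distrib]
    by_cases h : i = j
    · subst h
      simp [Pi.single_apply]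
      field_simp
      ring
    · simp [Pi.single_apply, h, Ne.symm h]
  have h1 : (QuadraticMap.weightedSumSquares F (fun i : Fin (n + 1) =>
      if i = Fin.last n then α else (1 : F))) =
      (QuadraticMap.weightedSumSquares F (fun _ : Fin (n + 1) => (1 : F))).comp
        e.symm.toLinearEquiv.toLinearMap := by
    ext x
    exact (e.symm.map_app x).symm
  have h3 := congrArg QuadraticForm.discr' h1
  rw [QuadraticForm.discr'_comp, key, key] at h3
  exact hα ⟨_, by simpa using h3⟩

end Cfsg.Agent.S0757
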