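import Cfsg.Statements.S0759
import Cfsg.Agent.Lib.Forms.SymmDisc

set_option autoImplicit false
open Cfsg

namespace Cfsg.Agent.S0759

/-- Type of the orthonormal form: over a finite field of odd order q and for m ≥ 1, the quadratic form Σ_(i<2m) x_i² on F^(2m) admits an m-dimensional subspace on which it vanishes identically if and only if it is not the case that q ≡ 3 (mod 4) and m is odd. -/
theorem result {F : Type*} [Field F] [Fintype F] (h2 : (2 : F) ≠ 0) (m : ℕ) (hm : 1 ≤ m) : (∃ W : Submodule F (Fin (2 * m) → F), Module.finrank F W = m ∧ ∀ w ∈ W, ∑ i, w i ^ 2 = 0) ↔ ¬ (Fintype.card F % 4 = 3 ∧ Odd m) := by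
  classical
  let B : LinearMap.BilinForm F (Fin (2 * m) → F) := Matrix.toBilin' 1
  have hBa : ∀ x y, B x y = ∑ i, x i * y i := fun x y => by
    simp [B, Matrix.toBilin'_apply', dotProduct]
  have hS : B.IsSymm := ⟨fun x y => by simp [hBa, mul_comm]⟩
  have hB : B.Nondegenerate :=
    LinearMap.BilinForm.nondegenerate_toBilin'_of_det_ne_zero' _ (by simp)
  have key := CfsgLib.Forms.exists_half_isotropic_iff h2 B hS hB (Pi.basisFun F _) (m := m)
    (by simp)
  have hd : (LinearMap.BilinForm.toMatrix (Pi.basisFun F (Fin (2 * m))) B).det = 1 := by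
    rw [LinearMap.BilinForm.toMatrix_basisFun]; simp [B]
  rw [hd, one_mul] at key
  have h1 : (∃ W : Submodule F (Fin (2 * m) → F), Module.finrank F W = m ∧
      ∀ w ∈ W, ∑ i, w i ^ 2 = 0) ↔ IsSquare ((-1 : F) ^ m) := by
    rw [← key]
    refine exists_congr fun W => and_congr_right fun _ => ⟨fun h x hx y hy => ?_, fun h w hw => ?_⟩
    · have h3 := h _ (W.add_mem hx hy)
      simp only [Pi.add_apply, add_sq, Finset.sum_add_distrib, h x hx, h y hy, mul_assoc,
        ← Finset.mul_sum] at h3
      rw [hBa]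
      simpa [h2] using h3
    · simpa [hBa, sq] using h w hw w hw
  rw [h1]
  rcases Nat.even_or_odd m with hm' | hm'
  · simp [hm'.neg_one_pow, Nat.not_odd_iff_even.2 hm']
  · simp [hm'.neg_one_pow, hm', FiniteField.isSquare_neg_one_iff]

end Cfsg.Agent.S0759
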