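import Cfsg.Statements.S0761


set_option autoImplicit false
open Cfsg

namespace Cfsg.Agent.S0761

/-- Hyperbolic partners: let B be a non-degenerate bilinear form on a finite-dimensional space, either alternating, or symmetric with 2 ≠ 0. If Z is a subspace on which B vanishes, x ∉ Z is isotropic and orthogonal to Z, then there is an isotropic y with B x y = 1 which is orthogonal to Z. -/
theorem result {F V : Type*} [Field F] [AddCommGroup V] [Module F V] [FiniteDimensional F V] (B : LinearMap.BilinForm F V) (hB : B.Nondegenerate) (hform : B.IsAlt ∨ (B.IsSymm ∧ (2 : F) ≠ 0)) (x : V) (Z : Submodule F V) (hxZ : x ∉ Z) (hx : B x x = 0) (hxz : ∀ z ∈ Z, B x z = 0) (hZ : ∀ z ∈ Z, ∀ z' ∈ Z, B z z' = 0) : ∃ y : V, B y y = 0 ∧ B x y = 1 ∧ ∀ z ∈ Z, B z y = 0 := by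
  obtain ⟨f, hf, hf'⟩ := Z.exists_dual_map_eq_bot_of_notMem hxZ inferInstance
  obtain ⟨a, ha⟩ := (B.flip.toDual hB.flip).surjective ((f x)⁻¹ • f)
  have ha' : ∀ v, B v a = (f x)⁻¹ * f v := fun v => congrArg (fun g : Module.Dual F V => g v) ha
  have h1 : B x a = 1 := by rw [ha', inv_mul_cancel₀ hf]
  have h2 : ∀ z ∈ Z, B z a = 0 := fun z hz => by
    have : f z ∈ Z.map f := Submodule.mem_map_of_mem hz
    rw [hf'] at this
    rw [ha', (Submodule.mem_bot F).1 this, mul_zero]
  rcases hform with hA | ⟨hS, h2'⟩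
  · exact ⟨a, hA a, h1, h2⟩
  · refine ⟨a - (B a a / 2) • x, ?_, ?_, fun z hz => ?_⟩
    · simp only [map_sub, map_smul, LinearMap.sub_apply, LinearMap.smul_apply, smul_eq_mul, hx, h1,
        hS.eq a x]
      field_simp; ring
    · simp [hx, h1]
    · simp [h2 z hz, hS.eq z x, hxz z hz]

end Cfsg.Agent.S0761
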