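import Cfsg.Statements.S0763
import Cfsg.Agent.Lib.Forms.SymmDisc

set_option autoImplicit false
open Cfsg

namespace Cfsg.Agent.S0763

/-- Binary quadratic forms in characteristic two over a finite field: if Q is a quadratic form on a 2-dimensional space whose polar form is non-degenerate, then either there are vectors v, w with Q v = Q w = 0 and polar value 1 (Q is xy in these coordinates), or there are v, w and μ with Q v = 1, Q w = μ, polar value 1 and x² + x + μ without roots in F (Q is x² + xy + μy²). -/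
theorem result {F V : Type*} [Field F] [Finite F] [CharP F 2] [AddCommGroup V] [Module F V] (Q : QuadraticForm F V) (h2 : Module.finrank F V = 2) (hQ : (QuadraticMap.polarBilin Q).Nondegenerate) : (∃ v w : V, LinearIndependent F ![v, w] ∧ Q v = 0 ∧ Q w = 0 ∧ QuadraticMap.polar Q v w = 1) ∨ (∃ (v w : V) (μ : F), LinearIndependent F ![v, w] ∧ (∀ x : F, x ^ 2 + x + μ ≠ 0) ∧ Q v = 1 ∧ Q w = μ ∧ QuadraticMap.polar Q v w = 1) := by
  open CfsgLib.Forms in
  have : Module.Finite F V := Module.finite_of_finrank_pos (by omega)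
  have hP := ofQuad_nondeg Q hQ
  have h0 : (2 : F) = 0 := CharTwo.two_eq_zero
  by_cases hs : ∃ u, u ≠ 0 ∧ Q u = 0
  · obtain ⟨u, hu0, hu⟩ := hs
    obtain ⟨y, hy, hyx, -⟩ := (ofQuad Q).exists_partner hP ⊥ ((ofQuad_sing Q u).2 hu)
      (by simpa using hu0) (by simp)
    exact Or.inl ⟨u, y, (ofQuad Q).linearIndependent_pair ((ofQuad_sing Q u).2 hu).self_eq hyx, hu,
      (ofQuad_sing Q y).1 hy, by rw [QuadraticMap.polar_comm]; exact hyx⟩
  · right
    obtain ⟨v, hv⟩ := CfsgLib.Orth.exists_Q_eq hQ h2.ge 1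
    have hv0 : v ≠ 0 := by rintro rfl; simp at hv
    obtain ⟨w, hw⟩ := CfsgLib.Orth.exists_polar_eq hQ hv0 1
    have hli : LinearIndependent F ![v, w] := (ofQuad Q).linearIndependent_pair
      (by rw [ofQuad_B, CfsgLib.Orth.polar_self', h0, zero_mul])
      (by rw [ofQuad_B, QuadraticMap.polar_comm]; exact hw)
    refine ⟨v, w, Q w, hli, fun x hx => hs ⟨x • v + w, fun h => ?_, ?_⟩, hv, rfl, hw⟩
    · have := (LinearIndependent.pair_iff.1 hli x 1 (by simpa using h)).2
      exact one_ne_zero this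
    · rw [CfsgLib.Orth.Q_add, CfsgLib.Orth.Q_smul, hv, QuadraticMap.polar_smul_left, hw]
      simp only [smul_eq_mul]
      linear_combination hx

end Cfsg.Agent.S0763
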