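import Cfsg.Statements.S0770
import Cfsg.Agent.Lib.Forms.GLFlag

set_option autoImplicit false
open Cfsg

namespace Cfsg.Agent.S0770

open CfsgLib.Forms Matrix

/-- For a field with at least 3 elements, an invertible matrix normalises the subgroup of invertible diagonal matrices of GL_n if and only if it is monomial (exactly one non-zero entry in each row). -/
theorem result {F : Type*} [Field F] (hF : ∃ a : F, a ≠ 0 ∧ a ≠ 1) (n : ℕ) (g : Matrix.GeneralLinearGroup (Fin n) F) : g ∈ Subgroup.normalizer ((Units.map (Matrix.diagonalRingHom (Fin n) F).toMonoidHom).range : Subgroup (Matrix.GeneralLinearGroup (Fin n) F)) ↔ ∀ i : Fin n, ∃! j : Fin n, (g : Matrix (Fin n) (Fin n) F) i j ≠ 0 := by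
  have hmem : ∀ h : GL (Fin n) F, h ∈ (Units.map (Matrix.diagonalRingHom (Fin n) F).toMonoidHom).range
      ↔ ∃ d : (Fin n → F)ˣ, (h : Matrix (Fin n) (Fin n) F) = diagonal d.1 := fun h =>
    ⟨fun ⟨d, hd⟩ => ⟨d, hd ▸ rfl⟩, fun ⟨d, hd⟩ => ⟨d, Units.ext hd.symm⟩⟩
  have hconj : ∀ (h : GL (Fin n) F) (D : Matrix (Fin n) (Fin n) F),
      ((g * h * g⁻¹ : GL (Fin n) F) : Matrix (Fin n) (Fin n) F) = D ↔ g.1 * h.1 = D * g.1 := by
    intro h D
    rw [Units.val_mul, Units.mul_inv_eq_iff_eq_mul, Units.val_mul]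
  rw [Subgroup.mem_normalizer_iff]
  constructor
  · intro h i
    obtain ⟨a, ha0, ha1⟩ := hF
    obtain ⟨j, hj⟩ := exists_row_ne_zero g i
    refine ⟨j, hj, fun k hk => ?_⟩
    by_contra hkj
    obtain ⟨d, hd⟩ := (hmem _).1 ((h _).1 ⟨MulEquiv.piUnits.symm (Pi.mulSingle j (Units.mk0 a ha0)), rfl⟩)
    rw [hconj] at hd
    have h1 := congrFun (congrFun hd i) j
    have h2 := congrFun (congrFun hd i) k
    simp [hkj, mul_comm (d.1 i), hj, hk] at h1 h2
    exact ha1 (h1.trans h2)
  · intro hg h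
    choose σ hσ hσ' using hg
    have hs : Function.Surjective σ := fun j => by
      obtain ⟨i, hi⟩ := exists_col_ne_zero g j
      exact ⟨i, (hσ' i j hi).symm⟩
    let e := Equiv.ofBijective σ (Finite.surjective_iff_bijective.1 hs)
    have key : ∀ d : Fin n → F, g.1 * diagonal d = diagonal (d ∘ σ) * g.1 := by
      intro d
      ext i j
      rw [mul_diagonal, diagonal_mul]
      by_cases hij : g.1 i j = 0
      · simp [hij]
      · rw [hσ' i j hij, mul_comm]; rfl
    rw [hmem, hmem]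
    constructor
    · rintro ⟨d, hd⟩
      refine ⟨Units.map (MonoidHom.pi fun i => Pi.evalMonoidHom _ (σ i)) d, ?_⟩
      rw [hconj, hd, key]; rfl
    · rintro ⟨d, hd⟩
      refine ⟨Units.map (MonoidHom.pi fun i => Pi.evalMonoidHom _ (e.symm i)) d, ?_⟩
      rw [hconj] at hd
      rw [← g.mul_right_inj, hd, key]
      congr 2
      ext i
      exact congrArg d.1 (e.symm_apply_apply i).symm

end Cfsg.Agent.S0770
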