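import Cfsg.Statements.S0772
import Cfsg.Agent.Lib.Forms.GLFlag

set_option autoImplicit false
open Cfsg

namespace Cfsg.Agent.S0772

open CfsgLib.Forms CfsgLib.ClMax Matrix

/-- Maximal parabolics are maximal: over a finite field, for 0 < k < n the stabiliser in GL_n of the span of the first k coordinate vectors is a maximal proper subgroup. -/
theorem result {F : Type*} [Field F] [Finite F] (n k : ℕ) (hk0 : 0 < k) (hkn : k < n) : IsCoatom (Cfsg.stabilizing (Cfsg.glToMat (Fin n) F) {v : Fin n → F | ∀ i : Fin n, k ≤ (i : ℕ) → v i = 0}) := by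
  let W := coordSub F fun i : Fin n => k ≤ (i : ℕ)
  have hW : Module.finrank F W = k := finrank_coordSub_le hkn.le
  have h0 : W ≠ ⊥ := fun h => by rw [h, finrank_bot] at hW; omega
  have h1 : W ≠ ⊤ := fun h => by rw [h] at hW; simp at hW; omega
  have hmax := subspaceStabilizer_isMaximalIn h0 h1
  change IsCoatom (Geo.subspaceStabilizer W)
  have hdet : ∀ g : GL (Fin n) F, ∃ p ∈ Geo.subspaceStabilizer W,
      g * p⁻¹ ∈ Geo.specialLinear (Fin n) F := by
    intro g
    let d : Fin n → F := Pi.mulSingle ⟨0, by omega⟩ g.1.det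
    have hd : (diagonal d).det = g.1.det := by simp [d]
    refine ⟨GeneralLinearGroup.mkOfDetNeZero (diagonal d) (hd ▸ g.det_ne_zero),
      (mem_linStab_coordSub (glToMat (Fin n) F)).2 fun i j hi hj =>
        diagonal_apply_ne _ (by rintro rfl; exact hj hi), ?_⟩
    rw [Geo.specialLinear, MonoidHom.mem_ker, map_mul, map_inv, mul_inv_eq_one]
    exact Units.ext hd.symm
  refine ⟨fun h => hmax.1.ne (by rw [h, top_inf_eq]), fun M hM => ?_⟩
  rcases hmax.2 (M ⊓ Geo.specialLinear (Fin n) F) (inf_le_inf_right _ hM.le) inf_le_right with h | h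
  · refine absurd (fun g hg => ?_) hM.not_ge
    obtain ⟨p, hp, hp'⟩ := hdet g
    have := (h.le ⟨M.mul_mem hg (M.inv_mem (hM.le hp)), hp'⟩).1
    simpa using Subgroup.mul_mem _ this hp
  · refine eq_top_iff.2 fun g _ => ?_
    obtain ⟨p, hp, hp'⟩ := hdet g
    simpa using M.mul_mem (h.ge hp').1 (hM.le hp)

end Cfsg.Agent.S0772
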