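import Cfsg.Statements.S0773
import Cfsg.Agent.Lib.Forms.GLFlag

set_option autoImplicit false
open Cfsg

namespace Cfsg.Agent.S0773

open CfsgLib.Forms CfsgLib.ClAut Matrix

/-- The stabilisers in GL_n(F), F finite, of the coordinate subspaces of dimensions k and n − k are isomorphic groups, but when 2k ≠ n (and 0 < k < n) no element of GL_n conjugates one onto the other. -/
theorem result {F : Type*} [Field F] [Finite F] (n k : ℕ) (hk0 : 0 < k) (hkn : k < n) (h2 : 2 * k ≠ n) : Nonempty (↥(Cfsg.stabilizing (Cfsg.glToMat (Fin n) F) {v : Fin n → F | ∀ i : Fin n, k ≤ (i : ℕ) → v i = 0}) ≃* ↥(Cfsg.stabilizing (Cfsg.glToMat (Fin n) F) {v : Fin n → F | ∀ i : Fin n, n - k ≤ (i : ℕ) → v i = 0})) ∧ ∀ g : Matrix.GeneralLinearGroup (Fin n) F, (Cfsg.stabilizing (Cfsg.glToMat (Fin n) F) {v : Fin n → F | ∀ i : Fin n, k ≤ (i : ℕ) → v i = 0}).map (MulAut.conj g).toMonoidHom ≠ Cfsg.stabilizing (Cfsg.glToMat (Fin n) F) {v : Fin n → F | ∀ i : Fin n, n - k ≤ (i : ℕ) → v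 i = 0} := by
  have hmem : ∀ (l : ℕ) (g : GL (Fin n) F), g ∈ Cfsg.stabilizing (Cfsg.glToMat (Fin n) F)
      {v : Fin n → F | ∀ i : Fin n, l ≤ (i : ℕ) → v i = 0} ↔
      ∀ i j : Fin n, l ≤ (i : ℕ) → ¬ l ≤ (j : ℕ) → g.1 i j = 0 := fun l g =>
    mem_linStab_coordSub (glToMat (Fin n) F) (p := fun i => l ≤ (i : ℕ))
  constructor
  · let θ : GL (Fin n) F ≃* GL (Fin n) F := (glInvT (Fin n) F).trans
      (Units.mapEquiv (reindexRingEquiv F Fin.revPerm).toMulEquiv)
    refine ⟨MulEquiv.ofBijective ((θ.toMonoidHom.comp (Subgroup.subtype _)).codRestrict _ ?_)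
      ⟨fun g h hgh => Subtype.ext (θ.injective (congrArg Subtype.val hgh)), fun g => ?_⟩⟩
    · intro g
      rw [hmem]
      intro i j hi hj
      exact (hmem _ _).1 g⁻¹.2 j.rev i.rev (by simp; omega) (by simp; omega)
    · refine ⟨⟨θ.symm g, ?_⟩, Subtype.ext (θ.apply_symm_apply _)⟩
      rw [← inv_mem_iff, hmem]
      intro i j hi hj
      exact (hmem _ _).1 g.2 j.rev i.rev (by simp; omega) (by simp; omega)
  · intro g hg
    have h1 := finrank_coordSub_le (F := F) hkn.le
    have h3 := finrank_coordSub_le (F := F) (Nat.sub_le n k)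
    have h4 := eq_of_linStab_le (U := coordSub F fun i : Fin n => n - k ≤ (i : ℕ))
      (U' := (coordSub F fun i : Fin n => k ≤ (i : ℕ)).map (glEquiv g).toLinearMap) (by
        intro x hx
        obtain ⟨x, rfl⟩ := glEquiv.surjective x
        obtain ⟨y, hy, rfl⟩ := hg.ge hx
        refine mem_linStab_of_le ?_
        rintro _ ⟨v, hv, rfl⟩
        refine ⟨_, (hy v).1 hv, ?_⟩
        change glEquiv g (glEquiv y v) = glEquiv (g * y * g⁻¹) (glEquiv g v)
        rw [← LinearEquiv.mul_apply, ← LinearEquiv.mul_apply, ← map_mul, ← map_mul,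
          inv_mul_cancel_right])
      (fun h => by rw [← (glEquiv g).finrank_map_eq, h, finrank_bot] at h1; omega)
      (fun h => by rw [← (glEquiv g).finrank_map_eq, h] at h1; simp at h1; omega)
    rw [h4, LinearEquiv.finrank_map_eq, h1] at h3
    omega

end Cfsg.Agent.S0773
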