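import Cfsg.Statements.S0774
import Cfsg.Agent.Lib.Forms.GLFlag
import Cfsg.Agent.Lib.Forms.StabMat

set_option autoImplicit false
open Cfsg

namespace Cfsg.Agent.S0774

open CfsgLib.Forms Matrix

/-- Borel subgroup of the symplectic group: the elements of Sp_2m(q) stabilising each of the totally isotropic coordinate subspaces ⟨e_0, ..., e_k⟩ (k < m) form a subgroup of order q^(m²) (q − 1)^m. -/
theorem result {F : Type*} [Field F] [Fintype F] {q : ℕ} (hF : Fintype.card F = q) (m : ℕ) : Nat.card ↥(⨅ k : Fin m, Cfsg.stabilizing (Cfsg.spToMat m F) {v : Fin m ⊕ Fin m → F | (∀ i : Fin m, (k : ℕ) < (i : ℕ) → v (Sum.inl i) = 0) ∧ ∀ i : Fin m, v (Sum.inr i) = 0}) = q ^ (m ^ 2) * (q - 1) ^ m := by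
  let W := coordSub F fun i : Fin m ⊕ Fin m => i.isRight
  have hW : Module.finrank F W = m := by
    rw [finrank_coordSub]
    rw [Fintype.card_subtype, Finset.card_filter, Fintype.sum_sum_type]
    simp
  have hts : (spPQ (Fin m) F).TS W := spPQ_ts.2 fun u hu v hv => by
    rw [spB_eq_sum]
    exact Finset.sum_eq_zero fun i _ => by rw [hu (Sum.inr i) rfl, hv (Sum.inr i) rfl]; ring
  have h1 := card_sp_fix_ts le_rfl hW hts
  rw [Nat.sub_self, CfsgLib.Symp.card_sp, ← Nat.card_congr (spSubEquiv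
    ((linFix W).comap (matEquiv (spToMat m F))) _ fun _ => Iff.rfl).toEquiv] at h1
  have h2 := card_upperTriangular (F := F) (ι := Fin m)
  rw [Nat.card_eq_fintype_card (α := F), hF, Fintype.card_fin] at h2
  have hmem : ∀ (k : Fin m) (A : symplecticGroup (Fin m) F), A ∈ Cfsg.stabilizing (Cfsg.spToMat m F)
      {v : Fin m ⊕ Fin m → F | (∀ i : Fin m, (k : ℕ) < (i : ℕ) → v (Sum.inl i) = 0) ∧
        ∀ i : Fin m, v (Sum.inr i) = 0} ↔ ∀ j : Fin m, j ≤ k →
          (∀ i, k < i → A.1 (Sum.inl i) (Sum.inl j) = 0) ∧ ∀ i, A.1 (Sum.inr i) (Sum.inl j) = 0 := by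
    intro k A
    have h := mem_linStab_coordSub (spToMat m F) (p := Sum.elim (fun i => k < i) fun _ => True)
      (g := A)
    simp only [mem_linStab, mem_coordSub, Sum.forall, Sum.elim_inl, Sum.elim_inr, not_lt,
      not_true_eq_false, IsEmpty.forall_iff, forall_const, implies_true, and_true] at h
    exact h.trans ⟨fun h j hj => ⟨fun i hi => h.1 i j hi hj, fun i => h.2 i j hj⟩,
      fun h => ⟨fun i j hi hj => (h j hj).1 i hi, fun i j hj => (h j hj).2 i⟩⟩
  have hfix : ∀ A : symplecticGroup (Fin m) F, A ∈ (linFix W).comap (matEquiv (spToMat m F)) ↔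
      ∀ i j, A.1 i (Sum.inl j) = (1 : Matrix (Fin m ⊕ Fin m) (Fin m ⊕ Fin m) F) i (Sum.inl j) := by
    intro A
    constructor
    · intro h i j
      have := congrFun (h (Pi.single (Sum.inl j) 1) (single_mem_coordSub.2 (by simp))) i
      simpa [matEquiv_apply, one_apply, Pi.single_apply] using this
    · intro h v hv
      rw [matEquiv_apply, ← sub_eq_zero]
      nth_rw 2 [← one_mulVec v]
      rw [← sub_mulVec]
      ext i
      change ∑ j, (A.1 i j - (1 : Matrix (Fin m ⊕ Fin m) (Fin m ⊕ Fin m) F) i j) * v j = 0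
      refine Finset.sum_eq_zero ?_
      rintro (j | j) _
      · exact mul_eq_zero_of_left (sub_eq_zero.2 (h i j)) _
      · exact mul_eq_zero_of_right _ (hv _ rfl)
  have hcol : ∀ (g : GL (Fin m) F) (A : (linFix W).comap (matEquiv (spToMat m F))) i j,
      (A.1 * spLevi (Fin m) F g).1 i (Sum.inl j) = (spLevi (Fin m) F g).1 i (Sum.inl j) := by
    intro g A i j
    have := congrFun (A.2 ((spLevi (Fin m) F g).1.col (Sum.inl j)) (by
      rintro (k | k) hk
      · simp at hk
      · rfl)) i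
    exact this
  rw [show q ^ (m ^ 2) * (q - 1) ^ m = q ^ (m.choose 2) * (q - 1) ^ m *
    (q ^ (m * (m + 1) / 2 + 2 * m * 0) * (q ^ (0 ^ 2) * 1)) by
      rw [show m * (m + 1) / 2 = (m + 1).choose 2 by rw [Nat.choose_two_right, mul_comm]; rfl,
        Nat.choose_succ_succ' m 1, Nat.choose_one_right]
      have : m ^ 2 = m.choose 2 + (m + m.choose 2) := by
        have : 2 * m.choose 2 + m = m * m := by
          rw [Nat.choose_two_right, Nat.mul_div_cancel' (Nat.even_mul_pred_self m).two_dvd]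
          cases m <;> simp; ring
        nlinarith
      rw [this]; ring, ← h2]
  rw [hF, Finset.prod_range_zero] at h1
  rw [← h1, ← Nat.card_prod]
  symm
  refine Nat.card_congr (Equiv.ofBijective (fun p => ⟨p.2.1 * spLevi (Fin m) F p.1.1, ?_⟩)
    ⟨fun p p' h => ?_, fun A => ?_⟩)
  · rw [Subgroup.mem_iInf]
    intro k
    rw [hmem]
    intro j hj
    simp only [hcol]
    exact ⟨fun i hi => p.1.2 i j (hj.trans_lt hi), fun i => rfl⟩
  · have h3 := congrArg Subtype.val h
    have h4 : p.1 = p'.1 := by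
      ext i j
      have := congrArg (fun A : symplecticGroup (Fin m) F => A.1 (Sum.inl i) (Sum.inl j)) h3
      simp only [hcol] at this
      exact this
    simp only [h4, mul_left_inj] at h3
    exact Prod.ext h4 (Subtype.ext h3)
  · have hA := fun k => (hmem k A).1 (Subgroup.mem_iInf.1 A.2 k) k le_rfl
    have h3 : A.1.1 = fromBlocks A.1.1.toBlocks₁₁ A.1.1.toBlocks₁₂ 0 A.1.1.toBlocks₂₂ := by
      ext (i | i) (j | j)
      exacts [rfl, rfl, (hA j).2 i, rfl]
    have h4 : A.1.1.toBlocks₁₁.det ≠ 0 := by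
      have := SymplecticGroup.symplectic_det A.1.2
      rw [h3, det_fromBlocks_zero₂₁] at this
      exact left_ne_zero_of_mul this.ne_zero
    let g := GeneralLinearGroup.mkOfDetNeZero _ h4
    refine ⟨(⟨g, fun i j hij => (hA j).1 i hij⟩, ⟨A * (spLevi (Fin m) F g)⁻¹, ?_⟩), by simp⟩
    rw [hfix, ← map_inv]
    intro i j
    rw [Submonoid.coe_mul, h3, coe_spLevi, fromBlocks_multiply, ← fromBlocks_one]
    rcases i with i | i
    · have : A.1.1.toBlocks₁₁ * (g⁻¹).1 = 1 := g.mul_inv
      simp only [fromBlocks_apply₁₁, this, Matrix.mul_zero, add_zero]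
    · simp

end Cfsg.Agent.S0774
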