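import Cfsg.Statements.S0776
import Cfsg.Agent.Lib.Forms.StabMat

set_option autoImplicit false
open Cfsg

namespace Cfsg.Agent.S0776

open CfsgLib.Forms in

/-- If W ≤ F^(2m) is a 2k-dimensional subspace on which the symplectic form is non-degenerate, then the stabiliser of W in Sp_2m(F) is isomorphic to Sp_2k(F) × Sp_(2m−2k)(F). -/
theorem result {F : Type*} [Field F] (m k : ℕ) (hk : k ≤ m) (W : Submodule F (Fin m ⊕ Fin m → F)) (hWk : Module.finrank F W = 2 * k) (hW : ∀ u ∈ W, (∀ v ∈ W, Cfsg.sympForm m F u v = 0) → u = 0) : Nonempty (↥(Cfsg.stabilizing (Cfsg.spToMat m F) (W : Set (Fin m ⊕ Fin m → F))) ≃* Matrix.symplecticGroup (Fin k) F × Matrix.symplecticGroup (Fin (m - k)) F) := by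
  have hP := spPQ_nondeg (Fin m) F
  have hd : Disjoint W ((spPQ (Fin m) F).perp W) :=
    (spPQ (Fin m) F).disjoint_perp_iff.2 fun u hu h => hW u hu fun v hv => by
      rw [← spB_eq_sympForm]; exact h v hv
  have h1 := (spPQ (Fin m) F).finrank_perp hP W
  obtain ⟨e1⟩ := ((spPQ (Fin m) F).restrict W).nonempty_isom_sp
    ((spPQ _ F).restrict_nondeg_iff.2 hd) rfl hWk
  obtain ⟨e2⟩ := ((spPQ (Fin m) F).restrict ((spPQ (Fin m) F).perp W)).nonempty_isom_sp
    ((spPQ _ F).restrict_nondeg_iff.2 ((spPQ _ F).disjoint_perp_perp hP hd)) rfl (m := m - k)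
    (by simp at h1; omega)
  exact ⟨(spStabEquiv W).trans (((spPQ _ F).stabEquivProd hP hd).trans (e1.prodCongr e2))⟩

end Cfsg.Agent.S0776
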