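import Cfsg.Statements.S0777
import Cfsg.Agent.Lib.Forms.GLFlag

set_option autoImplicit false
open Cfsg

namespace Cfsg.Agent.S0777

open CfsgLib.Forms Matrix

section

variable {F : Type*} [Field F] {m : ℕ}

/-- A monomial matrix. -/
def mono {ι : Type*} [DecidableEq ι] (σ : ι → ι) (c : ι → F) : Matrix ι ι F :=
  Matrix.of fun i j => if j = σ i then c i else 0

theorem mono_mem (σ : Fin m ⊕ Fin m → Fin m ⊕ Fin m) (c : Fin m ⊕ Fin m → F) :
    mono σ c ∈ symplecticGroup (Fin m) F ↔
      ∀ i k, c i * c k * J (Fin m) F (σ i) (σ k) = J (Fin m) F i k := by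
  rw [SymplecticGroup.mem_iff, ← Matrix.ext_iff]
  refine forall₂_congr fun i k => ?_
  simp only [mono, mul_apply, transpose_apply, of_apply, ite_mul, mul_ite, zero_mul, mul_zero,
    Finset.sum_ite_eq', Finset.mem_univ, if_true]
  rw [mul_right_comm]

theorem J_ne_zero_iff (i k : Fin m ⊕ Fin m) : J (Fin m) F i k ≠ 0 ↔ k = i.swap := by
  rcases i with i | i <;> rcases k with k | k <;> simp [J, one_apply, eq_comm]

theorem J_mul_self (i : Fin m ⊕ Fin m) : J (Fin m) F i i.swap * J (Fin m) F i i.swap = 1 := by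
  rcases i with i | i <;> simp [J]

theorem J_anti (i k : Fin m ⊕ Fin m) : J (Fin m) F i k = -J (Fin m) F k i := by
  rcases i with i | i <;> rcases k with k | k <;> simp [J, one_apply, eq_comm]

theorem card_centralizer (m : ℕ) : Nat.card (Subgroup.centralizer
    {(Equiv.sumComm (Fin m) (Fin m) : Equiv.Perm (Fin m ⊕ Fin m))}) = 2 ^ m * m.factorial := by
  set τ : Equiv.Perm (Fin m ⊕ Fin m) := Equiv.sumComm (Fin m) (Fin m)
  have h1 : τ ^ 2 = 1 := by ext x; simp [τ, pow_two]
  have h2 := Equiv.Perm.cycleType_of_pow_prime_eq_one h1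
  have h3 := τ.sum_cycleType
  have h4 : τ.support = Finset.univ := by
    ext (x | x) <;> simp [τ]
  rw [h4, h2] at h3
  have h5 : τ.cycleType.card = m := by simp at h3; omega
  rw [h5] at h2
  rw [Equiv.Perm.nat_card_centralizer, h2]
  rcases Nat.eq_zero_or_pos m with rfl | hm
  · simp
  · simp [Multiset.toFinset_replicate, hm.ne', mul_two]

end

/-- Weyl group of type C_m: for q ≥ 4 the diagonal matrices of Sp_2m(q) form a torus T ≅ (C_(q−1))^m (the elements stabilising every coordinate axis), and the normaliser of T in Sp_2m(q) has order 2^m · m! · (q − 1)^m. -/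
theorem result {F : Type*} [Field F] [Fintype F] {q : ℕ} (hF : Fintype.card F = q) (hq : 4 ≤ q) (m : ℕ) : Nat.card ↥(Subgroup.normalizer (⨅ i : Fin m ⊕ Fin m, Cfsg.stabilizing (Cfsg.spToMat m F) ((Submodule.span F {(Pi.single i (1 : F) : Fin m ⊕ Fin m → F)} : Submodule F (Fin m ⊕ Fin m → F)) : Set (Fin m ⊕ Fin m → F)) : Set (Matrix.symplecticGroup (Fin m) F))) = 2 ^ m * Nat.factorial m * (q - 1) ^ m := by
  obtain ⟨a, ha0, ha1⟩ : ∃ a : F, a ≠ 0 ∧ a ^ 2 ≠ 1 := by
    obtain ⟨a, ha⟩ := IsCyclic.exists_ofOrder_eq_natCard (α := Fˣ)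
    refine ⟨a, a.ne_zero, fun h => ?_⟩
    have := Nat.le_of_dvd two_pos (orderOf_dvd_of_pow_eq_one (x := a) (Units.ext h))
    rw [ha, Nat.card_units, Nat.card_eq_fintype_card] at this
    omega
  have ha2 : a ≠ 1 := by rintro rfl; simp at ha1
  have ha3 : a ≠ a⁻¹ := fun h => ha1 (by rw [pow_two]; nth_rw 2 [h]; exact mul_inv_cancel₀ ha0)
  set T := ⨅ i : Fin m ⊕ Fin m, Cfsg.stabilizing (Cfsg.spToMat m F)
    ((Submodule.span F {(Pi.single i (1 : F) : Fin m ⊕ Fin m → F)} :
      Submodule F (Fin m ⊕ Fin m → F)) : Set (Fin m ⊕ Fin m → F)) with hT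
  have hTm : ∀ A, A ∈ T ↔ A.1.IsDiag := by
    intro A
    have h1 : ∀ j : Fin m ⊕ Fin m, Submodule.span F {(Pi.single j (1 : F) : Fin m ⊕ Fin m → F)} =
        coordSub F fun i => i ≠ j := by
      intro j
      refine le_antisymm ((Submodule.span_singleton_le_iff_mem _ _).2
        (single_mem_coordSub.2 (by simp))) fun v hv => Submodule.mem_span_singleton.2 ⟨v j, ?_⟩
      ext i
      by_cases h : i = j
      · simp [h]
      · simp [h, hv i h]
    simp only [hT, Subgroup.mem_iInf, h1]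
    constructor
    · intro h i j hij
      exact (mem_linStab_coordSub (spToMat m F)).1 (h j) i j hij (by simp)
    · intro h j
      exact (mem_linStab_coordSub (spToMat m F)).2 fun i k hi hk => h (by
        rw [not_not.1 hk]; exact hi)
  have hN : ∀ A, A ∈ Subgroup.normalizer (T : Set (symplecticGroup (Fin m) F)) ↔
      ∀ i, ∃! j, A.1 i j ≠ 0 := by
    intro A
    have hconj : ∀ D D' : symplecticGroup (Fin m) F, A * D * A⁻¹ = D' → D ∈ T → D' ∈ T →
        ∀ i j, A.1 i j ≠ 0 → D.1 j j = D'.1 i i := by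
      intro D D' h hD hD' i j hij
      have h1 := congrArg (fun X : symplecticGroup (Fin m) F => X.1 i j)
        (mul_inv_eq_iff_eq_mul.1 h)
      simp only [Submonoid.coe_mul] at h1
      rw [← ((hTm D).1 hD).diagonal_diag, ← ((hTm D').1 hD').diagonal_diag, mul_diagonal,
        diagonal_mul, mul_comm] at h1
      exact mul_right_cancel₀ hij h1
    constructor
    · intro h i
      obtain ⟨j, hj⟩ := exists_row_ne_zero ((spToMat m F).toHomUnits A) i
      refine ⟨j, hj, fun k hk => ?_⟩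
      by_contra hkj
      let d : Fin m → Fˣ := Pi.mulSingle (j.elim id id) (Units.mk0 a ha0)
      let D := spLevi (Fin m) F (Units.map (Matrix.diagonalRingHom (Fin m) F).toMonoidHom
        (MulEquiv.piUnits.symm d))
      have hD : D.1 = diagonal (Sum.elim (fun i => (d i : F)) fun i => ((d i)⁻¹ : Fˣ)) := by
        rw [← fromBlocks_diagonal, ← diagonal_transpose fun i => (((d i)⁻¹ : Fˣ) : F)]; rfl
      have hDT : D ∈ T := (hTm D).2 (hD ▸ isDiag_diagonal _)
      have h1 := (Subgroup.mem_normalizer_iff.1 h D).1 hDT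
      have h2 := (hconj _ _ rfl hDT h1 i j hj).trans (hconj _ _ rfl hDT h1 i k hk).symm
      rw [hD, diagonal_apply_eq, diagonal_apply_eq] at h2
      rcases j with j | j <;> rcases k with k | k <;> rcases eq_or_ne k j with rfl | h3 <;>
        first | exact hkj rfl | (simp [d, ha3, ha3.symm] at h2; done) | simp [d, h3, ha2] at h2
    · intro h
      have hsub : ∀ B : symplecticGroup (Fin m) F, (∀ i, ∃! j, B.1 i j ≠ 0) → ∀ D ∈ T,
          B * D * B⁻¹ ∈ T := by
        intro B hB D hD
        choose σ hσ hσ' using hB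
        have : (B * D * B⁻¹).1 = diagonal (D.1.diag ∘ σ) := by
          have h1 : B.1 * D.1 = diagonal (D.1.diag ∘ σ) * B.1 := by
            ext i j
            rw [← ((hTm D).1 hD).diagonal_diag, mul_diagonal, diagonal_mul, diag_diagonal]
            by_cases hij : B.1 i j = 0
            · simp [hij]
            · rw [hσ' i j hij, mul_comm]; rfl
          rw [Submonoid.coe_mul, Submonoid.coe_mul, h1, mul_assoc, ← Submonoid.coe_mul,
            mul_inv_cancel, OneMemClass.coe_one, mul_one]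
        exact (hTm _).2 (this ▸ isDiag_diagonal _)
      exact Subgroup.mem_normalizer_fintype (hsub A h)
  let τ : Equiv.Perm (Fin m ⊕ Fin m) := Equiv.sumComm (Fin m) (Fin m)
  have hτ : ∀ σ : Equiv.Perm (Fin m ⊕ Fin m), σ ∈ Subgroup.centralizer {τ} ↔
      ∀ i, σ i.swap = (σ i).swap := fun σ => by
    rw [Subgroup.mem_centralizer_singleton_iff, Equiv.ext_iff]; rfl
  let c : Equiv.Perm (Fin m ⊕ Fin m) → (Fin m → Fˣ) → Fin m ⊕ Fin m → F := fun σ t =>
    Sum.elim (fun i => t i) fun i => ((t i : F)⁻¹ * J (Fin m) F (Sum.inl i) (Sum.inr i) *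
      J (Fin m) F (σ (Sum.inl i)) (σ (Sum.inr i)))
  have hc : ∀ σ ∈ Subgroup.centralizer {τ}, ∀ t, mono σ (c σ t) ∈ symplecticGroup (Fin m) F := by
    intro σ hσ t
    rw [hτ] at hσ
    have key : ∀ i, c σ t (Sum.inl i) * c σ t (Sum.inr i) * J (Fin m) F (σ (Sum.inl i))
        (σ (Sum.inr i)) = J (Fin m) F (Sum.inl i) (Sum.inr i) := by
      intro i
      have := J_mul_self (F := F) (σ (Sum.inl i))
      rw [← hσ] at this
      simp only [c, Sum.elim_inl, Sum.elim_inr]
      have h0 := (t i).ne_zero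
      rw [Sum.swap_inl] at this
      field_simp
      linear_combination (J (Fin m) F (Sum.inl i) (Sum.inr i)) * this
    rw [mono_mem]
    intro i k
    by_cases hk : k = i.swap
    · subst hk
      rcases i with i | i
      · exact key i
      · rw [J_anti, J_anti (Sum.inr i), Sum.swap_inr, ← key i]; ring
    · rw [not_not.1 (mt (J_ne_zero_iff i k).1 hk), not_not.1 (mt (J_ne_zero_iff _ _).1 (by
        rw [← hσ]; exact fun h => hk (σ.injective h))), mul_zero]
  have hc0 : ∀ σ ∈ Subgroup.centralizer {τ}, ∀ t i, c σ t i ≠ 0 := by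
    intro σ hσ t i h
    have := (mono_mem _ _).1 (hc σ hσ t) i i.swap
    rw [h, zero_mul, zero_mul] at this
    exact (J_ne_zero_iff _ _).2 rfl this.symm
  have hcard : Nat.card (Fin m → Fˣ) = (q - 1) ^ m := by
    rw [Nat.card_fun, Nat.card_units, Nat.card_eq_fintype_card, hF, Nat.card_fin]
  rw [← card_centralizer, ← hcard, ← Nat.card_prod, Set.iInf_eq_iInter, ← Subgroup.coe_iInf, ← hT]
  symm
  refine Nat.card_congr (Equiv.ofBijective (fun p => ⟨⟨_, hc p.1.1 p.1.2 p.2⟩,
    (hN ⟨_, hc p.1.1 p.1.2 p.2⟩).2 fun i =>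
    ⟨p.1.1 i, by simpa [mono] using hc0 _ p.1.2 _ i, fun j hj => by
      by_contra h; simp [mono, h] at hj⟩⟩) ⟨fun p p' h => ?_, fun A => ?_⟩)
  · have h1 : mono p.1.1 (c p.1.1 p.2) = mono p'.1.1 (c p'.1.1 p'.2) :=
      congrArg (fun A : Subgroup.normalizer (T : Set (symplecticGroup (Fin m) F)) => A.1.1) h
    have h2 : p.1 = p'.1 := by
      ext1; ext1 i
      by_contra h3
      have := congrFun (congrFun h1 i) (p.1.1 i)
      simp only [mono, of_apply, if_true, h3, if_false] at this
      exact hc0 _ p.1.2 _ i this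
    refine Prod.ext h2 (funext fun i => Units.ext ?_)
    simpa [mono, h2, c] using congrFun (congrFun h1 (Sum.inl i)) (p.1.1 (Sum.inl i))
  · obtain ⟨A, hA⟩ := A
    have hA' := (hN A).1 hA
    choose σ hσ hσ' using hA'
    have hs : Function.Surjective σ := fun j => by
      obtain ⟨i, hi⟩ := exists_col_ne_zero ((spToMat m F).toHomUnits A) j
      exact ⟨i, (hσ' i j hi).symm⟩
    let e := Equiv.ofBijective σ (Finite.surjective_iff_bijective.1 hs)
    have h1 : A.1 = mono σ fun i => A.1 i (σ i) := by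
      ext i j
      by_cases h : j = σ i
      · simp [mono, h]
      · simpa [mono, h] using mt (hσ' i j) h
    have h2 := (mono_mem _ _).1 (h1 ▸ A.2)
    have h3 : ∀ i, σ i.swap = (σ i).swap := fun i => (J_ne_zero_iff (F := F) _ _).1 fun h =>
      (J_ne_zero_iff (F := F) i _).2 rfl (by rw [← h2, h, mul_zero])
    refine ⟨(⟨e, (hτ e).2 h3⟩, fun i => Units.mk0 _ (hσ (Sum.inl i))), Subtype.ext (Subtype.ext ?_)⟩
    refine Eq.trans ?_ h1.symm
    change mono σ _ = _
    congr 1
    ext (i | i)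
    · rfl
    · have h4 := J_mul_self (F := F) (σ (Sum.inl i))
      rw [← h3, Sum.swap_inl] at h4
      have h5 := hσ (Sum.inl i)
      change (A.1 _ _)⁻¹ * _ * J _ F (σ _) (σ _) = _
      rw [← h2 (Sum.inl i) (Sum.inr i), mul_assoc, mul_assoc _ _ (J _ _ _ _), h4]
      field_simp

end Cfsg.Agent.S0777
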