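import Cfsg.Statements.S0778
import Cfsg.Agent.Lib.Forms.GLFlag

set_option autoImplicit false
open Cfsg

namespace Cfsg.Agent.S0778

open CfsgLib.Forms Matrix

/-- The elements of Sp_2m(F) stabilising both W = ⟨e_1..e_m⟩ and U = ⟨f_1..f_m⟩ form a subgroup isomorphic to GL_m(F) (block-diagonal matrices diag(X, X^(−ᵀ)) up to the sign convention of J), for m ≥ 1 or m = 0 alike. -/
theorem result {F : Type*} [Field F] (m : ℕ) : Nonempty (↥(Cfsg.stabilizing (Cfsg.spToMat m F) {v : Fin m ⊕ Fin m → F | ∀ i : Fin m, v (Sum.inr i) = 0} ⊓ Cfsg.stabilizing (Cfsg.spToMat m F) {v : Fin m ⊕ Fin m → F | ∀ i : Fin m, v (Sum.inl i) = 0}) ≃* Matrix.GeneralLinearGroup (Fin m) F) := by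
  refine ⟨(MulEquiv.subgroupCongr ?_).trans (MonoidHom.ofInjective spLevi_injective).symm⟩
  ext A
  have h1 := mem_linStab_coordSub (spToMat m F) (p := fun i => i.isRight) (g := A)
  have h2 := mem_linStab_coordSub (spToMat m F) (p := fun i => i.isLeft) (g := A)
  simp only [mem_linStab, mem_coordSub, Sum.forall, Sum.isRight_inl, Sum.isRight_inr,
    Sum.isLeft_inl, Sum.isLeft_inr, Bool.false_eq_true, not_false_eq_true, not_true_eq_false,
    IsEmpty.forall_iff, forall_const, implies_true, true_and, and_true] at h1 h2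
  rw [mem_range_spLevi]
  exact and_congr h1 h2

end Cfsg.Agent.S0778
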