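import Cfsg.Statements.S0782
import Cfsg.Agent.Lib.Forms.StabMat
import Cfsg.Agent.Lib.Unitary.Simple

set_option autoImplicit false
open Cfsg

namespace Cfsg.Agent.S0782

open CfsgLib.Forms CfsgLib.Unitary Module Matrix

/-- Maximal parabolics of SU_n(q): if W is a k-dimensional subspace of F^n (n ≥ 1, |F| = q²) on which the Hermitian form vanishes, then (q + 1) times the order of its stabiliser in SU_n(q) equals q^(k(2n−3k)) · |GL_k(q²)| · |GU_(n−2k)(q)|, where |GU_m(q)| = q^(m(m−1)/2) Π_(i=1..m) (q^i − (−1)^i). -/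
theorem result {F : Type*} [Field F] [Fintype F] {q : ℕ} (hF : Fintype.card F = q ^ 2) (n k : ℕ) (hn : 1 ≤ n) (hk : 2 * k ≤ n) (W : Submodule F (Fin n → F)) (hWk : Module.finrank F W = k) (hW : ∀ u ∈ W, ∀ v ∈ W, Cfsg.hermForm n F q u v = 0) : (q + 1) * Nat.card ↥((Cfsg.stabilizing (Cfsg.slToMat n F) (W : Set (Fin n → F))).subgroupOf (Cfsg.SU n F q)) = q ^ (k * (2 * n - 3 * k)) * (∏ i : Fin k, ((q ^ 2) ^ k - (q ^ 2) ^ (i : ℕ))) * (q ^ ((n - 2 * k) * ((n - 2 * k) - 1) / 2) * ∏ i ∈ Finset.range (n - 2 * k), (if Even i then q ^ (i + 1) + 1 else q ^ (i + 1) - 1)) := by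
  have hW' := (uPQ_ts hF).2 hW
  have hP := uPQ_nondeg hF n
  have hH := uPQ_isHerm hF n
  obtain ⟨d, hd⟩ := Nat.exists_eq_add_of_le hk
  set S := (stabilizing (glToMat (Fin n) F) (W : Set (Fin n → F))).subgroupOf (GU n F q) with hS
  let φ : S →* Fˣ := (detGU n F q).comp S.subtype
  have hr : φ.range = (detGU n F q).range := by
    apply le_antisymm
    · rintro _ ⟨g, rfl⟩; exact ⟨g, rfl⟩
    · rintro _ ⟨g, rfl⟩
      by_cases h0 : W = ⊥
      · refine ⟨⟨g, fun v => ?_⟩, rfl⟩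
        subst h0
        exact ((matEquiv (guMat n F q) g).map_eq_zero_iff (x := v)).symm
      · obtain ⟨x, hx, hx0⟩ := Submodule.exists_mem_ne_zero_of_ne_bot h0
        obtain ⟨y, hy, hyx, -⟩ := (uPQ hF n).exists_partner hP ⊥ (hW'.1 x hx) (by simpa using hx0)
          (by simp)
        obtain ⟨s, hs, hsd⟩ := exists_div_conj_eq hH (δ := (detGU n F q g : F)) (by
          rw [conj_apply, ← pow_succ]; exact det_norm_of_pres hF g.2)
        have hi := (uPQ hF n).dil_isIso (hW'.1 x hx) hy hyx hs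
        obtain ⟨A, hA⟩ := exists_gu_of_equiv hF n (hi.toEquiv hP) hi
        have hA' : matEquiv (guMat n F q) A = hi.toEquiv hP := LinearEquiv.ext hA
        refine ⟨⟨A, (hA' ▸ mem_linStab_of_le fun v hv => ?_ :
          matEquiv (guMat n F q) A ∈ linStab W)⟩, Units.ext ?_⟩
        · rw [PQ.IsIso.toEquiv_apply, PQ.dil_apply, hW'.B_eq hx hv, mul_zero, zero_smul, add_zero]
          exact W.add_mem hv (W.smul_mem _ hx)
        · rw [← hsd, ← (uPQ hF n).det_dil hy hyx s]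
          exact (det_matEquiv (guMat n F q) A).symm.trans (by rw [hA']; rfl)
  have hk' : Nat.card ↥((stabilizing (slToMat n F) (W : Set (Fin n → F))).subgroupOf (SU n F q)) =
      Nat.card φ.ker := by
    refine Nat.card_congr (Equiv.ofBijective (fun g => ⟨⟨suToGU n F q g.1, g.2⟩,
      mem_ker_detGU.2 g.1.1.2⟩) ⟨fun g h hgh => Subtype.ext (suToGU_injective
        (congrArg (fun x : φ.ker => x.1.1) hgh)), ?_⟩)
    rintro ⟨⟨g, hg⟩, hg1⟩
    obtain ⟨h, rfl⟩ := range_suToGU.ge (show g ∈ (detGU n F q).ker from hg1)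
    exact ⟨⟨h, hg⟩, rfl⟩
  rw [hk', ← card_range_detGU hF hn, ← hr, ← Subgroup.index_ker, Subgroup.index_mul_card,
    Nat.card_congr (guStabEquiv hF W).toEquiv, card_gu_stab_ts hF hd hWk hW', card_GU hF,
    show n - 2 * k = d by omega, show 2 * n - 3 * k = 2 * d + k by omega]

end Cfsg.Agent.S0782
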