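import Cfsg.Statements.S0783
import Cfsg.Agent.Lib.Unitary.Center

set_option autoImplicit false
open Cfsg

namespace Cfsg.Agent.S0783

open CfsgLib.Unitary Matrix

/-- PGU_n(q)/PSU_n(q) is cyclic of order (n, q+1): for n ≥ 2 and |F| = q² there is a surjective homomorphism from GU_n(q) onto the cyclic group of order gcd(n, q + 1) whose kernel is generated by the determinant-one elements together with the centre. -/
theorem result {F : Type*} [Field F] [Fintype F] {q : ℕ} (hF : Fintype.card F = q ^ 2) (n : ℕ) (hn : 2 ≤ n) : ∃ φ : ↥(Cfsg.GU n F q) →* Multiplicative (ZMod (Nat.gcd n (q + 1))), Function.Surjective φ ∧ φ.ker = (Matrix.GeneralLinearGroup.det : Matrix.GeneralLinearGroup (Fin n) F →* Fˣ).ker.subgroupOf (Cfsg.GU n F q) ⊔ Subgroup.center ↥(Cfsg.GU n F q) := by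
  have hc := card_range_detGU hF (n := n) (by omega)
  let e : (detGU n F q).range ≃* Multiplicative (ZMod (q + 1)) :=
    mulEquivOfCyclicCardEq (by rw [hc]; simp)
  let π : ZMod (q + 1) →+* ZMod (Nat.gcd n (q + 1)) := ZMod.castHom (Nat.gcd_dvd_right _ _) _
  let ψ := e.toMonoidHom.comp (detGU n F q).rangeRestrict
  refine ⟨π.toAddMonoidHom.toMultiplicative.comp ψ, ?_, ?_⟩
  · exact (ZMod.castHom_surjective (Nat.gcd_dvd_right _ _)).comp (e.surjective.comp (detGU n F q).rangeRestrict_surjective)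
  have hz : ∀ a : (detGU n F q).range, ∃ z ∈ Subgroup.center (GU n F q),
      (detGU n F q).rangeRestrict z = a ^ n := by
    intro a
    have ha := (mem_range_detGU hF (by omega)).1 a.2
    refine ⟨mkGU hF ((a.1 : F) • 1) (smul_one_pres ha), (mem_center_GU_iff hF hn).2 ⟨_, rfl⟩,
      Subtype.ext (Units.ext ?_)⟩
    change ((a.1 : F) • (1 : Matrix (Fin n) (Fin n) F)).det = _
    simp
  apply le_antisymm
  · intro g hg
    have h1 : π (ψ g).toAdd = 0 := hg
    obtain ⟨m, hm⟩ := ZMod.intCast_surjective (ψ g).toAdd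
    rw [← hm, map_intCast, ZMod.intCast_zmod_eq_zero_iff_dvd, Nat.gcd_eq_gcd_ab] at h1
    obtain ⟨c, hc⟩ := h1
    obtain ⟨z, hz1, hz2⟩ := hz (e.symm (Multiplicative.ofAdd (Nat.gcdA n (q + 1) * c : ℤ)))
    rw [← inv_mul_cancel_right g z]
    refine Subgroup.mul_mem_sup ?_ hz1
    have : ψ (g * z⁻¹) = 1 := by
      rw [map_mul, map_inv, mul_inv_eq_one]
      apply Multiplicative.toAdd.injective
      rw [← hm, hc]
      simp only [ψ, MonoidHom.comp_apply, hz2, map_pow, toAdd_pow, nsmul_eq_mul]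
      have h0 : ((q : ZMod (q + 1)) + 1) = 0 := by exact_mod_cast ZMod.natCast_self (q + 1)
      simp [h0, mul_assoc]
    exact congrArg Subtype.val (e.map_eq_one_iff.1 this)
  · refine sup_le (fun g hg => ?_) (fun g hg => ?_)
    · have : (detGU n F q).rangeRestrict g = 1 := Subtype.ext hg
      simp [ψ, this]
    · obtain ⟨a, ha⟩ := (mem_center_GU_iff hF hn).1 hg
      have h2 := norm_of_smul_one_pres (n := n) hF (a := a) (by omega) (ha ▸ g.2)
      have ha0 : a ≠ 0 := by rintro rfl; simp at h2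
      have : (detGU n F q).rangeRestrict g =
          ⟨Units.mk0 a ha0, (mem_range_detGU hF (by omega)).2 h2⟩ ^ n := by
        refine Subtype.ext (Units.ext ?_)
        change ((g : GL (Fin n) F) : Matrix (Fin n) (Fin n) F).det = _
        simp [ha]
      change π (ψ g).toAdd = 0
      simp only [ψ, MonoidHom.comp_apply, this, map_pow, toAdd_pow, nsmul_eq_mul, map_mul,
        map_natCast]
      rw [(ZMod.natCast_eq_zero_iff _ _).2 (Nat.gcd_dvd_left _ _), zero_mul]

end Cfsg.Agent.S0783
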