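import Cfsg.Statements.S0785
import Cfsg.Agent.Lib.Orth.Matrix

set_option autoImplicit false
open Cfsg

namespace Cfsg.Agent.S0785

open CfsgLib.Orth QuadraticMap

/-- det(I) = {±1}: for a quadratic form on F^n whose polar form is non-degenerate, every element of the isometry group has determinant 1 or −1, and as soon as Q takes a non-zero value some isometry has determinant −1. -/
theorem result {F : Type*} [Field F] {n : ℕ} (Q : QuadraticForm F (Fin n → F)) (hQ : (QuadraticMap.polarBilin Q).Nondegenerate) : (∀ g : ↥(Cfsg.isometryGroup F ⇑Q), ((g : Matrix.GeneralLinearGroup (Fin n) F) : Matrix (Fin n) (Fin n) F).det = 1 ∨ ((g : Matrix.GeneralLinearGroup (Fin n) F) : Matrix (Fin n) (Fin n) F).det = -1) ∧ ((∃ v, Q v ≠ 0) → ∃ g : ↥(Cfsg.isometryGroup F ⇑Q), ((g : Matrix.GeneralLinearGroup (Fin n) F) : Matrix (Fin n) (Fin n) F).det = -1) := by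
  refine ⟨fun g => ?_, ?_⟩
  · set A := ((g : Matrix.GeneralLinearGroup (Fin n) F) : Matrix (Fin n) (Fin n) F) with hA
    set G := LinearMap.BilinForm.toMatrix' (polarBilin Q) with hG
    have hG0 : G.det ≠ 0 := (LinearMap.BilinForm.nondegenerate_iff_det_ne_zero (Pi.basisFun F _)).1 hQ
    have h1 : LinearMap.BilinForm.comp (polarBilin Q) (Matrix.toLin' A) (Matrix.toLin' A) = polarBilin Q := by
      exact LinearMap.ext₂ fun x y => OG.map_polar (toOG Q g) x y
    have h2 := LinearMap.BilinForm.toMatrix'_comp (polarBilin Q) (Matrix.toLin' A) (Matrix.toLin' A)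
    rw [h1, LinearMap.toMatrix'_toLin', ← hG] at h2
    have h3 := congrArg Matrix.det h2
    rw [Matrix.det_mul, Matrix.det_mul, Matrix.det_transpose] at h3
    have : (A.det - 1) * (A.det + 1) = 0 := by
      apply mul_left_cancel₀ hG0
      linear_combination -h3
    rcases mul_eq_zero.1 this with h | h
    · left; linear_combination h
    · right; linear_combination h
  · rintro ⟨v, hv⟩
    refine ⟨(toOG Q).symm (refl Q v), ?_⟩
    rw [← det_toOG, MulEquiv.apply_symm_apply, det_refl hv]

end Cfsg.Agent.S0785
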