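import Cfsg.Statements.S0786
import Cfsg.Agent.Lib.Orth.Matrix

set_option autoImplicit false
open Cfsg

namespace Cfsg.Agent.S0786

open CfsgLib.Orth

/-- Generation by reflections: if F is finite, Q is a quadratic form on F^n with non-degenerate polar form, and (|F|, n) ≠ (2, 4), then the isometry group of Q is generated by the reflections r_v, Q(v) ≠ 0. -/
theorem result {F : Type*} [Field F] [Fintype F] {n : ℕ} (Q : QuadraticForm F (Fin n → F)) (hQ : (QuadraticMap.polarBilin Q).Nondegenerate) (h : Fintype.card F ≠ 2 ∨ n ≠ 4) : Subgroup.closure {g : ↥(Cfsg.isometryGroup F ⇑Q) | ∃ v : Fin n → F, Q v ≠ 0 ∧ ((g : Matrix.GeneralLinearGroup (Fin n) F) : Matrix (Fin n) (Fin n) F) = Cfsg.reflectionMatrix ⇑Q v} = ⊤ := by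
  have h1 := closure_refl_eq_top hQ (h24_of_card h (Fintype.card_fin n))
  have h2 : {g : ↥(Cfsg.isometryGroup F ⇑Q) | ∃ v : Fin n → F, Q v ≠ 0 ∧ ((g : Matrix.GeneralLinearGroup (Fin n) F) : Matrix (Fin n) (Fin n) F) = Cfsg.reflectionMatrix ⇑Q v} = (toOG Q).symm.toMonoidHom '' {g : OG Q | ∃ v, Q v ≠ 0 ∧ g = refl Q v} := by
    ext g
    simp only [val_eq_reflectionMatrix_iff, Set.mem_setOf_eq, Set.mem_image]
    constructor
    · rintro ⟨v, hv, h⟩
      exact ⟨toOG Q g, ⟨v, hv, h⟩, by simp⟩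
    · rintro ⟨_, ⟨v, hv, rfl⟩, rfl⟩
      exact ⟨v, hv, by simp⟩
  rw [h2, ← MonoidHom.map_closure, h1]
  exact Subgroup.map_top_of_surjective _ (toOG Q).symm.surjective

end Cfsg.Agent.S0786
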