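import Cfsg.Statements.S0787
import Cfsg.Agent.Lib.Orth.Pairs

set_option autoImplicit false
open Cfsg

namespace Cfsg.Agent.S0787

open CfsgLib.Orth QuadraticMap

theorem aux {G : Type*} [Group G] (S C : Subgroup G) (hCS : C ≤ S) (h2 : C.relIndex S = 2)
    (hmin : ∀ H : Subgroup S, H.index = 2 → C ≤ H.map S.subtype) :
    ∃! H : Subgroup S, H.index = 2 := by
  refine ⟨C.subgroupOf S, h2, fun H hH => ?_⟩
  have h1 : C.subgroupOf S ≤ H := by
    intro x hx
    obtain ⟨y, hy, hy'⟩ := hmin H hH hx
    rwa [← Subtype.ext hy']
  have h3 := Subgroup.relIndex_mul_index h1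
  rw [hH, show (C.subgroupOf S).index = 2 from h2] at h3
  exact le_antisymm (Subgroup.relIndex_eq_one.1 (by omega)) h1

/-- Existence and uniqueness of Ω: if F is finite, n ≥ 2, Q is a quadratic form on F^n with non-degenerate polar form and (|F|, n) ≠ (2, 4), then the group of isometries of determinant one has a unique subgroup of index 2. -/
theorem result {F : Type*} [Field F] [Fintype F] {n : ℕ} (hn : 2 ≤ n) (Q : QuadraticForm F (Fin n → F)) (hQ : (QuadraticMap.polarBilin Q).Nondegenerate) (h : Fintype.card F ≠ 2 ∨ n ≠ 4) : ∃! H : Subgroup ↥(Cfsg.specialIsometryGroup F ⇑Q), H.index = 2 := by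
  have h24 := h24_of_card (ι := Fin n) h (Fintype.card_fin n)
  let S : Subgroup (OG Q) := (Cfsg.specialIsometryGroup F ⇑Q).map (toOG Q).toMonoidHom
  have hS : ∀ g : OG Q, g ∈ S ↔ LinearMap.det (g.1 : (Fin n → F) →ₗ[F] (Fin n → F)) = 1 := by
    intro g
    obtain ⟨g, rfl⟩ := (toOG Q).surjective g
    rw [det_toOG]
    change (toOG Q).toMonoidHom g ∈ _ ↔ _
    rw [Subgroup.mem_map_iff_mem (toOG Q).injective, Cfsg.specialIsometryGroup, MonoidHom.mem_ker,
      Units.ext_iff]
    rfl
  have hSn : S.Normal := Subgroup.Normal.map (MonoidHom.normal_ker _) _ (toOG Q).surjective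
  have hex : ∃! H : Subgroup S, H.index = 2 := by
    have hCS : commutator (OG Q) ≤ S := by
      intro g hg
      rw [hS, det_eq_dickson hQ h24, ((mem_commutator_iff hQ h24 g).1 hg).1]; simp
    refine aux S (commutator (OG Q)) hCS ?_ fun H hH => commutator_le_map_of_index_two hQ h24 S
      (fun u v hu hv => by rw [hS, CfsgLib.Orth.det_mul, det_refl hu, det_refl hv]; simp) H hH
    by_cases h2 : (2 : F) = 0
    · have : S = ⊤ := by
        rw [eq_top_iff]
        intro g _
        rw [hS, det_eq_dickson hQ h24]
        rcases Int.units_eq_one_or (dickson hQ h24 g) with h | h <;> rw [h]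
        · simp
        · simp only [Units.val_neg, Units.val_one, Int.cast_neg, Int.cast_one]
          linear_combination -h2
      rw [this, Subgroup.relIndex_top_right]
      have : Nontrivial (Fin n → F) := Module.nontrivial_of_finrank_pos (R := F) (by simp; omega)
      exact index_commutator_of_charTwo hQ h24 h2
    · have h4 := index_commutator_of_two_ne_zero hQ h2 (by simpa using hn)
      have : S = (dickson hQ h24).ker := by
        ext g; rw [hS, MonoidHom.mem_ker, dickson_eq_one_iff_det hQ h2]
      have h5 : S.index = 2 := by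
        have _ : Nontrivial (Fin n → F) := Module.nontrivial_of_finrank_pos (R := F) (by simp; omega)
        rw [this, Subgroup.index_ker, MonoidHom.range_eq_top.2 (dickson_surjective hQ h24)]
        simp
      have h6 := Subgroup.relIndex_mul_index hCS
      rw [h4, h5] at h6
      omega
  let e : Cfsg.specialIsometryGroup F ⇑Q ≃* S := (toOG Q).subgroupMap _
  obtain ⟨H, hH, hu⟩ := hex
  refine ⟨H.comap e.toMonoidHom, ?_, fun K hK => ?_⟩
  · exact (Subgroup.index_comap_of_surjective H (f := e.toMonoidHom) e.surjective).trans hH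
  · have := hu (K.comap e.symm.toMonoidHom)
      ((Subgroup.index_comap_of_surjective K (f := e.symm.toMonoidHom) e.symm.surjective).trans hK)
    rw [← this]
    ext x; simp

end Cfsg.Agent.S0787
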