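import Cfsg.Statements.S0792
import Cfsg.Agent.Lib.Orth.Pairs

set_option autoImplicit false
open Cfsg

namespace Cfsg.Agent.S0792

open CfsgLib.Orth

/-- For q odd and Q with non-degenerate polar form on F^n, the determinant-one isometries form the subgroup generated by all products r_u r_v of two reflections (Q(u), Q(v) ≠ 0). -/
theorem result {F : Type*} [Field F] [Fintype F] (h2 : (2 : F) ≠ 0) {n : ℕ} (Q : QuadraticForm F (Fin n → F)) (hQ : (QuadraticMap.polarBilin Q).Nondegenerate) : Cfsg.specialIsometryGroup F ⇑Q = Subgroup.closure {g : ↥(Cfsg.isometryGroup F ⇑Q) | ∃ u v : Fin n → F, Q u ≠ 0 ∧ Q v ≠ 0 ∧ ((g : Matrix.GeneralLinearGroup (Fin n) F) : Matrix (Fin n) (Fin n) F) = Cfsg.reflectionMatrix ⇑Q u * Cfsg.reflectionMatrix ⇑Q v} := by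
  have h24 : Nat.card F ≠ 2 ∨ Module.finrank F (Fin n → F) ≠ 4 :=
    Or.inl (card_ne_two_of_two_ne_zero h2)
  simp only [val_eq_reflectionMatrix_mul_iff]
  refine Eq.trans ?_ (image_toOG_symm Q
    {g | ∃ u v, Q u ≠ 0 ∧ Q v ≠ 0 ∧ g = refl Q u * refl Q v}).symm
  rw [← ker_dickson_eq_closure hQ h24]
  ext g
  rw [Subgroup.mem_comap, MonoidHom.mem_ker, dickson_eq_one_iff_det hQ h2 h24]
  change _ ↔ LinearMap.det ((toOG Q g).1 : (Fin n → F) →ₗ[F] (Fin n → F)) = 1
  rw [det_toOG, Cfsg.specialIsometryGroup, MonoidHom.mem_ker, Units.ext_iff]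
  rfl

end Cfsg.Agent.S0792
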