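import Mathlib
import Cfsg.Statements.S0794
import Cfsg.Agent.Lib.OrthE.Mat
-- import your own Cfsg.Agent.* helpers here

set_option autoImplicit false
open Cfsg

namespace Cfsg.Agent.S0794

/-- For q odd, n ≥ 5 and Q with non-degenerate polar form: an isometry whose matrix is a Siegel transformation T_(u,v)(c) (u, v singular and orthogonal) is a commutator in the isometry group, so lies in Ω. -/
theorem result {F : Type*} [Field F] [Fintype F] (h2 : (2 : F) ≠ 0) {n : ℕ} (hn : 5 ≤ n) (Q : QuadraticForm F (Fin n → F)) (hQ : (QuadraticMap.polarBilin Q).Nondegenerate) (u v : Fin n → F) (hu : Q u = 0) (hv : Q v = 0) (huv : QuadraticMap.polar ⇑Q u v = 0) (c : F) (g : ↥(Cfsg.isometryGroup F ⇑Q)) (hg : ((g : Matrix.GeneralLinearGroup (Fin n) F) : Matrix (Fin n) (Fin n) F) = Cfsg.siegelMatrix ⇑Q u v c) : g ∈ commutatorSet ↥(Cfsg.isometryGroup F ⇑Q) ∧ g ∈ Cfsg.Omega F ⇑Q := by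
  open CfsgLib.OrthE QuadraticMap in
  have hQ' : Nondeg Q := (nondeg_iff Q).2 hQ
  have h1 : matEquiv Q Q (fun _ => rfl) g = eich Q u ((-c) • v) :=
    (matEquiv_eq_iff _ g _ _ (siegelMatrix_mulVec_eq_eich hu hv huv c)).2 hg
  have h3 : eich Q u ((-c) • v) ∈ commutatorSet (O Q) := by
    by_cases hu0 : u = 0
    · rw [hu0, eich_zero_left]; exact one_mem_commutatorSet _
    obtain ⟨f, hf⟩ := hQ'.exists_hyp hu hu0
    rw [hf.eich_eq_pr (by simp [huv])]
    set w := pr Q u f ((-c) • v) with hw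
    have hw1 : polar Q w u = 0 := hf.pr_e _
    have hw2 : polar Q w f = 0 := hf.pr_f _
    have hw3 : polar Q u w = 0 := hf.e_pr _
    refine ⟨tor Q u f (-1), eich Q u ((-(2 : F)⁻¹) • w), ?_⟩
    rw [commutatorElement_def, hf.conj_tor_eich (by simp) (by simp [hw1]) (by simp [hw2]),
      ← eich_neg, eich_mul hu (by simp [hw3]) (by simp [hw3])]
    congr 1
    match_scalars
    field_simp
    ring
  have h4 : g ∈ commutatorSet ↥(Cfsg.isometryGroup F ⇑Q) := by
    obtain ⟨a, b, hab⟩ := h3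
    refine ⟨(matEquiv Q Q (fun _ => rfl)).symm a, (matEquiv Q Q (fun _ => rfl)).symm b, ?_⟩
    apply (matEquiv Q Q (fun _ => rfl)).injective
    rw [h1, ← hab]
    simp [commutatorElement_def]
  refine ⟨h4, ?_⟩
  change g ∈ commutator _
  rw [commutator_eq_closure]
  exact Subgroup.subset_closure h4

end Cfsg.Agent.S0794
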