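import Mathlib
import Cfsg.Statements.S0795
import Cfsg.Agent.Lib.OrthE.Mat
-- import your own Cfsg.Agent.* helpers here

set_option autoImplicit false
open Cfsg

namespace Cfsg.Agent.S0795

/-- Generation of Ω by root elements: for q odd, n ≥ 5 and Q with non-degenerate polar form on F^n, the commutator subgroup of the isometry group equals the subgroup generated by the isometries whose matrices are Siegel transformations T_(u,v)(c) with u, v singular and orthogonal. -/
theorem result {F : Type*} [Field F] [Fintype F] (h2 : (2 : F) ≠ 0) {n : ℕ} (hn : 5 ≤ n) (Q : QuadraticForm F (Fin n → F)) (hQ : (QuadraticMap.polarBilin Q).Nondegenerate) : Cfsg.Omega F ⇑Q = Subgroup.closure {g : ↥(Cfsg.isometryGroup F ⇑Q) | ∃ (u v : Fin n → F) (c : F), Q u = 0 ∧ Q v = 0 ∧ QuadraticMap.polar ⇑Q u v = 0 ∧ ((g : Matrix.GeneralLinearGroup (Fin n) F) : Matrix (Fin n) (Fin n) F) = Cfsg.siegelMatrix ⇑Q u v c} := by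
  open CfsgLib.OrthE QuadraticMap in
  have hQ' : Nondeg Q := (nondeg_iff Q).2 hQ
  have h5 : 5 ≤ Module.finrank F (Fin n → F) := by simpa using hn
  have hE := hQ'.E_eq_commutator_of_finite h5
  obtain ⟨e, f, h⟩ := hQ'.exists_hyp_of_three (by omega)
  apply le_antisymm
  · intro g hg
    rw [mem_Omega_iff (Q := Q) (fun _ => rfl), ← hE] at hg
    have key : ∀ u w, Q u = 0 → Q w = 0 → polar Q w u = 0 → eich Q u w ∈ Subgroup.map
        (matEquiv Q Q (fun _ => rfl) : Cfsg.isometryGroup F Q →* O Q)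
        (Subgroup.closure {g : ↥(Cfsg.isometryGroup F ⇑Q) | ∃ (u v : Fin n → F) (c : F),
          Q u = 0 ∧ Q v = 0 ∧ QuadraticMap.polar ⇑Q u v = 0 ∧
          ((g : Matrix.GeneralLinearGroup (Fin n) F) : Matrix (Fin n) (Fin n) F)
            = Cfsg.siegelMatrix ⇑Q u v c}) := by
      intro u w hu hw hwu
      have huw : polar Q u w = 0 := by rw [polar_comm, hwu]
      refine ⟨(matEquiv Q Q (fun _ => rfl)).symm (eich Q u w),
        Subgroup.subset_closure ⟨u, w, -1, hu, hw, huw, ?_⟩, by simp⟩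
      refine (matEquiv_eq_iff (Q := Q) (fun _ => rfl) _ _ _
        (siegelMatrix_mulVec_eq_eich hu hw huw (-1))).1 ?_
      simp
    have := h.E_le_of_siegel hQ' (h.exists_singular_orth h5) _
      (fun w h1 _ h3 => key e w h.he h3 h1) (fun w _ h2 h3 => key f w h.hf h3 h2) hg
    exact (Subgroup.mem_map_iff_mem
      (f := (matEquiv Q Q (fun _ => rfl) : Cfsg.isometryGroup F Q →* O Q))
      (matEquiv Q Q (fun _ => rfl)).injective).1 this
  · rw [Subgroup.closure_le]
    rintro g ⟨u, v, c, hu, hv, huv, hg⟩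
    rw [SetLike.mem_coe, mem_Omega_iff (Q := Q) (fun _ => rfl), ← hE,
      (matEquiv_eq_iff _ g _ _ (siegelMatrix_mulVec_eq_eich hu hv huv c)).2 hg]
    exact eich_mem_E _ _

end Cfsg.Agent.S0795
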