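import Cfsg.Statements.S0796


set_option autoImplicit false
open Cfsg

namespace Cfsg.Agent.S0796


/-- If G is finite and acts faithfully and primitively on X, H is the stabiliser of a point, A is a normal subgroup of H whose normal closure in G is G, then for every non-trivial normal subgroup K of G the quotient G ⧸ K is isomorphic to A ⧸ B for some normal subgroup B of A. -/
theorem result {G X : Type*} [Group G] [Finite G] [MulAction G X] [FaithfulSMul G X] (hprim : MulAction.IsPreprimitive G X) (x : X) (A : Subgroup G) (hA : A ≤ MulAction.stabilizer G x) (hAn : (A.subgroupOf (MulAction.stabilizer G x)).Normal) (hgen : Subgroup.normalClosure (A : Set G) = ⊤) (K : Subgroup G) [K.Normal] (hK : K ≠ ⊥) : ∃ (B : Subgroup A) (_ : B.Normal), Nonempty (G ⧸ K ≃* A ⧸ B) := by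
  classical
  haveI := hprim
  have hfix : MulAction.fixedPoints K X ≠ Set.univ := by
    intro h
    apply hK
    rw [Subgroup.eq_bot_iff_forall]
    intro n hn
    apply FaithfulSMul.eq_of_smul_eq_smul (α := X)
    intro y
    rw [one_smul]
    exact Set.eq_univ_iff_forall.mp h y ⟨n, hn⟩
  have htrans : MulAction.IsPretransitive K X :=
    MulAction.IsQuasiPreprimitive.isPretransitive_of_normal hfix
  let f : A →* G ⧸ K := (QuotientGroup.mk' K).comp A.subtype
  have hnorm : (A.map (QuotientGroup.mk' K)).Normal := by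
    constructor
    rintro _ ⟨a, ha, rfl⟩ g
    obtain ⟨g, rfl⟩ := QuotientGroup.mk'_surjective K g
    obtain ⟨k, hk⟩ := MulAction.exists_smul_eq K (g • x) x
    have hkg : (k : G) * g ∈ MulAction.stabilizer G x := by
      rw [MulAction.mem_stabilizer_iff, mul_smul]; exact hk
    have h1 := hAn.conj_mem ⟨a, hA ha⟩ (by simpa [Subgroup.mem_subgroupOf] using ha) ⟨_, hkg⟩
    rw [Subgroup.mem_subgroupOf] at h1
    refine ⟨_, h1, ?_⟩
    have hk1 : QuotientGroup.mk' K (k : G) = 1 := by simp
    simp only [Subgroup.coe_mul, Subgroup.coe_inv, map_mul, map_inv, hk1, one_mul]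
  have hsurj : Function.Surjective f := by
    have h1 : Subgroup.normalClosure (A : Set G) ≤ (A.map (QuotientGroup.mk' K)).comap (QuotientGroup.mk' K) := by
      apply Subgroup.normalClosure_le_normal
      intro a ha
      exact ⟨a, ha, rfl⟩
    intro y
    obtain ⟨g, rfl⟩ := QuotientGroup.mk'_surjective K y
    obtain ⟨a, ha, h⟩ := h1 (hgen ▸ Subgroup.mem_top g)
    exact ⟨⟨a, ha⟩, h⟩
  exact ⟨f.ker, inferInstance, ⟨(QuotientGroup.quotientKerEquivOfSurjective f hsurj).symm⟩⟩

end Cfsg.Agent.S0796
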