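import Cfsg.Statements.S0797
import Cfsg.Agent.Lib.Orth.Pairs

set_option autoImplicit false
open Cfsg

namespace Cfsg.Agent.S0797

open CfsgLib.Orth QuadraticMap

theorem klein : Nat.card {H : Subgroup (ℤˣ × ℤˣ) // H.index = 2} = 3 := by
  have h1 : {H : Subgroup (ℤˣ × ℤˣ) | H.index = 2} = {Subgroup.zpowers ((1, -1) : ℤˣ × ℤˣ),
      Subgroup.zpowers ((-1, 1) : ℤˣ × ℤˣ), Subgroup.zpowers ((-1, -1) : ℤˣ × ℤˣ)} := by
    have hc : Nat.card (ℤˣ × ℤˣ) = 4 := by simp
    have hz : ∀ a : ℤˣ × ℤˣ, a ≠ 1 → (Subgroup.zpowers a).index = 2 := by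
      intro a ha
      have h1 := (Subgroup.zpowers a).card_mul_index
      have h2 : orderOf a = 2 := orderOf_eq_prime (by clear h1 ha; revert a; decide) ha
      rw [Nat.card_zpowers, h2, hc] at h1
      omega
    ext H
    simp only [Set.mem_ofPred_eq, Set.mem_insert_iff, Set.mem_singleton_iff]
    constructor
    · intro hH
      have h1 := H.card_mul_index
      rw [hH, hc] at h1
      have hne : H ≠ ⊥ := by
        rintro rfl
        simp at h1
      obtain ⟨⟨a, haH⟩, ha⟩ := Subgroup.ne_bot_iff_exists_ne_one.1 hne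
      have ha' : a ≠ 1 := fun h => ha (Subtype.ext h)
      have : Subgroup.zpowers a = H := by
        have h3 := Subgroup.relIndex_mul_index ((Subgroup.zpowers_le (G := ℤˣ × ℤˣ)).2 haH)
        rw [hH, hz a ha'] at h3
        exact le_antisymm ((Subgroup.zpowers_le (G := ℤˣ × ℤˣ)).2 haH)
          (Subgroup.relIndex_eq_one.1 (by omega))
      have h4 : a = (1, -1) ∨ a = (-1, 1) ∨ a = (-1, -1) := by
        clear this ha haH; revert a; decide
      rcases h4 with rfl | rfl | rfl <;> simp [this]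
    · rintro (rfl | rfl | rfl) <;> exact hz _ (by decide)
  have h2 : ∀ a b : ℤˣ × ℤˣ, a ≠ 1 → a ≠ b → Subgroup.zpowers a ≠ Subgroup.zpowers b := by
    intro a b ha hab h
    have : a ∈ Subgroup.zpowers b := h ▸ Subgroup.mem_zpowers a
    obtain ⟨k, rfl⟩ := this
    have hb : b ^ (2 : ℤ) = 1 := by clear h hab ha; revert b; decide
    rcases Int.even_or_odd' k with ⟨j, rfl | rfl⟩
    · exact ha (by simp [zpow_mul, hb])
    · exact hab (by simp [zpow_add, zpow_mul, hb])
  change Nat.card ↥({H : Subgroup (ℤˣ × ℤˣ) | H.index = 2}) = 3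
  rw [h1, Nat.card_coe_set_eq, Set.ncard_eq_three]
  exact ⟨_, _, _, h2 _ _ (by decide) (by decide), h2 _ _ (by decide) (by decide),
    h2 _ _ (by decide) (by decide), rfl⟩

theorem aux {G A : Type*} [Group G] [Group A] (φ : G →* A) (hφ : Function.Surjective φ)
    (hk : φ.ker ≤ commutator G) :
    Nat.card {H : Subgroup G // H.index = 2} = Nat.card {H : Subgroup A // H.index = 2} := by
  symm
  refine Nat.card_eq_of_bijective
    (fun H => ⟨H.1.comap φ, by rw [Subgroup.index_comap_of_surjective _ hφ, H.2]⟩) ⟨?_, ?_⟩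
  · intro H K h
    exact Subtype.ext (Subgroup.comap_injective hφ (congrArg Subtype.val h))
  · rintro ⟨H, hH⟩
    have hle : φ.ker ≤ H := hk.trans (by
      rw [commutator_def, Subgroup.commutator_le]
      intro a _ b _
      simp only [commutatorElement_def, Subgroup.mul_mem_iff_of_index_two hH, inv_mem_iff]
      tauto)
    have : (H.map φ).comap φ = H := Subgroup.comap_map_eq_self hle
    refine ⟨⟨H.map φ, ?_⟩, Subtype.ext this⟩
    rw [← Subgroup.index_comap_of_surjective _ hφ, this, hH]

/-- O^ε_2m(q) ≅ Ω.2² for q odd: if F is finite of odd characteristic, n ≥ 2 is even and Q has non-degenerate polar form on F^n, the isometry group of Q has exactly three subgroups of index 2. -/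
theorem result {F : Type*} [Field F] [Fintype F] (h2 : (2 : F) ≠ 0) {n : ℕ} (hn : 2 ≤ n) (heven : Even n) (Q : QuadraticForm F (Fin n → F)) (hQ : (QuadraticMap.polarBilin Q).Nondegenerate) : Nat.card {H : Subgroup ↥(Cfsg.isometryGroup F ⇑Q) // H.index = 2} = 3 := by
  have h24 : Nat.card F ≠ 2 ∨ Module.finrank F (Fin n → F) ≠ 4 :=
    Or.inl (card_ne_two_of_two_ne_zero h2)
  rw [aux (((dickson hQ h24).prod (spinor hQ h24)).comp (toOG Q).toMonoidHom)
    ((dickson_prod_spinor_surjective hQ h24 h2 (by simpa using hn)).comp (toOG Q).surjective), klein]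
  intro g hg
  rw [← mem_commutator_map_iff (toOG Q), commutator_eq_ker hQ h24]
  exact hg

end Cfsg.Agent.S0797
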