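import Cfsg.Statements.S0803
import Cfsg.Agent.Lib.Dickson.Plat

set_option autoImplicit false
open Cfsg

namespace Cfsg.Agent.S0803


/-- PSL_2(q) has a subgroup isomorphic to S_4 iff q² ≡ 1 (mod 16). -/
theorem result {F : Type*} [Field F] [Fintype F] {q : ℕ} (hF : Fintype.card F = q) : (∃ H : Subgroup (Matrix.ProjectiveSpecialLinearGroup (Fin 2) F), Nonempty (H ≃* Equiv.Perm (Fin 4))) ↔ q ^ 2 % 16 = 1 := by
  rw [CfsgLib.Dickson.exists_psl_subgroup_iff]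
  have key : q % 2 = 1 ∧ q % 8 ≠ 3 ∧ q % 8 ≠ 5 ↔ q ^ 2 % 16 = 1 := by
    rw [← Nat.mod_mod_of_dvd q (show 2 ∣ 16 by norm_num), ← Nat.mod_mod_of_dvd q (show 8 ∣ 16 by norm_num),
      Nat.pow_mod]
    have : q % 16 < 16 := Nat.mod_lt _ (by norm_num)
    generalize q % 16 = r at *
    interval_cases r <;> simp
  rw [← key, ← hF, ← FiniteField.isSquare_two_iff]
  constructor
  · rintro ⟨H, h1, h2⟩
    refine ⟨?_, (CfsgLib.Dickson.S4_le_psl_iff h2).mp h1⟩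
    by_contra hc
    exact CfsgLib.Dickson.two_ne_zero_of_S4 h2
      (CfsgLib.SL2.two_eq_zero_of_even (Nat.even_iff.mpr (by omega)))
  · rintro ⟨h1, h2⟩
    obtain ⟨H, h⟩ := CfsgLib.Dickson.exists_S4 (CfsgLib.SL2.two_ne_zero_of_odd (Nat.odd_iff.mpr h1))
    exact ⟨H, (CfsgLib.Dickson.S4_le_psl_iff h).mpr h2, h⟩

end Cfsg.Agent.S0803
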