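import Cfsg.Statements.S0805
import Cfsg.Agent.Lib.Dickson.Class

set_option autoImplicit false
open Cfsg

namespace Cfsg.Agent.S0805

open CfsgLib.Dickson


/-- Subfield subgroups: let F be a finite field of odd order q and K a finite field with |K|^m = q, m ≥ 1. Then PSL_2(F) has a subgroup isomorphic to PSL_2(K), and has a subgroup isomorphic to PGL_2(K) if and only if m is even. -/
theorem result {F K : Type*} [Field F] [Fintype F] [Field K] [Fintype K] {q : ℕ} (hF : Fintype.card F = q) (hodd : Odd q) (m : ℕ) (hm : 1 ≤ m) (hK : Fintype.card K ^ m = q) : (∃ H : Subgroup (Matrix.ProjectiveSpecialLinearGroup (Fin 2) F), Nonempty (H ≃* Matrix.ProjectiveSpecialLinearGroup (Fin 2) K)) ∧ ((∃ H : Subgroup (Matrix.ProjectiveSpecialLinearGroup (Fin 2) F), Nonempty (H ≃* Matrix.ProjGenLinGroup (Fin 2) K)) ↔ Even m) := by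
  rw [← hF] at hK hodd
  rw [← Nat.card_eq_fintype_card, ← Nat.card_eq_fintype_card] at hK
  rw [← Nat.card_eq_fintype_card] at hodd
  obtain ⟨K', h1, e⟩ := exists_subfield_equiv hK.symm
  rw [exists_psl_subgroup_iff, exists_psl_subgroup_iff]
  refine ⟨⟨_, pslSub_le_psl K' 1, pslSub_equiv' e 1⟩, ?_, fun h =>
    ⟨_, pglSub_le_psl (by rw [h1, hK]) h 1, pglSub_equiv' e 1⟩⟩
  rintro ⟨H, h2, h3⟩
  by_contra hc
  obtain ⟨j, rfl⟩ := Nat.not_even_iff_odd.mp hc
  have h4 := Nat.mul_dvd_mul_right (Subgroup.card_dvd_of_le h2) (pslPGL F).range.index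
  rw [Subgroup.card_mul_index, index_psl_odd hodd, card_of_equiv h3, card_pgl, card_pgl, ← hK] at h4
  have hk : Odd (Nat.card K) := (Nat.odd_pow_iff (by omega)).mp (hK ▸ hodd)
  have hk1 : 1 < Nat.card K := Finite.one_lt_card
  generalize Nat.card K = k at *
  obtain ⟨i, hi⟩ : ∃ i, k ^ 2 = 2 * i + 1 := hk.pow
  obtain ⟨S, s1, s2⟩ := exists_geom i (2 * j + 1)
  rw [← pow_mul, mul_comm (2 * j + 1) 2, pow_mul, hi, s1, Nat.add_sub_cancel, Nat.add_sub_cancel,
    show k ^ (2 * j + 1) * (2 * (i * S)) = k * (2 * i) * (k ^ (2 * j) * S) by ring] at h4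
  have h5 := Nat.dvd_of_mul_dvd_mul_left (Nat.mul_pos (by omega) (by nlinarith)) h4
  exact (Nat.not_even_iff_odd.mpr (hk.pow.mul (Nat.odd_iff.mpr (by omega)))) (even_iff_two_dvd.mpr h5)

end Cfsg.Agent.S0805
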