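import Cfsg.Statements.S0811
import Cfsg.Agent.Lib.Dickson.Max

set_option autoImplicit false
open Cfsg

namespace Cfsg.Agent.S0811

open CfsgLib.Dickson


/-- For q ∉ {2, 7, 9}, PSL_2(q) has a maximal subgroup isomorphic to the dihedral group of order 2(q + 1)/d, d = gcd(2, q − 1). -/
theorem result {F : Type*} [Field F] [Fintype F] {q : ℕ} (hF : Fintype.card F = q) (hq : q ∉ ({2, 7, 9} : Finset ℕ)) : ∃ H : Subgroup (Matrix.ProjectiveSpecialLinearGroup (Fin 2) F), IsCoatom H ∧ Nonempty (H ≃* DihedralGroup ((q + 1) / Nat.gcd 2 (q - 1))) := by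
  subst hF
  rw [← Nat.card_eq_fintype_card] at hq ⊢
  simp only [Finset.mem_insert, Finset.mem_singleton, not_or] at hq
  have h3 : 3 ≤ Nat.card F := by have := Finite.one_lt_card (α := F); omega
  obtain ⟨x, y, h⟩ := exists_irrPair h3
  refine exists_isCoatom_of_covBy (h.covBy hq.1 hq.2.1 hq.2.2) ?_
  rw [← h.card_stab2 le_rfl h3, ← index_psl, Nat.mul_div_cancel _ (Nat.pos_of_ne_zero
    Subgroup.FiniteIndex.index_ne_zero)]
  exact (h.dihedral le_rfl h3).2

end Cfsg.Agent.S0811
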