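import Cfsg.Statements.S0812
import Cfsg.Agent.Lib.Dickson.Max

set_option autoImplicit false
open Cfsg

namespace Cfsg.Agent.S0812

open CfsgLib.Dickson


/-- For q ∉ {2, 3, 5, 7, 9, 11}, PSL_2(q) has a maximal subgroup isomorphic to the dihedral group of order 2(q − 1)/d, d = gcd(2, q − 1). -/
theorem result {F : Type*} [Field F] [Fintype F] {q : ℕ} (hF : Fintype.card F = q) (hq : q ∉ ({2, 3, 5, 7, 9, 11} : Finset ℕ)) : ∃ H : Subgroup (Matrix.ProjectiveSpecialLinearGroup (Fin 2) F), IsCoatom H ∧ Nonempty (H ≃* DihedralGroup ((q - 1) / Nat.gcd 2 (q - 1))) := by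
  subst hF
  rw [← Nat.card_eq_fintype_card] at hq ⊢
  simp only [Finset.mem_insert, Finset.mem_singleton, not_or] at hq
  have h3 : 4 ≤ Nat.card F := by have := Finite.one_lt_card (α := F); omega
  have h := P1.inf_ne_pt (0 : F)
  refine exists_isCoatom_of_covBy (pairStab_emb_covBy h3 (fun ⟨k, hk⟩ => by omega) h) ?_
  rw [← index_psl, ← card_stab2_emb le_rfl h, Nat.mul_div_cancel _ (Nat.pos_of_ne_zero
    Subgroup.FiniteIndex.index_ne_zero)]
  exact (pairStab_emb_dihedral le_rfl h).2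

end Cfsg.Agent.S0812
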