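import Cfsg.Statements.S0816
import Cfsg.Agent.S2604

set_option autoImplicit false
open Cfsg

namespace Cfsg.Agent.S0816

open CfsgLib.Orth CfsgLib.ClAut QuadraticMap Module

/-- |Aut(PΩ_(2m+1)(q))| = 2 f · |PΩ_(2m+1)(q)| for q = p^f odd and m ≥ 3 (for the form quadFormOdd). -/
theorem result {F : Type*} [Field F] [Fintype F] (p f : ℕ) [Fact p.Prime] (hf : 1 ≤ f) (hF : Fintype.card F = p ^ f) (hodd : Odd p) (m : ℕ) (hm : 3 ≤ m) : Nat.card (MulAut (Cfsg.POmega F (Cfsg.quadFormOdd m F))) = 2 * f * Nat.card (Cfsg.POmega F (Cfsg.quadFormOdd m F)) := by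
  have hp : p ≠ 2 := by rintro rfl; exact absurd hodd (by decide)
  have h2 : (2 : F) ≠ 0 := mt (two_eq_zero_iff_of_card hF hf).1 hp
  obtain ⟨e⟩ := S2604.result hf hF hp hm
  refine (card_mulAut_POmega (qOdd_nondegenerate h2 m) (by simp; omega)).trans ?_
  congr 1
  refine (Nat.card_congr e.toEquiv).trans ?_
  rw [Nat.card_congr Multiplicative.toAdd, Nat.card_prod, Nat.card_zmod, Nat.card_zmod]

end Cfsg.Agent.S0816
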