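import Cfsg.Statements.S0823
import Cfsg.Agent.Lib.Dickson.Plat
import Cfsg.Agent.Lib.OrthE.OrderStd

set_option autoImplicit false
open Cfsg

namespace Cfsg.Agent.S0823

open CfsgLib.Dickson Matrix MatrixGroups

/-- The index set of the three-dimensional orthogonal space. -/
abbrev I3 : Type := Unit ⊕ (Fin 1 ⊕ Fin 1)

/-- Position of an index. -/
def ix : I3 → Fin 3 := Sum.elim (fun _ => 0) (Sum.elim (fun _ => 1) (fun _ => 2))

/-- An element of order two. -/
def a0 : Matrix.SpecialLinearGroup I3 (ZMod 3) :=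
  ⟨(!![1, 0, 2; 1, 2, 1; 0, 0, 2] : Matrix (Fin 3) (Fin 3) (ZMod 3)).submatrix ix ix, by decide +kernel⟩

/-- An element of order three. -/
def b0 : Matrix.SpecialLinearGroup I3 (ZMod 3) :=
  ⟨(!![2, 0, 2; 0, 0, 2; 2, 2, 1] : Matrix (Fin 3) (Fin 3) (ZMod 3)).submatrix ix ix, by decide +kernel⟩

theorem rels : a0 ^ 2 = 1 ∧ b0 ^ 3 = 1 ∧ (a0 * b0) ^ 4 = 1 ∧ (a0 * b0) ^ 2 ≠ 1 := by decide +kernel

theorem iso0 : ∀ v : I3 → ZMod 3, quadFormOdd 1 (ZMod 3) (a0.1 *ᵥ v) = quadFormOdd 1 (ZMod 3) v ∧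
    quadFormOdd 1 (ZMod 3) (b0.1 *ᵥ v) = quadFormOdd 1 (ZMod 3) v := by decide +kernel

theorem two_ne : (2 : ZMod 3) ≠ 0 := by decide

theorem q_map {K F : Type*} [Field K] [Field F] (j : K →+* F) (v : I3 → K) :
    quadFormOdd 1 F (j ∘ v) = j (quadFormOdd 1 K v) := by
  simp [quadFormOdd]


/-- SO_3(3) ≅ S_4: the determinant-one isometries of the form x_0² + x_1y_1 over the field with 3 elements form a group isomorphic to the symmetric group on 4 letters. -/
theorem result {F : Type*} [Field F] [Fintype F] (hF : Fintype.card F = 3) : Nonempty (↥(Cfsg.specialIsometryGroup F (Cfsg.quadFormOdd 1 F)) ≃* Equiv.Perm (Fin 4)) := by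
  have hp : Fact (Nat.Prime 3) := ⟨Nat.prime_three⟩
  let j : ZMod 3 ≃+* F := FiniteField.ringEquivOfCardEq (by rw [hF, ZMod.card])
  have h2 : (2 : F) ≠ 0 := by
    rw [show (2 : F) = j 2 from (map_ofNat j 2).symm]
    exact (map_ne_zero j).mpr two_ne
  obtain ⟨ψ, ha, hb⟩ := exists_hom_S4 rels.1 rels.2.1 rels.2.2.1
  have hψ := s4_hom_injective ψ (by rw [ha, hb]; exact rels.2.2.2)
  let Φ : Matrix.SpecialLinearGroup I3 (ZMod 3) →* GL I3 F :=
    Matrix.SpecialLinearGroup.toGL.comp (Matrix.SpecialLinearGroup.map (j : ZMod 3 →+* F))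
  have hΦ : Function.Injective Φ := by
    intro x y h
    ext r s
    have h1 : (Φ x).1 = (Φ y).1 := by rw [h]
    exact j.injective (congrFun (congrFun h1 r) s)
  have key : ∀ g : Matrix.SpecialLinearGroup I3 (ZMod 3),
      (∀ v, quadFormOdd 1 (ZMod 3) (g.1 *ᵥ v) = quadFormOdd 1 (ZMod 3) v) →
        Φ g ∈ isometryGroup F (quadFormOdd 1 F) := by
    intro g hg
    rw [CfsgLib.OrthE.mem_isometryGroup]
    intro x
    obtain ⟨w, rfl⟩ : ∃ w : I3 → ZMod 3, x = (j : ZMod 3 →+* F) ∘ w :=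
      ⟨j.symm ∘ x, by ext i; simp⟩
    have : (Φ g).1 *ᵥ ((j : ZMod 3 →+* F) ∘ w) = (j : ZMod 3 →+* F) ∘ (g.1 *ᵥ w) := by
      ext i
      exact ((j : ZMod 3 →+* F).map_mulVec g.1 w i).symm
    rw [this, q_map, q_map, hg]
  have hle : (Φ.comp ψ).range ≤ isometryGroup F (quadFormOdd 1 F) :=
    range_le_of_gens s4_gen _ (by rw [MonoidHom.comp_apply, ha]; exact key _ fun v => (iso0 v).1)
      (by rw [MonoidHom.comp_apply, hb]; exact key _ fun v => (iso0 v).2)
  let θ : Equiv.Perm (Fin 4) →* specialIsometryGroup F (quadFormOdd 1 F) :=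
    ((Φ.comp ψ).codRestrict _ fun x => hle ⟨x, rfl⟩).codRestrict _ fun x =>
      MonoidHom.mem_ker.mpr (Units.ext (Matrix.SpecialLinearGroup.map (j : ZMod 3 →+* F) (ψ x)).2)
  have hθ : Function.Injective θ := fun x y h =>
    hψ (hΦ (congrArg (fun z : specialIsometryGroup F (quadFormOdd 1 F) => z.1.1) h))
  have hc : Nat.card (isometryGroup F (quadFormOdd 1 F)) = 48 := by
    rw [Nat.card_congr (CfsgLib.OrthE.matEquiv _ _ (CfsgLib.OrthE.qOdd_eq 1)).toEquiv,
      CfsgLib.OrthE.card_O_qOdd h2, Nat.card_eq_fintype_card, hF]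
    norm_num
  have hi : (specialIsometryGroup F (quadFormOdd 1 F)).index ≠ 1 := by
    rw [Ne, Subgroup.index_eq_one]
    intro h
    have hm : (-1 : GL I3 F) ∈ isometryGroup F (quadFormOdd 1 F) := by
      rw [CfsgLib.OrthE.mem_isometryGroup]
      intro x
      simp [quadFormOdd, Matrix.neg_mulVec]
    have := congrArg Units.val (MonoidHom.mem_ker.mp
      (h ▸ Subgroup.mem_top _ : (⟨-1, hm⟩ : isometryGroup F (quadFormOdd 1 F)) ∈
        specialIsometryGroup F (quadFormOdd 1 F)))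
    change (-1 : Matrix I3 I3 F).det = 1 at this
    rw [Matrix.det_neg, Matrix.det_one] at this
    apply h2
    norm_num at this
    linear_combination -this
  have h1 := (specialIsometryGroup F (quadFormOdd 1 F)).card_mul_index
  have h0 : (specialIsometryGroup F (quadFormOdd 1 F)).index ≠ 0 := by
    intro h; rw [h, hc] at h1; omega
  have hfin : Finite (isometryGroup F (quadFormOdd 1 F)) := Nat.finite_of_card_ne_zero (by omega)
  refine ⟨(MulEquiv.ofBijective θ (hθ.bijective_of_nat_card_le ?_)).symm⟩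
  rw [card_S4]
  rw [hc] at h1
  by_contra h
  have : 25 * 2 ≤ _ := Nat.mul_le_mul (show 25 ≤ Nat.card (specialIsometryGroup F (quadFormOdd 1 F)) by omega)
    (show 2 ≤ (specialIsometryGroup F (quadFormOdd 1 F)).index by omega)
  omega

end Cfsg.Agent.S0823
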