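import Cfsg.Statements.S0825
import Cfsg.Agent.Lib.Classical.SmallIso3
import Cfsg.Agent.S0287

set_option autoImplicit false
open Cfsg

namespace Cfsg.Agent.S0825

open CfsgLib.Classical

/-- Position of a coordinate. -/
def ix : Fin 3 ⊕ Fin 3 → ℕ
  | .inl i => i.val
  | .inr i => 3 + i.val

/-- The vectors attached to pairs of letters. -/
def v (a b : Fin 8) (i : Fin 3 ⊕ Fin 3) : ZMod 2 :=
  (if Nat.testBit 258776736805440 (6 * a.val + ix i) then 1 else 0) +
    (if Nat.testBit 258776736805440 (6 * b.val + ix i) then 1 else 0)

/-- The reflections attached to pairs of letters. -/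
def R (a b : Fin 8) : Matrix (Fin 3 ⊕ Fin 3) (Fin 3 ⊕ Fin 3) (ZMod 2) := fun i j =>
  if Nat.testBit 1885759320161639765045078580093067841216549355662047967150298147347827208398768660026850505533907074546143695824166245147169807705983316124158801639699851668039679965538139473274860626006168522718688001170639120278676901619079159604463307407908502091857295535060497213251232111173992935296708863049175121488164140535058757821175255934078615553447060887868048048950501776358436306130130012953416111291979235408049128215106728435995438614085301572650786581624394119263916757364400272701410349916822458862517149317834617390006665293235592444697468629194672825250447010465034771189870018090201854526974320688312667922148891200568609700728540225158236134809839942352603368911238301085970011416182913 (((8 * a.val + b.val) * 6 + ix i) * 6 + ix j) then 1 else 0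

theorem R_sq : ∀ a b, a ≠ b → R a b * R a b = 1 := by decide +kernel

theorem R_Q : ∀ a b, a ≠ b → ∀ x, Cfsg.quadFormPlus 3 (ZMod 2) ((R a b).mulVec x) = Cfsg.quadFormPlus 3 (ZMod 2) x := by
  decide +kernel

theorem R_v : ∀ a b, a ≠ b → ∀ i j,
    (R a b).mulVec (v i j) = v (Equiv.swap a b i) (Equiv.swap a b j) := by
  decide +kernel

theorem exists_hom : ∃ f : Equiv.Perm (Fin 8) →* Cfsg.isometryGroup (ZMod 2) (Cfsg.quadFormPlus 3 (ZMod 2)),
    Function.Injective f :=
  exists_perm_hom_isometryGroup (by norm_num) _ v (by decide +kernel) R R_sq R_Q R_v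
    ⟨0, 1, 2, 3, by decide +kernel⟩

/-- O⁺_6(2) ≅ S_8: the isometry group of the hyperbolic form x_1y_1 + x_2y_2 + x_3y_3 over the field with 2 elements is isomorphic to the symmetric group on 8 letters. -/
theorem result {F : Type*} [Field F] [Fintype F] (hF : Fintype.card F = 2) : Nonempty (↥(Cfsg.isometryGroup F (Cfsg.quadFormPlus 3 F)) ≃* Equiv.Perm (Fin 8)) := by
  obtain ⟨f, hf⟩ := exists_hom
  have h2 : Fintype.card (ZMod 2) = 2 := ZMod.card 2
  have hc := Cfsg.Agent.S0287.result h2 3 (by norm_num)
  have hb : Function.Bijective f := (Nat.bijective_iff_injective_and_card f).2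
    ⟨hf, by rw [Nat.card_perm, Nat.card_fin]; exact (hc.trans rfl).symm⟩
  let e := FiniteField.ringEquivOfCardEq (hF.trans h2.symm)
  exact ⟨(isometryGroupMapEquiv e _ _ (quadFormPlus_map e 3)).trans
    (MulEquiv.ofBijective f hb).symm⟩

end Cfsg.Agent.S0825
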