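import Cfsg.Statements.S0828
import Cfsg.Agent.Lib.Forms.StabMat

set_option autoImplicit false
open Cfsg

namespace Cfsg.Agent.S0828

open CfsgLib.Forms Module

theorem card_eq_mul_of_fibers {A B : Type*} [Finite A] [Finite B] (f : A → B) {c : ℕ}
    (h : ∀ b, Nat.card {a // f a = b} = c) : Nat.card A = Nat.card B * c := by
  have := Fintype.ofFinite B
  rw [← Nat.card_congr (Equiv.sigmaFiberEquiv f), Nat.card_sigma]
  simp [h]

theorem card_diff {F V : Type*} [Field F] [Finite F] [AddCommGroup V] [Module F V] [Finite V]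
    {U W : Submodule F V} (h : U ≤ W) : Nat.card {w // w ∈ W ∧ w ∉ U} =
      Nat.card F ^ finrank F W - Nat.card F ^ finrank F U := by
  rw [← Module.natCard_eq_pow_finrank, ← Module.natCard_eq_pow_finrank]
  have := Set.ncard_sdiff (s := (U : Set V)) (t := (W : Set V)) h
  rw [← Nat.card_coe_set_eq, ← Nat.card_coe_set_eq, ← Nat.card_coe_set_eq] at this
  exact this

/-- The symplectic generalised quadrangle over a field with q elements: the number of 2-dimensional subspaces of F^4 on which the symplectic form vanishes is (q + 1)(q² + 1), and every non-zero vector lies in exactly q + 1 of them. -/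
theorem result {F : Type*} [Field F] [Fintype F] {q : ℕ} (hF : Fintype.card F = q) : Nat.card {W : Submodule F (Fin 2 ⊕ Fin 2 → F) // Module.finrank F W = 2 ∧ ∀ u ∈ W, ∀ v ∈ W, Cfsg.sympForm 2 F u v = 0} = (q + 1) * (q ^ 2 + 1) ∧ ∀ v : Fin 2 ⊕ Fin 2 → F, v ≠ 0 → Nat.card {W : Submodule F (Fin 2 ⊕ Fin 2 → F) // Module.finrank F W = 2 ∧ v ∈ W ∧ ∀ u ∈ W, ∀ w ∈ W, Cfsg.sympForm 2 F u w = 0} = q + 1 := by
  obtain ⟨r, rfl⟩ : ∃ r, q = r + 1 := ⟨q - 1, by have := Fintype.card_pos (α := F); omega⟩
  have hr : 0 < r := by have := Fintype.one_lt_card (α := F); omega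
  have hP := spPQ_nondeg (Fin 2) F
  have hq : Nat.card F = r + 1 := by rw [Nat.card_eq_fintype_card, hF]
  constructor
  · let e : Fin 2 → (Fin 2 ⊕ Fin 2 → F) := fun i => Pi.single (Sum.inl i) 1
    have h1 : finrank F (Submodule.span F (Set.range e)) = 2 := by
      rw [finrank_span_eq_card, Fintype.card_fin]
      convert (Pi.basisFun F (Fin 2 ⊕ Fin 2)).linearIndependent.comp Sum.inl Sum.inl_injective
      ext1 i; simp [e]
    have h2 : (spPQ (Fin 2) F).TS (Submodule.span F (Set.range e)) :=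
      (spPQ _ F).ts_span (fun _ _ => trivial) (by
        rintro _ ⟨i, rfl⟩ _ ⟨j, rfl⟩
        rw [spPQ_B, spB_single_inl_right]; simp [e])
    have h3 := h2.card_mul_card_stab hP
    rw [h2.card_stab hP, card_sp_fix_ts le_rfl h1 h2, card_linearEquiv h1, h1,
      ← Nat.card_congr (spEquiv (Fin 2) F).toEquiv, CfsgLib.Symp.card_sp, CfsgLib.Symp.card_sp,
      hq, hF] at h3
    simp only [spPQ_ts'] at h3
    have e1 : (r + 1) ^ 2 - 1 = r * (r + 2) := Nat.sub_eq_of_eq_add (by ring)
    have e2 : (r + 1) ^ 2 - (r + 1) = r * (r + 1) := Nat.sub_eq_of_eq_add (by ring)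
    have e4 : (r + 1) ^ 4 - 1 = r * (r + 2) * ((r + 1) ^ 2 + 1) :=
      Nat.sub_eq_of_eq_add (by ring)
    simp [Finset.prod_range_succ, e1, e2, e4] at h3
    refine Nat.eq_of_mul_eq_mul_right (by positivity) (h3.trans ?_)
    ring
  · intro v hv
    have h1 := (spPQ (Fin 2) F).finrank_perp hP (Submodule.span F {v})
    have h0 := finrank_span_singleton (K := F) hv
    have hle : Submodule.span F {v} ≤ (spPQ (Fin 2) F).perp (Submodule.span F {v}) :=
      ((spPQ _ F).ts_span_singleton trivial).2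
    have h2 := card_diff hle
    rw [h0] at h1 h2
    simp at h1
    rw [show finrank F ((spPQ (Fin 2) F).perp (Submodule.span F {v})) = 3 by omega, hq] at h2
    have hfin : Finite (Submodule F (Fin 2 ⊕ Fin 2 → F)) :=
      Finite.of_injective _ SetLike.coe_injective
    have hmem : ∀ w, v ∈ Submodule.span F {v} ⊔ Submodule.span F {w} := fun w =>
      Submodule.mem_sup_left (Submodule.mem_span_singleton_self v)
    have hrk : ∀ w, w ∉ Submodule.span F {v} →
        finrank F ↥(Submodule.span F {v} ⊔ Submodule.span F {w}) = 2 := fun w hw => by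
      rw [Submodule.finrank_sup_span_singleton hw, h0]
    have h3 := card_eq_mul_of_fibers (c := (r + 1) ^ 2 - (r + 1))
      (B := {W : Submodule F (Fin 2 ⊕ Fin 2 → F) // Module.finrank F W = 2 ∧ v ∈ W ∧
        ∀ u ∈ W, ∀ w ∈ W, Cfsg.sympForm 2 F u w = 0})
      (fun w : {w // w ∈ (spPQ (Fin 2) F).perp (Submodule.span F {v}) ∧ w ∉ Submodule.span F {v}} =>
        ⟨Submodule.span F {v} ⊔ Submodule.span F {w.1}, hrk _ w.2.2, hmem _, spPQ_ts'.1
          (((spPQ _ F).ts_span_singleton trivial).sup ((spPQ _ F).ts_span_singleton trivial)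
            ((Submodule.span_singleton_le_iff_mem _ _).2 w.2.1))⟩) (by
      rintro ⟨W, hW2, hvW, hW⟩
      have hvW' := (Submodule.span_singleton_le_iff_mem _ _).2 hvW
      have h4 := card_diff hvW'
      rw [hW2, h0, hq, pow_one] at h4
      rw [← h4]
      refine Nat.card_congr ⟨fun w => ⟨w.1.1, ?_, w.1.2.2⟩, fun w => ⟨⟨w.1, ?_, w.2.2⟩, ?_⟩,
        fun _ => rfl, fun _ => rfl⟩
      · exact (congrArg Subtype.val w.2).le
          (Submodule.mem_sup_right (Submodule.mem_span_singleton_self _))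
      · exact (spPQ _ F).perp_anti hvW' ((spPQ_ts'.2 hW).2 w.2.1)
      · exact Subtype.ext (Submodule.eq_of_le_of_finrank_eq
          (sup_le hvW' ((Submodule.span_singleton_le_iff_mem _ _).2 w.2.1))
          ((hrk _ w.2.2).trans hW2.symm)))
    rw [h2, show (r + 1) ^ 3 - (r + 1) ^ 1 = (r + 1 + 1) * (r * (r + 1)) from
      Nat.sub_eq_of_eq_add (by ring),
      show (r + 1) ^ 2 - (r + 1) = r * (r + 1) from Nat.sub_eq_of_eq_add (by ring)] at h3
    exact (Nat.eq_of_mul_eq_mul_right (by positivity) h3).symm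

end Cfsg.Agent.S0828
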