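import Cfsg.Statements.S0829
import Cfsg.Agent.Lib.Forms.StabMat

set_option autoImplicit false
open Cfsg

namespace Cfsg.Agent.S0829

open CfsgLib.Forms CfsgLib.Unitary Module

theorem exists_ts {F : Type*} [Field F] [Fintype F] {q : ℕ} (hF : Fintype.card F = q ^ 2) (d : ℕ) :
    ∃ W : Submodule F (Fin (4 + d) → F), finrank F W = 2 ∧ (uPQ hF (4 + d)).TS W := by
  obtain ⟨a, ha⟩ := exists_norm_eq hF (μ := -1) (by rw [neg_pow_q hF, one_pow])
  let i : Fin 4 → Fin (4 + d) := Fin.castAdd d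
  have hi : ∀ s t, i s = i t ↔ s = t := fun s t => (Fin.castAdd_injective _ _).eq_iff
  let x : Fin (4 + d) → F := Pi.single (i 0) 1 + Pi.single (i 1) a
  let y : Fin (4 + d) → F := Pi.single (i 2) 1 + Pi.single (i 3) a
  have ha' : 1 + a * a ^ q = 0 := by rw [← pow_succ', ha]; ring
  refine ⟨Submodule.span F (Set.range ![x, y]), ?_, ?_⟩
  · rw [finrank_span_eq_card, Fintype.card_fin]
    rw [LinearIndependent.pair_iff]
    intro s t h
    have h0 := congrFun h (i 0)
    have h2 := congrFun h (i 2)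
    simp [x, y, Pi.single_apply, hi] at h0 h2
    exact ⟨h0, h2⟩
  · have key : ∀ u ∈ Set.range ![x, y], ∀ v ∈ Set.range ![x, y], (uPQ hF (4 + d)).B u v = 0 := by
      rintro _ ⟨s, rfl⟩ _ ⟨t, rfl⟩
      fin_cases s <;> fin_cases t <;>
        simp [uPQ_B, x, y, herm_add_left, herm_add_right hF, herm_single_left, Pi.single_apply, hi,
          zero_pow_q hF, ha']
    exact (uPQ hF _).ts_span (fun u hu => ((uPQ_isHerm hF _).sing_iff u).2 (key u hu u hu)) key

theorem count {F : Type*} [Field F] [Fintype F] {q : ℕ} (hF : Fintype.card F = q ^ 2) (d : ℕ) :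
    Nat.card {W : Submodule F (Fin (4 + d) → F) // Module.finrank F W = 2 ∧
      ∀ u ∈ W, ∀ v ∈ W, Cfsg.hermForm (4 + d) F q u v = 0} *
      (q ^ (2 * (2 * d + 2)) * (((q ^ 2) ^ 2 - 1) * ((q ^ 2) ^ 2 - q ^ 2)) * Nat.card (GU d F q)) =
      Nat.card (GU (4 + d) F q) := by
  obtain ⟨W, h1, h2⟩ := exists_ts hF d
  have h3 := h2.card_mul_card_stab (uPQ_nondeg hF _)
  rw [card_gu_stab_ts hF (k := 2) (d := d) rfl h1 h2, h1,
    ← Nat.card_congr (guEquiv hF _).toEquiv] at h3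
  simp only [uPQ_ts] at h3
  simpa using h3

/-- The unitary quadrangle of PSU_4(q): with |F| = q², the number of 2-dimensional subspaces of F^4 on which the Hermitian form Σ x_i y_i^q vanishes is (q + 1)(q³ + 1). -/
theorem result {F : Type*} [Field F] [Fintype F] {q : ℕ} (hF : Fintype.card F = q ^ 2) : Nat.card {W : Submodule F (Fin 4 → F) // Module.finrank F W = 2 ∧ ∀ u ∈ W, ∀ v ∈ W, Cfsg.hermForm 4 F q u v = 0} = (q + 1) * (q ^ 3 + 1) := by
  have h := count hF 0
  obtain ⟨r, rfl⟩ : ∃ r, q = r + 1 := ⟨q - 1, by have := two_le_q hF; omega⟩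
  rw [card_GU hF, card_GU hF] at h
  have e1 : ((r + 1) ^ 2) ^ 2 - 1 = r * (r + 2) * ((r + 1) ^ 2 + 1) :=
    Nat.sub_eq_of_eq_add (by ring)
  have e2 : ((r + 1) ^ 2) ^ 2 - (r + 1) ^ 2 = (r + 1) ^ 2 * (r * (r + 2)) :=
    Nat.sub_eq_of_eq_add (by ring)
  have e3 : (r + 1) ^ (1 + 1) - 1 = r * (r + 2) := Nat.sub_eq_of_eq_add (by ring)
  have e4 : (r + 1) ^ (3 + 1) - 1 = r * (r + 2) * ((r + 1) ^ 2 + 1) :=
    Nat.sub_eq_of_eq_add (by ring)
  have hr : 0 < r := by have := two_le_q hF; omega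
  simp only [Finset.prod_range_succ, Finset.prod_range_zero, e1, e2, e3, e4,
    show Even 0 by decide, show ¬ Even 1 by decide, show Even 2 by decide,
    show ¬ Even 3 by decide, if_true, if_false] at h
  refine Nat.eq_of_mul_eq_mul_right (by positivity) (h.trans ?_)
  norm_num
  ring

end Cfsg.Agent.S0829
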