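import Cfsg.Statements.S0830
import Cfsg.Agent.S0829

set_option autoImplicit false
open Cfsg

namespace Cfsg.Agent.S0830

open CfsgLib.Forms CfsgLib.Unitary Module

/-- The unitary quadrangle of PSU_5(q): with |F| = q², the number of 2-dimensional subspaces of F^5 on which the Hermitian form vanishes is (q³ + 1)(q⁵ + 1). -/
theorem result {F : Type*} [Field F] [Fintype F] {q : ℕ} (hF : Fintype.card F = q ^ 2) : Nat.card {W : Submodule F (Fin 5 → F) // Module.finrank F W = 2 ∧ ∀ u ∈ W, ∀ v ∈ W, Cfsg.hermForm 5 F q u v = 0} = (q ^ 3 + 1) * (q ^ 5 + 1) := by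
  have h := S0829.count hF 1
  obtain ⟨r, rfl⟩ : ∃ r, q = r + 1 := ⟨q - 1, by have := two_le_q hF; omega⟩
  rw [card_GU hF, card_GU hF] at h
  have e1 : ((r + 1) ^ 2) ^ 2 - 1 = r * (r + 2) * ((r + 1) ^ 2 + 1) :=
    Nat.sub_eq_of_eq_add (by ring)
  have e2 : ((r + 1) ^ 2) ^ 2 - (r + 1) ^ 2 = (r + 1) ^ 2 * (r * (r + 2)) :=
    Nat.sub_eq_of_eq_add (by ring)
  have e3 : (r + 1) ^ (1 + 1) - 1 = r * (r + 2) := Nat.sub_eq_of_eq_add (by ring)
  have e4 : (r + 1) ^ (3 + 1) - 1 = r * (r + 2) * ((r + 1) ^ 2 + 1) :=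
    Nat.sub_eq_of_eq_add (by ring)
  have hr : 0 < r := by have := two_le_q hF; omega
  simp only [Finset.prod_range_succ, Finset.prod_range_zero, e1, e2, e3, e4,
    show Even 0 by decide, show ¬ Even 1 by decide, show Even 2 by decide,
    show ¬ Even 3 by decide, show Even 4 by decide, if_true, if_false] at h
  refine Nat.eq_of_mul_eq_mul_right (by positivity) (h.trans ?_)
  norm_num
  ring

end Cfsg.Agent.S0830
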