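import Cfsg.Statements.S0831
import Cfsg.Agent.Lib.Orth.Lagrangian

set_option autoImplicit false
open Cfsg

namespace Cfsg.Agent.S0831

open CfsgLib.Orth QuadraticMap Module

/-- The two families of maximal totally singular subspaces of the hyperbolic quadric: for the form Σ x_i y_i on F^(2m), m ≥ 1, and m-dimensional subspaces U, W, X on which it vanishes, the parities of m − dim(U ∩ W), m − dim(W ∩ X) and m − dim(U ∩ X) sum to an even number (so 'even codimension of the intersection' is an equivalence relation), and there exist two such subspaces meeting in codimension 1 (so there are exactly two classes). -/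
theorem result {F : Type*} [Field F] (m : ℕ) (hm : 1 ≤ m) : (∀ U W X : Submodule F (Fin m ⊕ Fin m → F), (Module.finrank F U = m ∧ ∀ w ∈ U, Cfsg.quadFormPlus m F w = 0) → (Module.finrank F W = m ∧ ∀ w ∈ W, Cfsg.quadFormPlus m F w = 0) → (Module.finrank F X = m ∧ ∀ w ∈ X, Cfsg.quadFormPlus m F w = 0) → Even ((m - Module.finrank F ↥(U ⊓ W)) + (m - Module.finrank F ↥(W ⊓ X)) + (m - Module.finrank F ↥(U ⊓ X)))) ∧ ∃ U W : Submodule F (Fin m ⊕ Fin m → F), (Module.finrank F U = m ∧ ∀ w ∈ U, Cfsg.quadFormPlus m F w = 0) ∧ (Module.finrank F W = m ∧ ∀ w ∈ W, Cfsg.quadFormPlus m F w = 0) ∧ Module.finrank F ↥(U ⊓ W) + 1 = m := by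
  have hQ := qPlus_nondegenerate (F := F) m
  constructor
  · intro U W X hU hW hX
    have := even_three_lag hQ (isLag_plus_iff.2 hU) (isLag_plus_iff.2 hW) (isLag_plus_iff.2 hX)
    have h1 : finrank F ↥(U ⊓ W) ≤ finrank F U := Submodule.finrank_mono inf_le_left
    have h2 : finrank F ↥(W ⊓ X) ≤ finrank F W := Submodule.finrank_mono inf_le_left
    have h3 : finrank F ↥(U ⊓ X) ≤ finrank F U := Submodule.finrank_mono inf_le_left
    have := hU.1
    have := hW.1
    rw [Nat.even_iff] at *
    omega
  · have hU := isLag_ker_inr (F := F) (m := m)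
    let i : Fin m := ⟨0, hm⟩
    have hv : qPlus m F (Pi.single (.inl i) 1 - (1 : F) • Pi.single (.inr i) 1) ≠ 0 := by
      rw [Q_sub_smul_hyp (Q := qPlus m F) (qPlus_single_inl i 1) (qPlus_single_inr i 1)
        (by simp [polar_qPlus_single_inr]) 1]
      simp
    refine ⟨_, _, isLag_plus_iff.1 hU, isLag_plus_iff.1 (hU.act (refl _ (Pi.single (.inl i) 1 - (1 : F) • Pi.single (.inr i) 1))), ?_⟩
    rcases finrank_inf_act_refl hQ hU hU hv with h | h
    · have := Submodule.finrank_mono (inf_le_left (a := LinearMap.ker (LinearMap.funLeft F F (Sum.inr : Fin m → Fin m ⊕ Fin m))) (b := act (refl (qPlus m F) (Pi.single (.inl i) 1 - (1 : F) • Pi.single (.inr i) 1)) (LinearMap.ker (LinearMap.funLeft F F (Sum.inr : Fin m → Fin m ⊕ Fin m)))))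
      rw [inf_idem] at h
      omega
    · rw [h, inf_idem, (isLag_plus_iff.1 hU).1]

end Cfsg.Agent.S0831
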