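import Cfsg.Statements.S0832
import Cfsg.Agent.Lib.Orth.Lagrangian

set_option autoImplicit false
open Cfsg

namespace Cfsg.Agent.S0832

open CfsgLib.Orth QuadraticMap Module

theorem aux {F V : Type*} [Field F] [AddCommGroup V] [Module F V] [FiniteDimensional F V]
    {Q : QuadraticForm F V} (hQ : (polarBilin Q).Nondegenerate) {U W : Submodule F V}
    (hW : IsLag Q W) (hUW : U ≤ W) (hU : finrank F U + 1 = finrank F W) :
    Nat.card {X : Submodule F V // IsLag Q X ∧ U ≤ X} = 2 := by
  have hW2 := hW.2
  have hUs : ∀ u ∈ U, Q u = 0 := fun u hu => hW.1 u (hUW hu)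
  have hsup : ∀ x, x ∉ U → finrank F ↥(U ⊔ Submodule.span F {x}) = finrank F W := by
    intro x hx
    have hx0 : x ≠ 0 := fun h => hx (h ▸ U.zero_mem)
    have h1 := Submodule.finrank_sup_add_finrank_inf_eq U (Submodule.span F {x})
    rw [((Submodule.disjoint_span_singleton' hx0).2 hx).eq_bot, finrank_span_singleton hx0,
      finrank_bot] at h1
    omega
  obtain ⟨e, heW, heU⟩ : ∃ e ∈ W, e ∉ U := by
    by_contra hc
    push Not at hc
    have := Submodule.finrank_mono (show W ≤ U from hc)
    omega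
  obtain ⟨y, hy, hy'⟩ := exists_perp_polar_eq hQ heU 1
  have he : Q e = 0 := hW.1 e heW
  have hue : ∀ u ∈ U, polar Q u e = 0 := fun u hu => polar_eq_zero_of_singular hW.1 (hUW hu) heW
  set f := y - Q y • e with hf
  have hf0 : Q f = 0 := by rw [hf, Q_sub, Q_smul, he, polar_smul_right, polar_comm, hy']; simp
  have hef : polar Q e f = 1 := by
    rw [hf, polar_sub_right, polar_smul_right, polar_self', he, hy']; simp
  have huf : ∀ u ∈ U, polar Q u f = 0 := fun u hu => by
    rw [hf, polar_sub_right, polar_smul_right, hy u hu, hue u hu]; simp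
  have hfU : f ∉ U := fun h => by
    have := hue f h
    rw [polar_comm, hef] at this
    exact one_ne_zero this
  have hlag : ∀ x, x ∉ U → Q x = 0 → (∀ u ∈ U, polar Q u x = 0) →
      IsLag Q (U ⊔ Submodule.span F {x}) := by
    intro x hx hx0 hux
    refine ⟨fun v hv => ?_, by rw [hsup x hx, hW2]⟩
    obtain ⟨u, hu, s, hs, rfl⟩ := Submodule.mem_sup.1 hv
    obtain ⟨c, rfl⟩ := Submodule.mem_span_singleton.1 hs
    rw [Q_add, Q_smul, polar_smul_right, hUs u hu, hx0, hux u hu]; simp
  have hWe : W = U ⊔ Submodule.span F {e} :=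
    (Submodule.eq_of_le_of_finrank_eq
      (sup_le hUW ((Submodule.span_singleton_le_iff_mem _ _).2 heW)) (hsup e heU)).symm
  rw [Nat.card_eq_two_iff]
  refine ⟨⟨_, hlag e heU he hue, le_sup_left⟩, ⟨_, hlag f hfU hf0 huf, le_sup_left⟩, ?_, ?_⟩
  · intro h
    have h' : U ⊔ Submodule.span F {e} = U ⊔ Submodule.span F {f} := congrArg Subtype.val h
    have : polar Q e f = 0 := polar_eq_zero_of_singular (hlag e heU he hue).1
      (Submodule.mem_sup_right (Submodule.mem_span_singleton_self e))
      (h' ▸ Submodule.mem_sup_right (Submodule.mem_span_singleton_self f))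
    exact one_ne_zero (hef.symm.trans this)
  · rw [Set.eq_univ_iff_forall]
    rintro ⟨X, hX, hUX⟩
    have hX2 := hX.2
    obtain ⟨x, hxX, hxU⟩ : ∃ x ∈ X, x ∉ U := by
      by_contra hc
      push Not at hc
      have := Submodule.finrank_mono (show X ≤ U from hc)
      omega
    have hux : ∀ u ∈ U, polar Q u x = 0 := fun u hu => polar_eq_zero_of_singular hX.1 (hUX hu) hxX
    -- `z = x - B(e,x) f` is orthogonal to `W`, so lies in `W`
    have hz : x - polar Q e x • f ∈ W := by
      rw [← hW.orthogonal_eq hQ, mem_orth_iff]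
      intro w hw
      rw [hWe] at hw
      obtain ⟨u, hu, s, hs, rfl⟩ := Submodule.mem_sup.1 hw
      obtain ⟨c, rfl⟩ := Submodule.mem_span_singleton.1 hs
      simp [hux u hu, huf u hu, hef, mul_comm]
    rw [hWe] at hz
    obtain ⟨u, hu, s, hs, hx⟩ := Submodule.mem_sup.1 hz
    obtain ⟨a, rfl⟩ := Submodule.mem_span_singleton.1 hs
    set b := polar Q e x
    have hx' : a • e + b • f = x - u := by rw [eq_sub_iff_add_eq] at hx ⊢; rw [← hx]; abel
    have hab : a * b = 0 := by
      have := hX.1 _ (hx' ▸ sub_mem hxX (hUX hu) : a • e + b • f ∈ X)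
      rw [Q_add, Q_smul, Q_smul, he, hf0, polar_smul_left, polar_smul_right, hef] at this
      simpa using this
    have fin : ∀ y, y ∉ U → ∀ c : F, c • y = x - u → X = U ⊔ Submodule.span F {y} := by
      intro y hy c hc
      have hc0 : c ≠ 0 := by
        rintro rfl
        rw [zero_smul, eq_comm, sub_eq_zero] at hc
        exact hxU (hc ▸ hu)
      refine (Submodule.eq_of_le_of_finrank_eq (sup_le hUX
        ((Submodule.span_singleton_le_iff_mem _ _).2 ?_)) (by rw [hsup y hy]; omega)).symm
      exact (X.smul_mem_iff hc0).1 (hc ▸ sub_mem hxX (hUX hu))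
    rcases mul_eq_zero.1 hab with h | h
    · right; exact Subtype.ext (fin f hfU b (by simpa [h] using hx'))
    · left; exact Subtype.ext (fin e heU a (by simpa [h] using hx'))

/-- For the form Σ x_i y_i on F^(2m) over a finite field, m ≥ 1: an (m−1)-dimensional subspace on which the form vanishes is contained in exactly two m-dimensional subspaces on which it vanishes. -/
theorem result {F : Type*} [Field F] [Finite F] (m : ℕ) (hm : 1 ≤ m) (U : Submodule F (Fin m ⊕ Fin m → F)) (hU : Module.finrank F U + 1 = m ∧ ∀ u ∈ U, Cfsg.quadFormPlus m F u = 0) : Nat.card {W : Submodule F (Fin m ⊕ Fin m → F) // Module.finrank F W = m ∧ (∀ w ∈ W, Cfsg.quadFormPlus m F w = 0) ∧ U ≤ W} = 2 := by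
  have hQ := qPlus_nondegenerate (F := F) m
  have hL := isLag_ker_inr (F := F) (m := m)
  have hL1 := (isLag_plus_iff.1 hL).1
  obtain ⟨U', hU', hU''⟩ : ∃ U' ≤ LinearMap.ker (LinearMap.funLeft F F (Sum.inr : Fin m → Fin m ⊕ Fin m)),
      finrank F U' = finrank F U := by
    obtain ⟨b, hb⟩ := exists_linearIndependent_of_le_finrank (R := F)
      (M := LinearMap.ker (LinearMap.funLeft F F (Sum.inr : Fin m → Fin m ⊕ Fin m)))
      (n := finrank F U) (by omega)
    refine ⟨(Submodule.span F (Set.range b)).map (Submodule.subtype _), Submodule.map_subtype_le _ _, ?_⟩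
    rw [Submodule.finrank_map_subtype_eq, finrank_span_eq_card hb, Fintype.card_fin]
  obtain ⟨g, hg⟩ := exists_act_eq_of_singular hQ (fun u hu => hL.1 u (hU' hu)) hU.2 hU''
  have := aux hQ (hL.act g) (U := U) (by rw [← hg]; exact Submodule.map_mono hU') (by rw [finrank_act, hL1, hU.1])
  simpa only [isLag_plus_iff, and_assoc] using this

end Cfsg.Agent.S0832
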