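import Cfsg.Statements.S0833
import Cfsg.Agent.Lib.Forms.Tensor

set_option autoImplicit false
open Cfsg

namespace Cfsg.Agent.S0833

/-- If B₁, B₂ are non-degenerate alternating forms on U (dim 2k) and W (dim 2l), then B₁ ⊗ B₂ on U ⊗ W is symmetric, non-degenerate, and vanishes identically on some subspace of dimension 2kl (half of dim U ⊗ W). -/
theorem result {F U W : Type*} [Field F] [Fintype F] [AddCommGroup U] [Module F U] [FiniteDimensional F U] [AddCommGroup W] [Module F W] [FiniteDimensional F W] (B₁ : LinearMap.BilinForm F U) (B₂ : LinearMap.BilinForm F W) (h₁ : B₁.Nondegenerate) (h₂ : B₂.Nondegenerate) (hA₁ : B₁.IsAlt) (hA₂ : B₂.IsAlt) (k l : ℕ) (hU : Module.finrank F U = 2 * k) (hW : Module.finrank F W = 2 * l) : (B₁.tmul B₂).IsSymm ∧ (B₁.tmul B₂).Nondegenerate ∧ (∃ X : Submodule F (TensorProduct F U W), Module.finrank F X = 2 * k * l ∧ ∀ x ∈ X, ∀ y ∈ X, (B₁.tmul B₂) x y = 0) := by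
  open CfsgLib.Forms in
  refine ⟨?_, tmul_nondegenerate h₁ h₂, ?_⟩
  · rw [LinearMap.isSymm_iff_eq_flip]
    refine TensorProduct.ext (LinearMap.ext₂ fun x₁ x₂ => TensorProduct.ext
      (LinearMap.ext₂ fun y₁ y₂ => ?_))
    simp [← hA₁.neg_eq x₁ y₁, ← hA₂.neg_eq x₂ y₂]
  · obtain ⟨m, b, h1, -, -⟩ := exists_symplectic_basis B₁ hA₁ h₁
    have hm : m = k := by
      have := Module.finrank_eq_card_basis b
      simp at this; omega
    subst hm
    let c := Module.finBasisOfFinrankEq F W hW
    let v : Fin m × Fin (2 * l) → TensorProduct F U W := fun p => b.tensorProduct c (Sum.inl p.1, p.2)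
    have hv : LinearIndependent F v := (b.tensorProduct c).linearIndependent.comp _ (by
      rintro ⟨i, j⟩ ⟨i', j'⟩ h
      simpa using h)
    refine ⟨Submodule.span F (Set.range v), ?_, fun x hx y hy => ?_⟩
    · rw [finrank_span_eq_card hv]; simp; ring
    · induction hx using Submodule.span_induction with
      | mem x hx =>
        obtain ⟨p, rfl⟩ := hx
        induction hy using Submodule.span_induction with
        | mem y hy => obtain ⟨p', rfl⟩ := hy; simp [v, Module.Basis.tensorProduct_apply, h1]
        | zero => simp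
        | add y z _ _ h3 h4 => rw [map_add, h3, h4, add_zero]
        | smul a y _ h => rw [map_smul, h, smul_zero]
      | zero => simp
      | add x z _ _ h3 h4 => rw [map_add, LinearMap.add_apply, h3, h4, add_zero]
      | smul a x _ h => rw [map_smul, LinearMap.smul_apply, h, smul_zero]

end Cfsg.Agent.S0833
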