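import Cfsg.Statements.S0835
import Cfsg.Agent.Lib.Forms.Tensor

set_option autoImplicit false
open Cfsg

namespace Cfsg.Agent.S0835

/-- Over a finite field with 2 ≠ 0: if B₁ on U (dim 2k, k ≥ 1) is non-degenerate symmetric of minus type (no totally isotropic k-subspace) and B₂ on W (dim 2l + 1) is non-degenerate symmetric, then B₁ ⊗ B₂ (dimension 2k(2l+1)) admits no totally isotropic subspace of dimension k(2l+1) (minus type). -/
theorem result {F U W : Type*} [Field F] [Fintype F] [AddCommGroup U] [Module F U] [FiniteDimensional F U] [AddCommGroup W] [Module F W] [FiniteDimensional F W] (h2 : (2 : F) ≠ 0) (B₁ : LinearMap.BilinForm F U) (B₂ : LinearMap.BilinForm F W) (h₁ : B₁.Nondegenerate) (h₂ : B₂.Nondegenerate) (hS₁ : B₁.IsSymm) (hS₂ : B₂.IsSymm) (k l : ℕ) (hk : 1 ≤ k) (hU : Module.finrank F U = 2 * k) (hW : Module.finrank F W = 2 * l + 1) (hm₁ : ¬ (∃ X : Submodule F (U), Module.finrank F X = k ∧ ∀ x ∈ X, ∀ y ∈ X, (B₁) x y = 0)) : ¬ (∃ X : Submodule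 F (TensorProduct F U W), Module.finrank F X = k * (2 * l + 1) ∧ ∀ x ∈ X, ∀ y ∈ X, (B₁.tmul B₂) x y = 0) := by
  open CfsgLib.Forms in
  rw [exists_half_isotropic_iff h2 _ (tmul_isSymm_of_isSymm hS₁ hS₂) (tmul_nondegenerate h₁ h₂)
    ((Module.finBasisOfFinrankEq F U hU).tensorProduct (Module.finBasisOfFinrankEq F W hW))
    (by rw [Module.finrank_tensorProduct, hU, hW]; ring), det_toMatrix_tmul]
  rw [exists_half_isotropic_iff h2 _ hS₁ h₁ (Module.finBasisOfFinrankEq F U hU) hU] at hm₁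
  have d1 := (LinearMap.BilinForm.nondegenerate_iff_det_ne_zero
    (Module.finBasisOfFinrankEq F U hU)).1 h₁
  have d2 := (LinearMap.BilinForm.nondegenerate_iff_det_ne_zero
    (Module.finBasisOfFinrankEq F W hW)).1 h₂
  simp only [Fintype.card_fin]
  generalize (LinearMap.BilinForm.toMatrix (Module.finBasisOfFinrankEq F U hU) B₁).det = x at *
  generalize (LinearMap.BilinForm.toMatrix (Module.finBasisOfFinrankEq F W hW) B₂).det = y at *
  rintro ⟨s, hs⟩
  refine hm₁ ⟨s / (x ^ l * y ^ k), ?_⟩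
  have h3 : ((-1 : F) ^ (k * l)) ^ 2 = 1 := by rw [← pow_mul, mul_comm, pow_mul]; simp
  field_simp
  linear_combination hs - (x ^ (2 * l + 1) * y ^ (2 * k) * (-1) ^ k) * h3

end Cfsg.Agent.S0835
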