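import Cfsg.Statements.S0836


set_option autoImplicit false
open Cfsg

namespace Cfsg.Agent.S0836

theorem t01 {F : Type*} [Field F] (b : F) : (1 : Matrix (Fin 2) (Fin 2) F) + Matrix.single 0 1 b = !![1, b; 0, 1] := by
  ext i j; fin_cases i <;> fin_cases j <;> simp [Matrix.single]

theorem t10 {F : Type*} [Field F] (b : F) : (1 : Matrix (Fin 2) (Fin 2) F) + Matrix.single 1 0 b = !![1, 0; b, 1] := by
  ext i j; fin_cases i <;> fin_cases j <;> simp [Matrix.single]

/-- For i ≠ j and any scalar c, the elementary transvection 1 + c E_ij is a commutator ⁅g, h⁆ of two elements of SL_n(F) provided n ≥ 3, or n = 2 and F contains x ≠ 0 with x² ≠ 1. -/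
theorem result {F : Type*} [Field F] (n : ℕ) (hn : 3 ≤ n ∨ (n = 2 ∧ ∃ x : F, x ≠ 0 ∧ x ^ 2 ≠ 1)) (i j : Fin n) (hij : i ≠ j) (c : F) (t : Matrix.SpecialLinearGroup (Fin n) F) (ht : (t : Matrix (Fin n) (Fin n) F) = Matrix.transvection i j c) : t ∈ commutatorSet (Matrix.SpecialLinearGroup (Fin n) F) := by
  classical
  have ht' : t = Matrix.SpecialLinearGroup.transvection hij c := by
    apply Subtype.ext; rw [Matrix.SpecialLinearGroup.transvection_coe]; exact ht
  subst ht'
  rcases hn with hn | ⟨rfl, x, hx0, hx1⟩
  · obtain ⟨k, hki, hkj⟩ : ∃ k : Fin n, k ≠ i ∧ k ≠ j := by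
      by_contra h
      push Not at h
      have : (Finset.univ : Finset (Fin n)) ⊆ {i, j} := by
        intro k _
        by_cases h1 : k = i
        · simp [h1]
        · simp [h k h1]
      have h2 := Finset.card_le_card this
      rw [Finset.card_univ, Fintype.card_fin] at h2
      have := Finset.card_le_two (a := i) (b := j)
      omega
    refine ⟨Matrix.SpecialLinearGroup.transvection hki.symm c, Matrix.SpecialLinearGroup.transvection hkj 1, ?_⟩
    rw [commutatorElement_def, Matrix.SpecialLinearGroup.transvection_inv, Matrix.SpecialLinearGroup.transvection_inv]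
    apply Subtype.ext
    simp only [Matrix.SpecialLinearGroup.coe_mul, Matrix.SpecialLinearGroup.transvection_coe]
    simp only [mul_add, add_mul, one_mul, mul_one, Matrix.single_mul_single_same, Matrix.single_mul_single_of_ne _ _ _ _ hij.symm, Matrix.single_mul_single_of_ne _ _ _ _ hki, Matrix.single_mul_single_of_ne _ _ _ _ hkj.symm, zero_mul, mul_zero, add_zero]
    simp only [← Matrix.single_neg, mul_neg, mul_one]
    abel
  · have hne : x ^ 2 - 1 ≠ 0 := sub_ne_zero.mpr hx1
    have hx' : x⁻¹ ≠ 0 := inv_ne_zero hx0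
    fin_cases i <;> fin_cases j
    · exact absurd rfl hij
    · refine ⟨Matrix.SpecialLinearGroup.diag2 x hx0, Matrix.SpecialLinearGroup.transvection hij (c / (x ^ 2 - 1)), ?_⟩
      rw [commutatorElement_def, Matrix.SpecialLinearGroup.transvection_inv, Matrix.SpecialLinearGroup.diag2_inv]
      apply Subtype.ext
      simp only [Matrix.SpecialLinearGroup.coe_mul, Matrix.SpecialLinearGroup.transvection_coe, Matrix.SpecialLinearGroup.diag2_coe']
      simp only [Fin.zero_eta, Fin.mk_one, t01, t10, Matrix.mul_fin_two]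
      ext a b
      fin_cases a <;> fin_cases b <;> simp <;> field_simp <;> ring
    · refine ⟨Matrix.SpecialLinearGroup.diag2 x⁻¹ hx', Matrix.SpecialLinearGroup.transvection hij (c / (x ^ 2 - 1)), ?_⟩
      rw [commutatorElement_def, Matrix.SpecialLinearGroup.transvection_inv, Matrix.SpecialLinearGroup.diag2_inv]
      apply Subtype.ext
      simp only [Matrix.SpecialLinearGroup.coe_mul, Matrix.SpecialLinearGroup.transvection_coe, Matrix.SpecialLinearGroup.diag2_coe']
      simp only [Fin.zero_eta, Fin.mk_one, t01, t10, Matrix.mul_fin_two]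
      ext a b
      fin_cases a <;> fin_cases b <;> simp <;> field_simp <;> ring
    · exact absurd rfl hij

end Cfsg.Agent.S0836
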