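import Cfsg.Statements.S0837
import Cfsg.Agent.Lib.Forms.StabMat

set_option autoImplicit false
open Cfsg

namespace Cfsg.Agent.S0837

open CfsgLib.Forms in

/-- If W ≤ F^n (|F| = q²) is a k-dimensional subspace on which the Hermitian form Σ x_i y_i^q is non-degenerate, then the stabiliser of W in GU_n(q) is isomorphic to GU_k(q) × GU_(n−k)(q). -/
theorem result {F : Type*} [Field F] [Fintype F] {q : ℕ} (hF : Fintype.card F = q ^ 2) (n k : ℕ) (hk : k ≤ n) (W : Submodule F (Fin n → F)) (hWk : Module.finrank F W = k) (hW : ∀ u ∈ W, (∀ v ∈ W, Cfsg.hermForm n F q u v = 0) → u = 0) : Nonempty (↥((Cfsg.stabilizing (Cfsg.glToMat (Fin n) F) (W : Set (Fin n → F))).subgroupOf (Cfsg.GU n F q)) ≃* ↥(Cfsg.GU k F q) × ↥(Cfsg.GU (n - k) F q)) := by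
  have hP := uPQ_nondeg hF n
  have hH := uPQ_isHerm hF n
  have hd : Disjoint W ((uPQ hF n).perp W) :=
    (uPQ hF n).disjoint_perp_iff.2 fun u hu h => hW u hu fun v hv =>
      (uPQ hF n).B_eq_zero_comm.1 (h v hv)
  have h1 := (uPQ hF n).finrank_perp hP W
  obtain ⟨e1⟩ := (hH.restrict W).nonempty_isom_gu hF ((uPQ hF n).restrict_nondeg_iff.2 hd) hWk
  obtain ⟨e2⟩ := (hH.restrict ((uPQ hF n).perp W)).nonempty_isom_gu hF
    ((uPQ hF n).restrict_nondeg_iff.2 ((uPQ hF n).disjoint_perp_perp hP hd)) (n := n - k)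
    (by simp at h1; omega)
  exact ⟨(guStabEquiv hF W).trans (((uPQ hF n).stabEquivProd hP hd).trans (e1.prodCongr e2))⟩

end Cfsg.Agent.S0837
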