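import Cfsg.Statements.S0838
import Cfsg.Agent.Lib.Orth.Disc

set_option autoImplicit false
open Cfsg

namespace Cfsg.Agent.S0838

open CfsgLib.Orth QuadraticMap

/-- Over a finite field with 2 ≠ 0 and n odd: two quadratic forms Q₁, Q₂ on F^n with non-degenerate polar forms are similar — there are an invertible linear map g and a scalar c ≠ 0 with Q₂ (g v) = c · Q₁ v for all v. -/
theorem result {F : Type*} [Field F] [Fintype F] (h2 : (2 : F) ≠ 0) {n : ℕ} (hn : Odd n) (Q₁ Q₂ : QuadraticForm F (Fin n → F)) (h₁ : (QuadraticMap.polarBilin Q₁).Nondegenerate) (h₂ : (QuadraticMap.polarBilin Q₂).Nondegenerate) : ∃ (g : (Fin n → F) ≃ₗ[F] (Fin n → F)) (c : F), c ≠ 0 ∧ ∀ v, Q₂ (g v) = c * Q₁ v := by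
  set c := (gram Q₁ (Pi.basisFun F (Fin n))).det * (gram Q₂ (Pi.basisFun F (Fin n))).det with hcd
  have hc : c ≠ 0 := mul_ne_zero (det_gram_ne_zero h₁ _) (det_gram_ne_zero h₂ _)
  have hp : ∀ x y, polar (⇑(c • Q₁)) x y = c * polar Q₁ x y := fun x y => by
    simp only [polar, QuadraticMap.smul_apply, smul_eq_mul]; ring
  have hQ' : (polarBilin (c • Q₁)).Nondegenerate := nondegenerate_of_polar fun x hx =>
    eq_zero_of_polar h₁ fun y => by
      have := hx y
      rw [hp] at this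
      exact (mul_eq_zero.1 this).resolve_left hc
  have h1 : gram (⇑(c • Q₁)) (Pi.basisFun F (Fin n)) = c • gram Q₁ (Pi.basisFun F (Fin n)) := by
    ext i j; simp only [gram, Matrix.of_apply, hp, Matrix.smul_apply, smul_eq_mul]
  obtain ⟨g, hg⟩ := exists_equiv_of_isSquare_disc h2 hQ' h₂ (Pi.basisFun F (Fin n))
    (Pi.basisFun F (Fin n)) rfl (by
      obtain ⟨k, hk⟩ := hn
      rw [h1, Matrix.det_smul, Fintype.card_fin, mul_assoc, ← hcd, hk]
      exact ⟨c ^ (k + 1), by ring⟩)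
  exact ⟨g, c, hc, hg⟩

end Cfsg.Agent.S0838
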