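import Cfsg.Statements.S0839
import Mathlib

set_option autoImplicit false
open Cfsg

namespace Cfsg.Agent.S0839

open Matrix

theorem exists_vecMulVec {F : Type*} [Field F] {ι : Type} [Fintype ι] [DecidableEq ι]
    (N : Matrix ι ι F) (h : N.rank = 1) :
    ∃ u φ : ι → F, u ≠ 0 ∧ φ ≠ 0 ∧ N = vecMulVec u φ := by
  unfold Matrix.rank at h
  obtain ⟨⟨u, hu⟩, hu0, hall⟩ := finrank_eq_one_iff'.1 h
  have hc : ∀ j, ∃ c : F, c • u = N *ᵥ Pi.single j 1 := fun j => by
    obtain ⟨c, hc⟩ := hall ⟨N *ᵥ Pi.single j 1, ⟨Pi.single j 1, rfl⟩⟩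
    exact ⟨c, congrArg Subtype.val hc⟩
  choose φ hφ using hc
  have hN : N = vecMulVec u φ := by
    ext i j
    have := congrFun (hφ j) i
    simp only [Pi.smul_apply, smul_eq_mul, mulVec_single_one, col_apply] at this
    rw [vecMulVec_apply, ← this, mul_comm]
  refine ⟨u, φ, fun h0 => hu0 (Subtype.ext h0), ?_, hN⟩
  rintro rfl
  obtain ⟨x, hx⟩ := hu
  apply hu0
  apply Subtype.ext
  simp only [mulVecLin_apply] at hx
  show u = 0
  rw [← hx, hN]
  simp


/-- Every transvection t ∈ SL_(n+2)(F) (rank(t − 1) = 1, (t − 1)² = 0) is conjugate in SL_(n+2)(F) to 1 + v·e_0ᵀ for some column vector v with v_0 = 0 (the group A of matrices that are the identity except in the first column below the diagonal); the dimension is written n + 2 ≥ 2. -/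
theorem result {F : Type*} [Field F] (n : ℕ) (t : Matrix.SpecialLinearGroup (Fin (n + 2)) F) (ht : Cfsg.IsTransvection (t : Matrix (Fin (n + 2)) (Fin (n + 2)) F)) : ∃ (g : Matrix.SpecialLinearGroup (Fin (n + 2)) F) (v : Fin (n + 2) → F), v 0 = 0 ∧ ((g⁻¹ * t * g : Matrix.SpecialLinearGroup (Fin (n + 2)) F) : Matrix (Fin (n + 2)) (Fin (n + 2)) F) = 1 + Matrix.vecMulVec v (Pi.single 0 1) := by
  obtain ⟨hr, hsq⟩ := ht
  obtain ⟨u, φ, hu, hφ, hN⟩ := exists_vecMulVec _ hr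
  have hφu : φ ⬝ᵥ u = 0 := by
    rw [hN, vecMulVec_mul_vecMulVec] at hsq
    by_contra hne
    obtain ⟨i, hi⟩ := Function.ne_iff.1 hu
    obtain ⟨j, hj⟩ := Function.ne_iff.1 hφ
    have := congrFun (congrFun hsq i) j
    simp only [vecMulVec_apply, Pi.smul_apply, smul_eq_mul, Matrix.zero_apply, mul_eq_zero] at this
    simp only [Pi.zero_apply] at hi hj
    tauto
  have he : (Pi.single 0 1 : Fin (n + 2) → F) ≠ 0 := by
    intro h
    simpa using congrFun h 0
  obtain ⟨h, hh⟩ := MulAction.exists_smul_eq (SpecialLinearGroup (Fin (n + 2)) F)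
    (Projectivization.mk F φ hφ) (Projectivization.mk F _ he)
  rw [Projectivization.smul_mk, Projectivization.mk_eq_mk_iff] at hh
  obtain ⟨c, hc⟩ := hh
  have hc' : (h : Matrix (Fin (n + 2)) (Fin (n + 2)) F) *ᵥ φ = (c : F) • Pi.single 0 1 := by
    rw [← Units.smul_def, hc]; rfl
  let g : SpecialLinearGroup (Fin (n + 2)) F := h.transpose
  have hg : φ ᵥ* (g : Matrix (Fin (n + 2)) (Fin (n + 2)) F) = (c : F) • Pi.single 0 1 := by
    rw [← hc']
    show φ ᵥ* (h : Matrix (Fin (n + 2)) (Fin (n + 2)) F)ᵀ = _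
    rw [vecMul_transpose]
  have hgg : (g : Matrix (Fin (n + 2)) (Fin (n + 2)) F) *
      ((g⁻¹ : SpecialLinearGroup (Fin (n + 2)) F) : Matrix (Fin (n + 2)) (Fin (n + 2)) F) = 1 := by
    rw [← Matrix.SpecialLinearGroup.coe_mul, mul_inv_cancel, Matrix.SpecialLinearGroup.coe_one]
  have hgg' : ((g⁻¹ : SpecialLinearGroup (Fin (n + 2)) F) : Matrix (Fin (n + 2)) (Fin (n + 2)) F) *
      (g : Matrix (Fin (n + 2)) (Fin (n + 2)) F) = 1 := by
    rw [← Matrix.SpecialLinearGroup.coe_mul, inv_mul_cancel, Matrix.SpecialLinearGroup.coe_one]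
  refine ⟨g, (c : F) • (((g⁻¹ : SpecialLinearGroup (Fin (n + 2)) F) :
    Matrix (Fin (n + 2)) (Fin (n + 2)) F) *ᵥ u), ?_, ?_⟩
  · have h1 : ((c : F) • (Pi.single 0 1 : Fin (n + 2) → F)) ⬝ᵥ
        (((g⁻¹ : SpecialLinearGroup (Fin (n + 2)) F) :
          Matrix (Fin (n + 2)) (Fin (n + 2)) F) *ᵥ u) = 0 := by
      rw [← hg, ← dotProduct_mulVec, mulVec_mulVec, hgg, one_mulVec, hφu]
    simpa using h1
  · have ht : (t : Matrix (Fin (n + 2)) (Fin (n + 2)) F) = 1 + vecMulVec u φ := by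
      rw [← hN]; abel
    rw [Matrix.SpecialLinearGroup.coe_mul, Matrix.SpecialLinearGroup.coe_mul, ht, mul_add, add_mul, mul_one, hgg',
      mul_vecMulVec, vecMulVec_mul, hg]
    congr 1
    ext i j
    simp only [vecMulVec_apply, Pi.smul_apply, smul_eq_mul]
    ring

end Cfsg.Agent.S0839
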