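import Cfsg.Statements.S0841
import Mathlib

set_option autoImplicit false
open Cfsg
open scoped commutatorElement

namespace Cfsg.Agent.S0841

/-- If the commutator subgroup of G lies in the centre, then for all x, y in G and every natural number n one has (x * y) ^ n = x ^ n * y ^ n * c ^ (n * (n - 1) / 2) with c = y⁻¹ * x⁻¹ * y * x. -/
theorem result {G : Type*} [Group G] (hG : commutator G ≤ Subgroup.center G) (x y : G) (n : ℕ) : (x * y) ^ n = x ^ n * y ^ n * (y⁻¹ * x⁻¹ * y * x) ^ (n * (n - 1) / 2) := by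
  have hc : y⁻¹ * x⁻¹ * y * x ∈ Subgroup.center G := by
    apply hG
    have : y⁻¹ * x⁻¹ * y * x = ⁅y⁻¹, x⁻¹⁆ := by simp [commutatorElement_def]
    rw [this]
    exact Subgroup.commutator_mem_commutator (Subgroup.mem_top _) (Subgroup.mem_top _)
  set c := y⁻¹ * x⁻¹ * y * x with hcdef
  have hcomm : ∀ g : G, Commute c g := fun g => (Subgroup.mem_center_iff.mp hc g).symm
  have hyx : y * x = x * y * c := by rw [hcdef]; group
  have hyn : ∀ m : ℕ, y ^ m * x = x * y ^ m * c ^ m := by
    intro m
    induction m with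
    | zero => simp
    | succ m ih =>
      have h1 : Commute (c ^ m) y := (hcomm y).pow_left m
      have h2 : Commute c (y ^ m) := hcomm _
      calc y ^ (m + 1) * x = y * (y ^ m * x) := by rw [pow_succ']; group
        _ = (y * x) * y ^ m * c ^ m := by rw [ih]; group
        _ = x * y * (c * y ^ m) * c ^ m := by rw [hyx]; group
        _ = x * y * (y ^ m * c) * c ^ m := by rw [h2.eq]
        _ = x * y ^ (m + 1) * c ^ (m + 1) := by rw [pow_succ' y, pow_succ' c]; group
  induction n with
  | zero => simp
  | succ n ih =>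
    have hn : (n + 1) * (n + 1 - 1) / 2 = n * (n - 1) / 2 + n := by
      rw [← Nat.choose_two_right, ← Nat.choose_two_right, Nat.choose_succ_succ' n 1]
      simp [add_comm]
    rw [hn, pow_succ, ih]
    have h1 : Commute (c ^ (n * (n - 1) / 2)) (x * y) := (hcomm _).pow_left _
    have h2 : Commute (c ^ n) y := (hcomm _).pow_left _
    calc x ^ n * y ^ n * c ^ (n * (n - 1) / 2) * (x * y)
        = x ^ n * y ^ n * (c ^ (n * (n - 1) / 2) * (x * y)) := by group
      _ = x ^ n * (y ^ n * x) * y * c ^ (n * (n - 1) / 2) := by rw [h1.eq]; group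
      _ = x ^ n * x * y ^ n * (c ^ n * y) * c ^ (n * (n - 1) / 2) := by rw [hyn]; group
      _ = x ^ (n + 1) * y ^ (n + 1) * c ^ (n * (n - 1) / 2 + n) := by
        rw [h2.eq, pow_succ x, pow_succ y, add_comm (n * (n - 1) / 2) n, pow_add]; group

end Cfsg.Agent.S0841
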