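import Cfsg.Statements.S0842
import Cfsg.Agent.Lib.CharDeep.QuatSylow2

set_option autoImplicit false
open Cfsg

namespace Cfsg.Agent.S0842

open CfsgLib.CharDeep

/-- Suppose a Sylow 2-subgroup S of the finite group G is generalized quaternion of order at least 16, and let D be the commutator subgroup of S, C its centralizer and N its normalizer in G. Then there is a subgroup K of odd order, contained in C and normalized by N, with K ⊔ S = N and K ⊔ (S ⊓ C) = C, and C has index 2 in N. -/
theorem result {G : Type*} [Group G] [Finite G] (S : Sylow 2 G) (n : ℕ) (e : (S : Subgroup G) ≃* QuaternionGroup (2 ^ (n + 2))) (D : Subgroup G) (hD : D = ⁅(S : Subgroup G), (S : Subgroup G)⁆) : ∃ K : Subgroup G, Odd (Nat.card K) ∧ K ≤ Subgroup.centralizer (D : Set G) ∧ Subgroup.normalizer (D : Set G) ≤ Subgroup.normalizer (K : Set G) ∧ K ⊔ (S : Subgroup G) = Subgroup.normalizer (D : Set G) ∧ K ⊔ ((S : Subgroup G) ⊓ Subgroup.centralizer (D : Set G)) = Subgroup.centralizer (D : Set G) ∧ ((Subgroup.centralizer (D : Set G)).subgroupOf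 (Subgroup.normalizer (D : Set G))).index = 2 := by
  obtain ⟨a, x, h⟩ := exists_qdata (S : Subgroup G) n e
  rw [h.commutator_eq] at hD
  subst hD
  obtain ⟨K, hK1, hK2, hK3⟩ := h.exists_complement
  refine ⟨K, hK1, fun y hy => ((hK2 y).1 hy).1, ?_, ?_, ?_, h.relIndex_centralizer⟩
  · intro g hg
    apply Subgroup.mem_normalizer_fintype
    intro y hy
    have := (hK2 y).1 hy
    refine (hK2 _).2 ⟨QData.conj_mem_centralizer hg this.1, ?_⟩
    rw [show orderOf (g * y * g⁻¹) = orderOf y from (MulAut.conj g).orderOf_eq y]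
    exact this.2
  · rw [← h.sup_centralizer, ← hK3, sup_comm K, ← sup_assoc, sup_right_comm,
      sup_eq_left.2 h.zpowers_le]
  · rw [h.inf_centralizer, hK3]

end Cfsg.Agent.S0842
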