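import Cfsg.Statements.S0849
import Cfsg.Agent.Lib.Char.Induce

set_option autoImplicit false
open Cfsg

namespace Cfsg.Agent.S0849


/-- Let H be a subgroup of a finite group G and S a subset of H that is mapped to itself under conjugation by H, is disjoint from its conjugate by any element outside H, and is closed under inverses. Let φ be a class function of H vanishing on H away from S, and let u, v be involutions of G. Then the sum of the induced function of φ over all products a * b with a conjugate to u and b conjugate to v equals the index of H times the sum of φ (a * b) over such pairs with a and b in H. -/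
theorem result {G : Type*} [Group G] [Fintype G] (H : Subgroup G) (S : Set G) (hSH : S ⊆ H) (hHS : ∀ h ∈ H, ∀ s ∈ S, h * s * h⁻¹ ∈ S) (hTI : ∀ g : G, g ∉ H → ∀ s ∈ S, g * s * g⁻¹ ∉ S) (hinv : ∀ s ∈ S, s⁻¹ ∈ S) (φ : H → ℂ) (hφ : Cfsg.IsClassFunction H φ) (hφS : ∀ x : H, (x : G) ∉ S → φ x = 0) (u v : G) (hu : orderOf u = 2) (hv : orderOf v = 2) : ∑ᶠ p ∈ {p : G × G | IsConj u p.1 ∧ IsConj v p.2}, Cfsg.indFun H φ (p.1 * p.2) = (H.index : ℂ) * ∑ᶠ p ∈ {p : H × H | IsConj u (p.1 : G) ∧ IsConj v (p.2 : G)}, φ (p.1 * p.2) := by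
  classical
  haveI := Fintype.ofFinite H
  rw [finsum_mem_eq_finite_toFinset_sum _ (Set.toFinite _),
    finsum_mem_eq_finite_toFinset_sum _ (Set.toFinite _)]
  set A := (Set.toFinite {p : G × G | IsConj u p.1 ∧ IsConj v p.2}).toFinset with hA
  have mA : ∀ p : G × G, p ∈ A ↔ IsConj u p.1 ∧ IsConj v p.2 := by simp [hA]
  have cj : ∀ (w a x : G), IsConj w (x * a * x⁻¹) ↔ IsConj w a := fun w a x =>
    ⟨fun h => h.trans (isConj_iff.2 ⟨x⁻¹, by group⟩), fun h => h.trans (isConj_iff.2 ⟨x, rfl⟩)⟩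
  have h1 : ∀ x : G, ∑ p ∈ A, extendByZero H φ (x * (p.1 * p.2) * x⁻¹) =
      ∑ p ∈ A, extendByZero H φ (p.1 * p.2) := by
    intro x
    refine Finset.sum_equiv ((MulAut.conj x).toEquiv.prodCongr (MulAut.conj x).toEquiv)
      (fun p => ?_) fun p _ => ?_
    · rw [mA, mA]
      exact (and_congr (cj u p.1 x) (cj v p.2 x)).symm
    · congr 1
      simp [mul_assoc]
  have sq : ∀ {w a : G}, orderOf w = 2 → IsConj w a → a * a = 1 := by
    intro w a hw h
    obtain ⟨c, rfl⟩ := isConj_iff.1 h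
    have : w * w = 1 := by rw [← pow_two, ← hw, pow_orderOf_eq_one]
    calc c * w * c⁻¹ * (c * w * c⁻¹) = c * (w * w) * c⁻¹ := by group
      _ = 1 := by rw [this]; group
  have h2 : ∑ p ∈ A, extendByZero H φ (p.1 * p.2) =
      ∑ p ∈ (Set.toFinite {p : H × H | IsConj u (p.1 : G) ∧ IsConj v (p.2 : G)}).toFinset,
        φ (p.1 * p.2) := by
    symm
    refine Finset.sum_bij_ne_zero (fun p _ _ => ((p.1 : G), (p.2 : G))) (fun p hp _ => ?_)
      (fun p _ _ q _ _ e => ?_) (fun p hp hne => ?_) fun p _ _ => ?_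
    · rw [mA]; simpa using hp
    · exact Prod.ext (Subtype.ext (congrArg Prod.fst e)) (Subtype.ext (congrArg Prod.snd e))
    · obtain ⟨ha, hb⟩ := (mA p).1 hp
      have hH : p.1 * p.2 ∈ H := by
        by_contra hn
        exact hne (CfsgLib.Char.extendByZero_of_not_mem _ _ hn)
      rw [CfsgLib.Char.extendByZero_of_mem _ _ hH] at hne
      have hS : p.1 * p.2 ∈ S := by
        by_contra hn
        exact hne (hφS _ hn)
      have h3 : p.1 ∈ H := by
        by_contra hn
        refine hTI _ hn _ hS ?_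
        have e : p.1 * (p.1 * p.2) * p.1⁻¹ = (p.1 * p.2)⁻¹ := by
          rw [← mul_assoc, sq hu ha, one_mul, mul_inv_rev, inv_eq_of_mul_eq_one_right (sq hv hb)]
        rw [e]; exact hinv _ hS
      have h4 : p.2 ∈ H := by simpa using H.mul_mem (H.inv_mem h3) hH
      exact ⟨(⟨_, h3⟩, ⟨_, h4⟩), (Set.Finite.mem_toFinset _).2 ⟨ha, hb⟩, hne, rfl⟩
    · exact (CfsgLib.Char.extendByZero_coe H φ (p.1 * p.2)).symm
  simp only [CfsgLib.Char.indFun_apply']
  rw [← Finset.mul_sum, Finset.sum_comm, Finset.sum_congr rfl fun x _ => h1 x, Finset.sum_const, h2,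
    CfsgLib.Char.natCast_index_eq, nsmul_eq_mul, Finset.card_univ, ← Nat.card_eq_fintype_card,
    mul_assoc]

end Cfsg.Agent.S0849
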