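import Cfsg.Statements.S0850
import Cfsg.Agent.Lib.Char.Induce

set_option autoImplicit false
open Cfsg

namespace Cfsg.Agent.S0850


/-- Let K be a subgroup of the finite group G that meets each conjugate by an element outside its normalizer N trivially, is properly contained in N, and contains the centralizer of each of its non-identity elements (a T.I. subgroup with Frobenius normalizer). Then no element of N outside K is conjugate in G to an element of K, and for every class function ϑ of N that vanishes on N away from K and at the identity, the function induced from ϑ to G agrees with ϑ on all of N. -/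
theorem result {G : Type*} [Group G] [Fintype G] (K : Subgroup G) (hTI : ∀ g : G, g ∉ Subgroup.normalizer (K : Set G) → ∀ k ∈ K, g * k * g⁻¹ ∈ K → k = 1) (hlt : K < Subgroup.normalizer (K : Set G)) (hC : ∀ k ∈ K, k ≠ 1 → Subgroup.centralizer ({k} : Set G) ≤ K) : (∀ x ∈ Subgroup.normalizer (K : Set G), x ∉ K → ∀ g : G, g * x * g⁻¹ ∉ K) ∧ ∀ (ϑ : Subgroup.normalizer (K : Set G) → ℂ), Cfsg.IsClassFunction (Subgroup.normalizer (K : Set G)) ϑ → (∀ x : Subgroup.normalizer (K : Set G), (x : G) ∉ K → ϑ x = 0) → ϑ 1 = 0 → ∀ x : Subgroup.normalizer (K : Set G), Cfsg.indFun (Subgroup.normalizer (K : Set G)) ϑ x = ϑ x := by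
  classical
  have h1 : ∀ n : ℕ, ∀ x ∈ Subgroup.normalizer (K : Set G), orderOf x = n → x ∉ K →
      ∀ g : G, g * x * g⁻¹ ∉ K := by
    intro n
    induction n using Nat.strong_induction_on with
    | _ n ih =>
    intro x hx hn hxK g hg
    have hx1 : x ≠ 1 := fun e => hxK (e ▸ K.one_mem)
    obtain ⟨p, hp, hd⟩ := Nat.exists_prime_and_dvd (show orderOf x ≠ 1 by simpa using hx1)
    haveI := Fact.mk hp
    by_cases h2 : x ^ p ∈ K
    swap
    · refine ih (orderOf (x ^ p)) ?_ _ (Subgroup.pow_mem _ hx p) rfl h2 g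
        (by rw [← conj_pow]; exact K.pow_mem hg p)
      rw [orderOf_pow_of_dvd hp.ne_zero hd, ← hn]
      exact Nat.div_lt_self (orderOf_pos x) hp.one_lt
    by_cases h3 : x ^ p = 1
    swap
    · exact hxK (hC _ h2 h3 (Subgroup.mem_centralizer_singleton_iff.2 (Commute.self_pow x p)))
    have hP : IsPGroup p (Subgroup.zpowers (⟨x, hx⟩ : Subgroup.normalizer (K : Set G))) :=
      IsPGroup.of_card (n := 1) (by
        rw [Nat.card_zpowers, ← Subgroup.orderOf_coe, pow_one]; exact orderOf_eq_prime h3 hx1)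
    have hpK : p ∣ Nat.card K := by
      refine dvd_trans ?_ (orderOf_dvd_natCard (⟨_, hg⟩ : K))
      rw [← Subgroup.orderOf_coe]
      exact hd.trans (SemiconjBy.orderOf_eq g (by simp [SemiconjBy])).dvd
    obtain ⟨k, hk, hk1⟩ := hP.exists_fixed_point_of_prime_dvd_card_of_fixed_point K hpK
      (a := 1) (fun y => smul_one _)
    have h4 := congrArg Subtype.val (hk ⟨_, Subgroup.mem_zpowers _⟩)
    change x * (k : G) * x⁻¹ = k at h4
    exact hxK (hC k k.2 (fun e => hk1 (Subtype.ext e).symm)
      (Subgroup.mem_centralizer_singleton_iff.2 (mul_inv_eq_iff_eq_mul.1 h4)))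
  refine ⟨fun x hx => h1 _ x hx rfl, fun ϑ hϑ h0 h01 x => ?_⟩
  by_cases hxK : (x : G) ∈ K
  · by_cases hx1 : x = 1
    · rw [hx1, OneMemClass.coe_one, CfsgLib.Char.indFun_one, h01, mul_zero]
    · exact CfsgLib.Char.indFun_eq_of_ti _ K hTI hϑ h0 x hxK hx1
  · rw [h0 x hxK]
    exact CfsgLib.Char.indFun_eq_zero_of_forall _ _ fun g hg => h0 _ (h1 _ x x.2 rfl hxK g)

end Cfsg.Agent.S0850
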