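import Cfsg.Statements.S0851
import Cfsg.Agent.Lib.ChMisc.ExcFrob
import Cfsg.Agent.Lib.Exc.Basic

set_option autoImplicit false
open Cfsg

namespace Cfsg.Agent.S0851

open Cfsg CfsgLib.Char CfsgLib.ChMisc
open scoped ComplexConjugate


/-- Let K be a subgroup of the finite group G that meets each conjugate by an element outside its normalizer N trivially, is properly contained in N, and contains the centralizer of each of its non-identity elements (a T.I. subgroup with Frobenius normalizer). Suppose K is abelian, let e be the index of K in N, and call an irreducible character of N relevant when it takes at some element of K a value different from its degree. Then either there is exactly one relevant character and K is an elementary abelian p-group of order e + 1 for some prime p, or there are a sign ε and an injective map f from the relevant characters to the irreducible characters of G such that inducing χ - ξ to G gives ε (f χ - f ξ) for all relevant χ and ξ. -/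
theorem result {G : Type*} [Group G] [Fintype G] (K : Subgroup G) (hTI : ∀ g : G, g ∉ Subgroup.normalizer (K : Set G) → ∀ k ∈ K, g * k * g⁻¹ ∈ K → k = 1) (hlt : K < Subgroup.normalizer (K : Set G)) (hC : ∀ k ∈ K, k ≠ 1 → Subgroup.centralizer ({k} : Set G) ≤ K) (hab : ∀ a ∈ K, ∀ b ∈ K, a * b = b * a) : (Nat.card {χ : Cfsg.IrrCharacter (Subgroup.normalizer (K : Set G)) // ∃ k : Subgroup.normalizer (K : Set G), (k : G) ∈ K ∧ (χ : ↥(Subgroup.normalizer (K : Set G)) → ℂ) k ≠ (χ : ↥(Subgroup.normalizer (K : Set G)) → ℂ) 1} = 1 ∧ ∃ p : ℕ, p.Prime ∧ Cfsg.IsElementaryAbelian p K ∧ Nat.card K = (K.subgroupOf (Subgroup.normalizer (K : Set G))).index + 1) ∨ ∃ (ε : ℂ) (f : {χ : Cfsg.IrrCharacter (Subgroup.normalizer (K : Set G)) // ∃ k : Subgroup.normalizer (K : Set G), (k : G) ∈ K ∧ (χ : ↥(Subgroup.normalizer (K : Set G)) → ℂ) k ≠ (χ : ↥(Subgroup.normalizer (K : Set G)) → ℂ) 1} → Cfsg.IrrCharacter G), (ε = 1 ∨ ε = -1) ∧ Function.Injective f ∧ ∀ χ ξ, Cfsg.indFun (Subgroup.normalizer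 (K : Set G)) ((χ.1 : ↥(Subgroup.normalizer (K : Set G)) → ℂ) - (ξ.1 : ↥(Subgroup.normalizer (K : Set G)) → ℂ)) = ε • ((f χ : G → ℂ) - (f ξ : G → ℂ)) := by
  classical
  right
  set N := Subgroup.normalizer (K : Set G) with hN
  rcases isEmpty_or_nonempty {χ : Cfsg.IrrCharacter N // ∃ k : N, (k : G) ∈ K ∧ (χ : N → ℂ) k ≠ (χ : N → ℂ) 1}
    with h | ⟨⟨χ₀⟩⟩
  · exact ⟨1, isEmptyElim, Or.inl rfl, fun a => isEmptyElim a, fun a => isEmptyElim a⟩
  have : (K.subgroupOf N).Normal := Subgroup.normal_in_normalizer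
  have : IsMulCommutative (K.subgroupOf N) := ⟨⟨fun a b => Subtype.ext (Subtype.ext (hab _ a.2 _ b.2))⟩⟩
  have key : ∀ χ : {χ : Cfsg.IrrCharacter N // ∃ k : N, (k : G) ∈ K ∧ (χ : N → ℂ) k ≠ (χ : N → ℂ) 1},
      (χ.1 : N → ℂ) 1 = (K.subgroupOf N).index ∧ ∀ x : N, (x : G) ∉ (K : Set G) → (χ.1 : N → ℂ) x = 0 :=
    fun χ => by
      obtain ⟨τ, h1, -, h2⟩ := (mem_relS (centralizer_le_subgroupOf hC)).1 ⟨χ.1.2, χ.2⟩
      rw [h2, indFun_one, irr_one_eq_one_of_comm h1, mul_one]
      exact ⟨rfl, fun x hx => indFun_eq_zero_of_normal _ _ hx⟩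
  have hin : ∀ χ ξ : {χ : Cfsg.IrrCharacter N // ∃ k : N, (k : G) ∈ K ∧ (χ : N → ℂ) k ≠ (χ : N → ℂ) 1},
      classInner (indFun N ((χ.1 : N → ℂ) - χ₀.1)) (indFun N ((ξ.1 : N → ℂ) - χ₀.1)) =
        (if χ.1 = ξ.1 then 1 else 0) - (if χ₀.1 = ξ.1 then 1 else 0) - (if χ.1 = χ₀.1 then 1 else 0) + 1 :=
    fun χ ξ => by
      rw [classInner_indFun_of_ti N K hTI (isClassFunction_sub (irr_isClassFunction _) (irr_isClassFunction _))
        (fun x hx => by simp [(key _).2 x hx]) (fun x hx => by simp [(key _).2 x hx]) (by simp [(key _).1])]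
      simp only [classInner_sub_left, classInner_sub_right, classInner_irr_irr, if_true]
      ring
  obtain ⟨ε, hε, μ, h1, h2, h3⟩ := CfsgLib.Exc.exists_exceptional χ₀
    (fun χ => indFun N ((χ.1 : N → ℂ) - χ₀.1)) (by simp [indFun_zero])
    (fun χ => isGenChar_indFun N (isGenChar_sub (isGenChar_of_isIrr χ.1.2) (isGenChar_of_isIrr χ₀.1.2)))
    (fun χ => by simp [indFun_one, (key _).1])
    (fun χ h => by
      rw [hin, if_pos rfl, if_neg (Subtype.val_injective.ne h.symm), if_neg (Subtype.val_injective.ne h)]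
      norm_num)
    (fun χ ξ h h' h'' => by
      rw [hin, if_neg (Subtype.val_injective.ne h''), if_neg (Subtype.val_injective.ne h'.symm),
        if_neg (Subtype.val_injective.ne h)]
      norm_num)
  refine ⟨ε, fun χ => ⟨μ χ, h1 χ⟩, hε, fun a b e => h2 (congrArg Subtype.val e), fun χ ξ => ?_⟩
  rw [← sub_sub_sub_cancel_right _ _ (χ₀.1 : N → ℂ), indFun_sub, h3, h3, ← smul_sub,
    sub_sub_sub_cancel_right]

end Cfsg.Agent.S0851
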