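import Cfsg.Statements.S0855
import Cfsg.Agent.Lib.ChDeg.Thompson
import Cfsg.Agent.Lib.ChDeg.Ito
import Cfsg.Agent.Lib.Transfer.NormalComplement

set_option autoImplicit false
open Cfsg

namespace Cfsg.Agent.S0855

open CfsgLib.Char CfsgLib.ChDeg
open scoped ComplexConjugate


/-- For a finite group G and a prime p: every irreducible character of G has degree a power of p if and only if G has an abelian normal subgroup whose order is prime to p and whose index is a power of p. -/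
theorem result {G : Type*} [Group G] [Finite G] (p : ℕ) (hp : p.Prime) : (∀ χ : Cfsg.IrrCharacter G, ∃ k : ℕ, (χ : G → ℂ) 1 = (p : ℂ) ^ k) ↔ ∃ A : Subgroup G, A.Normal ∧ (∀ a ∈ A, ∀ b ∈ A, a * b = b * a) ∧ Nat.Coprime (Nat.card A) p ∧ ∃ k : ℕ, A.index = p ^ k := by
  classical
  have := Fact.mk hp
  have := Fintype.ofFinite G
  constructor
  · intro h
    have h' : ∀ χ, IsIrrCharacter G χ → ∃ k, charDegree χ = p ^ k := fun χ hχ => by
      obtain ⟨k, hk⟩ := h ⟨χ, hχ⟩
      exact ⟨k, deg_eq_of_eq (by rw [show χ 1 = _ from hk]; push_cast; rfl)⟩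
    have h1 := CfsgLib.Transfer.hasNormalPComplement_iff_not_dvd.2
      (not_dvd_card_pResidual (G := G) hp fun χ hχ h1 => by
        obtain ⟨k, hk⟩ := h' χ hχ
        rcases k with _ | k
        · exact absurd hk h1
        · rw [hk]; exact dvd_pow_self p k.succ_ne_zero)
    obtain ⟨N, hN, h2, h3⟩ := CfsgLib.Transfer.hasNormalPComplement_iff_exists_normal.1 h1
    refine ⟨N, hN, fun a ha b hb => ?_, h2, IsPGroup.iff_card.1 h3⟩
    refine congrArg Subtype.val (comm_of_forall_deg_eq_one (G := N) (fun θ hθ => ?_) ⟨a, ha⟩ ⟨b, hb⟩)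
    obtain ⟨χ, hχ, h4⟩ := exists_irr_over N hθ
    obtain ⟨k, hk⟩ := h' χ hχ
    exact Nat.eq_one_of_dvd_coprimes (h2.pow_right k) (deg_dvd_card hθ)
      (hk ▸ deg_dvd_of_over N hχ hθ h4)
  · rintro ⟨A, hA, hc, -, k, hk⟩ χ
    obtain ⟨j, -, hj⟩ := (Nat.dvd_prime_pow hp).1 (hk ▸ deg_dvd_index_of_comm χ.2 A hc)
    exact ⟨j, by rw [← irr_deg_cast, hj]; push_cast; rfl⟩

end Cfsg.Agent.S0855
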