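import Cfsg.Statements.S0858
import Cfsg.Agent.Lib.ChMisc.GoingDown
import Cfsg.Agent.Lib.Core.MinNormal

set_option autoImplicit false
open Cfsg

namespace Cfsg.Agent.S0858

open Cfsg CfsgLib.Char CfsgLib.ChMisc
open scoped ComplexConjugate

section

attribute [local instance] Classical.propDecidable

theorem step {X Q : Type*} [Group X] [Fintype X] [Group Q] [Group.IsSolvable Q] (f : X →* Q)
    (N : Subgroup X) [hN : N.Normal] (hf : f.ker ≤ N)
    (h : ∀ K L : Subgroup X, K.Normal → L.Normal → N ≤ L → L < K →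
      (∀ M : Subgroup X, M.Normal → L ≤ M → M ≤ K → M = L ∨ M = K) → ¬ IsSquare (L.relIndex K))
    {χ : X → ℂ} (hχ : IsIrrCharacter X χ) (hr : ¬ IsIrrCharacter N fun n : N => χ n) :
    ∃ T : Subgroup X, N ≤ T ∧ T ≠ ⊤ ∧ ∃ ψ : T → ℂ, IsIrrCharacter T ψ ∧ indFun T ψ = χ := by
  obtain ⟨L, ⟨hL, hNL, hLr⟩, hmax⟩ := (wellFounded_gt (α := Subgroup X)).has_min
    {L | L.Normal ∧ N ≤ L ∧ ¬ IsIrrCharacter L fun n : L => χ n} ⟨N, hN, le_rfl, hr⟩
  have hLt : L < ⊤ := lt_top_iff_ne_top.2 fun e => hLr (by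
    subst e; exact isIrr_comp_mulEquiv Subgroup.topEquiv hχ)
  obtain ⟨K, hK, hLK, -, hch⟩ := CfsgLib.Core.exists_minimal_normal_over hLt
  have hKi : IsIrrCharacter K fun n : K => χ n := by
    by_contra h0
    exact hmax K ⟨hK, hNL.trans hLK.le, h0⟩ hLK
  have : Group.IsSolvable (X ⧸ L) := Group.isSolvable_of_surjective
    (f := f.rangeRestrict.liftOfSurjective f.rangeRestrict_surjective ⟨QuotientGroup.mk' L, by
      simpa [MonoidHom.ker_rangeRestrict] using hf.trans hNL⟩) fun y => by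
      obtain ⟨x, rfl⟩ := QuotientGroup.mk_surjective y
      exact ⟨f.rangeRestrict x, by simp⟩
  have hab : ⁅K, K⁆ ≤ L := by
    rcases hch (⁅K, K⁆ ⊔ L) inferInstance le_sup_right
      (sup_le (Subgroup.commutator_le_left K K) hLK.le) with e | e
    · exact le_sup_left.trans e.le
    · have h1 := congrArg (Subgroup.map (QuotientGroup.mk' L)) e
      rw [Subgroup.map_sup, Subgroup.map_commutator, QuotientGroup.map_mk'_self, sup_bot_eq] at h1
      refine absurd h1 (Group.IsSolvable.commutator_lt_of_ne_bot fun h2 => hLK.not_ge ?_).ne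
      simpa [Subgroup.map_eq_bot_iff] using h2
  have hsq := h K L hK hL hNL hLK hch
  rcases going_down K L hLK.le hch hab _ hKi (fun g n => isClassFunction_of_isIrr hχ _ _) with
    h1 | ⟨φ, e, -, -, h1⟩ | ⟨F, h1, h2, h3⟩
  · exact absurd h1 hLr
  · exact absurd ⟨e, by rw [← h1, sq]⟩ hsq
  rcases induced_or_homogeneous L hχ with ⟨T, h4, h5⟩ | ⟨θ, e, hθ, -, -, h4⟩
  · exact ⟨T, hNL.trans h4, h5⟩
  refine absurd ?_ hsq
  have h5 : ∀ φ ∈ F, φ = θ := fun φ hφ => by
    refine (irr_eq_of_classInner_ne_zero hθ (h1 φ hφ) fun h0 => ?_).symm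
    have h6 := congrArg (fun t => classInner t φ) (h4.symm.trans h3)
    simp only [classInner_smul_left, h0, mul_zero, classInner_sum_left] at h6
    rw [Finset.sum_eq_single φ (fun ψ hψ hne => classInner_irr_of_ne (h1 ψ hψ) (h1 φ hφ) hne)
      (fun h => absurd hφ h), classInner_irr_self (h1 φ hφ)] at h6
    exact zero_ne_one h6
  have h6 : F.card ≤ 1 := Finset.card_le_one.2 fun a ha b hb => (h5 a ha).trans (h5 b hb).symm
  rw [← h2]
  rcases Nat.le_one_iff_eq_zero_or_eq_one.1 h6 with e | e <;> simp [e]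

end

/-- Let N be a normal subgroup of the finite group G with G / N solvable, and suppose that for every subgroup H containing N and all subgroups L < K between N and H that are normal in H with no subgroup normal in H strictly between them, the index of L in K is not a perfect square. Then every irreducible character χ of G is induced from an irreducible character ψ of some subgroup H containing N such that the restriction of ψ to N is irreducible. -/
theorem result {G : Type*} [Group G] [Fintype G] (N : Subgroup G) [N.Normal] (hsolv : Group.IsSolvable (G ⧸ N)) (hchief : ∀ (H K L : Subgroup G), N ≤ L → L < K → K ≤ H → (∀ h ∈ H, ∀ k ∈ K, h * k * h⁻¹ ∈ K) → (∀ h ∈ H, ∀ l ∈ L, h * l * h⁻¹ ∈ L) → (∀ M : Subgroup G, L ≤ M → M ≤ K → (∀ h ∈ H, ∀ m ∈ M, h * m * h⁻¹ ∈ M) → M = L ∨ M = K) → ¬ IsSquare (L.relIndex K)) (χ : G → ℂ) (hχ : Cfsg.IsIrrCharacter G χ) : ∃ (H : Subgroup G) (hNH : N ≤ H) (ψ : H → ℂ), Cfsg.IsIrrCharacter H ψ ∧ Cfsg.indFun H ψ = χ ∧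 Cfsg.IsIrrCharacter N (fun n : N => ψ ⟨(n : G), hNH n.2⟩) := by
  classical
  suffices H : ∀ (n : ℕ) (T : Subgroup G), Nat.card T = n → N ≤ T → ∀ η : T → ℂ, IsIrrCharacter T η →
      ∃ (H : Subgroup G) (hNH : N ≤ H) (ψ : H → ℂ), IsIrrCharacter H ψ ∧ indFun H ψ = indFun T η ∧
        IsIrrCharacter N (fun n : N => ψ ⟨(n : G), hNH n.2⟩) by
    obtain ⟨H, h1, ψ, h2, h3, h4⟩ := H _ ⊤ rfl le_top _ (isIrr_comp_mulEquiv Subgroup.topEquiv hχ)
    exact ⟨H, h1, ψ, h2, h3.trans (indFun_top (isClassFunction_of_isIrr hχ)), h4⟩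
  intro n
  induction n using Nat.strong_induction_on with
  | _ n ih =>
  intro T hT hNT η hη
  by_cases hr : IsIrrCharacter (N.subgroupOf T) fun n : N.subgroupOf T => η n
  · exact ⟨T, hNT, η, hη, rfl, isIrr_comp_mulEquiv (Subgroup.subgroupOfEquivOfLe hNT).symm hr⟩
  have hi := T.subtype_injective
  have hm : ∀ K : Subgroup T, N.subgroupOf T ≤ K → N ≤ K.map T.subtype := fun K hK x hx =>
    ⟨⟨x, hNT hx⟩, hK hx, rfl⟩
  have hn : ∀ K : Subgroup T, K.Normal → ∀ h ∈ T, ∀ k ∈ K.map T.subtype, h * k * h⁻¹ ∈ K.map T.subtype := by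
    rintro K hK h hh _ ⟨k, hk, rfl⟩
    exact ⟨_, hK.conj_mem k hk ⟨h, hh⟩, rfl⟩
  obtain ⟨U, h1, h2, ψ, h3, rfl⟩ := step ((QuotientGroup.mk' N).comp T.subtype) (N.subgroupOf T)
    (fun x hx => by simpa [Subgroup.mem_subgroupOf] using hx) (fun K L hK hL hNL hLK hch => by
      rw [← Subgroup.relIndex_map_map_of_injective L K hi]
      refine hchief T _ _ (hm L hNL) ((Subgroup.map_lt_map_iff_of_injective hi).2 hLK)
        (Subgroup.map_subtype_le _) (hn K hK) (hn L hL) fun M h1 h2 h3 => ?_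
      have e := Subgroup.map_subgroupOf_eq_of_le (h2.trans (Subgroup.map_subtype_le _))
      rcases hch (M.subgroupOf T) ⟨fun m hm g => h3 g g.2 m hm⟩ (Subgroup.map_le_iff_le_comap.1 h1)
        ((Subgroup.map_le_map_iff_of_injective hi).1 (e.symm ▸ h2)) with h | h
      · exact Or.inl (by rw [← h, e])
      · exact Or.inr (by rw [← h, e])) hη hr
  rw [indFun_indFun]
  refine ih _ ?_ _ rfl (hm U h1) _ (isIrr_comp_mulEquiv _ h3)
  rw [← hT, Subgroup.card_map_of_injective hi]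
  exact lt_of_le_of_ne (Subgroup.card_le_card_group U) fun h => h2 (Subgroup.eq_top_of_card_eq U h)

end Cfsg.Agent.S0858
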