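import Cfsg.Statements.S0859
import Cfsg.Agent.Lib.ChMisc.GoingDown
import Cfsg.Agent.Lib.Char.Monomial
import Cfsg.Agent.Lib.Comp.FStar
import Cfsg.Agent.Lib.Core.Fitting

set_option autoImplicit false
open Cfsg

namespace Cfsg.Agent.S0859

open Cfsg CfsgLib.Char CfsgLib.ChDeg CfsgLib.ChMisc
open scoped ComplexConjugate

section

attribute [local instance] Classical.propDecidable

def AbS (Y : Type*) [Group Y] : Prop :=
  ∀ (p : ℕ) [Fact p.Prime] (P : Sylow p Y), ∀ a ∈ P, ∀ b ∈ P, a * b = b * a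

theorem AbS.inj {Y Z : Type*} [Group Y] [Group Z] (f : Y →* Z) (hf : Function.Injective f) (h : AbS Z) :
    AbS Y := fun p _ P a ha b hb => by
  obtain ⟨Q, hQ⟩ := (P.isPGroup'.map f).exists_le_sylow
  exact hf (by rw [map_mul, map_mul]; exact h p Q _ (hQ ⟨a, ha, rfl⟩) _ (hQ ⟨b, hb, rfl⟩))

theorem AbS.surj {Y Z : Type*} [Group Y] [Finite Y] [Group Z] (f : Y →* Z) (hf : Function.Surjective f)
    (h : AbS Y) : AbS Z := fun p _ P a ha b hb => by
  obtain ⟨Q, rfl⟩ := Sylow.mapSurjective_surjective hf p P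
  obtain ⟨a, ha, rfl⟩ := ha
  obtain ⟨b, hb, rfl⟩ := hb
  rw [← map_mul, ← map_mul, h p Q a ha b hb]

theorem AbS.comm {Y : Type*} [Group Y] [Finite Y] [hn : Group.IsNilpotent Y] (h : AbS Y) (a b : Y) :
    a * b = b * a := by
  obtain ⟨e⟩ := ((Group.isNilpotent_of_finite_tfae (G := Y)).out 0 4).1 hn
  obtain ⟨a, rfl⟩ := e.surjective a
  obtain ⟨b, rfl⟩ := e.surjective b
  rw [← map_mul, ← map_mul]
  congr 1
  ext p P
  have : Fact (p : ℕ).Prime := ⟨Nat.prime_of_mem_primeFactors p.2⟩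
  exact h p P _ (a p P).2 _ (b p P).2

theorem prim {X : Type*} [Group X] [Fintype X] (N : Subgroup X) [hN : N.Normal] [Group.IsSolvable N]
    (h : AbS N) {χ : X → ℂ} (hχ : IsIrrCharacter X χ) (hr : IsIrrCharacter N fun n : N => χ n)
    (hp : ¬ ∃ T : Subgroup X, T ≠ ⊤ ∧ ∃ ψ : T → ℂ, IsIrrCharacter T ψ ∧ indFun T ψ = χ) : χ 1 = 1 := by
  have hc := isCharacter_of_isIrr hχ
  have hcf := isClassFunction_of_isIrr hχ
  have := charKer_normal hcf
  let π := QuotientGroup.mk' (charKer χ)
  have hπ : Function.Surjective π := QuotientGroup.mk'_surjective _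
  have hk : ∀ x, π x = 1 ↔ χ x = χ 1 := fun x => (QuotientGroup.eq_one_iff x).trans (mem_charKer hc)
  have hM := hN.map π hπ
  have hs : Group.IsSolvable (N.map π) := Group.isSolvable_of_surjective (π.subgroupMap_surjective N)
  have hF := CfsgLib.Core.fittingSubgroup_normal (X ⧸ charKer χ)
  have hn := CfsgLib.Core.isNilpotent_fittingSubgroup (X ⧸ charKer χ)
  set A := fittingSubgroup (X ⧸ charKer χ) ⊓ N.map π with hA
  have hAn : Group.IsNilpotent A := Group.nilpotent_of_mulEquiv
    (Subgroup.subgroupOfEquivOfLe (inf_le_left : A ≤ _))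
  have hAc := ((h.surj _ (π.subgroupMap_surjective N)).inj _
    (Subgroup.inclusion_injective (inf_le_right : A ≤ _))).comm
  have hz : ∀ x, π x ∈ A → ∀ y, π y * π x = π x * π y := by
    rcases induced_or_homogeneous (A.comap π) hχ with ⟨T, -, hT⟩ | ⟨θ, e, hθ, -, he, hres⟩
    · exact absurd ⟨T, hT⟩ hp
    have h1 : ∀ a : A.comap π, χ a = e * θ a := congrFun hres
    have hθ1 : θ 1 = 1 := irr_one_eq_one_of_commutator hθ fun a b => by
      apply mul_left_cancel₀ (Nat.cast_ne_zero.2 he.ne' : (e : ℂ) ≠ 0)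
      rw [← h1, ← h1]
      refine (hk _).1 ?_
      have := congrArg Subtype.val (hAc ⟨π a, a.2⟩ ⟨π b, b.2⟩)
      simp only [Subgroup.coe_mul] at this
      simp only [Subgroup.coe_mul, Subgroup.coe_inv, map_mul, map_inv, this]
      group
    intro x hx y
    have h2 : x ∈ charCenter χ := (mem_charCenter hc).2 (by
      rw [show χ x = _ from h1 ⟨x, hx⟩, show χ 1 = _ from h1 1, norm_mul, norm_mul,
        norm_eq_one_of_linear (isCharacter_of_isIrr hθ) hθ1, hθ1, norm_one])
    have h3 := (QuotientGroup.eq_one_iff _).2 (commutator_mem_charKer hcf h2 y)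
    exact (commutatorElement_eq_one_iff_mul_comm.1 ((map_commutatorElement π x y).symm.trans h3)).symm
  have h1 : N.map π ≤ fittingSubgroup _ := CfsgLib.Comp.le_fit_of_isSubnormal_of_centralizes hM.isSubnormal
    (fun y _ x hx => by
      obtain ⟨x, rfl⟩ := hπ x
      obtain ⟨y, rfl⟩ := hπ y
      exact (hz x hx y).symm) fun K hK => CfsgLib.Comp.comp_not_le_solvable hK hs
  refine (irr_one_eq_one_of_commutator hr fun a b => (hk _).1 ?_ :)
  simp only [Subgroup.coe_mul, Subgroup.coe_inv, map_mul, map_inv,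
    hz b ⟨h1 ⟨b, b.2, rfl⟩, b, b.2, rfl⟩ a]
  group

universe u
theorem key (X : Type u) [Group X] [Fintype X] (N : Subgroup X) [hN : N.Normal] [Group.IsSolvable N]
    (h : AbS N) (χ : X → ℂ) (hχ : IsIrrCharacter X χ) (hr : IsIrrCharacter N fun n : N => χ n) :
    ∃ (U : Subgroup X) (lam : U → ℂ), IsCharacter U lam ∧ lam 1 = 1 ∧ indFun U lam = χ := by
  induction hn : Nat.card X using Nat.strong_induction_on generalizing X with
  | _ n ih =>
  by_cases hp : ∃ T : Subgroup X, T ≠ ⊤ ∧ ∃ ψ : T → ℂ, IsIrrCharacter T ψ ∧ indFun T ψ = χ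
  · obtain ⟨T, hT, ψ, hψ, rfl⟩ := hp
    let f : N.subgroupOf T →* N := (T.subtype.comp (N.subgroupOf T).subtype).codRestrict N fun x => x.2
    have hf : Function.Injective f := fun x y e => Subtype.ext (Subtype.ext (congrArg (fun n : N => (n : X)) e))
    have := Group.isSolvable_of_isSolvable_injective hf
    obtain ⟨U, lam, h1, h2, rfl⟩ := ih _ (hn ▸ lt_of_le_of_ne (Subgroup.card_le_card_group T)
      fun h => hT (Subgroup.eq_top_of_card_eq T h)) T (N.subgroupOf T) (h.inj f hf) ψ hψ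
      (isIrr_res_of_indFun N T hψ hr) rfl
    exact ⟨_, _, isCharacter_comp (U.equivMapOfInjective T.subtype T.subtype_injective).symm.toMonoidHom h1,
      by simpa using h2, (indFun_indFun T U lam).symm⟩
  · exact ⟨⊤, fun x => χ x, isCharacter_restrict _ (isCharacter_of_isIrr hχ), prim N h hχ hr hp,
      indFun_top (isClassFunction_of_isIrr hχ)⟩

end

/-- Let G be a finite solvable group and N a normal subgroup such that for every prime p every Sylow p-subgroup of N is abelian. Suppose every irreducible character of G is induced from an irreducible character of some subgroup containing N whose restriction to N is irreducible. Then every irreducible character of G is induced from a character of degree 1 of some subgroup. -/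
theorem result {G : Type*} [Group G] [Fintype G] [Group.IsSolvable G] (N : Subgroup G) [N.Normal] (hab : ∀ (p : ℕ) [Fact p.Prime] (P : Sylow p N), ∀ a ∈ P, ∀ b ∈ P, a * b = b * a) (hrel : ∀ χ : G → ℂ, Cfsg.IsIrrCharacter G χ → ∃ (H : Subgroup G) (hNH : N ≤ H) (ψ : H → ℂ), Cfsg.IsIrrCharacter H ψ ∧ Cfsg.indFun H ψ = χ ∧ Cfsg.IsIrrCharacter N (fun n : N => ψ ⟨(n : G), hNH n.2⟩)) (χ : G → ℂ) (hχ : Cfsg.IsIrrCharacter G χ) : ∃ (U : Subgroup G) (lam : U → ℂ), Cfsg.IsCharacter U lam ∧ lam 1 = 1 ∧ Cfsg.indFun U lam = χ := by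
  classical
  obtain ⟨T, hNT, ψ, hψ, rfl, hr⟩ := hrel χ hχ
  let a := Subgroup.subgroupOfEquivOfLe hNT
  obtain ⟨U, lam, h1, h2, rfl⟩ := key T (N.subgroupOf T) (AbS.inj a.toMonoidHom a.injective hab) ψ hψ
    (isIrr_comp_mulEquiv a hr)
  exact ⟨_, _, isCharacter_comp (U.equivMapOfInjective T.subtype T.subtype_injective).symm.toMonoidHom h1,
    by simpa using h2, (indFun_indFun T U lam).symm⟩

end Cfsg.Agent.S0859
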