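import Cfsg.Statements.S0860
import Cfsg.Agent.Lib.Char.PermLemma

set_option autoImplicit false
open Cfsg

namespace Cfsg.Agent.S0860

open CfsgLib.Char

/-- Let a group A act on the set of irreducible characters and on the set of conjugacy classes of a finite group G in such a way that (a • χ) evaluated on the class a • C equals χ evaluated on C, for all a, χ and C. Then every element of A fixes exactly as many irreducible characters as it fixes conjugacy classes. -/
theorem result {G : Type*} [Group G] [Finite G] {A : Type*} [Group A] [MulAction A (Cfsg.IrrCharacter G)] [MulAction A (ConjClasses G)] (hcompat : ∀ (a : A) (χ : Cfsg.IrrCharacter G) (g g' : G), ConjClasses.mk g' = a • ConjClasses.mk g → ((a • χ : Cfsg.IrrCharacter G) : G → ℂ) g' = (χ : G → ℂ) g) (a : A) : Nat.card {χ : Cfsg.IrrCharacter G // a • χ = χ} = Nat.card {C : ConjClasses G // a • C = C} := by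
  let σ : G → G := fun g => (a⁻¹ • ConjClasses.mk g).out
  have hσ : ∀ g, ConjClasses.mk (σ g) = a⁻¹ • ConjClasses.mk g := fun g => Quotient.out_eq _
  have key : ∀ χ : Cfsg.IrrCharacter G,
      (fun g => (χ : G → ℂ) (σ g)) = ((a • χ : Cfsg.IrrCharacter G) : G → ℂ) := by
    intro χ
    ext g
    exact (hcompat a χ (σ g) g (by rw [hσ, smul_inv_smul])).symm
  rw [← brauer_perm_lemma σ (fun χ hχ => by rw [key ⟨χ, hχ⟩]; exact (a • _ : Cfsg.IrrCharacter G).2)
    (fun C => a • C = C) (fun g => by
      rw [← ConjClasses.mk_eq_mk_iff_isConj, hσ, inv_smul_eq_iff, eq_comm])]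
  refine Nat.card_congr (Equiv.subtypeEquivRight fun χ => ?_)
  rw [key, Subtype.ext_iff]

end Cfsg.Agent.S0860
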