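import Cfsg.Statements.S0861
import Cfsg.Agent.Lib.KGV.Basic

set_option autoImplicit false
open Cfsg

namespace Cfsg.Agent.S0861

open CfsgLib.KGV CfsgLib.Char
open scoped ComplexConjugate


/-- Let P be a normal abelian Sylow p-subgroup of the finite group G and suppose some element g of P has centralizer exactly P. Then the number of irreducible characters of G is at most the order of P, and if equality holds then G / P is abelian (the commutator subgroup lies in P). -/
theorem result {G : Type*} [Group G] [Finite G] (p : ℕ) [Fact p.Prime] (P : Sylow p G) [(P : Subgroup G).Normal] (hab : ∀ a ∈ P, ∀ b ∈ P, a * b = b * a) (g : G) (hg : g ∈ P) (hC : Subgroup.centralizer ({g} : Set G) = P) : Nat.card (Cfsg.IrrCharacter G) ≤ Nat.card P ∧ (Nat.card (Cfsg.IrrCharacter G) = Nat.card P → commutator G ≤ P) := by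
  have h := card_conj_add_index_le Fact.out (P : Subgroup G) P.isPGroup' P.not_dvd_index hab hg
  have h1 := card_conjClasses_le (X := G ⧸ (P : Subgroup G))
  rw [hC, Subgroup.index_eq_card, ← card_irr_eq_card_conjClasses] at h
  refine ⟨by omega, fun e => ?_⟩
  have h2 := comm_of_card_le (X := G ⧸ (P : Subgroup G)) (by omega)
  exact Subgroup.Normal.quotient_commutative_iff_commutator_le.1 ⟨⟨h2⟩⟩

end Cfsg.Agent.S0861
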