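import Cfsg.Statements.S0868
import Cfsg.Agent.Lib.CharDeep.Gallagher

set_option autoImplicit false
open scoped ComplexConjugate
open Cfsg

namespace Cfsg.Agent.S0868

open CfsgLib.CharDeep CfsgLib.Char

/-- Let N be a normal subgroup of the finite group G, χ an irreducible character of G whose restriction ϑ to N is irreducible, and ψ an irreducible character of G. Define η on G by η g = (1 / order of N) * Σ over n in N of ψ (n * g) * conj (χ (n * g)). Then: if the restriction of ψ to N has nonzero inner product with ϑ, η is an irreducible character of G; if that inner product is zero, η vanishes identically; and if ψ = χ then η is identically 1. -/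
theorem result {G : Type*} [Group G] [Fintype G] (N : Subgroup G) [N.Normal] [Fintype N] (χ : G → ℂ) (hχ : Cfsg.IsIrrCharacter G χ) (hχN : Cfsg.IsIrrCharacter N (fun n : N => χ n)) (ψ : G → ℂ) (hψ : Cfsg.IsIrrCharacter G ψ) (η : G → ℂ) (hη : η = fun g => (Nat.card N : ℂ)⁻¹ * ∑ n : N, ψ ((n : G) * g) * conj (χ ((n : G) * g))) : (Cfsg.classInner (fun n : N => ψ n) (fun n : N => χ n) ≠ 0 → Cfsg.IsIrrCharacter G η) ∧ (Cfsg.classInner (fun n : N => ψ n) (fun n : N => χ n) = 0 → η = 0) ∧ (ψ = χ → η = fun _ => 1) := by
  have hχc := isCharacter_of_isIrr hχ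
  have h3 : ∀ g, (Nat.card N : ℂ)⁻¹ * ∑ n : N, χ (n * g) * conj (χ (n * g)) = 1 := fun g => by
    rw [sum_coset_mul_conj N hχc hχN, inv_mul_cancel₀ natCard_ne_zero]
  refine ⟨fun h => ?_, fun h => ?_, fun h => ?_⟩
  · obtain ⟨β, h1, h2, rfl⟩ := gallagher_surj N hχc hχN hψ h
    convert h1 using 1
    rw [hη]
    ext g
    have h5 : ∀ n : N, (β * χ) (n * g) * conj (χ (n * g)) = β g * (χ (n * g) * conj (χ (n * g))) := by
      intro n
      rw [Pi.mul_apply, char_mul_of_eq_one (isCharacter_of_isIrr h1) (h2 n n.2), mul_assoc]
    simp only [h5]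
    rw [← Finset.mul_sum, mul_left_comm, h3 g, mul_one]
  · let θ : G → ℂ := ψ * fun g => conj (χ g)
    have hθ : IsCharacter G θ := isCharacter_mul (isCharacter_of_isIrr hψ) (isCharacter_conj hχc)
    have h0 : classInner (fun n : N => θ n) (fun _ => 1) = 0 := by
      rw [← h]
      simp [classInner_def, θ]
    obtain ⟨m, σ, hσ⟩ := hθ
    have h1 : Module.finrank ℂ (Representation.invariants (σ.comp N.subtype)) = 0 := by
      have := classInner_rep_one (σ.comp N.subtype)
      rw [← hσ] at h0
      exact_mod_cast this.symm.trans h0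
    have h2 : ∑ n : N, σ n = 0 := by
      apply LinearMap.ext; intro v
      have : (∑ n : N, σ n) v ∈ Representation.invariants (σ.comp N.subtype) := by
        intro k
        rw [← Module.End.mul_apply, Finset.mul_sum]
        congr 1
        exact Fintype.sum_equiv (Equiv.mulLeft k) _ _ (fun n => by simp)
      rw [Submodule.finrank_eq_zero.1 h1] at this
      exact this
    rw [hη]
    ext g
    have h4 : ∑ n : N, σ.character (n * g) = 0 := by
      unfold Representation.character
      simp only [map_mul]
      rw [← map_sum, ← Finset.sum_mul, h2, zero_mul, map_zero]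
    rw [hσ] at h4
    exact mul_eq_zero_of_right _ h4
  · rw [hη, h]
    exact funext h3

end Cfsg.Agent.S0868
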