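import Cfsg.Statements.S0874
import Cfsg.Agent.Lib.Brauer.Local
import Cfsg.Agent.Lib.Char.Basic

set_option autoImplicit false
open Cfsg

namespace Cfsg.Agent.S0874

/-- For a finite group G and a prime p there are an integer m not divisible by p and a list of triples (E, φ, c), with E a p-elementary subgroup, φ a character of E and c an integer, such that the constant function m on G equals the sum of the c • (function induced from φ). -/
theorem result {G : Type*} [Group G] [Fintype G] (p : ℕ) (hp : p.Prime) : ∃ (m : ℤ) (l : List ((E : Subgroup G) × ((E → ℂ) × ℤ))), ¬ (p : ℤ) ∣ m ∧ (∀ t ∈ l, Cfsg.IsElementary p t.1 ∧ Cfsg.IsCharacter t.1 t.2.1) ∧ (fun _ : G => (m : ℂ)) = (l.map fun t => (t.2.2 : ℂ) • Cfsg.indFun t.1 t.2.1).sum := by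
  obtain ⟨m, hm, hmem⟩ := CfsgLib.Brauer.brauer_local (G := G) hp
  have key : ∀ f ∈ CfsgLib.Brauer.elemSpan p G, ∃ l : List ((E : Subgroup G) × ((E → ℂ) × ℤ)),
      (∀ t ∈ l, Cfsg.IsElementary p t.1 ∧ Cfsg.IsCharacter t.1 t.2.1) ∧
      f = (l.map fun t => (t.2.2 : ℂ) • Cfsg.indFun t.1 t.2.1).sum := by
    intro f hf
    induction hf using AddSubgroup.closure_induction with
    | zero => exact ⟨[], by simp, by simp⟩
    | add f g _ _ hf hg =>
      obtain ⟨a, ha, rfl⟩ := hf
      obtain ⟨b, hb, rfl⟩ := hg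
      refine ⟨a ++ b, fun t ht => ?_, by simp⟩
      rcases List.mem_append.mp ht with h | h
      · exact ha t h
      · exact hb t h
    | neg f _ hf =>
      obtain ⟨a, ha, rfl⟩ := hf
      refine ⟨a.map fun t => ⟨t.1, t.2.1, -t.2.2⟩, fun t ht => ?_, ?_⟩
      · obtain ⟨s, hs, rfl⟩ := List.mem_map.mp ht
        exact ha s hs
      · rw [List.map_map, List.sum_neg, List.map_map]
        congr 1
        refine List.map_congr_left fun t _ => ?_
        simp
    | mem f hf =>
      obtain ⟨E, hE, β, rfl⟩ := hf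
      refine ⟨[⟨E, fun t => β t, 1⟩], fun t ht => ?_, by simp⟩
      rw [List.mem_singleton.mp ht]
      exact ⟨hE, CfsgLib.Char.isCharacter_of_isIrr (CfsgLib.Char.isIrr_unitsHom β)⟩
  obtain ⟨l, hl, hsum⟩ := key _ hmem
  exact ⟨m, l, by exact_mod_cast hm, hl, by exact_mod_cast hsum⟩

end Cfsg.Agent.S0874
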