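import Cfsg.Statements.S0875
import Cfsg.Agent.Lib.Brauer.PiSplit

set_option autoImplicit false
open Cfsg

namespace Cfsg.Agent.S0875

/-- Let G be a finite group of order m * n with m and n coprime, and g an element whose order is coprime to m. Every x in G factors uniquely as x = u * v with u, v commuting, the order of u coprime to n and the order of v coprime to m; let ϑ be the function on G equal to n at those x whose factor v is conjugate to g and equal to 0 elsewhere. Then ϑ is a linear combination of the irreducible characters of G with algebraic-integer coefficients. -/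
theorem result {G : Type*} [Group G] [Fintype G] (m n : ℕ) (hmn : Nat.card G = m * n) (hcop : Nat.Coprime m n) (g : G) (hg : Nat.Coprime (orderOf g) m) (ϑ : G → ℂ) (hϑ1 : ∀ x : G, (∃ v : G, IsConj v g ∧ (∃ u : G, x = u * v ∧ Commute u v ∧ Nat.Coprime (orderOf u) n ∧ Nat.Coprime (orderOf v) m)) → ϑ x = n) (hϑ0 : ∀ x : G, (¬ ∃ v : G, IsConj v g ∧ (∃ u : G, x = u * v ∧ Commute u v ∧ Nat.Coprime (orderOf u) n ∧ Nat.Coprime (orderOf v) m)) → ϑ x = 0) : ∃ c : Cfsg.IrrCharacter G → ℂ, (∀ χ, c χ ∈ Cfsg.AlgInt) ∧ ϑ = ∑ᶠ χ : Cfsg.IrrCharacter G, c χ • (χ : G → ℂ) := by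
  classical
  open CfsgLib.Brauer CfsgLib.Char in
  obtain ⟨a, b, h⟩ := exists_splitExp hcop
  have hord : ∀ x : G, orderOf x ∣ m * n := fun x => hmn ▸ orderOf_dvd_natCard x
  have hϑ : ϑ = fun x => n * classInd g (x ^ b) := by
    funext x
    by_cases hx : IsConj (x ^ b) g
    · rw [classInd_of_isConj hx, mul_one]
      exact hϑ1 x ⟨x ^ b, hx, x ^ a, (h.mul_eq (hord x)).symm, Commute.pow_pow_self x a b,
        h.coprime_of_dvd (h.orderOf_pow_dvd (hord x)),
        h.symm.coprime_of_dvd (h.symm.orderOf_pow_dvd (mul_comm m n ▸ hord x))⟩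
    · rw [classInd_of_not_isConj hx, mul_zero]
      refine hϑ0 x ?_
      rintro ⟨v, hv, u, rfl, hc, hu', hv'⟩
      apply hx
      rwa [hc.eq, h.symm.mul_pow_eq hc.symm
        (SplitExp.dvd_of_coprime (mul_comm m n ▸ hord v) hv')
        (SplitExp.dvd_of_coprime (hord u) hu')]
  have hcl : IsClassFunction G ϑ :=
    hϑ ▸ isClassFunction_map (isClassFunction_pow (isClassFunction_classInd g) b) (n * ·)
  refine ⟨fun χ => classInner ϑ χ, fun χ => ?_, ?_⟩
  · rw [hϑ]
    refine isIntegral_inner_section h hmn.dvd (isClassFunction_classInd g) (fun x => ?_)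
      (irr_isCharacter χ)
    by_cases hx : IsConj x g
    · rw [classInd_of_isConj hx]; exact isIntegral_one
    · rw [classInd_of_not_isConj hx]; exact isIntegral_zero
  · rw [finsum_eq_sum_of_fintype]
    exact classFun_eq_sum hcl

end Cfsg.Agent.S0875
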