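import Cfsg.Statements.S0876
import Cfsg.Agent.Lib.Brauer.PiSplit
import Cfsg.Agent.Lib.Block.Vanish

set_option autoImplicit false
open Cfsg

namespace Cfsg.Agent.S0876

/-- Let G be a finite group, p a prime and M a maximal ideal of the ring of algebraic integers containing p. Let x, y be elements with p-parts a and b (so a⁻¹ * x and b⁻¹ * y are their p-regular parts). Then a⁻¹ * x and b⁻¹ * y are conjugate in G if and only if, for every irreducible character χ, the difference χ x - χ y lies in the local ideal at M. -/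
theorem result {G : Type*} [Group G] [Finite G] (p : ℕ) (M : Ideal Cfsg.AlgInt) (hM : Cfsg.IsPModular p M) (x y a b : G) (ha : Cfsg.IsPPart p x a) (hb : Cfsg.IsPPart p y b) : IsConj (a⁻¹ * x) (b⁻¹ * y) ↔ ∀ χ : Cfsg.IrrCharacter G, Cfsg.MemLocalIdeal M ((χ : G → ℂ) x - (χ : G → ℂ) y) := by
  classical
  open CfsgLib.Brauer CfsgLib.Char CfsgLib.Block in
  have := Fintype.ofFinite G
  obtain ⟨x', rfl, hcx, ha1, ha2⟩ := ha
  obtain ⟨y', rfl, hcy, hb1, hb2⟩ := hb
  simp only [inv_mul_cancel_left]
  constructor
  · intro h χ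
    refine li_sub_trans hM (li_char_mul_sub hM (irr_isCharacter χ) ha1 hcx.eq) ?_
    rw [classFun_eq_of_isConj (irr_isClassFunction χ) h]
    exact li_sub_comm (li_char_mul_sub hM (irr_isCharacter χ) hb1 hcy.eq)
  · intro h
    by_contra hne
    have hp := hM.1
    set m := p ^ (Nat.card G).factorization p
    set n := Nat.card G / m
    have hmn : m * n = Nat.card G := Nat.ordProj_mul_ordCompl_eq_self _ _
    have hcop : m.Coprime n := (Nat.coprime_ordCompl hp Nat.card_pos.ne').pow_left _
    obtain ⟨c, d, hs⟩ := exists_splitExp hcop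
    have hord : ∀ x : G, orderOf x ∣ m * n := fun x => hmn ▸ orderOf_dvd_natCard x
    have hpow : ∀ u v : G, Commute u v → (∃ k, orderOf u = p ^ k) → ¬ p ∣ orderOf v →
        (u * v) ^ d = v := by
      rintro u v hc ⟨k, hk⟩ hv
      rw [hc.eq, hs.symm.mul_pow_eq hc.symm
        (SplitExp.dvd_of_coprime (mul_comm m n ▸ hord v)
          ((hp.coprime_iff_not_dvd.mpr hv).symm.pow_right _))
        (SplitExp.dvd_of_coprime (hord u)
          (hk ▸ (Nat.coprime_ordCompl hp Nat.card_pos.ne').pow_left _))]
    set ϑ : G → ℂ := fun x => n * classInd x' (x ^ d) with hϑ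
    have hcl : IsClassFunction G ϑ :=
      isClassFunction_map (isClassFunction_pow (isClassFunction_classInd x') d) (n * ·)
    have h1 : MemLocalIdeal M (ϑ (a * x') - ϑ (b * y')) := by
      rw [classFun_apply_eq_sum hcl, classFun_apply_eq_sum hcl (b * y'),
        ← Finset.sum_sub_distrib]
      refine li_sum hM fun χ _ => ?_
      rw [← mul_sub]
      refine li_mul_left hM (lr_of_isIntegral hM ?_) (h χ)
      refine isIntegral_inner_section hs hmn.symm.dvd (isClassFunction_classInd x') (fun x => ?_)
        (irr_isCharacter χ)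
      by_cases hx : IsConj x x'
      · rw [classInd_of_isConj hx]; exact isIntegral_one
      · rw [classInd_of_not_isConj hx]; exact isIntegral_zero
    simp only [hϑ, hpow a x' hcx ha1 ha2, hpow b y' hcy hb1 hb2, classInd_of_isConj (IsConj.refl _),
      classInd_of_not_isConj (fun h => hne h.symm : ¬ IsConj y' x'), mul_one, mul_zero, sub_zero,
      li_natCast_iff hM] at h1
    exact Nat.not_dvd_ordCompl hp Nat.card_pos.ne' h1

end Cfsg.Agent.S0876
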