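import Cfsg.Statements.S0879
import Cfsg.Agent.Lib.ZassFeit.Basic

set_option autoImplicit false
open Cfsg

namespace Cfsg.Agent.S0879

/-- Let G be a Zassenhaus group on the finite set Ω and E the stabilizer of two distinct points a, b. Then an element outside the normalizer of E conjugates no non-identity element of E into E, and E has index 2 in its normalizer. -/
theorem result {G Ω : Type*} [Group G] [Finite G] [MulAction G Ω] [Fintype Ω] (hZ : Cfsg.IsZassenhausGroup G Ω) {a b : Ω} (hab : a ≠ b) : (∀ g : G, g ∉ Subgroup.normalizer ((MulAction.stabilizer G a ⊓ MulAction.stabilizer G b : Subgroup G) : Set G) → ∀ x ∈ (MulAction.stabilizer G a ⊓ MulAction.stabilizer G b : Subgroup G), g * x * g⁻¹ ∈ (MulAction.stabilizer G a ⊓ MulAction.stabilizer G b : Subgroup G) → x = 1) ∧ ((MulAction.stabilizer G a ⊓ MulAction.stabilizer G b : Subgroup G).subgroupOf (Subgroup.normalizer ((MulAction.stabilizer G a ⊓ MulAction.stabilizer G b : Subgroup G) : Set G))).index = 2 := by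
  refine ⟨fun g hg x hx h => ?_, ?_⟩
  · by_contra hx1
    exact hg ((CfsgLib.ZassFeit.mem_normalizer_stab2_iff hZ hab).mpr
      (CfsgLib.ZassFeit.fix_or_swap_of_conj hZ hab hx1 hx h))
  · obtain ⟨s, hs1, hs2⟩ := CfsgLib.ZassFeit.two_trans hZ hab hab.symm
    rw [Subgroup.index_eq_two_iff_exists_notMem_and]
    refine ⟨⟨s, (CfsgLib.ZassFeit.mem_normalizer_stab2_iff hZ hab).mpr (Or.inr ⟨hs1, hs2⟩)⟩,
      fun h => ?_, ?_⟩
    · have h1 : s • a = a := h.1
      exact hab (h1.symm.trans hs1)
    · rintro ⟨g, hg⟩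
      rcases (CfsgLib.ZassFeit.mem_normalizer_stab2_iff hZ hab).mp hg with ⟨h1, h2⟩ | ⟨h1, h2⟩
      · exact Or.inr ⟨h1, h2⟩
      · refine Or.inl ⟨?_, ?_⟩
        · change (g * s) • a = a
          rw [mul_smul, hs1, h2]
        · change (g * s) • b = b
          rw [mul_smul, hs2, h1]

end Cfsg.Agent.S0879
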