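import Cfsg.Statements.S0882
import Cfsg.Agent.Lib.ZassFeit.Cyclic

set_option autoImplicit false
open Cfsg

namespace Cfsg.Agent.S0882

/-- Let G be a finite simple Zassenhaus group on Ω with n = h + 1 points whose two-point stabilizer E has odd order e with 2e < h - 1. Then any two involutions of G are conjugate, and the number of involutions is e * (h + 1) if h is even and e * h if h is odd. -/
theorem result {G Ω : Type*} [Group G] [Finite G] [MulAction G Ω] [Fintype Ω] (hZ : Cfsg.IsZassenhausGroup G Ω) {a b : Ω} (hab : a ≠ b) [IsSimpleGroup G] (h e : ℕ) (hh : Fintype.card Ω = h + 1) (he : Nat.card ↥(MulAction.stabilizer G a ⊓ MulAction.stabilizer G b : Subgroup G) = e) (hodd : Odd e) (hlt : 2 * e < h - 1) : (∀ x y : G, orderOf x = 2 → orderOf y = 2 → IsConj x y) ∧ Nat.card {x : G // orderOf x = 2} = (if Even h then e * (h + 1) else e * h) := by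
  classical
  open CfsgLib.ZassFeit in
  have := Fintype.ofFinite G
  have he' : ∀ c d : Ω, c ≠ d → Nat.card ↥(MulAction.stabilizer G c ⊓ MulAction.stabilizer G d) = e :=
    fun c d hcd => (card_stab2_eq hZ hab hcd).trans he
  have hinv := hinv_of_simple hZ hab (he ▸ hodd)
  refine ⟨fun x y hx hy => isConj_invol hZ he' hodd hinv hx hy, ?_⟩
  rw [← card_invol hZ he' hodd hinv hh, Nat.card_eq_fintype_card, Fintype.card_subtype]

end Cfsg.Agent.S0882
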