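import Cfsg.Statements.S0890
import Cfsg.Agent.Lib.Berger.Mackey
import Cfsg.Agent.Lib.SolvStruct.SysNorm2

set_option autoImplicit false
open Cfsg

namespace Cfsg.Agent.S0890

open CfsgLib.Char CfsgLib.CharDeep CfsgLib.Berger CfsgLib.SolvStruct Finset
open scoped ComplexConjugate

theorem exists_layer {G : Type*} [Group G] [Finite G] (L H : Subgroup G) [L.Normal] (hLH : L ≤ H)
    (hmax : IsCoatom H) (hsolv : Group.IsSolvable (G ⧸ L)) (hn : ¬ H ≤ H.normalCore) :
    ∃ (p q : ℕ) (K M : Subgroup G), p.Prime ∧ q.Prime ∧ p ≠ q ∧ K.Normal ∧ M.Normal ∧ K ≤ M ∧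
      K ⊓ H = H.normalCore ∧ (∀ g, ∃ h ∈ H, ∃ k ∈ K, g = h * k) ∧ (∃ j, H.index = p ^ j) ∧
      (∃ k, K.relIndex M = q ^ k) ∧ ¬ M ⊓ H ≤ H.normalCore := by
  have hs := QuotientGroup.mk'_surjective H.normalCore
  have hLc : L ≤ H.normalCore := Subgroup.normal_le_normalCore.mpr hLH
  have : Group.IsSolvable (G ⧸ H.normalCore) := Group.isSolvable_of_surjective
    (f := QuotientGroup.map L H.normalCore (MonoidHom.id G) hLc)
    (by rintro ⟨g⟩; exact ⟨g, rfl⟩)
  have hM' := isCoatom_map_mk' H.normalCore hmax H.normalCore_le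
  obtain ⟨p, q, N, M, hp, hq, hpq, hN, hM, -, hNp, hNM, hk, hV⟩ :=
    corefree_solvable_exists_layer hM' (normalCore_map_mk'_normalCore H)
      fun h => hn ((map_mk'_eq_bot_iff _ _).mp h)
  obtain ⟨hc, hnorm, -, -⟩ := hV _ hM' (normalCore_map_mk'_normalCore H)
  have := Fact.mk hp
  obtain ⟨k, hk'⟩ := hNp.exists_card_eq
  have hH : ∀ X : Subgroup (G ⧸ H.normalCore), X.comap (QuotientGroup.mk' _) ⊓ H =
      (X ⊓ H.map (QuotientGroup.mk' _)).comap (QuotientGroup.mk' _) := fun X => by
    rw [Subgroup.comap_inf, comap_map_mk'_of_le _ H.normalCore_le]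
  refine ⟨p, q, N.comap (QuotientGroup.mk' _), M.comap (QuotientGroup.mk' _), hp, hq, hpq,
    inferInstance, inferInstance, Subgroup.comap_mono hNM, ?_, fun g => ?_, ⟨k, ?_⟩, ?_,
    fun h => hM'.1 ?_⟩
  · rw [hH, hc.disjoint.eq_bot, MonoidHom.comap_bot, QuotientGroup.ker_mk']
  · obtain ⟨⟨⟨_, h, hh, rfl⟩, ⟨n, hn⟩⟩, e⟩ := hc.symm.2 (g : G ⧸ H.normalCore)
    refine ⟨h, hh, h⁻¹ * g, ?_, by simp⟩
    rw [Subgroup.mem_comap, map_mul, map_inv, QuotientGroup.mk'_apply _ g, ← e]
    simpa using hn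
  · rw [← index_map_mk' H.normalCore H.normalCore_le, hc.index_eq_card, hk']
  · rwa [Subgroup.relIndex_comap, map_comap_mk']
  · rw [← hnorm, Subgroup.normalizer_eq_top_iff]
    rw [hH, ← map_mk'_eq_bot_iff, map_comap_mk'] at h
    rw [h]
    infer_instance

/-- Let L ≤ H < G with L normal in G, H a maximal subgroup and G / L solvable. Let ϑ be an irreducible character of H whose restriction to L is irreducible and whose induction χ to G is irreducible. Then there is a normal subgroup M of G containing L such that the restriction of χ to M is not a natural-number multiple of a single irreducible character of M. -/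
theorem result {G : Type*} [Group G] [Fintype G] (L H : Subgroup G) [L.Normal] (hLH : L ≤ H) (hmax : IsCoatom H) (hsolv : Group.IsSolvable (G ⧸ L)) (ϑ : H → ℂ) (hϑ : Cfsg.IsIrrCharacter H ϑ) (hϑL : Cfsg.IsIrrCharacter L (fun x : L => ϑ ⟨(x : G), hLH x.2⟩)) (hind : Cfsg.IsIrrCharacter G (Cfsg.indFun H ϑ)) : ∃ M : Subgroup G, M.Normal ∧ L ≤ M ∧ ¬ ∃ (φ : M → ℂ) (e : ℕ), Cfsg.IsIrrCharacter M φ ∧ (fun m : M => Cfsg.indFun H ϑ m) = (e : ℂ) • φ := by
  classical
  by_contra hcon
  push Not at hcon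
  set χ := indFun H ϑ with hχ
  set C := H.normalCore
  have hCH : C ≤ H := H.normalCore_le
  have hLC : L ≤ C := Subgroup.normal_le_normalCore.mpr hLH
  have hϑc := isCharacter_of_isIrr hϑ
  have hχc := isCharacter_of_isIrr hind
  have hn0 : H.index ≠ 0 := H.index_ne_zero_of_finite
  have hirr : ∀ (M V : Subgroup G) (hV : V ≤ H), L ≤ M → L ≤ V →
      IsIrrCharacter (V.subgroupOf M) fun x => ϑ ⟨(x : M), hV x.2⟩ := fun M V hV hM hLV =>
    isIrr_of_comp_isIrr ((Subgroup.inclusion hM).codRestrict (V.subgroupOf M) fun l => hLV l.2)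
      (isCharacter_comp ((M.subtype.comp (V.subgroupOf M).subtype).codRestrict H
        fun x => hV x.2) hϑc) hϑL
  have hHϑ : classInner (fun h : H => χ h) ϑ = 1 := by
    rw [← classInner_indFun_right H ϑ (isClassFunction_of_isIrr hind), classInner_irr_self hind]
  have h1 : ∀ (x : G) (hx : x ∈ C), χ x = H.index * ϑ ⟨x, hCH hx⟩ := by
    obtain ⟨φ, e, hφ, he⟩ := hcon C inferInstance hLC
    have hφ' : IsIrrCharacter C fun x => ϑ ⟨x, hCH x.2⟩ :=
      isIrr_of_comp_isIrr (Subgroup.inclusion hLC) (isCharacter_res_le hCH hϑc) hϑL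
    obtain ⟨Ξ, hΞ, h⟩ := exists_eq_add_of_inner_ne_zero (isCharacter_restrict H hχc) hϑ
      (by rw [hHϑ]; exact one_ne_zero)
    obtain ⟨m, hm⟩ := exists_classInner_eq_nat (isCharacter_res_le hCH hΞ)
      (isCharacter_of_isIrr hφ')
    have h2 : (e : ℂ) • φ = (fun x : C => ϑ ⟨x, hCH x.2⟩) + fun x : C => Ξ ⟨x, hCH x.2⟩ := by
      rw [← he]
      exact funext fun x => congrFun h ⟨x, hCH x.2⟩
    have h3 := congrArg (classInner · fun x : C => ϑ ⟨x, hCH x.2⟩) h2
    simp only [classInner_smul_left, classInner_add_left, hm, classInner_irr_self hφ'] at h3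
    obtain rfl := irr_eq_of_classInner_ne_zero hφ hφ' fun h => by
      rw [h, mul_zero] at h3
      exact absurd h3 (by norm_cast; omega)
    have h4 : (H.index : ℂ) * ϑ 1 = e * ϑ 1 := (indFun_one H ϑ).symm.trans (congrFun he 1)
    intro x hx
    rw [mul_right_cancel₀ (irr_one_ne_zero hϑ) h4]
    exact congrFun he ⟨x, hx⟩
  by_cases hHC : H ≤ C
  · rw [show (fun h : H => χ h) = (H.index : ℂ) • ϑ from funext fun h => h1 h (hHC h.2),
      classInner_smul_left, classInner_irr_self hϑ, mul_one] at hHϑ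
    exact hmax.1 (Subgroup.index_eq_one.mp (by exact_mod_cast hHϑ))
  obtain ⟨p, q, K, M, hp, hq, hpq, hK, hM, hKM, hKH, hsup, ⟨j, hj⟩, ⟨k, hk⟩, hMH⟩ :=
    exists_layer L H hLH hmax hsolv hHC
  have hLK : L ≤ K := hLC.trans (hKH.ge.trans inf_le_left)
  have hres : ∀ N : Subgroup G, K ≤ N → classInner (fun x : N => χ x) (fun x : N => χ x) =
      classInner (fun x : H.subgroupOf N => ϑ ⟨(x : N), x.2⟩) fun x => χ (x : N) := by
    intro N hN
    rw [← classInner_indFun_left (H.subgroupOf N) _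
      (isClassFunction_restrict N (isClassFunction_of_isIrr hind))]
    congr 1
    exact indFun_comp H N.subtype (fun g => by
      obtain ⟨h, hh, k, hk, rfl⟩ := hsup g
      exact ⟨h, hh, ⟨k, hN hk⟩, rfl⟩) (isClassFunction_of_isIrr hϑ)
  obtain ⟨ψ, e, hψ, he⟩ := hcon K hK hLK
  obtain ⟨ξ, a, hξ, ha⟩ := hcon M hM (hLK.trans hKM)
  have h2 : e * e = H.index := by
    have := hres K le_rfl
    rw [he, show (fun x : H.subgroupOf K => χ (x : K)) =
      (H.index : ℂ) • fun x : H.subgroupOf K => ϑ ⟨(x : K), x.2⟩ from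
        funext fun x => h1 _ (hKH.le ⟨x.1.2, x.2⟩)] at this
    simp only [classInner_smul_left, classInner_smul_right, classInner_irr_self hψ,
      classInner_irr_self (hirr K H le_rfl hLK hLH), map_natCast, mul_one] at this
    exact_mod_cast this
  have h3 : a = e := by
    let ε := Subgroup.subgroupOfEquivOfLe hKM
    have hψ' := isIrr_comp_mulEquiv ε hψ
    have h4 : (a : ℂ) • (fun x : K.subgroupOf M => ξ x) = (e : ℂ) • fun x => ψ (ε x) :=
      funext fun x => (congrFun ha x).symm.trans (congrFun he (ε x))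
    have he0 : e ≠ 0 := by rintro rfl; omega
    obtain ⟨b, hb, hb'⟩ := exists_degree_eq_mul (K.subgroupOf M) hψ' hξ fun h => by
      have := congrArg (classInner · fun x => ψ (ε x)) h4
      simp only [classInner_smul_left, h, classInner_irr_self hψ', mul_zero, mul_one] at this
      exact he0 (by exact_mod_cast this.symm)
    have h5 := congrFun h4 1
    simp only [Pi.smul_apply, OneMemClass.coe_one, hb', smul_eq_mul, ← mul_assoc] at h5
    have h6 : a * b = e := by exact_mod_cast mul_right_cancel₀ (irr_one_ne_zero hψ') h5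
    have h7 : b = 1 := Nat.eq_one_of_dvd_coprimes
      (Nat.Coprime.pow j k ((Nat.coprime_primes hp hq).mpr hpq))
      (by rw [← hj, ← h2, ← h6]; exact Dvd.intro_left (a * b * a) (by ring)) (hk ▸ hb)
    rw [← h6, h7, mul_one]
  let F : G → M → ℂ := fun g m => extendByZero H ϑ (g * m * g⁻¹)
  have hsq : ∀ (V : Subgroup G) (hV : V ≤ H), L ≤ V →
      (∀ (m : M) (hm : (m : G) ∈ H), (m : G) ∉ V → ϑ ⟨m, hm⟩ = 0) →
      ∑ m, F 1 m * conj (F 1 m) = Nat.card (V.subgroupOf M) := by
    intro V hV hLV h0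
    have h4 : F 1 = extendByZero (V.subgroupOf M) fun x => ϑ ⟨(x : M), hV x.2⟩ := by
      funext m
      simp only [F, one_mul, inv_one, mul_one, extendByZero_eq_dite, Subgroup.mem_subgroupOf]
      split_ifs with h5 h6 h6
      · rfl
      · exact h0 m h5 h6
      · exact absurd (hV h6) h5
      · rfl
    have h5 := classInner_irr_self (hirr M V hV (hLK.trans hKM) hLV)
    rw [classInner_def, inv_mul_eq_one₀ natCard_ne_zero] at h5
    rw [h5, h4, sum_extendByZero_mul]
    simp only [extendByZero_coe]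
  have hA : ∀ g, ∑ m, F g m * conj (F g m) = Nat.card (H.subgroupOf M) := fun g => by
    rw [← hsq H le_rfl hLH fun m hm hm' => absurd hm hm']
    exact Fintype.sum_equiv (MulAut.conjNormal g : MulAut M).toEquiv _ _ fun m => by simp [F]
  have hB : ∑ g, ∑ m, F 1 m * conj (F g m) = Nat.card G * Nat.card (H.subgroupOf M) := by
    have h4 := hres M hKM
    rw [ha] at h4
    simp only [classInner_smul_left, classInner_smul_right, classInner_irr_self hξ, map_natCast,
      mul_one] at h4
    rw [← Nat.cast_mul, h3, h2, classInner_def, eq_inv_mul_iff_mul_eq₀ natCard_ne_zero,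
      ← sum_extendByZero_mul (H.subgroupOf M) _ fun m : M => conj (χ m)] at h4
    rw [sum_comm, ← H.card_mul_index, Nat.cast_mul, mul_assoc, mul_comm (H.index : ℂ), h4, mul_sum]
    refine sum_congr rfl fun m _ => ?_
    rw [← mul_sum, ← map_sum, hχ, indFun_apply', map_mul, map_inv₀, map_natCast, mul_left_comm,
      mul_inv_cancel_left₀ natCard_ne_zero]
    congr 1
    simp only [F, one_mul, inv_one, mul_one, extendByZero_eq_dite]
    rfl
  have hC : ∑ g, ∑ m, Complex.normSq (F g m - F 1 m) = 0 := by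
    have hB' := congrArg conj hB
    simp only [map_sum, map_mul, map_natCast, Complex.conj_conj] at hB'
    apply Complex.ofReal_injective
    simp only [Complex.ofReal_sum, ← Complex.mul_conj, map_sub, sub_mul, mul_sub, sum_sub_distrib,
      hA, hB, mul_comm (F _ _) (conj (F 1 _)), sum_const, card_univ, nsmul_eq_mul]
    simp only [mul_comm (conj (F 1 _)) (F 1 _), hA, hB', Nat.card_eq_fintype_card (α := G)]
    simp
  have hD : ∀ g m, F g m = F 1 m := fun g m => sub_eq_zero.mp (Complex.normSq_eq_zero.mp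
    ((sum_eq_zero_iff_of_nonneg fun _ _ => Complex.normSq_nonneg _).mp
      ((sum_eq_zero_iff_of_nonneg fun _ _ => sum_nonneg fun _ _ => Complex.normSq_nonneg _).mp hC
        g (mem_univ _)) m (mem_univ _)))
  have hE := hsq C hCH hLC fun m hm hm' => by
    obtain ⟨g, hg⟩ := not_forall.mp hm'
    have := hD g m
    simp only [F, one_mul, inv_one, mul_one, extendByZero_of_not_mem H ϑ hg,
      extendByZero_of_mem H ϑ hm] at this
    exact this.symm
  rw [hA] at hE
  have := Subgroup.eq_of_le_of_card_ge (Subgroup.subgroupOf_mono M hCH) (Nat.cast_injective hE).le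
  exact hMH fun x hx => this.ge (show (⟨x, hx.1⟩ : M) ∈ H.subgroupOf M from hx.2)

end Cfsg.Agent.S0890
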