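import Cfsg.Statements.S0889
import Cfsg.Agent.S0890
import Cfsg.Agent.Lib.Triple.Cover
import Cfsg.Agent.Lib.ChDeg.Avg

set_option autoImplicit false
open Cfsg

namespace Cfsg.Agent.S0889

open CfsgLib.Char CfsgLib.CharDeep CfsgLib.Berger CfsgLib.Triple CfsgLib.ChDeg Finset
open scoped ComplexConjugate

theorem isIrr_of_mul {G : Type*} [Group G] [Fintype G] {α β : G → ℂ} (hα : IsCharacter G α)
    (hβ : IsCharacter G β) (h : IsIrrCharacter G (α * β)) : IsIrrCharacter G α := by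
  have h0 : α 1 * β 1 ≠ 0 := irr_one_ne_zero h
  obtain ⟨ψ, hψ, h1⟩ := exists_irr_constituent hα (left_ne_zero_of_mul h0)
  obtain ⟨Ξ, hΞ, rfl⟩ := exists_eq_add_of_inner_ne_zero hα hψ h1
  have hA := isCharacter_mul (isCharacter_of_isIrr hψ) hβ
  have hB := isCharacter_mul hΞ hβ
  obtain ⟨a, ha⟩ := exists_classInner_eq_nat hA hA
  obtain ⟨b, hb⟩ := exists_classInner_eq_nat hA hB
  obtain ⟨c, hc⟩ := exists_classInner_eq_nat hB hA
  obtain ⟨d, hd⟩ := exists_classInner_eq_nat hB hB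
  have h2 := classInner_irr_self h
  rw [add_mul, classInner_add_left, classInner_add_right, classInner_add_right, ha, hb, hc,
    hd] at h2
  have h3 : a + b + (c + d) = 1 := by exact_mod_cast h2
  have ha0 : a ≠ 0 := by
    rintro rfl
    rw [Nat.cast_zero, classInner_self_eq_zero] at ha
    exact mul_ne_zero (irr_one_ne_zero hψ) (right_ne_zero_of_mul h0) (congrFun ha 1)
  rw [show d = 0 by omega, Nat.cast_zero, classInner_self_eq_zero] at hd
  rwa [char_eq_zero_of_one_eq_zero hΞ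
    ((mul_eq_zero.mp (congrFun hd 1)).resolve_right (right_ne_zero_of_mul h0)), add_zero]

/-- The fibre product used to make the inducing character irreducible on the core. -/
def fib {G Γ : Type*} [Group G] [Group Γ] (π : Γ →* G) (H K : Subgroup G) [hK : K.Normal] :
    Subgroup (Γ × Γ) where
  carrier := {w | π w.2 ∈ H ∧ π w.1 * (π w.2)⁻¹ ∈ K}
  one_mem' := by simp
  mul_mem' := by
    rintro ⟨x, y⟩ ⟨x', y'⟩ ⟨h1, h2⟩ ⟨h3, h4⟩
    refine ⟨by simpa using H.mul_mem h1 h3, ?_⟩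
    simpa [mul_assoc] using K.mul_mem (hK.conj_mem _ h4 (π x)) h2
  inv_mem' := by
    rintro ⟨x, y⟩ ⟨h1, h2⟩
    refine ⟨by simpa using h1, ?_⟩
    simpa [mul_assoc] using hK.conj_mem _ (K.inv_mem h2) (π x)⁻¹

theorem step {G : Type*} [Group G] [Fintype G] [Group.IsSolvable G] (L H K : Subgroup G)
    [L.Normal] [hK : K.Normal] (hmax : IsCoatom H) (hKH : K ⊓ H = L)
    (hsup : ∀ g, ∃ h ∈ H, ∃ k ∈ K, g = h * k) {ϑ : H → ℂ} (hϑ : IsIrrCharacter H ϑ)
    (hχ : IsIrrCharacter G (indFun H ϑ)) {φ : L → ℂ} {e : ℕ} (hφ : IsIrrCharacter L φ)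
    (he : (fun x : L => indFun H ϑ x) = (e : ℂ) • φ) :
    ∃ M T : Subgroup G, M.Normal ∧ L < M ∧ M ≤ T ∧ T ≠ ⊤ ∧
      ∃ η, IsCharacter T η ∧ indFun T η = indFun H ϑ := by
  classical
  have hLH : L ≤ H := hKH.ge.trans inf_le_right
  have hLK : L ≤ K := hKH.ge.trans inf_le_left
  have hϑc := isCharacter_of_isIrr hϑ
  have hχc := isCharacter_of_isIrr hχ
  have he0 : (e : ℂ) ≠ 0 := fun h => irr_one_ne_zero hχ (by simpa [h] using congrFun he 1)
  have hinv : ∀ (g : G) (n : L), φ (cj L g n) = φ n := fun g n => mul_left_cancel₀ he0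
    ((congrFun he _).symm.trans ((isClassFunction_of_isIrr hχ n g).trans (congrFun he n)))
  have hϑφ : classInner (fun x : L => ϑ ⟨x, hLH x.2⟩) φ ≠ 0 := by
    obtain ⟨φ', hφ', h⟩ := exists_irr_constituent (isCharacter_res_le hLH hϑc)
      (irr_one_ne_zero hϑ)
    obtain ⟨Ξ, hΞ, h2⟩ := exists_eq_add_of_inner_ne_zero (isCharacter_restrict H hχc) hϑ (by
      rw [← classInner_indFun_right H ϑ (isClassFunction_of_isIrr hχ), classInner_irr_self hχ]
      exact one_ne_zero)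
    obtain ⟨m, hm⟩ := exists_classInner_eq_nat (isCharacter_res_le hLH hΞ)
      (isCharacter_of_isIrr hφ')
    obtain ⟨m', hm'⟩ := exists_classInner_eq_nat (isCharacter_res_le hLH hϑc)
      (isCharacter_of_isIrr hφ')
    have h3 : (e : ℂ) • φ = (fun x : L => ϑ ⟨x, hLH x.2⟩) + fun x : L => Ξ ⟨x, hLH x.2⟩ := by
      rw [← he]
      exact funext fun x => congrFun h2 ⟨x, hLH x.2⟩
    have h4 := congrArg (classInner · φ') h3
    simp only [classInner_smul_left, classInner_add_left, hm, hm'] at h4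
    rwa [irr_eq_of_classInner_ne_zero hφ hφ' fun h' => h ?_]
    rw [h', mul_zero, ← Nat.cast_add, eq_comm, Nat.cast_eq_zero] at h4
    rw [hm', show m' = 0 by omega, Nat.cast_zero]
  have hϑL := clifford_invariant_le L H hLH hϑ hφ (fun g _ => funext fun n => hinv g n) hϑφ
  have hχϑ : ∀ (x : G) (hx : x ∈ L), indFun H ϑ x = H.index * ϑ ⟨x, hLH hx⟩ := by
    intro x hx
    have h1 := congrFun he 1
    have h2 : ϑ 1 = _ := congrFun hϑL 1
    have h3 := congrFun he ⟨x, hx⟩
    have h4 := congrFun hϑL ⟨x, hx⟩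
    simp only [OneMemClass.coe_one, indFun_one, Pi.smul_apply, smul_eq_mul] at h1 h2 h3 h4
    rw [h2, ← mul_assoc] at h1
    rw [h3, h4, ← mul_right_cancel₀ (irr_one_ne_zero hφ) h1, mul_assoc]
  obtain ⟨d, -, hd⟩ := exists_irr_one_eq_nat hφ
  obtain ⟨Γ, _, _, c, -, -⟩ := exists_cover L hφ hinv hd
  have := Fintype.ofFinite Γ
  have hE := isCharacter_of_isIrr c.irr
  have hιH : ∀ n, c.ι n ∈ H.comap c.π := fun n => by
    rw [Subgroup.mem_comap, c.π_ι]; exact hLH n.2
  obtain ⟨β, hβ, hβ1, hβE⟩ := gallagher_surj (c.ι.range.subgroupOf (H.comap c.π))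
    (isCharacter_restrict (H.comap c.π) hE)
    (c.isIrr_res hφ ((H.comap c.π).subtype.comp (Subgroup.subtype _))
      (Subtype.val_injective.comp Subtype.val_injective) (by
        rw [MonoidHom.range_comp, Subgroup.range_subtype, Subgroup.map_subgroupOf_eq_of_le]
        rintro _ ⟨n, rfl⟩; exact hιH n))
    (isIrr_comp_of_surjective (c.π.subgroupComap H)
      (c.π.subgroupComap_surjective_of_surjective H c.surj) hϑ) (by
      let j : L ≃* c.ι.range.subgroupOf (H.comap c.π) := MulEquiv.ofBijective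
        ((c.ι.codRestrict _ hιH).codRestrict (c.ι.range.subgroupOf (H.comap c.π)) fun n => ⟨n, rfl⟩)
        ⟨fun a b h => c.ι_injective (congrArg (fun x => x.1.1) h),
          fun ⟨⟨_, _⟩, n, rfl⟩ => ⟨n, rfl⟩⟩
      rw [← classInner_comp_mulEquiv j]
      convert hϑφ using 2
      · exact funext fun n => congrArg ϑ (Subtype.ext (c.π_ι n))
      · exact funext fun n => c.E_ι n)
  have hβc := isCharacter_of_isIrr hβ
  have hβz : ∀ (x y : H.comap c.π) (z : c.π.ker) (n : L), (x : Γ) = z * c.ι n * y →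
      β x = (c.lam z)⁻¹ * β y := by
    intro x y z n h
    have hz : (z : Γ) ∈ H.comap c.π := by rw [Subgroup.mem_comap, z.2]; exact H.one_mem
    have h1 : x = ⟨z, hz⟩ * (⟨c.ι n, hιH n⟩ * y) := Subtype.ext (h.trans (mul_assoc _ _ _))
    have h2 := congrFun hβE ⟨z, hz⟩
    have h3 := congrFun hβE 1
    have h4 := c.E_mul z 1
    have h5 : c.π.subgroupComap H ⟨z, hz⟩ = 1 := Subtype.ext z.2
    simp only [Pi.mul_apply, map_one, h5, mul_one, OneMemClass.coe_one] at h2 h3 h4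
    rw [h4, h3, ← mul_assoc] at h2
    rw [h1, char_mul_of_norm_eq hβc (norm_irr_of_mem_center hβ (Subgroup.mem_center_iff.mpr
      fun g => Subtype.ext (Subgroup.mem_center_iff.mp (c.central z.2) g))),
      char_mul_of_eq_one hβc (hβ1 _ ⟨n, rfl⟩),
      mul_right_cancel₀ (irr_one_ne_zero c.irr) h2]
    have : β ⟨z, hz⟩ ≠ 0 := fun h => by
      rw [h, zero_mul, zero_mul] at h2
      exact irr_one_ne_zero hϑ (h3.trans h2)
    push_cast
    field_simp
  let A := fib c.π H K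
  let σ : A →* G := c.π.comp ((MonoidHom.fst Γ Γ).comp A.subtype)
  let τ : A →* H.comap c.π := ((MonoidHom.snd Γ Γ).comp A.subtype).codRestrict _ fun w => w.2.1
  have hσ : Function.Surjective σ := by
    intro g
    obtain ⟨h, hh, k, hk, rfl⟩ := hsup g
    obtain ⟨x, hx⟩ := c.surj (h * k)
    obtain ⟨y, rfl⟩ := c.surj h
    exact ⟨⟨(x, y), hh, by rw [hx]; exact hK.conj_mem k hk _⟩, hx⟩
  have hz : ∀ w : H.comap σ, ∃ (z : c.π.ker) (n : L), w.1.1.1 = z * c.ι n * w.1.1.2 := by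
    intro w
    obtain ⟨z, hz, n, h⟩ := c.mem_comap_iff.mp (show c.π (w.1.1.1 * w.1.1.2⁻¹) ∈ L by
      rw [map_mul, map_inv]
      exact hKH.le ⟨w.1.2.2, H.mul_mem w.2 (H.inv_mem w.1.2.1)⟩)
    exact ⟨⟨z, hz⟩, n, mul_inv_eq_iff_eq_mul.mp h⟩
  choose z n hzn using hz
  let μ : H.comap σ →* ℂˣ := MonoidHom.mk' (fun w => (c.lam (z w))⁻¹) fun a b => by
    rw [← mul_inv, ← map_mul]
    have h1 : (z (a * b) : Γ) * c.ι (n (a * b)) =
        z a * z b * c.ι (n a * cj L (c.π a.1.1.2) (n b)) := by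
      have h2 : a.1.1.1 * b.1.1.1 = _ * (a.1.1.2 * b.1.1.2) := hzn (a * b)
      rw [hzn a, hzn b] at h2
      rw [map_mul, ← c.conj_ι, ← mul_left_inj (a.1.1.2 * b.1.1.2), ← h2]
      have h3 := Subgroup.mem_center_iff.mp (c.central (z b).2) (c.ι (n a) * a.1.1.2)
      calc _ = z a * (c.ι (n a) * a.1.1.2 * z b) * (c.ι (n b) * b.1.1.2) := by group
        _ = _ := by rw [h3]; group
    have h2 := congrArg c.π h1
    simp only [map_mul c.π, c.π_ι, MonoidHom.mem_ker.mp (z _).2, one_mul] at h2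
    rw [Subtype.ext h2, mul_left_inj] at h1
    rw [show z (a * b) = z a * z b from Subtype.ext h1]
  let ϑ' : H.comap σ → ℂ := (fun w : H.comap σ => c.E w.1.1.1) * fun w => (μ w : ℂ)
  have hϑ'c : IsCharacter _ ϑ' := isCharacter_mul
    (isCharacter_comp ((MonoidHom.fst Γ Γ).comp (A.subtype.comp (H.comap σ).subtype)) hE)
    (isCharacter_of_isIrr (isIrr_unitsHom μ))
  have hγ : IsCharacter A fun w => β (τ w) := isCharacter_comp τ hβc
  have hϑϑ' : ∀ w : H.comap σ, ϑ ⟨σ w, w.2⟩ = ϑ' w * β (τ w) := by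
    intro w
    have h1 := congrFun hβE ⟨w.1.1.1, w.2⟩
    rw [Pi.mul_apply, hβz _ (τ w) (z w) (n w) (hzn w)] at h1
    refine h1.trans ?_
    simp only [ϑ', μ, Pi.mul_apply, MonoidHom.mk'_apply]
    ring
  have hχχ' : (fun w => indFun H ϑ (σ w)) = indFun (H.comap σ) ϑ' * fun w => β (τ w) := by
    rw [indFun_comp_surj H σ hσ (isClassFunction_of_isIrr hϑ), funext hϑϑ',
      indFun_mul_res _ _ (isClassFunction_of_isCharacter hγ)]
  have hχσ := isIrr_comp_of_surjective σ hσ hχ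
  have hχ' : IsIrrCharacter A (indFun (H.comap σ) ϑ') :=
    isIrr_of_mul (isCharacter_indFun _ hϑ'c) hγ (hχχ' ▸ hχσ)
  have hLH' : L.comap σ ≤ H.comap σ := Subgroup.comap_mono hLH
  have hϑ'L : IsIrrCharacter (L.comap σ) fun x => ϑ' ⟨x, hLH' x.2⟩ := by
    let j : L →* L.comap σ := ((c.ι.prod 1).codRestrict A fun n =>
      And.intro (by simp) (by simpa [c.π_ι] using hLK n.2)).codRestrict (L.comap σ) fun n => by
        change c.π (c.ι n) ∈ L
        rw [c.π_ι]; exact n.2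
    refine isIrr_of_comp_isIrr j (isCharacter_res_le hLH' hϑ'c) ?_
    have := isIrr_mul_of_one_eq_one hφ (isCharacter_of_isIrr
      (isIrr_unitsHom (μ.comp ((Subgroup.inclusion hLH').comp j)))) (by simp)
    convert this using 1
    exact funext fun n => congrArg (· * _) (c.E_ι n)
  obtain ⟨M, hM, hLM, hMn⟩ := Cfsg.Agent.S0890.result (L.comap σ) (H.comap σ) hLH'
    (Subgroup.isCoatom_comap_of_surjective hσ hmax)
    (Group.isSolvable_of_isSolvable_injective (f := QuotientGroup.map (L.comap σ) L σ le_rfl) (by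
      rw [← MonoidHom.ker_eq_bot_iff, QuotientGroup.ker_map, QuotientGroup.map_mk'_self])) ϑ'
    (isIrr_of_isIrr_indFun _ hϑ'c hχ') hϑ'L hχ'
  obtain ⟨ρ, hρ, hρ'⟩ := exists_irr_constituent
    (isCharacter_restrict M (isCharacter_of_isIrr hχ')) (irr_one_ne_zero hχ')
  have hkerL : σ.ker ≤ L.comap σ := MonoidHom.ker_le_comap σ L
  have hMT := le_inertia M (isClassFunction_of_isIrr hρ)
  have hT := Subgroup.comap_map_eq_self (hkerL.trans (hLM.trans hMT))
  obtain ⟨η, hη, hη', -⟩ := clifford_corr M _ (hMT.trans hT.ge) hρ hT hχ' hρ'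
  refine ⟨M.map σ, (inertia M ρ).map σ, hM.map σ hσ, lt_of_le_of_ne ?_ fun h => hMn ?_,
    Subgroup.map_mono hMT, fun h => hMn ?_, ?_⟩
  · exact (Subgroup.map_comap_eq_self_of_surjective hσ L).ge.trans (Subgroup.map_mono hLM)
  · obtain rfl : L.comap σ = M := by rw [h, Subgroup.comap_map_eq_self (hkerL.trans hLM)]
    refine ⟨_, H.index, hϑ'L, funext fun w => ?_⟩
    obtain ⟨z, hz, n, h⟩ := c.mem_comap_iff.mp (show c.π w.1.1.2 ∈ L from
      hKH.le ⟨by simpa [σ] using K.mul_mem (K.inv_mem w.1.2.2) (hLK w.2), w.1.2.1⟩)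
    have h1 : β (τ w) ≠ 0 := by
      rw [hβz _ 1 ⟨z, hz⟩ n (h.trans (mul_one _).symm)]
      exact mul_ne_zero (Units.ne_zero _) (irr_one_ne_zero hβ)
    apply mul_right_cancel₀ h1
    rw [Pi.smul_apply, smul_eq_mul, mul_assoc, ← hϑϑ' ⟨w, hLH' w.2⟩, ← hχϑ _ w.2]
    exact (congrFun hχχ' w).symm
  · rw [h, Subgroup.comap_top] at hT
    obtain ⟨m, hm⟩ := exists_classInner_eq_nat
      (isCharacter_restrict M (isCharacter_of_isIrr hχ')) (isCharacter_of_isIrr hρ)
    exact ⟨ρ, m, hρ, hm ▸ clifford_invariant M hχ' hρ hρ' fun g => hT.le (Subgroup.mem_top g)⟩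
  · have hθc := isCharacter_mul (isCharacter_of_isIrr hη) (isCharacter_restrict _ hγ)
    have hθ : indFun _ (η * fun t : ((inertia M ρ).map σ).comap σ => β (τ t)) = fun w => indFun H ϑ (σ w) := by
      rw [hχχ', ← hη', ← indFun_mul_res _ _ (isClassFunction_of_isCharacter hγ)]
      rfl
    obtain ⟨θ, hθ1, hθ2⟩ := exists_char_comp_eq (σ.subgroupComap _)
      (σ.subgroupComap_surjective_of_surjective _ hσ) hθc fun g hg =>
        (mem_cker hθc).mp (cker_le_of_inner_ne_zero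
          (isCharacter_restrict _ (isCharacter_of_isIrr hχσ))
          (isIrr_of_isIrr_indFun _ hθc (hθ ▸ hχσ)) (by
            rw [← classInner_indFun_right _ _ (isClassFunction_of_isIrr hχσ), hθ,
              classInner_irr_self hχσ]
            exact one_ne_zero)
          ((mem_cker (isCharacter_restrict _ (isCharacter_of_isIrr hχσ))).mpr (by
            rw [show σ g = 1 from congrArg Subtype.val hg]; simp)))
    refine ⟨θ, hθ1, funext fun g => ?_⟩
    obtain ⟨w, rfl⟩ := hσ g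
    rw [← congrFun hθ w, ← funext hθ2]
    exact congrFun (indFun_comp_surj _ σ hσ (isClassFunction_of_isCharacter hθ1)) w

/-- Let G be a finite solvable group and χ an irreducible character of G such that for every normal subgroup N the restriction of χ to N is a natural-number multiple of one irreducible character of N. Then χ is not induced from a character of any proper subgroup. -/
theorem result {G : Type*} [Group G] [Fintype G] [Group.IsSolvable G] (χ : G → ℂ) (hχ : Cfsg.IsIrrCharacter G χ) (hqp : ∀ (N : Subgroup G), N.Normal → ∃ (ϑ : N → ℂ) (e : ℕ), Cfsg.IsIrrCharacter N ϑ ∧ (fun n : N => χ n) = (e : ℂ) • ϑ) (K : Subgroup G) (hK : K ≠ ⊤) (ψ : K → ℂ) (hψ : Cfsg.IsCharacter K ψ) : Cfsg.indFun K ψ ≠ χ := by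
  classical
  suffices h : ∀ L : Subgroup G, L.Normal → ∀ H : Subgroup G, H ≠ ⊤ → L ≤ H → ∀ ψ,
      IsCharacter H ψ → indFun H ψ ≠ χ from h ⊥ inferInstance K hK bot_le ψ hψ
  intro L
  induction L using WellFoundedGT.induction with
  | ind L ih =>
  intro hL H₀ hH₀ hLH ψ hψ hind
  obtain ⟨H, hH, hH'⟩ := (eq_top_or_exists_le_coatom H₀).resolve_left hH₀
  have hϑ := isCharacter_indFun (H₀.subgroupOf H) (isCharacter_comp
    ((H.subtype.comp (H₀.subgroupOf H).subtype).codRestrict H₀ fun x => x.2) hψ)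
  have hind' := (indFun_subgroupOf H₀ H hH' ψ).trans hind
  rcases (Subgroup.normal_le_normalCore.mpr (hLH.trans hH')).lt_or_eq with h | rfl
  · exact ih _ h inferInstance H hH.1 H.normalCore_le _ hϑ hind'
  obtain ⟨K, hK, hKH, hsup⟩ : ∃ K : Subgroup G, K.Normal ∧ K ⊓ H = H.normalCore ∧
      ∀ g, ∃ h ∈ H, ∃ k ∈ K, g = h * k := by
    by_cases h : H ≤ H.normalCore
    · exact ⟨⊤, inferInstance, by rw [top_inf_eq]; exact le_antisymm h H.normalCore_le,
        fun g => ⟨1, H.one_mem, g, trivial, (one_mul g).symm⟩⟩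
    · obtain ⟨-, -, K, -, -, -, -, hK, -, -, h1, h2, -⟩ :=
        Cfsg.Agent.S0890.exists_layer H.normalCore H H.normalCore_le hH inferInstance h
      exact ⟨K, hK, h1, h2⟩
  obtain ⟨φ, e, hφ, he⟩ := hqp H.normalCore hL
  subst hind'
  obtain ⟨M, T, hM, hLM, hMT, hT, η, hη, h⟩ :=
    step _ H K hH hKH hsup (isIrr_of_isIrr_indFun H hϑ hχ) hχ hφ he
  exact ih M hLM hM T hT hMT η hη h

end Cfsg.Agent.S0889
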