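import Cfsg.Statements.S0891
import Mathlib
import Cfsg.Agent.Lib.AltCover.Spin

set_option autoImplicit false
open Cfsg

namespace Cfsg.Agent.S0891

open CfsgLib.AltCover


/-- For every n ≥ 4 there are a finite group Γ and a central element z of Γ of order 2 lying in the commutator subgroup of Γ such that the quotient of Γ by the (normal) subgroup generated by z is isomorphic to the alternating group on n letters. -/
theorem result (n : ℕ) (hn : 4 ≤ n) : ∃ (Γ : Type) (_ : Group Γ) (_ : Finite Γ) (z : Γ) (hz : z ∈ Subgroup.center Γ), orderOf z = 2 ∧ z ∈ commutator Γ ∧ ∃ _ : (Subgroup.zpowers z).Normal, Nonempty (Γ ⧸ Subgroup.zpowers z ≃* alternatingGroup (Fin n)) := by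
  refine ⟨Spin (Fin n), inferInstance, inferInstance, spinZ _, ?_, orderOf_spinZ, ?_, ?_⟩
  · exact spin_central.central (by rw [spin_ker]; exact Subgroup.mem_zpowers _)
  · exact (spin_stem (by simpa using hn)).2.2 (by rw [spin_ker]; exact Subgroup.mem_zpowers _)
  · have h := spin_ker (α := Fin n)
    haveI hN : (Subgroup.zpowers (spinZ (Fin n))).Normal := h ▸ MonoidHom.normal_ker _
    exact ⟨hN, ⟨(QuotientGroup.quotientMulEquivOfEq h.symm).trans
      (QuotientGroup.quotientKerEquivOfSurjective _ spin_central.surj)⟩⟩

end Cfsg.Agent.S0891
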