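import Cfsg.Statements.S0893
import Cfsg.Agent.Lib.CharDeep.Extraspecial
import Cfsg.Agent.Lib.Char.Monomial

set_option autoImplicit false
open Cfsg

namespace Cfsg.Agent.S0893

/-- Let P be an extraspecial p-group of order p ^ (2 * n + 1), A an abelian subgroup of order p ^ (n + 1), and λ a character of A of degree 1 that is not identically 1 on the elements of A lying in the centre of P. Then the function induced from λ to P is an irreducible character of P and vanishes at every element outside the centre. -/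
theorem result {P : Type*} [Group P] [Fintype P] (p n : ℕ) [Fact p.Prime] (hP : Cfsg.IsExtraspecial p P) (hcard : Nat.card P = p ^ (2 * n + 1)) (A : Subgroup P) (hab : ∀ a ∈ A, ∀ b ∈ A, a * b = b * a) (hA : Nat.card A = p ^ (n + 1)) (lam : A → ℂ) (hlam : Cfsg.IsCharacter A lam ∧ lam 1 = 1) (hZ : ∃ a : A, (a : P) ∈ Subgroup.center P ∧ lam a ≠ 1) : Cfsg.IsIrrCharacter P (Cfsg.indFun A lam) ∧ ∀ x : P, x ∉ Subgroup.center P → Cfsg.indFun A lam x = 0 := by
  classical
  open CfsgLib.CharDeep CfsgLib.Char Finset in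
  have hp : p.Prime := Fact.out
  obtain ⟨a, haZ, ha⟩ := hZ
  have hlam1 := hlam.2
  have hZA : Subgroup.center P ≤ A := by
    by_contra h
    have : a = 1 := Subtype.ext (eq_bot_of_card_prime hp hP.2 h haZ a.2)
    exact ha (this ▸ hlam1)
  have hmul : ∀ z (hz : z ∈ Subgroup.center P) x,
      indFun A lam (z * x) = lam ⟨z, hZA hz⟩ * indFun A lam x := by
    intro z hz x
    rw [indFun_apply, indFun_apply, mul_left_comm, mul_sum (a := lam ⟨z, hZA hz⟩)]
    congr 1
    refine sum_congr rfl fun y _ => ?_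
    have h1 : y⁻¹ * (z * x) * y = z * (y⁻¹ * x * y) := by
      rw [← mul_assoc, Subgroup.mem_center_iff.mp hz y⁻¹]; group
    rw [h1]
    by_cases h : y⁻¹ * x * y ∈ A
    · rw [extendByZero_of_mem _ _ h, extendByZero_of_mem _ _ (A.mul_mem (hZA hz) h),
        ← char_mul_of_one_eq_one hlam.1 hlam1]
      rfl
    · rw [extendByZero_of_not_mem _ _ h, extendByZero_of_not_mem _ _
        (fun h' => h ((A.mul_mem_cancel_left (hZA hz)).mp h')), mul_zero]
  have hvan : ∀ x : P, x ∉ Subgroup.center P → Cfsg.indFun A lam x = 0 := by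
    intro x hx
    refine eq_zero_of_not_mem_center hP.1.2.2.le (isClassFunction_indFun _ _)
      (fun z hz hz1 => ⟨_, fun h => hz1 ?_, hmul z hz⟩) hx
    refine eq_bot_of_card_prime hp hP.2 (K := (charKer lam).map A.subtype) (fun h => ha ?_) hz
      ⟨⟨z, hZA hz⟩, (mem_charKer hlam.1).mpr (h.trans hlam1.symm), rfl⟩
    obtain ⟨b, hb, hb'⟩ := h haZ
    rw [← Subtype.ext hb', (mem_charKer hlam.1).mp hb, hlam1]
  refine ⟨isIrr_of_inner_self_eq_one (isCharacter_indFun _ hlam.1) ?_, hvan⟩
  have hidx : A.index = p ^ n := by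
    have := A.card_mul_index
    rw [hA, hcard, show 2 * n + 1 = n + 1 + n by ring, pow_add _ (n + 1)] at this
    exact Nat.eq_of_mul_eq_mul_left (pow_pos hp.pos _) this
  rw [classInner_self_of_vanish _ hvan (fun z hz => by
    have := hmul z hz 1
    rw [mul_one] at this
    rw [this, norm_mul, norm_eq_one_of_linear hlam.1 hlam1, one_mul]), indFun_one, hidx, hlam1,
    hcard, hP.2]
  have h0 : (p : ℂ) ≠ 0 := by exact_mod_cast hp.ne_zero
  simp only [mul_one, Complex.norm_natCast, Complex.ofReal_natCast]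
  push_cast
  field_simp
  ring

end Cfsg.Agent.S0893
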