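import Cfsg.Statements.S0894
import Cfsg.Agent.Lib.CharDeep.Extraspecial

set_option autoImplicit false
open Cfsg

namespace Cfsg.Agent.S0894

/-- Let P be an extraspecial p-group of order p ^ (2 * n + 1). Then every irreducible character of P has degree 1 or p ^ n, and exactly p - 1 of them have degree p ^ n. -/
theorem result {P : Type*} [Group P] [Finite P] (p n : ℕ) [Fact p.Prime] (hP : Cfsg.IsExtraspecial p P) (hcard : Nat.card P = p ^ (2 * n + 1)) : (∀ χ : Cfsg.IrrCharacter P, (χ : P → ℂ) 1 = 1 ∨ (χ : P → ℂ) 1 = (p : ℂ) ^ n) ∧ Nat.card {χ : Cfsg.IrrCharacter P // (χ : P → ℂ) 1 = (p : ℂ) ^ n} = p - 1 := by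
  classical
  open CfsgLib.CharDeep CfsgLib.Char Finset in
  have := Fintype.ofFinite P
  have hp : p.Prime := Fact.out
  have hdeg : ∀ χ : Cfsg.IrrCharacter P, (χ : P → ℂ) 1 = 1 ∨ (χ : P → ℂ) 1 = (p : ℂ) ^ n :=
    fun χ => or_iff_not_imp_left.mpr (extraspecial_irr_degree hp hP hcard χ.2)
  refine ⟨hdeg, ?_⟩
  have hidx : (commutator P).index = p ^ (2 * n) := by
    have := (commutator P).card_mul_index
    rw [hP.1.2.2, hP.2, hcard, pow_succ'] at this
    rw [hP.1.2.2]
    exact Nat.eq_of_mul_eq_mul_left hp.pos this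
  have hn : n ≠ 0 := by
    rintro rfl
    have h1 : commutator P = ⊤ := Subgroup.index_eq_one.mp (by simpa using hidx)
    have h2 : commutator P = ⊥ := by
      rw [commutator_eq_bot_iff_center_eq_top, ← hP.1.2.2, h1]
    have := hP.2
    rw [← hP.1.2.2, h2, Subgroup.card_bot] at this
    exact hp.one_lt.ne this
  have hne : (p : ℂ) ^ n ≠ 1 := by
    have := (Nat.one_lt_pow hn hp.one_lt).ne'
    exact_mod_cast this
  have h1 := sum_irr_one_sq (G := P)
  have h2 := card_linear_irr (G := P)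
  rw [Nat.card_eq_fintype_card, Fintype.card_subtype, hidx] at h2
  rw [← sum_filter_add_sum_filter_not univ (fun χ : IrrCharacter P => (χ : P → ℂ) 1 = 1),
    sum_congr rfl (g := fun _ => 1) (fun χ hχ => by rw [(mem_filter.mp hχ).2, one_pow]),
    sum_const, sum_congr rfl (g := fun _ => ((p : ℂ) ^ n) ^ 2)
      (fun χ hχ => by rw [(hdeg χ).resolve_left (mem_filter.mp hχ).2]), sum_const, h2,
    hcard] at h1
  rw [Nat.card_eq_fintype_card, Fintype.card_subtype,
    filter_congr (q := fun χ : IrrCharacter P => ¬ (χ : P → ℂ) 1 = 1)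
      (fun χ _ => ⟨fun h h' => hne (h.symm.trans h'), (hdeg χ).resolve_left⟩)]
  set k := (univ.filter fun χ : IrrCharacter P => ¬ (χ : P → ℂ) 1 = 1).card
  have h3 : p ^ (2 * n) * (1 + k) = p ^ (2 * n) * p := by
    have : (p : ℂ) ^ (2 * n) * (1 + k) = p ^ (2 * n) * p := by
      simp only [nsmul_eq_mul] at h1
      push_cast at h1
      linear_combination h1
    exact_mod_cast this
  have := Nat.eq_of_mul_eq_mul_left (pow_pos hp.pos _) h3
  omega

end Cfsg.Agent.S0894
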