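import Cfsg.Statements.S0896
import Cfsg.Agent.Lib.Brauer.PiSplit
import Cfsg.Agent.Lib.Glaub.PGroup
import Cfsg.Agent.Lib.Core.Basic

set_option autoImplicit false
open scoped ComplexConjugate
open Cfsg

namespace Cfsg.Agent.S0896

open CfsgLib.Brauer CfsgLib.Char CfsgLib.Glaub Finset

theorem sum_inf {G : Type*} [Group G] [Fintype G] (E N : Subgroup G) [Fintype E]
    [Fintype ↥(E ⊓ N)] (ψ : E → ℂ) (θ : N → ℂ) :
    ∑ x : E, ψ x * extendByZero N θ x = ∑ d : ↥(E ⊓ N), ψ ⟨d, d.2.1⟩ * θ ⟨d, d.2.2⟩ := by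
  classical
  symm
  refine Finset.sum_of_injOn (fun d : ↥(E ⊓ N) => (⟨d, d.2.1⟩ : E))
    (fun d _ d' _ h => Subtype.ext (congrArg (fun x : E => (x : G)) h)) (by simp) ?_ ?_
  · intro x _ hx
    rw [extendByZero_of_not_mem _ _ (fun h => hx ⟨⟨x, x.2, h⟩, by simp, rfl⟩), mul_zero]
  · intro d _
    rw [extendByZero_of_mem _ _ d.2.2]

theorem exists_not_dvd {G : Type*} [Group G] [Fintype G] (p : ℕ) (hp : p.Prime) (N : Subgroup G)
    [hN : N.Normal] (hind : ∃ k : ℕ, N.index = p ^ k) (ϑ : N → ℂ) (hϑ : IsIrrCharacter N ϑ)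
    (hinv : ∀ (g : G) (n : N), ϑ ⟨g * n * g⁻¹, hN.conj_mem (n : G) n.2 g⟩ = ϑ n) :
    ∃ (E : Subgroup G) (β : E →* ℂˣ) (_ : Fintype ↥(E ⊓ N)) (m : ℕ), IsElementary p E ∧
      E ⊔ N = ⊤ ∧ ¬ p ∣ m ∧ classInner (fun d : ↥(E ⊓ N) => β ⟨d, d.2.1⟩ * ϑ ⟨d, d.2.2⟩)
        (fun d => ϑ ⟨d, d.2.2⟩) = m := by
  classical
  by_contra hcon
  push Not at hcon
  set F := extendByZero N (fun n => ϑ n * conj (ϑ n)) with hF
  have hFc : IsClassFunction G F := by
    intro g h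
    by_cases hg : g ∈ N
    · rw [hF, extendByZero_of_mem _ _ hg, extendByZero_of_mem _ _ (hN.conj_mem g hg h)]
      simp only [hinv h ⟨g, hg⟩]
    · rw [hF, extendByZero_of_not_mem _ _ hg, extendByZero_of_not_mem _ _
        (fun h' => hg (by simpa [mul_assoc] using hN.conj_mem _ h' h⁻¹))]
  have hN0 : (Nat.card N : ℂ) ≠ 0 := natCard_ne_zero
  have key : ∀ f ∈ elemSpan p G, ∃ n : ℤ, (Nat.card N : ℂ)⁻¹ * ∑ g, f g * F g = p * n := by
    intro f hf
    induction hf using AddSubgroup.closure_induction with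
    | mem f hf =>
      obtain ⟨E, hE, β, rfl⟩ := hf
      have hϑD := isCharacter_comp (Subgroup.inclusion (inf_le_right : E ⊓ N ≤ N))
        (isCharacter_of_isIrr hϑ)
      obtain ⟨m, hm⟩ := exists_classInner_eq_nat (isCharacter_mul (isCharacter_comp
        (Subgroup.inclusion (inf_le_left : E ⊓ N ≤ E)) (isCharacter_of_isIrr (isIrr_unitsHom β)))
        hϑD) hϑD
      have h1 : p ∣ (E ⊔ N).index * m := by
        by_cases h : E ⊔ N = ⊤
        · by_contra h'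
          exact hcon E β _ m hE h (fun h'' => h' (h''.mul_left _)) hm
        · obtain ⟨k, hk⟩ := hind
          obtain ⟨j, -, hj⟩ := (Nat.dvd_prime_pow hp).mp
            (hk ▸ Subgroup.index_dvd_of_le (le_sup_right : N ≤ E ⊔ N))
          refine Dvd.dvd.mul_right (hj ▸ dvd_pow_self p ?_) _
          rintro rfl
          exact h (Subgroup.index_eq_one.mp hj)
      obtain ⟨c, hc⟩ := h1
      refine ⟨c, ?_⟩
      have h2 := congrArg (Nat.cast : ℕ → ℂ)
        (CfsgLib.Core.card_sup_mul_card_inf_of_normal E N)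
      have h3 := congrArg ((Nat.card ↥(E ⊓ N) : ℂ) * ·) hm
      simp only [card_mul_classInner] at h3
      rw [sum_indFun_mul _ _ hFc, hF, sum_inf, Int.cast_natCast, ← Nat.cast_mul, ← hc,
        Nat.cast_mul, natCast_index_eq, natCast_index_eq]
      simp only [← mul_assoc]
      erw [h3]
      have hE0 : (Nat.card E : ℂ) ≠ 0 := natCard_ne_zero
      have hEN0 : (Nat.card ↥(E ⊔ N) : ℂ) ≠ 0 := natCard_ne_zero
      push_cast at h2
      field_simp
      linear_combination (m : ℂ) * h2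
    | zero => exact ⟨0, by simp⟩
    | add f f' _ _ h1 h2 =>
      obtain ⟨n, hn⟩ := h1
      obtain ⟨n', hn'⟩ := h2
      exact ⟨n + n', by simp only [Pi.add_apply, add_mul, sum_add_distrib, mul_add, hn, hn', Int.cast_add]⟩
    | neg f _ h =>
      obtain ⟨n, hn⟩ := h
      exact ⟨-n, by simp only [Pi.neg_apply, neg_mul, sum_neg_distrib, mul_neg, hn, Int.cast_neg]⟩
  obtain ⟨m, hm, hm'⟩ := brauer_local (G := G) hp
  obtain ⟨n, hn⟩ := key _ hm'
  rw [← mul_sum, hF, sum_extendByZero, mul_left_comm, ← classInner_def, classInner_irr_self hϑ,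
    mul_one] at hn
  exact hm (Int.natCast_dvd_natCast.mp ⟨n, by exact_mod_cast hn⟩)

/-- Let N be a normal subgroup of the finite group G with the index of N a power of the prime p, and ϑ an irreducible character of N invariant under conjugation by G. Then there are a p-elementary subgroup E of G with E ⊔ N = ⊤ and an irreducible character φ of the subgroup E ⊓ N, invariant under conjugation by E, such that the inner product of the restriction of ϑ to E ⊓ N with φ is an integer not divisible by p. -/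
theorem result {G : Type*} [Group G] [Fintype G] (p : ℕ) (hp : p.Prime) (N : Subgroup G) [hN : N.Normal] (hind : ∃ k : ℕ, N.index = p ^ k) (ϑ : N → ℂ) (hϑ : Cfsg.IsIrrCharacter N ϑ) (hinv : ∀ (g : G) (n : N), ϑ ⟨g * n * g⁻¹, hN.conj_mem (n : G) n.2 g⟩ = ϑ n) : ∃ (E : Subgroup G) (φ : ↥(E ⊓ N) → ℂ), Cfsg.IsElementary p E ∧ E ⊔ N = ⊤ ∧ Cfsg.IsIrrCharacter ↥(E ⊓ N) φ ∧ (∀ (g : G) (hg : g ∈ E) (x : ↥(E ⊓ N)), φ ⟨g * x * g⁻¹, ⟨(E.mul_mem (E.mul_mem hg x.2.1) (E.inv_mem hg)), hN.conj_mem (x : G) x.2.2 g⟩⟩ = φ x) ∧ ∃ m : ℕ, ¬ p ∣ m ∧ (Nat.card ↥(E ⊓ N) : ℂ)⁻¹ * ∑ᶠ x : ↥(E ⊓ N), ϑ ⟨(x : G), x.2.2⟩ * conj (φ x) = (m : ℂ) := by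
  classical
  have := Fact.mk hp
  obtain ⟨E, β, _, m, hE, hEN, hm, hI⟩ := exists_not_dvd p hp N hind ϑ hϑ hinv
  have := isNilpotent_of_isElementary hp hE
  have hmn := (Nat.ordProj_mul_ordCompl_eq_self (Nat.card E) p).symm.dvd
  have hcop := Nat.coprime_ordCompl hp (Nat.card_pos (α := E)).ne'
  obtain ⟨a, b, hs⟩ := exists_splitExp (hcop.pow_left ((Nat.card E).factorization p))
  let Q := (hs.powHom E hmn).range
  have hQ : IsPGroup p Q := by
    rintro ⟨_, y, rfl⟩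
    exact ⟨_, Subtype.ext (orderOf_dvd_iff_pow_eq_one.mp
      (hs.orderOf_pow_dvd ((orderOf_dvd_natCard y).trans hmn)))⟩
  have hEn : E ≤ Subgroup.normalizer ((E ⊓ N : Subgroup G) : Set G) := fun g hg =>
    Subgroup.mem_normalizer_fintype fun x hx =>
      ⟨E.mul_mem (E.mul_mem hg hx.1) (E.inv_mem hg), hN.conj_mem x hx.2 g⟩
  let act : E →* MulAut ↥(E ⊓ N) := (E ⊓ N).normalizerMonoidHom.comp (Subgroup.inclusion hEn)
  set ϑD : ↥(E ⊓ N) → ℂ := fun d => ϑ ⟨d, d.2.2⟩ with hϑD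
  set βϑ : ↥(E ⊓ N) → ℂ := fun d => β ⟨d, d.2.1⟩ * ϑ ⟨d, d.2.2⟩ with hβϑ
  have hϑDc : IsCharacter _ ϑD := isCharacter_comp (Subgroup.inclusion (inf_le_right : E ⊓ N ≤ N))
    (isCharacter_of_isIrr hϑ)
  have hβϑc : IsCharacter _ βϑ := isCharacter_mul (isCharacter_comp
    (Subgroup.inclusion (inf_le_left : E ⊓ N ≤ E)) (isCharacter_of_isIrr (isIrr_unitsHom β))) hϑDc
  have hϑinv : ∀ g d, ϑD (act g d) = ϑD d := fun g d => hinv g ⟨d, d.2.2⟩
  have hβϑinv : ∀ g d, βϑ (act g d) = βϑ d := fun g d => by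
    have h1 : β ⟨act g d, (act g d).2.1⟩ = β ⟨d, d.2.1⟩ := by
      change β (g * ⟨d, d.2.1⟩ * g⁻¹) = _
      simp
    exact congrArg₂ (· * ·) (congrArg _ h1) (hϑinv g d)
  have h1 := congP_sum_irr hQ (act.comp Q.subtype)
    (fun φ => classInner βϑ φ * conj (classInner ϑD φ)) (fun φ hφ => by
      obtain ⟨n, hn⟩ := exists_classInner_eq_nat hβϑc (isCharacter_of_isIrr hφ)
      obtain ⟨n', hn'⟩ := exists_classInner_eq_nat hϑDc (isCharacter_of_isIrr hφ)
      rw [hn, hn', map_natCast, ← Nat.cast_mul]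
      exact isIntegral_natCast _) (fun q φ _ => by
      rw [← classInner_comp_mulEquiv (act q) βϑ φ, ← classInner_comp_mulEquiv (act q) ϑD φ]
      simp only [hϑinv, hβϑinv]
      rfl)
  rw [← classInner_eq_sum_irr (isClassFunction_of_isCharacter hβϑc), hI] at h1
  obtain ⟨φ, n, hn, hpn⟩ : ∃ (φ : InvIrr (act.comp Q.subtype)) (n : ℕ),
      classInner ϑD φ.1 = n ∧ ¬ p ∣ n := by
    by_contra hcon
    push Not at hcon
    have h2 := h1.trans (CongP.sum (g := fun _ => 0) univ fun φ _ => by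
      obtain ⟨n, hn⟩ := exists_classInner_eq_nat hβϑc (irr_isCharacter φ.1)
      obtain ⟨n', hn'⟩ := exists_classInner_eq_nat hϑDc (irr_isCharacter φ.1)
      rw [hn, hn', map_natCast, mul_comm]
      exact congP_zero_of_dvd (n := n') (Int.natCast_dvd_natCast.mpr (hcon φ n' hn'))
        (isIntegral_natCast _))
    rw [sum_const_zero, ← Nat.cast_zero, congP_nat_iff hp.ne_zero, Nat.cast_zero,
      ZMod.natCast_eq_zero_iff] at h2
    exact hm h2
  refine ⟨E, φ.1, hE, hEN, φ.1.2, fun g hg x => ?_, n, hpn, ?_⟩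
  · set y : E := ⟨g, hg⟩ with hy
    have h3 := (orderOf_dvd_natCard y).trans hmn
    have h4 : ((y ^ b : E) : G) ∈ N := by
      obtain ⟨k, hk⟩ := hind
      refine mem_of_coprime_of_relIndex (H := ⊤) (p := p) (k := k)
        (by rw [N.normalizer_eq_top]) (by simpa using hk) (Subgroup.mem_top _) ?_
      rw [Subgroup.orderOf_coe]
      exact hcop.symm.coprime_dvd_left (hs.symm.orderOf_pow_dvd (by rwa [mul_comm]))
    change (φ.1 : _ → ℂ) (act y x) = _
    rw [← hs.mul_eq h3, map_mul, MulAut.mul_apply]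
    exact (φ.2 ⟨y ^ a, y, rfl⟩ _).trans (irr_isClassFunction φ.1 x ⟨_, (y ^ b).2, h4⟩)
  · rw [finsum_eq_sum_of_fintype]
    exact hn

end Cfsg.Agent.S0896
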