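import Cfsg.Statements.S0897
import Cfsg.Agent.S0896
import Cfsg.Agent.Lib.CharDeep.ProjFin
import Cfsg.Agent.Lib.InvChar.SylowBasic

set_option autoImplicit false
open Cfsg

namespace Cfsg.Agent.S0897

/-- Let N be a normal subgroup of the finite group G with the index of N a power of the prime p, and P a Sylow p-subgroup of G such that P ⊓ N lies in the centre of P and every character of degree 1 of P ⊓ N is the restriction of a character of degree 1 of P. Then every irreducible character of N invariant under conjugation by G is the restriction of an irreducible character of G. -/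
theorem result {G : Type*} [Group G] [Fintype G] (p : ℕ) [Fact p.Prime] (N : Subgroup G) [hN : N.Normal] (hind : ∃ k : ℕ, N.index = p ^ k) (P : Sylow p G) (hcent : ∀ x ∈ (P : Subgroup G) ⊓ N, ∀ y ∈ (P : Subgroup G), x * y = y * x) (hlin : ∀ lam : ↥((P : Subgroup G) ⊓ N) → ℂ, Cfsg.IsCharacter ↥((P : Subgroup G) ⊓ N) lam → lam 1 = 1 → ∃ μ : ↥(P : Subgroup G) → ℂ, Cfsg.IsCharacter ↥(P : Subgroup G) μ ∧ μ 1 = 1 ∧ ∀ x : ↥((P : Subgroup G) ⊓ N), μ ⟨(x : G), x.2.1⟩ = lam x) (ϑ : N → ℂ) (hϑ : Cfsg.IsIrrCharacter N ϑ) (hinv : ∀ (g : G) (n : N), ϑ ⟨g * n * g⁻¹, hN.conj_mem (n : G) n.2 g⟩ = ϑ n) : ∃ χ : G → ℂ, Cfsg.IsIrrCharacter G χ ∧ ∀ n : N, χ n = ϑ n := by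
  classical
  open CfsgLib.Brauer CfsgLib.Char CfsgLib.CharDeep Finset in
  have hp : p.Prime := Fact.out
  obtain ⟨E, φ, hE, hEN, hφ, -, m, hm, hmφ⟩ := Cfsg.Agent.S0896.result p hp N hind ϑ hϑ hinv
  rw [finsum_eq_sum_of_fintype, ← classInner_def] at hmφ
  have := isNilpotent_of_isElementary hp hE
  have hmn := (Nat.ordProj_mul_ordCompl_eq_self (Nat.card E) p).symm.dvd
  have hcop := Nat.coprime_ordCompl hp (Nat.card_pos (α := E)).ne'
  obtain ⟨a, b, hs⟩ := exists_splitExp (hcop.pow_left ((Nat.card E).factorization p))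
  have hord : ∀ y : E, orderOf y ∣ _ := fun y => (orderOf_dvd_natCard y).trans hmn
  let fa := hs.powHom E hmn
  let fb := hs.symm.powHom E (mul_comm (ordProj[p] (Nat.card E)) _ ▸ hmn)
  have hQ : IsPGroup p fa.range := by
    rintro ⟨_, y, rfl⟩
    exact ⟨_, Subtype.ext (orderOf_dvd_iff_pow_eq_one.mp (hs.orderOf_pow_dvd (hord y)))⟩
  obtain ⟨g, hg⟩ := CfsgLib.InvChar.exists_conj_mem_sylow P (hQ.map E.subtype)
  have hb : ∀ y : E, (orderOf (y ^ b)).Coprime p := fun y =>
    hcop.symm.coprime_dvd_left (hs.symm.orderOf_pow_dvd (by rw [mul_comm]; exact hord y))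
  have hbN : ∀ y : E, ((y ^ b : E) : G) ∈ N := by
    intro y
    obtain ⟨k, hk⟩ := hind
    refine mem_of_coprime_of_relIndex (H := ⊤) (p := p) (k := k)
      (by rw [N.normalizer_eq_top]) (by simpa using hk) (Subgroup.mem_top _) ?_
    rw [Subgroup.orderOf_coe]
    exact hb y
  have hbZ : ∀ y : E, y ^ b ∈ Subgroup.center E := by
    intro y
    obtain ⟨x, hx, -, k, hk⟩ := hE
    have : (Subgroup.zpowers x).Normal :=
      ⟨fun y hy g => by
        rwa [Subgroup.mem_center_iff.mp (Subgroup.zpowers_le.mpr hx hy) g, mul_inv_cancel_right]⟩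
    exact (Subgroup.zpowers_le.mpr hx) (mem_of_coprime_of_relIndex (H := ⊤) (p := p) (k := k)
      (by rw [(Subgroup.zpowers x).normalizer_eq_top]) (by simpa using hk) (Subgroup.mem_top _)
      (hb y))
  -- the homomorphism `E → P`, `y ↦ g y^a g⁻¹`
  let ψ : E →* P := ((MulAut.conj g).toMonoidHom.comp (E.subtype.comp fa)).codRestrict
    (P : Subgroup G) (fun y => hg _ ⟨_, ⟨y, rfl⟩, rfl⟩)
  have hψ : ∀ y : E, (ψ y : G) = g * (y : G) ^ a * g⁻¹ := fun y => rfl
  have hψN : ∀ y : E, (y : G) ∈ N → (ψ y : G) ∈ N := fun y hy =>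
    hN.conj_mem _ (N.pow_mem hy a) g
  have hDc : IsMulCommutative ↥(E ⊓ N) := by
    refine ⟨⟨fun x y => Subtype.ext ?_⟩⟩
    set x' : E := ⟨x, x.2.1⟩
    set y' : E := ⟨y, y.2.1⟩
    have h1 : x' ^ a * y' ^ a = y' ^ a * x' ^ a := by
      have := hcent (ψ x') ⟨(ψ x').2, hψN x' x.2.2⟩ (ψ y') (ψ y').2
      rw [hψ, hψ] at this
      apply Subtype.ext
      simpa using this
    have h2 : x' * y' = y' * x' := by
      rw [← hs.mul_eq (hord x'), ← hs.mul_eq (hord y')]
      have hx := Subgroup.mem_center_iff.mp (hbZ x')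
      have hy := Subgroup.mem_center_iff.mp (hbZ y')
      calc x' ^ a * x' ^ b * (y' ^ a * y' ^ b) = x' ^ a * y' ^ a * (x' ^ b * y' ^ b) := by
            rw [mul_assoc, ← mul_assoc (x' ^ b), ← hx, mul_assoc, mul_assoc]
        _ = _ := by
            rw [h1, hy, mul_assoc, ← mul_assoc (x' ^ a), hy, mul_assoc, mul_assoc]
    exact congrArg (fun y : E => (y : G)) h2
  obtain ⟨φ', rfl⟩ := exists_unitsHom_of_one_eq_one (isCharacter_of_isIrr hφ)
    (irr_one_eq_one_of_comm hφ)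
  -- extend along the injection of the `p`-part of `E ⊓ N` into `P ⊓ N`
  let iE : ↥(E ⊓ N) →* E := Subgroup.inclusion inf_le_left
  let R : Subgroup ↥(E ⊓ N) := fa.range.comap iE
  let i : R →* ↥((P : Subgroup G) ⊓ N) :=
    ((P : Subgroup G).subtype.comp (ψ.comp (iE.comp R.subtype))).codRestrict _
      (fun r => ⟨(ψ _).2, hψN _ r.1.2.2⟩)
  have hR : ∀ r : R, ((r : ↥(E ⊓ N)) : G) ^ a = (r : ↥(E ⊓ N)) := by
    rintro ⟨r, y, hy⟩
    have := hs.pow_eq_self (hs.orderOf_pow_dvd (hord y))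
    rw [show y ^ a = iE r from hy] at this
    exact congrArg Subtype.val this
  have hi : Function.Injective i := by
    intro r r' h
    have h1 : g * ((r : ↥(E ⊓ N)) : G) ^ a * g⁻¹ = g * ((r' : ↥(E ⊓ N)) : G) ^ a * g⁻¹ :=
      congrArg Subtype.val h
    rw [hR, hR] at h1
    exact Subtype.ext (Subtype.ext (by simpa using h1))
  have hPc : IsMulCommutative ↥((P : Subgroup G) ⊓ N) :=
    ⟨⟨fun x y => Subtype.ext (hcent x x.2 y y.2.1)⟩⟩
  obtain ⟨lam, hlam⟩ : ∃ lam : ↥((P : Subgroup G) ⊓ N) →* ℂˣ, ∀ r : R, lam (i r) = φ' r := by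
    let : CommGroup R := IsMulCommutative.instCommGroup
    let : CommGroup ↥((P : Subgroup G) ⊓ N) := IsMulCommutative.instCommGroup
    exact exists_extension_units i hi (φ'.comp R.subtype)
  obtain ⟨μ, hμ, hμ1, hμlam⟩ := hlin _ (isCharacter_of_isIrr (isIrr_unitsHom lam)) (by simp)
  obtain ⟨μ', rfl⟩ := exists_unitsHom_of_one_eq_one hμ hμ1
  let fD : E →* ↥(E ⊓ N) := (E.subtype.comp fb).codRestrict _ (fun y => ⟨(fb y).2, hbN y⟩)
  let φE : E →* ℂˣ := μ'.comp ψ * φ'.comp fD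
  have hφE : ∀ d : ↥(E ⊓ N), φE ⟨d, d.2.1⟩ = φ' d := by
    intro d
    have h1 : d ^ a ∈ R := ⟨iE d, (map_pow iE d a).symm⟩
    have h2 : μ' (ψ ⟨d, d.2.1⟩) = φ' (d ^ a) := by
      rw [← hlam ⟨d ^ a, h1⟩]
      apply Units.ext
      refine Eq.trans ?_ (hμlam _)
      congr 2
      apply Subtype.ext
      change g * (d : G) ^ a * g⁻¹ = g * (((⟨d ^ a, h1⟩ : R) : ↥(E ⊓ N)) : G) ^ a * g⁻¹
      rw [hR]
      rfl
    change μ' (ψ ⟨d, d.2.1⟩) * φ' (fD ⟨d, d.2.1⟩) = _
    rw [h2, ← map_mul]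
    congr 1
    exact Subtype.ext (congrArg (fun y : E => (y : G)) (hs.mul_eq (hord ⟨d, d.2.1⟩)))
  have hφEc := isCharacter_indFun E (isCharacter_of_isIrr (isIrr_unitsHom φE))
  have hinner : classInner (fun n : N => indFun E (fun y => (φE y : ℂ)) n) ϑ = m := by
    have h1 : (fun y : E => indFun N ϑ y) = fun y : E => (N.index : ℂ) * extendByZero N ϑ y := by
      funext y
      by_cases hy : (y : G) ∈ N
      · rw [extendByZero_of_mem _ _ hy]
        exact congrFun (res_indFun_of_invariant N hinv) ⟨y, hy⟩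
      · rw [extendByZero_of_not_mem _ _ hy, indFun_eq_zero_of_normal _ _ hy, mul_zero]
    rw [← classInner_indFun_right _ _ (isClassFunction_indFun _ _),
      classInner_indFun_left _ _ (isClassFunction_indFun _ _), h1, classInner_def]
    simp only [map_mul, map_natCast, mul_left_comm _ (N.index : ℂ), ← mul_sum, ← extendByZero_conj]
    rw [S0896.sum_inf]
    simp only [hφE]
    have h2 := congrArg (starRingEnd ℂ) hmφ
    rw [classInner_conj_symm, map_natCast] at h2
    rw [← card_mul_classInner, h2, natCast_index_eq]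
    have h3 := congrArg (Nat.cast : ℕ → ℂ) (CfsgLib.Core.card_sup_mul_card_inf_of_normal E N)
    rw [hEN, Subgroup.card_top] at h3
    have hE0 : (Nat.card E : ℂ) ≠ 0 := natCard_ne_zero
    have hN0 : (Nat.card N : ℂ) ≠ 0 := natCard_ne_zero
    push_cast at h3
    field_simp
    linear_combination (m : ℂ) * h3
  obtain ⟨c, -, hc⟩ := exists_char_eq_sum_nat hφEc
  choose e he using fun χ : IrrCharacter G => exists_classInner_eq_nat
    (isCharacter_restrict N (irr_isCharacter χ)) (isCharacter_of_isIrr hϑ)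
  have hsum : ∑ χ, c χ * e χ = m := by
    have : (fun n : N => indFun E (fun y => (φE y : ℂ)) n) =
        ∑ χ : IrrCharacter G, (c χ : ℂ) • fun n : N => (χ : G → ℂ) n := by
      funext n
      rw [hc]
      simp
    rw [this, classInner_sum_left] at hinner
    simp only [classInner_smul_left, he] at hinner
    exact_mod_cast hinner
  obtain ⟨χ, hχ⟩ : ∃ χ, ¬ p ∣ e χ := by
    by_contra h
    push Not at h
    exact hm (hsum ▸ dvd_sum fun χ _ => (h χ).mul_left _)
  have hne : classInner (fun n : N => (χ : G → ℂ) n) ϑ ≠ 0 := by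
    rw [he, Nat.cast_ne_zero]
    rintro h
    exact hχ (h ▸ dvd_zero p)
  have h1 := clifford_invariant N χ.2 hϑ hne (fun g => funext (hinv g))
  obtain ⟨e', he', h2⟩ := exists_degree_eq_mul_of_invariant N hϑ hinv χ.2 hne
  have h3 := congrFun h1 1
  simp only [OneMemClass.coe_one, Pi.smul_apply, smul_eq_mul, he, h2] at h3
  have h4 : e' = e χ := by exact_mod_cast mul_right_cancel₀ (irr_one_ne_zero hϑ) h3
  obtain ⟨k, hk⟩ := hind
  obtain ⟨j, -, hj⟩ := (Nat.dvd_prime_pow hp).mp (hk ▸ he')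
  have h5 : e χ = 1 := by
    rw [← h4, hj] at hχ ⊢
    rcases j with _ | j
    · rfl
    · exact absurd (dvd_pow_self p j.succ_ne_zero) hχ
  refine ⟨χ, χ.2, fun n => ?_⟩
  simpa [he, h5] using congrFun h1 n

end Cfsg.Agent.S0897
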