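import Cfsg.Statements.S0903


set_option autoImplicit false
open Cfsg

namespace Cfsg.Agent.S0903

/-- Let P be a p-subgroup of the finite group G, let c centralize P and let g, h ∈ G. The number of pairs (x, y) with x conjugate to g, y conjugate to h and x * y = c is congruent modulo p to the number of such pairs in which x and y both centralize P. (This is why the Brauer map on class sums is multiplicative.) -/
theorem result {G : Type*} [Group G] [Finite G] (p : ℕ) [Fact p.Prime] (P : Subgroup G) (hP : IsPGroup p P) (c : G) (hc : c ∈ Subgroup.centralizer (P : Set G)) (g h : G) : Nat.card {xy : G × G // IsConj g xy.1 ∧ IsConj h xy.2 ∧ xy.1 * xy.2 = c} ≡ Nat.card {xy : G × G // IsConj g xy.1 ∧ IsConj h xy.2 ∧ xy.1 * xy.2 = c ∧ xy.1 ∈ Subgroup.centralizer (P : Set G) ∧ xy.2 ∈ Subgroup.centralizer (P : Set G)} [MOD p] := by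
  let X := {xy : G × G // IsConj g xy.1 ∧ IsConj h xy.2 ∧ xy.1 * xy.2 = c}
  let _ : MulAction P X :=
    { smul := fun u x => ⟨((u : G) * x.1.1 * (u : G)⁻¹, (u : G) * x.1.2 * (u : G)⁻¹),
        x.2.1.trans (isConj_iff.2 ⟨u, rfl⟩), x.2.2.1.trans (isConj_iff.2 ⟨u, rfl⟩), by
          have h1 := Subgroup.mem_centralizer_iff.1 hc u u.2
          calc _ = (u : G) * (x.1.1 * x.1.2) * (u : G)⁻¹ := by group
            _ = c := by rw [x.2.2.2, h1, mul_inv_cancel_right]⟩
      one_smul := fun x => Subtype.ext (Prod.ext (by change (1 : G) * _ * 1⁻¹ = _; group)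
        (by change (1 : G) * _ * 1⁻¹ = _; group))
      mul_smul := fun u v x => Subtype.ext (Prod.ext
        (by change ((u : G) * v) * _ * ((u : G) * v)⁻¹ = u * (v * _ * (v : G)⁻¹) * (u : G)⁻¹; group)
        (by change ((u : G) * v) * _ * ((u : G) * v)⁻¹ = u * (v * _ * (v : G)⁻¹) * (u : G)⁻¹; group)) }
  have h1 := hP.card_modEq_card_fixedPoints X
  refine h1.trans ?_
  have h2 : ∀ x : X, x ∈ MulAction.fixedPoints P X ↔
      x.1.1 ∈ Subgroup.centralizer (P : Set G) ∧ x.1.2 ∈ Subgroup.centralizer (P : Set G) := by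
    intro x
    rw [MulAction.mem_fixedPoints, Subgroup.mem_centralizer_iff, Subgroup.mem_centralizer_iff]
    constructor
    · intro H
      refine ⟨fun u hu => ?_, fun u hu => ?_⟩
      · have : u * x.1.1 * u⁻¹ = x.1.1 := congrArg (fun y : X => y.1.1) (H ⟨u, hu⟩)
        exact mul_inv_eq_iff_eq_mul.1 this
      · have : u * x.1.2 * u⁻¹ = x.1.2 := congrArg (fun y : X => y.1.2) (H ⟨u, hu⟩)
        exact mul_inv_eq_iff_eq_mul.1 this
    · rintro ⟨H1, H2⟩ u
      exact Subtype.ext (Prod.ext (mul_inv_eq_iff_eq_mul.2 (H1 u u.2))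
        (mul_inv_eq_iff_eq_mul.2 (H2 u u.2)))
  rw [Nat.card_congr (Equiv.mk
    (fun x : MulAction.fixedPoints P X => (⟨x.1.1, x.1.2.1, x.1.2.2.1, x.1.2.2.2, (h2 x.1).1 x.2⟩ :
      {xy : G × G // IsConj g xy.1 ∧ IsConj h xy.2 ∧ xy.1 * xy.2 = c ∧
        xy.1 ∈ Subgroup.centralizer (P : Set G) ∧ xy.2 ∈ Subgroup.centralizer (P : Set G)}))
    (fun y => ⟨⟨y.1, y.2.1, y.2.2.1, y.2.2.2.1⟩, (h2 _).2 y.2.2.2.2⟩) (fun _ => rfl)
    (fun _ => rfl))]

end Cfsg.Agent.S0903
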