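import Cfsg.Statements.S0905
import Cfsg.Agent.Lib.Block.Defect
import Cfsg.Agent.Lib.Core.Cores

set_option autoImplicit false
open Cfsg

namespace Cfsg.Agent.S0905

/-- Let F be a field of characteristic p and let g be an element of the finite group G no conjugate of which centralizes O_p(G). Then the class sum of g is a nilpotent element of the group algebra F[G]. -/
theorem result {G : Type*} [Group G] [Finite G] (p : ℕ) [Fact p.Prime] (F : Type*) [Field F] [CharP F p] (g : G) (hg : ∀ x : G, IsConj g x → x ∉ Subgroup.centralizer (Cfsg.pCore p G : Set G)) : IsNilpotent (∑ᶠ x ∈ ConjClasses.carrier (ConjClasses.mk g), MonoidAlgebra.single x (1 : F) : MonoidAlgebra F G) := by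
  classical
  have := Fintype.ofFinite G
  have h1 : (∑ᶠ x ∈ ConjClasses.carrier (ConjClasses.mk g), MonoidAlgebra.single x (1 : F) :
      MonoidAlgebra F G) = CfsgLib.Block.classSum F g := by
    rw [finsum_mem_def, finsum_eq_sum_of_fintype]
    conv_rhs => rw [CfsgLib.Block.eq_sum_single (CfsgLib.Block.classSum F g)]
    refine Finset.sum_congr rfl fun x _ => ?_
    by_cases hx : IsConj g x
    · rw [CfsgLib.Block.coeff_classSum_of_isConj hx, Set.indicator_of_mem]
      exact ConjClasses.mem_carrier_iff_mk_eq.2 (ConjClasses.mk_eq_mk_iff_isConj.2 hx.symm)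
    · rw [CfsgLib.Block.coeff_classSum_of_not_isConj hx, Set.indicator_of_notMem,
        MonoidAlgebra.single_zero]
      exact fun h => hx (ConjClasses.mk_eq_mk_iff_isConj.1
        (ConjClasses.mem_carrier_iff_mk_eq.1 h)).symm
  rw [h1]
  haveI : (Cfsg.pCore p G).Normal := Subgroup.sSup_normal _ (fun _ h => h.1)
  apply CfsgLib.Block.isNilpotent_of_br_eq_zero (CfsgLib.Core.isPGroup_pCore p G)
    (CfsgLib.Block.classSum_mem_Z g)
  by_contra h
  obtain ⟨x, hx, hc⟩ := (CfsgLib.Block.br_classSum_ne_zero_iff _ g).1 h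
  exact hg x hc hx

end Cfsg.Agent.S0905
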