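import Cfsg.Statements.S0916
import Cfsg.Agent.Lib.Block.Defect

set_option autoImplicit false
open Cfsg

namespace Cfsg.Agent.S0916

open CfsgLib.BrPair CfsgLib.Fusion CfsgLib.Block in

/-- Let P be a p-subgroup of the finite group G, C its centralizer and N its normalizer. Say that a conjugacy class (of G, or of N) has defect group P when P is a Sylow p-subgroup of the centralizer (in G, respectively in N) of some element of the class. Then: (i) if the class of g in G has defect group P, the elements of that class lying in C form a single N-class, again with defect group P; (ii) every N-class with defect group P arises this way from exactly one G-class with defect group P. -/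
theorem result {G : Type*} [Group G] [Finite G] (p : ℕ) [Fact p.Prime] (P : Subgroup G) (hP : IsPGroup p P) : (∀ g : G, (∃ S : Sylow p (Subgroup.centralizer ({g} : Set G)), (S : Subgroup (Subgroup.centralizer ({g} : Set G))).map (Subgroup.centralizer ({g} : Set G)).subtype = P) → (∃ c : G, IsConj g c ∧ c ∈ Subgroup.centralizer (P : Set G)) ∧ (∀ c₁ c₂ : G, IsConj g c₁ → IsConj g c₂ → c₁ ∈ Subgroup.centralizer (P : Set G) → c₂ ∈ Subgroup.centralizer (P : Set G) → ∃ n ∈ Subgroup.normalizer (P : Set G), n * c₁ * n⁻¹ = c₂)) ∧ (∀ c : G, c ∈ Subgroup.centralizer (P : Set G) → (∃ S : Sylow p (Subgroup.centralizer ({c} : Set G) ⊓ Subgroup.normalizer (P : Set G) : Subgroup G), (S : Subgroup ↥(Subgroup.centralizer ({c} : Set G) ⊓ Subgroup.normalizer (P : Set G))).map (Subgroup.centralizer ({c} : Set G) ⊓ Subgroup.normalizer (P : Set G)).subtype = P) → ∃ S : Sylow p (Subgroup.centralizer ({c} : Set G)), (S : Subgroup (Subgroup.centralizer ({c} : Set G))).map (Subgroup.centralizer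 ({c} : Set G)).subtype = P) := by
  constructor
  · rintro g ⟨S, hS⟩
    have h1 : SylIn p P (Ce g) := sylIn_iff_exists_sylow.2 ⟨S, hS.symm⟩
    refine ⟨⟨g, IsConj.refl g, le_Ce_iff.1 h1.le⟩, ?_⟩
    have key : ∀ c, IsConj g c → c ∈ Cz P → ∃ n ∈ Nz P, n * g * n⁻¹ = c := by
      intro c hc hcP
      obtain ⟨x, rfl⟩ := isConj_iff.1 hc
      have h2 : cS x⁻¹ P ≤ Ce g := by
        rw [cS_le_iff, inv_inv, cS_Ce]
        exact le_Ce_iff.2 hcP
      obtain ⟨y, hy, h3⟩ := sylIn_exists_le_cS h1 (isPGroup_cS x⁻¹ hP) h2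
      have h4 : P ≤ cS (x * y) P := by
        rw [cS_mul, le_cS_iff]
        exact h3
      refine ⟨x * y, ?_, ?_⟩
      · rw [mem_Nz_iff_cS]
        exact (Subgroup.eq_of_le_of_card_ge h4 (card_cS _ _).le).symm
      · rw [mul_inv_rev, show x * y * g * (y⁻¹ * x⁻¹) = x * (y * g * y⁻¹) * x⁻¹ by group,
          mem_Ce.1 hy]
    intro c₁ c₂ h₁ h₂ hc₁ hc₂
    obtain ⟨n₁, hn₁, rfl⟩ := key c₁ h₁ hc₁
    obtain ⟨n₂, hn₂, rfl⟩ := key c₂ h₂ hc₂
    exact ⟨n₂ * n₁⁻¹, Subgroup.mul_mem _ hn₂ (Subgroup.inv_mem _ hn₁), by group⟩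
  · rintro c - ⟨S, hS⟩
    have h1 : SylIn p P (Ce c ⊓ Nz P) := sylIn_iff_exists_sylow.2 ⟨S, hS.symm⟩
    obtain ⟨T, hT⟩ := sylIn_iff_exists_sylow.1 (sylIn_of_sylIn_inf_Nz h1)
    exact ⟨T, hT.symm⟩

end Cfsg.Agent.S0916
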