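import Cfsg.Statements.S0918
import Cfsg.Agent.Lib.Block.Induce

set_option autoImplicit false
open Cfsg

namespace Cfsg.Agent.S0918

/-- Let P be a p-subgroup of the finite group G and H a subgroup with P·C_G(P) ≤ H ≤ N_G(P); let b be a block of H and B a block of G relative to a maximal ideal M of the algebraic integers containing p. Then b induces B if and only if, for every g ∈ G, every ξ ∈ b and every χ ∈ B, the central character of χ at g is congruent modulo the local ideal at M to the sum of ξ h / ξ 1 over the elements h of H conjugate in G to g and centralizing P. -/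
theorem result {G : Type*} [Group G] [Finite G] (p : ℕ) [Fact p.Prime] (M : Ideal Cfsg.AlgInt) (hM : Cfsg.IsPModular p M) (P H : Subgroup G) (hP : IsPGroup p P) (hPH : P ≤ H) (hCH : Subgroup.centralizer (P : Set G) ≤ H) (hHN : H ≤ Subgroup.normalizer (P : Set G)) (b : Set (Cfsg.IrrCharacter H)) (hb : Cfsg.IsPBlock M b) (B : Set (Cfsg.IrrCharacter G)) (hB : Cfsg.IsPBlock M B) : Cfsg.IsInducedBlock M H b B ↔ ∀ ξ ∈ b, ∀ χ ∈ B, ∀ g : G, Cfsg.MemLocalIdeal M (Cfsg.brauerCentralChar P H (ξ : H → ℂ) g - Cfsg.centralChar (χ : G → ℂ) g) := by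
  constructor
  · intro h ξ hξ χ hχ g
    exact CfsgLib.Block.li_sub_trans hM
      (CfsgLib.Block.li_brauerCentralChar_sub hM hP hPH hHN ξ.2 g) (h.2.2 ξ hξ χ hχ g)
  · intro h
    refine ⟨hb, hB, fun ξ hξ χ hχ g => ?_⟩
    exact CfsgLib.Block.li_sub_trans hM (CfsgLib.Block.li_sub_comm
      (CfsgLib.Block.li_brauerCentralChar_sub hM hP hPH hHN ξ.2 g)) (h ξ hξ χ hχ g)

end Cfsg.Agent.S0918
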