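import Mathlib
import Cfsg.Statements.S0951
import Cfsg.Agent.Lib.Tame.Main
import Cfsg.Agent.S4646
import Cfsg.Agent.S4691
-- import your own Cfsg.Agent.* helpers here

set_option autoImplicit false
open Cfsg

namespace Cfsg.Agent.S0951

open CfsgLib CfsgLib.Tame CfsgLib.Star CfsgLib.Char CfsgLib.Blk CfsgLib.Block Subgroup

/-- Let S be a Sylow 2-subgroup of the finite group G isomorphic to the quaternion group of order 8. Suppose G has no nontrivial normal subgroup of odd order and G ≠ S. Then, relative to any maximal ideal M of the algebraic integers containing 2, the principal block of G consists of exactly 7 irreducible characters. -/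
theorem result {G : Type*} [Group G] [Finite G] (M : Ideal Cfsg.AlgInt) (hM : Cfsg.IsPModular 2 M) (S : Sylow 2 G) (e : (S : Subgroup G) ≃* QuaternionGroup 2) (hO : ∀ N : Subgroup G, N.Normal → Odd (Nat.card N) → N = ⊥) (hG : (S : Subgroup G) ≠ ⊤) : Nat.card (Cfsg.principalBlock M G) = 7 := by
  classical
  have := Fintype.ofFinite G
  have := fun u : G => Fintype.ofFinite (Cu u)
  obtain ⟨x, y, T, h0⟩ := exists_tm_quat (k := 1) e
  have hB := isPBlock_principalBlock (M := M) (G := G)
  obtain ⟨e, h⟩ := exists_maxPair hM hB (isDefectGroup_principalBlock_sylow hM S)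
  obtain ⟨h1, h2, -⟩ := thmC h T le_rfl hB
  obtain ⟨h3, h4, -⟩ := rank_iff h T hB h1
  rw [← rank_eq_rank_z h T le_rfl hB h0] at h1 h2
  have : blockRank 2 (principalBlock M G) ≠ 1 := fun h5 => by
    obtain ⟨P, N, hN, hc⟩ := (S4691.result 2 M hM).2 ((S4646.result 2 M hM).2 h5)
    have h6 := hO N hN (Nat.not_even_iff_odd.1 fun h6 =>
      P.not_dvd_index (hc.index_eq_card ▸ h6.two_dvd))
    refine hG (index_eq_one.1 ?_)
    have h7 := hc.index_eq_card
    rw [h6, card_bot] at h7
    have h8 := (S : Subgroup G).index_mul_card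
    rw [← (P : Subgroup G).index_mul_card, h7, S.card_eq_multiplicity, P.card_eq_multiplicity] at h8
    exact Nat.eq_of_mul_eq_mul_right (by positivity) h8
  omega

end Cfsg.Agent.S0951
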