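import Mathlib
import Cfsg.Statements.S0953
import Cfsg.Agent.Lib.Cover.Count

set_option autoImplicit false
open Cfsg

namespace Cfsg.Agent.S0953

/-- Let P be a Sylow p-subgroup of the finite group G with normalizer N, and fix a maximal ideal M of the algebraic integers containing p. The number of blocks of G having P as a defect group equals the number of conjugacy classes of N consisting of elements of order prime to p that centralize P. -/
theorem result {G : Type*} [Group G] [Finite G] (p : ℕ) [Fact p.Prime] (M : Ideal Cfsg.AlgInt) (hM : Cfsg.IsPModular p M) (P : Sylow p G) : Nat.card {B : Set (Cfsg.IrrCharacter G) // Cfsg.IsPBlock M B ∧ Cfsg.IsDefectGroup p M B (P : Subgroup G)} = Nat.card {C : ConjClasses (Subgroup.normalizer ((P : Subgroup G) : Set G)) // ∀ n : Subgroup.normalizer ((P : Subgroup G) : Set G), ConjClasses.mk n = C → ¬ p ∣ orderOf n ∧ (n : G) ∈ Subgroup.centralizer ((P : Subgroup G) : Set G)} := by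
  rw [CfsgLib.Cover.card_blocks_isDefectGroup_eq hM P.isPGroup']
  let P' : Sylow p (Subgroup.normalizer ((P : Subgroup G) : Set G)) :=
    P.subtype Subgroup.le_normalizer
  have hP' : (P' : Subgroup (Subgroup.normalizer ((P : Subgroup G) : Set G))) =
    (P : Subgroup G).subgroupOf (Subgroup.normalizer ((P : Subgroup G) : Set G)) := rfl
  haveI : (P' : Subgroup (Subgroup.normalizer ((P : Subgroup G) : Set G))).Normal := by
    rw [hP']; infer_instance
  rw [Nat.card_congr (Equiv.subtypeEquivRight (fun b => and_iff_left_of_imp fun hb =>
    hP' ▸ CfsgLib.Cover.isDefectGroup_of_normal_sylow hM P' hb)),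
    CfsgLib.Cover.card_blocks_of_normal_sylow hM P']
  refine Nat.card_congr (Equiv.subtypeEquivRight fun C => forall_congr' fun n =>
    imp_congr_right fun _ => and_congr ?_ ?_)
  · rfl
  · have := CfsgLib.BrPair.map_mem_Cz_iff
      (Subgroup.normalizer ((P : Subgroup G) : Set G)).subtype_injective (Q := P') (x := n)
    rw [hP', Subgroup.map_subgroupOf_eq_of_le Subgroup.le_normalizer] at this
    exact this.symm

end Cfsg.Agent.S0953
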