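import Mathlib
import Cfsg.Statements.S0955
import Cfsg.Agent.Lib.Cover.Green

set_option autoImplicit false
open Cfsg

namespace Cfsg.Agent.S0955

/-- Let D be a defect group of a block of the finite group G relative to a maximal ideal M of the algebraic integers containing the prime p. Then D is the largest normal p-subgroup of its own normalizer: O_p(N_G(D)) = D. -/
theorem result {G : Type*} [Group G] [Finite G] (p : ℕ) [Fact p.Prime] (M : Ideal Cfsg.AlgInt) (hM : Cfsg.IsPModular p M) (B : Set (Cfsg.IrrCharacter G)) (hB : Cfsg.IsPBlock M B) (D : Subgroup G) (hD : Cfsg.IsDefectGroup p M B D) : (Cfsg.pCore p (Subgroup.normalizer (D : Set G))).map (Subgroup.normalizer (D : Set G)).subtype = D := by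
  have h := (CfsgLib.Block.isDefectGroup_iff_isDef hM hB).1 hD
  have hb := CfsgLib.Block.isPrim_eB hM hB
  refine CfsgLib.Cover.IsDef.eq_of_normal_in_Nz le_rfl hb.mem hb.idem h
    (CfsgLib.Core.isPGroup_map_pCore _)
    (CfsgLib.Core.le_map_pCore Subgroup.le_normalizer le_rfl h.pgroup)
    (le_inf le_top (Subgroup.map_subtype_le _)) ?_
  exact inf_le_right.trans (Subgroup.le_normalizer.trans
    (CfsgLib.Core.normalizer_le_normalizer_map_pCore _))

end Cfsg.Agent.S0955
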