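import Cfsg.Statements.S0957
import Mathlib

set_option autoImplicit false
open Cfsg

namespace Cfsg.Agent.S0957

theorem dvd_card_of_dvd_index {H X : Type*} [Group H] [Finite H] [Finite X] [MulAction H X] (d : ℕ)
    (hd : ∀ x : X, d ∣ (MulAction.stabilizer H x).index) : d ∣ Nat.card X := by
  classical
  rw [Nat.card_congr (MulAction.selfEquivSigmaOrbitsQuotientStabilizer H X)]
  haveI := Fintype.ofFinite (Quotient (MulAction.orbitRel H X))
  rw [Nat.card_sigma]
  exact Finset.dvd_sum fun ω _ => hd _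

/-- a `p`-subgroup of the centralizer of a conjugate of `g` has order dividing that of `S`. -/
theorem card_dvd_card_sylow {G : Type*} [Group G] [Finite G] (p : ℕ) [Fact p.Prime] (g y : G)
    (S : Sylow p (Subgroup.centralizer ({g} : Set G))) (hy : IsConj g y) (Q : Subgroup G)
    (hQ : IsPGroup p Q) (hQy : Q ≤ Subgroup.centralizer ({y} : Set G)) :
    Nat.card Q ∣ Nat.card S := by
  obtain ⟨c, hc⟩ := isConj_iff.mp hy
  have h1 : Nat.card Q ∣ Nat.card (Subgroup.centralizer ({g} : Set G)) := by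
    let Q' : Subgroup G := Q.map (MulAut.conj c⁻¹).toMonoidHom
    have hQ' : Q' ≤ Subgroup.centralizer ({g} : Set G) := by
      rintro _ ⟨q, hq, rfl⟩
      have := hQy hq
      rw [Subgroup.mem_centralizer_singleton_iff] at this ⊢
      rw [← hc] at this
      simp only [MulEquiv.toMonoidHom_eq_coe, MonoidHom.coe_coe, MulAut.conj_apply, inv_inv]
      calc c⁻¹ * q * c * g = c⁻¹ * (q * (c * g * c⁻¹)) * c := by group
        _ = c⁻¹ * ((c * g * c⁻¹) * q) * c := by rw [this]
        _ = g * (c⁻¹ * q * c) := by group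
    have : Nat.card Q' = Nat.card Q := Subgroup.card_map_of_injective (MulAut.conj c⁻¹).injective
    rw [← this]
    exact Subgroup.card_dvd_of_le hQ'
  obtain ⟨k, hk⟩ := IsPGroup.iff_card.mp hQ
  rw [Sylow.card_eq_multiplicity, hk]
  apply pow_dvd_pow
  rw [hk] at h1
  exact (Nat.Prime.pow_dvd_iff_le_factorization Fact.out Nat.card_pos.ne').mp h1

/-- Let P be a Sylow p-subgroup of the finite group G, let g, h ∈ G and let p ^ d be the order of a Sylow p-subgroup of the centralizer of g. Then the number of pairs (y, z) with y conjugate to g, z conjugate to h and z * y⁻¹ ∈ P is divisible by the order of P divided by p ^ d. -/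
theorem result {G : Type*} [Group G] [Finite G] (p : ℕ) [Fact p.Prime] (P : Sylow p G) (g h : G) (S : Sylow p (Subgroup.centralizer ({g} : Set G))) : Nat.card P / Nat.card S ∣ Nat.card {yz : G × G // IsConj g yz.1 ∧ IsConj h yz.2 ∧ yz.2 * yz.1⁻¹ ∈ (P : Subgroup G)} := by
  let X := {yz : G × G // IsConj g yz.1 ∧ IsConj h yz.2 ∧ yz.2 * yz.1⁻¹ ∈ (P : Subgroup G)}
  let act : MulAction (P : Subgroup G) X :=
    { smul := fun a x => ⟨((a : G) * x.1.1 * (a : G)⁻¹, (a : G) * x.1.2 * (a : G)⁻¹),
        x.2.1.trans (isConj_iff.mpr ⟨a, rfl⟩), x.2.2.1.trans (isConj_iff.mpr ⟨a, rfl⟩), by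
          have : (a : G) * x.1.2 * (a : G)⁻¹ * ((a : G) * x.1.1 * (a : G)⁻¹)⁻¹ =
              a * (x.1.2 * x.1.1⁻¹) * (a : G)⁻¹ := by group
          show (a : G) * x.1.2 * (a : G)⁻¹ * ((a : G) * x.1.1 * (a : G)⁻¹)⁻¹ ∈ (P : Subgroup G)
          rw [this]
          exact Subgroup.mul_mem _ (Subgroup.mul_mem _ a.2 x.2.2.2) (Subgroup.inv_mem _ a.2)⟩
      one_smul := fun x => by
        apply Subtype.ext
        show (((1 : (P : Subgroup G)) : G) * x.1.1 * ((1 : (P : Subgroup G)) : G)⁻¹,
          ((1 : (P : Subgroup G)) : G) * x.1.2 * ((1 : (P : Subgroup G)) : G)⁻¹) = x.1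
        simp
      mul_smul := fun a b x => by
        apply Subtype.ext
        show (((a * b : (P : Subgroup G)) : G) * x.1.1 * ((a * b : (P : Subgroup G)) : G)⁻¹,
          ((a * b : (P : Subgroup G)) : G) * x.1.2 * ((a * b : (P : Subgroup G)) : G)⁻¹) =
          ((a : G) * ((b : G) * x.1.1 * (b : G)⁻¹) * (a : G)⁻¹,
            (a : G) * ((b : G) * x.1.2 * (b : G)⁻¹) * (a : G)⁻¹)
        simp [mul_assoc] }
  apply dvd_card_of_dvd_index (H := (P : Subgroup G)) (X := X)
  intro x
  set T := MulAction.stabilizer (P : Subgroup G) x with hT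
  have hTS : Nat.card T ∣ Nat.card S := by
    have h1 : Nat.card (T.map (P : Subgroup G).subtype) = Nat.card T :=
      Subgroup.card_map_of_injective (P : Subgroup G).subtype_injective
    rw [← h1]
    apply card_dvd_card_sylow p g x.1.1 S x.2.1
    · exact (P.isPGroup'.to_subgroup T).map _
    · rintro _ ⟨a, ha, rfl⟩
      rw [Subgroup.mem_centralizer_singleton_iff]
      have h2 : a • x = x := ha
      have h3 : (a : G) * x.1.1 * (a : G)⁻¹ = x.1.1 := congrArg (fun t : X => t.1.1) h2
      show (a : G) * x.1.1 = x.1.1 * a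
      rw [mul_inv_eq_iff_eq_mul] at h3
      exact h3
  have hSP : Nat.card S ∣ Nat.card P := by
    rw [Sylow.card_eq_multiplicity, Sylow.card_eq_multiplicity]
    apply pow_dvd_pow
    exact (Nat.factorization_le_iff_dvd Nat.card_pos.ne' Nat.card_pos.ne').mpr
      (Subgroup.card_subgroup_dvd_card _) p
  obtain ⟨a, ha⟩ := hTS
  obtain ⟨b, hb⟩ := hSP
  have h4 := T.card_mul_index
  have h5 : Nat.card P / Nat.card S = b := by
    rw [hb]; exact Nat.mul_div_cancel_left _ Nat.card_pos
  rw [h5]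
  have h6 : Nat.card T * T.index = Nat.card T * (a * b) := by
    rw [h4, ← mul_assoc, ← ha]; exact hb
  rw [Nat.eq_of_mul_eq_mul_left Nat.card_pos h6]
  exact Dvd.intro_left _ rfl

end Cfsg.Agent.S0957
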