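import Mathlib
import Cfsg.Statements.S0958
import Cfsg.Agent.Lib.Cover.Root

set_option autoImplicit false
open Cfsg

namespace Cfsg.Agent.S0958

/-- Let P be a p-subgroup of the finite group G and H a subgroup with P ⊔ C_G(P) ≤ H ≤ N_G(P); fix a maximal ideal M of the algebraic integers containing p. Then a block B of G is induced by some block of H if and only if some conjugate of P is contained in a defect group of B. -/
theorem result {G : Type*} [Group G] [Finite G] (p : ℕ) [Fact p.Prime] (M : Ideal Cfsg.AlgInt) (hM : Cfsg.IsPModular p M) (P H : Subgroup G) (hP : IsPGroup p P) (hPH : P ⊔ Subgroup.centralizer (P : Set G) ≤ H) (hHN : H ≤ Subgroup.normalizer (P : Set G)) (B : Set (Cfsg.IrrCharacter G)) (hB : Cfsg.IsPBlock M B) : (∃ b : Set (Cfsg.IrrCharacter H), Cfsg.IsInducedBlock M H b B) ↔ ∃ D : Subgroup G, Cfsg.IsDefectGroup p M B D ∧ ∃ x : G, P.map (MulAut.conj x).toMonoidHom ≤ D := by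
  have hPH' : P ≤ H := le_sup_left.trans hPH
  constructor
  · rintro ⟨b, hb⟩
    obtain ⟨E, hE, h⟩ :=
      CfsgLib.Cover.exists_isDefectGroup_ge_of_isInducedBlock_of_le hM hP hPH' hHN hb
    exact ⟨E, hE, 1, (CfsgLib.BrPair.cS_one P).le.trans h⟩
  · rintro ⟨D, hD, x, hx⟩
    exact CfsgLib.Cover.exists_isInducedBlock_of_br_ne_zero hM hP hPH' (le_sup_right.trans hPH)
      hHN hB ((CfsgLib.Block.br_eB_ne_zero_iff hM hB hD hP).2
        ⟨x⁻¹, CfsgLib.BrPair.cS_le_iff.1 hx⟩)

end Cfsg.Agent.S0958
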