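import Mathlib
import Cfsg.Statements.S0973
import Cfsg.Agent.Lib.Cover.Root

set_option autoImplicit false
open Cfsg

namespace Cfsg.Agent.S0973

/-- Let B be a block of the finite group G with defect group P (relative to a maximal ideal M of the algebraic integers containing p), and let L = P ⊔ C_G(P). Then (i) some block b of L with defect group P (viewed in L) induces B, and (ii) if b and b' are blocks of L both inducing B, there is n ∈ N_G(P) carrying b to b': for every θ ∈ b there is θ' ∈ b' with θ' x = θ (n x n⁻¹) for all x ∈ L. -/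
theorem result {G : Type*} [Group G] [Finite G] (p : ℕ) [Fact p.Prime] (M : Ideal Cfsg.AlgInt) (hM : Cfsg.IsPModular p M) (B : Set (Cfsg.IrrCharacter G)) (hB : Cfsg.IsPBlock M B) (P : Subgroup G) (hP : Cfsg.IsDefectGroup p M B P) : (∃ b : Set (Cfsg.IrrCharacter ↥(P ⊔ Subgroup.centralizer (P : Set G))), Cfsg.IsDefectGroup p M b (P.subgroupOf (P ⊔ Subgroup.centralizer (P : Set G))) ∧ Cfsg.IsInducedBlock M (P ⊔ Subgroup.centralizer (P : Set G)) b B) ∧ ∀ b b' : Set (Cfsg.IrrCharacter ↥(P ⊔ Subgroup.centralizer (P : Set G))), Cfsg.IsInducedBlock M (P ⊔ Subgroup.centralizer (P : Set G)) b B → Cfsg.IsInducedBlock M (P ⊔ Subgroup.centralizer (P : Set G)) b' B → ∃ n ∈ Subgroup.normalizer (P : Set G), ∀ θ ∈ b, ∃ θ' ∈ b', ∀ x : ↥(P ⊔ Subgroup.centralizer (P : Set G)), ∀ hx : n * (x : G) * n⁻¹ ∈ P ⊔ Subgroup.centralizer (P : Set G), (θ' : ↥(P ⊔ Subgroup.centralizer (P : Set G)) → ℂ) x = (θ : ↥(P ⊔ Subgroup.centralizer (P : Set G)) → ℂ) ⟨n * (x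 : G) * n⁻¹, hx⟩ := by
  have hPp := CfsgLib.Block.isPGroup_of_isDefectGroup hP
  constructor
  · obtain ⟨b, hb⟩ := CfsgLib.Cover.exists_isInducedBlock_of_br_ne_zero hM hPp le_sup_left
      le_sup_right (CfsgLib.Cover.sup_Cz_le_Nz P) hB
      (CfsgLib.Block.br_eB_ne_zero_of_isDefectGroup hM hB hP)
    exact ⟨b, CfsgLib.Cover.isDefectGroup_of_isInducedBlock hM le_sup_left
      (CfsgLib.Cover.sup_Cz_le_Nz P) hb hP, hb⟩
  · intro b b' hb hb'
    obtain ⟨n, hn, h⟩ := CfsgLib.Cover.exists_cj_emb_eB_eq hM le_sup_left le_sup_right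
      (CfsgLib.Cover.sup_Cz_le_Nz P) (CfsgLib.Cover.Nz_le_Nz_sup_Cz P) hP hb hb'
    refine ⟨n, hn, fun θ hθ => ?_⟩
    let α := Subgroup.normalizerMonoidHom (P ⊔ Subgroup.centralizer (P : Set G))
      ⟨n, CfsgLib.Cover.Nz_le_Nz_sup_Cz P hn⟩
    refine ⟨_, CfsgLib.Cover.mem_of_coeff_eB_eq hM α hb.1 hb'.1 (fun x => ?_) hθ,
      fun x hx => rfl⟩
    have h1 := congrArg (fun z => z.coeff ((α x : _) : G)) h
    simp only [CfsgLib.BrPair.coeff_cj] at h1
    have h2 : n⁻¹ * ((α x : _) : G) * n = x := by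
      show n⁻¹ * (n * x * n⁻¹) * n = x
      group
    rw [h2] at h1
    exact (CfsgLib.BrPair.coeff_emb_apply (Subgroup.subtype_injective _) _ x).symm.trans
      (h1.trans (CfsgLib.BrPair.coeff_emb_apply (Subgroup.subtype_injective _) _ (α x)))

end Cfsg.Agent.S0973
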