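import Cfsg.Statements.S0986
import Cfsg.Agent.Lib.SmallSimple.Basic

set_option autoImplicit false
open Cfsg

namespace Cfsg.Agent.S0986

open CfsgLib.SmallSimple in
/-- With `D = P ⊓ Q` of maximal order, a `p`-subgroup properly containing `D` lies in a unique
Sylow subgroup. -/
theorem unique_of_lt {G : Type*} [Group G] [Finite G] (p : ℕ) [Fact p.Prime] (D : Subgroup G)
    (hmax : ∀ P' Q' : Sylow p G, P' ≠ Q' →
      Nat.card ↥((P' : Subgroup G) ⊓ (Q' : Subgroup G)) ≤ Nat.card D)
    (X : Subgroup G) (hX : D < X) (T T' : Sylow p G) (h1 : X ≤ T) (h2 : X ≤ T') : T = T' := by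
  by_contra hne
  have h3 := hmax T T' hne
  have h4 : Nat.card X ≤ Nat.card ↥((T : Subgroup G) ⊓ (T' : Subgroup G)) :=
    Subgroup.card_le_of_le (le_inf h1 h2)
  have h5 : Nat.card D < Nat.card X := by
    refine lt_of_le_of_ne (Subgroup.card_le_of_le hX.le) ?_
    intro h
    exact hX.ne (Subgroup.eq_of_le_of_card_ge hX.le h.ge)
  omega

/-- Let P and Q be distinct Sylow p-subgroups of a finite group G chosen so that the order of P ∩ Q is as large as possible among intersections of two distinct Sylow p-subgroups, and let N be the normalizer of P ∩ Q. Then N has more than one Sylow p-subgroup, any two distinct Sylow p-subgroups of N intersect exactly in P ∩ Q, and each Sylow p-subgroup of N lies in exactly one Sylow p-subgroup of G. -/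
theorem result {G : Type*} [Group G] [Finite G] (p : ℕ) [Fact p.Prime] (P Q : Sylow p G) (hPQ : P ≠ Q) (hmax : ∀ P' Q' : Sylow p G, P' ≠ Q' → Nat.card ↥((P' : Subgroup G) ⊓ (Q' : Subgroup G)) ≤ Nat.card ↥((P : Subgroup G) ⊓ (Q : Subgroup G))) : 1 < Nat.card (Sylow p ↥(Subgroup.normalizer (((P : Subgroup G) ⊓ (Q : Subgroup G) : Subgroup G) : Set G))) ∧ (∀ S T : Sylow p ↥(Subgroup.normalizer (((P : Subgroup G) ⊓ (Q : Subgroup G) : Subgroup G) : Set G)), S ≠ T → (S : Subgroup _) ⊓ (T : Subgroup _) = ((P : Subgroup G) ⊓ (Q : Subgroup G)).subgroupOf (Subgroup.normalizer (((P : Subgroup G) ⊓ (Q : Subgroup G) : Subgroup G) : Set G))) ∧ ∀ S : Sylow p ↥(Subgroup.normalizer (((P : Subgroup G) ⊓ (Q : Subgroup G) : Subgroup G) : Set G)), ∃! T : Sylow p G, (S : Subgroup _).map (Subgroup.normalizer (((P : Subgroup G) ⊓ (Q : Subgroup G) : Subgroup G) : Set G)).subtype ≤ (T : Subgroup G) := by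
  set D : Subgroup G := (P : Subgroup G) ⊓ (Q : Subgroup G) with hD
  set N : Subgroup G := Subgroup.normalizer (D : Set G) with hN
  have hDN : D ≤ N := Subgroup.le_normalizer
  have hDP : D < P := by
    refine lt_of_le_of_ne inf_le_left fun h => hPQ ?_
    have : (P : Subgroup G) ≤ Q := h ▸ inf_le_right
    exact Sylow.ext (P.3 Q.2 this).symm
  have hDQ : D < Q := by
    refine lt_of_le_of_ne inf_le_right fun h => hPQ ?_
    have : (Q : Subgroup G) ≤ P := h ▸ inf_le_left
    exact Sylow.ext (Q.3 P.2 this)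
  have hP' := CfsgLib.SmallSimple.lt_inf_normalizer P.2 hDP
  have hQ' := CfsgLib.SmallSimple.lt_inf_normalizer Q.2 hDQ
  have hDp : IsPGroup p (D.subgroupOf N) := (P.2.to_inf_left (K := (Q : Subgroup G))).comap_subtype
  haveI hDn : (D.subgroupOf N).Normal := Subgroup.normal_in_normalizer
  have hle : ∀ S : Sylow p N, D.subgroupOf N ≤ S := fun S => hDp.le_sylow_of_normal S
  -- Sylow subgroups of `N` properly contain `D`
  have hSP : ∃ S : Sylow p N, (P : Subgroup G).subgroupOf N ≤ S :=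
    (P.2.comap_subtype).exists_le_sylow
  have hSQ : ∃ S : Sylow p N, (Q : Subgroup G).subgroupOf N ≤ S :=
    (Q.2.comap_subtype).exists_le_sylow
  have hmapP : ∀ (S : Subgroup N) (R : Subgroup G), R.subgroupOf N ≤ S →
      R ⊓ N ≤ S.map N.subtype := by
    intro S R h x hx
    exact ⟨⟨x, hx.2⟩, h hx.1, rfl⟩
  have hlt : ∀ S : Sylow p N, D < (S : Subgroup N).map N.subtype := by
    intro S
    obtain ⟨S₀, hS₀⟩ := hSP
    have h1 : D ≤ (S : Subgroup N).map N.subtype := by
      intro x hx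
      exact ⟨⟨x, hDN hx⟩, hle S hx, rfl⟩
    refine lt_of_le_of_ne h1 fun h => ?_
    have h2 : Nat.card ((S : Subgroup N).map N.subtype) =
        Nat.card ((S₀ : Subgroup N).map N.subtype) := by
      rw [Subgroup.card_subtype, Subgroup.card_subtype, S.card_eq_multiplicity,
        S₀.card_eq_multiplicity]
    have h3 := hP'.trans_le (hmapP _ _ hS₀)
    rw [← h] at h2
    exact h3.ne (Subgroup.eq_of_le_of_card_ge h3.le h2.ge)
  have hex : ∀ S : Sylow p N, ∃ T : Sylow p G, (S : Subgroup N).map N.subtype ≤ T :=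
    fun S => (S.2.map N.subtype).exists_le_sylow
  have huniq := unique_of_lt p D hmax
  refine ⟨?_, ?_, ?_⟩
  · obtain ⟨S₀, hS₀⟩ := hSP
    obtain ⟨S₁, hS₁⟩ := hSQ
    have hne : S₀ ≠ S₁ := by
      rintro rfl
      obtain ⟨T, hT⟩ := hex S₀
      have e1 : T = P := huniq _ hP' T P ((hmapP _ _ hS₀).trans hT) inf_le_left
      have e2 : T = Q := huniq _ hQ' T Q ((hmapP _ _ hS₁).trans hT) inf_le_left
      exact hPQ (e1.symm.trans e2)
    haveI : Nontrivial (Sylow p N) := ⟨⟨S₀, S₁, hne⟩⟩
    exact Finite.one_lt_card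
  · intro S T hST
    refine le_antisymm ?_ (le_inf (hle S) (hle T))
    by_contra hc
    obtain ⟨S', hS'⟩ := hex S
    obtain ⟨T', hT'⟩ := hex T
    have h1 : D < ((S : Subgroup N) ⊓ (T : Subgroup N)).map N.subtype := by
      refine lt_of_le_of_ne ?_ fun h => hc ?_
      · intro x hx
        exact ⟨⟨x, hDN hx⟩, ⟨hle S hx, hle T hx⟩, rfl⟩
      · intro x hx
        rw [Subgroup.mem_subgroupOf, h]
        exact ⟨x, hx, rfl⟩
    have e : S' = T' := huniq _ h1 S' T' ((Subgroup.map_mono inf_le_left).trans hS')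
      ((Subgroup.map_mono inf_le_right).trans hT')
    subst e
    apply hST
    have hp : IsPGroup p ((S' : Subgroup G).subgroupOf N) := S'.2.comap_subtype
    have a1 : (S : Subgroup N) ≤ (S' : Subgroup G).subgroupOf N :=
      Subgroup.map_le_iff_le_comap.mp hS'
    have a2 : (T : Subgroup N) ≤ (S' : Subgroup G).subgroupOf N :=
      Subgroup.map_le_iff_le_comap.mp hT'
    exact Sylow.ext ((S.3 hp a1).symm.trans (T.3 hp a2))
  · intro S
    obtain ⟨T, hT⟩ := hex S
    exact ⟨T, hT, fun T' hT' => huniq _ (hlt S) T' T hT' hT⟩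

end Cfsg.Agent.S0986
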