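import Cfsg.Statements.S0987
import Cfsg.Agent.Lib.SmallSimple.NC

set_option autoImplicit false
open Cfsg

namespace Cfsg.Agent.S0987

/-- If a finite group has order pqr for primes p < q < r, then its Sylow r-subgroups are normal. -/
theorem result {G : Type*} [Group G] [Finite G] (p q r : ℕ) (hp : p.Prime) (hq : q.Prime) [Fact r.Prime] (hpq : p < q) (hqr : q < r) (hG : Nat.card G = p * q * r) (R : Sylow r G) : (R : Subgroup G).Normal := by
  haveI := Fact.mk hp
  have hr : r.Prime := Fact.out
  obtain ⟨P⟩ : Nonempty (Sylow p G) := inferInstance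
  have hpqr : ¬ p ∣ q * r := by
    intro h
    rcases (Nat.Prime.dvd_mul hp).mp h with h | h
    · exact absurd ((Nat.prime_dvd_prime_iff_eq hp hq).mp h) (by omega)
    · exact absurd ((Nat.prime_dvd_prime_iff_eq hp hr).mp h) (by omega)
  have hG' : Nat.card G = p ^ 1 * (q * r) := by rw [hG]; ring
  have hP : Nat.card (P : Subgroup G) = p := by
    simpa using CfsgLib.SmallSimple.card_sylow_eq P hG' hpqr
  have hcyc : IsCyclic (P : Subgroup G) := isCyclic_of_prime_card hP
  have hmin : (Nat.card G).minFac = p := by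
    apply le_antisymm (Nat.minFac_le_of_dvd hp.two_le (by rw [hG']; simp))
    have h1 : Nat.card G ≠ 1 := by
      intro h; rw [hG'] at h
      have := Nat.eq_one_of_mul_eq_one_right h
      simp at this; exact hp.one_lt.ne' this
    have h2 := Nat.minFac_prime h1
    have h3 := Nat.minFac_dvd (Nat.card G)
    generalize (Nat.card G).minFac = s at h2 h3 ⊢
    rw [hG] at h3
    rcases (Nat.Prime.dvd_mul h2).mp h3 with h | h
    · rcases (Nat.Prime.dvd_mul h2).mp h with h | h
      · exact ((Nat.prime_dvd_prime_iff_eq h2 hp).mp h).ge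
      · have := (Nat.prime_dvd_prime_iff_eq h2 hq).mp h; omega
    · have := (Nat.prime_dvd_prime_iff_eq h2 hr).mp h; omega
  have hc := hcyc.isComplement' hmin
  set K := (MonoidHom.transferSylow P (hcyc.normalizer_le_centralizer hmin)).ker
  haveI hKn : K.Normal := MonoidHom.normal_ker _
  have hKi : K.index = p := by rw [hc.symm.index_eq_card, hP]
  have hK : Nat.card K = r ^ 1 * q := by
    have := K.card_mul_index
    rw [hKi, hG] at this
    apply Nat.eq_of_mul_eq_mul_right hp.pos
    rw [this]; ring
  have hRK : (R : Subgroup G) ≤ K := by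
    intro x hx
    obtain ⟨k, hk⟩ := IsPGroup.iff_orderOf.mp R.2 ⟨x, hx⟩
    rw [Subgroup.orderOf_mk] at hk
    rw [← QuotientGroup.eq_one_iff, ← orderOf_eq_one_iff]
    have h1 : orderOf (x : G ⧸ K) ∣ r ^ k := hk ▸ orderOf_map_dvd (QuotientGroup.mk' K) x
    have h2 : orderOf (x : G ⧸ K) ∣ p := hKi ▸ orderOf_dvd_natCard _
    have h3 : Nat.Coprime p (r ^ k) :=
      Nat.Coprime.pow_right _ ((Nat.coprime_primes hp hr).mpr (by omega))
    exact Nat.eq_one_of_dvd_coprimes h3 h2 h1
  have hrq : ¬ r ∣ q := fun h => absurd ((Nat.prime_dvd_prime_iff_eq hr hq).mp h) (by omega)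
  have h1 : Nat.card (Sylow r K) ∣ q := by
    have := (R.subtype hRK).card_dvd_index
    rwa [CfsgLib.SmallSimple.index_sylow_eq _ hK hrq] at this
  have h2 : Nat.card (Sylow r K) = 1 := by
    rcases (Nat.dvd_prime hq).mp h1 with h | h
    · exact h
    · have h3 := card_sylow_modEq_one r K
      rw [h] at h3
      have := Nat.ModEq.eq_of_lt_of_lt h3 hqr hr.one_lt
      have := hq.one_lt
      omega
  haveI := (Nat.card_eq_one_iff_unique.mp h2).1
  have h4 := Sylow.normalizer_sup_eq_top' R hRK
  have h5 : K ≤ Subgroup.normalizer ((R : Subgroup G) : Set G) := by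
    have := (R.subtype hRK).normal_of_subsingleton
    rw [Sylow.coe_subtype] at this
    exact Subgroup.normal_subgroupOf_iff_le_normalizer hRK |>.mp this
  rw [← Subgroup.normalizer_eq_top_iff, eq_top_iff, ← h4]
  exact sup_le le_rfl h5

end Cfsg.Agent.S0987
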