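import Cfsg.Statements.S0989
import Cfsg.Agent.Lib.SmallSimple.NC

set_option autoImplicit false
open Cfsg

namespace Cfsg.Agent.S0989

/-- In the symmetric group on p or p + 1 letters, p a prime, the normalizer of a Sylow p-subgroup has order p * (p - 1). -/
theorem result {α : Type*} [Fintype α] [DecidableEq α] (p : ℕ) [Fact p.Prime] (hα : Fintype.card α = p ∨ Fintype.card α = p + 1) (P : Sylow p (Equiv.Perm α)) : Nat.card ↥(Subgroup.normalizer ((P : Subgroup (Equiv.Perm α)) : Set (Equiv.Perm α))) = p * (p - 1) := by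
  have hp : p.Prime := Fact.out
  have hfac : ∃ m, Nat.card (Equiv.Perm α) = p ^ 1 * m ∧ ¬ p ∣ m := by
    rw [Nat.card_perm, Nat.card_eq_fintype_card]
    have h1 : ¬ p ∣ (p - 1).factorial := by
      rw [hp.dvd_factorial]; have := hp.pos; omega
    have h2 : p.factorial = p * (p - 1).factorial := (Nat.mul_factorial_pred hp.ne_zero).symm
    rcases hα with h | h
    · exact ⟨_, by rw [h, h2, pow_one], h1⟩
    · refine ⟨(p + 1) * (p - 1).factorial, by rw [h, Nat.factorial_succ, h2]; ring, ?_⟩
      intro h3
      rcases (Nat.Prime.dvd_mul hp).mp h3 with h3 | h3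
      · exact hp.one_lt.ne' (Nat.dvd_one.mp ((Nat.dvd_add_right dvd_rfl).mp h3))
      · exact h1 h3
  obtain ⟨m, hm1, hm2⟩ := hfac
  have hP : Nat.card (P : Subgroup (Equiv.Perm α)) = p := by
    simpa using CfsgLib.SmallSimple.card_sylow_eq P hm1 hm2
  have hct : ∀ y : Equiv.Perm α, orderOf y = p → y.cycleType = {p} := by
    intro y hy
    have hc : y.IsCycle := by
      apply Equiv.Perm.isCycle_of_prime_order' (hy ▸ hp)
      have := hp.two_le
      rw [hy]; omega
    rw [hc.cycleType, ← hc.orderOf, hy]
  obtain ⟨x, hx, hPx⟩ := CfsgLib.SmallSimple.exists_zpowers_of_card_prime _ hP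
  rw [hPx, CfsgLib.SmallSimple.card_normalizer_zpowers, Equiv.Perm.nat_card_centralizer, hct x hx]
  have h1 : (Fintype.card α - p).factorial = 1 := by
    rcases hα with h | h <;> simp [h]
  have h2 : Nat.card {y : Equiv.Perm α // y ∈ Subgroup.zpowers x ∧ IsConj x y} = p - 1 := by
    have e : {y : Equiv.Perm α // y ∈ Subgroup.zpowers x ∧ IsConj x y} ≃
        {y : Subgroup.zpowers x // ¬ y = 1} :=
      { toFun := fun y => ⟨⟨y.1, y.2.1⟩, by
          intro h
          have h' : y.1 = 1 := congrArg Subtype.val h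
          have h3 := y.2.2
          rw [h', isConj_one_left] at h3
          rw [h3, orderOf_one] at hx
          exact hp.one_lt.ne hx⟩
        invFun := fun y => ⟨y.1.1, y.1.2, by
          rw [Equiv.Perm.isConj_iff_cycleType_eq, hct x hx, hct]
          refine (CfsgLib.SmallSimple.eq_zpowers_of_mem (hPx ▸ hP) y.1.2 ?_).1
          intro h; exact y.2 (Subtype.ext h)⟩
        left_inv := fun y => rfl
        right_inv := fun y => rfl }
    rw [Nat.card_congr e, Nat.card_eq_fintype_card, Fintype.card_subtype_compl,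
      ← Nat.card_eq_fintype_card, Nat.card_zpowers, hx]
    simp
  rw [h2]
  simp [h1]

end Cfsg.Agent.S0989
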