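import Cfsg.Statements.S0995
import Cfsg.Agent.Lib.PSL2Rec.Fix

set_option autoImplicit false
open Cfsg

namespace Cfsg.Agent.S0995


/-- Let G be a finite perfect group containing an element z of prime order p whose centralizer is the cyclic group it generates. Let t be the number of conjugacy classes of elements of order p. Then t divides p - 1, the number of Sylow p-subgroups has the form 1 + n * p, and |G| * t = (p - 1) * p * (1 + n * p). -/
theorem result {G : Type*} [Group G] [Finite G] (hperf : commutator G = ⊤) (p : ℕ) [Fact p.Prime] (z : G) (hz : orderOf z = p) (hC : Subgroup.centralizer ({z} : Set G) = Subgroup.zpowers z) : ∃ n t : ℕ, t = Nat.card {c : ConjClasses G // ∃ g : G, ConjClasses.mk g = c ∧ orderOf g = p} ∧ t ∣ p - 1 ∧ Nat.card (Sylow p G) = 1 + n * p ∧ Nat.card G * t = (p - 1) * p * (1 + n * p) := by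
  have hp : p.Prime := Fact.out
  have hz1 : z ≠ 1 := by rintro rfl; exact hp.one_lt.ne (by simpa using hz)
  have hzp : z ^ p ^ 1 = 1 := by rw [pow_one, ← hz, pow_orderOf_eq_one]
  obtain ⟨P, hzP⟩ := CfsgLib.PSL2Rec.exists_sylow_mem hzp
  have hcz : Nat.card (Subgroup.zpowers z) = p := by rw [Nat.card_zpowers, hz]
  have hPz : (P : Subgroup G) = Subgroup.zpowers z := by
    have : Nontrivial (P : Subgroup G) := ⟨⟨⟨z, hzP⟩, 1, fun h => hz1 (congrArg Subtype.val h)⟩⟩
    have := P.2.center_nontrivial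
    obtain ⟨⟨⟨w, hw⟩, hwc⟩, hw1⟩ := exists_ne (1 : Subgroup.center (P : Subgroup G))
    have hw1' : w ≠ 1 := fun h => hw1 (Subtype.ext (Subtype.ext h))
    have hwz : w ∈ Subgroup.zpowers z := by
      rw [← hC, Subgroup.mem_centralizer_singleton_iff]
      exact (congrArg Subtype.val (Subgroup.mem_center_iff.mp hwc ⟨z, hzP⟩)).symm
    refine le_antisymm (fun x hx => ?_) (Subgroup.zpowers_le_of_mem hzP)
    rw [← hC, ← CfsgLib.Core.centralizer_zpowers,
      CfsgLib.PSL2Rec.eq_zpowers_of_prime_card hcz hwz hw1', CfsgLib.Core.centralizer_zpowers,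
      Subgroup.mem_centralizer_singleton_iff]
    exact congrArg Subtype.val (Subgroup.mem_center_iff.mp hwc ⟨x, hx⟩)
  have hP : Nat.card (P : Subgroup G) = p := by rw [hPz, hcz]
  have hall := CfsgLib.PSL2Rec.card_sylow_eq_of_one hP
  have hCP : Nat.card (Subgroup.centralizer ((P : Subgroup G) : Set G)) = p := by
    rw [hPz, CfsgLib.Core.centralizer_zpowers, hC, hcz]
  have hcent : ∀ y : G, orderOf y = p → Nat.card (Subgroup.centralizer ({y} : Set G)) = p := by
    intro y hy
    have hy1 : y ≠ 1 := by rintro rfl; exact hp.one_lt.ne (by simpa using hy)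
    obtain ⟨Q, hyQ⟩ := CfsgLib.PSL2Rec.exists_sylow_mem (p := p) (k := 1) (x := y)
      (by rw [pow_one, ← hy, pow_orderOf_eq_one])
    obtain ⟨g, rfl⟩ := MulAction.exists_smul_eq G P Q
    rw [CfsgLib.PSL2Rec.mem_smul_sylow_iff] at hyQ
    have hconj : IsConj y (g⁻¹ * y * g) := isConj_iff.mpr ⟨g⁻¹, by rw [inv_inv]⟩
    have hy2 : g⁻¹ * y * g ≠ 1 := by
      intro h
      rw [h, isConj_one_left] at hconj
      exact hy1 hconj
    rw [CfsgLib.PSL2Rec.card_centralizer_of_isConj hconj, ← CfsgLib.Core.centralizer_zpowers,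
      ← CfsgLib.PSL2Rec.eq_zpowers_of_prime_card hP hyQ hy2, hCP]
  have h1 := CfsgLib.PSL2Rec.card_mul_eq_of_centralizer_const (fun g : G => orderOf g = p)
    (fun x y hxy hx => by rw [← CfsgLib.PSL2Rec.orderOf_eq_of_isConj hxy, hx]) hcent
  rw [CfsgLib.PSL2Rec.card_orderOf_eq_prime hall] at h1
  have h2 := CfsgLib.PSL2Rec.card_sylow_mul_card_normalizer P
  have h3 := CfsgLib.PSL2Rec.card_centralizer_mul_relIndex (P : Subgroup G)
  have h4 := CfsgLib.PSL2Rec.card_sylow_mod (G := G) (p := p)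
  have h5 : Nat.card (Sylow p G) = 1 + Nat.card (Sylow p G) / p * p := by
    have := Nat.mod_add_div' (Nat.card (Sylow p G)) p
    omega
  refine ⟨Nat.card (Sylow p G) / p, _, rfl, ?_, h5, ?_⟩
  · rw [← h2, ← h3, hCP] at h1
    refine ⟨(Subgroup.centralizer ((P : Subgroup G) : Set G)).relIndex
      (Subgroup.normalizer ((P : Subgroup G) : Set G)), ?_⟩
    apply Nat.eq_of_mul_eq_mul_left (Nat.mul_pos (Nat.card_pos (α := Sylow p G)) hp.pos)
    linarith
  · rw [← h5]
    linarith

end Cfsg.Agent.S0995
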