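import Cfsg.Statements.S1010
import Cfsg.Agent.Lib.PSL2Rec.Fix2
import Cfsg.Agent.S1009

set_option autoImplicit false
open Cfsg

namespace Cfsg.Agent.S1010

open Subgroup MulAction CfsgLib.PSL2Rec
open scoped commutatorElement

instance fact5 : Fact (Nat.Prime 5) := ⟨by norm_num⟩
instance fact7 : Fact (Nat.Prime 7) := ⟨by norm_num⟩

theorem isCyclic_mulAut_of_prime {H : Type*} [Group H] {p : ℕ} [hp : Fact p.Prime]
    (h : Nat.card H = p) : IsCyclic (MulAut H) := by
  have := isCyclic_of_prime_card h
  have e := IsCyclic.mulAutMulEquiv H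
  rw [h] at e
  exact isCyclic_of_surjective e.symm e.symm.surjective

section core
variable {G : Type*} [Group G] [Finite G] (h21 : Nat.card (Sylow 5 G) = 21)
  (hf : ∀ x : G, (∀ Q : Sylow 5 G, x • Q = Q) → x = 1)
  (hq : ∀ M : Subgroup G, M.Normal → ¬ 5 ∣ M.index → M = ⊤)

omit [Finite G] in
include hq in
theorem sign_one {X : Type*} [Fintype X] [DecidableEq X] [MulAction G X] (x : G) :
    Equiv.Perm.sign (toPerm x : Equiv.Perm X) = 1 := by
  have h := hq (Equiv.Perm.sign.comp (toPermHom G X)).ker inferInstance (by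
    rw [index_ker]
    intro h
    have h2 := h.trans (card_subgroup_dvd_card _)
    rw [Nat.card_eq_fintype_card, Fintype.card_units_int] at h2
    norm_num at h2)
  have : x ∈ (Equiv.Perm.sign.comp (toPermHom G X)).ker := h ▸ mem_top x
  exact this

include h21 hf in
theorem card_five (P : Sylow 5 G) : Nat.card (P : Subgroup G) = 5 := by
  have hidx : ∀ P Q : Sylow 5 G, Q ≠ P → (stabilizer (P : Subgroup G) Q).index = 5 := by
    intro P Q hne
    obtain ⟨k, hk⟩ := P.2.index (stabilizer (P : Subgroup G) Q)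
    have h1 : (stabilizer (P : Subgroup G) Q).index ≤ 21 := by
      rw [← h21, index_stabilizer]
      exact Set.ncard_le_card _
    have h2 : k ≠ 0 := by
      rintro rfl
      rw [pow_zero, index_eq_one] at hk
      apply hne
      have : Q ∈ fixedPoints (P : Subgroup G) (Sylow 5 G) := fun g => by
        have : g ∈ stabilizer (P : Subgroup G) Q := hk ▸ mem_top g
        exact this
      exact Sylow.ext (Q.3 P.2 (by
        have h := P.2.sylow_mem_fixedPoints_iff.mp this
        exact (P.3 Q.2 h).le)).symm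
    rw [hk] at h1 ⊢
    have : k < 2 := by
      by_contra h
      have := Nat.pow_le_pow_right (by norm_num : 0 < 5) (not_lt.mp h)
      omega
    obtain rfl : k = 1 := by omega
    rfl
  have hab : ∀ P : Sylow 5 G, IsMulCommutative (P : Subgroup G) := by
    intro P
    refine ⟨⟨fun a b => ?_⟩⟩
    rw [← commutatorElement_eq_one_iff_mul_comm]
    apply Subtype.ext
    apply hf
    intro Q
    by_cases hne : Q = P
    · subst hne
      exact (smul_sylow_eq_iff _ _).mpr (le_normalizer (⁅a, b⁆ : (Q : Subgroup G)).2)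
    have h1 := hidx P Q hne
    have hn : (stabilizer (P : Subgroup G) Q).Normal := by
      apply normal_of_index_eq_minFac_card
      obtain ⟨k, hk⟩ := P.2.exists_card_eq
      have hk0 : k ≠ 0 := by
        rintro rfl
        have := (stabilizer (P : Subgroup G) Q).index_dvd_card
        rw [h1, hk] at this
        norm_num at this
      rw [h1, hk, Nat.pow_minFac hk0, Nat.Prime.minFac_eq (by norm_num)]
    have hc : IsCyclic ((P : Subgroup G) ⧸ stabilizer (P : Subgroup G) Q) :=
      isCyclic_of_prime_card (p := 5) h1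
    have : ⁅a, b⁆ ∈ stabilizer (P : Subgroup G) Q := by
      rw [← QuotientGroup.eq_one_iff, ← QuotientGroup.mk'_apply, map_commutatorElement,
        commutatorElement_eq_one_iff_mul_comm]
      exact hc.isMulCommutative.1.1 _ _
    exact this
  obtain ⟨R, Q, hRQ⟩ := Cfsg.Agent.S1009.result 5 hab
  have hbot : ∀ x ∈ (R : Subgroup G), x ∈ (Q : Subgroup G) → x = 1 := by
    intro x hx hx'
    have : x ∈ (R : Subgroup G) ⊓ Q := ⟨hx, hx'⟩
    rw [hRQ, mem_iInf] at this
    exact hf x fun S => (smul_sylow_eq_iff _ _).mpr (le_normalizer (this S))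
  have hne : Q ≠ R := by
    rintro rfl
    have hQ : Nat.card (Q : Subgroup G) = 1 := by
      rw [card_eq_one, eq_bot_iff]
      exact fun x hx => hbot x hx hx
    have : Subsingleton (Sylow 5 G) := ⟨fun A B => Sylow.ext (by
      rw [card_eq_one.mp (card_sylow_eq_of_one hQ A), card_eq_one.mp (card_sylow_eq_of_one hQ B)])⟩
    have := Nat.card_of_subsingleton Q
    omega
  apply card_sylow_eq_of_one (P := R)
  refine Eq.trans ?_ (hidx R Q hne)
  have : stabilizer (R : Subgroup G) Q = ⊥ := by
    rw [eq_bot_iff]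
    rintro ⟨x, hx⟩ hxs
    obtain ⟨k, hk⟩ := R.2 ⟨x, hx⟩
    exact Subtype.ext (hbot x hx ((smul_sylow_eq_iff_mem (k := k) (x := x)
      (congrArg Subtype.val hk) Q).mp hxs))
  rw [this, index_bot]

include h21 hf in
theorem fix_lt {x : G} (hx : x ≠ 1) : Nat.card (fixedBy (Sylow 5 G) x) < 21 := by
  rw [← h21]
  apply card_fixedBy_lt
  by_contra h
  push Not at h
  exact hx (hf x h)

include h21 hf in
theorem fix_mod (P : Sylow 5 G) {x : G} (hx : x ∈ centralizer ((P : Subgroup G) : Set G)) :
    Nat.card (fixedBy (Sylow 5 G) x) % 5 = 1 := by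
  have hP := card_five h21 hf
  obtain ⟨z, hz, hz5⟩ := exists_mem_orderOf_eq_prime (P : Subgroup G) (p := 5) (by norm_num)
    (by rw [hP P])
  have hz1 : z ^ 5 ^ 1 = 1 := by rw [pow_one, ← hz5, pow_orderOf_eq_one]
  have h := card_fixedBy_modEq_of_commute (X := Sylow 5 G) hz1 (x := x) (hx z hz).symm
  have h1 : Nat.card {a : Sylow 5 G // x • a = a ∧ z • a = a} = 1 := by
    rw [Nat.card_eq_one_iff_exists]
    refine ⟨⟨P, (smul_sylow_eq_iff _ _).mpr (centralizer_le_normalizer _ hx),
      (smul_sylow_eq_iff_mem hz1 P).mpr hz⟩, ?_⟩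
    rintro ⟨Q, h1, h2⟩
    have hz2 := ne_one_of_orderOf_prime (by norm_num) hz5
    refine Subtype.ext (Sylow.ext ?_)
    rw [eq_zpowers_of_prime_card (hP P) hz hz2,
      eq_zpowers_of_prime_card (hP Q) ((smul_sylow_eq_iff_mem hz1 Q).mp h2) hz2]
  rw [h1] at h
  exact h

include h21 hq in
theorem fix_inv {x : G} (hx : x ^ 2 = 1) : Nat.card (fixedBy (Sylow 5 G) x) % 4 = 1 := by
  classical
  have := Fintype.ofFinite (Sylow 5 G)
  have h := four_dvd_moved_of_sign (X := Sylow 5 G) hx (sign_one hq x)
  rw [h21] at h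
  exact h.symm

include h21 hf hq in
theorem fix_two (P : Sylow 5 G) (k : ℕ) : ∀ {x : G}, x ∈ centralizer ((P : Subgroup G) : Set G) →
    x ≠ 1 → x ^ 2 ^ k = 1 → Nat.card (fixedBy (Sylow 5 G) x) = 1 := by
  induction k with
  | zero => intro x _ h1 h2; exact absurd (by simpa using h2) h1
  | succ k ih =>
    intro x hx h1 h2
    have h3 := fix_mod h21 hf P hx
    by_cases h4 : x ^ 2 = 1
    · have := fix_inv h21 hq h4
      have := fix_lt h21 hf h1
      omega
    · have := ih (pow_mem hx 2) h4 (by rw [← pow_mul, ← pow_succ', h2])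
      have := card_fixedBy_le_pow (X := Sylow 5 G) x 2
      omega

include h21 hf in
theorem fix_three (P : Sylow 5 G) {k : ℕ} {x : G} (hx : x ∈ centralizer ((P : Subgroup G) : Set G))
    (h1 : x ≠ 1) (h2 : x ^ 3 ^ k = 1) : Nat.card (fixedBy (Sylow 5 G) x) = 6 := by
  have : Fact (Nat.Prime 3) := Nat.fact_prime_three
  have h3 := fix_mod h21 hf P hx
  have h4 := fix_lt h21 hf h1
  have h5 := card_fixedBy_modEq (X := Sylow 5 G) h2
  rw [h21] at h5
  unfold Nat.ModEq at h5
  omega

include h21 hf hq in
theorem card_cent_dvd (P : Sylow 5 G) :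
    Nat.card (centralizer ((P : Subgroup G) : Set G)) ∣ 60 := by
  set C := centralizer ((P : Subgroup G) : Set G) with hC
  refine (Nat.dvd_iff_prime_pow_dvd_dvd _ _).mpr fun r k hr hk => ?_
  rcases Nat.eq_zero_or_pos k with rfl | hk0
  · simp
  have hr1 : r = 2 ∨ r = 3 ∨ r = 5 := by
    obtain ⟨x, hx, hxr⟩ := exists_mem_orderOf_eq_prime C hr ((dvd_pow_self r hk0.ne').trans hk)
    have := Fact.mk hr
    have h3 := fix_mod h21 hf P hx
    have h4 := fix_lt h21 hf (ne_one_of_orderOf_prime hr hxr)
    have h5 := card_fixedBy_modEq (X := Sylow 5 G) (p := r) (k := 1) (x := x)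
      (by rw [pow_one, ← hxr, pow_orderOf_eq_one])
    rw [h21] at h5
    have h6 := (Nat.modEq_iff_dvd' h4.le).mp h5.symm
    have h7 : r ∣ 60 := by
      refine h6.trans ?_
      generalize Nat.card (fixedBy (Sylow 5 G) x) = n at *
      interval_cases n <;> omega
    have h8 : r ∣ 2 ^ 2 * 3 * 5 := h7
    rcases (Nat.Prime.dvd_mul hr).mp h8 with h | h
    · rcases (Nat.Prime.dvd_mul hr).mp h with h | h
      · exact Or.inl ((Nat.prime_dvd_prime_iff_eq hr Nat.prime_two).mp (hr.dvd_of_dvd_pow h))
      · exact Or.inr (Or.inl ((Nat.prime_dvd_prime_iff_eq hr Nat.prime_three).mp h))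
    · exact Or.inr (Or.inr ((Nat.prime_dvd_prime_iff_eq hr (by norm_num)).mp h))
  rcases hr1 with rfl | rfl | rfl
  · by_contra h
    have hk3 : 3 ≤ k := by
      by_contra h'
      interval_cases k <;> simp_all
    obtain ⟨U, hU, hU8⟩ := exists_subgroup_le_card_pow C hr ((pow_dvd_pow 2 hk3).trans hk)
    have := card_orbits_mul_of_const (H := U) (X := Sylow 5 G) (f := 1) (fun u hu =>
      fix_two h21 hf hq P 3 (hU u.2) (fun h => hu (Subtype.ext h))
        (hU8 ▸ pow_card_eq_one_of_mem u.2))
    rw [hU8, h21] at this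
    omega
  · by_contra h
    have hk3 : 2 ≤ k := by
      by_contra h'
      interval_cases k <;> simp_all
    obtain ⟨U, hU, hU8⟩ := exists_subgroup_le_card_pow C hr ((pow_dvd_pow 3 hk3).trans hk)
    have := card_orbits_mul_of_const (H := U) (X := Sylow 5 G) (f := 6) (fun u hu =>
      fix_three h21 hf P (k := 2) (hU u.2) (fun h => hu (Subtype.ext h))
        (hU8 ▸ pow_card_eq_one_of_mem u.2))
    rw [hU8, h21] at this
    omega
  · have := P.pow_dvd_card_of_pow_dvd_card (hk.trans (card_subgroup_dvd_card C))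
    rw [card_five h21 hf P] at this
    exact this.trans (by norm_num)

include h21 hf in
theorem rel_dvd (P : Sylow 5 G) : (centralizer ((P : Subgroup G) : Set G)).relIndex
    (normalizer ((P : Subgroup G) : Set G)) ∣ 4 :=
  relIndex_centralizer_dvd_of_prime (p := 5) _ (card_five h21 hf P)

include h21 hf hq in
theorem seven_not_fix {y : G} (hy : orderOf y = 7) (P : Sylow 5 G) : y • P ≠ P := by
  intro h
  have h1 := orderOf_dvd_natCard _ ((smul_sylow_eq_iff _ _).mp h)
  rw [hy, ← card_centralizer_mul_relIndex] at h1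
  have := h1.trans (Nat.mul_dvd_mul (card_cent_dvd h21 hf hq P) (rel_dvd h21 hf P))
  norm_num at this

include h21 hf hq in
theorem seven_data (S : Sylow 7 G) (hS : Nat.card (S : Subgroup G) = 7) :
    ¬ 5 ∣ Nat.card (normalizer ((S : Subgroup G) : Set G)) ∧
      ¬ 2 ∣ Nat.card (centralizer ((S : Subgroup G) : Set G)) := by
  obtain ⟨y, hy, hy7⟩ := exists_mem_orderOf_eq_prime (S : Subgroup G) (p := 7) (by norm_num)
    (by rw [hS])
  constructor
  · intro h
    rw [← card_centralizer_mul_relIndex] at h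
    have h1 := relIndex_centralizer_dvd_of_prime (p := 7) _ hS
    rcases (Nat.Prime.dvd_mul (by norm_num)).mp h with h | h
    · obtain ⟨z, hz, hz5⟩ := exists_mem_orderOf_eq_prime _ (p := 5) (by norm_num) h
      obtain ⟨P, hP⟩ := exists_sylow_mem (p := 5) (k := 1) (x := z)
        (by rw [pow_one, ← hz5, pow_orderOf_eq_one])
      apply seven_not_fix h21 hf hq hy7 P
      rw [smul_sylow_eq_iff]
      apply centralizer_le_normalizer
      rw [eq_zpowers_of_prime_card (card_five h21 hf P) hP (ne_one_of_orderOf_prime (by norm_num) hz5),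
        CfsgLib.Core.centralizer_zpowers, mem_centralizer_singleton_iff]
      exact hz y hy
    · have := h.trans h1
      norm_num at this
  · intro h
    obtain ⟨t, ht, ht2⟩ := exists_mem_orderOf_eq_prime _ Nat.prime_two h
    have h1 := fix_inv h21 hq (x := t) (by rw [← ht2, pow_orderOf_eq_one])
    have h2 := fix_lt h21 hf (ne_one_of_orderOf_prime Nat.prime_two ht2)
    have h3 := card_fixedBy_modEq_of_commute (X := Sylow 5 G) (p := 7) (k := 1) (x := t) (z := y)
      (by rw [pow_one, ← hy7, pow_orderOf_eq_one]) (ht y hy).symm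
    have : IsEmpty {a : Sylow 5 G // t • a = a ∧ y • a = a} :=
      ⟨fun a => seven_not_fix h21 hf hq hy7 _ a.2.2⟩
    rw [Nat.card_of_isEmpty (α := {a : Sylow 5 G // t • a = a ∧ y • a = a})] at h3
    unfold Nat.ModEq at h3
    omega

include h21 hf hq in
theorem no_semiregular (P : Sylow 5 G) {k : ℕ}
    (he : (centralizer ((P : Subgroup G) : Set G)).relIndex
      (normalizer ((P : Subgroup G) : Set G)) = 2 ^ (k + 1))
    (Y : Subgroup G) (hY : Y ≤ normalizer ((P : Subgroup G) : Set G))
    (hc : Nat.card Y = 2 ^ (k + 1))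
    (hconj : ∀ y ∈ Y, y ≠ 1 → ∀ g : G, g⁻¹ * y * g ∉ centralizer ((P : Subgroup G) : Set G)) :
    False := by
  classical
  have hcyc := isCyclic_mulAut_of_prime (p := 5) (card_five h21 hf P)
  have hinj : Function.Injective ((P : Subgroup G).normalizerMonoidHom.comp (inclusion hY)) := by
    rw [injective_iff_map_eq_one]
    intro y hy
    have h1 : inclusion hY y ∈ (P : Subgroup G).normalizerMonoidHom.ker := hy
    rw [normalizerMonoidHom_ker] at h1
    by_contra h2
    refine hconj y y.2 (fun h => h2 (Subtype.ext h)) 1 ?_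
    rw [inv_one, one_mul, mul_one]
    exact h1
  have : IsCyclic Y := isCyclic_of_injective _ hinj
  obtain ⟨y, hy⟩ := IsCyclic.exists_ofOrder_eq_natCard (α := Y)
  rw [hc] at hy
  have hy' : orderOf (y : G) = 2 ^ (k + 1) := by simpa using hy
  have := Fintype.ofFinite (G ⧸ centralizer ((P : Subgroup G) : Set G))
  have h1 := sign_of_semiregular (X := G ⧸ centralizer ((P : Subgroup G) : Set G)) (x := (y : G))
    (k := k) (by rw [← hy', pow_orderOf_eq_one]) (fun a => ?_) (m := 21) ?_ (by decide)
  · rw [sign_one hq] at h1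
    exact absurd h1 (by decide)
  · induction a using QuotientGroup.induction_on with | H g => ?_
    intro h
    rw [Quotient.smul_mk, QuotientGroup.eq] at h
    refine hconj ((y : G) ^ 2 ^ k)⁻¹ (inv_mem (pow_mem y.2 _)) ?_ g (by simpa [mul_assoc] using h)
    rw [Ne, inv_eq_one, ← orderOf_dvd_iff_pow_eq_one, hy', Nat.pow_dvd_pow_iff_le_right (by norm_num)]
    omega
  · rw [← index_eq_card, ← relIndex_mul_index (centralizer_le_normalizer _), he, ← h21,
      P.card_eq_index_normalizer]
    rfl

include h21 hf hq in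
theorem core : False := by
  obtain ⟨P⟩ : Nonempty (Sylow 5 G) := inferInstance
  obtain ⟨S⟩ : Nonempty (Sylow 7 G) := inferInstance
  have hP := card_five h21 hf P
  have hC := card_cent_dvd h21 hf hq P
  have he := rel_dvd h21 hf P
  have hN := card_centralizer_mul_relIndex (P : Subgroup G)
  have hG := card_sylow_mul_card_normalizer P
  have hPC : (P : Subgroup G) ≤ centralizer ((P : Subgroup G) : Set G) := by
    have := isCyclic_of_prime_card (p := 5) hP
    exact le_centralizer _
  have h5 := card_dvd_of_le hPC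
  rw [hP] at h5
  set C := centralizer ((P : Subgroup G) : Set G) with hCdef
  set N := normalizer ((P : Subgroup G) : Set G) with hNdef
  obtain ⟨v, hv⟩ := h5
  have hv12 : v ∣ 12 := by
    rw [hv] at hC
    exact Nat.dvd_of_mul_dvd_mul_left (by norm_num : 0 < 5) hC
  set e := C.relIndex N with hedef
  rw [h21, ← hN, hv] at hG
  have hG7 : Nat.card G = 7 ^ 1 * (15 * (v * e)) := by rw [← hG]; ring
  have h7 : ¬ 7 ∣ 15 * (v * e) := by
    intro h
    have := h.trans (Nat.mul_dvd_mul_left 15 (Nat.mul_dvd_mul hv12 he))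
    norm_num at this
  have hS : Nat.card (S : Subgroup G) = 7 := by simpa using card_sylow_of_eq hG7 h7 S
  obtain ⟨hS5, hS2⟩ := seven_data h21 hf hq S hS
  by_cases he1 : e = 1
  · have hNC : N ≤ C := relIndex_eq_one.mp he1
    have hcomp := MonoidHom.ker_transferSylow_isComplement' P hNC
    set M := (MonoidHom.transferSylow P hNC).ker
    have hM : M.index = 5 := by rw [hcomp.symm.index_eq_card, hP]
    have hSM : (S : Subgroup G) ≤ M :=
      CfsgLib.Core.le_of_coprime_card_index (by rw [hS, hM]; norm_num)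
    have h1 := S.normalizer_sup_eq_top' hSM
    have h2 := CfsgLib.Core.card_sup_dvd_of_normal (normalizer (S : Set G)) M
    rw [h1, card_top] at h2
    have h3 : 5 ∣ Nat.card G := by rw [hG7]; exact ⟨21 * (v * e), by ring⟩
    rcases (Nat.Prime.dvd_mul (by norm_num)).mp (h3.trans h2) with h | h
    · exact hS5 h
    · exact MonoidHom.not_dvd_card_ker_transferSylow P hNC h
  obtain ⟨k, hk⟩ : ∃ k, e = 2 ^ (k + 1) := by
    have := Nat.le_of_dvd (by norm_num) he
    interval_cases e
    · simp at he
    · simp at he1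
    · exact ⟨0, rfl⟩
    · norm_num at he
    · exact ⟨1, rfl⟩
  have hvcases : (v = 1 ∨ v = 3) ∨ (v = 4 ∨ v = 12) ∨ v = 2 ∨ v = 6 := by
    have := Nat.le_of_dvd (by norm_num) hv12
    interval_cases v <;> first | omega | simp
  have : Fact (Nat.Prime 2) := Nat.fact_prime_two
  rcases hvcases with hv1 | hv1 | hv1 | hv1
  · obtain ⟨Y, hY, hYc⟩ := exists_subgroup_le_card_pow N (k := k + 1) Nat.prime_two
      (by rw [← hN, hk]; exact Dvd.intro_left _ rfl)
    refine no_semiregular h21 hf hq P hk Y hY hYc fun y hy hy1 g hg => ?_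
    have h1 := orderOf_dvd_natCard _ hg
    have h2 : orderOf (g⁻¹ * y * g) = orderOf y := by
      simpa using (MulAut.conj g⁻¹).orderOf_eq y
    have h3 := orderOf_dvd_natCard _ hy
    rw [h2, hv] at h1
    rw [hYc] at h3
    have h4 : Nat.Coprime (5 * v) (2 ^ (k + 1)) := by
      apply Nat.Coprime.pow_right
      rcases hv1 with rfl | rfl <;> norm_num
    exact hy1 (orderOf_eq_one_iff.mp (Nat.eq_one_of_dvd_coprimes h4 h1 h3))
  · obtain ⟨T, hT, hTc⟩ := exists_subgroup_le_card_pow N (k := k + 3) Nat.prime_two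
      (by
        rw [← hN, hk, hv]
        rcases hv1 with rfl | rfl
        · exact ⟨5, by ring⟩
        · exact ⟨15, by ring⟩)
    have h1 : ∃ Q : Sylow 5 G, Q ≠ P ∧ ¬ 8 ∣ Nat.card (orbit T Q) := by
      by_contra h
      push Not at h
      have := card_modEq_one_of_dvd_orbit (H := T) P
        (fun g => (smul_sylow_eq_iff _ _).mpr (hT g.2)) h
      rw [h21] at this
      exact absurd this (by decide)
    obtain ⟨Q, hQP, hQ8⟩ := h1
    have h2 := card_orbit_mul_card_stabilizer (H := T) Q
    rw [hTc] at h2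
    obtain ⟨i, hi, hi'⟩ := (Nat.dvd_prime_pow Nat.prime_two).mp (Dvd.intro _ h2)
    have hi3 : i < 3 := by
      by_contra h
      exact hQ8 (hi' ▸ pow_dvd_pow 2 (not_lt.mp h))
    have h3 : 2 ^ (k + 1) ∣ Nat.card ((stabilizer T Q).map T.subtype) := by
      rw [CfsgLib.Core.card_map_subtype]
      rw [hi', show k + 3 = i + (k + 3 - i) by omega, pow_add] at h2
      rw [Nat.eq_of_mul_eq_mul_left (by positivity) h2]
      exact pow_dvd_pow 2 (by omega)
    obtain ⟨Y, hY, hYc⟩ := exists_subgroup_le_card_pow _ Nat.prime_two h3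
    refine no_semiregular h21 hf hq P hk Y (hY.trans ((map_subtype_le _).trans hT)) hYc
      fun y hy hy1 g hg => ?_
    have h4 := fix_two h21 hf hq P (k + 1) hg (by
      intro h
      apply hy1
      calc y = g * (g⁻¹ * y * g) * g⁻¹ := by group
        _ = 1 := by rw [h]; group) (by
      have := pow_card_eq_one_of_mem hy
      rw [hYc] at this
      calc (g⁻¹ * y * g) ^ 2 ^ (k + 1) = (g⁻¹ * y * g⁻¹⁻¹) ^ 2 ^ (k + 1) := by rw [inv_inv]
        _ = 1 := by rw [conj_pow, this]; group)
    rw [card_fixedBy_conj] at h4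
    obtain ⟨t, ht, rfl⟩ := hY hy
    have := (Nat.card_eq_one_iff_unique.mp h4).1
    exact hQP (congrArg Subtype.val (Subsingleton.elim
      (⟨Q, ht⟩ : fixedBy (Sylow 5 G) (T.subtype t)) ⟨P, (smul_sylow_eq_iff _ _).mpr (hT t.2)⟩))
  · have h1 := card_sylow_mul_card_normalizer S
    have h2 := card_centralizer_mul_relIndex (S : Subgroup G)
    have h3 := relIndex_centralizer_dvd_of_prime (p := 7) _ hS
    have h4 := card_sylow_mod (G := G) (p := 7)
    have h5 := card_sylow_dvd_of_eq hG7 h7
    have h6 : ¬ 4 ∣ Nat.card (normalizer ((S : Subgroup G) : Set G)) := by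
      intro h
      rw [← h2] at h
      have h' : Nat.Coprime 4 (Nat.card (centralizer ((S : Subgroup G) : Set G))) :=
        Nat.Coprime.pow_left 2 ((Nat.Prime.coprime_iff_not_dvd Nat.prime_two).mpr hS2)
      have := (h'.dvd_of_dvd_mul_left h).trans h3
      norm_num at this
    have h8 : Nat.card (normalizer ((S : Subgroup G) : Set G)) ≠ 7 := by
      intro h
      have hSN : normalizer ((S : Subgroup G) : Set G) = S :=
        (CfsgLib.Core.eq_of_le_of_card_le le_normalizer (by rw [h, hS])).symm
      have hNC : normalizer ((S : Subgroup G) : Set G) ≤ centralizer ((S : Subgroup G) : Set G) := by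
        have := isCyclic_of_prime_card (p := 7) hS
        rw [hSN]
        exact le_centralizer _
      have hcomp := MonoidHom.ker_transferSylow_isComplement' S hNC
      have hM := hcomp.symm.index_eq_card
      rw [hq (MonoidHom.transferSylow S hNC).ker inferInstance (by rw [hM, hS]; norm_num), index_top,
        hS] at hM
      norm_num at hM
    subst hv1
    have hk1 : k ≤ 1 := by
      rw [hk] at he
      have := (Nat.pow_dvd_pow_iff_le_right (by norm_num : 1 < 2)).mp (show 2 ^ (k + 1) ∣ 2 ^ 2 from he)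
      omega
    rw [hG7] at h1
    rw [hk] at h1 h5
    generalize Nat.card (normalizer ((S : Subgroup G) : Set G)) = m at *
    generalize Nat.card (Sylow 7 G) = n at *
    interval_cases k
    · have := Nat.le_of_dvd (by norm_num) h5
      interval_cases n <;> omega
    · have := Nat.le_of_dvd (by norm_num) h5
      interval_cases n <;> omega
  · subst hv1
    have : Fact (Nat.Prime 3) := Nat.fact_prime_three
    obtain ⟨W⟩ : Nonempty (Sylow 3 C) := inferInstance
    have hC3 : Nat.card C = 3 ^ 1 * 10 := by rw [hv]; norm_num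
    have hW : Nat.card (W : Subgroup C) = 3 := by simpa using card_sylow_of_eq hC3 (by norm_num) W
    have h1 := card_sylow_mul_card_normalizer W
    have h2 : 5 ∣ Nat.card (normalizer ((W : Subgroup C) : Set C)) := by
      have : (P : Subgroup G).subgroupOf C ≤ normalizer ((W : Subgroup C) : Set C) := by
        refine le_trans ?_ (centralizer_le_normalizer _)
        intro x hx w _
        exact Subtype.ext (w.2 x hx).symm
      have := card_dvd_of_le this
      rwa [CfsgLib.Core.card_subgroupOf_of_le hPC, hP] at this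
    have h3 := card_sylow_mod (G := C) (p := 3)
    have h4 := card_sylow_dvd_of_eq hC3 (by norm_num)
    have h5 : Nat.card (Sylow 3 C) = 1 := by
      rw [hC3] at h1
      have := Nat.le_of_dvd (by norm_num) h4
      generalize Nat.card (normalizer ((W : Subgroup C) : Set C)) = m at *
      generalize Nat.card (Sylow 3 C) = n at *
      interval_cases n <;> omega
    have hWn := sylow_normal_of_card_eq_one h5 W
    obtain ⟨w, hw, hw3⟩ := exists_mem_orderOf_eq_prime (W : Subgroup C) Nat.prime_three (by rw [hW])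
    obtain ⟨u, hu, hu2⟩ := exists_mem_orderOf_eq_prime C Nat.prime_two (by rw [hv]; norm_num)
    have hw1 := ne_one_of_orderOf_prime Nat.prime_three hw3
    have h6 := fix_three h21 hf P (k := 1) w.2 (fun h => hw1 (Subtype.ext h)) (by
      rw [pow_one, ← hw3]; exact congrArg Subtype.val (pow_orderOf_eq_one w))
    have hu2' : u ^ 2 ^ 1 = 1 := by rw [pow_one, ← hu2, pow_orderOf_eq_one]
    have h8 := fix_two h21 hf hq P 1 hu (ne_one_of_orderOf_prime Nat.prime_two hu2) hu2'
    have h9 := card_modEq_of_mapsTo (X := Sylow 5 G) hu2' (fixedBy (Sylow 5 G) (w : G)) (by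
      intro a ha
      have h10 : (⟨u, hu⟩ : C)⁻¹ * w * (⟨u, hu⟩ : C)⁻¹⁻¹ ∈ (W : Subgroup C) := hWn.conj_mem w hw _
      rw [eq_zpowers_of_prime_card hW hw hw1] at h10
      have h11 : zpowers w ≤ stabilizer C a := zpowers_le.mpr ha
      have h12 : (u⁻¹ * w * u⁻¹⁻¹) • a = a := h11 h10
      rw [inv_inv, mul_smul, mul_smul, inv_smul_eq_iff] at h12
      exact h12)
    have h10 : Nat.card {a : Sylow 5 G // a ∈ fixedBy (Sylow 5 G) (w : G) ∧ u • a = a} = 1 := by
      have hPu : u • P = P := (smul_sylow_eq_iff _ _).mpr (centralizer_le_normalizer _ hu)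
      rw [Nat.card_eq_one_iff_exists]
      refine ⟨⟨P, (smul_sylow_eq_iff _ _).mpr (centralizer_le_normalizer _ w.2), hPu⟩, ?_⟩
      rintro ⟨Q, hQ', hQ⟩
      have := (Nat.card_eq_one_iff_unique.mp h8).1
      have h11 : Q = P := congrArg Subtype.val (Subsingleton.elim
        (⟨Q, hQ⟩ : fixedBy (Sylow 5 G) u) ⟨P, hPu⟩)
      exact Subtype.ext h11
    rw [h6, h10] at h9
    exact absurd h9 (by decide)

end core

theorem aux (n : ℕ) : ∀ {G : Type*} [Group G] [Finite G], Nat.card G = n →
    Nat.card (Sylow 5 G) ≠ 21 := by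
  induction n using Nat.strong_induction_on with
  | _ n ih =>
    intro G _ _ hn h21
    refine core h21 (fun x hx => ?_) (fun M hM h5 => ?_)
    · by_contra hx1
      have hK : (toPermHom G (Sylow 5 G)).ker ≠ ⊥ := by
        intro h
        have : x ∈ (toPermHom G (Sylow 5 G)).ker := Equiv.ext hx
        rw [h] at this
        exact hx1 this
      refine ih _ (hn ▸ CfsgLib.Core.card_quotient_lt_of_ne_bot hK) rfl ?_
      rw [card_sylow_of_surjective (QuotientGroup.mk'_surjective _), h21]
      intro P g hg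
      rw [QuotientGroup.ker_mk'] at hg
      exact (smul_sylow_eq_iff _ _).mp (Equiv.congr_fun hg P)
    · by_contra hM1
      refine ih _ (hn ▸ CfsgLib.Core.card_lt_of_ne_top hM1) rfl ?_
      rw [card_sylow_of_forall_le, h21]
      intro P
      apply CfsgLib.Core.le_of_coprime_card_index
      obtain ⟨k, hk⟩ := P.2.exists_card_eq
      rw [hk]
      exact Nat.Coprime.pow_left _ ((Nat.Prime.coprime_iff_not_dvd (by norm_num)).mpr h5)

/-- No finite group has exactly twenty-one Sylow 5-subgroups. -/
theorem result {G : Type*} [Group G] [Finite G] : Nat.card (Sylow 5 G) ≠ 21 := by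
  exact aux _ rfl

end Cfsg.Agent.S1010
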