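import Cfsg.Statements.S1014
import Cfsg.Agent.Lib.PSL2Rec.Fix

set_option autoImplicit false
open Cfsg

namespace Cfsg.Agent.S1014


/-- No finite simple group has order 1104 = 2^4 * 3 * 23. -/
theorem result {G : Type*} [Group G] [Finite G] [IsSimpleGroup G] : Nat.card G ≠ 1104 := by
  intro h
  have : Fact (Nat.Prime 23) := ⟨by norm_num⟩
  obtain ⟨P⟩ : Nonempty (Sylow 23 G) := inferInstance
  obtain ⟨hP, h1, h2, h3, e, h4, h5, h6, h7, h8⟩ :=
    CfsgLib.PSL2Rec.sylow_prime_data (p := 23) (m := 48) (by rw [h]) (by norm_num) (by norm_num) P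
  have h9 : Nat.card (Sylow 23 G) = 24 := by
    have := Nat.le_of_dvd (by norm_num) h1
    generalize Nat.card (Sylow 23 G) = n at *
    interval_cases n <;> omega
  rw [h9] at h8
  have hN : Nat.card (Subgroup.normalizer ((P : Subgroup G) : Set G)) = 46 := by omega
  have hC : Nat.card (Subgroup.centralizer ((P : Subgroup G) : Set G)) = 23 := by
    obtain ⟨c, hc⟩ := h7
    rw [hc, hN] at h6
    have h10 : c * e = 2 := by linarith
    have : e ∣ 2 := ⟨c, by rw [mul_comm, h10]⟩
    have h11 : e = 2 := ((Nat.dvd_prime Nat.prime_two).mp this).resolve_left h5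
    subst h11
    omega
  have : Fact (Nat.Prime 2) := Nat.fact_prime_two
  obtain ⟨⟨t, ht⟩, ht2⟩ := exists_prime_orderOf_dvd_card' (G := Subgroup.normalizer ((P : Subgroup G) : Set G)) 2 (by rw [hN]; norm_num)
  have ht3 : orderOf t = 2 := by simpa using ht2
  have ht4 : t ∉ Subgroup.centralizer ((P : Subgroup G) : Set G) := by
    intro h'
    have := Subgroup.orderOf_dvd_natCard _ h'
    rw [ht3, hC] at this
    norm_num at this
  have h12 := CfsgLib.PSL2Rec.card_fixedBy_sylow_mul_le P hP ht ht4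
  have h13 := CfsgLib.PSL2Rec.simple_involution_moved (G := G) (by rw [h]; norm_num) (Sylow 23 G)
    (x := t) (by rw [← ht3, pow_orderOf_eq_one])
  have h14 : 0 < Nat.card (MulAction.fixedBy (Sylow 23 G) t) :=
    Nat.card_pos_iff.mpr ⟨⟨⟨P, (CfsgLib.PSL2Rec.smul_sylow_eq_iff t P).mpr ht⟩⟩, inferInstance⟩
  rw [h9] at h12 h13
  unfold Nat.ModEq at h13
  omega

end Cfsg.Agent.S1014
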