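import Cfsg.Statements.S1015
import Cfsg.Agent.Lib.PSL2Rec.Fix

set_option autoImplicit false
open Cfsg

namespace Cfsg.Agent.S1015


/-- No finite simple group has order 1200 = 2^4 * 3 * 5^2. -/
theorem result {G : Type*} [Group G] [Finite G] [IsSimpleGroup G] : Nat.card G ≠ 1200 := by
  intro h
  have : Fact (Nat.Prime 5) := ⟨by norm_num⟩
  have hG : Nat.card G = 5 ^ 2 * 48 := by rw [h]; norm_num
  obtain ⟨P⟩ : Nonempty (Sylow 5 G) := inferInstance
  have hcard : ∀ Q : Sylow 5 G, Nat.card (Q : Subgroup G) = 5 ^ 2 :=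
    CfsgLib.PSL2Rec.card_sylow_of_eq hG (by norm_num)
  have h1 := CfsgLib.PSL2Rec.card_sylow_dvd_of_eq hG (by norm_num)
  have h2 := CfsgLib.PSL2Rec.card_sylow_mod (G := G) (p := 5)
  have h3 := CfsgLib.PSL2Rec.card_sylow_ne_one hG (by norm_num) (by norm_num) (by norm_num)
  have hnp : ¬ (Nat.card G).Prime := by rw [h]; norm_num
  have hidx : ∀ H : Subgroup G, H ≠ ⊤ → 8 < H.index := by
    intro H hH
    by_contra hlt
    have := (CfsgLib.PSL2Rec.simple_card_dvd_factorial hH).trans
      (Nat.factorial_dvd_factorial (not_lt.mp hlt))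
    rw [h] at this
    norm_num [Nat.factorial] at this
  have h4 : Nat.card (Sylow 5 G) = 16 := by
    have h5 : 8 < Nat.card (Sylow 5 G) := by
      rw [P.card_eq_index_normalizer]
      apply hidx
      intro h6
      apply h3
      rw [P.card_eq_index_normalizer, h6, Subgroup.index_top]
    have := Nat.le_of_dvd (by norm_num) h1
    generalize Nat.card (Sylow 5 G) = n at *
    interval_cases n <;> omega
  have key : ∀ u : (P : Subgroup G), u ≠ 1 → Nat.card (MulAction.fixedBy (Sylow 5 G) u) = 1 := by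
    rintro ⟨u, hu⟩ hu1
    have hu1' : u ≠ 1 := fun h => hu1 (Subtype.ext h)
    have hup : u ^ 5 ^ 2 = 1 := by
      have := pow_card_eq_one' (G := (P : Subgroup G)) (x := ⟨u, hu⟩)
      rw [hcard P] at this
      exact congrArg Subtype.val this
    rw [Nat.card_eq_one_iff_exists]
    refine ⟨⟨P, (CfsgLib.PSL2Rec.smul_sylow_eq_iff_mem hup P).mpr hu⟩, ?_⟩
    rintro ⟨Q, hQ⟩
    have huQ := (CfsgLib.PSL2Rec.smul_sylow_eq_iff_mem hup Q).mp hQ
    by_contra hne
    have hne' : Q ≠ P := fun h => hne (Subtype.ext h)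
    have hle : ∀ R : Sylow 5 G, u ∈ (R : Subgroup G) →
        (R : Subgroup G) ≤ Subgroup.centralizer ({u} : Set G) := by
      intro R hR x hx
      have := IsPGroup.isMulCommutative_of_card_eq_prime_sq (hcard R)
      rw [Subgroup.mem_centralizer_singleton_iff]
      exact congrArg Subtype.val (this.1.1 (⟨x, hx⟩ : (R : Subgroup G)) ⟨u, hR⟩)
    have h6 := CfsgLib.PSL2Rec.card_sylow_ne_one_of_le hne' (hle Q huQ) (hle P hu)
    have h7 := hidx _ (CfsgLib.PSL2Rec.centralizer_ne_top_of_simple hnp hu1')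
    have h8 := (Subgroup.centralizer ({u} : Set G)).card_mul_index
    have h9 := Subgroup.card_dvd_of_le (hle P hu)
    rw [hcard P] at h9
    obtain ⟨k, hk⟩ := h9
    have h10 := CfsgLib.PSL2Rec.card_sylow_mod (G := Subgroup.centralizer ({u} : Set G)) (p := 5)
    rw [hk, h] at h8
    have hk5 : k ≤ 5 := by nlinarith
    have hk0 : ¬ 5 ∣ k := by
      rintro ⟨j, rfl⟩
      have hj : j = 0 ∨ j = 1 := by omega
      rcases hj with rfl | rfl <;> omega
    have h11 := CfsgLib.PSL2Rec.card_sylow_dvd_of_eq hk hk0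
    have h12 := Nat.le_of_dvd (Nat.pos_of_ne_zero (by rintro rfl; simp at hk0)) h11
    omega
  have := CfsgLib.PSL2Rec.card_orbits_mul_of_const key
  rw [hcard P, h4] at this
  omega

end Cfsg.Agent.S1015
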