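import Cfsg.Statements.S1018
import Cfsg.Agent.Lib.PSL2Rec.Fix

set_option autoImplicit false
open Cfsg

namespace Cfsg.Agent.S1018


/-- Let P be a Sylow p-subgroup of order p of a finite group G, and consider the action of G on the left cosets of the normalizer N of P. Then every element of order p fixes exactly one coset, and an element of N that does not centralize P fixes at most as many cosets as there are orbits of P. -/
theorem result {G : Type*} [Group G] [Finite G] (p : ℕ) [Fact p.Prime] (P : Sylow p G) (hP : Nat.card ↥(P : Subgroup G) = p) : (∀ y : G, orderOf y = p → Nat.card (MulAction.fixedBy (G ⧸ Subgroup.normalizer ((P : Subgroup G) : Set G)) y) = 1) ∧ ∀ x : G, x ∈ Subgroup.normalizer ((P : Subgroup G) : Set G) → x ∉ Subgroup.centralizer ((P : Subgroup G) : Set G) → Nat.card (MulAction.fixedBy (G ⧸ Subgroup.normalizer ((P : Subgroup G) : Set G)) x) ≤ Nat.card (MulAction.orbitRel.Quotient ↥(P : Subgroup G) (G ⧸ Subgroup.normalizer ((P : Subgroup G) : Set G))) := by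
  refine ⟨fun y hy => ?_, fun x hx hx' => CfsgLib.PSL2Rec.card_fixedBy_le_card_orbits hP hx hx'⟩
  rw [← CfsgLib.PSL2Rec.card_fixedBy_eq_of_stabilizer_eq P
    ((1 : G) : G ⧸ Subgroup.normalizer ((P : Subgroup G) : Set G))
    (by rw [MulAction.stabilizer_quotient]; exact CfsgLib.PSL2Rec.stabilizer_sylow P)]
  exact CfsgLib.PSL2Rec.card_fixedBy_sylow_eq_one (CfsgLib.PSL2Rec.card_sylow_eq_of_one hP) hy

end Cfsg.Agent.S1018
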