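import Cfsg.Statements.S1039
import Cfsg.Agent.Lib.RGD.Structure
import Cfsg.Agent.Lib.Chev.StSys
import Cfsg.Agent.Lib.Chev.Cert
import Cfsg.Agent.Lib.Weyl.Main

set_option autoImplicit false
open Cfsg

open Cfsg.Lie CfsgLib.Weyl CfsgLib.Chev CfsgLib.RGD

namespace Cfsg.Agent.S1039

theorem key {F : Type*} [Field F] (D : ChevalleyDatum)
    (hD : D ∈ [chevG2, chevB2, chevD4, chevF4, chevE6, chevE7, chevE8]) :
    ∃ φ : ↥(D.monomialSubgroup F) →* (coxM D).Group, Function.Surjective φ ∧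
      φ.ker = (D.diagonalSubgroup F).subgroupOf (D.monomialSubgroup F) ∧
      ∀ (i : Fin D.rank) (g : ↥(D.monomialSubgroup F)),
        ((g : GL D.Idx F) : Matrix D.Idx D.Idx F) = D.nMat F (D.simple i) 1 → φ g = (coxM D).simple i := by
  have := good_of_mem hD
  have h := rtOK_of_mem hD
  obtain ⟨ds, hc⟩ := exists_hasChain hD
  have hS := stSys_nondeg h (F := F)
  rw [← stSys_N h, ← stSys_H h]
  have hW : (rootHom hc.1).range = (rootSys h).W := by rw [range_rootHom, rootSys_W]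
  let e := MonoidHom.ofInjective hc.rootHom_injective
  let ψ : (stSys h F).N →* (rootHom hc.1).range := hS.toW.codRestrict _ fun n => hW ▸ hS.toW_mem n
  have he : ∀ n, rootHom hc.1 (e.symm (ψ n)) = hS.toW n := fun n =>
    MonoidHom.apply_ofInjective_symm hc.rootHom_injective (ψ n)
  refine ⟨e.symm.toMonoidHom.comp ψ, fun w => ?_, ?_, fun i g hg => ?_⟩
  · obtain ⟨n, hn⟩ : rootHom hc.1 w ∈ hS.toW.range := by rw [hS.range_toW, ← hW]; exact ⟨w, rfl⟩
    exact ⟨n, hc.rootHom_injective ((he n).trans hn)⟩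
  · rw [← hS.ker_toW]
    ext n
    rw [MonoidHom.mem_ker, MonoidHom.mem_ker, ← he, map_eq_one_iff _ hc.rootHom_injective]
    rfl
  · apply hc.rootHom_injective
    refine (he g).trans ?_
    rw [rootHom_simple, ← rootSys_s_eq h, hS.toW_eq_iff, eq_nU_iff.1 hg]
    exact (stSys h F).acts_n_simple i one_ne_zero

/-- `N/H ≅ W`: there is a surjective homomorphism from `N` onto the Coxeter group of the type (Mathlib's Coxeter matrix G₂, B₂, F₄, E₆, E₇, E₈, nodes numbered as the fundamental roots) with kernel `H`, mapping each `n_{p_i}` to the `i`-th simple reflection. -/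
theorem result {F : Type*} [Field F]
    (p : Cfsg.Lie.ChevalleyDatum × (Σ n : ℕ, CoxeterMatrix (Fin n)))
    (hp : p ∈ [(Cfsg.Lie.chevG2, ⟨2, CoxeterMatrix.G₂⟩), (Cfsg.Lie.chevB2, ⟨2, CoxeterMatrix.B 2⟩), (Cfsg.Lie.chevD4, ⟨4, Cfsg.Lie.coxeterD4⟩), (Cfsg.Lie.chevF4, ⟨4, CoxeterMatrix.F₄⟩),
      (Cfsg.Lie.chevE6, ⟨6, CoxeterMatrix.E₆⟩), (Cfsg.Lie.chevE7, ⟨7, CoxeterMatrix.E₇⟩), (Cfsg.Lie.chevE8, ⟨8, CoxeterMatrix.E₈⟩)]) :
    ∃ φ : ↥(p.1.monomialSubgroup F) →* p.2.2.Group, Function.Surjective φ ∧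
      φ.ker = (p.1.diagonalSubgroup F).subgroupOf (p.1.monomialSubgroup F) ∧
      ∀ (i : Fin p.2.1) (g : ↥(p.1.monomialSubgroup F)),
        ((g : GL p.1.Idx F) : Matrix p.1.Idx p.1.Idx F) = p.1.nMat F (p.1.simple i) 1 → φ g = p.2.2.simple i := by
  simp only [List.mem_cons, List.not_mem_nil, or_false] at hp
  rcases hp with rfl | rfl | rfl | rfl | rfl | rfl | rfl
  · exact coxM_G2 ▸ key chevG2 (by simp)
  · exact coxM_B2 ▸ key chevB2 (by simp)
  · exact coxM_D4 ▸ key chevD4 (by simp)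
  · exact coxM_F4 ▸ key chevF4 (by simp)
  · exact coxM_E6 ▸ key chevE6 (by simp)
  · exact coxM_E7 ▸ key chevE7 (by simp)
  · exact coxM_E8 ▸ key chevE8 (by simp)

end Cfsg.Agent.S1039
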