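import Mathlib
import Cfsg.Statements.S1040
import Cfsg.Agent.Lib.Chev.StSys
import Cfsg.Agent.Lib.Chev.Cert
import Cfsg.Agent.Lib.RGD.Levi

set_option autoImplicit false
open Cfsg

namespace Cfsg.Agent.S1040

open CfsgLib.Chev CfsgLib.Weyl CfsgLib.RGD

/-- `U ∩ N = 1` and `B ∩ N = UH ∩ N = H`. -/
theorem result {F : Type*} [Field F] (D : Cfsg.Lie.ChevalleyDatum) (hD : D ∈ [Cfsg.Lie.chevG2, Cfsg.Lie.chevB2, Cfsg.Lie.chevD4, Cfsg.Lie.chevF4, Cfsg.Lie.chevE6, Cfsg.Lie.chevE7, Cfsg.Lie.chevE8]) :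
    D.posUnipotent F ⊓ D.monomialSubgroup F = ⊥ ∧ D.borelSubgroup F ⊓ D.monomialSubgroup F = D.diagonalSubgroup F := by
  have := good_of_mem hD
  have h := rtOK_of_mem hD
  have hS := stSys_nondeg h (F := F)
  rw [← stSys_B h, ← stSys_U h, ← stSys_H h, ← stSys_N h]
  exact ⟨hS.U_inf_N, hS.B_inf_N⟩

end Cfsg.Agent.S1040
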