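import Mathlib
import Cfsg.Statements.S1041
import Cfsg.Agent.Lib.Chev.StSys
import Cfsg.Agent.Lib.Chev.Cert
import Cfsg.Agent.Lib.RGD.Levi

set_option autoImplicit false
open Cfsg

namespace Cfsg.Agent.S1041

open CfsgLib.Chev CfsgLib.Weyl CfsgLib.RGD

/-- `U` and `V` generate the whole Chevalley group. -/
theorem result {F : Type*} [Field F] (D : Cfsg.Lie.ChevalleyDatum) (hD : D ∈ [Cfsg.Lie.chevG2, Cfsg.Lie.chevB2, Cfsg.Lie.chevD4, Cfsg.Lie.chevF4, Cfsg.Lie.chevE6, Cfsg.Lie.chevE7, Cfsg.Lie.chevE8]) : D.posUnipotent F ⊔ D.negUnipotent F = D.group F := by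
  have := good_of_mem hD
  have h := rtOK_of_mem hD
  have hS := stSys_nondeg h (F := F)
  rw [← stSys_V h, ← stSys_U h, ← stSys_grp h]
  exact (stSys h F).U_sup_V

end Cfsg.Agent.S1041
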