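import Mathlib
import Cfsg.Statements.S1045
import Cfsg.Agent.Lib.Chev.StSys
import Cfsg.Agent.Lib.Chev.Cert
import Cfsg.Agent.Lib.RGD.Levi

set_option autoImplicit false
open Cfsg

namespace Cfsg.Agent.S1045

open CfsgLib.Chev CfsgLib.Weyl CfsgLib.RGD

/-- For a fundamental root `p`, the subgroup `U_p` generated by the `X_s`, `s` positive and `s ≠ p`, is normalised by `X_p` and `X_{-p}`, and `U = U_p ⊔ X_p`. -/
theorem result {F : Type*} [Field F] (D : Cfsg.Lie.ChevalleyDatum) (hD : D ∈ [Cfsg.Lie.chevG2, Cfsg.Lie.chevB2, Cfsg.Lie.chevD4, Cfsg.Lie.chevF4, Cfsg.Lie.chevE6, Cfsg.Lie.chevE7, Cfsg.Lie.chevE8]) (i : ℕ) (hi : i < D.rank) :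
    D.rootSubgroup F (D.simple i) ⊔ D.rootSubgroup F (D.neg (D.simple i)) ≤
        Subgroup.normalizer (Subgroup.closure {g : GL D.Idx F | ∃ (s : ℕ) (t : F), D.IsPosRoot s ∧ s ≠ D.simple i ∧
          (g : Matrix D.Idx D.Idx F) = D.x F s t} : Set (GL D.Idx F)) ∧
      Subgroup.closure {g : GL D.Idx F | ∃ (s : ℕ) (t : F), D.IsPosRoot s ∧ s ≠ D.simple i ∧
          (g : Matrix D.Idx D.Idx F) = D.x F s t} ⊔ D.rootSubgroup F (D.simple i) = D.posUnipotent F := by
  have := good_of_mem hD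
  have h := rtOK_of_mem hD
  have hS := stSys_nondeg h (F := F)
  have e : Subgroup.closure {g : GL D.Idx F | ∃ (s : ℕ) (t : F), D.IsPosRoot s ∧ s ≠ D.simple i ∧
      (g : Matrix D.Idx D.Idx F) = D.x F s t} = (stSys h F).UJ {⟨i, hi⟩} := by
    rw [StSys.UJ, ← StSys.pos_diff_simple_eq]
    have := stSys_UU h (F := F) (fun s => D.IsPosRoot s ∧ s ≠ D.simple i) fun r hr => hr.1.1
    simp only [and_assoc] at this
    rw [← this]
    congr 1
    ext r
    simp only [Set.mem_ofPred_eq, Set.mem_sdiff, Set.mem_singleton_iff, rootSys_pos_iff, Fin.ext_iff,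
      rootSys_simple, ne_eq]
  have e1 := stSys_X h (F := F) ((rootSys h).simple ⟨i, hi⟩)
  have e2 := stSys_X h (F := F) ((rootSys h).neg ((rootSys h).simple ⟨i, hi⟩))
  rw [rootSys_simple] at e1
  rw [rootSys_neg, rootSys_simple] at e2
  rw [e, ← e1, ← e2, ← stSys_U h]
  have hp := ((rootSys h).inSub_simple_iff (J := {⟨i, hi⟩}) (i := ⟨i, hi⟩)).2 (Set.mem_singleton _)
  constructor
  · refine le_trans ?_ ((stSys h F).P_le_normalizer_UJ _)
    refine sup_le ?_ ?_
    · intro g hg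
      obtain ⟨t, rfl⟩ := (stSys h F).mem_X_iff.1 hg
      exact StSys.x_mem_P hp t
    · intro g hg
      obtain ⟨t, rfl⟩ := (stSys h F).mem_X_iff.1 hg
      exact StSys.x_mem_P ((rootSys h).inSub_neg_iff.2 hp) t
  · rw [StSys.UJ, ← StSys.pos_diff_simple_eq, StSys.X, ← StSys.UU_union, StSys.U,
      Set.sdiff_union_of_subset]
    rintro _ rfl
    exact (rootSys h).pos_simple _

end Cfsg.Agent.S1045
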