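import Cfsg.Statements.S1079
import Cfsg.Agent.Lib.Stein.Sub

set_option autoImplicit false
open Cfsg

open Cfsg.Lie CfsgLib.Weyl CfsgLib.Chev CfsgLib.Stein

namespace Cfsg.Agent.S1079

/-- `|Z(Ḡ)| = gcd(3, q-1)` for E₆ and `gcd(2, q-1)` for E₇ over a field with `q` elements (the centre is dual to the weight lattice modulo the root lattice). -/
theorem result {K : Type*} [Field K] [Fintype K] {q : ℕ} (hq : Fintype.card K = q)
    (p : Cfsg.Lie.ChevalleyDatum × ℕ) (hp : p ∈ [(Cfsg.Lie.chevE6, 3), (Cfsg.Lie.chevE7, 2)]) :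
    Nat.card (Subgroup.center (p.1.SteinbergGroup K)) = Nat.gcd p.2 (q - 1) := by
  simp only [List.mem_cons, List.not_mem_nil, or_false] at hp
  rw [← hq, ← Nat.card_eq_fintype_card]
  rcases hp with rfl | rfl
  · obtain ⟨θ, C⟩ := exists_cover_steinberg (K := K) rtOKE6
    exact C.card_center rtOKE6 (genOK_of_mem (by simp)) rel3_steinberg 3 ⟨5, by decide⟩
      (fun i => ([2, 0, 1, 0, 2, 1] : List ℤ).getD i 0) (fun k j => (([[0, -1, -1, -2, -2, -2], [1, 2, 2, 3, 2, 1], [1, 1, 2, 2, 1, 0], [2, 3, 4, 6, 4, 2], [0, 0, 0, 0, 0, -1], [0, 0, 0, 0, 0, 0]] : List (List ℤ)).getD k []).getD j 0)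
      (fun i => ([2, 3, 4, 6, 5, 4] : List ℤ).getD i 0) (fun i => ([1, 0, 0, -1, 1, 0] : List ℤ).getD i 0)
      (by decide +kernel) (by decide +kernel) (by decide +kernel) rfl
      (eq_one_of_hList rtOKE6 rtOKE7 matchE6 matchE7 mapOK67 neg67 _ (s := 63) (by decide)
        (by decide +kernel))
  · obtain ⟨θ, C⟩ := exists_cover_steinberg (K := K) rtOKE7
    exact C.card_center rtOKE7 (genOK_of_mem (by simp)) rel3_steinberg 2 ⟨6, by decide⟩
      (fun i => ([0, 1, 0, 0, 1, 0, 1] : List ℤ).getD i 0) (fun k j => (([[2, 2, 3, 4, 3, 2, 1], [1, 2, 2, 3, 2, 1, 0], [3, 4, 6, 8, 6, 4, 2], [4, 6, 8, 12, 9, 6, 3], [2, 3, 4, 6, 5, 3, 1], [2, 3, 4, 6, 5, 4, 2], [0, 0, 0, 0, 0, 0, 0]] : List (List ℤ)).getD k []).getD j 0)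
      (fun i => ([2, 3, 4, 6, 5, 4, 3] : List ℤ).getD i 0) (fun i => ([0, 1, 0, -1, 1, -1, 1] : List ℤ).getD i 0)
      (by decide +kernel) (by decide +kernel) (by decide +kernel) rfl
      (eq_one_of_hList rtOKE7 rtOKE8 matchE7 matchE8 mapOK78 neg78 _ (s := 120) (by decide)
        (by decide +kernel))

end Cfsg.Agent.S1079
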