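import Cfsg.Statements.S1084
import Cfsg.Agent.Lib.E6V.Gen
import Cfsg.Agent.Lib.OrthE.Mat

set_option autoImplicit false
open Cfsg

namespace Cfsg.Agent.S1084

/-- the numbering of the coordinates -/
def τ : Lie.I27 ≃ CfsgLib.E6V.I := ⟨fun p => ⟨9 * p.1 + 3 * p.2.1 + p.2.2, by omega⟩,
  fun n => (⟨n / 9, by omega⟩, ⟨n / 3 % 3, by omega⟩, ⟨n % 3, by omega⟩), by decide +kernel, by decide +kernel⟩

/-- E₆ via the 27-dimensional cubic form: for a finite field with at least three elements, (isometries of the cubic form) / centre ≅ the Chevalley group E₆(F). -/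
theorem result {F : Type*} [Field F] [Fintype F] (hF : 3 ≤ Fintype.card F) : Nonempty (Cfsg.Lie.E6 F ≃* ↥(Cfsg.Lie.chevE6.group F)) := by
  have h0 : τ (0, 0, 0) = 0 ∧ τ (0, 0, 1) = 1 ∧ τ (0, 0, 2) = 2 ∧ τ (0, 1, 0) = 3 ∧ τ (0, 1, 1) = 4 ∧ τ (0, 1, 2) = 5 ∧ τ (0, 2, 0) = 6 ∧ τ (0, 2, 1) = 7 ∧ τ (0, 2, 2) = 8 ∧ τ (1, 0, 0) = 9 ∧ τ (1, 0, 1) = 10 ∧ τ (1, 0, 2) = 11 ∧ τ (1, 1, 0) = 12 ∧ τ (1, 1, 1) = 13 ∧ τ (1, 1, 2) = 14 ∧ τ (1, 2, 0) = 15 ∧ τ (1, 2, 1) = 16 ∧ τ (1, 2, 2) = 17 ∧ τ (2, 0, 0) = 18 ∧ τ (2, 0, 1) = 19 ∧ τ (2, 0, 2) = 20 ∧ τ (2, 1, 0) = 21 ∧ τ (2, 1, 1) = 22 ∧ τ (2, 1, 2) = 23 ∧ τ (2, 2, 0) = 24 ∧ τ (2, 2, 1) = 25 ∧ τ (2, 2, 2) = 26 := by decide +kernel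
  have h1 : ∀ x : CfsgLib.E6V.I → F, CfsgLib.E6V.T x = Lie.cubicT (x ∘ τ) := fun x => by
    simp [CfsgLib.E6V.T, CfsgLib.E6V.TL, CfsgLib.E6V.ev3, Lie.cubicT, Lie.mat3, Matrix.det_fin_three, Matrix.trace,
      Matrix.mul_apply, Fin.sum_univ_three, h0]
    ring
  let Φ : GL Lie.I27 F ≃* GL CfsgLib.E6V.I F := Units.mapEquiv (Matrix.reindexAlgEquiv F F τ).toMulEquiv
  have h2 : ∀ g, g ∈ Lie.E6univ F ↔ Φ g ∈ CfsgLib.E6V.Γ F := fun g => by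
    have : ∀ x, CfsgLib.E6V.T ((Φ g).1.mulVec x) = Lie.cubicT (g.1.mulVec (x ∘ τ)) := fun x => by
      rw [h1]
      congr 1
      funext i
      simp [Φ, Matrix.submatrix_mulVec_equiv]
    refine ⟨fun h x => (this x).trans ((h _).trans (h1 x).symm), fun h v => ?_⟩
    have h3 := (this (v ∘ τ.symm)).symm.trans ((h _).trans (h1 _))
    simpa [Function.comp_assoc] using h3
  let e : Lie.E6univ F ≃* CfsgLib.E6V.Γ F := (Φ.subgroupMap _).trans (MulEquiv.subgroupCongr (by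
    ext g
    exact Subgroup.mem_map_equiv.trans (by rw [h2, MulEquiv.apply_symm_apply])))
  obtain ⟨φ, -⟩ := CfsgLib.E6V.exists_iso (F := F) (by
    obtain ⟨a, h⟩ := ENat.exists_ne_ne_of_three_le (α := F) (by simpa) 0 1
    exact ⟨a, h⟩)
  exact ⟨(CfsgLib.OrthE.quotCenterCongr e).trans φ.symm⟩

end Cfsg.Agent.S1084
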