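import Cfsg.Statements.S1086
import Cfsg.Agent.Lib.Twist.E6

set_option autoImplicit false
open Cfsg

namespace Cfsg.Agent.S1086

/-- |U¹| = |G¹ ∩ U| = q ^ 36 for ²E₆(q). -/
theorem result {K : Type*} [Field K] [Fintype K] {q : ℕ} (hq : IsPrimePow q) (hK : Fintype.card K = q ^ 2) :
    Nat.card ↥(Cfsg.Lie.chevE6.posUnipotent K ⊓ Cfsg.Lie.twistedE6 K q) = q ^ 36 := by
  obtain ⟨φ, hφ⟩ := CfsgLib.Twist.exists_frob hq hK
  open CfsgLib.Twist CfsgLib.Chev CfsgLib.Weyl in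
  exact stSys_U (F := K) rtOKE6 ▸ card_UE6 hφ hK

end Cfsg.Agent.S1086
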