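import Cfsg.Statements.S1091
import Cfsg.Agent.Lib.Ree.Simple
import Cfsg.Agent.Lib.Ree.Twisted

set_option autoImplicit false
open Cfsg

namespace Cfsg.Agent.S1091

open CfsgLib.Ree

/-- the BN-pair of a model of the small Ree group -/
def bn {K : Type*} [Field K] [CharP K 3] {φ : K →+* K} {G : Type*} [Group G] (M : Model G K φ)
    (hφ : IsTits φ) : Cfsg.BNPair G where
  B := M.B hφ
  N := M.N
  S := {M.n}
  sup_eq_top := M.eq_top_of_B_le hφ le_sup_left (Subgroup.mem_sup_right M.n_mem_N) (M.n_not_mem_B hφ)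
  conj_mem := by
    rw [M.B_inf_N hφ]
    rintro _ ⟨l, rfl | rfl⟩ t ht
    · exact M.H_le_B hφ (mul_mem (mul_mem (M.h_mem_H l) ht) (inv_mem (M.h_mem_H l)))
    · have : M.h l * M.n * t * (M.h l * M.n)⁻¹ = M.h l * (M.n * t * M.n) * (M.h l)⁻¹ := by
        rw [mul_inv_rev, M.n_inv]; group
      rw [this]
      exact M.H_le_B hφ (mul_mem (mul_mem (M.h_mem_H l) (M.n_conj_mem_H ht)) (inv_mem (M.h_mem_H l)))
  subset := by rintro _ rfl; exact M.n_mem_N
  sq_mem := by rintro _ rfl; rw [M.n_mul_n]; exact one_mem _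
  inj := by rintro _ rfl _ rfl _; rfl
  closure_sup := by
    rw [M.B_inf_N hφ]
    refine le_antisymm (sup_le ((Subgroup.closure_le _).2 (by rintro _ rfl; exact M.n_mem_N)) M.H_le_N) ?_
    rintro _ ⟨l, rfl | rfl⟩
    · exact Subgroup.mem_sup_right (M.h_mem_H l)
    · exact mul_mem (Subgroup.mem_sup_right (M.h_mem_H l))
        (Subgroup.mem_sup_left (Subgroup.subset_closure rfl))
  mul_mem_union := by
    rintro _ rfl _ ⟨l, rfl | rfl⟩ b hb
    · left
      refine DoubleCoset.mem_doubleCoset.2 ⟨1, one_mem _, (M.h l)⁻¹ * b * M.h l,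
        mul_mem (mul_mem (inv_mem (M.h_mem_B hφ l)) hb) (M.h_mem_B hφ l), by group⟩
    · by_cases h : M.n * b * (M.h l * M.n) ∈ M.B hφ
      · left
        have h2 : M.n * (M.h l * M.n) ∈ M.B hφ := by
          rw [← mul_assoc, M.n_h_n]; exact M.h_mem_B hφ _
        refine DoubleCoset.mem_doubleCoset.2 ⟨1, one_mem _, _, mul_mem (inv_mem h2) h, by group⟩
      · right
        obtain ⟨b', hb', u, hu, e⟩ := M.exists_B_n_U hφ h
        refine DoubleCoset.mem_doubleCoset.2 ⟨b' * (M.h l)⁻¹, mul_mem hb' (inv_mem (M.h_mem_B hφ l)), u,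
          M.U_le_B hφ hu, by rw [e]; group⟩
  conj_ne := by
    rintro _ rfl h
    have h1 : M.n * M.u 1 0 0 * M.n ∈ (M.B hφ : Set G) := h ▸ ⟨_, M.u_mem_B hφ 1 0 0, rfl⟩
    exact one_ne_zero (M.u_eq_one (M.eq_one_of_n_u_n_mem hφ (M.u_mem_U hφ 1 0 0) h1)).1

/-- ²G₂(3^(2m+1)) has a (B,N)-pair: B¹ = G¹ ∩ B and N¹ = G¹ ∩ N, intersections with the ambient Chevalley group's B = UH and N. -/
theorem result {K : Type*} [Field K] [Fintype K] {m : ℕ} (hK : Fintype.card K = 3 ^ (2 * m + 1)) :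
    ∃ P : Cfsg.BNPair ↥(Cfsg.Lie.twistedG2 K (3 ^ m)),
      P.B = (Cfsg.Lie.chevG2.borelSubgroup K ⊓ Cfsg.Lie.twistedG2 K (3 ^ m)).subgroupOf (Cfsg.Lie.twistedG2 K (3 ^ m)) ∧
      P.N = (Cfsg.Lie.chevG2.monomialSubgroup K ⊓ Cfsg.Lie.twistedG2 K (3 ^ m)).subgroupOf (Cfsg.Lie.twistedG2 K (3 ^ m)) := by
  have := charP_three hK
  exact ⟨bn (reeModel hK) (isTits_tits hK), (borelSubgroup_subgroupOf hK).symm,
    (monomialSubgroup_subgroupOf hK).symm⟩

end Cfsg.Agent.S1091
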