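import Cfsg.Statements.S1094
import Cfsg.Agent.Lib.Weyl.Main

set_option autoImplicit false
open Cfsg

namespace Cfsg.Agent.S1094

open CfsgLib.Weyl Cfsg.Lie in
/-- iterate the Coxeter element on the packed table -/
def iterC (T n : ℕ) : ℕ → ℕ → ℕ
  | 0, x => x
  | k + 1, x => iterC T n k (applyW T (List.range n) x)

open CfsgLib.Weyl Cfsg.Lie in
/-- the order check -/
def chk (T n N h : ℕ) : Bool :=
  Nat.blt 0 N && Nat.blt 0 h && allLt N (fun x => Nat.beq (iterC T n h x) x) &&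
    allLt h fun m => Nat.beq m 0 || !(Nat.beq (iterC T n m 0) 0)

open CfsgLib.Weyl Cfsg.Lie in
theorem aux {D : ChevalleyDatum} {ds : List ℕ} (hc : HasChain D ds) {C A S T : ℕ} (ht : TablesOK D C A S T) (h : ℕ)
    (hk : chk T D.rank D.nroots h = true) :
    orderOf ((List.finRange D.rank).map (coxM D).simple).prod = h := by
  have e : ((List.finRange D.rank).map (coxM D).simple).prod = pw (coxS D) (List.range D.rank) := by
    unfold pw
    congr 1
    apply List.ext_getElem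
    · simp
    · intro i h1 h2
      simp only [List.getElem_map, List.getElem_finRange, List.getElem_range]
      rw [coxS_of_lt D (by simpa using h1)]
      rfl
  have key : ∀ (k : ℕ) (x : Fin D.nroots), (((rootHom hc.1 (pw (coxS D) (List.range D.rank))) ^ k) x : ℕ) =
      iterC T D.rank k x := by
    intro k
    induction k with
    | zero => intro x; rfl
    | succ k ih =>
      intro x
      rw [pow_succ, Equiv.Perm.mul_apply, ih, applyW_eq hc.1 ht (coxS D) (rootHom hc.1)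
        (fun i hi r => by rw [rootHom_coxS hc.1 i hi, reflPerm_val hc.1 hi]) _ (fun i hi => List.mem_range.1 hi)]
      rfl
  unfold chk at hk
  simp only [Bool.and_eq_true, Nat.blt_eq, allLt_iff, Nat.beq_eq, Bool.or_eq_true, Bool.not_eq_true'] at hk
  obtain ⟨⟨⟨hN, hh⟩, h1⟩, h2⟩ := hk
  rw [e, ← orderOf_injective (rootHom hc.1) hc.rootHom_injective, orderOf_eq_iff hh]
  refine ⟨?_, fun m hm hm0 hm1 => ?_⟩
  · ext x
    rw [key, h1 x x.2]
    rfl
  · have := key m ⟨0, hN⟩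
    rw [hm1] at this
    rcases h2 m hm with h3 | h3
    · omega
    · rw [← Bool.not_eq_true, Nat.beq_eq] at h3
      exact h3 this.symm

/-- The Coxeter element `s₁ s₂ ⋯ s_l` of the Coxeter group of type B₂, G₂, D₄, F₄, E₆, E₇, E₈ has order `h = 2N/l` = 4, 6, 6, 12, 12, 18, 30. -/
theorem result (p : (Σ n : ℕ, CoxeterMatrix (Fin n)) × ℕ)
    (hp : p ∈ [(⟨2, CoxeterMatrix.B 2⟩, 4), (⟨2, CoxeterMatrix.G₂⟩, 6), (⟨4, Cfsg.Lie.coxeterD4⟩, 6), (⟨4, CoxeterMatrix.F₄⟩, 12),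
      (⟨6, CoxeterMatrix.E₆⟩, 12), (⟨7, CoxeterMatrix.E₇⟩, 18), (⟨8, CoxeterMatrix.E₈⟩, 30)]) :
    orderOf ((List.finRange p.1.1).map p.1.2.simple).prod = p.2 := by
  simp only [List.mem_cons, List.not_mem_nil, or_false] at hp
  rcases hp with rfl | rfl | rfl | rfl | rfl | rfl | rfl
  · exact CfsgLib.Weyl.coxM_B2 ▸ aux CfsgLib.Weyl.hasChainB2 CfsgLib.Weyl.tablesOKB2 4 (by decide +kernel)
  · exact CfsgLib.Weyl.coxM_G2 ▸ aux CfsgLib.Weyl.hasChainG2 CfsgLib.Weyl.tablesOKG2 6 (by decide +kernel)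
  · exact CfsgLib.Weyl.coxM_D4 ▸ aux CfsgLib.Weyl.hasChainD4 CfsgLib.Weyl.tablesOKD4 6 (by decide +kernel)
  · exact CfsgLib.Weyl.coxM_F4 ▸ aux CfsgLib.Weyl.hasChainF4 CfsgLib.Weyl.tablesOKF4 12 (by decide +kernel)
  · exact CfsgLib.Weyl.coxM_E6 ▸ aux CfsgLib.Weyl.hasChainE6 CfsgLib.Weyl.tablesOKE6 12 (by decide +kernel)
  · exact CfsgLib.Weyl.coxM_E7 ▸ aux CfsgLib.Weyl.hasChainE7 CfsgLib.Weyl.tablesOKE7 18 (by decide +kernel)
  · exact CfsgLib.Weyl.coxM_E8 ▸ aux CfsgLib.Weyl.hasChainE8 CfsgLib.Weyl.tablesOKE8 30 (by decide +kernel)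

end Cfsg.Agent.S1094
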