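import Cfsg.Statements.S1098
import Cfsg.Agent.Lib.Stein.Graph

set_option autoImplicit false
open Cfsg

open Cfsg.Lie CfsgLib.Stein CfsgLib.Chev

namespace Cfsg.Agent.S1098

/-- Graph automorphisms in characteristic 2 (K perfect): for B₂ (a short, b long) `x_a(t) ↦ x_b(t²)`, `x_b(t) ↦ x_a(t)`, and for F₄ (p₁, p₂ short, p₃, p₄ long) `x_{p₁}(t) ↦ x_{p₄}(t²)`, `x_{p₂}(t) ↦ x_{p₃}(t²)`, `x_{p₃}(t) ↦ x_{p₂}(t)`, `x_{p₄}(t) ↦ x_{p₁}(t)`, likewise on the negatives, extend to an automorphism of the group. -/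
theorem result {K : Type*} [Field K] [CharP K 2] (hperf : ∀ x : K, ∃ y : K, y ^ 2 = x)
    (p : Cfsg.Lie.ChevalleyDatum × List (ℕ × ℕ))
    (hp : p ∈ [(Cfsg.Lie.chevB2, [(1, 2), (0, 1)]), (Cfsg.Lie.chevF4, [(3, 2), (2, 2), (1, 1), (0, 1)])]) :
    ∃ α : ↥(p.1.group K) ≃* ↥(p.1.group K), ∀ (g : ↥(p.1.group K)) (i : ℕ) (t : K), i < p.1.rank →
      (((g : GL p.1.Idx K) : Matrix p.1.Idx p.1.Idx K) = p.1.x K (p.1.simple i) t →
        ((α g : GL p.1.Idx K) : Matrix p.1.Idx p.1.Idx K) = p.1.x K (p.1.simple (p.2.getD i (0, 1)).1) (t ^ (p.2.getD i (0, 1)).2)) ∧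
      (((g : GL p.1.Idx K) : Matrix p.1.Idx p.1.Idx K) = p.1.x K (p.1.neg (p.1.simple i)) t →
        ((α g : GL p.1.Idx K) : Matrix p.1.Idx p.1.Idx K) = p.1.x K (p.1.neg (p.1.simple (p.2.getD i (0, 1)).1)) (t ^ (p.2.getD i (0, 1)).2)) := by
  have key : ∀ (D : ChevalleyDatum) [Good D] (π : List (ℕ × ℕ)) (ρ e : ℕ → ℕ),
      (∃ α : D.group K ≃* D.group K, ∀ r < D.nroots, ∀ t, α (xG D K r t) = xG D K (ρ r) (t ^ e r)) →
      (∀ i < D.rank, ρ (D.simple i) = D.simple (π.getD i (0, 1)).1 ∧ e (D.simple i) = (π.getD i (0, 1)).2 ∧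
        ρ (D.neg (D.simple i)) = D.neg (D.simple (π.getD i (0, 1)).1) ∧
        e (D.neg (D.simple i)) = (π.getD i (0, 1)).2) →
      ∃ α : ↥(D.group K) ≃* ↥(D.group K), ∀ (g : ↥(D.group K)) (i : ℕ) (t : K), i < D.rank →
      (((g : GL D.Idx K) : Matrix D.Idx D.Idx K) = D.x K (D.simple i) t →
        ((α g : GL D.Idx K) : Matrix D.Idx D.Idx K) =
          D.x K (D.simple (π.getD i (0, 1)).1) (t ^ (π.getD i (0, 1)).2)) ∧
      (((g : GL D.Idx K) : Matrix D.Idx D.Idx K) = D.x K (D.neg (D.simple i)) t →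
        ((α g : GL D.Idx K) : Matrix D.Idx D.Idx K) =
          D.x K (D.neg (D.simple (π.getD i (0, 1)).1)) (t ^ (π.getD i (0, 1)).2)) := by
    rintro D _ π ρ e ⟨α, hα⟩ h
    refine ⟨α, fun g i t hi => ?_⟩
    obtain ⟨h1, h2, h3, h4⟩ := h i hi
    simp only [eq_xG_iff]
    constructor
    · rintro rfl; rw [hα _ (simple_lt hi), h1, h2]
    · rintro rfl; rw [hα _ (neg_lt (simple_lt hi)), h3, h4]
  simp only [List.mem_cons, List.not_mem_nil, or_false] at hp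
  rcases hp with rfl | rfl
  · exact key chevB2 _ _ _ (exists_graphB2 hperf) (by decide +kernel)
  · exact key chevF4 _ _ _ (exists_graphF4 hperf) (by decide +kernel)

end Cfsg.Agent.S1098
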