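import Mathlib
import Cfsg.Statements.S1100
import Cfsg.Agent.Lib.RGD.Inst
import Cfsg.Agent.Lib.Chev.Cert

set_option autoImplicit false
open Cfsg

namespace Cfsg.Agent.S1100

open CfsgLib.Chev CfsgLib.Weyl CfsgLib.RGD

/-- Canonical form `g = b n_w u` (`b ∈ B`, `u ∈ U_w⁻ = ⟨X_r : r > 0, n_w X_r n_w⁻¹ ≤ V⟩`): such a decomposition exists for every element of the group; the coset `n_w H` is determined by `g`; and for a fixed representative `n_w` the factors `b`, `u` are unique. -/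
theorem result {F : Type*} [Field F] (D : Cfsg.Lie.ChevalleyDatum) (hD : D ∈ [Cfsg.Lie.chevG2, Cfsg.Lie.chevB2, Cfsg.Lie.chevD4, Cfsg.Lie.chevF4, Cfsg.Lie.chevE6, Cfsg.Lie.chevE7, Cfsg.Lie.chevE8]) :
    (∀ g ∈ D.group F, ∃ b ∈ D.borelSubgroup F, ∃ n ∈ D.monomialSubgroup F,
      ∃ u ∈ Subgroup.closure {x : GL D.Idx F | ∃ (r : ℕ) (t : F), D.IsPosRoot r ∧
            (D.rootSubgroup F r).map (MulAut.conj n).toMonoidHom ≤ D.negUnipotent F ∧ (x : Matrix D.Idx D.Idx F) = D.x F r t},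
        g = b * n * u) ∧
    (∀ (b b' n n' u u' : GL D.Idx F), b ∈ D.borelSubgroup F → b' ∈ D.borelSubgroup F →
      n ∈ D.monomialSubgroup F → n' ∈ D.monomialSubgroup F →
      u ∈ Subgroup.closure {x : GL D.Idx F | ∃ (r : ℕ) (t : F), D.IsPosRoot r ∧
            (D.rootSubgroup F r).map (MulAut.conj n).toMonoidHom ≤ D.negUnipotent F ∧ (x : Matrix D.Idx D.Idx F) = D.x F r t} →
      u' ∈ Subgroup.closure {x : GL D.Idx F | ∃ (r : ℕ) (t : F), D.IsPosRoot r ∧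
            (D.rootSubgroup F r).map (MulAut.conj n').toMonoidHom ≤ D.negUnipotent F ∧ (x : Matrix D.Idx D.Idx F) = D.x F r t} →
      b * n * u = b' * n' * u' → n⁻¹ * n' ∈ D.diagonalSubgroup F ∧ (n = n' → b = b' ∧ u = u')) := by
  have := good_of_mem hD; have h := rtOK_of_mem hD; have hS := stSys_nondeg h (F := F)
  rw [← stSys_grp h, ← stSys_B h, ← stSys_N h, ← stSys_H h]
  refine ⟨fun g hg => ?_, fun b b' n n' u u' hb hb' hn hn' hu hu' e => ?_⟩
  · obtain ⟨u, hu, n, hn, w, -, ha, u', hu', rfl⟩ := hS.exists_bruhat hg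
    exact ⟨u, (stSys h F).U_le_B hu, n, hn, u', by rwa [closure_eq_UU_Inv h ha], rfl⟩
  · obtain ⟨w, -, ha⟩ := (stSys h F).exists_acts_of_mem_N hn
    obtain ⟨w', -, ha'⟩ := (stSys h F).exists_acts_of_mem_N hn'
    rw [closure_eq_UU_Inv h ha] at hu
    rw [closure_eq_UU_Inv h ha'] at hu'
    have hU : ∀ {w v}, v ∈ (stSys h F).UU ((rootSys h).Inv w) → v ∈ (stSys h F).B := fun hv =>
      (stSys h F).U_le_B ((stSys h F).UU_le_U (fun _ h => h.1) hv)
    obtain rfl := hS.acts_eq_of_eq hn hn' ha ha' hb (hU hu) hb' (hU hu') e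
    refine ⟨hS.inv_mul_mem_H hn hn' ha ha', ?_⟩
    rintro rfl
    exact hS.b_n_u_unique ha hb hb' hu hu' e

end Cfsg.Agent.S1100
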