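import Cfsg.Statements.S1111
import Cfsg.Agent.Lib.Twist.F4

set_option autoImplicit false
open Cfsg

namespace Cfsg.Agent.S1111

/-- `N¹/H¹ ≅ W¹`: a surjective homomorphism from `N¹ = G¹ ∩ N` onto the dihedral group of order 16 with kernel `H¹`. -/
theorem result {K : Type*} [Field K] [Fintype K] {m : ℕ} (hK : Fintype.card K = 2 ^ (2 * m + 1)) :
    ∃ φ : ↥(Cfsg.Lie.chevF4.monomialSubgroup K ⊓ Cfsg.Lie.twistedF4 K (2 ^ m)) →* DihedralGroup 8, Function.Surjective φ ∧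
      φ.ker = (Cfsg.Lie.chevF4.diagonalSubgroup K ⊓ Cfsg.Lie.twistedF4 K (2 ^ m)).subgroupOf (Cfsg.Lie.chevF4.monomialSubgroup K ⊓ Cfsg.Lie.twistedF4 K (2 ^ m)) := by
  obtain ⟨_, θ, he, hθ⟩ := CfsgLib.Twist.exists_theta hK
  open CfsgLib.Twist CfsgLib.Chev CfsgLib.Weyl in
  exact stSys_H (F := K) rtOKF4 ▸ stSys_N (F := K) rtOKF4 ▸ (isTwF4 he hθ).exists_hom_of_equiv dihF4.some

end Cfsg.Agent.S1111
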