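import Cfsg.Statements.S1115
import Cfsg.Agent.Lib.Ree.Simple
import Cfsg.Agent.Lib.Ree.Twisted

set_option autoImplicit false
open Cfsg

namespace Cfsg.Agent.S1115

open CfsgLib.Ree

theorem exists_hom {G : Type*} [Group G] (A : Subgroup G) (h : A.index = 2) :
    ∃ φ : G →* Multiplicative (ZMod 2), Function.Surjective φ ∧ φ.ker = A := by
  have := Subgroup.normal_of_index_eq_two h
  have : Fact (Nat.Prime 2) := ⟨Nat.prime_two⟩
  have e : G ⧸ A ≃* Multiplicative (ZMod 2) :=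
    mulEquivOfPrimeCardEq (p := 2) h (by simp)
  refine ⟨e.toMonoidHom.comp (QuotientGroup.mk' A), e.surjective.comp (QuotientGroup.mk'_surjective A), ?_⟩
  ext g
  simp [MonoidHom.mem_ker]

/-- `N¹/H¹ ≅ W¹`: a surjective homomorphism from `N¹ = G¹ ∩ N` onto the group of order 2 with kernel `H¹`. -/
theorem result {K : Type*} [Field K] [Fintype K] {m : ℕ} (hK : Fintype.card K = 3 ^ (2 * m + 1)) :
    ∃ φ : ↥(Cfsg.Lie.chevG2.monomialSubgroup K ⊓ Cfsg.Lie.twistedG2 K (3 ^ m)) →* Multiplicative (ZMod 2), Function.Surjective φ ∧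
      φ.ker = (Cfsg.Lie.chevG2.diagonalSubgroup K ⊓ Cfsg.Lie.twistedG2 K (3 ^ m)).subgroupOf (Cfsg.Lie.chevG2.monomialSubgroup K ⊓ Cfsg.Lie.twistedG2 K (3 ^ m)) := by
  have := charP_three hK
  apply exists_hom
  have h1 : Nat.card ↥(Cfsg.Lie.chevG2.diagonalSubgroup K ⊓ Cfsg.Lie.twistedG2 K (3 ^ m)) = Nat.card K - 1 := by
    rw [← Nat.card_congr (infEquiv _ _).toEquiv, diagonalSubgroup_subgroupOf hK, (reeModel hK).card_H]
  have h2 : Nat.card ↥(Cfsg.Lie.chevG2.monomialSubgroup K ⊓ Cfsg.Lie.twistedG2 K (3 ^ m)) =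
      2 * (Nat.card K - 1) := by
    rw [← Nat.card_congr (infEquiv _ _).toEquiv, monomialSubgroup_subgroupOf hK,
      (reeModel hK).card_N (isTits_tits hK)]
  have hle : Cfsg.Lie.chevG2.diagonalSubgroup K ⊓ Cfsg.Lie.twistedG2 K (3 ^ m) ≤
      Cfsg.Lie.chevG2.monomialSubgroup K ⊓ Cfsg.Lie.twistedG2 K (3 ^ m) :=
    inf_le_inf_right _ le_sup_left
  have h3 := Subgroup.card_mul_index ((Cfsg.Lie.chevG2.diagonalSubgroup K ⊓ Cfsg.Lie.twistedG2 K (3 ^ m)).subgroupOf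
    (Cfsg.Lie.chevG2.monomialSubgroup K ⊓ Cfsg.Lie.twistedG2 K (3 ^ m)))
  rw [Nat.card_congr (Subgroup.subgroupOfEquivOfLe hle).toEquiv, h1, h2, mul_comm 2] at h3
  have := Finite.one_lt_card (α := K)
  exact Nat.eq_of_mul_eq_mul_left (by omega) h3

end Cfsg.Agent.S1115
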