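import Cfsg.Statements.S1123
import Cfsg.Agent.Lib.RankOne.Structure

set_option autoImplicit false
open Cfsg

namespace Cfsg.Agent.S1123

/-- In the rank-one set-up (`G` finite and doubly transitive on `Ω`, `t` an involution moving `a`, `Q` normal in `G_a` with `G_a = Q D`, `Q ⊓ D = 1` for the two-point stabiliser `D = G_a ⊓ G_{t • a}`, `|Q|` even, `|D|` odd), there is a unique pair `(s, r)` with `s` an involution of `G_a`, `r ∈ Q` and `t s t = r⁻¹ t r`. -/
theorem result {G Ω : Type*} [Group G] [Finite G] [MulAction G Ω] {a : Ω} {t : G} {Q : Subgroup G}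
    (hS : Cfsg.IsRankOneSetup G Ω a t Q) :
    ∃! p : G × G, p.1 ∈ Cfsg.involutionsIn (MulAction.stabilizer G a : Set G) ∧ p.2 ∈ Q ∧
      t * p.1 * t = p.2⁻¹ * t * p.2 := by
  obtain ⟨s, hs, r, hr, h⟩ := CfsgLib.RankOne.exists_structure_equation hS
  refine ⟨(s, r), ⟨hs, hr, h⟩, ?_⟩
  rintro ⟨s', r'⟩ ⟨hs', hr', h'⟩
  obtain ⟨h1, h2⟩ := CfsgLib.RankOne.structure_equation_unique hS hs' hr' h' hs hr h
  exact Prod.ext h1 h2

end Cfsg.Agent.S1123
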