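import Cfsg.Statements.S1132
import Cfsg.Agent.Lib.Bender.Step0c
import Cfsg.Agent.Lib.FT.OddOrder

set_option autoImplicit false
open Cfsg

namespace Cfsg.Agent.S1132

/-- In the rank-one set-up (`G` finite and doubly transitive on `Ω`, `t` an involution moving `a`, `Q` normal in `G_a` with `G_a = Q D`, `Q ⊓ D = 1` for the two-point stabiliser `D = G_a ⊓ G_{t • a}`, `|Q|` even, `|D|` odd), with the action faithful and `G` containing two distinct commuting involutions: a Sylow 2-subgroup of `Q` is abelian or a Suzuki 2-group. -/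
theorem result {G Ω : Type*} [Group G] [Finite G] [MulAction G Ω] [FaithfulSMul G Ω] {a : Ω} {t : G} {Q : Subgroup G}
    (hS : Cfsg.IsRankOneSetup G Ω a t Q)
    (h2 : ∃ x y : G, x ≠ 1 ∧ y ≠ 1 ∧ x ≠ y ∧ x * x = 1 ∧ y * y = 1 ∧ x * y = y * x)
    (S : Sylow 2 ↥Q) : IsMulCommutative (S : Subgroup ↥Q) ∨ Cfsg.IsSuzukiTwoGroup ↥(S : Subgroup ↥Q) := by
  have hFT : CfsgLib.Bender.FT := fun _ _ _ h => CfsgLib.FT.odd_order_solvable h
  have := CfsgLib.Bender.isNilpotent_Q hS h2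
  have e : CfsgLib.Bender.Sg Q = (S : Subgroup Q).map Q.subtype := by
    rw [CfsgLib.Core.sylow_normal_of_not_dvd_index_pCore
      (CfsgLib.Core.not_dvd_index_pCore_of_isNilpotent 2) S]
    exact CfsgLib.BG.opOf_eq_map Nat.prime_two Q
  by_cases hc : ∀ x y : (S : Subgroup Q), x * y = y * x
  · exact Or.inl ⟨⟨hc⟩⟩
  push Not at hc
  obtain ⟨x, y, hxy⟩ := hc
  refine Or.inr (CfsgLib.Bender.isSuzukiTwoGroup_of_equiv
    ((S : Subgroup Q).equivMapOfInjective _ Q.subtype_injective).symm ?_)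
  rw [← e]
  refine CfsgLib.Bender.isSuzukiTwoGroup_of_K_inv hFT hS h2 (CfsgLib.Bender.Sg_le Q)
    (CfsgLib.Bender.isPGroup_Sg Q) (CfsgLib.Bender.Kg_le_normalizer_Sg hS) ?_
  rw [e]
  exact ⟨_, ⟨x, x.2, rfl⟩, _, ⟨y, y.2, rfl⟩, fun h => hxy (Subtype.ext (Subtype.ext h))⟩

end Cfsg.Agent.S1132
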