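import Cfsg.Statements.S1142
import Cfsg.Agent.Lib.FH.Main

set_option autoImplicit false
open Cfsg CfsgLib CfsgLib.BN

namespace Cfsg.Agent.S1142

/-- Feit–Higman: if a finite group has a (B,N)-pair of rank 2, its Weyl group `N/(B ⊓ N)` has order 4, 6, 8, 12 or 16. -/
theorem result {G : Type*} [Group G] [Finite G] (P : Cfsg.BNPair G)
    (h2 : P.rank = 2) :
    ((P.B ⊓ P.N).subgroupOf P.N).index ∈ ({4, 6, 8, 12, 16} : Set ℕ) := by
  obtain ⟨s, t, hst, hu⟩ := Nat.card_eq_two_iff.1 h2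
  have h1 := FH.orderOf_mem hst
  have h3 := FH.card_of_two_involutions (Invol.orderOf_eq_two (sW_ne_one t) (sW_sq t))
    (Invol.orderOf_eq_two (sW_ne_one s) (sW_sq s)) (by
      rw [← closure_range_sW (P := P), ← Set.image_univ, ← hu, Set.image_pair, Set.pair_comm])
  change Nat.card (W P) ∈ _
  rw [h3]
  simp only [Set.mem_insert_iff, Set.mem_singleton_iff] at h1 ⊢
  omega

end Cfsg.Agent.S1142
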