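import Cfsg.Statements.S1148
import Cfsg.Agent.Lib.ONan.Main
import Cfsg.Agent.S0322

set_option autoImplicit false
open Cfsg

namespace Cfsg.Agent.S1148

/-- Let `G` be finite simple with a (B,N)-pair of rank 1, `B = U H` with `U` nilpotent normal in `B`, `H = B ⊓ N`, `U ⊓ H = 1`, where `[G : B] = p^(3n) + 1` for an odd prime `p`, `|U| = p^(3n)` and `H` is cyclic of order `(p^(2n) - 1)/gcd(3, p^n + 1)`. Then `G ≅ PSU₃(p^n)`. -/
theorem result {G : Type*} [Group G] [Finite G] [IsSimpleGroup G]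
    (P : Cfsg.BNPair G) (h1 : P.rank = 1) {p n : ℕ} (hp : p.Prime) (hp2 : p ≠ 2) (hn : 1 ≤ n)
    (U : Subgroup G) (hUB : U ≤ P.B) (hUn : ∀ b ∈ P.B, ∀ u ∈ U, b * u * b⁻¹ ∈ U)
    (hUnil : Group.IsNilpotent U) (hsplit : U ⊔ (P.B ⊓ P.N) = P.B) (hdisj : U ⊓ (P.B ⊓ P.N) = ⊥)
    (hind : P.B.index = p ^ (3 * n) + 1) (hU : Nat.card U = p ^ (3 * n))
    (hHc : IsCyclic ↥(P.B ⊓ P.N))
    (hH : Nat.gcd 3 (p ^ n + 1) * Nat.card ↥(P.B ⊓ P.N) = p ^ (2 * n) - 1) :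
    ∃ (F : Type) (_ : Field F) (_ : Fintype F), Fintype.card F = (p ^ n) ^ 2 ∧
      Nonempty (G ≃* Cfsg.PSU 3 F (p ^ n)) := by
  obtain ⟨-, ⟨s⟩⟩ := Nat.card_eq_one_iff_unique.1 h1
  have hst : MulAction.stabilizer G ((1 : G) : G ⧸ P.B) = P.B := MulAction.stabilizer_quotient P.B
  have hs : (s : G) ∉ P.B := fun hs => P.conj_ne s s.2 (by
    ext x
    constructor
    · rintro ⟨b, hb, rfl⟩
      exact P.B.mul_mem (P.B.mul_mem hs hb) hs
    · intro hx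
      exact ⟨(s : G)⁻¹ * x * (s : G)⁻¹, P.B.mul_mem (P.B.mul_mem (P.B.inv_mem hs) hx) (P.B.inv_mem hs),
        by group⟩)
  refine CfsgLib.ONan.onan' (Cfsg.Agent.S0322.result P h1) (a := ((1 : G) : G ⧸ P.B))
    (b := ((s : G) : G ⧸ P.B)) (fun h => hs (by simpa using QuotientGroup.eq.1 h)) U (P.B ⊓ P.N)
    (hst.symm ▸ hUn) (fun h hh => ?_) (hst.symm ▸ hsplit) hp hp2 hn hind hU hHc hH
  rw [MulAction.mem_stabilizer_iff, MulAction.Quotient.smul_mk, eq_comm, QuotientGroup.eq]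
  have := P.conj_mem _ (P.N.inv_mem (P.subset s.2)) h hh
  rwa [inv_inv, mul_assoc] at this

end Cfsg.Agent.S1148
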