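import Cfsg.Statements.S1151
import Cfsg.Agent.Lib.Ree.Simple
import Cfsg.Agent.Lib.Ree.Twisted

set_option autoImplicit false
open Cfsg

namespace Cfsg.Agent.S1151

open CfsgLib.Ree

theorem card_odd {A : Type*} [CommGroup A] [Finite A] {z : A} (hz : orderOf z = 2) {k : ℕ}
    (hk : Odd k) (hA : Nat.card A = 2 * k) : 2 * Nat.card {a : A // Odd (orderOf a)} = Nat.card A := by
  have hz2 : z ^ 2 = 1 := hz ▸ pow_orderOf_eq_one z
  have hzk : z ^ k = z := by
    obtain ⟨j, rfl⟩ := hk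
    rw [pow_succ, pow_mul, hz2, one_pow, one_mul]
  have hz1 : z ≠ 1 := by rintro rfl; simp at hz
  have iff : ∀ a : A, Odd (orderOf a) ↔ a ∈ (powMonoidHom 2 : A →* A).range := by
    intro a
    constructor
    · rintro ⟨j, hj⟩
      refine ⟨a ^ (j + 1), ?_⟩
      rw [powMonoidHom_apply, ← pow_mul, show (j + 1) * 2 = orderOf a + 1 by omega, pow_succ,
        pow_orderOf_eq_one, one_mul]
    · rintro ⟨b, rfl⟩
      refine Odd.of_dvd_nat hk (orderOf_dvd_of_pow_eq_one ?_)
      rw [powMonoidHom_apply, ← pow_mul, ← hA, pow_card_eq_one']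
  have h0 : Nat.card {a : A // Odd (orderOf a)} = Nat.card (powMonoidHom 2 : A →* A).range :=
    Nat.card_congr (Equiv.subtypeEquivRight iff)
  rw [h0]
  have h1 := (powMonoidHom 2 : A →* A).ker.card_mul_index
  rw [Subgroup.index_ker] at h1
  have h2 : Nat.card (powMonoidHom 2 : A →* A).ker = 2 := by
    have hp : IsPGroup 2 (powMonoidHom 2 : A →* A).ker := fun x => ⟨1, Subtype.ext x.2⟩
    have : Fact (Nat.Prime 2) := ⟨Nat.prime_two⟩
    obtain ⟨n, hn⟩ := hp.exists_card_eq
    have hd := Subgroup.card_subgroup_dvd_card (powMonoidHom 2 : A →* A).ker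
    have hd2 : 2 ∣ Nat.card (powMonoidHom 2 : A →* A).ker := by
      exact hz ▸ Subgroup.orderOf_dvd_natCard (powMonoidHom 2 : A →* A).ker (x := z) hz2
    rw [hn] at hd hd2 ⊢
    rw [hA] at hd
    match n, hd, hd2 with
    | 0, _, h => simp at h
    | 1, _, _ => rfl
    | n + 2, h, _ =>
      rw [pow_succ', Nat.mul_dvd_mul_iff_left (by norm_num)] at h
      exact absurd (Odd.of_dvd_nat hk ((dvd_pow_self 2 n.succ_ne_zero).trans h)) (by decide)
  rw [← h1, h2]

/-- In the small Ree group ²G₂(q), q = 3^(2m+1), realised as G¹ inside the Chevalley group G₂ over the field with q elements (θ the 3^m-th power map), with H¹ = G¹ ∩ H and U¹ = G¹ ∩ U the intersections with the ambient diagonal and positive unipotent subgroups: `H¹` has exactly `(q - 1)/2` elements of odd order, and each non-identity one centralises no non-identity element of `U¹`. -/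
theorem result {K : Type*} [Field K] [Fintype K] {m : ℕ} (hK : Fintype.card K = 3 ^ (2 * m + 1)) :
    2 * Nat.card {h : ↥(Cfsg.Lie.chevG2.diagonalSubgroup K ⊓ Cfsg.Lie.twistedG2 K (3 ^ m)) // Odd (orderOf h)} = 3 ^ (2 * m + 1) - 1 ∧
      ∀ h ∈ (Cfsg.Lie.chevG2.diagonalSubgroup K ⊓ Cfsg.Lie.twistedG2 K (3 ^ m)), h ≠ 1 → Odd (orderOf h) →
        (Cfsg.Lie.chevG2.posUnipotent K ⊓ Cfsg.Lie.twistedG2 K (3 ^ m)) ⊓ Subgroup.centralizer {h} = ⊥ := by
  have := charP_three hK
  have hφ := isTits_tits hK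
  set M := reeModel hK
  constructor
  · have e : Kˣ ≃* ↥(Cfsg.Lie.chevG2.diagonalSubgroup K ⊓ Cfsg.Lie.twistedG2 K (3 ^ m)) :=
      ((MonoidHom.ofInjective (f := M.hHom) M.h_inj).trans
        (MulEquiv.subgroupCongr (diagonalSubgroup_subgroupOf hK).symm)).trans (infEquiv _ _)
    rw [← Nat.card_congr (e.toEquiv.subtypeEquiv (p := fun a => Odd (orderOf a)) (fun x => by simp))]
    have h8 := three_pow_odd_mod_eight m
    have : Fact (Nat.Prime 2) := ⟨Nat.prime_two⟩
    rw [card_odd (z := (-1 : Kˣ)) (k := (3 ^ (2 * m + 1) - 1) / 2) (orderOf_eq_prime (by simp)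
      (fun h => neg_one_ne_one' K (congrArg Units.val h))) (by rw [Nat.odd_iff]; omega)
      (by rw [Nat.card_units, natCard_eq hK]; omega), Nat.card_units, natCard_eq hK]
  · rintro h ⟨h1, h2⟩ hne hodd
    rw [eq_bot_iff]
    rintro u ⟨⟨u1, u2⟩, hc⟩
    obtain ⟨l, hl⟩ := M.mem_H.1 ((mem_diagonalSubgroup_iff hK ⟨h, h2⟩).1 h1)
    have hu := (mem_posUnipotent_iff hK ⟨u, u2⟩).1 u1
    have hc' : (⟨h, h2⟩ : Cfsg.Lie.twistedG2 K (3 ^ m)) * ⟨u, u2⟩ = ⟨u, u2⟩ * ⟨h, h2⟩ :=
      Subtype.ext (Subgroup.mem_centralizer_iff.1 hc h rfl)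
    rw [hl] at hc'
    have := M.eq_one_of_comm hφ (l := l) (by
      rintro rfl; rw [M.h_one] at hl; exact hne (congrArg Subtype.val hl)) (by
      rintro rfl
      have := M.orderOf_h_neg_one
      rw [← hl, Subgroup.orderOf_mk] at this
      rw [this] at hodd
      exact absurd hodd (by decide)) hu hc'
    exact congrArg Subtype.val this

end Cfsg.Agent.S1151
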