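import Cfsg.Statements.S1165
-- import your own Cfsg.Agent.* helpers here

set_option autoImplicit false
open Cfsg

namespace Cfsg.Agent.S1165

theorem uniq {G Ω : Type*} [Group G] [MulAction G Ω] {a : Ω} {t : G} {Q : Subgroup G}
    (hS : Cfsg.IsRankOneSetup G Ω a t Q) {g h f g' h' f' : G} (hg : g ∈ Q)
    (hh : h ∈ (MulAction.stabilizer G a ⊓ MulAction.stabilizer G (t • a))) (hf : f ∈ Q) (hg' : g' ∈ Q)
    (hh' : h' ∈ (MulAction.stabilizer G a ⊓ MulAction.stabilizer G (t • a))) (hf' : f' ∈ Q)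
    (e : g * h * t * f = g' * h' * t * f') : g = g' ∧ h = h' ∧ f = f' := by
  have htt := hS.mul_self
  have hti : t⁻¹ = t := inv_eq_of_mul_eq_one_right htt
  have h1 : f * f'⁻¹ ∈ Q ⊓ MulAction.stabilizer G (t • a) := by
    refine ⟨Q.mul_mem hf (Q.inv_mem hf'), ?_⟩
    have hm : (g * h)⁻¹ * (g' * h') ∈ MulAction.stabilizer G a :=
      Subgroup.mul_mem _ (Subgroup.inv_mem _ (Subgroup.mul_mem _ (hS.le hg) hh.1))
        (Subgroup.mul_mem _ (hS.le hg') hh'.1)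
    have e2 : f * f'⁻¹ = t * ((g * h)⁻¹ * (g' * h')) * t := by
      have : g' * h' * t = g * h * t * f * f'⁻¹ := by rw [e]; group
      calc f * f'⁻¹ = (t * t) * (f * f'⁻¹) := by rw [htt, one_mul]
        _ = t * ((g * h)⁻¹ * (g * h * t * f * f'⁻¹)) := by group
        _ = _ := by rw [← this]; group
    show (f * f'⁻¹) • t • a = t • a
    rw [e2, mul_smul, mul_smul, ← mul_smul t t, htt, one_smul, MulAction.mem_stabilizer_iff.1 hm]
  rw [hS.inf_eq_bot, Subgroup.mem_bot, mul_inv_eq_one] at h1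
  subst h1
  have e3 : g * h = g' * h' := mul_right_cancel (mul_right_cancel e)
  have h2 : g'⁻¹ * g ∈ Q ⊓ MulAction.stabilizer G (t • a) := by
    refine ⟨Q.mul_mem (Q.inv_mem hg') hg, ?_⟩
    have : g'⁻¹ * g = h' * h⁻¹ := by
      calc g'⁻¹ * g = g'⁻¹ * (g * h) * h⁻¹ := by group
        _ = _ := by rw [e3]; group
    rw [this]
    exact Subgroup.mul_mem _ hh'.2 (Subgroup.inv_mem _ hh.2)
  rw [hS.inf_eq_bot, Subgroup.mem_bot, inv_mul_eq_one] at h2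
  subst h2
  exact ⟨rfl, mul_left_cancel e3, rfl⟩

theorem conj_t {G Ω : Type*} [Group G] [MulAction G Ω] {a : Ω} {t : G} {Q : Subgroup G}
    (hS : Cfsg.IsRankOneSetup G Ω a t Q) {h : G}
    (hh : h ∈ (MulAction.stabilizer G a ⊓ MulAction.stabilizer G (t • a))) :
    t * h * t ∈ (MulAction.stabilizer G a ⊓ MulAction.stabilizer G (t • a)) := by
  have htt := hS.mul_self
  constructor
  · show (t * h * t) • a = a
    rw [mul_smul, mul_smul, MulAction.mem_stabilizer_iff.1 hh.2, ← mul_smul, htt, one_smul]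
  · show (t * h * t) • t • a = t • a
    rw [mul_smul, mul_smul, ← mul_smul t t, htt, one_smul, MulAction.mem_stabilizer_iff.1 hh.1]

/-- In the rank-one set-up (`G` finite and doubly transitive on `Ω`, `t` an involution moving `a`, `Q` normal in `G_a` with `G_a = Q D`, `Q ⊓ D = 1` for the two-point stabiliser `D = G_a ⊓ G_{t • a}`, `|Q|` even, `|D|` odd): every `x ∈ Q`, `x ≠ 1`, determines unique `g, f ∈ Q`, `h ∈ D` with `t x t = g h t f` (a consequence of the canonical form). For these: (H1) the `f`-part of `x⁻¹` is `g⁻¹`; (H2) the `f`-part of `f` is `x`; (H3) for `a ∈ D` the `f`-part of `a⁻¹ x a` is `(t a t)⁻¹ f (t a t)`; (H4) the `h`-part of `a⁻¹ x a` is `(t a t)⁻¹ h a`, that of `x⁻¹` is `t h⁻¹ t`, and that of `f` is `h⁻¹`. -/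
theorem result {G Ω : Type*} [Group G] [Finite G] [MulAction G Ω] {a : Ω} {t : G} {Q : Subgroup G}
    (hS : Cfsg.IsRankOneSetup G Ω a t Q)
    (x g h f : G) (hx : x ∈ Q) (hx1 : x ≠ 1) (hg : g ∈ Q) (hh : h ∈ (MulAction.stabilizer G a ⊓ MulAction.stabilizer G (t • a))) (hf : f ∈ Q)
    (heq : t * x * t = g * h * t * f) :
    (∀ g₁ h₁ f₁ : G, g₁ ∈ Q → h₁ ∈ (MulAction.stabilizer G a ⊓ MulAction.stabilizer G (t • a)) → f₁ ∈ Q → t * x⁻¹ * t = g₁ * h₁ * t * f₁ →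
        f₁ = g⁻¹ ∧ h₁ = t * h⁻¹ * t) ∧
      (∀ g₂ h₂ f₂ : G, g₂ ∈ Q → h₂ ∈ (MulAction.stabilizer G a ⊓ MulAction.stabilizer G (t • a)) → f₂ ∈ Q → t * f * t = g₂ * h₂ * t * f₂ →
        f₂ = x ∧ h₂ = h⁻¹) ∧
      ∀ c ∈ (MulAction.stabilizer G a ⊓ MulAction.stabilizer G (t • a)), ∀ g₃ h₃ f₃ : G, g₃ ∈ Q → h₃ ∈ (MulAction.stabilizer G a ⊓ MulAction.stabilizer G (t • a)) → f₃ ∈ Q →
        t * (c⁻¹ * x * c) * t = g₃ * h₃ * t * f₃ →
          f₃ = (t * c * t)⁻¹ * f * (t * c * t) ∧ h₃ = (t * c * t)⁻¹ * h * c := by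
  have htt := hS.mul_self
  have hti : t⁻¹ = t := inv_eq_of_mul_eq_one_right htt
  have tt : ∀ y : G, t * (t * y) = y := fun y => by rw [← mul_assoc, htt, one_mul]
  refine ⟨?_, ?_, ?_⟩
  · intro g₁ h₁ f₁ hg₁ hh₁ hf₁ e
    have e2 : t * x⁻¹ * t = f⁻¹ * (t * h⁻¹ * t) * t * g⁻¹ := by
      have : t * x⁻¹ * t = (t * x * t)⁻¹ := by simp [mul_assoc, hti]
      rw [this, heq]; simp [mul_assoc, hti, tt]
    have := uniq hS hg₁ hh₁ hf₁ (Q.inv_mem hf) (conj_t hS (Subgroup.inv_mem _ hh)) (Q.inv_mem hg)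
      (e.symm.trans e2)
    exact ⟨this.2.2, this.2.1⟩
  · intro g₂ h₂ f₂ hg₂ hh₂ hf₂ e
    have e2 : t * f * t = (h⁻¹ * g⁻¹ * h⁻¹⁻¹) * h⁻¹ * t * x := by
      have : f = t * h⁻¹ * g⁻¹ * (t * x * t) := by rw [heq]; simp [mul_assoc, tt]
      rw [this]; simp [mul_assoc, tt, htt]
    have := uniq hS hg₂ hh₂ hf₂ (hS.conj_mem _ (Subgroup.inv_mem _ hh.1) _ (Q.inv_mem hg))
      (Subgroup.inv_mem _ hh) hx (e.symm.trans e2)
    exact ⟨this.2.2, this.2.1⟩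
  · intro c hc g₃ h₃ f₃ hg₃ hh₃ hf₃ e
    have hc' := conj_t hS hc
    have e2 : t * (c⁻¹ * x * c) * t = ((t * c * t)⁻¹ * g * (t * c * t)⁻¹⁻¹) * ((t * c * t)⁻¹ * h * c) * t *
        ((t * c * t)⁻¹ * f * (t * c * t)⁻¹⁻¹) := by
      have : x = t * (g * h * t * f) * t := by rw [← heq]; simp [mul_assoc, tt, htt]
      rw [this]; simp [mul_assoc, tt, htt, hti]
    have := uniq hS hg₃ hh₃ hf₃ (hS.conj_mem _ (Subgroup.inv_mem _ hc'.1) _ hg)
      (Subgroup.mul_mem _ (Subgroup.mul_mem _ (Subgroup.inv_mem _ hc') hh) hc)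
      (hS.conj_mem _ (Subgroup.inv_mem _ hc'.1) _ hf) (e.symm.trans e2)
    exact ⟨by rw [this.2.2, inv_inv], this.2.1⟩

end Cfsg.Agent.S1165
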