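import Cfsg.Statements.S1167
import Cfsg.Agent.Lib.Perm.ZassFeitUse

set_option autoImplicit false
open Cfsg

namespace Cfsg.Agent.S1167


/-- Let `G` be a finite simple Zassenhaus group on `Ω`, `U` a normal subgroup of `G_a` regular on `Ω` minus `a` which is an abelian 2-group, and `v` an involution with `v • a ≠ a`. Then there is a unique `u₀ ∈ U`, `u₀ ≠ 1`, with `v u₀ v = u₀ v u₀`. -/
theorem result {G Ω : Type*} [Group G] [Finite G] [MulAction G Ω] [Finite Ω]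
    (hZ : Cfsg.IsZassenhausGroup G Ω) [IsSimpleGroup G] {a : Ω}
    (U : Subgroup G) (hUle : U ≤ MulAction.stabilizer G a)
    (hUn : ∀ h ∈ MulAction.stabilizer G a, ∀ u ∈ U, h * u * h⁻¹ ∈ U)
    (hreg : ∀ c d : Ω, c ≠ a → d ≠ a → ∃! u : U, (u : G) • c = d)
    (hU2 : IsPGroup 2 U) (hUab : ∀ u ∈ U, ∀ u' ∈ U, u * u' = u' * u)
    (v : G) (hv1 : v ≠ 1) (hv2 : v * v = 1) (hva : v • a ≠ a) :
    ∃! u₀ : G, u₀ ∈ U ∧ u₀ ≠ 1 ∧ v * u₀ * v = u₀ * v * u₀ := by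
  have hT := CfsgLib.Perm.isZT_of_zass hZ
  have hc := CfsgLib.Perm.zass_three_le_card hZ
  have hF : CfsgLib.Perm.IsRootGrp a U := CfsgLib.Perm.isRootGrp_of hUle
    ⟨fun n hn g => hUn g g.2 n hn⟩ hreg
  have : Fact (Nat.Prime 2) := ⟨Nat.prime_two⟩
  obtain ⟨f, hf⟩ := IsPGroup.iff_card.mp hU2
  rw [hF.card hva.symm] at hf
  have hf0 : f ≠ 0 := by
    rintro rfl
    rw [pow_zero] at hf
    omega
  have hodd : Odd (Nat.card Ω) := by
    rw [show Nat.card Ω = 2 ^ f + 1 by omega]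
    exact (Nat.even_pow.mpr ⟨even_two, hf0⟩).add_one
  obtain ⟨p, k, hp, hpow, hk⟩ := hT.rootGrp_elementary hc hva.symm hF
    (CfsgLib.Perm.zass_le_of_comm hZ hva.symm hF hUab)
  have hp2 : 2 = p := (Nat.prime_dvd_prime_iff_eq Nat.prime_two hp).mp
    (Nat.prime_two.dvd_of_dvd_pow (n := k) (by
      rw [show p ^ k = 2 ^ f by omega]
      exact dvd_pow_self 2 hf0))
  subst hp2
  exact CfsgLib.Perm.existsUnique_braid (hT.isRankOneSetup hodd hF hv2 hva)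
    fun u hu => by rw [← sq, hpow u hu]

end Cfsg.Agent.S1167
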