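import Cfsg.Statements.S1176
import Mathlib
import Cfsg.Agent.Lib.Isol.Basic

set_option autoImplicit false
open Cfsg

namespace Cfsg.Agent.S1176

/-- Let x₀ be an involution of the finite group G and D its conjugacy class. Assume (a) for each x ∈ D the subgroup W(x) generated by the members of D commuting with x is a 2-group of nilpotency class at most 2, and (b) the product of two distinct commuting members of D again lies in D. Then for all x, y ∈ D, if xy has even order greater than 2, its order is 4. -/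
theorem result {G : Type*} [Group G] [Finite G] (x₀ : G) (hx₀ : orderOf x₀ = 2) (ha : ∀ x : G, IsConj x₀ x → IsPGroup 2 ↥(Subgroup.closure {y : G | IsConj x₀ y ∧ Commute y x}) ∧ ⁅⁅Subgroup.closure {y : G | IsConj x₀ y ∧ Commute y x}, Subgroup.closure {y : G | IsConj x₀ y ∧ Commute y x}⁆, Subgroup.closure {y : G | IsConj x₀ y ∧ Commute y x}⁆ = ⊥) (hb : ∀ x y : G, IsConj x₀ x → IsConj x₀ y → x ≠ y → Commute x y → IsConj x₀ (x * y)) (x y : G) (hx : IsConj x₀ x) (hy : IsConj x₀ y) (heven : Even (orderOf (x * y))) (hgt : 2 < orderOf (x * y)) : orderOf (x * y) = 4 := by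
  have hinv : ∀ w : G, IsConj x₀ w → w * w = 1 := by
    intro w hw
    obtain ⟨g, rfl⟩ := isConj_iff.1 hw
    exact CfsgLib.Isol.mul_self_of_orderOf_two (by rw [CfsgLib.Isol.orderOf_conj, hx₀])
  have hx2 := hinv x hx
  have hy2 := hinv y hy
  obtain ⟨m, hm⟩ := heven
  have hm0 : 0 < m := by omega
  obtain ⟨h1, h2, h3⟩ := CfsgLib.Isol.half_pow_of_even hx2 hy2 hm0 (by omega)
  have hc : IsConj x₀ (x * (x * y) ^ m) := by
    rcases Nat.even_or_odd' m with ⟨j, rfl | rfl⟩
    · have := CfsgLib.Isol.mul_zpow_even hx2 hy2 j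
      rw [show (2 * (j : ℤ)) = ((2 * j : ℕ) : ℤ) by push_cast; ring, zpow_natCast] at this
      rw [this]
      exact hx.trans (isConj_iff.2 ⟨_, rfl⟩)
    · have := CfsgLib.Isol.mul_zpow_odd hx2 hy2 j
      rw [show (2 * (j : ℤ) + 1) = ((2 * j + 1 : ℕ) : ℤ) by push_cast; ring, zpow_natCast] at this
      rw [this]
      exact hy.trans (isConj_iff.2 ⟨_, rfl⟩)
  have hne : x ≠ x * (x * y) ^ m := by
    intro h
    have : (x * y) ^ m = 1 := by simpa using h.symm
    rw [this] at h1
    simp at h1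
  have hw := hb x _ hx hc hne ((Commute.refl x).mul_right h2)
  rw [← mul_assoc, hx2, one_mul] at hw
  have h4 := (ha _ hw).2
  set W := Subgroup.closure {y_1 : G | IsConj x₀ y_1 ∧ Commute y_1 ((x * y) ^ m)}
  have hxW : x ∈ W := Subgroup.subset_closure ⟨hx, h2⟩
  have hyW : y ∈ W := Subgroup.subset_closure ⟨hy, h3⟩
  have h5 := Subgroup.commutator_mem_commutator
    (Subgroup.commutator_mem_commutator hxW hyW) hxW
  rw [h4, Subgroup.mem_bot, commutatorElement_eq_one_iff_commute] at h5
  have h6 : x * y * x⁻¹ * y⁻¹ = (x * y) ^ (2 : ℤ) := by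
    rw [CfsgLib.Isol.inv_eq_of_mul_self hx2, CfsgLib.Isol.inv_eq_of_mul_self hy2, zpow_two]
    group
  rw [commutatorElement_def, h6] at h5
  have h7 := CfsgLib.Isol.conj_mul_zpow hx2 hy2 2
  rw [← h5.eq, mul_inv_cancel_right] at h7
  have h8 : (x * y) ^ 4 = 1 := by
    have : (x * y) ^ (4 : ℤ) = 1 := by
      rw [show (4 : ℤ) = 2 + 2 by norm_num, zpow_add]
      nth_rewrite 1 [h7]
      rw [← zpow_add]; simp
    exact_mod_cast this
  have h9 := orderOf_dvd_of_pow_eq_one h8
  have h10 := Nat.le_of_dvd (by norm_num) h9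
  omega

end Cfsg.Agent.S1176
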