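import Cfsg.Statements.S1177
import Mathlib

set_option autoImplicit false
open Cfsg

namespace Cfsg.Agent.S1177

/-- Let A be a nontrivial elementary abelian 2-subgroup of a finite group G which is a T.I. set (each conjugate of A meets A trivially or equals A) and which does not commute elementwise with any conjugate of A other than A itself. Then for every a ∈ A, a ≠ 1, every conjugate of A contained in C_G(a) is equal to A (A is weakly closed in C_G(a)). -/
theorem result {G : Type*} [Group G] [Finite G] (A : Subgroup G) (hA : Cfsg.IsElementaryAbelian 2 A) (hA1 : A ≠ ⊥) (hTI : ∀ g : G, A.map (MulAut.conj g).toMonoidHom ⊓ A = ⊥ ∨ A.map (MulAut.conj g).toMonoidHom = A) (hb : ∀ g : G, (∀ a ∈ A, ∀ b ∈ A.map (MulAut.conj g).toMonoidHom, a * b = b * a) → A.map (MulAut.conj g).toMonoidHom = A) (a : G) (ha : a ∈ A) (ha1 : a ≠ 1) (g : G) (hg : A.map (MulAut.conj g).toMonoidHom ≤ Subgroup.centralizer ({a} : Set G)) : A.map (MulAut.conj g).toMonoidHom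 = A := by
  classical
  set B := A.map (MulAut.conj g).toMonoidHom with hB
  by_contra hne
  have hBA : B ⊓ A = ⊥ := (hTI g).resolve_right hne
  have hcomm : ∀ x ∈ A, ∀ y ∈ A, x * y = y * x := fun x hx y hy =>
    congrArg Subtype.val (hA.1.is_comm.comm (⟨x, hx⟩ : A) ⟨y, hy⟩)
  have hA2 : ∀ x ∈ A, x * x = 1 := fun x hx => by rw [← pow_two]; exact hA.2 x hx
  have memB : ∀ b, b ∈ B ↔ g⁻¹ * b * g ∈ A := by
    intro b
    rw [hB, Subgroup.mem_map]
    constructor
    · rintro ⟨x, hx, rfl⟩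
      simpa [mul_assoc] using hx
    · intro h
      exact ⟨_, h, by simp [mul_assoc]⟩
  have hB2 : ∀ b ∈ B, b * b = 1 := by
    intro b hb
    have := hA2 _ ((memB b).1 hb)
    calc b * b = g * (g⁻¹ * b * g * (g⁻¹ * b * g)) * g⁻¹ := by group
      _ = 1 := by rw [this]; group
  -- an element centralizing a nontrivial element of `A` normalizes `A`
  have normA : ∀ c : G, ∀ x ∈ A, x ≠ 1 → c * x = x * c → ∀ y ∈ A, c * y * c⁻¹ ∈ A := by
    intro c x hx hx1 hcx y hy
    rcases hTI c with h | h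
    · exfalso
      apply hx1
      have : x ∈ A.map (MulAut.conj c).toMonoidHom ⊓ A :=
        ⟨⟨x, hx, by simp [hcx]⟩, hx⟩
      rwa [h, Subgroup.mem_bot] at this
    · rw [← h]
      exact ⟨y, hy, by simp⟩
  have normB : ∀ c : G, ∀ x ∈ B, x ≠ 1 → c * x = x * c → ∀ y ∈ B, c * y * c⁻¹ ∈ B := by
    intro c x hx hx1 hcx y hy
    rw [memB] at hx hy ⊢
    have := normA (g⁻¹ * c * g) _ hx (by
      intro h; apply hx1
      calc x = g * (g⁻¹ * x * g) * g⁻¹ := by group
        _ = 1 := by rw [h]; group) (by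
      calc g⁻¹ * c * g * (g⁻¹ * x * g) = g⁻¹ * (c * x) * g := by group
        _ = g⁻¹ * x * g * (g⁻¹ * c * g) := by rw [hcx]; group) _ hy
    convert this using 1
    group
  have hBn : ∀ b ∈ B, ∀ y ∈ A, b * y * b⁻¹ ∈ A := fun b hb =>
    normA b a ha ha1 (Subgroup.mem_centralizer_singleton_iff.1 (hg hb))
  -- an element of `A` centralizing a nontrivial element of `B` centralizes `B`
  have key : ∀ x ∈ A, ∀ b ∈ B, b ≠ 1 → x * b = b * x → ∀ b' ∈ B, x * b' = b' * x := by
    intro x hx b hb hb1 hxb b' hb'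
    have h1 : x * b' * x⁻¹ * b'⁻¹ ∈ B ⊓ A := by
      refine ⟨B.mul_mem (normB x b hb hb1 hxb b' hb') (B.inv_mem hb'), ?_⟩
      have := A.mul_mem hx (hBn b' hb' _ (A.inv_mem hx))
      simpa [mul_assoc] using this
    rw [hBA, Subgroup.mem_bot] at h1
    calc x * b' = x * b' * x⁻¹ * b'⁻¹ * (b' * x) := by group
      _ = b' * x := by rw [h1, one_mul]
  have : ¬ ∀ x ∈ A, ∀ b ∈ B, x * b = b * x := fun h => hne (hb g h)
  push Not at this
  obtain ⟨a₁, ha₁, b₁, hb₁, hab₁⟩ := this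
  let A₀ : Set G := {x | x ∈ A ∧ ∀ b ∈ B, x * b = b * x}
  have hsub : A₀ ⊂ (A : Set G) := by
    refine ⟨fun x hx => hx.1, fun h => hab₁ ((h ha₁).2 b₁ hb₁)⟩
  have hmaps : Set.MapsTo (fun b : G => a₁ * (b * a₁ * b⁻¹)) (B : Set G) A₀ := by
    intro b hb
    have h1 : b * a₁ * b⁻¹ ∈ A := hBn b hb _ ha₁
    refine ⟨A.mul_mem ha₁ h1, ?_⟩
    by_cases hb1 : b = 1
    · subst hb1
      intro b' _
      simp [hA2 a₁ ha₁]
    · apply key _ (A.mul_mem ha₁ h1) b hb hb1
      have hbb := hB2 b hb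
      have hbi : b⁻¹ = b := inv_eq_of_mul_eq_one_right hbb
      calc a₁ * (b * a₁ * b⁻¹) * b = (b * a₁ * b⁻¹) * a₁ * b := by rw [hcomm _ ha₁ _ h1]
        _ = b * (a₁ * (b * a₁ * b⁻¹)) := by rw [hbi]; group
  have hinj : Set.InjOn (fun b : G => a₁ * (b * a₁ * b⁻¹)) (B : Set G) := by
    intro b hb b' hb' h
    simp only [mul_right_inj] at h
    by_contra hbb
    apply hab₁
    apply key a₁ ha₁ (b'⁻¹ * b) (B.mul_mem (B.inv_mem hb') hb)
      (fun h => hbb (by rw [inv_mul_eq_one] at h; exact h.symm)) _ b₁ hb₁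
    calc a₁ * (b'⁻¹ * b) = b'⁻¹ * (b' * a₁ * b'⁻¹) * b := by group
      _ = b'⁻¹ * b * a₁ := by rw [← h]; group
  have h1 := Set.ncard_le_ncard_of_injOn _ hmaps hinj (Set.toFinite _)
  have h2 := Set.ncard_lt_ncard hsub (Set.toFinite _)
  have h3 : (B : Set G).ncard = (A : Set G).ncard := by
    rw [hB, Subgroup.coe_map]
    exact Set.ncard_image_of_injective _ (MulAut.conj g).injective
  omega

end Cfsg.Agent.S1177
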