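import Cfsg.Statements.S1178
import Mathlib

set_option autoImplicit false
open Cfsg

namespace Cfsg.Agent.S1178

/-- Let A be a subgroup of a Sylow 2-subgroup S of the finite group G which is weakly closed in S. If a conjugate g A g⁻¹ commutes elementwise with A, then g A g⁻¹ = A. -/
theorem result {G : Type*} [Group G] [Finite G] (S : Sylow 2 G) (A : Subgroup G) (hW : Cfsg.IsWeaklyClosed A (S : Subgroup G)) (g : G) (hc : ∀ a ∈ A, ∀ b ∈ A.map (MulAut.conj g).toMonoidHom, a * b = b * a) : A.map (MulAut.conj g).toMonoidHom = A := by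
  set B := A.map (MulAut.conj g).toMonoidHom with hB
  have hA2 : IsPGroup 2 A := S.2.to_le hW.1
  have hB2 : IsPGroup 2 B := hA2.map _
  have hn : A ≤ Subgroup.normalizer (B : Set G) := by
    intro a ha
    rw [Subgroup.mem_normalizer_iff]
    intro b
    constructor
    · intro hb
      rw [hc a ha b hb, mul_inv_cancel_right]; exact hb
    · intro hb
      have h1 := hc a⁻¹ (A.inv_mem ha) _ hb
      have h2 : b = a * b * a⁻¹ := by
        calc b = a⁻¹ * (a * b * a⁻¹) * a := by group
          _ = a * b * a⁻¹ := by rw [h1]; group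
      rw [h2]; exact hb
  have hAB : IsPGroup 2 ↥(A ⊔ B) := IsPGroup.to_sup_of_normal_right' hA2 hB2 hn
  obtain ⟨T, hT⟩ := hAB.exists_le_sylow
  obtain ⟨h, hh⟩ := MulAction.exists_smul_eq G T S
  have key : ∀ X : Subgroup G, X ≤ T → X.map (MulAut.conj h).toMonoidHom ≤ S := by
    intro X hX
    rw [← hh]
    exact Subgroup.map_mono hX
  have h1 := hW.2 h (key A (le_sup_left.trans hT))
  have h2 : B.map (MulAut.conj h).toMonoidHom = A.map (MulAut.conj (h * g)).toMonoidHom := by
    rw [hB, Subgroup.map_map, map_mul]; rfl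
  have h3 := hW.2 (h * g) (h2 ▸ key B (le_sup_right.trans hT))
  rw [← h2, ← h1] at h3
  exact Subgroup.map_injective (MulAut.conj h).injective h3

end Cfsg.Agent.S1178
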