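import Cfsg.Statements.S1242
import Cfsg.Agent.Lib.SylTools.TransferCtrl

set_option autoImplicit false
open Cfsg

namespace Cfsg.Agent.S1242

open CfsgLib.SylTools
open scoped commutatorElement

theorem pResidual_normal (p : ℕ) (G : Type*) [Group G] : (Cfsg.pResidual p G).Normal := by
  constructor
  intro n hn g
  induction hn using Subgroup.closure_induction with
  | mem x hx =>
    apply Subgroup.subset_closure
    have : orderOf (g * x * g⁻¹) = orderOf x := (MulAut.conj g).orderOf_eq x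
    simpa [this] using hx
  | one => simp
  | mul x y _ _ hx hy =>
    have := Subgroup.mul_mem _ hx hy
    simpa [mul_assoc] using this
  | inv x _ hx =>
    have := Subgroup.inv_mem _ hx
    simpa [mul_assoc] using this

theorem exists_pow_coprime {G : Type*} [Group G] [Finite G] (p : ℕ) [Fact p.Prime] (x : G) :
    ∃ k m : ℕ, p.Coprime m ∧ (orderOf (x ^ p ^ k)).Coprime p ∧ orderOf (x ^ m) = p ^ k := by
  have h0 : orderOf x ≠ 0 := (orderOf_pos x).ne'
  obtain ⟨k, m, hm, hx⟩ := Nat.exists_eq_pow_mul_and_not_dvd h0 p (Fact.out : p.Prime).ne_one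
  have hp : p.Coprime m := (Nat.Prime.coprime_iff_not_dvd Fact.out).2 hm
  have hm0 : m ≠ 0 := by rintro rfl; simp at hm
  have hp0 : p ^ k ≠ 0 := pow_ne_zero _ (Fact.out : p.Prime).ne_zero
  refine ⟨k, m, hp, ?_, ?_⟩
  · rw [orderOf_pow_of_dvd hp0 (hx ▸ Dvd.intro _ rfl), hx, Nat.mul_div_cancel_left _ (Nat.pos_of_ne_zero hp0)]
    exact hp.symm
  · rw [orderOf_pow_of_dvd hm0 (hx ▸ Dvd.intro_left _ rfl), hx, Nat.mul_div_cancel _ (Nat.pos_of_ne_zero hm0)]


/-- Let G be a finite group, p a prime and H a subgroup of index prime to p such that any two elements of H of p-power order that are conjugate in G are conjugate in H. Then (O^p(G)·G') ∩ H = O^p(H)·H', where O^p denotes the subgroup generated by the elements of order prime to p. -/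
theorem result {G : Type*} [Group G] [Finite G] {p : ℕ} [Fact p.Prime] (H : Subgroup G) (hidx : Nat.Coprime p H.index) (hfus : ∀ g ∈ H, (∃ k : ℕ, orderOf g = p ^ k) → ∀ a : G, a * g * a⁻¹ ∈ H → ∃ h ∈ H, h * g * h⁻¹ = a * g * a⁻¹) : (Cfsg.pResidual p G ⊔ commutator G) ⊓ H = (Cfsg.pResidual p ↥H ⊔ commutator ↥H).map H.subtype := by
  apply le_antisymm
  · set K : Subgroup G := (Cfsg.pResidual p ↥H ⊔ commutator ↥H).map H.subtype with hK
    have hKH : K.subgroupOf H = Cfsg.pResidual p ↥H ⊔ commutator ↥H :=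
      Subgroup.comap_map_eq_self_of_injective H.subtype_injective _
    have := pResidual_normal p H
    have hKn : (K.subgroupOf H).Normal := by rw [hKH]; infer_instance
    have hab : ∀ x ∈ H, ∀ y ∈ H, x * y * x⁻¹ * y⁻¹ ∈ K := by
      intro x hx y hy
      exact ⟨⁅(⟨x, hx⟩ : H), (⟨y, hy⟩ : H)⁆, Subgroup.mem_sup_right
        (Subgroup.commutator_mem_commutator (Subgroup.mem_top _) (Subgroup.mem_top _)), rfl⟩
    have hQ : IsPGroup p (H ⧸ K.subgroupOf H) := by
      intro q
      obtain ⟨x, rfl⟩ := QuotientGroup.mk_surjective q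
      obtain ⟨k, m, -, hk, -⟩ := exists_pow_coprime p x
      refine ⟨k, ?_⟩
      rw [← QuotientGroup.mk_pow, QuotientGroup.eq_one_iff, hKH]
      exact Subgroup.mem_sup_left (Subgroup.subset_closure hk)
    obtain ⟨V, hV, hV2⟩ := exists_transfer_quotient H K hab
    have hV3 : Cfsg.pResidual p G ≤ V.ker := by
      rw [Cfsg.pResidual, Subgroup.closure_le]
      intro y hy
      obtain ⟨j, hj⟩ := IsPGroup.iff_orderOf.1 hQ (V y)
      have h1 : orderOf (V y) ∣ orderOf y := orderOf_map_dvd V y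
      have h2 : (orderOf (V y)).Coprime (orderOf y) := by
        rw [hj]; exact Nat.Coprime.pow_left j (Nat.Coprime.symm hy)
      have := Nat.Coprime.eq_one_of_dvd h2 h1
      exact orderOf_eq_one_iff.1 this
    rintro x ⟨hx1, hx2⟩
    obtain ⟨k, m, hm, -, hk⟩ := exists_pow_coprime p x
    have hy1 : V (x ^ m) = 1 := (sup_le hV3 hV) (Subgroup.pow_mem _ hx1 m)
    have hy2 := hV2 ⟨x ^ m, H.pow_mem hx2 m⟩ (fun j a h => by
      have hj : ∃ i, orderOf ((x ^ m) ^ j) = p ^ i :=
        (Nat.dvd_prime_pow Fact.out).1 (hk ▸ orderOf_pow_dvd j) |>.imp fun i hi => hi.2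
      obtain ⟨h', hh', he⟩ := hfus _ (H.pow_mem (H.pow_mem hx2 m) j) hj a h
      change a * (x ^ m) ^ j * a⁻¹ * ((x ^ m) ^ j)⁻¹ ∈ K
      rw [← he]
      exact hab _ hh' _ (H.pow_mem (H.pow_mem hx2 m) j))
    change V (x ^ m) = _ at hy2
    rw [hy1] at hy2
    have hx3 : ((⟨x, hx2⟩ : H) : H ⧸ K.subgroupOf H) ^ (m * H.index) = 1 := by
      rw [pow_mul, ← QuotientGroup.mk_pow]; exact hy2.symm
    have hc : (orderOf ((⟨x, hx2⟩ : H) : H ⧸ K.subgroupOf H)).Coprime (m * H.index) :=
      hQ.orderOf_coprime (Nat.Coprime.mul_right hm hidx) _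
    have := Nat.Coprime.eq_one_of_dvd hc (orderOf_dvd_of_pow_eq_one hx3)
    rw [orderOf_eq_one_iff, QuotientGroup.eq_one_iff] at this
    exact this
  · refine le_inf ?_ (Subgroup.map_subtype_le _)
    rw [Subgroup.map_sup]
    apply sup_le_sup
    · rw [Cfsg.pResidual, MonoidHom.map_closure, Subgroup.closure_le]
      rintro _ ⟨y, hy, rfl⟩
      apply Subgroup.subset_closure
      simpa using hy
    · rw [commutator_def, Subgroup.map_commutator]
      exact Subgroup.commutator_mono le_top le_top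

end Cfsg.Agent.S1242
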