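import Cfsg.Statements.S1183
import Mathlib
import Cfsg.Agent.Lib.Isol.Basic
import Cfsg.Agent.Lib.Transfer.Residual
import Cfsg.Agent.S1242

set_option autoImplicit false
open Cfsg

namespace Cfsg.Agent.S1183

/-- Let z be an isolated involution of the finite group G and C = C_G(z). Then the subgroup of G generated by its elements of odd order is all of G if and only if the subgroup of C generated by its elements of odd order is all of C. -/
theorem result {G : Type*} [Group G] [Finite G] (z : G) (hz : Cfsg.IsIsolatedInvolution z) : Cfsg.pResidual 2 G = ⊤ ↔ Cfsg.pResidual 2 ↥(Subgroup.centralizer ({z} : Set G)) = ⊤ := by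
  have : Fact (Nat.Prime 2) := ⟨Nat.prime_two⟩
  set C := Subgroup.centralizer ({z} : Set G) with hC
  constructor
  · intro hG
    by_contra hne
    obtain ⟨M, hM, hMi, hle⟩ := CfsgLib.Transfer.exists_normal_index_eq_of_pResidual_ne_top hne
    have h1 := Cfsg.Agent.S1242.result (p := 2) C
      (Nat.coprime_two_left.2 (CfsgLib.Isol.odd_index_centralizer hz)) (by
        intro g hg _ a ha
        obtain ⟨c, -, hc, hc'⟩ := CfsgLib.Isol.exists_commute_conj hz ⊤ (Subgroup.le_normalizer (Subgroup.mem_top z))
          (Subgroup.mem_centralizer_singleton_iff.1 hg)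
          (Subgroup.mem_centralizer_singleton_iff.1 ha) (Subgroup.mem_top a) rfl
        exact ⟨c, Subgroup.mem_centralizer_singleton_iff.2 hc, hc'⟩)
    rw [hG, top_sup_eq, top_inf_eq] at h1
    have h2 : commutator C ≤ M := by
      have : IsCyclic (C ⧸ M) := isCyclic_of_prime_card (p := 2) hMi
      exact Subgroup.Normal.quotient_commutative_iff_commutator_le.1 inferInstance
    have h3 : Cfsg.pResidual 2 C ⊔ commutator C = ⊤ := by
      apply Subgroup.map_injective C.subtype_injective
      rw [← h1, ← MonoidHom.range_eq_map, Subgroup.range_subtype]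
    have h4 : M = ⊤ := top_le_iff.1 (h3 ▸ sup_le hle h2)
    rw [h4] at hMi
    simp at hMi
  · intro h
    rw [eq_top_iff]
    intro g _
    obtain ⟨k, -, h1, -, h3⟩ := CfsgLib.Isol.exists_odd_inverted hz g
    have hk : k ∈ Cfsg.pResidual 2 G :=
      CfsgLib.Transfer.mem_pResidual_of_coprime (Nat.coprime_two_right.2 h1)
    have hc : k⁻¹ * g ∈ C := by
      rw [hC, Subgroup.mem_centralizer_singleton_iff]
      calc k⁻¹ * g * z = k⁻¹ * (g * z * g⁻¹) * g := by group
        _ = z * (k⁻¹ * g) := by rw [← h3]; group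
    have hc' : k⁻¹ * g ∈ Cfsg.pResidual 2 G :=
      CfsgLib.Transfer.map_pResidual_le C.subtype ⟨⟨_, hc⟩, h ▸ Subgroup.mem_top _, rfl⟩
    simpa using Subgroup.mul_mem _ hk hc'

end Cfsg.Agent.S1183
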