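import Cfsg.Statements.S1184
import Mathlib
import Cfsg.Agent.Lib.Isol.Basic

set_option autoImplicit false
open Cfsg

namespace Cfsg.Agent.S1184

/-- Let z be an isolated involution of the finite group G. If s and t are distinct conjugates of z, then st does not commute with z. -/
theorem result {G : Type*} [Group G] [Finite G] (z : G) (hz : Cfsg.IsIsolatedInvolution z) (g h : G) (hne : g * z * g⁻¹ ≠ h * z * h⁻¹) : ¬ Commute (g * z * g⁻¹ * (h * z * h⁻¹)) z := by
  intro hc
  have hs := CfsgLib.Isol.isConj_conj z g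
  have ht := CfsgLib.Isol.isConj_conj z h
  set s := g * z * g⁻¹
  set t := h * z * h⁻¹
  have hs2 := CfsgLib.Isol.mul_self_of_isConj hz hs
  have ht2 := CfsgLib.Isol.mul_self_of_isConj hz ht
  have h1 := CfsgLib.Isol.odd_orderOf_mul hz (IsConj.refl z) hs
  have h2 := CfsgLib.Isol.odd_orderOf_mul hz hs ht
  have h3 : z * s * (s * t) * (z * s)⁻¹ = (s * t)⁻¹ := by
    calc z * s * (s * t) * (z * s)⁻¹ = z * (s * (s * t) * s⁻¹) * z⁻¹ := by group
      _ = (s * t)⁻¹ := by
        rw [CfsgLib.Isol.inverts_mul hs2 ht2, ← hc.inv_left.eq, mul_inv_cancel_right]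
  have h4 := CfsgLib.Isol.eq_one_of_odd_inverts h1 h2 h3
  apply hne
  rw [eq_inv_of_mul_eq_one_left h4, CfsgLib.Isol.inv_eq_of_mul_self ht2]

end Cfsg.Agent.S1184
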