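import Cfsg.Statements.S1187
import Cfsg.Agent.Lib.Isol.ZSyl

set_option autoImplicit false
open Cfsg

namespace Cfsg.Agent.S1187

open Subgroup CfsgLib.Isol CfsgLib.Coprime

/-- Let z be an isolated involution of the finite group G and p a prime. If Q is a p-subgroup normalized by z that is maximal among p-subgroups normalized by z, then Q is a Sylow p-subgroup of G. -/
theorem result {G : Type*} [Group G] [Finite G] (z : G) (hz : Cfsg.IsIsolatedInvolution z) {p : ℕ} [Fact p.Prime] (Q : Subgroup G) (hQ : IsPGroup p Q) (hzQ : z ∈ Subgroup.normalizer (Q : Set G)) (hmax : ∀ R : Subgroup G, IsPGroup p R → z ∈ Subgroup.normalizer (R : Set G) → Q ≤ R → R = Q) : ∃ P : Sylow p G, (P : Subgroup G) = Q := by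
  by_cases hp : p = 2
  · subst hp
    have h1 : IsPGroup 2 (zpowers z ⊔ Q : Subgroup G) :=
      IsPGroup.to_sup_of_normal_right' (IsPGroup.of_card (n := 1)
        (by rw [Nat.card_zpowers, hz.1, pow_one])) hQ (zpowers_le.2 hzQ)
    obtain ⟨P, hP⟩ := h1.exists_le_sylow
    exact ⟨P, hmax P P.isPGroup' (le_normalizer (hP (mem_sup_left (mem_zpowers z))))
      (le_sup_right.trans hP)⟩
  obtain ⟨P, hP⟩ := hQ.exists_le_sylow
  have hc := coprime_card_sup_oddCore hz.1 hp P.isPGroup'
  have hPK : (P : Subgroup G) ≤ (P : Subgroup G) ⊔ pPrimeCore 2 G := le_sup_left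
  have hn : zpowers z ≤ normalizer (((P : Subgroup G) ⊔ pPrimeCore 2 G : Subgroup G) : Set G) :=
    zpowers_le.2 (mem_normalizer_of_oddCore_le hz le_sup_right)
  obtain ⟨R, h1, h2, h3, h4, h5⟩ := exists_invariant_sylow_ge' (p := p) hn hc
    (Or.inl (isSolvable_zpowers z)) Q (hP.trans hPK) hQ (zpowers_le.2 hzQ)
  have h6 := hmax R h3 (h5 (mem_zpowers z)) h1
  rw [h6] at h3 h4
  exact ⟨P, eq_of_sylow_le h3 h4 hP hPK P.isPGroup'⟩

end Cfsg.Agent.S1187
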