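import Cfsg.Statements.S1222
import Cfsg.Agent.Lib.Bender.Simple

set_option autoImplicit false
open Cfsg

namespace Cfsg.Agent.S1222

/-- Let G be a finite simple group with a strongly embedded subgroup H such that H permutes transitively the cosets gH with g ∉ H, and H has a normal subgroup Q acting regularly on those cosets (transitively, with only the identity fixing any of them). Then G is isomorphic to PSL(2,F) with F of characteristic 2 and at least 4 elements, or is simple with the order of a Suzuki group, or is isomorphic to PSU(3) over a field with q² elements, q ≥ 4 a power of 2. -/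
theorem result {G : Type*} [Group G] [Finite G] [IsSimpleGroup G] (H : Subgroup G) (hH : Cfsg.IsStronglyEmbedded H) (Q : Subgroup G) (hQH : Q ≤ H) (hQn : (Q.subgroupOf H).Normal) (htrans : ∀ g₁ g₂ : G, g₁ ∉ H → g₂ ∉ H → ∃ u ∈ Q, g₂⁻¹ * (u * g₁) ∈ H) (hreg : ∀ g : G, g ∉ H → ∀ u ∈ Q, g⁻¹ * (u * g) ∈ H → u = 1) : (∃ (F : Type) (_ : Field F) (_ : Fintype F), CharP F 2 ∧ 4 ≤ Fintype.card F ∧ Nonempty (G ≃* Matrix.ProjectiveSpecialLinearGroup (Fin 2) F)) ∨ Cfsg.IsSuzuki G ∨ (∃ (F : Type) (_ : Field F) (_ : Fintype F) (q : ℕ), Fintype.card F = q ^ 2 ∧ Even q ∧ 4 ≤ q ∧ Nonempty (G ≃* Cfsg.PSU 3 F q)) := by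
  obtain ⟨g, -, hg⟩ := SetLike.exists_of_lt (lt_top_iff_ne_top.2 hH.1)
  have hst : MulAction.stabilizer G ((1 : G) : G ⧸ H) = H := MulAction.stabilizer_quotient H
  have hne : ∀ x : G, ((x : G ⧸ H) ≠ ((1 : G) : G ⧸ H)) ↔ x ∉ H := fun x => by
    rw [ne_eq, eq_comm, QuotientGroup.eq, inv_one, one_mul]
  obtain ⟨t, -, hS⟩ := CfsgLib.Bender.exists_setup_of_regular (G := G) (Ω := G ⧸ H)
    (a := ((1 : G) : G ⧸ H)) (b := (g : G ⧸ H)) (Q := Q) ((hne g).2 hg) (hst.symm ▸ hQH)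
    (by
      rw [hst]
      exact fun h hh x hx => hQn.conj_mem ⟨x, hQH hx⟩ hx ⟨h, hh⟩)
    (by
      intro c hc
      obtain ⟨c, rfl⟩ := QuotientGroup.mk_surjective c
      obtain ⟨u, hu, h⟩ := htrans g c hg ((hne c).1 hc)
      exact ⟨u, hu, (QuotientGroup.eq.2 h).symm⟩)
    (fun x hx h => hreg g hg x hx (QuotientGroup.eq.1 h.symm))
    (hst.symm ▸ hH.2.1)
    ((CfsgLib.StrEmb.uniqueFix_of_isStronglyEmbedded hH).odd_card_of_fix_two ((hne g).2 hg)
      (fun _ h => h.2) (fun _ h => h.1))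
  exact (CfsgLib.Bender.isBender_of_simple hS).weak

end Cfsg.Agent.S1222
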