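import Cfsg.Statements.S1228
import Cfsg.Agent.Lib.StrEmb.ElemCent

set_option autoImplicit false
open Cfsg

namespace Cfsg.Agent.S1228

open CfsgLib.StrEmb CfsgLib.SylTools


/-- Let G be a finite group with a Sylow 2-subgroup T that is neither cyclic nor normal, such that the centralizer of every involution is an elementary abelian 2-group; put H = N_G(T), let u be an involution outside H and D = H ∩ uHu⁻¹. Then N_G(D) = D ⊔ ⟨u⟩, and a coset gH is fixed by every element of D exactly when gH = H or gH = uH. -/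
theorem result {G : Type*} [Group G] [Finite G] (T : Sylow 2 G) (hnc : ¬ IsCyclic (T : Subgroup G)) (hnn : ¬ (T : Subgroup G).Normal) (hC : ∀ t : G, orderOf t = 2 → IsMulCommutative (Subgroup.centralizer ({t} : Set G)) ∧ ∀ c ∈ Subgroup.centralizer ({t} : Set G), c ^ 2 = 1) (u : G) (hu : orderOf u = 2) (huH : u ∉ Subgroup.normalizer ((T : Subgroup G) : Set G)) : Subgroup.normalizer ((Subgroup.normalizer ((T : Subgroup G) : Set G) ⊓ (Subgroup.normalizer ((T : Subgroup G) : Set G)).map (MulAut.conj u).toMonoidHom : Subgroup G) : Set G) = (Subgroup.normalizer ((T : Subgroup G) : Set G) ⊓ (Subgroup.normalizer ((T : Subgroup G) : Set G)).map (MulAut.conj u).toMonoidHom) ⊔ Subgroup.zpowers u ∧ ∀ g : G, ((∀ d ∈ Subgroup.normalizer ((T : Subgroup G) : Set G) ⊓ (Subgroup.normalizer ((T : Subgroup G) : Set G)).map (MulAut.conj u).toMonoidHom, d • (QuotientGroup.mk g : G ⧸ Subgroup.normalizer ((T : Subgroup G) : Set G)) = QuotientGroup.mk g) ↔ (QuotientGroup.mk g : G ⧸ Subgroup.normalizer ((T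 : Subgroup G) : Set G)) = QuotientGroup.mk 1 ∨ (QuotientGroup.mk g : G ⧸ Subgroup.normalizer ((T : Subgroup G) : Set G)) = QuotientGroup.mk u) := by
  have h := ElemCent.mk hnc hnn hC
  set H := Subgroup.normalizer ((T : Subgroup G) : Set G) with hH
  set D := H ⊓ H.map (MulAut.conj u).toMonoidHom with hD
  have hy : (QuotientGroup.mk u : G ⧸ H) ≠ QuotientGroup.mk 1 := by
    rw [← smul_one_eq_mk u]
    exact fun hc => huH (smul_one_eq_iff.1 hc)
  have hmem : ∀ d, d ∈ D ↔ d • (QuotientGroup.mk 1 : G ⧸ H) = QuotientGroup.mk 1 ∧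
      d • (QuotientGroup.mk u : G ⧸ H) = QuotientGroup.mk u := by
    intro d
    rw [smul_one_eq_iff, smul_mk_eq_iff, hD, Subgroup.mem_inf, mem_map_conj]
  have huu := mul_self_of_orderOf hu
  have hu1 : u • (QuotientGroup.mk 1 : G ⧸ H) = QuotientGroup.mk u := smul_one_eq_mk u
  have hu2 : u • (QuotientGroup.mk u : G ⧸ H) = QuotientGroup.mk 1 := by
    rw [← hu1, smul_smul_of_mul_self huu]
  have hfix : ∀ x : G ⧸ H, (∀ d ∈ D, d • x = x) ↔
      x = QuotientGroup.mk 1 ∨ x = QuotientGroup.mk u := by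
    intro x
    constructor
    · intro hx
      by_contra hcon
      push Not at hcon
      obtain ⟨s, hs, s', hs', hs1, hs1', hss⟩ := h.exists_two_involutions
      obtain ⟨d, d1, d2, d3⟩ := h.exists_conj_of_mem hy hs hs' hs1 hs1'
      have hd : d ∈ D := (hmem d).2 ⟨smul_one_eq_iff.2 d1, d2⟩
      have := h.eq_one_of_fix_three hy hcon.2.symm hcon.1.symm d2 (smul_one_eq_iff.2 d1) (hx d hd)
      rw [this] at d3
      exact hss (by simpa using d3)
    · rintro (rfl | rfl) d hd
      · exact ((hmem d).1 hd).1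
      · exact ((hmem d).1 hd).2
  refine ⟨le_antisymm ?_ (sup_le Subgroup.le_normalizer ?_), fun g => hfix _⟩
  · intro n hn
    have key : ∀ x : G ⧸ H, (∀ d ∈ D, d • x = x) → ∀ d ∈ D, d • n • x = n • x := by
      intro x hx d hd
      have := hx _ ((Subgroup.mem_normalizer_iff''.1 hn d).1 hd)
      rw [mul_smul, mul_smul, inv_smul_eq_iff] at this
      exact this
    have k1 := (hfix _).1 (key _ ((hfix _).2 (Or.inl rfl)))
    have k2 := (hfix _).1 (key _ ((hfix _).2 (Or.inr rfl)))
    rcases k1 with k1 | k1 <;> rcases k2 with k2 | k2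
    · exact absurd (smul_left_cancel n (k2.trans k1.symm)) hy
    · exact Subgroup.mem_sup_left ((hmem n).2 ⟨k1, k2⟩)
    · have : n * u ∈ D := (hmem _).2 ⟨by rw [mul_smul, hu1, k2], by rw [mul_smul, hu2, k1]⟩
      have h2 := Subgroup.mul_mem _ (Subgroup.mem_sup_left (T := Subgroup.zpowers u) this)
        (Subgroup.mem_sup_right (S := D) (Subgroup.mem_zpowers u))
      rwa [mul_assoc, huu, mul_one] at h2
    · exact absurd (smul_left_cancel n (k2.trans k1.symm)) hy
  · rw [Subgroup.zpowers_le]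
    apply mem_normalizer_of_conj_le
    intro d hd
    rw [hmem] at hd ⊢
    rw [inv_eq_of_orderOf hu, mul_smul, mul_smul, mul_smul, mul_smul, hu1, hu2, hd.1, hd.2]
    exact ⟨hu2, hu1⟩

end Cfsg.Agent.S1228
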