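import Cfsg.Statements.S1229
import Cfsg.Agent.Lib.StrEmb.ElemCent

set_option autoImplicit false
open Cfsg

namespace Cfsg.Agent.S1229

open CfsgLib.StrEmb


/-- Let G be a finite group with a Sylow 2-subgroup T that is neither cyclic nor normal, such that the centralizer of every involution is an elementary abelian 2-group; put H = N_G(T) and X = G/H. Then G is triply transitive on X, an element fixing three distinct points of X is the identity, and T acts regularly on X minus the point H. -/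
theorem result {G : Type*} [Group G] [Finite G] (T : Sylow 2 G) (hnc : ¬ IsCyclic (T : Subgroup G)) (hnn : ¬ (T : Subgroup G).Normal) (hC : ∀ t : G, orderOf t = 2 → IsMulCommutative (Subgroup.centralizer ({t} : Set G)) ∧ ∀ c ∈ Subgroup.centralizer ({t} : Set G), c ^ 2 = 1) : (∀ x₁ x₂ x₃ y₁ y₂ y₃ : G ⧸ Subgroup.normalizer ((T : Subgroup G) : Set G), x₁ ≠ x₂ → x₁ ≠ x₃ → x₂ ≠ x₃ → y₁ ≠ y₂ → y₁ ≠ y₃ → y₂ ≠ y₃ → ∃ g : G, g • x₁ = y₁ ∧ g • x₂ = y₂ ∧ g • x₃ = y₃) ∧ (∀ g : G, ∀ x₁ x₂ x₃ : G ⧸ Subgroup.normalizer ((T : Subgroup G) : Set G), x₁ ≠ x₂ → x₁ ≠ x₃ → x₂ ≠ x₃ → g • x₁ = x₁ → g • x₂ = x₂ → g • x₃ = x₃ → g = 1) ∧ (∀ x y : G ⧸ Subgroup.normalizer ((T : Subgroup G) : Set G), x ≠ QuotientGroup.mk 1 → y ≠ QuotientGroup.mk 1 → ∃! t : G, t ∈ T ∧ t • x = y) := by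
  have h := ElemCent.mk hnc hnn hC
  refine ⟨fun x₁ x₂ x₃ y₁ y₂ y₃ h12 h13 h23 k12 k13 k23 =>
    h.exists_smul_three h12 h13 h23 k12 k13 k23,
    fun g x₁ x₂ x₃ h12 h13 h23 g1 g2 g3 => h.eq_one_of_fix_three h12 h13 h23 g1 g2 g3,
    fun x y hx hy => ?_⟩
  obtain ⟨t, ht, htx⟩ := h.exists_mem_smul_eq hy hx
  exact ⟨t, ⟨ht, htx⟩, fun t' ht' => h.eq_of_mem_smul_eq hx ht'.1 ht (ht'.2.trans htx.symm)⟩

end Cfsg.Agent.S1229
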