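import Cfsg.Statements.S1231
import Cfsg.Agent.Lib.SylTools.Rank

set_option autoImplicit false
open Cfsg

namespace Cfsg.Agent.S1231

open CfsgLib.SylTools


/-- Let H be a subgroup of the finite group G, p a prime, k ≥ 1, and P a Sylow p-subgroup of H whose p-rank is at least k. Then N_G(X) ≤ H for every subgroup X of P of p-rank at least k if and only if H ∩ gHg⁻¹ has p-rank less than k for every g ∉ H. -/
theorem result {G : Type*} [Group G] [Finite G] {p : ℕ} [Fact p.Prime] (k : ℕ) (hk : 1 ≤ k) (H : Subgroup G) (P : Sylow p ↥H) (hP : ¬ Cfsg.PRankLE p (k - 1) ↥(P : Subgroup ↥H)) : (∀ X : Subgroup G, X ≤ (P : Subgroup ↥H).map H.subtype → ¬ Cfsg.PRankLE p (k - 1) ↥X → Subgroup.normalizer (X : Set G) ≤ H) ↔ (∀ g : G, g ∉ H → Cfsg.PRankLE p (k - 1) ↥(H ⊓ H.map (MulAut.conj g).toMonoidHom)) := by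
  constructor
  · intro hN g hg
    rw [pRankLE_subgroup_iff]
    intro A hA hc hp
    by_contra hlt
    refine not_of_normalizers_le (p := p) (fun X : Subgroup G => ¬ Cfsg.PRankLE p (k - 1) X)
      (fun X Y hXY hX hY => hX (pRankLE_mono hXY hY))
      (fun X g hX hY => hX ((pRankLE_map_iff _ (MulAut.conj g).injective X).1 hY))
      (P.isPGroup'.map H.subtype) (Subgroup.map_subtype_le _) ?_ hN g hg A
      (isPGroup_of_pow_eq_one hp) (hA.trans inf_le_left) (hA.trans inf_le_right) ?_
    · have : ((P : Subgroup H).map H.subtype).relIndex H = (P : Subgroup H).index := by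
        rw [Subgroup.relIndex, Subgroup.subgroupOf, Subgroup.comap_map_eq_self_of_injective]
        exact H.subtype_injective
      rw [this]
      exact P.not_dvd_index
    · intro h
      exact hlt (pRankLE_subgroup_iff.1 h A le_rfl hc hp)
  · intro h X hX hr n hn
    by_contra hnH
    apply hr
    refine pRankLE_mono (le_inf (hX.trans (Subgroup.map_subtype_le _)) ?_) (h n hnH)
    rw [← map_conj_eq_self_iff.2 hn]
    exact Subgroup.map_mono (hX.trans (Subgroup.map_subtype_le _))

end Cfsg.Agent.S1231
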