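import Cfsg.Statements.S1233
import Cfsg.Agent.Lib.Sect.E8

set_option autoImplicit false
open Cfsg

namespace Cfsg.Agent.S1233

open Subgroup CfsgLib.Sect CfsgLib.PGroup

theorem quat {S : Type*} [Group S] {Q : Subgroup S} (e : Q ≃* QuaternionGroup 2) :
    Nat.card Q = 8 ∧ ∃ z ∈ Q, ∃ a ∈ Q, ∃ b ∈ Q, z ≠ 1 ∧ z * z = 1 ∧ (∀ q ∈ Q, q * q = 1 ∨ q * q = z) ∧
      (∀ q ∈ Q, (∀ y ∈ Q, y * q = q * y) → q = 1 ∨ q = z) ∧
      ∀ g, a ∈ centralizer {g} → b ∈ centralizer {g} → Q ≤ centralizer {g} := by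
  have f1 : ∀ x : QuaternionGroup 2, x * x = 1 ∨ x * x = .a 2 := by decide
  have f2 : ∀ x : QuaternionGroup 2, (∀ y, y * x = x * y) → x = 1 ∨ x = .a 2 := by decide
  have f3 : ∀ x : QuaternionGroup 2, ∃ i : Fin 4, x = .a 1 ^ i.1 ∨ x = .a 1 ^ i.1 * .xa 0 := by decide
  have key : ∀ {x : Q} {y}, e x = y → (x : S) = e.symm y := fun h => by rw [← h, e.symm_apply_apply]
  refine ⟨by rw [Nat.card_congr e.toEquiv, Nat.card_eq_fintype_card, QuaternionGroup.card], _, (e.symm (.a 2)).2,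
    _, (e.symm (.a 1)).2, _, (e.symm (.xa 0)).2, fun h => ?_, ?_, fun q hq => ?_, fun q hq h => ?_,
    fun g h1 h2 q hq => ?_⟩
  · exact absurd ((map_eq_one_iff _ e.symm.injective).1 (Subtype.ext h)) (by decide)
  · rw [← coe_mul, ← map_mul, show (.a 2 * .a 2 : QuaternionGroup 2) = 1 by decide, map_one, coe_one]
  · exact (f1 (e ⟨q, hq⟩)).imp (fun h => by simpa using key ((map_mul e _ _).trans h))
      fun h => key ((map_mul e _ _).trans h)
  · refine (f2 (e ⟨q, hq⟩) fun y => ?_).imp (fun h => by simpa using key h) key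
    obtain ⟨y, rfl⟩ := e.surjective y
    rw [← map_mul, ← map_mul]
    exact congrArg e (Subtype.ext (h y y.2))
  · obtain ⟨i, h | h⟩ := f3 (e ⟨q, hq⟩)
    · rw [show q = _ from key h, map_pow]
      exact pow_mem h1 i.1
    · rw [show q = _ from key h, map_mul, map_pow]
      exact mul_mem (pow_mem h1 i.1) h2


/-- Let S be a finite 2-group and Q a subgroup of order 32 generated by two elementwise-commuting subgroups Q₁, Q₂ each isomorphic to the quaternion group of order 8 (so Q = Q₁ ∗ Q₂). If C_S(Q) ≤ Q, then every section of S has 2-rank at most 4. -/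
theorem result {S : Type*} [Group S] [Finite S] (hS : IsPGroup 2 S) (Q Q₁ Q₂ : Subgroup S) (e₁ : Q₁ ≃* QuaternionGroup 2) (e₂ : Q₂ ≃* QuaternionGroup 2) (hcomm : ∀ a ∈ Q₁, ∀ b ∈ Q₂, a * b = b * a) (hQ : Q₁ ⊔ Q₂ = Q) (hQ32 : Nat.card Q = 32) (hC : Subgroup.centralizer (Q : Set S) ≤ Q) : Cfsg.SectionalPRankLE 2 4 S := by
  refine sr_top_iff.2 ?_
  by_cases h8 : ∀ B : Subgroup S, B.Normal → (∀ b ∈ B, b * b = 1) → Nat.card B ≤ 4
  · exact macw hS h8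
  push Not at h8
  obtain ⟨B, h1, h2, h3⟩ := h8
  obtain ⟨V, hV, h4, hV8⟩ := exists_normal_le_card_eq hS B 3
    (not_lt.1 fun e => absurd (card_le_pow (hS.to_subgroup B) 2 e) (by omega))
  have hV2 : ∀ v ∈ V, v * v = 1 := fun v hv => h2 v (h4 hv)
  obtain ⟨c1, z, hz, a, ha, b, hb, z1, zz, s1, t1, g1⟩ := quat e₁
  obtain ⟨c2, w, hw, c, hc, d, hd, -, -, s2, t2, g2⟩ := quat e₂
  have l1 : Q₁ ≤ Q := hQ ▸ le_sup_left
  have l2 : Q₂ ≤ Q := hQ ▸ le_sup_right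
  obtain rfl : z = w := by
    by_contra h
    have := card_mul_le_of_disj l1 l2 fun x hx hx' => (t1 x hx' fun y hy => hcomm y hy x hx).resolve_right
      fun e => (t2 x hx fun y hy => (hcomm x hx' y hy).symm).elim (fun e' => z1 (e ▸ e')) fun e' => h (e ▸ e')
    rw [c1, c2] at this
    omega
  have hQ2 : ∀ q ∈ Q, q * q ∈ zpowers z := fun q hq => by
    obtain ⟨x, hx, y, hy, rfl⟩ := (mem_sup_of_comm hcomm).1 (hQ ▸ hq)
    rw [mul_assoc, ← mul_assoc y, ← hcomm x hx y hy, mul_assoc, ← mul_assoc]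
    exact mul_mem ((mem_zpowers_two zz).2 (s1 x hx)) ((mem_zpowers_two zz).2 (s2 y hy))
  have hCZ : centralizer (Q : Set S) ≤ zpowers z := fun g hg => by
    obtain ⟨x, hx, y, hy, rfl⟩ := (mem_sup_of_comm hcomm).1 (hQ ▸ hC hg)
    refine mul_mem ((mem_zpowers_two zz).2 (t1 x hx fun u hu => ?_)) ((mem_zpowers_two zz).2 (t2 y hy fun u hu => ?_))
    · have := hg u (l1 hu)
      rwa [mul_assoc, ← hcomm u hu y hy, ← mul_assoc, ← mul_assoc, mul_left_inj] at this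
    · have := hg u (l2 hu)
      rwa [← mul_assoc, ← hcomm x hx u hu, mul_assoc, mul_assoc, mul_right_inj] at this
  obtain ⟨u, hu, u1, -, zc⟩ := exists_central hS V (by omega)
  obtain rfl : u = z := ((mem_zpowers_two zz).1 (hCZ fun g _ => zc g)).resolve_left u1
  have hn := normal_zpowers' zc
  have h5 := cz hS hV2 hV8 hu u1 zc (Q := Q) (fun q hq v _ => (cent_zpowers (zc v) _ (hQ2 q hq)).symm)
    fun v _ h => hCZ h
  refine k2 hS hV2 hV8 hu u1 zc ?_ hQ32 hQ2 hCZ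
  have mem : ∀ g, (∀ q ∈ Q, g * q * g⁻¹ * q⁻¹ ∈ zpowers u) →
      g ∈ cmod (zpowers u) a ⊓ cmod (zpowers u) b ⊓ (cmod (zpowers u) c ⊓ cmod (zpowers u) d) := fun g h =>
    mem_inf.2 ⟨mem_inf.2 ⟨mem_cmod.2 (h a (l1 ha)), mem_cmod.2 (h b (l1 hb))⟩,
      mem_inf.2 ⟨mem_cmod.2 (h c (l2 hc)), mem_cmod.2 (h d (l2 hd))⟩⟩
  have h6 := index_le (cmod (zpowers u) a ⊓ cmod (zpowers u) b ⊓ (cmod (zpowers u) c ⊓ cmod (zpowers u) d))
    (zpowers u) (fun g => ((g * a * g⁻¹ * a⁻¹, g * b * g⁻¹ * b⁻¹), (g * c * g⁻¹ * c⁻¹, g * d * g⁻¹ * d⁻¹)))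
    (((zpowers u).prod (zpowers u)).prod ((zpowers u).prod (zpowers u)) : Subgroup _)
    (fun g hg => ⟨⟨mem_cmod.1 hg.1.1, mem_cmod.1 hg.1.2⟩, mem_cmod.1 hg.2.1, mem_cmod.1 hg.2.2⟩)
    fun x _ y _ e => hCZ fun q hq => mem_cent.1 ((hQ ▸ sup_le
      (g1 _ (mem_cent.2 (comm_fib' (congrArg (·.1.1) e)).symm) (mem_cent.2 (comm_fib' (congrArg (·.1.2) e)).symm))
      (g2 _ (mem_cent.2 (comm_fib' (congrArg (·.2.1) e)).symm) (mem_cent.2 (comm_fib' (congrArg (·.2.2) e)).symm)) :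
        Q ≤ _) hq)
  rw [SetLike.coe_sort_coe, Nat.card_congr (prodEquiv _ _).toEquiv, Nat.card_prod,
    Nat.card_congr (prodEquiv _ _).toEquiv, Nat.card_prod, card_zpowers_two zz z1] at h6
  have h7 : Q ≤ _ := fun q hq => mem q fun _ => comm_mem hQ2 hq
  have h8 := card_zpowers_two zz z1 ▸ card_eq_relIndex' ((zpowers_le.2 (l1 hz)).trans h7)
  exact fun v hv => eq_of_card_lt h7 (by omega) (mem v fun q hq => comm_symm (h5 q hq v hv))

end Cfsg.Agent.S1233
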