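import Cfsg.Statements.S1234
import Cfsg.Agent.Lib.Sect.E8
import Cfsg.Agent.Lib.TwoGrp.Pres

set_option autoImplicit false
open Cfsg

namespace Cfsg.Agent.S1234

open Subgroup CfsgLib.Sect


/-- Let S be a finite 2-group and Q ≤ S a subgroup of order 32 having an elementary abelian subgroup E of order 16 and an involution s ∉ E whose centralizer in E has order 4 (so Q ≅ (Z₂ × Z₂) ≀ Z₂). If C_S(Z(Q)) = Q, then every section of S has 2-rank at most 4. -/
theorem result {S : Type*} [Group S] [Finite S] (hS : IsPGroup 2 S) (Q E : Subgroup S) (hEQ : E ≤ Q) (hE : Cfsg.IsElementaryAbelian 2 E) (hE16 : Nat.card E = 16) (hQ32 : Nat.card Q = 32) (s : S) (hsQ : s ∈ Q) (hsE : s ∉ E) (hs : orderOf s = 2) (hfix : Nat.card ↥(E ⊓ Subgroup.centralizer ({s} : Set S)) = 4) (hC : Subgroup.centralizer (((Subgroup.center Q).map Q.subtype : Subgroup S) : Set S) = Q) : Cfsg.SectionalPRankLE 2 4 S := by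
  have hE2 : ∀ e ∈ E, e * e = 1 := fun e he => by rw [← pow_two, hE.2 e he]
  have ss : s * s = 1 := by rw [← pow_two, ← hs, pow_orderOf_eq_one]
  have hi := relIndex_le_of_card (n := 2) hEQ (by omega)
  have hn : s ∈ normalizer ((E ⊓ centralizer {s} : Subgroup S) : Set S) := mem_normalizer_fintype fun x hx => by
    rwa [← mem_cent.1 (mem_inf.1 hx).2, mul_inv_cancel_right]
  have h1 : s * s ∈ E ⊓ centralizer {s} := ss ▸ one_mem _
  refine sr_top_iff.2 (harada hS (A := (E ⊓ centralizer {s}) ⊔ zpowers s) (fun a ha => ?_) ?_ fun g hg => ?_)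
  · rcases (CfsgLib.TwoGrp.mem_sup_zpowers_iff hn h1).1 ha with h | ⟨c, h, rfl⟩
    · exact hE2 a (mem_inf.1 h).1
    · rw [mul_assoc, ← mul_assoc s, ← mem_cent.1 (mem_inf.1 h).2, mul_assoc, ss, mul_one, hE2 c (mem_inf.1 h).1]
  · rw [CfsgLib.TwoGrp.card_sup_zpowers hn h1 fun e => hsE (mem_inf.1 e).1, hfix]
  · have h2 : g * s = s * g := (hg s (mem_sup_right (mem_zpowers s))).symm
    have h3 : g ∈ Q := hC ▸ fun x hx => hg x (mem_sup_left (mem_inf.2 ⟨by_contra fun h => by
      obtain ⟨h4, h5⟩ := mem_center_map.1 hx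
      have := card_le_of_le (show E ≤ E ⊓ centralizer {s} from fun e he => mem_inf.2 ⟨he, mem_cent.2 (by
        have := comm_of_sq hE2 he (mul_mem_of_le_two hi h4 hsQ h hsE)
        rwa [← mul_assoc, h5 e (hEQ he), mul_assoc, mul_assoc, mul_right_inj] at this)⟩)
      omega, mem_cent.2 ((mem_center_map.1 hx).2 s hsQ).symm⟩))
    by_cases h4 : g ∈ E
    · exact mem_sup_left (mem_inf.2 ⟨h4, mem_cent.2 h2⟩)
    · exact (mul_mem_cancel_right (mem_sup_right (mem_zpowers s))).1 (mem_sup_left (mem_inf.2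
        ⟨mul_mem_of_le_two hi h3 hsQ h4 hsE, mem_cent.2 (by rw [h2, mul_assoc, h2])⟩))

end Cfsg.Agent.S1234
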