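import Cfsg.Statements.S1235
import Cfsg.Agent.Lib.Sect.Tools
import Cfsg.Agent.Lib.TwoGrp.Pres

set_option autoImplicit false
open Cfsg

namespace Cfsg.Agent.S1235

open Subgroup CfsgLib.Sect CfsgLib.TwoGrp

section
variable {G : Type*} [Group G] [Finite G] {S T D B : Subgroup G}

theorem nab (hS : IsPGroup 2 S) (hT : T ≤ S) (hc : ∀ a ∈ D, ∀ b ∈ B, a * b = b * a) (hs : D ⊔ B = T)
    (hB : IsKleinFour B)
    (hz : ∀ d ∈ D, ∀ e ∈ D, (∀ y ∈ D, y * d = d * y) → (∀ y ∈ D, y * e = e * y) → d * d = 1 → e * e = 1 →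
      d ≠ 1 → e ≠ 1 → d = e)
    (hb : ∀ b ∈ B, b ≠ 1 → ∀ g ∈ S, g * b = b * g → g ∈ T) : S ≤ T := by
  by_contra h
  obtain ⟨n, hn, hnT, hnn, hN⟩ := exists_norm_sq hS hT h
  have hBT : B ≤ T := hs ▸ le_sup_right
  have hBc : ∀ b ∈ B, ∀ t ∈ T, t * b = b * t := fun b hb t ht => by
    obtain ⟨d, hd, e, he, rfl⟩ := (mem_sup_of_comm hc).1 (hs ▸ ht)
    rw [mul_assoc, comm_of_isKleinFour hB he hb, ← mul_assoc, hc d hd b hb, mul_assoc]
  have hfix : ∀ b ∈ B, n * b = b * n → b = 1 := fun b hb' e => by_contra fun h1 => hnT (hb b hb' h1 n hn e)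
  have key : ∀ b ∈ B, b ≠ 1 → ∃ d ∈ D, ∃ e ∈ B, b * (n * b * n⁻¹) = d * e ∧ (∀ y ∈ D, y * d = d * y) ∧
      d * d = 1 ∧ d ≠ 1 ∧ n * (d * e) = d * e * n := fun b hb' h1 => by
    have h2 : ∀ t ∈ T, t * (n * b * n⁻¹) = n * b * n⁻¹ * t := fun t ht => by
      calc _ = n * (n⁻¹ * t * n * b) * n⁻¹ := by group
        _ = _ := by rw [hBc b hb' _ (conj_inv_mem hN ht)]; group
    obtain ⟨d, hd, e, he, e1⟩ := (mem_sup_of_comm hc).1 (hs ▸ mul_mem (hBT hb') (hN b (hBT hb')))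
    have h3 : n * (d * e) = d * e * n := by
      rw [← e1]
      calc _ = n * b * n⁻¹ * (n * n * b) * n⁻¹ := by group
        _ = n * b * n⁻¹ * b * n := by rw [hBc b hb' _ hnn]; group
        _ = _ := by rw [← h2 b (hBT hb')]
    have h4 : d * e * (d * e) = 1 := by
      rw [← e1, mul_assoc, ← mul_assoc _ b, ← h2 b (hBT hb'), mul_assoc b, conj_mul, mul_self_of_isKleinFour hB hb',
        mul_one, mul_inv_cancel, mul_one, mul_self_of_isKleinFour hB hb']
    refine ⟨d, hd, e, he, e1, fun y hy => ?_, ?_, ?_, h3⟩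
    · have : y * (d * e) = d * e * y := by
        rw [← e1, ← mul_assoc, hc y hy b hb', mul_assoc, h2 y (hs ▸ mem_sup_left hy), mul_assoc b]
      rwa [mul_assoc, ← hc y hy e he, ← mul_assoc, ← mul_assoc, mul_left_inj] at this
    · rwa [mul_assoc, ← mul_assoc e, ← hc d hd e he, mul_assoc, mul_self_of_isKleinFour hB he, mul_one] at h4
    · rintro rfl
      rw [one_mul] at h3 e1
      rw [hfix e he h3, mul_eq_one_iff_inv_eq, inv_eq_of_mul_eq_one_right (mul_self_of_isKleinFour hB hb'),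
        eq_mul_inv_iff_mul_eq] at e1
      exact h1 (hfix b hb' e1.symm)
  obtain ⟨a, b, ha, hb', ha1, hb1, hne⟩ := exists_gens_of_isKleinFour hB
  obtain ⟨d, hd, e, he, e1, c1, s1, n1, f1⟩ := key a ha ha1
  obtain ⟨d', hd', e', he', e2, c2, s2, n2, f2⟩ := key b hb' hb1
  obtain rfl := hz d hd d' hd' c1 c2 s1 s2 n1 n2
  have h5 : d * e * (d * e') = e * e' := by
    rw [hc d hd e he, mul_assoc, ← mul_assoc d, s1, one_mul]
  have h6 := hfix _ (mul_mem he he') (by rw [← h5, ← mul_assoc, f1, mul_assoc, f2, ← mul_assoc])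
  rw [← h5, ← e1, ← e2, mul_assoc, ← mul_assoc _ b, hBc b hb' _ (hN a (hBT ha)), mul_assoc b, conj_mul,
    ← mul_assoc, mul_eq_one_iff_inv_eq, inv_eq_of_mul_eq_one_right (mul_self_of_isKleinFour hB (mul_mem ha hb')),
    eq_mul_inv_iff_mul_eq] at h6
  exact hne (by rw [← inv_eq_of_mul_eq_one_right (hfix _ (mul_mem ha hb') h6.symm),
    inv_eq_of_mul_eq_one_right (mul_self_of_isKleinFour hB ha)])

structure Hyp (S T B : Subgroup G) : Prop where
  le : T ≤ S
  le' : B ≤ T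
  sq : ∀ t ∈ T, t * t = 1
  c16 : Nat.card T = 16
  c4 : Nat.card B = 4
  cb : ∀ b ∈ B, b ≠ 1 → ∀ g ∈ S, g * b = b * g → g ∈ T

omit [Finite G] in
theorem Hyp.conj (h : Hyp S T B) {g : G} (hg : g ∈ S) : Hyp S (cjg g T) (cjg g B) where
  le x hx := by simpa [mul_assoc] using mul_mem (mul_mem hg (h.le (mem_cjg.1 hx))) (inv_mem hg)
  le' x hx := mem_cjg.2 (h.le' (mem_cjg.1 hx))
  sq x hx := by simpa [mul_assoc] using congrArg (fun t => g * t * g⁻¹) (h.sq _ (mem_cjg.1 hx))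
  c16 := (card_cjg g T).trans h.c16
  c4 := (card_cjg g B).trans h.c4
  cb b hb h1 x hx e := mem_cjg.2 (h.cb _ (mem_cjg.1 hb) (fun e => h1 (by
      simpa [mul_assoc] using congrArg (fun t => g * t * g⁻¹) e)) _ (mul_mem (mul_mem (inv_mem hg) hx) hg) (by
    calc _ = g⁻¹ * (x * b) * g := by group
      _ = _ := by rw [e]; group))

theorem Hyp.cent (h : Hyp S T B) {n : G} (hn : n ∈ S) (h1 : n ∉ T) :
    Nat.card (centralizer {n} ⊓ T : Subgroup G) ≤ 4 := by
  have := card_mul_le_of_disj (inf_le_right : centralizer {n} ⊓ T ≤ T) h.le' fun x hx hx' =>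
    by_contra fun e => h1 (h.cb x hx e n hn (mem_cent.1 (mem_inf.1 hx').1).symm)
  rw [h.c4, h.c16] at this
  omega

theorem Hyp.dich (h : Hyp S T B) {H K : Subgroup G} (hH : H ≤ S) (hK : ∀ x ∈ H, x * x ∈ K) :
    K.relIndex H ≤ 16 ∨ Nat.card (T ⊓ H : Subgroup G) ≤ 4 := by
  by_cases h1 : ∀ x ∈ B, x ∈ T ⊓ H → x = 1
  · have := card_mul_le_of_disj inf_le_left h.le' h1
    rw [h.c4, h.c16] at this
    omega
  push Not at h1
  obtain ⟨b, hb, hbH, h1⟩ := h1
  exact Or.inl ((comm_bound_top hK (mem_inf.1 hbH).2).trans ((card_le_of_le fun x hx =>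
    h.cb b hb h1 x (hH (mem_inf.1 hx).2) (mem_cent.1 (mem_inf.1 hx).1)).trans h.c16.le))

theorem e16 (hS : IsPGroup 2 S) (h : Hyp S T B) : SR 16 S := by
  obtain ⟨N, hN⟩ : ∃ N : Subgroup G, N = normalizer (T : Set G) ⊓ S := ⟨_, rfl⟩
  have mN : ∀ g, g ∈ N ↔ g ∈ S ∧ ∀ t ∈ T, g * t * g⁻¹ ∈ T := fun g => by
    rw [hN, mem_inf, and_comm]
    exact and_congr_right fun _ => ⟨fun e t => (mem_normalizer_iff.1 e t).1, mem_normalizer_fintype⟩
  have hNS : N ≤ S := fun g hg => ((mN g).1 hg).1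
  have hTN : T ≤ N := fun g hg => (mN g).2 ⟨h.le hg, fun t ht => mul_mem (mul_mem hg ht) (inv_mem hg)⟩
  have iN : T.relIndex N ≤ 4 := by
    obtain ⟨U, hU, h1, h2⟩ := exists_norm_card (hS.to_le hNS) hTN (fun g hg => ((mN g).1 hg).2) (k := 3)
      (by rw [h.c16]; norm_num)
    have h3 := card_mul_le hU h.le'
    rw [h2, h.c4, h.c16] at h3
    obtain ⟨b, hb, hb1⟩ := exists_ne_one (K := B ⊓ U) (by omega)
    exact relIndex_le_pow (hS.to_le hNS) 2 ((index_lt N T (fun n => n * b * n⁻¹ ) U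
      (fun n hn => h1 n hn b (mem_inf.1 hb).2) (fun x hx y hy e => h.cb b (mem_inf.1 hb).1 hb1 _
        (hNS (mul_mem (inv_mem hx) hy)) (comm_fib' (congrArg (· * b⁻¹) e))) (one_mem U)
        fun n _ e => hb1 (by simpa using e)).trans_eq h2)
  by_cases hSN : S ≤ N
  · refine fun H hH K hK => (h.dich hH hK).elim id fun h1 => (relIndex_le_card K H).trans ?_
    rw [card_eq_relIndex T H]
    exact Nat.mul_le_mul h1 ((relIndex_mono_right T (hH.trans hSN)).trans iN)
  obtain ⟨g, hg, hgN, -, hgn⟩ := exists_norm_sq hS hNS hSN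
  have h' := h.conj hg
  have hT'N : cjg g T ≤ N := fun x hx => by simpa [mul_assoc] using hgn _ (hTN (mem_cjg.1 hx))
  have nrm : ∀ k ∈ S, cjg k T ≤ T → k ∈ N := fun k hk e =>
    (mN k).2 ⟨hk, fun t ht => e (mem_cjg.2 (by simpa [mul_assoc] using ht))⟩
  have hW : ∀ y ∈ cjg g T, y ∉ T → T ⊓ cjg g T ≤ centralizer {y} ⊓ T := fun y hy _ x hx =>
    mem_inf.2 ⟨mem_cent.2 (comm_of_sq h'.sq (mem_inf.1 hx).2 hy), (mem_inf.1 hx).1⟩
  have cW := card_eq_relIndex T (cjg g T)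
  have i1 := relIndex_mono_right T hT'N
  rw [h'.c16] at cW
  have cW4 : Nat.card (T ⊓ cjg g T : Subgroup G) ≤ 4 := by
    obtain ⟨y, hy, h1⟩ := SetLike.not_le_iff_exists.1 fun e => hgN (nrm g hg e)
    exact (card_le_of_le (hW y hy h1)).trans (h.cent (h'.le hy) h1)
  have inv : ∀ x ∈ N, x * x = 1 → x ∈ T ∨ x ∈ cjg g T := fun x hx e => by
    obtain ⟨y, hy, h1⟩ := cover_of_le (K := T) hT'N (by nlinarith) hx
    by_cases h2 : y ∈ T
    · exact Or.inl ((mul_mem_cancel_left (inv_mem h2)).1 h1)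
    have h3 := h.cent (h'.le hy) h2
    refine Or.inr ((mul_mem_cancel_left (inv_mem hy)).1 (mem_inf.1 (eq_of_card_lt (hW y hy h2) (by nlinarith)
      (mem_inf.2 ⟨mem_cent.2 ?_, h1⟩))).2)
    calc _ = (y⁻¹ * x)⁻¹ * y⁻¹ := by
          rw [inv_eq_of_mul_eq_one_right (h.sq _ h1), inv_eq_of_mul_eq_one_right (h'.sq y hy)]
      _ = x⁻¹ := by group
      _ = _ := by rw [inv_eq_of_mul_eq_one_right e, mul_inv_cancel_left]
  have key : ∀ k ∈ S, cjg k T ≤ N → k ∈ N ∨ g⁻¹ * k ∈ N := fun k hk e =>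
    (le_or_le fun x hx => inv x (e hx) ((h.conj hk).sq x hx)).imp (nrm k hk) fun e =>
      nrm _ (mul_mem (inv_mem hg) hk) fun x hx => by
        simpa [mul_assoc] using mem_cjg.1 (e (x := g * x * g⁻¹) (mem_cjg.2 (by simpa [mul_assoc] using mem_cjg.1 hx)))
  obtain ⟨M, hM⟩ : ∃ M : Subgroup G, M = normalizer (N : Set G) ⊓ S := ⟨_, rfl⟩
  have mM : ∀ g, g ∈ M ↔ g ∈ S ∧ ∀ t ∈ N, g * t * g⁻¹ ∈ N := fun g => by
    rw [hM, mem_inf, and_comm]
    exact and_congr_right fun _ => ⟨fun e t => (mem_normalizer_iff.1 e t).1, mem_normalizer_fintype⟩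
  have hMS : M ≤ S := fun g hg => ((mM g).1 hg).1
  have hNM : N ≤ M := fun g hg => (mM g).2 ⟨hNS hg, fun t ht => mul_mem (mul_mem hg ht) (inv_mem hg)⟩
  have kM : ∀ k ∈ M, k ∉ N → g⁻¹ * k ∈ N := fun k hk => (key k (hMS hk) fun x hx => by
    simpa [mul_assoc] using ((mM k).1 hk).2 _ (hTN (mem_cjg.1 hx))).resolve_left
  have iM : N.relIndex M ≤ 2 := relIndex_le_two fun x hx y hy h1 h2 => by
    simpa [mul_assoc] using mul_mem (inv_mem (kM x hx h1)) (kM y hy h2)
  have hSM : S ≤ M := by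
    by_contra h1
    obtain ⟨k, hk, hkM, -, hkn⟩ := exists_norm_sq hS hMS h1
    have hk' := h.conj hk
    have h2 : cjg k T ≤ M := fun x hx => by simpa [mul_assoc] using hkn _ (hNM (hTN (mem_cjg.1 hx)))
    obtain ⟨y, hy, hyN⟩ := SetLike.not_le_iff_exists.1 fun e => (key k hk e).elim (fun e => hkM (hNM e))
      fun e => hkM ((mul_mem_cancel_left (inv_mem ((mM g).2 ⟨hg, hgn⟩))).1 (hNM e))
    have h3 := ((mN _).1 (kM y (h2 hy) hyN)).2
    have h4 : N ⊓ cjg k T ≤ T ⊓ cjg g T := fun x hx => by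
      have e := comm_of_sq hk'.sq (mem_inf.1 hx).2 hy
      rcases inv x (mem_inf.1 hx).1 (hk'.sq x (mem_inf.1 hx).2) with h5 | h5
      · refine mem_inf.2 ⟨h5, mem_cjg.2 ?_⟩
        convert h3 x h5 using 1
        rw [mul_assoc g⁻¹ y, ← e]
        group
      · refine mem_inf.2 ⟨?_, h5⟩
        convert conj_inv_mem h3 (mem_cjg.1 h5) using 1
        calc x = y⁻¹ * (y * x) := by group
          _ = _ := by rw [← e]; group
    have h5 := card_eq_relIndex N (cjg k T)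
    have h6 := (card_le_of_le h4).trans cW4
    have h7 := (relIndex_mono_right N h2).trans iM
    rw [hk'.c16] at h5
    nlinarith
  refine sr_of_le fun H hH K hKH hK => (h.dich hH hK).elim id fun h1 => (h'.dich hH hK).elim id fun h2 => ?_
  have h3 := (relIndex_mono_right N (hH.trans hSM)).trans iM
  by_cases h4 : 1 < Nat.card K
  · have h5 := card_eq_relIndex T H
    have h6 := card_eq_relIndex' hKH
    have h7 := (relIndex_le_mul T H N).trans
      (Nat.mul_le_mul ((relIndex_mono_right T inf_le_right).trans iN) h3)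
    have := Nat.mul_le_mul h1 h7
    nlinarith
  have h5 : Nat.card (N ⊓ H : Subgroup G) ≤ 4 := by
    rcases le_or_le (A := N ⊓ H) fun x hx => inv x (mem_inf.1 hx).1 (by_contra fun e =>
      h4 (two_le_card (hK x (mem_inf.1 hx).2) e)) with e | e
    exacts [(card_le_of_le (le_inf e inf_le_right)).trans h1, (card_le_of_le (le_inf e inf_le_right)).trans h2]
  have h6 := card_eq_relIndex N H
  have := relIndex_le_card K H
  nlinarith

end


/-- Let G be a finite group, x an involution and T ≤ G a Sylow 2-subgroup of C_G(x) (T ≤ C_G(x) with |C_G(x) : T| odd) which is the internal direct product of a subgroup D that is dihedral (of order ≥ 4) or quasi-dihedral and a Klein four-subgroup B. Suppose that for every involution b ∈ B, T ≤ C_G(b) with |C_G(b) : T| odd. Then every section of G has 2-rank at most 4. -/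
theorem result {G : Type*} [Group G] [Finite G] (x : G) (hx : orderOf x = 2) (T D B : Subgroup G) (hT : IsPGroup 2 T) (hTx : T ≤ Subgroup.centralizer ({x} : Set G)) (hTxi : Odd (T.relIndex (Subgroup.centralizer ({x} : Set G)))) (hprod : Cfsg.IsInternalDirectProduct D B T) (hD : (∃ m : ℕ, 2 ≤ m ∧ Nonempty (D ≃* DihedralGroup m)) ∨ Cfsg.IsQuasiDihedral D) (hB : IsKleinFour B) (hTb : ∀ b ∈ B, orderOf b = 2 → T ≤ Subgroup.centralizer ({b} : Set G) ∧ Odd (T.relIndex (Subgroup.centralizer ({b} : Set G)))) : Cfsg.SectionalPRankLE 2 4 G := by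
  obtain ⟨hDT, hBT, hc, hd, hs⟩ := hprod
  obtain ⟨S, hS⟩ := hT.exists_le_sylow
  refine sr_top_iff.2 (sr_of_sylow S ?_)
  have hb : ∀ b ∈ B, b ≠ 1 → ∀ g ∈ (S : Subgroup G), g * b = b * g → g ∈ T := fun b hb h1 g hg e => by
    obtain ⟨h2, h3⟩ := hTb b hb (orderOf_eq_prime (by rw [pow_two, mul_self_of_isKleinFour hB hb]) h1)
    obtain ⟨k, hk⟩ := (S.isPGroup'.to_le (inf_le_right : centralizer {b} ⊓ (S : Subgroup G) ≤ S)).exists_card_eq
    refine relIndex_eq_one.1 (Nat.eq_one_of_dvd_coprimes (Nat.Coprime.pow_left k (Nat.coprime_two_left.2 h3))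
      (hk ▸ relIndex_dvd_card T _) (Dvd.intro _ (relIndex_mul_relIndex _ _ _ (le_inf h2 hS) inf_le_left)))
      (mem_inf.2 ⟨mem_cent.2 e, hg⟩)
  have hB4 : Nat.card B = 4 := hB.card_four
  have main : ∀ a ∈ D, (zpowers a).relIndex D ≤ 2 → ∀ y ∈ D, y * a ≠ a * y → SR 16 (S : Subgroup G) :=
    fun a ha hi y hy hn => by
      have h1 : ∀ d ∈ D, (∀ y ∈ D, y * d = d * y) → d ∈ zpowers a := fun d hd h => by_contra fun e => hn (by
        have := comm_of_mem_zpowers (mul_mem_of_le_two hi hy hd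
          (fun e => hn (comm_of_mem_zpowers e (mem_zpowers a))) e) (mem_zpowers a)
        rwa [mul_assoc, ← h a ha, ← mul_assoc, ← mul_assoc, mul_left_inj] at this)
      refine SR.mono ?_ (nab S.isPGroup' hS hc hs hB (fun d hd e he c1 c2 s1 s2 n1 n2 => by_contra fun hne => ?_) hb)
      · refine ((sr_zpowers a).of_relIndex hi).of_relIndex (b := 4) (((relIndex_le_of_cover hBT fun t ht => ?_).trans
          (relIndex_le_card D B)).trans hB4.le)
        obtain ⟨d, hd, e, he, rfl⟩ := (mem_sup_of_comm hc).1 (hs ▸ ht)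
        exact ⟨e, he, by rwa [hc d hd e he, inv_mul_cancel_left]⟩
      · have h2 := (sr_zpowers a).card_le (sup_le (zpowers_le.2 (h1 d hd c1)) (zpowers_le.2 (h1 e he c2)))
          fun t ht => by
            obtain ⟨u, hu, v, hv, rfl⟩ := (mem_sup_of_comm fun u hu v hv => comm_of_mem_zpowers
              (zpowers_le.2 (h1 d hd c1) hu) (zpowers_le.2 (h1 e he c2) hv)).1 ht
            rcases (mem_zpowers_two s1).1 hu with rfl | rfl <;> rcases (mem_zpowers_two s2).1 hv with rfl | rfl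
            · simp
            · simpa
            · simpa
            · rw [mul_assoc, ← mul_assoc v, c1 v he, mul_assoc, s2, mul_one, s1]
        exact (two_cases h2 (mem_sup_right (mem_zpowers e)) n2 (mem_sup_left (mem_zpowers d))).elim n1 hne
  rcases hD with ⟨m, hm, ⟨e⟩⟩ | ⟨n, hn, h1, a, y, ha, hy, e⟩
  · obtain ⟨r, s, h1, h2, h3, h4, h5⟩ := exists_gens_of_dihedral e
    have h6 : ∀ g, g ∈ D ↔ g ∈ zpowers r ∨ ∃ c ∈ zpowers r, g = c * s := fun g => (h5 g).trans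
      ⟨by rintro ⟨i, rfl | rfl⟩; exacts [Or.inl ⟨i, rfl⟩, Or.inr ⟨_, ⟨i, rfl⟩, rfl⟩],
        by rintro (⟨i, rfl⟩ | ⟨_, ⟨i, rfl⟩, rfl⟩); exacts [⟨i, Or.inl rfl⟩, ⟨i, Or.inr rfl⟩]⟩
    by_cases h7 : s * r = r * s
    swap
    · exact main r ((h6 r).2 (Or.inl (mem_zpowers r))) (relIndex_eq_two_of_mem_iff h4 h6).le s
        ((h6 s).2 (Or.inr ⟨1, one_mem _, (one_mul s).symm⟩)) h7
    rw [h7, mul_inv_cancel_right, eq_inv_iff_mul_eq_one] at h3
    have h8 : Nat.card D = 4 := by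
      rw [card_eq_two_mul_of_mem_iff h4 h6, card_zpowers_two h3 fun e => by simp [e] at h1; omega]
    refine e16 S.isPGroup' ⟨hS, hBT, fun t ht => ?_, ?_, hB4, hb⟩
    · obtain ⟨d, hd, e, he, rfl⟩ := (mem_sup_of_comm hc).1 (hs ▸ ht)
      rw [mul_assoc, ← mul_assoc e, ← hc d hd e he, mul_assoc, mul_self_of_isKleinFour hB he, mul_one]
      rcases (h6 d).1 hd with h | ⟨c, h, rfl⟩ <;> rcases (mem_zpowers_two h3).1 h with rfl | rfl
      · simp
      · exact h3
      · simpa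
      · rw [mul_assoc, ← mul_assoc s, h7, mul_assoc, h2, mul_one, h3]
    · have h9 := card_mul_le_of_disj hDT hBT fun x h h' => mem_bot.1 (hd ▸ mem_inf.2 ⟨h', h⟩)
      have h10 := (relIndex_le_of_cover (K := D) hBT fun t ht => by
        obtain ⟨d, hd, e, he, rfl⟩ := (mem_sup_of_comm hc).1 (hs ▸ ht)
        exact ⟨e, he, by rwa [hc d hd e he, inv_mul_cancel_left]⟩).trans (relIndex_le_card D B)
      have h11 := card_eq_relIndex' hDT
      rw [h8, hB4] at *
      omega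
  · refine main a a.2 ?_ y y.2 fun e' => ?_
    · have h2 := card_eq_relIndex' (zpowers_le.2 a.2)
      rw [h1, Nat.card_zpowers, orderOf_coe, ha, pow_succ] at h2
      exact (Nat.eq_of_mul_eq_mul_left (by positivity) h2).ge
    · have h2 : y * a = a * y := Subtype.ext e'
      rw [h2, mul_inv_cancel_right] at e
      obtain ⟨k, rfl⟩ := Nat.exists_eq_add_of_le' hn
      have h3 : 0 < 2 ^ k := by positivity
      have h4 := pow_injOn_Iio_orderOf (x := a) (x₁ := 1) (x₂ := 2 ^ (k + 3 - 1) - 1)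
        (by rw [Set.mem_Iio, ha, pow_add]; omega) (by rw [Set.mem_Iio, ha, show k + 3 - 1 = k + 2 from rfl, pow_add, pow_add]; omega)
        (by simpa using e)
      rw [show k + 3 - 1 = k + 2 from rfl, pow_add] at h4
      omega

end Cfsg.Agent.S1235
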