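import Cfsg.Statements.S1236
import Cfsg.Agent.Lib.DihSyl.Basic
import Cfsg.Agent.Lib.TwoGrp.QD2
import Cfsg.Agent.Lib.Core.Basic

set_option autoImplicit false
open Cfsg

namespace Cfsg.Agent.S1236

open CfsgLib.DihSyl CfsgLib.TwoGrp

/-- Let R be a finite group, t a central involution of R such that R ⧸ ⟨t⟩ is dihedral (of order ≥ 4) or quasi-dihedral, and A ≤ R an elementary abelian subgroup of order 8 containing t. Then C_R(A) = A. -/
theorem result {R : Type*} [Group R] [Finite R] (t : R) (ht : orderOf t = 2) (htz : t ∈ Subgroup.center R) [(Subgroup.zpowers t).Normal] (hq : (∃ m : ℕ, 2 ≤ m ∧ Nonempty (R ⧸ Subgroup.zpowers t ≃* DihedralGroup m)) ∨ Cfsg.IsQuasiDihedral (R ⧸ Subgroup.zpowers t)) (A : Subgroup R) (hA : Cfsg.IsElementaryAbelian 2 A) (hA8 : Nat.card A = 8) (htA : t ∈ A) : Subgroup.centralizer (A : Set R) = A := by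
  have hZA : Subgroup.zpowers t ≤ A := Subgroup.zpowers_le_of_mem htA
  have hcomm : ∀ a ∈ A, ∀ b ∈ A, a * b = b * a := CfsgLib.Core.isMulCommutative_iff_forall.1 hA.1
  apply le_antisymm _ (fun a ha => Subgroup.mem_centralizer_iff.2 fun b hb => hcomm b hb a ha)
  have hcard : Nat.card (A.map (QuotientGroup.mk' (Subgroup.zpowers t))) = 4 := by
    have := CfsgLib.Core.card_map_mk'_mul_card_inf A (Subgroup.zpowers t)
    rw [inf_eq_right.2 hZA, Nat.card_zpowers, ht, hA8] at this
    omega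
  have hV : IsKleinFour (A.map (QuotientGroup.mk' (Subgroup.zpowers t))) := by
    refine ⟨hcard, ?_⟩
    have : Nontrivial (A.map (QuotientGroup.mk' (Subgroup.zpowers t))) :=
      Finite.one_lt_card_iff_nontrivial.1 (by omega)
    apply (Monoid.exponent_eq_prime_iff Nat.prime_two).2
    rintro ⟨_, a, ha, rfl⟩ h1
    apply orderOf_eq_prime _ h1
    apply Subtype.ext
    change (QuotientGroup.mk' (Subgroup.zpowers t) a) ^ 2 = 1
    rw [← map_pow, hA.2 a ha, map_one]
  intro c hc
  have h1 : QuotientGroup.mk' (Subgroup.zpowers t) c ∈ ⊤ ⊓ Subgroup.centralizer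
      ((A.map (QuotientGroup.mk' (Subgroup.zpowers t)) : Subgroup _) : Set _) := by
    refine ⟨trivial, Subgroup.mem_centralizer_iff.2 ?_⟩
    rintro _ ⟨a, ha, rfl⟩
    rw [← map_mul, ← map_mul, Subgroup.mem_centralizer_iff.1 hc a ha]
  have h2 : QuotientGroup.mk' (Subgroup.zpowers t) c ∈
      A.map (QuotientGroup.mk' (Subgroup.zpowers t)) := by
    rcases hq with ⟨m, -, ⟨e⟩⟩ | hq
    · obtain ⟨r, s, h⟩ := exists_isDih (Subgroup.topEquiv.trans e)
      rwa [h.inf_centralizer_four le_top hV] at h1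
    · obtain ⟨k, x, y, h⟩ := exists_isQD_top hq
      obtain ⟨a, ha⟩ := h.exists_eq_of_isKleinFour le_top hV
      rw [ha] at h1 ⊢
      rwa [h.inf_centralizer_four] at h1
  obtain ⟨a, ha, e⟩ := h2
  have h3 := hZA (QuotientGroup.eq.1 e)
  simpa using A.mul_mem ha h3

end Cfsg.Agent.S1236
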