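import Cfsg.Statements.S1239
import Cfsg.Agent.Lib.QDFus.QDGroup

set_option autoImplicit false
open Cfsg

namespace Cfsg.Agent.S1239

open Subgroup CfsgLib CfsgLib.TwoGrp CfsgLib.QDFus CfsgLib.Tech

/-- Let X be a finite group whose Sylow 2-subgroup S is quasi-dihedral or wreathed, and suppose some involution of S is isolated in X. Then the product of the largest normal odd-order subgroup O(X) with the centre of S is normal in X. -/
theorem result {X : Type*} [Group X] [Finite X] (S : Sylow 2 X) (hS : Cfsg.IsQuasiDihedral (S : Subgroup X) ∨ Cfsg.IsWreathed (S : Subgroup X)) (z : X) (hzS : z ∈ S) (hz : Cfsg.IsIsolatedInvolution z) : (Cfsg.oddCore X ⊔ (Subgroup.center (S : Subgroup X)).map (S : Subgroup X).subtype).Normal := by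
  refine normal_oddCore_sup_of_comm_mem
    fun a ha g => comm_mem_oddCore_of_center S (fun b hb g hg => ?_) ha g
  have hc : ∀ s ∈ (S : Subgroup X), Commute s z := fun s hs =>
    Isol.commute_of_isPGroup hz S.isPGroup' (le_normalizer hzS) hs
  have hzZ : z ∈ (S : Subgroup X) ⊓ centralizer ((S : Subgroup X) : Set X) := ⟨hzS, hc⟩
  have hz1 := Isol.ne_one_of_orderOf_two hz.1
  rcases hS with hS | hS
  · obtain ⟨k, x, y, hq⟩ := exists_isQD hS
    refine hq.conj_center_eq (fun e => ?_) hb hg
    rw [hq.inf_centralizer_self, mem_zpowers_iff_of_mul_self hq.z_mul_z] at hzZ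
    obtain rfl := hzZ.resolve_left hz1
    exact hq.y_ne_xpow _ (Isol.eq_of_commute hz e (IsConj.refl _) (hc _ hq.y_mem))
  · obtain ⟨k, x, y, t, hq⟩ := exists_isWr hS
    refine hq.conj_center_eq (fun e => ?_) hb hg
    rw [hq.inf_centralizer_self, hq.mem_Z] at hzZ
    obtain ⟨c, rfl⟩ := hzZ
    have h1 := Isol.mul_self_of_orderOf_two hz.1
    rw [hq.u_mul_u, hq.u_eq_one_iff] at h1
    have h2 : wu x y c c = wu x y (2 * k) (2 * k) := by
      rcases hq.half h1.1 with e' | e'
      · exact absurd (hq.u_eq_one_iff.2 ⟨e', e'⟩) hz1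
      · exact hq.u_eq_iff.2 ⟨e', e'⟩
    rw [← h2] at e
    exact hq.z0_ne_x2k
      (h2.symm.trans (Isol.eq_of_commute hz e (IsConj.refl _) (hc _ (hq.u_mem _ _))).symm)

end Cfsg.Agent.S1239
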