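import Cfsg.Statements.S1244
import Cfsg.Agent.Lib.Transfer.Thompson
import Cfsg.Agent.Lib.Transfer.Abelian
import Cfsg.Agent.Lib.SylTools.Rank
import Cfsg.Agent.Lib.PGroup.Omega
import Cfsg.Agent.Lib.Core.Basic

set_option autoImplicit false
open Cfsg

namespace Cfsg.Agent.S1244

open CfsgLib

/-- Let G be a finite group with no subgroup of index 2 whose Sylow 2-subgroup S is commutative, and let R ≤ S be a subgroup whose 2-rank is exactly one less than the 2-rank r of S. Then every involution of S is conjugate, by an element of N_G(S), to an element of R. -/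
theorem result {G : Type*} [Group G] [Finite G] (hG : ∀ H : Subgroup G, H.index ≠ 2) (S : Sylow 2 G) (hS : IsMulCommutative (S : Subgroup G)) (r : ℕ) (hr1 : 1 ≤ r) (hSr : Cfsg.PRankLE 2 r (S : Subgroup G) ∧ ¬ Cfsg.PRankLE 2 (r - 1) (S : Subgroup G)) (R : Subgroup G) (hRS : R ≤ S) (hRr : Cfsg.PRankLE 2 (r - 1) R ∧ (r = 1 ∨ ¬ Cfsg.PRankLE 2 (r - 2) R)) (t : G) (ht : orderOf t = 2) (htS : t ∈ S) : ∃ n ∈ Subgroup.normalizer ((S : Subgroup G) : Set G), n * t * n⁻¹ ∈ R := by
  have hc : ∀ a ∈ (S : Subgroup G), ∀ b ∈ (S : Subgroup G), a * b = b * a :=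
    SylTools.isMulCommutative_iff_forall.1 hS
  set V := PGroup.powKer (S : Subgroup G) hS 2 with hV
  have hVS : V ≤ S := PGroup.powKer_le _ _ _
  have hVc : Nat.card V ≤ 2 ^ r := SylTools.pRankLE_subgroup_iff.1 hSr.1 V hVS
    (fun a ha b hb => hc a (hVS ha) b (hVS hb)) (fun a ha => (PGroup.mem_powKer.1 ha).2)
  have hWc : 2 ^ (r - 1) ≤ Nat.card ↥(R ⊓ V) := by
    rcases hRr.2 with h | h
    · subst h; exact Nat.card_pos
    rw [SylTools.pRankLE_subgroup_iff] at h
    push Not at h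
    obtain ⟨E, h1, h2, h3, h4⟩ := h
    have h5 : E ≤ R ⊓ V := fun a ha => ⟨h1 ha, PGroup.mem_powKer.2 ⟨hRS (h1 ha), h3 a ha⟩⟩
    obtain ⟨k, hk⟩ := (S.isPGroup'.to_le (inf_le_left.trans hRS : R ⊓ V ≤ S)).exists_card_eq
    have h6 := lt_of_lt_of_le h4 (Subgroup.card_le_of_le h5)
    rw [hk] at h6 ⊢
    have := (Nat.pow_lt_pow_iff_right (by norm_num)).1 h6
    exact Nat.pow_le_pow_right (by norm_num) (by omega)
  have hmul : ∀ a ∈ V, ∀ b ∈ V, a ∉ R → b ∉ R → a * b ∈ R := by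
    intro a ha b hb haR hbR
    have h1 := Core.card_inf_mul_relIndex R V
    have h2 : R.relIndex V ≠ 1 := fun e => haR (Subgroup.relIndex_eq_one.1 e ha)
    have h3 : R.relIndex V ≠ 0 := Subgroup.index_ne_zero_of_finite
    have h4 : R.relIndex V = 2 := by
      by_contra h5
      have h6 : 3 ≤ R.relIndex V := by omega
      have h7 : 2 ^ r = 2 ^ (r - 1) * 2 := by rw [← pow_succ]; congr 1; omega
      have h8 : 0 < 2 ^ (r - 1) := by positivity
      nlinarith
    exact (Subgroup.mul_mem_iff_of_index_two h4 (a := ⟨a, ha⟩) (b := ⟨b, hb⟩)).2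
      (iff_of_false haR hbR)
  by_contra hcon
  push Not at hcon
  have htR : t ∉ R := by simpa using hcon 1 (Subgroup.one_mem _)
  have ht2 : t ^ 2 = 1 := ht ▸ pow_orderOf_eq_one t
  letI : CommGroup (S : Subgroup G) := { mul_comm := fun a b => hS.is_comm.comm a b }
  have hO := (Transfer.pResidual_two_eq_top_iff).2 hG
  have h1 := Transfer.transfer_mul_inv_pow_mem_of_prime (MonoidHom.id (S : Subgroup G))
    (R.subgroupOf S) Nat.prime_two t ht ⟨t, htS⟩
    (by rw [Subgroup.mem_subgroupOf]; simp [ht2]) (by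
      intro x hx
      obtain ⟨u, hu, e⟩ := Transfer.control_of_abelian_sylow S hS t htS x⁻¹ (by simpa using hx)
      rw [inv_inv] at e
      rw [Subgroup.mem_subgroupOf]
      refine hmul _ (PGroup.mem_powKer.2 ⟨hx, ?_⟩) _ (V.inv_mem (PGroup.mem_powKer.2 ⟨htS, ht2⟩))
        ?_ (by simpa using htR)
      · change (x⁻¹ * t * x) ^ 2 = 1
        rw [e, conj_pow, ht2]; simp
      · change x⁻¹ * t * x ∉ R
        rw [e]; exact hcon u hu)
  rw [Transfer.map_eq_one_of_pResidual_eq_top hO S.isPGroup', one_mul, Subgroup.inv_mem_iff,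
    Subgroup.mem_subgroupOf] at h1
  obtain ⟨k, hk⟩ : Odd (S : Subgroup G).index :=
    Nat.odd_iff.2 (Nat.two_dvd_ne_zero.1 S.not_dvd_index)
  rw [hk] at h1
  apply htR
  simpa [pow_succ, pow_mul, ht2] using h1

end Cfsg.Agent.S1244
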