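import Cfsg.Statements.S1246
import Cfsg.Agent.Lib.SylTools.Basic
import Cfsg.Agent.Lib.Comp.Local

set_option autoImplicit false
open Cfsg

namespace Cfsg.Agent.S1246

open CfsgLib.SylTools CfsgLib.Comp


/-- Let V ≤ U be p-subgroups of the finite group G. If the generalized Fitting subgroup of C_G(V) is a p-group, then so is that of C_G(U). -/
theorem result {G : Type*} [Group G] [Finite G] {p : ℕ} [Fact p.Prime] (U V : Subgroup G) (hVU : V ≤ U) (hU : IsPGroup p U) (hV : IsPGroup p ↥(Cfsg.generalizedFittingSubgroup ↥(Subgroup.centralizer (V : Set G)))) : IsPGroup p ↥(Cfsg.generalizedFittingSubgroup ↥(Subgroup.centralizer (U : Set G))) := by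
  rw [← fstar_eq_pCore_iff_isPGroup] at hV ⊢
  induction hn : Nat.card G - Nat.card V using Nat.strong_induction_on generalizing V with
  | _ n ih =>
  by_cases hUV : V = U
  · rw [← hUV]; exact hV
  obtain ⟨b, hbU, hbN, hbV⟩ := exists_mem_normalizer_not_mem hU hVU hUV
  set W := U ⊓ Subgroup.normalizer (V : Set G) with hW
  have hVW : V ≤ W := le_inf hVU Subgroup.le_normalizer
  have hlt : Nat.card V < Nat.card W := by
    refine lt_of_le_of_ne (Subgroup.card_le_of_le hVW) fun hc => hbV ?_
    rw [Subgroup.eq_of_le_of_card_ge hVW hc.ge]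
    exact ⟨hbU, hbN⟩
  have hle : Nat.card W ≤ Nat.card G := Nat.card_le_card_of_injective _ W.subtype_injective
  refine ih (Nat.card G - Nat.card W) (by omega) W inf_le_left ?_ rfl
  refine fstar_centralizer_eq_pCore_of_le
    ((fstar_normalizer_eq_pCore_iff (hU.to_le hVU)).2 hV) (hU.to_le inf_le_left) inf_le_right ?_
  exact (Subgroup.centralizer_le hVW).trans (Subgroup.centralizer_le_normalizer _)

end Cfsg.Agent.S1246
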