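import Mathlib
-- Template for statement S1247 (row 1247; see /opt/grader/pristine/manifest.json for weights).
-- Copy to Cfsg/Agent/S1247.lean and replace the sorry. The statement below is byte-identical to the frozen
-- statement Cfsg.CfsgFrozen.S1247 (Cfsg/Statements/S1247.lean; the theorem Cfsg.maximal_subgroup_large_subnormal_controls_fitting_of_overgroups);
-- the grader kernel-checks Cfsg.Agent.S1247.result against that frozen type. Keep the theorem IN THIS FILE
-- (a `result` declared elsewhere and merely imported here is not credited); helpers may live anywhere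
-- under Cfsg/Agent/.
import Cfsg.Statements.S1247
import Cfsg.Agent.Lib.Comp.Arrow
-- import your own Cfsg.Agent.* helpers here

set_option autoImplicit false
open Cfsg

namespace Cfsg.Agent.S1247

open Subgroup CfsgLib CfsgLib.PComp CfsgLib.Comp CfsgLib.Core

variable {G : Type*} [Group G] [Finite G] {M S : Subgroup G}

abbrev Rp (p : ℕ) (M : Subgroup G) : Subgroup G := opOf p M ⊓ fitOf M

theorem layer_le (hSF : S ≤ fstarOf M) (hsn : (S.subgroupOf (fstarOf M)).IsSubnormal)
    (hC : fstarOf M ⊓ centralizer (S : Set G) ≤ S) : layerOf M ≤ S := by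
  rw [map_layer_subtype_le_iff]
  intro K hKM hK
  have h1 : K ≤ fstarOf M := (le_map_layer_subtype hKM hK).trans (layerOf_le_fstarOf M)
  rcases comp_le_or_commutator_of_isSubnormal (comp_subgroupOf_of_le h1 (map_subtype_le _) hK) hsn with h | h
  · exact fun k hk => h (show (⟨k, h1 hk⟩ : fstarOf M) ∈ K.subgroupOf _ from hk)
  · refine le_trans (le_inf h1 ?_) hC
    intro k hk s hs
    exact congrArg Subtype.val (commutator_eq_bot_iff_le_centralizer.1 h
      (show (⟨k, h1 hk⟩ : fstarOf M) ∈ K.subgroupOf _ from hk) ⟨s, hSF hs⟩ hs)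

theorem le_Rp {p : ℕ} [Fact p.Prime] {T : Subgroup G} (hT : (Nat.card T).Coprime p) (h : T ≤ fitOf M) :
    T ≤ Rp p M := by
  have h1 : T ≤ M := h.trans (map_subtype_le _)
  refine le_inf ?_ h
  rw [← map_subgroupOf_eq_of_le h1]
  refine map_mono (le_pPrimeCore_of_le_sup (by rwa [Nat.card_congr (subgroupOfEquivOfLe h1).toEquiv])
    (le_trans (fun x hx => ?_) (fit_le_pCore_sup_pPrimeCore p)))
  obtain ⟨y, hy, e⟩ := h hx
  rwa [← Subtype.ext e]

theorem self_cent {p : ℕ} [Fact p.Prime] (hSF : S ≤ fstarOf M) (hE : layerOf M ≤ S)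
    (hC : fstarOf M ⊓ centralizer (S : Set G) ≤ S) :
    Rp p M ⊓ centralizer ((S ⊓ Rp p M : Subgroup G) : Set G) ≤ S := by
  refine le_trans (le_inf ((inf_le_left.trans inf_le_right).trans (fitOf_le_fstarOf M)) ?_) hC
  rw [le_centralizer_iff]
  intro s hs
  have h1 := hSF hs
  rw [fstarOf_eq, mem_sup_of_le_normalizer_right ((map_subtype_le _).trans (le_normalizer_fitOf M))] at h1
  obtain ⟨e, he, f, hf, rfl⟩ := h1
  refine mul_mem (centralizer_le (inf_le_left.trans inf_le_right) (layerOf_le_centralizer_fitOf M he)) ?_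
  have h2 : f ∈ fitOf (S ⊓ fitOf M) := le_map_fit le_rfl le_normalizer
    (by have := map_fit_nilpotent M; exact isNilpotent_of_le inf_le_right)
    ⟨(mul_mem_cancel_left (hE he)).1 hs, hf⟩
  rw [fitOf_eq_sup (p := p)] at h2
  refine sup_le (a := pCoreIn p _) ?_ ?_ h2
  · exact (le_pCoreIn_of_le_fitOf (isPGroup_pCoreIn p _) ((map_subtype_le _).trans inf_le_right)).trans
      ((pCoreIn_le_centralizer_opOf M).trans (centralizer_le inf_le_left))
  · exact le_centralizer_iff.1 (inf_le_right.trans (centralizer_le (le_inf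
      ((inf_le_left.trans (opOf_le _)).trans inf_le_left) (le_Rp (coprime_opOf_inf_fitOf _)
        ((inf_le_left.trans (opOf_le _)).trans inf_le_right)))))

theorem cent_inf {p : ℕ} [Fact p.Prime] {P : Subgroup G} (hP : IsPGroup p P) (h1 : P ≤ M)
    (h2 : S ≤ normalizer (P : Set G)) : P ≤ centralizer ((S ⊓ Rp p M : Subgroup G) : Set G) := by
  rw [← commutator_eq_bot_iff_le_centralizer, eq_bot_iff, ← isPGroup_inf_opOf hP M]
  exact le_inf (LAE.commutator_le_left_of_le_normalizer (inf_le_left.trans h2))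
    ((commutator_mono le_rfl (inf_le_right.trans inf_le_left)).trans
      (LAE.commutator_le_right_of_le_normalizer (h1.trans (le_normalizer_opOf M))))

theorem cent_Rp {p : ℕ} [Fact p.Prime] (hSF : S ≤ fstarOf M) (hE : layerOf M ≤ S)
    (hC : fstarOf M ⊓ centralizer (S : Set G) ≤ S) {P : Subgroup G} (hP : IsPGroup p P) (h1 : P ≤ M)
    (h2 : S ≤ normalizer (P : Set G)) : P ≤ centralizer (Rp p M : Set G) :=
  Coprime.le_centralizer_of_self_centralizing (C := S ⊓ Rp p M)
    (by have := map_fit_nilpotent M; exact isNilpotent_of_le inf_le_right)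
    (h1.trans (le_normalizer_opOf_inf_fitOf M)) (isPGroup_coprime_card hP (coprime_opOf_inf_fitOf M))
    inf_le_right (le_centralizer_iff.1 (cent_inf hP h1 h2))
    ((le_inf (self_cent hSF hE hC) inf_le_left).trans (le_centralizer_iff.1 (cent_inf hP h1 h2)))

theorem cent_layer {p : ℕ} [Fact p.Prime] (hE : layerOf M ≤ S) {P : Subgroup G} (hP : IsPGroup p P)
    (h1 : P ≤ M) (h2 : S ≤ normalizer (P : Set G)) : layerOf M ≤ centralizer (P : Set G) :=
  layerOf_le_centralizer_of_solvable h1 (Coprime.isSolvable_of_isPGroup hP) (hE.trans h2)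

/-- Let G be a non-abelian finite simple group, A a maximal subgroup, F = F*(A) its generalized Fitting subgroup (viewed in G), and S ≤ F a subgroup subnormal in F with C_F(S) ≤ S. Let B be any subgroup of G containing S. Then (a) for every prime q not dividing |F(A)|, O_q(B) ∩ A = 1; and (b) for every prime p dividing |F(A)|, O_p(B) commutes elementwise with the subgroup of F generated by its elements of order prime to p. -/
theorem result {G : Type*} [Group G] [Finite G] [IsSimpleGroup G] (hna : ¬ IsMulCommutative G) (A : Subgroup G) (hA : IsCoatom A) (S : Subgroup G) (hSF : S ≤ (Cfsg.generalizedFittingSubgroup ↥A).map A.subtype) (hSsn : (S.subgroupOf ((Cfsg.generalizedFittingSubgroup ↥A).map A.subtype)).IsSubnormal) (hSC : (Cfsg.generalizedFittingSubgroup ↥A).map A.subtype ⊓ Subgroup.centralizer (S : Set G) ≤ S) (B : Subgroup G) (hSB : S ≤ B) : (∀ q : ℕ, q.Prime → ¬ q ∣ Nat.card (Cfsg.fittingSubgroup ↥A) → (Cfsg.pCore q ↥B).map B.subtype ⊓ A = ⊥) ∧ (∀ p : ℕ, p.Prime → p ∣ Nat.card (Cfsg.fittingSubgroup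 ↥A) → ∀ x ∈ (Cfsg.pCore p ↥B).map B.subtype, ∀ y ∈ (Cfsg.pResidual p ↥(Cfsg.generalizedFittingSubgroup ↥A)).map ((Cfsg.generalizedFittingSubgroup ↥A).subtype) , x * (A.subtype y) = (A.subtype y) * x) := by
  have hE := layer_le hSF hSsn hSC
  have hn : ∀ p : ℕ, S ≤ normalizer (pCoreIn p B : Set G) := fun p => hSB.trans (le_normalizer_pCoreIn p B)
  have hn' : ∀ p : ℕ, S ≤ normalizer ((pCoreIn p B ⊓ A : Subgroup G) : Set G) := fun p =>
    LAE.le_normalizer_inf (hn p) ((hSF.trans (map_subtype_le _)).trans le_normalizer)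
  refine ⟨fun q hq h => ?_, fun p hp h => ?_⟩
  · have := Fact.mk hq
    have h0 : pCoreIn q A = ⊥ := by_contra fun h0 => h (pCoreIn_ne_bot_iff.1 h0)
    have hX : IsPGroup q (pCoreIn q B ⊓ A : Subgroup G) := (isPGroup_pCoreIn q B).to_inf_left
    rw [eq_bot_iff, ← h0]
    refine le_pCoreIn_of_le_fitOf hX (le_trans (le_inf inf_le_right ?_) (inf_centralizer_fstarOf_le A))
    rw [fstarOf_eq, centralizer_sup, fitOf_eq_sup (p := q), h0, bot_sup_eq]
    exact le_inf (le_centralizer_iff.1 (cent_layer hE hX inf_le_right (hn' q)))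
      (cent_Rp hSF hE hSC hX inf_le_right (hn' q))
  have := Fact.mk hp
  have h0 := pCoreIn_ne_bot_iff.2 h
  have hP := isPGroup_pCoreIn p B
  have hZp : IsPGroup p (zpIn p A) := (isPGroup_pCoreIn p A).to_inf_left
  have hEZ : layerOf A ≤ centralizer (zpIn p A : Set G) :=
    (layerOf_le_centralizer_fitOf A).trans (centralizer_le (inf_le_left.trans (pCoreIn_le_fitOf p A)))
  have hZ : zpIn p A ≤ S := by
    refine le_trans (le_inf ((inf_le_left.trans (pCoreIn_le_fitOf p A)).trans (fitOf_le_fstarOf A))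
      (le_trans ?_ (centralizer_le hSF))) hSC
    rw [map_fstar_subtype, centralizer_sup]
    exact le_inf (le_centralizer_iff.1 hEZ) (zpIn_le_centralizer_fitOf A)
  have hle : pCoreIn p B ⊓ centralizer (zpIn p A : Set G) ≤ pCoreIn p B ⊓ A :=
    inf_le_inf_left _ (centralizer_zpIn_le hA h0)
  have h1 : layerOf A ≤ centralizer (pCoreIn p B : Set G) := by
    rw [← pResOf_layerOf p A]
    refine LAE.pq_lemma (B := zpIn p A) hP (hZ.trans (hn p)) (hE.trans (hn p)) ?_ ?_ ?_
    · rw [LAE.pResOf_eq_bot_of_isPGroup hZp]; exact bot_le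
    · rw [pResOf_layerOf, commutator_comm, commutator_eq_bot_iff_le_centralizer.2 hEZ]; exact bot_le
    · rw [pResOf_layerOf]
      exact (cent_layer hE hP.to_inf_left inf_le_right (hn' p)).trans (centralizer_le hle)
  have h2 : S ⊓ Rp p A ≤ centralizer (pCoreIn p B : Set G) :=
    Coprime.thompson_p_times_q hZp (coprime_card_of_le_opOf (inf_le_right.trans inf_le_left)) hP
      ((zpIn_le_centralizer_fitOf A).trans (centralizer_le (inf_le_right.trans inf_le_right)))
      (hZ.trans (hn p)) (inf_le_left.trans (hn p))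
      (hle.trans (cent_inf hP.to_inf_left inf_le_right (hn' p)))
  have h3 : Rp p A ≤ centralizer (pCoreIn p B : Set G) := by
    by_cases hR : Rp p A = ⊥
    · rw [hR]; exact bot_le
    refine le_centralizer_iff.1 (cent_Rp hSF hE hSC hP ?_ (hn p))
    have h4 : Rp p A ⊓ centralizer (Rp p A : Set G) ≠ ⊥ := fun h4 => by
      have : Group.IsNilpotent (Rp p A) := by
        have := map_fit_nilpotent A; exact isNilpotent_of_le inf_le_right
      refine inf_center_ne_bot_of_isNilpotent (G := Rp p A) (N := ⊤) (fun h5 => hR ?_) ?_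
      · rw [← map_subgroupOf_eq_of_le (le_refl (Rp p A)), subgroupOf_self, h5, Subgroup.map_bot]
      · rw [top_inf_eq, eq_bot_iff]
        intro z hz
        have : (z : G) ∈ Rp p A ⊓ centralizer (Rp p A : Set G) :=
          ⟨z.2, fun g hg => congrArg Subtype.val (mem_center_iff.1 hz ⟨g, hg⟩)⟩
        rw [h4] at this
        exact Subtype.ext this
    rw [← normalizer_eq_of_isCoatom hA h4 ((inf_le_left.trans inf_le_left).trans (opOf_le A))
      (LAE.le_normalizer_inf (le_normalizer_opOf_inf_fitOf A)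
        (LAE.le_normalizer_centralizer (le_normalizer_opOf_inf_fitOf A)))]
    refine le_trans (le_centralizer_iff.1 (le_trans (le_inf ?_ inf_le_left) h2)) (centralizer_le_normalizer _)
    exact (inf_le_inf_left _ (centralizer_le inf_le_right)).trans (self_cent hSF hE hSC)
  have h4 : LAE.pResOf p (fstarOf A) ≤ layerOf A ⊔ Rp p A := by
    refine LAE.pResOf_le_of_forall_pow_mem fun g hg => ?_
    have h5 : pCoreIn p A ≤ centralizer ((layerOf A ⊔ Rp p A : Subgroup G) : Set G) := by
      rw [centralizer_sup]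
      exact le_inf ((pCoreIn_le_fitOf p A).trans (le_centralizer_iff.1 (layerOf_le_centralizer_fitOf A)))
        (pCoreIn_le_centralizer_opOf A)
    rw [fstarOf_eq, fitOf_eq_sup (p := p), sup_comm (pCoreIn p A), ← sup_assoc,
      mem_sup_of_le_normalizer_left (h5.trans (centralizer_le_normalizer _))] at hg
    obtain ⟨a, ha, u, hu, rfl⟩ := hg
    obtain ⟨k, hk⟩ := isPGroup_pCoreIn p A ⟨u, hu⟩
    refine ⟨k, ?_⟩
    rw [(show Commute a u from h5 hu a ha).mul_pow, show u ^ p ^ k = 1 from congrArg Subtype.val hk, mul_one]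
    exact pow_mem ha _
  intro x hx y hy
  refine (sup_le h1 h3 (h4 ?_) x hx)
  rw [fstarOf, ← LAE.map_pResOf_of_injective A.subtype_injective]
  exact mem_map_of_mem _ hy

end Cfsg.Agent.S1247
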