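import Cfsg.Statements.S1253
import Cfsg.Agent.Lib.Isol.ZSyl

set_option autoImplicit false
open Cfsg

namespace Cfsg.Agent.S1253

open Subgroup CfsgLib.Isol CfsgLib.Coprime

/-- Let z be an isolated involution of the finite group G with centralizer C, p an odd prime and P a Sylow p-subgroup of G normalized by z. Then P ∩ C has p-power-free index in C (it is a Sylow p-subgroup of C), and |P : C_P(z)| equals the number of elements x ∈ P with z x z⁻¹ = x⁻¹. -/
theorem result {G : Type*} [Group G] [Finite G] (z : G) (hz : Cfsg.IsIsolatedInvolution z) {p : ℕ} [Fact p.Prime] (hp : p ≠ 2) (P : Sylow p G) (hzP : z ∈ Subgroup.normalizer ((P : Subgroup G) : Set G)) : ¬ p ∣ ((P : Subgroup G) ⊓ Subgroup.centralizer ({z} : Set G)).relIndex (Subgroup.centralizer ({z} : Set G)) ∧ ((P : Subgroup G) ⊓ Subgroup.centralizer ({z} : Set G)).relIndex (P : Subgroup G) = Nat.card {x : G // x ∈ P ∧ z * x * z⁻¹ = x⁻¹} := by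
  have hp' : p.Prime := Fact.out
  refine ⟨?_, relIndex_centralizer_eq_card_inverted (mul_self_of_orderOf_two hz.1) ?_ hzP⟩
  · have hc := coprime_card_sup_oddCore hz.1 hp P.isPGroup'
    have hPK : (P : Subgroup G) ≤ (P : Subgroup G) ⊔ pPrimeCore 2 G := le_sup_left
    have hn : zpowers z ≤ normalizer (((P : Subgroup G) ⊔ pPrimeCore 2 G : Subgroup G) : Set G) :=
      zpowers_le.2 (mem_normalizer_of_oddCore_le hz le_sup_right)
    have h1 := not_dvd_relIndex_inf_centralizer (p := p) hn hc (Or.inl (isSolvable_zpowers z)) hPK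
      P.isPGroup' (fun h => P.not_dvd_index (h.trans (relIndex_dvd_index_of_le hPK)))
      (zpowers_le.2 hzP)
    rw [CfsgLib.Core.centralizer_zpowers] at h1
    have h2 : ((P : Subgroup G) ⊔ pPrimeCore 2 G).relIndex (centralizer ({z} : Set G)) ∣
        (P : Subgroup G).index := by
      have := comap_map_eq (QuotientGroup.mk' (pPrimeCore 2 G)) (P : Subgroup G)
      rw [QuotientGroup.ker_mk'] at this
      rw [← this, relIndex_comap, map_centralizer_eq_top hz, relIndex_top_right]
      exact index_map_dvd _ (QuotientGroup.mk'_surjective _)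
    rw [← relIndex_mul_relIndex _ _ _ (inf_le_inf_right (centralizer ({z} : Set G)) hPK)
      inf_le_right, hp'.dvd_mul, inf_relIndex_right ((P : Subgroup G) ⊔ pPrimeCore 2 G)]
    rintro (h | h)
    · exact h1 h
    · exact P.not_dvd_index (h.trans h2)
  · obtain ⟨n, hn⟩ := IsPGroup.iff_card.1 P.isPGroup'
    rw [hn]
    exact (hp'.odd_of_ne_two hp).pow

end Cfsg.Agent.S1253
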