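import Cfsg.Statements.S1254
import Cfsg.Agent.Lib.DihSyl.Fusion
import Cfsg.Agent.Lib.Core.Basic

set_option autoImplicit false
open Cfsg

namespace Cfsg.Agent.S1254

open CfsgLib.DihSyl CfsgLib.SylTools

/-- Let X be a finite group whose Sylow 2-subgroup S is dihedral (of order at least 4). Then X has a normal 2-complement if and only if, for every Klein four-subgroup U ≤ S, the normalizer N_X(U) is generated by C_X(U) and N_S(U). -/
theorem result {X : Type*} [Group X] [Finite X] (S : Sylow 2 X) (m : ℕ) (hm : 2 ≤ m) (eS : (S : Subgroup X) ≃* DihedralGroup m) : Cfsg.HasNormalPComplement 2 X ↔ ∀ U : Subgroup X, U ≤ S → IsKleinFour U → Subgroup.normalizer (U : Set X) = Subgroup.centralizer (U : Set X) ⊔ ((S : Subgroup X) ⊓ Subgroup.normalizer (U : Set X)) := by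
  obtain ⟨r, s, h⟩ := exists_isDih eS
  obtain ⟨k, hk⟩ := h.exists_pow
  constructor
  · intro hN U hUS hU
    apply le_antisymm _ (sup_le (Subgroup.centralizer_le_normalizer _) inf_le_right)
    intro g hg
    have hK := CfsgLib.Transfer.pResidual_normal 2 X
    have hg' : g ∈ Cfsg.pResidual 2 X ⊔ (S : Subgroup X) := by
      rw [CfsgLib.Transfer.pResidual_sup_sylow]; trivial
    obtain ⟨c, hc, u, hu, rfl⟩ := Subgroup.mem_sup_of_normal_left.1 hg'
    have hbot := (CfsgLib.Transfer.hasNormalPComplement_iff_inf_eq_bot S).1 hN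
    have key : ∀ a ∈ U, c * u * a * (c * u)⁻¹ = u * a * u⁻¹ := by
      intro a ha
      have h1 : c * u * a * (c * u)⁻¹ * (u * a * u⁻¹)⁻¹ ∈ Cfsg.pResidual 2 X ⊓ (S : Subgroup X) := by
        constructor
        · have : c * u * a * (c * u)⁻¹ * (u * a * u⁻¹)⁻¹
              = c * ((u * a * u⁻¹) * c⁻¹ * (u * a * u⁻¹)⁻¹) := by group
          rw [this]
          exact Subgroup.mul_mem _ hc (hK.conj_mem _ (Subgroup.inv_mem _ hc) _)
        · exact Subgroup.mul_mem _ (hUS ((Subgroup.mem_normalizer_iff.1 hg a).1 ha))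
            (Subgroup.inv_mem _ (Subgroup.mul_mem _ (Subgroup.mul_mem _ hu (hUS ha))
              (Subgroup.inv_mem _ hu)))
      rw [hbot, Subgroup.mem_bot, mul_inv_eq_one] at h1
      exact h1
    have huN : u ∈ Subgroup.normalizer (U : Set X) := by
      apply mem_normalizer_of_conj_le
      intro a ha
      rw [← key a ha]
      exact (Subgroup.mem_normalizer_iff.1 hg a).1 ha
    have hc' : u⁻¹ * c * u ∈ Subgroup.centralizer (U : Set X) := by
      rw [Subgroup.mem_centralizer_iff]
      intro a ha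
      calc a * (u⁻¹ * c * u) = u⁻¹ * (u * a * u⁻¹) * (c * u) := by group
        _ = u⁻¹ * c * u * a := by rw [← key a ha]; group
    have : c * u = u * (u⁻¹ * c * u) := by group
    rw [this]
    exact Subgroup.mul_mem _ (Subgroup.mem_sup_right ⟨hu, huN⟩) (Subgroup.mem_sup_left hc')
  · intro hh
    apply CfsgLib.Transfer.frobenius_of_forall_centralizer S
    intro Q hQ _ g hg hodd
    by_cases hQ4 : IsKleinFour Q
    swap
    · exact h.mem_centralizer_of_odd hk hQ (Nat.coprime_two_right.1 hodd) hg (Or.inl hQ4)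
    have hg' := hg
    rw [hh Q hQ hQ4] at hg'
    obtain ⟨c, hc, u, hu, rfl⟩ := (CfsgLib.Core.mem_sup_of_le_normalizer_left
      (le_trans inf_le_right (CfsgLib.Core.normalizer_le_normalizer_centralizer _))).1 hg'
    obtain ⟨j, hj⟩ := exists_orderOf_eq_pow_of_mem S.isPGroup' hu.1
    have key : ∀ i : ℕ, (c * u) ^ i * (u ^ i)⁻¹ ∈ Subgroup.centralizer (Q : Set X) := by
      intro i
      induction i with
      | zero => simp
      | succ i ih =>
        have : (c * u) ^ (i + 1) * (u ^ (i + 1))⁻¹ = c * (u * ((c * u) ^ i * (u ^ i)⁻¹) * u⁻¹) := by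
          rw [pow_succ', pow_succ']; group
        rw [this]
        exact Subgroup.mul_mem _ hc ((Subgroup.mem_normalizer_iff.1
          (CfsgLib.Core.normalizer_le_normalizer_centralizer _ hu.2) _).1 ih)
    have h1 := key (2 ^ j)
    rw [← hj, pow_orderOf_eq_one, inv_one, mul_one, hj] at h1
    have h2 : c * u ∈ Subgroup.zpowers ((c * u) ^ 2 ^ j) :=
      mem_zpowers_pow_iff.2 (Nat.Coprime.pow_left j hodd.symm)
    exact Subgroup.zpowers_le_of_mem h1 h2

end Cfsg.Agent.S1254
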