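import Cfsg.Statements.S1255
import Cfsg.Agent.Lib.DihSyl.Fusion
import Cfsg.Agent.Lib.Isol.Basic

set_option autoImplicit false
open Cfsg

namespace Cfsg.Agent.S1255

open CfsgLib.DihSyl CfsgLib.SylTools

/-- Let X be a finite group whose Sylow 2-subgroup S is dihedral of order 2m ≥ 4. Then X has no subgroup of index 2 and no isolated involution if and only if either all involutions of X are conjugate, or for every Klein four-subgroup U ≤ S the index |N_X(U) : C_X(U)| equals 3 when |S| = 4 and equals 6 when |S| > 4. -/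
theorem result {X : Type*} [Group X] [Finite X] (S : Sylow 2 X) (m : ℕ) (hm : 2 ≤ m) (eS : (S : Subgroup X) ≃* DihedralGroup m) : ((∀ H : Subgroup X, H.index ≠ 2) ∧ (∀ z : X, ¬ Cfsg.IsIsolatedInvolution z)) ↔ ((∀ a b : X, orderOf a = 2 → orderOf b = 2 → IsConj a b) ∨ (∀ U : Subgroup X, U ≤ S → IsKleinFour U → (Subgroup.centralizer (U : Set X)).relIndex (Subgroup.normalizer (U : Set X)) = (if Nat.card S = 4 then 3 else 6))) := by
  obtain ⟨r, s, h⟩ := exists_isDih eS
  obtain ⟨k, hk, hmk⟩ := h.exists_half hm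
  obtain ⟨hz2, hz1⟩ := h.half hmk hk
  have hzo : orderOf (r ^ (k : ℤ)) = 2 := orderOf_eq_prime (by rw [pow_two, hz2]) hz1
  constructor
  · exact fun hh => Or.inl fun a b ha hb => h.isConj_of_no_index_two hh.1 ha hb
  intro hh
  have hc : ∀ a b : X, orderOf a = 2 → orderOf b = 2 → IsConj a b := by
    rcases hh with hh | hh
    · exact hh
    have key : ∀ a : X, orderOf a = 2 → IsConj a (r ^ (k : ℤ)) := by
      intro a ha
      obtain ⟨g, U, h1, h2, h3, h4⟩ := h.exists_four_of_orderOf ⟨_, rfl⟩ hz2 hz1 ha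
      refine (isConj_iff.2 ⟨g, rfl⟩).trans (isConj_of_three_dvd h2 ?_ h4 h3 ?_ hz1)
      · rw [hh U h1 h2]; split_ifs <;> norm_num
      · rw [Ne, conj_eq_one_iff]; rintro rfl; simp at ha
    exact fun a b ha hb => (key a ha).trans (key b hb).symm
  refine ⟨h.index_ne_two_of_isConj hm hc, fun z hz => ?_⟩
  have h1 := CfsgLib.Isol.eq_of_commute hz (hc _ _ hz.1 (h.orderOf_rpows 0)) (hc _ _ hz.1 hzo)
    (h.commute_of_sq ⟨_, rfl⟩ hz2 (h.rpows_mem 0))
  exact h.rpows_ne _ _ h1

end Cfsg.Agent.S1255
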