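import Cfsg.Statements.S1256
import Cfsg.Agent.Lib.DihSyl.Fusion

set_option autoImplicit false
open Cfsg

namespace Cfsg.Agent.S1256

open CfsgLib.DihSyl CfsgLib.SylTools

/-- Let X be a finite group whose Sylow 2-subgroup S is dihedral of order 2m ≥ 4. If |S| = 4, any two Klein four-subgroups of X are conjugate; if |S| > 4, there are Klein four-subgroups U₁, U₂ of X that are not conjugate, and every Klein four-subgroup of X is conjugate to U₁ or to U₂. -/
theorem result {X : Type*} [Group X] [Finite X] (S : Sylow 2 X) (m : ℕ) (hm : 2 ≤ m) (eS : (S : Subgroup X) ≃* DihedralGroup m) : (Nat.card S = 4 → ∀ U V : Subgroup X, IsKleinFour U → IsKleinFour V → (∃ x : X, U.map (MulAut.conj x).toMonoidHom = V)) ∧ (4 < Nat.card S → ∃ U₁ U₂ : Subgroup X, IsKleinFour U₁ ∧ IsKleinFour U₂ ∧ ¬ (∃ x : X, U₁.map (MulAut.conj x).toMonoidHom = U₂) ∧ ∀ V : Subgroup X, IsKleinFour V → (∃ x : X, V.map (MulAut.conj x).toMonoidHom = U₁) ∨ (∃ x : X, V.map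 (MulAut.conj x).toMonoidHom = U₂)) := by
  obtain ⟨r, s, h⟩ := exists_isDih eS
  constructor
  · intro h4 U V hU hV
    have key : ∀ W : Subgroup X, IsKleinFour W →
        ∃ x : X, W.map (MulAut.conj x).toMonoidHom = S := by
      intro W hW
      obtain ⟨g, hg⟩ := exists_conj_le_sylow (isPGroup_of_isKleinFour hW) S
      exact ⟨g, map_conj_eq_of_le_of_card hg (by rw [h4, hW.card_four])⟩
    obtain ⟨x, hx⟩ := key U hU
    obtain ⟨y, hy⟩ := key V hV
    refine ⟨y⁻¹ * x, ?_⟩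
    rw [← map_conj_map_conj, hx, ← hy, map_conj_map_conj, inv_mul_cancel, map_conj_one]
  · intro h4
    obtain ⟨k, hk, hmk⟩ := h.exists_quarter h4
    obtain ⟨hz2, hz1⟩ := h.half (m := 2 * k) (by omega) (by omega)
    push_cast at hz2 hz1
    refine ⟨_, _, (h.isKleinFour_sup ⟨_, rfl⟩ hz2 hz1 0).1,
      (h.isKleinFour_sup ⟨_, rfl⟩ hz2 hz1 1).1, ?_, fun V hV => ?_⟩
    · rintro ⟨x, hx⟩
      exact h.not_conj_four hk hmk x hx
    · obtain ⟨x, hx | hx⟩ := h.exists_conj_four ⟨_, rfl⟩ hz2 hz1 hV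
      · exact Or.inl ⟨x, hx⟩
      · exact Or.inr ⟨x, hx⟩

end Cfsg.Agent.S1256
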