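import Cfsg.Statements.S1261
import Cfsg.Agent.Lib.Comp.Component

set_option autoImplicit false
open Cfsg

namespace Cfsg.Agent.S1261

/-- Let L be a component and H a subnormal subgroup of the finite group G. Then L ≤ H (so L is a component of H) or ⁅L, H⁆ = 1. -/
theorem result {G : Type*} [Group G] [Finite G] (L H : Subgroup G) (hL : Cfsg.IsComponent L) (hH : H.IsSubnormal) : L ≤ H ∨ ⁅L, H⁆ = ⊥ := by
  exact CfsgLib.Comp.comp_le_or_commutator_of_isSubnormal hL hH

end Cfsg.Agent.S1261
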