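import Cfsg.Statements.S1264
import Cfsg.Agent.Lib.Comp.FStar

set_option autoImplicit false
open Cfsg

namespace Cfsg.Agent.S1264

/-- Let G be finite, C = C_G(F(G)) the centralizer of the Fitting subgroup, and N a solvable subgroup of C normalized by C. Then N ≤ Z(F(G)). -/
theorem result {G : Type*} [Group G] [Finite G] (N : Subgroup G) (hN : N ≤ Subgroup.centralizer (Cfsg.fittingSubgroup G : Set G)) (hnorm : Subgroup.centralizer (Cfsg.fittingSubgroup G : Set G) ≤ Subgroup.normalizer (N : Set G)) (hsolv : Group.IsSolvable ↥N) : N ≤ (Subgroup.center ↥(Cfsg.fittingSubgroup G)).map (Cfsg.fittingSubgroup G).subtype := by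
  rw [CfsgLib.Comp.map_center_subtype]
  haveI := CfsgLib.Comp.fit_normal (G := G)
  refine le_inf (CfsgLib.Comp.le_fit_of_solvable_of_le_centralizer_fit ?_ hN hsolv) hN
  exact Subgroup.IsSubnormal.step N _ hN
    (inferInstance : (Subgroup.centralizer (Cfsg.fittingSubgroup G : Set G)).Normal).isSubnormal
    (Subgroup.normal_subgroupOf_of_le_normalizer hnorm)

end Cfsg.Agent.S1264
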