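import Cfsg.Statements.S1271
import Cfsg.Agent.Lib.Comp.Local
import Cfsg.Agent.Lib.Core.Commutator

set_option autoImplicit false
open Cfsg

namespace Cfsg.Agent.S1271

/-- Let G be finite with O_{p'}(G) = 1. Suppose that for every component L of G and every subgroup H ≥ L in which L is normal, the quotient H / C_H(L) is balanced for the prime p. Then G is balanced for p. -/
theorem result {G : Type*} [Group G] [Finite G] (p : ℕ) [Fact p.Prime] (hO : Cfsg.pPrimeCore p G = ⊥) (h : ∀ L : Subgroup G, Cfsg.IsComponent L → ∀ H : Subgroup G, L ≤ H → (L.subgroupOf H).Normal → ∀ [((Subgroup.centralizer (L : Set G)).subgroupOf H).Normal], Cfsg.IsBalancedFor p (↥H ⧸ (Subgroup.centralizer (L : Set G)).subgroupOf H)) : Cfsg.IsBalancedFor p G := by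
  intro x hx
  rw [hO, le_bot_iff]
  have hxp := CfsgLib.Comp.isPGroup_zpowers_of_orderOf hx
  set U := Cfsg.centralizerPPrimeCore p x with hU
  have hUc : (Nat.card U).Coprime p := CfsgLib.PComp.coprime_card_opOf _
  have hUX := CfsgLib.Comp.centralizerPPrimeCore_le_pEOf hxp
  have hUC : U ≤ Subgroup.centralizer {x} := CfsgLib.PComp.opOf_le _
  -- it suffices to show that `U` centralises every component
  suffices hE : U ≤ Subgroup.centralizer (Cfsg.layer G : Set G) by
    have h1 := CfsgLib.Comp.le_pCore_of_centralizes hO hE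
      (hUX.trans (CfsgLib.Comp.pEOf_normalizer_le_centralizer_pCore hxp))
    have h2 := CfsgLib.Core.isPGroup_inf_eq_bot_of_coprime (CfsgLib.Core.isPGroup_pCore p G) hUc
    rwa [inf_eq_right.mpr h1] at h2
  rw [Subgroup.le_centralizer_iff, CfsgLib.Comp.layer_le_centralizer_iff]
  intro L hL
  by_cases hne : ⁅L, Subgroup.zpowers x⁆ = L
  swap
  · exact CfsgLib.Comp.comp_commutator_centralizerPPrimeCore hO hx hL hne
  have hxL : x ∈ Subgroup.normalizer (L : Set G) := by
    rw [← hne]
    exact Subgroup.normalizer_commutator_ge_right _ _ (Subgroup.mem_zpowers x)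
  have hUL : U ≤ Subgroup.normalizer (L : Set G) :=
    hUX.trans (CfsgLib.Comp.pEOf_normalizer_le_normalizer_comp hO hxp hL)
  set W := Subgroup.centralizer ({x} : Set G) ⊓ Subgroup.normalizer (L : Set G) with hW
  set H := L ⊔ W with hH
  have hHL : H ≤ Subgroup.normalizer (L : Set G) := sup_le Subgroup.le_normalizer inf_le_right
  have hUH : U ≤ H := (le_inf hUC hUL).trans le_sup_right
  have hxH : x ∈ H := Subgroup.mem_sup_right ⟨Subgroup.mem_centralizer_singleton_iff.mpr rfl, hxL⟩
  haveI hCn : ((Subgroup.centralizer (L : Set G)).subgroupOf H).Normal :=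
    Subgroup.normal_subgroupOf_of_le_normalizer (CfsgLib.Coprime.le_normalizer_centralizer hHL)
  have hbal := h L hL H le_sup_left (Subgroup.normal_subgroupOf_of_le_normalizer hHL)
  set φ := QuotientGroup.mk' ((Subgroup.centralizer (L : Set G)).subgroupOf H) with hφ
  have hφs : Function.Surjective φ := QuotientGroup.mk'_surjective _
  have hker : ∀ y : H, φ y = 1 ↔ (y : G) ∈ Subgroup.centralizer (L : Set G) := fun y =>
    QuotientGroup.eq_one_iff y
  have hxc : x ∉ Subgroup.centralizer (L : Set G) := by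
    intro h1
    have h2 : ⁅L, Subgroup.zpowers x⁆ = ⊥ := by
      rw [Subgroup.commutator_comm, Subgroup.commutator_eq_bot_iff_le_centralizer]
      exact Subgroup.zpowers_le.mpr h1
    exact CfsgLib.Comp.comp_ne_bot hL (hne.symm.trans h2)
  have hord : orderOf (φ ⟨x, hxH⟩) = p := by
    refine orderOf_eq_prime ?_ fun h1 => hxc ((hker _).mp h1)
    rw [← map_pow]
    have : (⟨x, hxH⟩ : H) ^ p = 1 := Subtype.ext (by simp [← hx])
    rw [this, map_one]
  -- the image of `U` lies in the core of the centraliser of the image of `x`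
  have hUφ : (U.subgroupOf H).map φ ≤ Cfsg.centralizerPPrimeCore p (φ ⟨x, hxH⟩) := by
    refine CfsgLib.Core.le_map_pPrimeCore ?_ ?_ ?_
    · rintro _ ⟨u, hu, rfl⟩
      rw [Subgroup.mem_centralizer_singleton_iff, ← map_mul, ← map_mul]
      congr 1
      exact Subtype.ext (Subgroup.mem_centralizer_singleton_iff.mp (hUC hu))
    · intro y hy
      obtain ⟨y, rfl⟩ := hφs y
      refine Subgroup.le_normalizer_map φ (Subgroup.mem_map_of_mem φ ?_)
      rw [← Subgroup.subgroupOf_normalizer_eq hUH, Subgroup.mem_subgroupOf]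
      obtain ⟨l, hl, w, hw, hlw⟩ := (CfsgLib.Core.mem_sup_of_le_normalizer_left
        (inf_le_right : W ≤ _)).mp y.2
      have hwx : w * x = x * w := Subgroup.mem_centralizer_singleton_iff.mp hw.1
      have h1 : (y : G) * x * (y : G)⁻¹ * x⁻¹ ∈ Subgroup.centralizer (L : Set G) := by
        have h2 := Subgroup.mem_centralizer_singleton_iff.mp hy
        have h3 : φ (y * ⟨x, hxH⟩ * y⁻¹ * ⟨x, hxH⟩⁻¹) = 1 := by
          rw [map_mul, map_mul, map_mul, h2, map_inv, map_inv]; group
        exact (hker _).mp h3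
      have e : (y : G) * x * (y : G)⁻¹ * x⁻¹ = l * (x * l⁻¹ * x⁻¹) := by
        rw [← hlw, mul_assoc l w x, hwx]; group
      have h4 : (y : G) * x * (y : G)⁻¹ * x⁻¹ ∈ Cfsg.pCore p G := by
        rw [← CfsgLib.Comp.fit_eq_pCore_of_pPrimeCore_eq_bot hO]
        refine CfsgLib.Comp.comp_inf_centralizer_le_fit hL ⟨?_, h1⟩
        rw [e]
        exact mul_mem hl ((Subgroup.mem_normalizer_iff.mp hxL _).mp (inv_mem hl))
      have h5 : (y : G) ∈ Subgroup.normalizer
          ((Subgroup.zpowers x ⊔ Cfsg.pCore p G : Subgroup G) : Set G) := by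
        refine CfsgLib.SolvStruct.mem_normalizer_of_conj_smul_le ?_
        rw [Subgroup.smul_sup]
        refine sup_le ?_ (le_trans ?_ le_sup_right)
        · rw [CfsgLib.SolvStruct.conj_smul_eq_map, MonoidHom.map_zpowers, Subgroup.zpowers_le]
          have h6 := mul_mem (Subgroup.mem_sup_right (S := Subgroup.zpowers x) h4)
            (Subgroup.mem_sup_left (Subgroup.mem_zpowers x))
          simpa using h6
        · exact (CfsgLib.SolvStruct.conj_smul_eq_of_mem_normalizer
            (by rw [Subgroup.normalizer_eq_top]; trivial)).le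
      rw [hU, CfsgLib.PComp.centralizerPPrimeCore_eq, ← CfsgLib.Core.centralizer_zpowers,
        ← CfsgLib.Comp.opOf_centralizer_sup_pCore hxp]
      exact CfsgLib.PComp.normalizer_le_normalizer_opOf _
        (CfsgLib.Core.normalizer_le_normalizer_centralizer _ h5)
    · refine Nat.Coprime.coprime_dvd_left (Subgroup.card_map_dvd _ _) ?_
      rwa [CfsgLib.Core.card_subgroupOf_of_le hUH]
  have hUO := hUφ.trans (hbal _ hord)
  refine (CfsgLib.Comp.commutator_eq_or_eq_bot hL.2 hUL).resolve_left fun h1 => ?_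
  -- the image of `L` would have order prime to `p`
  have hLH : L ≤ H := le_sup_left
  have h2 : (L.subgroupOf H).map φ ≤ Cfsg.pPrimeCore p _ := by
    have h0 : L.subgroupOf H = ⁅L.subgroupOf H, U.subgroupOf H⁆ := by
      rw [CfsgLib.Core.commutator_subgroupOf hLH hUH, h1]
    rw [h0, Subgroup.map_commutator]
    exact (Subgroup.commutator_mono le_rfl hUO).trans (Subgroup.commutator_le_right _ _)
  obtain ⟨R, -, hRL, hR, hi⟩ := CfsgLib.Coprime.exists_le_sylow_relIndex (p := p) (K := L)
    bot_le IsPGroup.of_bot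
  have h3 : (R.subgroupOf H).map φ = ⊥ := by
    have h4 := CfsgLib.PComp.isPGroup_inf_pPrimeCore ((hR.comap_subtype (K := H)).map φ)
    rwa [inf_eq_left.mpr ((Subgroup.map_mono (Subgroup.comap_mono hRL)).trans h2)] at h4
  refine CfsgLib.PComp.comp_not_coprime hO hL
    (CfsgLib.Comp.coprime_of_perfect_of_sylow_le_centralizer (CfsgLib.Comp.comp_perfect hL) hRL hR hi
      fun r hr => ?_)
  exact (hker ⟨r, hLH (hRL hr)⟩).mp ((Subgroup.map_eq_bot_iff _).mp h3 hr)

end Cfsg.Agent.S1271
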