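import Cfsg.Statements.S1277
import Cfsg.Agent.Lib.PComp.Basic

set_option autoImplicit false
open Cfsg

namespace Cfsg.Agent.S1277

/-- For a finite group X with core O(X): the image of E(X) in X / O(X) is all of E(X / O(X)) if and only if every 2-component of X is a component, i.e. L_{2'}(X) ≤ E(X). -/
theorem result {X : Type*} [Group X] [Finite X] : (Cfsg.layer X).map (QuotientGroup.mk' (Cfsg.oddCore X)) = Cfsg.layer (X ⧸ Cfsg.oddCore X) ↔ Cfsg.pLayer 2 X ≤ Cfsg.layer X := by
  have : Fact (Nat.Prime 2) := ⟨Nat.prime_two⟩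
  constructor
  · intro h
    rw [CfsgLib.PComp.pLayer_le_iff]
    intro K hK
    refine CfsgLib.PComp.pc_le_of_le_sup hK CfsgLib.Comp.layer_normal.isSubnormal ?_
    rw [← CfsgLib.PComp.map_piO_le_iff]
    exact (CfsgLib.Comp.comp_le_layer hK.2.1).trans h.ge
  · intro h
    refine le_antisymm
      (CfsgLib.Comp.map_layer_le_of_surjective _ CfsgLib.PComp.piO_surjective) ?_
    rw [← CfsgLib.PComp.map_pLayer_piO]
    exact Subgroup.map_mono h

end Cfsg.Agent.S1277
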