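import Mathlib
-- Template for statement S1279 (row 1279; see /opt/grader/pristine/manifest.json for weights).
-- Copy to Cfsg/Agent/S1279.lean and replace the sorry. The statement below is byte-identical to the frozen
-- statement Cfsg.CfsgFrozen.S1279 (Cfsg/Statements/S1279.lean; the theorem Cfsg.p_prime_core_centralizer_solvable_signalizer_functor);
-- the grader kernel-checks Cfsg.Agent.S1279.result against that frozen type. Keep the theorem IN THIS FILE
-- (a `result` declared elsewhere and merely imported here is not credited); helpers may live anywhere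
-- under Cfsg/Agent/.
import Cfsg.Statements.S1279
import Cfsg.Agent.Lib.Signal.Basic

set_option autoImplicit false
open Cfsg

namespace Cfsg.Agent.S1279

open Cfsg Subgroup CfsgLib.BG CfsgLib.Signal


/-- Let A be a noncyclic elementary abelian p-subgroup of the finite group G such that C_G(a) is solvable for every non-identity a ∈ A. Then a ↦ O_{p'}(C_G(a)) is a solvable A-signalizer functor on G. -/
theorem result {G : Type*} [Group G] [Finite G] (p : ℕ) [Fact p.Prime] (A : Subgroup G) (hA : Cfsg.IsElementaryAbelian p A) (hA2 : p ^ 2 ≤ Nat.card ↥A) (hsolv : ∀ a ∈ A, a ≠ 1 → Group.IsSolvable ↥(Subgroup.centralizer ({a} : Set G))) : Cfsg.IsSolvableSignalizerFunctor p A (fun a => Cfsg.centralizerPPrimeCore p a) := by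
  have hp : p.Prime := Fact.out
  have e : ∀ a : G, Cfsg.centralizerPPrimeCore p a = oppOf p 𝒞[a] := fun a => (oppOf_eq_map hp _).symm
  simp only [e]
  have hc : ∀ a ∈ A, A ≤ 𝒞[a] := fun a ha => (abelian_cents hA.1).trans (cent_le_cent1 ha)
  refine (sf_iff hp hA).mp ⟨⟨hp, hA, fun a _ _ => pcore_sub _ _, fun a _ _ => pcore_pgroup _ _,
    fun a ha _ => (hc a ha).trans (pcore_norm _ _), fun a ha h1 b hb h2 => ?_⟩,
    fun a ha h1 => solvableS (pcore_sub _ _) (hsolv a ha h1)⟩
  have hz := zpowers_le.mpr ha
  have := p'core_cent_pgroup hp (hz.trans (hc b hb)) (pigroupS hz (abelem_pgroup hp hA)) (hsolv b hb h2)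
  rw [cent_zpowers, inf_comm] at this
  refine le_trans ?_ this
  refine (le_inf ?_ (inf_le_inf_right _ (pcore_sub _ _))).trans (pcoreI_le _ (inf_le_left : 𝒞[a] ⊓ 𝒞[b] ≤ _))
  exact inf_le_left

end Cfsg.Agent.S1279
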