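import Mathlib
-- Template for statement S1281 (row 1281; see /opt/grader/pristine/manifest.json for weights).
-- Copy to Cfsg/Agent/S1281.lean and replace the sorry. The statement below is byte-identical to the frozen
-- statement Cfsg.CfsgFrozen.S1281 (Cfsg/Statements/S1281.lean; the theorem Cfsg.signalizer_functor_quotient_balance);
-- the grader kernel-checks Cfsg.Agent.S1281.result against that frozen type. Keep the theorem IN THIS FILE
-- (a `result` declared elsewhere and merely imported here is not credited); helpers may live anywhere
-- under Cfsg/Agent/.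
import Cfsg.Statements.S1281
import Cfsg.Agent.Lib.Signal.Basic

set_option autoImplicit false
open Cfsg

namespace Cfsg.Agent.S1281

open Cfsg Subgroup CfsgLib.BG CfsgLib.Signal


/-- Let θ be a solvable A-signalizer functor on the finite group G (A a noncyclic elementary abelian p-subgroup) and N a normal subgroup of order prime to p. Then for all non-identity a, b ∈ A, the image of θ a in G / N meets the centralizer of the image of b inside the image of θ b. -/
theorem result {G : Type*} [Group G] [Finite G] (p : ℕ) [Fact p.Prime] (A : Subgroup G) (hA : Cfsg.IsElementaryAbelian p A) (hA2 : p ^ 2 ≤ Nat.card ↥A) (θ : G → Subgroup G) (hθ : Cfsg.IsSolvableSignalizerFunctor p A θ) (N : Subgroup G) [N.Normal] (hN : ¬ p ∣ Nat.card ↥N) (a b : G) (ha : a ∈ A) (ha1 : a ≠ 1) (hb : b ∈ A) (hb1 : b ≠ 1) : (θ a).map (QuotientGroup.mk' N) ⊓ Subgroup.centralizer {QuotientGroup.mk' N b} ≤ (θ b).map (QuotientGroup.mk' N) := by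
  have hp : p.Prime := Fact.out
  have h := ((sf_iff hp hA).mpr hθ).toGSF
  have hz := zpowers_le.mpr hb
  have := CfsgLib.Coprime.map_inf_centralizer (QuotientGroup.mk' N) (hz.trans (h.norm a ha ha1))
    (h.coprime (pigroupS inf_le_left (h.p'grp a ha ha1)) hz).symm (Or.inl (h.solA hz))
  rw [MonoidHom.map_zpowers, cent_zpowers, cent_zpowers] at this
  rw [← this]
  exact map_mono (h.bal a ha ha1 b hb hb1)

end Cfsg.Agent.S1281
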