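import Mathlib
-- Template for statement S1282 (row 1282; see /opt/grader/pristine/manifest.json for weights).
-- Copy to Cfsg/Agent/S1282.lean and replace the sorry. The statement below is byte-identical to the frozen
-- statement Cfsg.CfsgFrozen.S1282 (Cfsg/Statements/S1282.lean; the theorem Cfsg.invariant_q_subgroups_normalizer_of_meet);
-- the grader kernel-checks Cfsg.Agent.S1282.result against that frozen type. Keep the theorem IN THIS FILE
-- (a `result` declared elsewhere and merely imported here is not credited); helpers may live anywhere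
-- under Cfsg/Agent/.
import Cfsg.Statements.S1282
import Cfsg.Agent.Lib.Signal.Basic

set_option autoImplicit false
open Cfsg

namespace Cfsg.Agent.S1282

open Cfsg Subgroup CfsgLib.BG CfsgLib.Signal


/-- Let A be an elementary abelian p-subgroup of rank at least 3 of the finite group G, q ≠ p a prime, and Q₁, Q₂ q-subgroups normalized by A with D = Q₁ ∩ Q₂ different from both. Then there is a non-identity a ∈ A such that, for i = 1 and i = 2, N_{Q_i}(D) ∩ C_G(a) is not contained in D. -/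
theorem result {G : Type*} [Group G] [Finite G] (p : ℕ) [Fact p.Prime] (A : Subgroup G) (hA : Cfsg.IsElementaryAbelian p A) (hA3 : p ^ 3 ≤ Nat.card ↥A) (q : ℕ) [Fact q.Prime] (hqp : q ≠ p) (Q₁ Q₂ : Subgroup G) (h₁ : IsPGroup q ↥Q₁) (h₂ : IsPGroup q ↥Q₂) (hA₁ : A ≤ Subgroup.normalizer (Q₁ : Set G)) (hA₂ : A ≤ Subgroup.normalizer (Q₂ : Set G)) (hD₁ : Q₁ ⊓ Q₂ ≠ Q₁) (hD₂ : Q₁ ⊓ Q₂ ≠ Q₂) : ∃ a ∈ A, a ≠ 1 ∧ ¬ (Subgroup.normalizer ((Q₁ ⊓ Q₂ : Subgroup G) : Set G) ⊓ Q₁ ⊓ Subgroup.centralizer {a} ≤ Q₁ ⊓ Q₂) ∧ ¬ (Subgroup.normalizer ((Q₁ ⊓ Q₂ : Subgroup G) : Set G) ⊓ Q₂ ⊓ Subgroup.centralizer {a} ≤ Q₁ ⊓ Q₂) := by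
  have hp : p.Prime := Fact.out
  have hq : q.Prime := Fact.out
  have hD := norms_norm (normsI hA₁ hA₂)
  have k₁ := (pigroup_singleton hq).mpr h₁
  have k₂ := (pigroup_singleton hq).mpr h₂
  refine exists_cent1_not_le hp hA (sq_lt_of_cube_le hp hA3) (pigroupS inf_le_right (pgp_p'group k₁ hqp))
    (pigroupS inf_le_right (pgp_p'group k₂ hqp)) (normsI hD hA₁) (normsI hD hA₂) ?_ ?_
  · rw [inf_comm (𝒩(Q₁ ⊓ Q₂))]
    exact (nilpotent_proper_norm (pgp_nil k₁) (lt_of_le_of_ne inf_le_left hD₁)).not_ge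
  · rw [inf_comm (𝒩(Q₁ ⊓ Q₂))]
    exact (nilpotent_proper_norm (pgp_nil k₂) (lt_of_le_of_ne inf_le_right hD₂)).not_ge

end Cfsg.Agent.S1282
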