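import Mathlib
-- Template for statement S1285 (row 1285; see /opt/grader/pristine/manifest.json for weights).
-- Copy to Cfsg/Agent/S1285.lean and replace the sorry. The statement below is byte-identical to the frozen
-- statement Cfsg.CfsgFrozen.S1285 (Cfsg/Statements/S1285.lean; the theorem Cfsg.signalizer_functor_complete_of_single_prime);
-- the grader kernel-checks Cfsg.Agent.S1285.result against that frozen type. Keep the theorem IN THIS FILE
-- (a `result` declared elsewhere and merely imported here is not credited); helpers may live anywhere
-- under Cfsg/Agent/.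
import Cfsg.Statements.S1285
import Cfsg.Agent.Lib.Signal.Basic

set_option autoImplicit false
open Cfsg

namespace Cfsg.Agent.S1285

open Cfsg Subgroup CfsgLib.BG CfsgLib.Signal


/-- Let θ be a solvable A-signalizer functor on the finite group G with A elementary abelian of rank at least 3, and suppose that for some prime q every θ a (a ∈ A non-identity) is a q-group. Then θ is complete. -/
theorem result {G : Type*} [Group G] [Finite G] (p : ℕ) [Fact p.Prime] (A : Subgroup G) (hA : Cfsg.IsElementaryAbelian p A) (hA3 : p ^ 3 ≤ Nat.card ↥A) (θ : G → Subgroup G) (hθ : Cfsg.IsSolvableSignalizerFunctor p A θ) (q : ℕ) [Fact q.Prime] (hq : ∀ a ∈ A, a ≠ 1 → IsPGroup q ↥(θ a)) : Cfsg.IsCompleteSignalizerFunctor p A θ := by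
  have hp : p.Prime := Fact.out
  have hq' : q.Prime := Fact.out
  have h := ((sf_iff hp hA).mpr hθ).toGSF
  exact h.complete_iff.mpr (h.closure_fam_of_pgroup (sq_lt_of_cube_le hp hA3) hq'
    fun a ha h1 => (pigroup_singleton hq').mpr (hq a ha h1)).1

end Cfsg.Agent.S1285
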