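import Mathlib
-- Template for statement S1286 (row 1286; see /opt/grader/pristine/manifest.json for weights).
-- Copy to Cfsg/Agent/S1286.lean and replace the sorry. The statement below is byte-identical to the frozen
-- statement Cfsg.CfsgFrozen.S1286 (Cfsg/Statements/S1286.lean; the theorem Cfsg.signalizer_functor_rank_two_not_complete);
-- the grader kernel-checks Cfsg.Agent.S1286.result against that frozen type. Keep the theorem IN THIS FILE
-- (a `result` declared elsewhere and merely imported here is not credited); helpers may live anywhere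
-- under Cfsg/Agent/.
import Cfsg.Statements.S1286
import Cfsg.Agent.Lib.Signal.Basic

set_option autoImplicit false
open Cfsg

namespace Cfsg.Agent.S1286

open Cfsg Subgroup Equiv CfsgLib.BG CfsgLib.Signal

abbrev X := Perm (Fin 5)

def a : X := swap 0 1
def b : X := swap 2 3
def s : X := swap 2 3 * swap 3 4
def t : X := swap 0 1 * swap 1 4

def A : Subgroup X where
  carrier := {x | x = 1 ∨ x = a ∨ x = b ∨ x = a * b}
  one_mem' := Or.inl rfl
  mul_mem' := by
    rintro _ _ (rfl | rfl | rfl | rfl) (rfl | rfl | rfl | rfl) <;> simp only [Set.mem_setOf_eq] <;> decide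
  inv_mem' := by
    rintro _ (rfl | rfl | rfl | rfl) <;> simp only [Set.mem_setOf_eq] <;> decide

theorem mem_A {x : X} : x ∈ A ↔ x = 1 ∨ x = a ∨ x = b ∨ x = a * b := Iff.rfl

theorem card_A : Nat.card A = 4 := by
  have : (A : Set X) = ({1, a, b, a * b} : Finset X) := by
    ext x
    simp [mem_A]
  rw [← SetLike.coe_sort_coe, this, Nat.card_coe_set_eq, Set.ncard_coe_finset]
  decide

theorem mem_three {u x : X} (hu : u ^ 3 = 1) : x ∈ zpowers u ↔ x = 1 ∨ x = u ∨ x = u * u := by
  constructor
  · rintro ⟨k, rfl⟩
    have h : u ^ (3 : ℤ) = 1 := by exact_mod_cast hu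
    have e : u ^ k = u ^ (k % 3) := by
      conv_lhs => rw [← Int.emod_add_mul_ediv k 3, zpow_add, zpow_mul, h, one_zpow, mul_one]
    have : k % 3 = 0 ∨ k % 3 = 1 ∨ k % 3 = 2 := by omega
    rcases this with h | h | h <;> simp only [e, h]
    · simp
    · simp
    · exact Or.inr (Or.inr (zpow_two u))
  · rintro (rfl | rfl | rfl)
    · exact one_mem _
    · exact mem_zpowers _
    · exact mul_mem (mem_zpowers _) (mem_zpowers _)

def θ (x : X) : Subgroup X := if x = a then zpowers s else if x = b then zpowers t else ⊥

theorem θa : θ a = zpowers s := if_pos rfl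
theorem θb : θ b = zpowers t := by unfold θ; rw [if_neg (by decide), if_pos rfl]
theorem θc : θ (a * b) = ⊥ := by unfold θ; rw [if_neg (by decide), if_neg (by decide)]

theorem mem_s {x : X} : x ∈ zpowers s ↔ x = 1 ∨ x = s ∨ x = s * s := mem_three (by decide)
theorem mem_t {x : X} : x ∈ zpowers t ↔ x = 1 ∨ x = t ∨ x = t * t := mem_three (by decide)

theorem card_s : Nat.card (zpowers s) = 3 := by
  rw [Nat.card_zpowers]; exact orderOf_eq_prime (by decide) (by decide)
theorem card_t : Nat.card (zpowers t) = 3 := by
  rw [Nat.card_zpowers]; exact orderOf_eq_prime (by decide) (by decide)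

theorem sf : IsSignalizerFunctor 2 A θ := by
  refine ⟨?_, ?_, ?_, ?_⟩
  · rintro _ (rfl | rfl | rfl | rfl) h
    · exact absurd rfl h
    · rw [θa, zpowers_le, mem_centralizer_singleton_iff]; decide
    · rw [θb, zpowers_le, mem_centralizer_singleton_iff]; decide
    · rw [θc]; exact bot_le
  · rintro _ (rfl | rfl | rfl | rfl) h
    · exact absurd rfl h
    · rw [θa, card_s]; decide
    · rw [θb, card_t]; decide
    · rw [θc, card_bot]; decide
  · rintro _ (rfl | rfl | rfl | rfl) h
    · exact absurd rfl h
    · rw [θa]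
      simp only [mem_s]
      rintro _ (rfl | rfl | rfl | rfl) _ (rfl | rfl | rfl) <;> decide
    · rw [θb]
      simp only [mem_t]
      rintro _ (rfl | rfl | rfl | rfl) _ (rfl | rfl | rfl) <;> decide
    · rw [θc]
      intro y _ x hx
      rw [mem_bot.mp hx, mul_one, mul_inv_cancel]
      exact one_mem _
  · rintro _ (rfl | rfl | rfl | rfl) h
    · exact absurd rfl h
    · rintro _ (rfl | rfl | rfl | rfl) h'
      · exact absurd rfl h'
      · exact inf_le_left
      all_goals
        rw [θa]
        rintro x ⟨hx, hc⟩
        have hc' := mem_centralizer_singleton_iff.mp hc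
        rcases mem_s.mp hx with rfl | rfl | rfl
        · exact one_mem _
        · exact absurd hc' (by decide)
        · exact absurd hc' (by decide)
    · rintro _ (rfl | rfl | rfl | rfl) h'
      · exact absurd rfl h'
      on_goal 2 => exact inf_le_left
      all_goals
        rw [θb]
        rintro x ⟨hx, hc⟩
        have hc' := mem_centralizer_singleton_iff.mp hc
        rcases mem_t.mp hx with rfl | rfl | rfl
        · exact one_mem _
        · exact absurd hc' (by decide)
        · exact absurd hc' (by decide)
    · intro y _ _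
      rw [θc]
      exact inf_le_left.trans bot_le


/-- There exist a finite group X, an elementary abelian subgroup A of order 4 and a solvable A-signalizer functor θ on X for the prime 2 which is not complete. -/
theorem result : ∃ (X : Type) (_ : Group X) (_ : Finite X) (A : Subgroup X) (θ : X → Subgroup X), Cfsg.IsElementaryAbelian 2 A ∧ Nat.card ↥A = 4 ∧ Cfsg.IsSolvableSignalizerFunctor 2 A θ ∧ ¬ Cfsg.IsCompleteSignalizerFunctor 2 A θ := by
  refine ⟨X, inferInstance, inferInstance, A, θ, ⟨⟨⟨?_⟩⟩, ?_⟩, card_A, ⟨sf, ?_⟩, ?_⟩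
  · rintro ⟨_, rfl | rfl | rfl | rfl⟩ ⟨_, rfl | rfl | rfl | rfl⟩ <;> exact Subtype.ext (by decide)
  · rintro _ (rfl | rfl | rfl | rfl) <;> decide
  · rintro _ (rfl | rfl | rfl | rfl) h
    · exact absurd rfl h
    · rw [θa]; exact isSolvable_of_comm fun x y => (inferInstance : IsMulCommutative (zpowers s)).is_comm.comm x y
    · rw [θb]; exact isSolvable_of_comm fun x y => (inferInstance : IsMulCommutative (zpowers t)).is_comm.comm x y
    · rw [θc]; exact isSolvable_of_comm fun x y => Subsingleton.elim _ _
  · rintro ⟨-, W, -, h2, h3⟩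
    have hs : s ∈ W := (h3 a (by simp [mem_A]) (by decide)).ge (θa ▸ mem_zpowers s) |>.1
    have ht : t ∈ W := (h3 b (by simp [mem_A]) (by decide)).ge (θb ▸ mem_zpowers t) |>.1
    have hw : s * t * s * t * t ∈ W := mul_mem (mul_mem (mul_mem (mul_mem hs ht) hs) ht) ht
    have ho : orderOf (s * t * s * t * t) = 2 := orderOf_eq_prime (by decide) (by decide)
    exact h2 (ho ▸ W.orderOf_dvd_natCard hw)

end Cfsg.Agent.S1286
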