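import Mathlib
-- Template for statement S1288 (row 1288; see /opt/grader/pristine/manifest.json for weights).
-- Copy to Cfsg/Agent/S1288.lean and replace the sorry. The statement below is byte-identical to the frozen
-- statement Cfsg.CfsgFrozen.S1288 (Cfsg/Statements/S1288.lean; the theorem Cfsg.q_prime_subgroup_le_q_prime_core_of_hyperplane_commutators);
-- the grader kernel-checks Cfsg.Agent.S1288.result against that frozen type. Keep the theorem IN THIS FILE
-- (a `result` declared elsewhere and merely imported here is not credited); helpers may live anywhere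
-- under Cfsg/Agent/.
import Cfsg.Statements.S1288
import Cfsg.Agent.Lib.Signal.Fact

set_option autoImplicit false
open Cfsg

namespace Cfsg.Agent.S1288

open Cfsg Subgroup CfsgLib.BG CfsgLib.Signal


/-- Let A be a noncyclic elementary abelian p-subgroup of a finite group H normalizing a solvable subgroup K of order prime to p, q a prime dividing |K|, and U ≤ K a subgroup of order prime to q such that ⁅U, C_K(B)⁆ has order prime to q for every subgroup B of index p in A. Then U ≤ O_{q'}(K). -/
theorem result {H : Type*} [Group H] [Finite H] (p : ℕ) [Fact p.Prime] (A K : Subgroup H) (hA : Cfsg.IsElementaryAbelian p A) (hA2 : p ^ 2 ≤ Nat.card ↥A) (hK : ¬ p ∣ Nat.card ↥K) (hKs : Group.IsSolvable ↥K) (hAK : A ≤ Subgroup.normalizer (K : Set H)) (q : ℕ) [Fact q.Prime] (hqK : q ∣ Nat.card ↥K) (U : Subgroup H) (hU : U ≤ K) (hUq : ¬ q ∣ Nat.card ↥U) (hcomm : ∀ B : Subgroup H, B ≤ A → B.relIndex A = p → ¬ q ∣ Nat.card ↥⁅U, K ⊓ Subgroup.centralizer (B : Set H)⁆) : U ≤ (Cfsg.pPrimeCore q ↥K).map K.subtype := by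
  have hp : p.Prime := Fact.out
  have hq : q.Prime := Fact.out
  rw [← oppOf_eq_map hq]
  exact le_oppOf_of_hyperplanes hp hA (ne_bot_of_lt_card hp.pos (lt_of_sq_le hp hA2)) ((p'group_iff hp).mpr hK) hKs
    hAK hq hU ((p'group_iff hq).mpr hUq) fun B h1 h2 => (p'group_iff hq).mpr (hcomm B h1 h2)

end Cfsg.Agent.S1288
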