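import Cfsg.Statements.S1289
import Cfsg.Agent.Lib.PComp.Basic

set_option autoImplicit false
open Cfsg

namespace Cfsg.Agent.S1289

/-- A p-component K of the finite group X is subnormal, perfect, of order divisible by p, and minimal among the subnormal perfect subgroups of X of order divisible by p. -/
theorem result {X : Type*} [Group X] [Finite X] (p : ℕ) [Fact p.Prime] (K : Subgroup X) (hK : Cfsg.IsPComponent p K) : K.IsSubnormal ∧ ⁅K, K⁆ = K ∧ p ∣ Nat.card ↥K ∧ ∀ H : Subgroup X, H ≤ K → H.IsSubnormal → ⁅H, H⁆ = H → p ∣ Nat.card ↥H → H = K := by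
  have hq := CfsgLib.PComp.pc_isPQs hK
  refine ⟨hK.1, hq.perfect, hq.dvd_card, fun H hHK hH hperf hp => ?_⟩
  rcases hq.eq_or_commutator_le (CfsgLib.PComp.subnIn_of_isSubnormal hH hHK) with h | h
  · exact h
  · exfalso
    have h1 : H ≤ CfsgLib.PComp.opOf p K := by
      rw [← hperf]
      exact (Subgroup.commutator_mono le_rfl hHK).trans h
    exact (Nat.Prime.coprime_iff_not_dvd Fact.out).1
      (CfsgLib.PComp.coprime_card_of_le_opOf h1).symm hp

end Cfsg.Agent.S1289
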