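import Cfsg.Statements.S1300
import Mathlib

set_option autoImplicit false
open Cfsg

namespace Cfsg.Agent.S1300

theorem core_le {G : Type*} [Group G] (p : ℕ) (x : G) :
    Cfsg.centralizerPPrimeCore p x ≤ Subgroup.centralizer {x} :=
  Subgroup.map_subtype_le _

theorem delta_zpowers {G : Type*} [Group G] (x : G) (hx : orderOf x = 2) :
    Cfsg.signalizerDelta 2 (Subgroup.zpowers x) = Cfsg.centralizerPPrimeCore 2 x := by
  have hx1 : x ≠ 1 := by
    rintro rfl
    simp at hx
  have key : ∀ a ∈ Subgroup.zpowers x, a ≠ 1 → a = x := by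
    intro a ha ha1
    obtain ⟨k, rfl⟩ := Subgroup.mem_zpowers_iff.mp ha
    have h2 : x ^ (2 : ℤ) = 1 := by
      have := pow_orderOf_eq_one x
      rw [hx] at this
      exact_mod_cast this
    obtain ⟨m, rfl | rfl⟩ := Int.even_or_odd' k
    · exact absurd (by rw [zpow_mul, h2, one_zpow]) ha1
    · rw [zpow_add, zpow_mul, h2, one_zpow, one_mul, zpow_one]
  apply le_antisymm
  · exact iInf_le (fun a : {a : G // a ∈ Subgroup.zpowers x ∧ a ≠ 1} =>
      Cfsg.centralizerPPrimeCore 2 (a : G)) ⟨x, Subgroup.mem_zpowers x, hx1⟩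
  · refine le_iInf ?_
    rintro ⟨a, ha, ha1⟩
    have := key a ha ha1
    subst this
    exact le_rfl


/-- For a finite group G, balance in the sense of commuting involutions is the same as 1-balance for the prime 2. -/
theorem result {G : Type*} [Group G] [Finite G] : Cfsg.IsBalanced G ↔ Cfsg.IsKBalanced 2 1 G := by
  constructor
  · intro h A hA hcard b hb hab
    haveI : Fact (Nat.Prime 2) := ⟨Nat.prime_two⟩
    have hcard' : Nat.card A = 2 := by simpa using hcard
    haveI : IsCyclic A := isCyclic_of_prime_card hcard'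
    obtain ⟨g, hg⟩ := IsCyclic.exists_generator (α := A)
    have hord : orderOf (g : G) = 2 := by
      rw [Subgroup.orderOf_coe, orderOf_eq_card_of_forall_mem_zpowers hg, hcard']
    have hAeq : A = Subgroup.zpowers (g : G) := by
      apply le_antisymm
      · intro a ha
        obtain ⟨k, hk⟩ := Subgroup.mem_zpowers_iff.mp (hg ⟨a, ha⟩)
        exact ⟨k, by simpa using congrArg Subtype.val hk⟩
      · simpa using g.2
    rw [hAeq, delta_zpowers _ hord, h g b hord hb (hab g g.2)]
    exact inf_le_left
  · intro h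
    have key : ∀ x y : G, orderOf x = 2 → orderOf y = 2 → x * y = y * x →
        Cfsg.centralizerPPrimeCore 2 x ⊓ Subgroup.centralizer {y} ≤
          Cfsg.centralizerPPrimeCore 2 y ⊓ Subgroup.centralizer {x} := by
      intro x y hx hy hxy
      refine le_inf ?_ (inf_le_left.trans (core_le 2 x))
      rw [← delta_zpowers x hx]
      refine h (Subgroup.zpowers x) ⟨inferInstance, ?_⟩ (by simp [hx]) y hy ?_
      · intro a ha
        obtain ⟨k, rfl⟩ := Subgroup.mem_zpowers_iff.mp ha
        have h2 : x ^ 2 = 1 := by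
          have := pow_orderOf_eq_one x
          rwa [hx] at this
        rw [← zpow_natCast, ← zpow_mul, mul_comm, zpow_mul, zpow_natCast, h2, one_zpow]
      · intro a ha
        obtain ⟨k, rfl⟩ := Subgroup.mem_zpowers_iff.mp ha
        exact (Commute.zpow_left hxy k)
    intro x y hx hy hxy
    exact le_antisymm (key x y hx hy hxy) (key y x hy hx hxy.symm)

end Cfsg.Agent.S1300
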