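import Mathlib
-- Template for statement S1297 (row 1297; see /opt/grader/pristine/manifest.json for weights).
-- Copy to Cfsg/Agent/S1297.lean and replace the sorry. The statement below is byte-identical to the frozen
-- statement Cfsg.CfsgFrozen.S1297 (Cfsg/Statements/S1297.lean; the theorem Cfsg.balanced_of_locally_balanced_involution_components);
-- the grader kernel-checks Cfsg.Agent.S1297.result against that frozen type. Keep the theorem IN THIS FILE
-- (a `result` declared elsewhere and merely imported here is not credited); helpers may live anywhere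
-- under Cfsg/Agent/.
import Cfsg.Statements.S1297
import Cfsg.Agent.Lib.Bal.Loc
import Cfsg.Agent.S1298
import Cfsg.Agent.S1300

set_option autoImplicit false
open Cfsg

namespace Cfsg.Agent.S1297

open CfsgLib.Bal CfsgLib.Core CfsgLib.Comp Subgroup


/-- Let G be finite. Suppose that for every involution x, writing C = C_G(x), every component K of C / O(C) has K / Z(K) locally balanced. Then G is balanced. -/
theorem result {G : Type*} [Group G] [Finite G] (h : ∀ x : G, orderOf x = 2 → ∀ K : Subgroup (↥(Subgroup.centralizer ({x} : Set G)) ⧸ Cfsg.oddCore ↥(Subgroup.centralizer ({x} : Set G))), Cfsg.IsComponent K → Cfsg.IsLocallyBalanced (↥K ⧸ Subgroup.center ↥K)) : Cfsg.IsBalanced G := by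
  refine S1300.result.2 (S1298.result 2 1 le_rfl fun x hx K hK H hH A hA hc => ?_)
  obtain ⟨a, ha, a1⟩ := A.bot_or_exists_ne_one.resolve_left (ne_bot_of_pow_le le_rfl hc.ge)
  exact le_bot_iff.1 (h x hx K hK H hH a (orderOf_eq_prime (hA.2 a ha) a1) ▸ delta_le ha a1)

end Cfsg.Agent.S1297
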