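import Cfsg.Statements.S1299
import Cfsg.Agent.Lib.Bal.Delta

set_option autoImplicit false
open Cfsg

namespace Cfsg.Agent.S1299

open CfsgLib.Bal CfsgLib.Core Subgroup

/-- Let G be finite and k-balanced for the prime p (k ≥ 1), A an elementary abelian p-subgroup of order at least p^(k+2) such that O_{p'}(C_G(a)) is solvable for every non-identity a ∈ A. For a ∈ A put θ a = the subgroup generated by the Δ_G(D) ∩ C_G(a) over the subgroups D ≤ A of order p^k. Then θ is an A-signalizer functor. -/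
theorem result {G : Type*} [Group G] [Finite G] (p k : ℕ) [Fact p.Prime] (hk : 1 ≤ k) (hbal : Cfsg.IsKBalanced p k G) (A : Subgroup G) (hA : Cfsg.IsElementaryAbelian p A) (hAk : p ^ (k + 2) ≤ Nat.card ↥A) (hsolv : ∀ a ∈ A, a ≠ 1 → Group.IsSolvable ↥(Cfsg.centralizerPPrimeCore p a)) : Cfsg.IsSignalizerFunctor p A (fun a => ⨆ D : {D : Subgroup G // D ≤ A ∧ Nat.card ↥D = p ^ k}, Cfsg.signalizerDelta p (D : Subgroup G) ⊓ Subgroup.centralizer {a}) := by
  have hp : p.Prime := Fact.out
  have hex : ∀ B : Subgroup G, B ≤ A → p ^ k ≤ Nat.card B →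
      ∃ D : Subgroup G, D ≤ B ∧ Nat.card D = p ^ k := by
    intro B hB h
    obtain ⟨D, hD⟩ := Sylow.exists_subgroup_card_pow_prime_of_le_card hp
      ((isElementaryAbelian_isPGroup hA).to_le hB) h
    exact ⟨D.map B.subtype, map_subtype_le _, by rw [card_map_subtype, hD]⟩
  have hb : Cfsg.IsKBalancedWrt p k A := by
    intro B hB hBe hBk a ha h1
    obtain ⟨D, hD1, hD2⟩ := hex B hB hBk
    have := hA.1
    refine (inf_le_inf_right _ (delta_anti hD1)).trans
      (hbal D (isElementaryAbelian_of_le hBe hD1) hD2 a (orderOf_eq_prime (hA.2 a ha) h1)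
        fun d hd => setLike_mul_comm (hB (hD1 hd)) ha)
  have h2 := isSignalizerFunctor_theta hk hA hAk hb fun a ha h1 =>
    haveI := hsolv a ha h1
    isSolvable_of_le (theta_le_cpc hb ha h1)
  convert h2 using 2 with a
  refine le_antisymm (iSup_le fun D => le_theta hA D.2.1 D.2.2.ge a) (iSup_le fun B => ?_)
  obtain ⟨D, hD1, hD2⟩ := hex B B.2.1 B.2.2.2
  exact (inf_le_inf_right _ (delta_anti hD1)).trans
    (le_iSup (fun D : {D : Subgroup G // D ≤ A ∧ Nat.card ↥D = p ^ k} =>
      Cfsg.signalizerDelta p (D : Subgroup G) ⊓ Subgroup.centralizer {a})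
      ⟨D, hD1.trans B.2.1, hD2⟩)

end Cfsg.Agent.S1299
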