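import Cfsg.Statements.S1303
import Mathlib

set_option autoImplicit false
open Cfsg

namespace Cfsg.Agent.S1303

abbrev X := Matrix.SpecialLinearGroup (Fin 2) (ZMod 3)

theorem h_mul : ∀ g h : X, g ^ 4 = 1 → h ^ 4 = 1 → (g * h) ^ 4 = 1 := by decide +kernel

theorem h_cent : ∀ g : X, (∀ h : X, h ^ 4 = 1 → h * g = g * h) → g ^ 4 = 1 := by decide +kernel

theorem h_norm : ∀ g : X, g = 1 ∨ g = -1 ∨ ∃ h : X, g * (h * g⁻¹ * h⁻¹) = -1 ∨
    (g * (h * g⁻¹ * h⁻¹)) ^ 2 = -1 := by decide +kernel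

theorem h_inv : ∀ t : X, t ^ 2 = 1 → ∀ g : X, g * t = t * g := by decide +kernel

theorem h_three : ∃ g : X, g ^ 3 = 1 ∧ g ≠ 1 := by decide +kernel

theorem h_neg : (-1 : X) ^ 2 = 1 ∧ (-1 : X) ≠ 1 := by decide +kernel

/-- The quaternion subgroup. -/
def Q8 : Subgroup X where
  carrier := {g | g ^ 4 = 1}
  mul_mem' := fun ha hb => h_mul _ _ ha hb
  one_mem' := one_pow 4
  inv_mem' := fun {g} hg => by
    change g⁻¹ ^ 4 = 1
    rw [inv_pow, show g ^ 4 = 1 from hg, inv_one]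

theorem Q8_normal : Q8.Normal := ⟨fun n hn g => by
  change (g * n * g⁻¹) ^ 4 = 1
  rw [conj_pow, show n ^ 4 = 1 from hn, mul_one, mul_inv_cancel]⟩

theorem Q8_pgroup : IsPGroup 2 Q8 := fun g => ⟨2, Subtype.ext g.2⟩

theorem core_bot : Cfsg.pPrimeCore 2 X = ⊥ := by
  rw [eq_bot_iff]
  refine sSup_le ?_
  rintro N ⟨hN, hcop⟩ g hg
  by_contra hg1
  have hm : (-1 : X) ∈ N := by
    rcases h_norm g with h | h | ⟨h, h1⟩
    · exact absurd h hg1
    · exact h ▸ hg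
    · have : g * (h * g⁻¹ * h⁻¹) ∈ N := N.mul_mem hg (hN.conj_mem _ (N.inv_mem hg) h)
      rcases h1 with h1 | h1
      · exact h1 ▸ this
      · exact h1 ▸ N.pow_mem this 2
  have : Fact (Nat.Prime 2) := ⟨Nat.prime_two⟩
  have ho : orderOf (-1 : X) = 2 := orderOf_eq_prime h_neg.1 h_neg.2
  have hd : 2 ∣ Nat.card N := by
    have := N.orderOf_dvd_natCard hm
    rwa [ho] at this
  have := Nat.Coprime.eq_one_of_dvd hcop.symm hd
  omega


/-- The group X = SL(2, 3): it is 2-constrained, O_{2'}(X) = 1, its centre A = Z(X) contains every involution of X = C_X(A), and X has a subgroup of order 3 (normalized by A) not contained in O_{2'}(X). -/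
theorem result : Cfsg.IsPConstrained 2 (Matrix.SpecialLinearGroup (Fin 2) (ZMod 3)) ∧ Cfsg.pPrimeCore 2 (Matrix.SpecialLinearGroup (Fin 2) (ZMod 3)) = ⊥ ∧ (∀ t : Matrix.SpecialLinearGroup (Fin 2) (ZMod 3), orderOf t = 2 → t ∈ Subgroup.center (Matrix.SpecialLinearGroup (Fin 2) (ZMod 3))) ∧ ∃ Q : Subgroup (Matrix.SpecialLinearGroup (Fin 2) (ZMod 3)), Nat.card ↥Q = 3 ∧ ¬ (Q ≤ Cfsg.pPrimeCore 2 (Matrix.SpecialLinearGroup (Fin 2) (ZMod 3))) := by
  have : Fact (Nat.Prime 2) := ⟨Nat.prime_two⟩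
  refine ⟨?_, core_bot, ?_, ?_⟩
  · intro P
    have hn := Q8_normal
    have hQ : Q8 ≤ Cfsg.pPrimePCore 2 X := by
      rw [Cfsg.pPrimePCore, ← Subgroup.map_le_iff_le_comap]
      exact le_sSup ⟨hn.map _ (QuotientGroup.mk'_surjective _), Q8_pgroup.map _⟩
    have hQP : Q8.subgroupOf (Cfsg.pPrimePCore 2 X) ≤ P :=
      IsPGroup.le_sylow_of_normal (Q8_pgroup.comap_subtype) P
    intro g hg
    apply hQ
    apply h_cent
    intro h hh
    exact hg h ⟨⟨h, hQ hh⟩, hQP hh, rfl⟩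
  · intro t ht
    rw [Subgroup.mem_center_iff]
    apply h_inv
    have := pow_orderOf_eq_one t
    rwa [ht] at this
  · obtain ⟨g, hg3, hg1⟩ := h_three
    have : Fact (Nat.Prime 3) := ⟨Nat.prime_three⟩
    refine ⟨Subgroup.zpowers g, ?_, ?_⟩
    · rw [Nat.card_zpowers, orderOf_eq_prime hg3 hg1]
    · rw [core_bot]
      intro h
      exact hg1 (Subgroup.mem_bot.mp (h (Subgroup.mem_zpowers g)))

end Cfsg.Agent.S1303
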