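import Cfsg.Statements.S1314
import Mathlib

set_option autoImplicit false
open Cfsg

namespace Cfsg.Agent.S1314

open scoped commutatorElement Pointwise


/-- Let x be an involution of a group G and L a perfect subgroup with ⁅L, x L x⁻¹⁆ = 1. Then l ↦ l (x l x⁻¹) is a group homomorphism π from L to G whose kernel is central in L and whose image lies in C_G(x); and the commutator subgroup of C_{L ⊔ xLx⁻¹}(x) equals the image of π. -/
theorem result {G : Type*} [Group G] [Finite G] (x : G) (hx : orderOf x = 2) (L : Subgroup G) (hperf : ⁅L, L⁆ = L) (hcomm : ⁅L, L.map (MulAut.conj x).toMonoidHom⁆ = ⊥) : ∃ π : ↥L →* G, (∀ l : ↥L, π l = (l : G) * (x * (l : G) * x⁻¹)) ∧ π.ker ≤ Subgroup.center ↥L ∧ π.range ≤ Subgroup.centralizer ({x} : Set G) ∧ ⁅(L ⊔ L.map (MulAut.conj x).toMonoidHom) ⊓ Subgroup.centralizer ({x} : Set G), (L ⊔ L.map (MulAut.conj x).toMonoidHom) ⊓ Subgroup.centralizer ({x} : Set G)⁆ = π.range := by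
  have hxx : x * x = 1 := by
    have := pow_orderOf_eq_one x
    rwa [hx, pow_two] at this
  have hxi : x⁻¹ = x := inv_eq_of_mul_eq_one_right hxx
  set M := L.map (MulAut.conj x).toMonoidHom with hM
  have hmemM : ∀ l ∈ L, x * l * x⁻¹ ∈ M := fun l hl => ⟨l, hl, rfl⟩
  have hc : ∀ a ∈ L, ∀ b ∈ M, a * b = b * a := by
    intro a ha b hb
    have : ⁅a, b⁆ ∈ (⊥ : Subgroup G) := hcomm ▸ Subgroup.commutator_mem_commutator ha hb
    exact commutatorElement_eq_one_iff_mul_comm.mp (Subgroup.mem_bot.mp this)
  have hc' : ∀ a ∈ L, ∀ b ∈ L, a * (x * b * x⁻¹) = (x * b * x⁻¹) * a :=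
    fun a ha b hb => hc a ha _ (hmemM b hb)
  let π : ↥L →* G :=
    { toFun := fun l => (l : G) * (x * (l : G) * x⁻¹)
      map_one' := by simp
      map_mul' := by
        intro a b
        simp only [Subgroup.coe_mul]
        have := hc' b b.2 a a.2
        calc (a : G) * b * (x * (a * b) * x⁻¹)
            = a * (b * (x * a * x⁻¹)) * (x * b * x⁻¹) := by group
          _ = a * ((x * a * x⁻¹) * b) * (x * b * x⁻¹) := by rw [this]
          _ = _ := by group }
  have hπ : ∀ l : ↥L, π l = (l : G) * (x * (l : G) * x⁻¹) := fun l => rfl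
  have hrange : π.range ≤ Subgroup.centralizer ({x} : Set G) := by
    rintro _ ⟨l, rfl⟩
    rw [Subgroup.mem_centralizer_singleton_iff, hπ]
    have := hc' l l.2 l l.2
    calc (l : G) * (x * l * x⁻¹) * x = l * x * l := by group
      _ = x * ((x * l * x⁻¹) * l) := by
          rw [hxi]
          calc (l : G) * x * l = (x * x) * l * x * l := by rw [hxx, one_mul]
            _ = _ := by group
      _ = _ := by rw [this]
  have hrange2 : π.range ≤ L ⊔ M := by
    rintro _ ⟨l, rfl⟩
    rw [hπ]
    exact Subgroup.mul_mem_sup l.2 (hmemM l l.2)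
  refine ⟨π, hπ, ?_, hrange, ?_⟩
  · intro l hl
    rw [MonoidHom.mem_ker, hπ] at hl
    rw [Subgroup.mem_center_iff]
    intro g
    ext
    have h1 : (l : G) = (x * (l : G) * x⁻¹)⁻¹ := eq_inv_of_mul_eq_one_left hl
    have h2 : (l : G) ∈ M := by
      rw [h1]
      exact M.inv_mem (hmemM l l.2)
    exact hc g g.2 l h2
  · apply le_antisymm
    · -- every element of the centralizer is `π a * z` with `z` central in `L ⊔ M`
      have hLM : L ≤ Subgroup.normalizer (M : Set G) := by
        refine le_trans ?_ (Subgroup.centralizer_le_normalizer _)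
        intro a ha b hb
        exact (hc a ha b hb).symm
      have hcent : ∀ z ∈ L, z ∈ M → ∀ g ∈ L ⊔ M, z * g = g * z := by
        intro z hzL hzM g hg
        have : L ⊔ M ≤ Subgroup.centralizer {z} := by
          refine sup_le ?_ ?_
          · intro a ha
            rw [Subgroup.mem_centralizer_singleton_iff]
            exact hc a ha z hzM
          · intro b hb
            rw [Subgroup.mem_centralizer_singleton_iff]
            exact (hc z hzL b hb).symm
        exact (Subgroup.mem_centralizer_singleton_iff.mp (this hg)).symm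
      have hdec : ∀ c ∈ (L ⊔ M) ⊓ Subgroup.centralizer ({x} : Set G),
          ∃ a : L, ∃ z : G, c = π a * z ∧ ∀ g ∈ L ⊔ M, z * g = g * z := by
        rintro c ⟨hc1, hc2⟩
        have hc1' : c ∈ ((L : Set G) * (M : Set G)) := by
          rw [← Subgroup.coe_mul_of_left_le_normalizer_right L M hLM]
          exact hc1
        obtain ⟨a, ha, _, ⟨b, hb, rfl⟩, rfl⟩ := hc1'
        have hc3 : a * (x * b * x⁻¹) * x = x * (a * (x * b * x⁻¹)) :=
          Subgroup.mem_centralizer_singleton_iff.mp hc2
        -- `a⁻¹ b` lies in `L ∩ M`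
        have h4 : (x * a * x⁻¹) * b = a * (x * b * x⁻¹) := by
          calc (x * a * x⁻¹) * b = (x * a * x⁻¹) * b * (x * x) := by rw [hxx, mul_one]
            _ = x * (a * (x * b * x⁻¹)) * x := by rw [hxi]; group
            _ = a * (x * b * x⁻¹) * x * x := by rw [hc3]
            _ = a * (x * b * x⁻¹) * (x * x) := by group
            _ = _ := by rw [hxx, mul_one]
        have h5 : a⁻¹ * b = x * (b * a⁻¹) * x⁻¹ := by
          have h6 := hc' b hb a ha
          rw [← h6] at h4
          calc a⁻¹ * b = a⁻¹ * (b * (x * a * x⁻¹)) * (x * a * x⁻¹)⁻¹ := by group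
            _ = a⁻¹ * (a * (x * b * x⁻¹)) * (x * a * x⁻¹)⁻¹ := by rw [h4]
            _ = _ := by group
        refine ⟨⟨a, ha⟩, x * (a⁻¹ * b) * x⁻¹, ?_, ?_⟩
        · rw [hπ]
          simp only [MulEquiv.toMonoidHom_eq_coe, MonoidHom.coe_coe, MulAut.conj_apply]
          group
        · apply hcent
          · rw [h5]
            have : x * (x * (b * a⁻¹) * x⁻¹) * x⁻¹ = b * a⁻¹ := by
              rw [hxi]
              calc x * (x * (b * a⁻¹) * x) * x = (x * x) * (b * a⁻¹) * (x * x) := by group
                _ = _ := by rw [hxx]; group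
            rw [this]
            exact L.mul_mem hb (L.inv_mem ha)
          · exact hmemM _ (L.mul_mem (L.inv_mem ha) hb)
      rw [Subgroup.commutator_le]
      intro c hc1 d hd1
      obtain ⟨a, z, rfl, hz⟩ := hdec c hc1
      obtain ⟨b, w, hd, hw⟩ := hdec d hd1
      have ha : π a ∈ L ⊔ M := hrange2 ⟨a, rfl⟩
      have hb : π b ∈ L ⊔ M := hrange2 ⟨b, rfl⟩
      have e1 : ⁅π a * z, d⁆ = ⁅π a, d⁆ := by
        have := hz d hd1.1
        rw [commutatorElement_def, commutatorElement_def]
        calc π a * z * d * (π a * z)⁻¹ * d⁻¹ = π a * (z * d) * z⁻¹ * (π a)⁻¹ * d⁻¹ := by group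
          _ = π a * (d * z) * z⁻¹ * (π a)⁻¹ * d⁻¹ := by rw [this]
          _ = _ := by group
      have e2 : ⁅π a, π b * w⁆ = ⁅π a, π b⁆ := by
        have := hw (π a)⁻¹ ((L ⊔ M).inv_mem ha)
        rw [commutatorElement_def, commutatorElement_def]
        calc π a * (π b * w) * (π a)⁻¹ * (π b * w)⁻¹
            = π a * π b * (w * (π a)⁻¹) * w⁻¹ * (π b)⁻¹ := by group
          _ = π a * π b * ((π a)⁻¹ * w) * w⁻¹ * (π b)⁻¹ := by rw [this]
          _ = _ := by group
      rw [e1, hd, e2, ← map_commutatorElement]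
      exact ⟨_, rfl⟩
    · have hperfL : Group.IsPerfect L := Subgroup.isPerfect_iff.mpr hperf
      have : Group.IsPerfect π.range := Group.IsPerfect.range π
      rw [← Subgroup.isPerfect_iff.mp this]
      exact Subgroup.commutator_mono (le_inf hrange2 hrange) (le_inf hrange2 hrange)

end Cfsg.Agent.S1314
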