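import Cfsg.Statements.S1316
import Cfsg.Agent.Lib.Comp.FStar

set_option autoImplicit false
open Cfsg

namespace Cfsg.Agent.S1316

/-- For a finite group X, E(X) equals the intersection of the derived series of F*(X) (its last term). -/
theorem result {X : Type*} [Group X] [Finite X] : (⨅ n : ℕ, (derivedSeries ↥(Cfsg.generalizedFittingSubgroup X) n).map (Cfsg.generalizedFittingSubgroup X).subtype) = Cfsg.layer X := by
  haveI := CfsgLib.Comp.layer_normal (G := X)
  apply le_antisymm
  · haveI := CfsgLib.Comp.fit_solvable (G := X)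
    let φ : Cfsg.generalizedFittingSubgroup X →* X ⧸ Cfsg.layer X :=
      (QuotientGroup.mk' (Cfsg.layer X)).comp (Cfsg.generalizedFittingSubgroup X).subtype
    have hr : φ.range ≤ (Cfsg.fittingSubgroup X).map (QuotientGroup.mk' (Cfsg.layer X)) := by
      rw [MonoidHom.range_comp, Subgroup.range_subtype, CfsgLib.Comp.fstar_def, Subgroup.map_sup,
        (Subgroup.map_eq_bot_iff (Cfsg.layer X)).mpr (by rw [QuotientGroup.ker_mk']), bot_sup_eq]
    haveI := CfsgLib.Core.isSolvable_map (QuotientGroup.mk' (Cfsg.layer X)) (Cfsg.fittingSubgroup X)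
    haveI := CfsgLib.Core.isSolvable_of_le hr
    obtain ⟨n, hn⟩ := Group.IsSolvable.solvable (G := φ.range)
    refine (iInf_le _ n).trans ?_
    rintro _ ⟨y, hy, rfl⟩
    have h1 := map_derivedSeries_le_derivedSeries φ.rangeRestrict n ⟨y, hy, rfl⟩
    rw [hn, Subgroup.mem_bot] at h1
    exact (QuotientGroup.eq_one_iff _).mp (congrArg Subtype.val h1)
  · refine le_iInf fun n => ?_
    induction n with
    | zero => simpa [← MonoidHom.range_eq_map] using CfsgLib.Comp.layer_le_fstar
    | succ n ih =>
      rw [derivedSeries_succ, Subgroup.map_commutator, ← CfsgLib.Comp.layer_perfect]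
      exact Subgroup.commutator_mono ih ih

end Cfsg.Agent.S1316
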