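import Cfsg.Statements.S1328
import Cfsg.Agent.Lib.Comp.Bender

set_option autoImplicit false
open Cfsg

namespace Cfsg.Agent.S1328

open Subgroup CfsgLib.Comp CfsgLib.PComp in
open scoped commutatorElement in
theorem aux {K : Type*} [Group K] [Finite K] {p : ℕ} [Fact p.Prime] (hO : pPrimeCore p K = ⊥)
    {t : K} (ht : orderOf t = p) {Y : Subgroup K} (hY1 : Y ≠ ⊥)
    (hY : Y ≤ centralizerPPrimeCore p t) : ∃ L : Subgroup K, IsComponent L ∧
      ⁅L, zpowers t⁆ = L ∧ Y ≤ normalizer (L : Set K) ∧ ⁅L, Y⁆ ≠ ⊥ := by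
  have hP := isPGroup_zpowers_of_orderOf ht
  have h1 := hY.trans (centralizerPPrimeCore_le_pEOf hP)
  by_contra hcon
  push Not at hcon
  have h2 : Y ≤ centralizer (layer K : Set K) := by
    rw [le_centralizer_iff, layer_le_centralizer_iff]
    intro L hL
    by_cases h : ⁅L, zpowers t⁆ = L
    · exact hcon L hL h (h1.trans (pEOf_normalizer_le_normalizer_comp hO hP hL))
    · exact le_bot_iff.mp ((commutator_mono le_rfl hY).trans
        (comp_commutator_centralizerPPrimeCore hO ht hL h).le)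
  have h3 := le_pCore_of_centralizes hO h2 (h1.trans (pEOf_normalizer_le_centralizer_pCore hP))
  have h4 := isPGroup_inf_opOf (CfsgLib.Core.isPGroup_pCore (p := p) (G := K)) (centralizer {t})
  exact hY1 (le_bot_iff.mp (h4 ▸ le_inf h3 hY))

open Subgroup CfsgLib.Comp CfsgLib.PComp in
open scoped commutatorElement in
/-- Let G be finite, H ≤ G with O(H) = 1, t an involution of G normalizing H, and Y a nontrivial subgroup of O(C_H(t)). Then some component E of H is normalized by t and by Y and centralized by neither t nor Y. -/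
theorem result {G : Type*} [Group G] [Finite G] (H : Subgroup G) (hO : Cfsg.oddCore ↥H = ⊥) (t : G) (ht : orderOf t = 2) (htH : t ∈ Subgroup.normalizer (H : Set G)) (Y : Subgroup G) (hY1 : Y ≠ ⊥) (hY : Y ≤ (Cfsg.oddCore ↥(H ⊓ Subgroup.centralizer ({t} : Set G))).map (H ⊓ Subgroup.centralizer ({t} : Set G)).subtype) : ∃ E : Subgroup ↥H, Cfsg.IsComponent E ∧ (E.map H.subtype).map (MulAut.conj t).toMonoidHom = E.map H.subtype ∧ Y ≤ Subgroup.normalizer ((E.map H.subtype : Subgroup G) : Set G) ∧ ¬ (t ∈ Subgroup.centralizer ((E.map H.subtype : Subgroup G) : Set G)) ∧ ¬ (Y ≤ Subgroup.centralizer ((E.map H.subtype : Subgroup G) : Set G)) := by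
  haveI : Fact (Nat.Prime 2) := ⟨Nat.prime_two⟩
  set K : Subgroup G := H ⊔ zpowers t with hK
  have hHK : H ≤ K := le_sup_left
  have htK : t ∈ K := mem_sup_right (mem_zpowers t)
  have hKH : K ≤ normalizer (H : Set G) := sup_le le_normalizer (zpowers_le.mpr htH)
  have hP : IsPGroup 2 (zpowers t) := isPGroup_zpowers_of_orderOf ht
  -- odd order elements of `K` lie in `H`
  have hodd : ∀ y ∈ K, (orderOf y).Coprime 2 → y ∈ H := by
    intro y hy hc
    obtain ⟨a, ha, b, hb, rfl⟩ := (CfsgLib.Core.mem_sup_of_le_normalizer_left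
      (zpowers_le.mpr htH)).mp hy
    obtain ⟨k, hk⟩ := CfsgLib.Core.isPGroup_subgroup_iff.mp hP b hb
    haveI : (H.subgroupOf K).Normal := (normal_subgroupOf_iff_le_normalizer hHK).mpr hKH
    have hbK : b ∈ K := mem_sup_right hb
    let f := QuotientGroup.mk' (H.subgroupOf K)
    have e1 : f ⟨a * b, hy⟩ = f ⟨b, hbK⟩ := by
      have : (⟨a * b, hy⟩ : K) = ⟨a, hHK ha⟩ * ⟨b, hbK⟩ := rfl
      have h0 : f ⟨a, hHK ha⟩ = 1 := (QuotientGroup.eq_one_iff (⟨a, hHK ha⟩ : K)).mpr ha
      rw [this, map_mul, h0, one_mul]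
    have e2 : orderOf (f ⟨a * b, hy⟩) ∣ orderOf (a * b) := by
      rw [← Subgroup.orderOf_mk (a * b) hy]; exact orderOf_map_dvd f _
    have e3 : orderOf (f ⟨a * b, hy⟩) ∣ 2 ^ k := by
      rw [e1]
      apply orderOf_dvd_of_pow_eq_one
      rw [← map_pow, show (⟨b, hbK⟩ : K) ^ 2 ^ k = 1 from Subtype.ext hk, map_one]
    have e4 := Nat.eq_one_of_dvd_coprimes (hc.pow_right k) e2 e3
    exact (QuotientGroup.eq_one_iff (⟨a * b, hy⟩ : K)).mp (orderOf_eq_one_iff.mp e4)
  have hOH : opOf 2 H = ⊥ := by rw [opOf_def, show pPrimeCore 2 H = ⊥ from hO, Subgroup.map_bot]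
  have hOK : pPrimeCore 2 K = ⊥ := by
    have h1 : opOf 2 K ≤ H := fun y hy => hodd y (opOf_le K hy)
      (CfsgLib.Core.subgroup_coprime_card_iff.mp (coprime_card_opOf K) y hy)
    have h2 : opOf 2 K ≤ opOf 2 H := le_opOf_of_le le_rfl h1 hHK
    rw [hOH, le_bot_iff, opOf_def] at h2
    exact (map_eq_bot_iff_of_injective _ K.subtype_injective).mp h2
  have hYH : Y ≤ H := hY.trans ((map_subtype_le _).trans inf_le_left)
  have hYK : Y ≤ K := hYH.trans hHK
  have hC : (centralizer {(⟨t, htK⟩ : K)}).map K.subtype = K ⊓ centralizer {t} := by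
    ext x
    simp only [mem_map, mem_centralizer_singleton_iff, mem_inf]
    constructor
    · rintro ⟨y, hy, rfl⟩
      exact ⟨y.2, congrArg Subtype.val hy⟩
    · rintro ⟨h1, h2⟩
      exact ⟨⟨x, h1⟩, Subtype.ext h2, rfl⟩
  have hY' : Y.subgroupOf K ≤ centralizerPPrimeCore 2 (⟨t, htK⟩ : K) := by
    rw [centralizerPPrimeCore_eq, ← map_le_map_iff_of_injective K.subtype_injective,
      opOf_map_subtype, hC, map_subgroupOf_eq_of_le hYK]
    refine hY.trans (opOf_le_opOf_of_le_normalizer (inf_le_inf_right _ hHK) ?_)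
    exact CfsgLib.Coprime.le_normalizer_inf (inf_le_left.trans hKH) (inf_le_right.trans le_normalizer)
  have hY1' : Y.subgroupOf K ≠ ⊥ := fun h => hY1 (by
    rw [← map_subgroupOf_eq_of_le hYK, h, Subgroup.map_bot])
  obtain ⟨L, hL, h1, h2, h3⟩ := aux hOK (by rw [Subgroup.orderOf_mk]; exact ht) hY1' hY'
  have hLH : L.map K.subtype ≤ H := by
    haveI : (H.subgroupOf K).Normal := (normal_subgroupOf_iff_le_normalizer hHK).mpr hKH
    rw [map_le_iff_le_comap]
    refine le_of_perfect_of_forall_coprime (p := 2) (K := H.subgroupOf K) (comp_perfect hL) ?_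
    intro y _ hc
    exact hodd y y.2 (by rwa [Subgroup.orderOf_coe])
  have h1' : ⁅L.map K.subtype, zpowers t⁆ = L.map K.subtype := by
    have := congrArg (Subgroup.map K.subtype) h1
    rwa [map_commutator, MonoidHom.map_zpowers] at this
  refine ⟨(L.map K.subtype).subgroupOf H,
    comp_subgroupOf_of_le hLH hHK (comp_subgroupOf_map_subtype hL), ?_⟩
  rw [map_subgroupOf_eq_of_le hLH]
  refine ⟨?_, ?_, ?_, ?_⟩
  · rw [← CfsgLib.SolvStruct.conj_smul_eq_map]
    apply CfsgLib.SolvStruct.conj_smul_eq_of_mem_normalizer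
    rw [← h1']
    exact normalizer_commutator_ge_right _ _ (mem_zpowers t)
  · rw [← map_subgroupOf_eq_of_le hYK]
    exact (map_mono h2).trans (le_normalizer_map _)
  · intro h
    have h4 : ⁅L.map K.subtype, zpowers t⁆ = ⊥ := by
      rw [commutator_comm, commutator_eq_bot_iff_le_centralizer]
      exact zpowers_le.mpr h
    rw [h1'] at h4
    exact comp_ne_bot hL ((map_eq_bot_iff_of_injective _ K.subtype_injective).mp h4)
  · intro h
    apply h3
    apply (map_eq_bot_iff_of_injective _ K.subtype_injective).mp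
    rw [map_commutator, map_subgroupOf_eq_of_le hYK, commutator_comm,
      commutator_eq_bot_iff_le_centralizer]
    exact h

end Cfsg.Agent.S1328
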