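import Mathlib
-- Template for statement S1330 (row 1330; see /opt/grader/pristine/manifest.json for weights).
-- Copy to Cfsg/Agent/S1330.lean and replace the sorry. The statement below is byte-identical to the frozen
-- statement Cfsg.CfsgFrozen.S1330 (Cfsg/Statements/S1330.lean; the theorem Cfsg.core_separated_signalizer_functor);
-- the grader kernel-checks Cfsg.Agent.S1330.result against that frozen type. Keep the theorem IN THIS FILE
-- (a `result` declared elsewhere and merely imported here is not credited); helpers may live anywhere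
-- under Cfsg/Agent/.
import Cfsg.Statements.S1330
import Cfsg.Agent.Lib.Bal.Loc
import Cfsg.Agent.S1329

set_option autoImplicit false
open Cfsg

namespace Cfsg.Agent.S1330

open CfsgLib CfsgLib.Bal CfsgLib.Core CfsgLib.Comp CfsgLib.PComp CfsgLib.Tech Subgroup
open scoped commutatorElement

set_option linter.unusedSectionVars false

section
variable {G : Type*} [Group G] [Finite G]

/-- the factor of the functor belonging to `B` -/
abbrev th (B : Subgroup G) (a : G) : Subgroup G := ⁅centralizerPPrimeCore 2 a, B⁆ ⊔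
  (centralizerPPrimeCore 2 a ⊓ opOf 2 (centralizer (B : Set G)))

/-- the data of a core-separated pair inside `A` -/
structure Sep (A B B' : Subgroup G) : Prop where
  ea : IsElementaryAbelian 2 A
  le : B ≤ A
  le' : B' ≤ A
  card : Nat.card B = 4
  mem : ∀ a ∈ A, ∃ c ∈ B', c * a ∈ B
  sep : ∀ a ∈ A, a ≠ 1 → ∀ L : Subgroup (centralizer ({a} : Set G) ⧸ pPrimeCore 2 _), IsComponent L →
    bar 2 (centralizer {a}) B ≤ centralizer (L : Set _) ∨
      bar 2 (centralizer {a}) B' ≤ centralizer (L : Set _)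

variable {A B B' : Subgroup G}

theorem comm_le {X : Type*} [Group X] [Finite X] {U V L : Subgroup X} (h1 : U ≤ normalizer (L : Set X))
    (h2 : V ≤ centralizer (L : Set X)) : ⁅U, V⁆ ≤ centralizer (L : Set X) :=
  commutator_comm V U ▸ (commutator_mono h2 le_rfl).trans (Coprime.commutator_le_of_le_normalizer
    (h1.trans (LBal.normalizer_le_normalizer_centralizer L)))

theorem th_le {a : G} (h : B ≤ centralizer {a}) : th B a ≤ centralizerPPrimeCore 2 a :=
  sup_le (Coprime.commutator_le_of_le_normalizer (h.trans (le_normalizer_cpc a))) inf_le_left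

theorem bar_le {C U : Subgroup G} {a : C} (ha : IsPGroup 2 (zpowers (a : G)))
    (h : U ≤ centralizerPPrimeCore 2 (a : G)) :
    bar 2 C U ≤ opOf 2 (centralizer (zpowers (piO 2 C a) : Set (C ⧸ pPrimeCore 2 C))) := by
  rintro _ ⟨u, hu, rfl⟩
  exact cpc_eq (p := 2) (piO 2 C a) ▸ cpc_bar ha (h hu)

theorem two_bar {C : Subgroup G} {a : C} (ha : IsPGroup 2 (zpowers (a : G))) :
    IsPGroup 2 (zpowers (piO 2 C a)) := by
  rw [← bar_zpowers]
  exact (ha.comap_of_injective _ (subtype_injective _)).map _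

namespace Sep
variable (h : Sep A B B')
include h

theorem two : IsPGroup 2 A := isElementaryAbelian_isPGroup h.ea

theorem cent {a : G} (ha : a ∈ A) : A ≤ centralizer {a} := le_normalizer_centralizer_of_mem h.ea ha

theorem centB : A ≤ centralizer (B : Set G) :=
  (le_centralizer_iff_isMulCommutative.2 h.ea.1).trans (centralizer_le h.le)

theorem norm {a : G} (ha : a ∈ A) : A ≤ normalizer (th B a : Set G) :=
  have h1 := (h.cent ha).trans (le_normalizer_cpc (p := 2) a)
  Coprime.le_normalizer_sup (Coprime.le_normalizer_commutator h1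
    (h.centB.trans (centralizer_le_normalizer _)))
    (Coprime.le_normalizer_inf h1 (h.centB.trans (le_normalizer_opOf _)))

theorem cop {U : Subgroup G} (hU : (Nat.card U).Coprime 2) : (Nat.card B).Coprime (Nat.card U) :=
  Coprime.coprime_card_of_isPGroup (h.two.to_le h.le) hU |>.symm

theorem star {a x : G} (ha : a ∈ A) (hx : x ∈ B) (x1 : x ≠ 1) :
    ⁅centralizerPPrimeCore 2 a ⊓ centralizer {x}, B⁆ ≤ centralizerPPrimeCore 2 x := by
  have hA := h.cent (h.le hx)
  have hB := h.le.trans hA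
  have h0 : ⁅centralizerPPrimeCore 2 a ⊓ centralizer {x}, B⁆ ≤ _ :=
    Coprime.commutator_le_of_le_normalizer (Coprime.le_normalizer_inf
      (h.le.trans ((h.cent ha).trans (le_normalizer_cpc a))) (hB.trans le_normalizer))
  have hP := (isPGroup_zpowers_of_mem h.two ha)
  have hP' := two_bar (a := ⟨a, hA ha⟩) hP
  have h1 := bar_le (a := ⟨a, hA ha⟩) hP (inf_le_left (b := centralizer {x}))
  have h2 := (map_mono (comap_mono h0)).trans h1
  refine le_of_bar (h0.trans inf_le_right) (eq_bot_of LBal.pPrimeCore_quotient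
    (coprime_card_of_le_opOf h2) (h2.trans (op_core hP')) fun L hL => ?_)
  have h3 := h1.trans (op_norm LBal.pPrimeCore_quotient hP' hL)
  have h4 : ∀ y : centralizer ({x} : Set G), (y : G) ∈ zpowers x →
      piO 2 _ y ∈ centralizer (L : Set _) := fun y hy l _ => by
    obtain ⟨l, rfl⟩ := piO_surjective l
    rw [← map_mul, ← map_mul]
    exact congrArg _ (Subtype.ext ((centralizer_zpowers x).ge l.2 y hy).symm)
  rcases h.sep x (h.le hx) x1 L hL with e | e
  · exact bar_commutator (p := 2) inf_le_right hB ▸ comm_le h3 e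
  obtain ⟨c, hc, hca⟩ := h.mem a ha
  have h5 : piO 2 (centralizer ({x} : Set G)) ⟨c, hA (h.le' hc)⟩ ∈ centralizer (L : Set _) := e (mem_map_of_mem _ hc)
  by_cases k : c * a ∈ zpowers x
  · refine h2.trans (op_cent LBal.pPrimeCore_quotient hL (le_centralizer_iff.1 (zpowers_le.2 ?_)))
    exact (mul_mem_cancel_left h5).1 (by rw [← map_mul]; exact h4 _ k)
  have h6 : ((zpowers x).subgroupOf B).index = 2 := by
    have := card_mul_relIndex' (zpowers_le.2 hx)
    rw [Nat.card_zpowers, orderOf_eq_prime (h.ea.2 x (h.le hx)) x1, h.card] at this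
    exact Nat.eq_of_mul_eq_mul_left two_pos this
  rw [bar_commutator inf_le_right hB, commutator_le]
  rintro _ ⟨u, hu, rfl⟩ _ ⟨y, hy, rfl⟩
  have h7 := LBal.normalizer_le_normalizer_centralizer L (h3 (mem_map_of_mem _ hu))
  by_cases k' : (y : G) ∈ zpowers x
  · exact mul_mem (conj_mem_of_mem_normalizer h7 (h4 y k')) (inv_mem (h4 y k'))
  have h8' : (y : G) * (c * a)⁻¹ ∈ zpowers x := (mul_mem_iff_of_index_two h6
    (a := ⟨y, hy⟩) (b := ⟨_, hca⟩⁻¹)).2 (iff_of_false k' fun e => k (inv_mem_iff.1 e))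
  have h8 := mul_mem (h4 (y * (⟨c, hA (h.le' hc)⟩ * ⟨a, hA ha⟩ : centralizer ({x} : Set G))⁻¹) h8') h5
  have h9 : (⟨a, hA ha⟩ : centralizer ({x} : Set G)) * u⁻¹ = u⁻¹ * ⟨a, hA ha⟩ :=
    Subtype.ext (mem_centralizer_singleton_iff.1 (inv_mem (cpc_le a hu.1))).symm
  rw [← map_mul, mul_inv_rev, mul_assoc, inv_mul_cancel_right] at h8
  generalize (⟨a, hA ha⟩ : centralizer ({x} : Set G)) = a' at h8 h9
  have h11 : ⁅u, y⁆ = u * (y * a'⁻¹) * u⁻¹ * (y * a'⁻¹)⁻¹ := by
    calc _ = u * (y * a'⁻¹) * (a' * u⁻¹) * y⁻¹ := by rw [commutatorElement_def]; group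
      _ = _ := by rw [h9]; group
  rw [← map_commutatorElement, h11, map_mul, map_mul, map_mul, map_inv, map_inv]
  exact mul_mem (conj_mem_of_mem_normalizer h7 h8) (inv_mem h8)

theorem th_inf {a : G} (ha : a ∈ A) :
    th B a ⊓ centralizer (B : Set G) ≤ opOf 2 (centralizer (B : Set G)) := by
  have h1 := h.le.trans ((h.cent ha).trans (le_normalizer_cpc (p := 2) a))
  have h2 := Coprime.commutator_le_of_le_normalizer h1
  have h3 : ⁅centralizerPPrimeCore 2 a, B⁆ ⊓ centralizer (B : Set G) ≤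
      opOf 2 (centralizer (B : Set G)) := by
    rw [S1329.result B B _ (h.two.to_le h.le) (isElementaryAbelian_of_le h.ea h.le).1 le_rfl
      ((Nat.coprime_two_right.1 (coprime_cpc a)).of_dvd_nat (card_dvd_of_le h2))
      (normalizer_commutator_ge_right _ _)
      (Coprime.commutator_commutator_eq h1 (h.cop (coprime_cpc a)))]
    refine iSup_le fun ⟨D, hD, hc⟩ => ?_
    obtain ⟨x, hx, x1⟩ := D.bot_or_exists_ne_one.resolve_left fun e => by
      subst e
      rw [bot_subgroupOf] at hc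
      have := isCyclic_of_surjective _ (QuotientGroup.quotientBot (G := B)).surjective (hH := hc)
      obtain ⟨g, hg⟩ := IsCyclic.exists_ofOrder_eq_natCard (α := B)
      have := Nat.le_of_dvd two_pos (orderOf_dvd_of_pow_eq_one
        (Subtype.ext (h.ea.2 g (h.le g.2)) : g ^ 2 = 1))
      rw [hg, h.card] at this
      omega
    exact le_trans (inf_le_inf inf_le_right ((commutator_mono (inf_le_inf h2 (centralizer_le
      (Set.singleton_subset_iff.2 hx))) le_rfl).trans (h.star ha (hD hx) x1)))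
      (inf_opOf_le (centralizer_le (Set.singleton_subset_iff.2 (hD hx))))
  rintro g ⟨hg, hc⟩
  obtain ⟨y, hy, z, hz, rfl⟩ := (mem_sup_of_le_normalizer_left (inf_le_left.trans
    (normalizer_commutator_ge_left _ _))).1 hg
  exact mul_mem (h3 ⟨hy, (mul_mem_cancel_right (opOf_le _ hz.2)).1 hc⟩) hz.2

theorem split {a : G} (ha : a ∈ A) {W M : Subgroup G} (hW : W ≤ th B a)
    (hn : A ≤ normalizer (W : Set G)) (h1 : ⁅W, B⁆ ≤ M)
    (h2 : W ⊓ opOf 2 (centralizer (B : Set G)) ≤ M) : W ≤ M := by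
  rw [← Coprime.commutator_sup_centralizer (h.le.trans hn) (h.cop ((coprime_cpc a).coprime_dvd_left
    (card_dvd_of_le (hW.trans (th_le (h.le.trans (h.cent ha)))))))
    (Or.inl (Coprime.isSolvable_of_isPGroup (h.two.to_le h.le)))]
  exact sup_le h1 (le_trans (le_inf inf_le_left ((inf_le_inf_right _ hW).trans (h.th_inf ha))) h2)

theorem bar_cent {a : G} (ha : a ∈ A) {C W : Subgroup G} (hA : A ≤ C) (hW : W ≤ th B a) (hC : W ≤ C)
    (hn : A ≤ normalizer (W : Set G)) {L : Subgroup (C ⧸ pPrimeCore 2 C)} (hL : IsComponent L)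
    (h1 : bar 2 C W ≤ normalizer (L : Set _)) (h2 : bar 2 C B ≤ centralizer (L : Set _)) :
    bar 2 C W ≤ centralizer (L : Set _) := by
  have := h.split ha hW hn (M := ((centralizer (L : Set _)).comap (piO 2 C)).map C.subtype)
    (fun g hg => ?_) fun g hg => ⟨⟨g, hC hg.1⟩, op_cent LBal.pPrimeCore_quotient hL
      (le_centralizer_iff.1 h2) (op_bar (h.le.trans hA) (h.two.to_le h.le) hg.2), rfl⟩
  · rintro _ ⟨w, hw, rfl⟩
    obtain ⟨v, hv, e⟩ := this hw
    exact (Subtype.ext e : v = w) ▸ hv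
  · exact ⟨⟨g, (commutator_mono hC (h.le.trans hA)).trans (commutator_le_self _) hg⟩,
      comm_le h1 h2 (bar_commutator (p := 2) hC (h.le.trans hA) ▸ mem_map_of_mem _ hg), rfl⟩

theorem bal (h' : Sep A B' B) {a b : G} (ha : a ∈ A) (hb : b ∈ A) (b1 : b ≠ 1) :
    th B a ⊓ th B' a ⊓ centralizer {b} ≤ th B b := by
  have hA := h.cent hb
  have hn := Coprime.le_normalizer_inf (Coprime.le_normalizer_inf (h.norm ha) (h'.norm ha))
    (hA.trans le_normalizer)
  have hP := (isPGroup_zpowers_of_mem h.two ha)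
  have hP' := two_bar (a := ⟨a, hA ha⟩) hP
  have h0 : th B a ⊓ th B' a ⊓ centralizer {b} ≤ th B a := inf_le_left.trans inf_le_left
  have h1 := bar_le (a := ⟨a, hA ha⟩) hP (h0.trans (th_le (h.le.trans (h.cent ha))))
  have h2 : th B a ⊓ th B' a ⊓ centralizer {b} ≤ centralizerPPrimeCore 2 b :=
    le_of_bar inf_le_right (eq_bot_of LBal.pPrimeCore_quotient (coprime_card_of_le_opOf h1)
      (h1.trans (op_core hP')) fun L hL =>
      have h3 := h1.trans (op_norm LBal.pPrimeCore_quotient hP' hL)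
      (h.sep b hb b1 L hL).elim (h.bar_cent ha hA h0 inf_le_right hn hL h3)
        (h'.bar_cent ha hA (inf_le_left.trans inf_le_right) inf_le_right hn hL h3))
  exact h.split ha h0 hn ((commutator_mono h2 le_rfl).trans le_sup_left)
    ((inf_le_inf_right _ h2).trans le_sup_right)

end Sep

theorem sep_of (h1 : IsElementaryAbelian 2 B) (h2 : IsElementaryAbelian 2 B') (h3 : Nat.card B = 4)
    (h4 : B ≤ centralizer (B' : Set G)) (hA : A = B' ⊔ B)
    (h5 : ∀ a ∈ A, a ≠ 1 → ∀ E : Subgroup (centralizer ({a} : Set G)), IsPComponent 2 E →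
      ⁅E.map (centralizer ({a} : Set G)).subtype, B⁆ ≤ centralizerPPrimeCore 2 a ∨
      ⁅E.map (centralizer ({a} : Set G)).subtype, B'⁆ ≤ centralizerPPrimeCore 2 a) : Sep A B B' := by
  have he := isElementaryAbelian_sup h2 h1 (le_centralizer_iff.1 h4)
  subst hA
  refine ⟨he, le_sup_right, le_sup_left, h3, fun a ha => ?_, fun a ha a1 L hL => ?_⟩
  · obtain ⟨c, hc, b, hb, rfl⟩ :=
      (mem_sup_of_le_normalizer_left (h4.trans (centralizer_le_normalizer _))).1 ha
    exact ⟨c⁻¹, inv_mem hc, by simpa using hb⟩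
  obtain ⟨E, hE, rfl⟩ := exists_pc_map_eq hL
  have k : ∀ D ≤ B' ⊔ B, ⁅E.map (centralizer ({a} : Set G)).subtype, D⁆ ≤ centralizerPPrimeCore 2 a →
      bar 2 (centralizer {a}) D ≤ centralizer ((E.map (piO 2 _) : Subgroup _) : Set _) := fun D hD e => by
    rw [le_centralizer_iff, ← commutator_eq_bot_iff_le_centralizer, commutator_map_piO_eq_bot_iff,
      ← map_le_map_iff_of_injective (subtype_injective _), map_commutator,
      map_subgroupOf_eq_of_le (hD.trans (le_normalizer_centralizer_of_mem he ha))]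
    exact e
  exact (h5 a ha a1 E hE).imp (k _ le_sup_right) (k _ le_sup_left)

end


/-- Let A₁, A₂ be core-separated four-subgroups of the finite group G and A = A₁A₂. For a ∈ G put O_a = O(C_G(a)) and θ a = ⋂_{i=1,2} ( ⁅O_a, A_i⁆ · (O_a ∩ O(C_G(A_i))) ). Then θ is an A-signalizer functor for the prime 2. -/
theorem result {G : Type*} [Group G] [Finite G] (A₁ A₂ : Subgroup G) (hcs : Cfsg.IsCoreSeparated A₁ A₂) : Cfsg.IsSignalizerFunctor 2 (A₁ ⊔ A₂) (fun a => (⁅Cfsg.centralizerPPrimeCore 2 a, A₁⁆ ⊔ (Cfsg.centralizerPPrimeCore 2 a ⊓ ((Cfsg.oddCore ↥(Subgroup.centralizer ((A₁ : Subgroup G) : Set G))).map (Subgroup.centralizer ((A₁ : Subgroup G) : Set G)).subtype))) ⊓ (⁅Cfsg.centralizerPPrimeCore 2 a, A₂⁆ ⊔ (Cfsg.centralizerPPrimeCore 2 a ⊓ ((Cfsg.oddCore ↥(Subgroup.centralizer ((A₂ : Subgroup G) : Set G))).map (Subgroup.centralizer ((A₂ : Subgroup G) : Set G)).subtype)))) := by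
  obtain ⟨h1, h2, h3, h4, -, -, h5, h6⟩ := hcs
  have h := sep_of h1 h2 h3 (fun x hx y hy => (h5 x hx y hy).symm) (sup_comm _ _) h6
  have h' := sep_of h2 h1 h4 (fun y hy x hx => h5 x hx y hy) rfl fun a ha a1 E hE =>
    (h6 a ha a1 E hE).symm
  have k : ∀ a ∈ A₁ ⊔ A₂, th A₁ a ⊓ th A₂ a ≤ centralizerPPrimeCore 2 a := fun a ha =>
    inf_le_left.trans (th_le (h.le.trans (h.cent ha)))
  exact ⟨fun a ha _ => (k a ha).trans (cpc_le a), fun a ha _ e =>
    (Nat.prime_two.coprime_iff_not_dvd.1 (coprime_cpc a).symm) (e.trans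
      (card_dvd_of_le (k a ha))), fun a ha _ b hb x hx => conj_mem_of_mem_normalizer
      (Coprime.le_normalizer_inf (h.norm ha) (h'.norm ha) hb) hx, fun a ha _ b hb b1 =>
    le_inf (h.bal h' ha hb b1) ((inf_le_inf_right _ (inf_comm _ _).le).trans (h'.bal h ha hb b1))⟩

end Cfsg.Agent.S1330
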