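import Mathlib
-- Template for statement S1331 (row 1331; see /opt/grader/pristine/manifest.json for weights).
-- Copy to Cfsg/Agent/S1331.lean and replace the sorry. The statement below is byte-identical to the frozen
-- statement Cfsg.CfsgFrozen.S1331 (Cfsg/Statements/S1331.lean; the theorem Cfsg.signalizer_family_member_generated_by_hyperplane_infs);
-- the grader kernel-checks Cfsg.Agent.S1331.result against that frozen type. Keep the theorem IN THIS FILE
-- (a `result` declared elsewhere and merely imported here is not credited); helpers may live anywhere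
-- under Cfsg/Agent/.
import Cfsg.Statements.S1331
import Cfsg.Agent.Lib.Signal.Basic

set_option autoImplicit false
open Cfsg

namespace Cfsg.Agent.S1331

open Cfsg Subgroup CfsgLib.BG CfsgLib.Signal


/-- Let θ be a solvable A-signalizer functor on the finite group G for the prime p, A elementary abelian of rank at least 3, X a member of the family of θ, and B ≤ A with |B| ≥ p². Then X is generated by the subgroups X ∩ ⋂_{d ∈ D, d ≠ 1} θ d, D ranging over the subgroups of index p in B. -/
theorem result {G : Type*} [Group G] [Finite G] (p : ℕ) [Fact p.Prime] (A : Subgroup G) (hA : Cfsg.IsElementaryAbelian p A) (hA3 : p ^ 3 ≤ Nat.card ↥A) (θ : G → Subgroup G) (hθ : Cfsg.IsSolvableSignalizerFunctor p A θ) (X : Subgroup G) (hX : X ∈ Cfsg.signalizerFamily p A θ) (B : Subgroup G) (hB : B ≤ A) (hB2 : p ^ 2 ≤ Nat.card ↥B) : X = ⨆ D : {D : Subgroup G // D ≤ B ∧ D.relIndex B = p}, X ⊓ Cfsg.signalizerInf (D : Subgroup G) θ := by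
  have hp : p.Prime := Fact.out
  have h := ((sf_iff hp hA).mpr hθ).toGSF
  have hX' := ((inFam_iff hp).mpr hX).toGFam
  refine le_antisymm ?_ (iSup_le fun B => inf_le_left)
  refine le_of_hyperplanes hp (h.sub hB).abelem (ne_bot_of_lt_card hp.pos (lt_of_sq_le hp hB2)) hX'.p'grp
    (hB.trans hX'.norm) fun D h1 h2 => ?_
  rw [hX'.inf_cent h (h1.trans hB)]
  exact le_iSup (fun D : {D : Subgroup G // D ≤ B ∧ D.relIndex B = p} =>
      X ⊓ Cfsg.signalizerInf (D : Subgroup G) θ) ⟨D, h1, h2⟩

end Cfsg.Agent.S1331
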