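import Cfsg.Statements.S1335
import Mathlib.GroupTheory.Nilpotent

set_option autoImplicit false
open Cfsg

namespace Cfsg.Agent.S1335

theorem prank_of_injective {A B : Type*} [Group A] [Group B] (f : A →* B)
    (hf : Function.Injective f) {p k : ℕ} (h : Cfsg.PRankLE p k B) : Cfsg.PRankLE p k A := by
  intro E hE hp
  have h1 := h (E.map f) (by
    haveI := hE
    infer_instance) (by
    rintro _ ⟨a, ha, rfl⟩
    rw [← map_pow, hp a ha, map_one])
  rwa [Subgroup.card_map_of_injective hf] at h1

/-- Let H be a subgroup of the finite group G, p a prime, k ≥ 1, P a Sylow p-subgroup of H of p-rank at least k, and suppose N_G(X) ≤ H for every subgroup X ≤ P of p-rank at least k. Then P is a Sylow p-subgroup of G. -/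
theorem result {G : Type*} [Group G] [Finite G] {p : ℕ} [Fact p.Prime] (k : ℕ) (hk : 1 ≤ k) (H : Subgroup G) (P : Sylow p ↥H) (hP : ¬ Cfsg.PRankLE p (k - 1) ↥(P : Subgroup ↥H)) (hΓ : (∀ X : Subgroup G, X ≤ (P : Subgroup ↥H).map H.subtype → ¬ Cfsg.PRankLE p (k - 1) ↥X → Subgroup.normalizer (X : Set G) ≤ H)) : ∃ Q : Sylow p G, (Q : Subgroup G) = (P : Subgroup ↥H).map H.subtype := by
  set P' : Subgroup G := (P : Subgroup ↥H).map H.subtype with hP'
  have hN : Subgroup.normalizer (P' : Set G) ≤ H := by
    refine hΓ P' le_rfl fun h => hP ?_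
    exact prank_of_injective
      ((P : Subgroup ↥H).equivMapOfInjective H.subtype H.subtype_injective).toMonoidHom
      (MulEquiv.injective _) h
  obtain ⟨Q, hQ⟩ := P.exists_comap_subtype_eq
  have hle : P' ≤ Q := by
    rw [hP', ← hQ]; exact Subgroup.map_comap_le _ _
  refine ⟨Q, le_antisymm ?_ hle⟩
  haveI : Group.IsNilpotent (Q : Subgroup G) := Q.isPGroup'.isNilpotent
  have hnc := Group.normalizerCondition_of_isNilpotent (G := (Q : Subgroup G))
  rw [normalizerCondition_iff_only_full_group_self_normalizing] at hnc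
  have := hnc (P'.subgroupOf Q) (by
    refine le_antisymm ?_ Subgroup.le_normalizer
    intro x hx
    rw [← Subgroup.subgroupOf_normalizer_eq hle] at hx
    have hxH : (x : G) ∈ H := hN hx
    rw [Subgroup.mem_subgroupOf, hP']
    refine ⟨⟨x, hxH⟩, ?_, rfl⟩
    rw [← hQ]
    exact x.2)
  exact Subgroup.subgroupOf_eq_top.mp this

end Cfsg.Agent.S1335
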