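import Mathlib
-- Template for statement S1336 (row 1336; see /opt/grader/pristine/manifest.json for weights).
-- Copy to Cfsg/Agent/S1336.lean and replace the sorry. The statement below is byte-identical to the frozen
-- statement Cfsg.CfsgFrozen.S1336 (Cfsg/Statements/S1336.lean; the theorem Cfsg.strongly_p_embedded_iff_one_disconnected);
-- the grader kernel-checks Cfsg.Agent.S1336.result against that frozen type. Keep the theorem IN THIS FILE
-- (a `result` declared elsewhere and merely imported here is not credited); helpers may live anywhere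
-- under Cfsg/Agent/.
import Cfsg.Statements.S1336
import Cfsg.Agent.Lib.Signal.App2

set_option autoImplicit false
open Cfsg

namespace Cfsg.Agent.S1336

open Cfsg Subgroup CfsgLib.BG CfsgLib.Signal

variable {G : Type*} [Group G]

def R (p : ℕ) (A B : Subgroup G) : Prop :=
  IsElementaryAbelian p A ∧ p ^ 1 ≤ Nat.card A ∧ IsElementaryAbelian p B ∧ p ^ 1 ≤ Nat.card B ∧
    ∀ a ∈ A, ∀ b ∈ B, a * b = b * a

def L (p : ℕ) (A B : Subgroup G) : Prop := Relation.ReflTransGen (R p) A B

variable {p : ℕ} {A B E P : Subgroup G}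

theorem L.symm (h : L p A B) : L p B A :=
  CfsgLib.Classif.reflTransGen_symm (fun _ _ h => ⟨h.2.2.1, h.2.2.2.1, h.1, h.2.1, fun b hb a ha => (h.2.2.2.2 a ha b hb).symm⟩) h

theorem L.trans (h : L p A B) (h' : L p B E) : L p A E := Relation.ReflTransGen.trans h h'

theorem L.cj (h : L p A B) (g : G) : L p (cj g A) (cj g B) := by
  refine CfsgLib.Classif.reflTransGen_lift (CfsgLib.BG.cj g) (fun A B h => ⟨abelem_cj.mpr h.1, by rw [card_cj]; exact h.2.1,
    abelem_cj.mpr h.2.2.1, by rw [card_cj]; exact h.2.2.2.1, fun a ha b hb => ?_⟩) h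
  obtain ⟨a, ha', rfl⟩ := mem_cj'.mp ha
  obtain ⟨b, hb', rfl⟩ := mem_cj'.mp hb
  calc g * a * g⁻¹ * (g * b * g⁻¹) = g * (a * b) * g⁻¹ := by group
    _ = g * (b * a) * g⁻¹ := by rw [h.2.2.2.2 a ha' b hb']
    _ = _ := by group

theorem L_of_le [Finite G] (hp : p.Prime) (hP : IsPGroup p P) (hA : IsElementaryAbelian p A) (h1 : p ^ 1 ≤ Nat.card A)
    (hB : IsElementaryAbelian p B) (h2 : p ^ 1 ≤ Nat.card B) (hAP : A ≤ P) (hBP : B ≤ P) : L p A B := by
  haveI := Fact.mk hp
  obtain ⟨z, -, hzc, hz⟩ := CfsgLib.InvHarv.exists_central_orderOf_eq hP (fun e => by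
    rw [(eq_bot_iff (a := A)).mpr (e ▸ hAP), card_bot, pow_one] at h1
    exact absurd hp.one_lt (not_lt.mpr h1))
  have hz' : IsElementaryAbelian p (zpowers z) := abelem_zpowers (hz ▸ pow_orderOf_eq_one z)
  have hc : P ≤ 𝒞(zpowers z) := centsC.mp (zpowers_le.mpr hzc)
  have h3 : p ^ 1 ≤ Nat.card (zpowers z) := by rw [Nat.card_zpowers, hz, pow_one]
  have key : ∀ A : Subgroup G, IsElementaryAbelian p A → p ^ 1 ≤ Nat.card A → A ≤ P → L p A (zpowers z) :=
    fun A hA h1 hAP => Relation.ReflTransGen.single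
      ⟨hA, h1, hz', h3, fun a ha b hb => (mem_cent_iff.mp (hc (hAP ha)) b hb).symm⟩
  exact (key A hA h1 hAP).trans (key B hB h2 hBP).symm

def stab (p : ℕ) (E : Subgroup G) : Subgroup G where
  carrier := {g | L p (cj g E) E}
  one_mem' := by simp only [Set.mem_setOf_eq, cj_one]; exact Relation.ReflTransGen.refl
  mul_mem' := fun {a b} ha hb => by
    simp only [Set.mem_setOf_eq, cj_mul]
    exact (L.cj hb a).trans ha
  inv_mem' := fun {a} ha => by
    have := (L.cj ha a⁻¹).symm
    rwa [cj_inv_cj] at this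


/-- Let G be finite and p prime. Then G has a proper subgroup H with p ∣ |H| and p ∤ |H ∩ gHg⁻¹| for every g ∉ H (a strongly p-embedded subgroup) if and only if G is not 1-connected for p. -/
theorem result {G : Type*} [Group G] [Finite G] (p : ℕ) [Fact p.Prime] : (∃ H : Subgroup G, H ≠ ⊤ ∧ p ∣ Nat.card ↥H ∧ ∀ g : G, g ∉ H → ¬ p ∣ Nat.card ↥(H ⊓ H.map (MulAut.conj g).toMonoidHom)) ↔ ¬ Cfsg.IsKConnected p 1 G := by
  have hp : p.Prime := Fact.out
  have hz : ∀ t : G, orderOf t = p → IsElementaryAbelian p (zpowers t) ∧ p ^ 1 ≤ Nat.card (zpowers t) :=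
    fun t ht => ⟨abelem_zpowers (ht ▸ pow_orderOf_eq_one t), by rw [Nat.card_zpowers, ht, pow_one]⟩
  refine Iff.trans (exists_congr fun H => (CfsgLib.LocStr.spe_iff_classical (p := p) (M := H)).symm) ?_
  constructor
  · rintro ⟨H, hH⟩ hc
    obtain ⟨t, htH, ht⟩ := CfsgLib.LocStr.exists_orderOf_of_dvd (CfsgLib.LocStr.spe_dvd_card hH)
    refine CfsgLib.LocStr.spe_ne_top hH ((eq_top_iff' _).mpr fun g => ?_)
    have ho : orderOf (g * t * g⁻¹) = p := by rw [← ht]; exact (MulAut.conj g).orderOf_eq t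
    have h1 := hc _ _ (hz t ht).1 (hz t ht).2 (hz _ ho).1 (hz _ ho).2
    have key : ∀ B : Subgroup G, L p (zpowers t) B → B ≤ H := fun B hB => by
      induction hB with
      | refl => exact zpowers_le.mpr htH
      | tail _ h2 ih =>
        refine le_trans (fun b hb => mem_cent_iff.mpr fun a ha => h2.2.2.2.2 a ha b hb)
          (CfsgLib.LocStr.spe_centralizer_le hH ((pigroup_singleton hp).mp (abelem_pgroup hp h2.1)) ih fun e => ?_)
        have := h2.2.1
        rw [e, card_bot, pow_one] at this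
        exact absurd hp.one_lt (not_lt.mpr this)
    exact CfsgLib.LocStr.spe_mem_of_conj_mem hH ht htH (key _ h1 (mem_zpowers _))
  · intro hc
    unfold IsKConnected at hc
    push Not at hc
    obtain ⟨E, E', h1, h2, h3, h4, h5⟩ := hc
    obtain ⟨P, hP, hEP⟩ := Sylow_superset hp (le_top (a := E)) (abelem_pgroup hp h1)
    have hPH : P ≤ stab p E := fun x hx => L_of_le hp (Sylow_isPGroup hP) (abelem_cj.mpr h1)
      (by rw [card_cj]; exact h2) h1 h2 (cj_le_of_mem hx hEP) hEP
    have key : ∀ A : Subgroup G, IsElementaryAbelian p A → p ^ 1 ≤ Nat.card A → A ≤ stab p E → L p A E :=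
      fun A hA hc hle => by
        obtain ⟨h, hh, hle'⟩ := Sylow_Jsub hp (pHall_subl hPH le_top hP) hle (abelem_pgroup hp hA)
        have := (L_of_le hp (Sylow_isPGroup hP) (abelem_cj.mpr hA) (by rw [card_cj]; exact hc) h1 h2 hle' hEP).cj h⁻¹
        rw [cj_inv_cj] at this
        exact this.trans (inv_mem hh)
    refine ⟨stab p E, CfsgLib.LocStr.spe_of_elem (fun e => h5 (key E' h3 h4 (e ▸ le_top)).symm) ?_
      fun t g ht htH hg => ?_⟩
    · obtain ⟨n, hn⟩ := abelem_card hp h1
      refine dvd_trans ?_ (card_dvd_of_le (hEP.trans hPH))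
      rw [hn] at h2 ⊢
      exact dvd_pow_self p (by have := (Nat.pow_le_pow_iff_right hp.one_lt).mp h2; omega)
    · have ho : orderOf (g * t * g⁻¹) = p := by rw [← ht]; exact (MulAut.conj g).orderOf_eq t
      have a1 := (key _ (hz t ht).1 (hz t ht).2 (zpowers_le.mpr htH)).cj g
      rw [cj_zpowers] at a1
      exact a1.symm.trans (key _ (hz _ ho).1 (hz _ ho).2 (zpowers_le.mpr hg))

end Cfsg.Agent.S1336
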