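import Mathlib
-- Template for statement S1337 (row 1337; see /opt/grader/pristine/manifest.json for weights).
-- Copy to Cfsg/Agent/S1337.lean and replace the sorry. The statement below is byte-identical to the frozen
-- statement Cfsg.CfsgFrozen.S1337 (Cfsg/Statements/S1337.lean; the theorem Cfsg.p_group_rank_gt_two_normal_rank_two_component);
-- the grader kernel-checks Cfsg.Agent.S1337.result against that frozen type. Keep the theorem IN THIS FILE
-- (a `result` declared elsewhere and merely imported here is not credited); helpers may live anywhere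
-- under Cfsg/Agent/.
import Cfsg.Statements.S1337
import Cfsg.Agent.Lib.Signal.PConn

set_option autoImplicit false
open Cfsg

namespace Cfsg.Agent.S1337

open Cfsg Subgroup CfsgLib.BG CfsgLib.Signal


/-- Let P be a finite p-group of p-rank greater than 2. Then P has a normal elementary abelian subgroup U of order p², and for every elementary abelian X ≤ P with |X| ≥ p²: X is joined to U by a chain of pairwise commuting elementary abelian subgroups of order ≥ p² if and only if C_P(X) has p-rank greater than 2. -/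
theorem result {P : Type*} [Group P] [Finite P] (p : ℕ) [Fact p.Prime] (hP : IsPGroup p P) (hrk : ¬ Cfsg.PRankLE p 2 P) : ∃ U : Subgroup P, U.Normal ∧ Cfsg.IsElementaryAbelian p U ∧ Nat.card ↥U = p ^ 2 ∧ ∀ X : Subgroup P, Cfsg.IsElementaryAbelian p X → p ^ 2 ≤ Nat.card ↥X → (Relation.ReflTransGen (fun A B : Subgroup P => Cfsg.IsElementaryAbelian p A ∧ p ^ 2 ≤ Nat.card ↥A ∧ Cfsg.IsElementaryAbelian p B ∧ p ^ 2 ≤ Nat.card ↥B ∧ ∀ a ∈ A, ∀ b ∈ B, a * b = b * a) X U ↔ ¬ Cfsg.PRankLE p 2 ↥(Subgroup.centralizer (X : Set P))) := by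
  have hp : p.Prime := Fact.out
  obtain ⟨A, hA⟩ := not_pRankLE_two_iff'.mp hrk
  obtain ⟨U, hn, hU, hc⟩ := exists_normal_sq (P := (⊤ : Subgroup P)) hp
    ((pigroup_singleton hp).mpr (hP.to_subgroup ⊤)) (not_pRankLE_two_iff.mpr ⟨A, hA, le_top⟩)
  haveI hn' : U.Normal := normalizer_eq_top_iff.mp (eq_top_iff.mpr hn.2)
  refine ⟨U, hn', hU, hc, fun X hX h2 => ?_⟩
  rw [← linked_iff hp]
  constructor
  · intro h
    exact ((vtx_iff hp).mp (h.symm.vtx hp ((hA.linked_normal hp hU hc (le_top.trans hn.2)).vtx hp (hA.vtx hp)))).2.2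
  · intro h
    exact ((vtx_iff hp).mpr ⟨hX, h2, h⟩).linked_normal hp hU hc

end Cfsg.Agent.S1337
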