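import Mathlib
-- Template for statement S1338 (row 1338; see /opt/grader/pristine/manifest.json for weights).
-- Copy to Cfsg/Agent/S1338.lean and replace the sorry. The statement below is byte-identical to the frozen
-- statement Cfsg.CfsgFrozen.S1338 (Cfsg/Statements/S1338.lean; the theorem Cfsg.three_group_rank_gt_three_two_connected);
-- the grader kernel-checks Cfsg.Agent.S1338.result against that frozen type. Keep the theorem IN THIS FILE
-- (a `result` declared elsewhere and merely imported here is not credited); helpers may live anywhere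
-- under Cfsg/Agent/.
import Cfsg.Statements.S1338
import Cfsg.Agent.Lib.Signal.PConn

set_option autoImplicit false
open Cfsg

namespace Cfsg.Agent.S1338

open Cfsg Subgroup CfsgLib.BG CfsgLib.Signal


/-- A finite 3-group of 3-rank at least 4 is 2-connected for the prime 3: its commuting graph on elementary abelian subgroups of order ≥ 9 is connected. -/
theorem result {P : Type*} [Group P] [Finite P] (hP : IsPGroup 3 P) (hrk : ¬ Cfsg.PRankLE 3 3 P) : Cfsg.IsKConnected 3 2 P := by
  have hp : Nat.Prime 3 := Nat.prime_three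
  haveI := Fact.mk hp
  have hP' : IsPiSubgroup {3} (⊤ : Subgroup P) := (pigroup_singleton hp).mpr (hP.to_subgroup ⊤)
  have h4 : 4 ≤ pRank 3 (⊤ : Subgroup P) := by
    by_contra h
    exact hrk ((pRank_top_le_iff hp).mp (by omega))
  obtain ⟨B, hB⟩ := (p_rank_geP hp).mp h4
  obtain ⟨E, hn, hE, hc⟩ := CfsgLib.PGroup.exists_normal_rank_four (by norm_num) hP hB.abelem hB.card
  have hE3 : E3 3 E := ⟨hE, by rw [hc]; norm_num⟩
  obtain ⟨z, -, hzc, hz⟩ := CfsgLib.InvHarv.exists_central_orderOf_eq (T := (⊤ : Subgroup P)) (hP.to_subgroup ⊤)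
    (fun e => ne_bot_of_lt_card (by norm_num) hE3.card (eq_bot_iff.mpr (e ▸ le_top)))
  have hz' : IsElementaryAbelian 3 (zpowers z) := abelem_zpowers (hz ▸ pow_orderOf_eq_one z)
  have hc' : ∀ X : Subgroup P, X ≤ 𝒞(zpowers z) := fun X => le_top.trans (centsC.mp (zpowers_le.mpr hzc))
  have key : ∀ X : Subgroup P, E2 3 X → Vtx 3 X := fun X hX => by
    obtain ⟨x, hxX, hx⟩ : ∃ x ∈ X, x ∉ zpowers z := by
      by_contra h
      push Not at h
      have := Subgroup.card_le_of_le (show X ≤ zpowers z from h)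
      rw [Nat.card_zpowers, hz] at this
      exact absurd hX.card (not_lt.mpr this)
    have hx3 := hX.abelem.2 x hxX
    have hx' : IsElementaryAbelian 3 (zpowers x) := abelem_zpowers hx3
    have hY : E2 3 (zpowers x ⊔ zpowers z) := ⟨abelemY hx' hz' (hc' _), by
      have h2 := CfsgLib.Core.card_lt_of_lt (lt_of_le_of_ne (le_sup_right : zpowers z ≤ zpowers x ⊔ zpowers z)
        fun e => hx (e ▸ (le_sup_left : zpowers x ≤ _) (mem_zpowers x)))
      rwa [Nat.card_zpowers, hz] at h2⟩
    have hC : E2 3 (E ⊓ 𝒞[x]) := ⟨abelemS inf_le_left hE, by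
      have h1 := card_le_cube hE hx3 (by rw [normalizer_eq_top]; exact mem_top x)
      by_contra h
      have := Nat.pow_le_pow_left (not_lt.mp h) 3
      omega⟩
    have a1 : Adj 3 (E ⊓ 𝒞[x]) (zpowers x ⊔ zpowers z) :=
      ⟨hC, hY, by rw [centY, cent_zpowers]; exact le_inf inf_le_right (hc' _)⟩
    have a2 : Adj 3 X (zpowers x ⊔ zpowers z) :=
      ⟨hX, hY, by rw [centY]; exact le_inf ((abelem_cents hX.abelem).trans (centS (zpowers_le.mpr hxX))) (hc' _)⟩
    exact a2.symm.vtx hp (a1.vtx hp ⟨hC, E, hE3, inf_le_left⟩)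
  intro X Y hX h1 hY h2
  obtain ⟨U, hUn, hU, hUc⟩ := exists_normal_sq hp hP' (not_pRankLE_two_iff.mpr ⟨E, hE3, le_top⟩)
  haveI hn' : U.Normal := normalizer_eq_top_iff.mp (eq_top_iff.mpr hUn.2)
  exact (linked_iff hp).mp (((key X ⟨hX, lt_of_sq_le hp h1⟩).linked_normal hp hU hUc).trans
    ((key Y ⟨hY, lt_of_sq_le hp h2⟩).linked_normal hp hU hUc).symm)

end Cfsg.Agent.S1338
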