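import Cfsg.Statements.S1348
import Cfsg.Agent.Lib.StdEx.Block

set_option autoImplicit false
open Cfsg

namespace Cfsg.Agent.S1348

open CfsgLib.StdEx CfsgLib.Law

/-- Let F be a finite field of odd order, n ≥ 7 odd, and t ∈ SL(n, F) the diagonal matrix with entries −1, …, −1, 1. Then E(C(t)) is a standard subgroup of SL(n, F). -/
theorem result {F : Type*} [Field F] [Fintype F] [DecidableEq F] (hF : Odd (Fintype.card F)) (n : ℕ) (hn : 7 ≤ n) (hodd : Odd n) (t : Matrix.SpecialLinearGroup (Fin n) F) (ht : (t : Matrix (Fin n) (Fin n) F) = Matrix.diagonal (fun i : Fin n => if (i : ℕ) + 1 = n then (1 : F) else -1)) : Cfsg.IsStandardSubgroup ((Cfsg.layer ↥(Subgroup.centralizer ({t} : Set (Matrix.SpecialLinearGroup (Fin n) F)))).map (Subgroup.centralizer ({t} : Set (Matrix.SpecialLinearGroup (Fin n) F))).subtype) := by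
  obtain ⟨m, rfl⟩ : ∃ m, n = m + 1 := ⟨n - 1, by omega⟩
  have h2 := two_ne hF
  haveI : Nontrivial (Fin m) := Fin.nontrivial_iff_two_le.2 (by omega)
  let ρ : Matrix.SpecialLinearGroup (Fin (m + 1)) F →* Matrix (Fin (m + 1)) (Fin (m + 1)) F :=
    Matrix.SpecialLinearGroup.coeMonoidHom
  have hρ : Function.Injective ρ := Matrix.SpecialLinearGroup.coeMonoidHom_injective
  let φ := blockSL (F := F) (eLast m)
  have hφ : ∀ X, ρ (φ X) = blockHom (eLast m) X.1 := fun _ => rfl
  have ht' : ρ t = blockHom (eLast m) (-1) := by rw [blockHom_eLast]; exact ht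
  have hperf : commutator (Matrix.SpecialLinearGroup (Fin m) F) = ⊤ :=
    CfsgLib.Classical.sl_commutator_eq_top (by simp; omega)
  rw [layer_cent (eLast m) ρ hρ φ hφ t ht' hperf h2]
  refine standard_of_unique_inv (qs_range (eLast m) ρ hρ φ hφ hperf)
    (orderOf_t (eLast m) ρ hρ t ht' h2) ?_
    (fun a ha b hb => cent_range_comm (eLast m) ρ hρ φ hφ ha hb) ?_
    (cent_le_normalizer (eLast m) ρ hρ φ hφ t ht' h2)
  · intro x hx
    exact Subgroup.mem_centralizer_singleton_iff.1 (range_le_cent (eLast m) ρ hρ φ hφ t ht' hx)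
  · intro s hs hs2
    obtain ⟨a, d, had⟩ := cent_range (eLast m) ρ φ hφ hs
    have hsq : ρ s * ρ s = 1 := by
      rw [← map_mul, ← pow_two, ← hs2, pow_orderOf_eq_one, map_one]
    rw [had, rmul, Matrix.fromBlocks_multiply, ← map_one (blockHom (eLast m)), blockHom_apply] at hsq
    obtain ⟨h3, -, -, -⟩ := Matrix.fromBlocks_inj.1 ((Matrix.reindex _ _).injective hsq)
    simp only [Matrix.mul_zero, add_zero, ← map_mul] at h3
    have haa : a * a = 1 := by
      rw [← map_one (Matrix.scalar (Fin m))] at h3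
      exact Matrix.scalar_inj.1 h3
    have hdet : (ρ s).det = 1 := s.2
    rw [had, Matrix.det_reindex_self, Matrix.det_fromBlocks_zero₂₁] at hdet
    simp only [Matrix.scalar_apply, Matrix.det_diagonal, Finset.prod_const, Finset.card_univ,
      Fintype.card_fin, Fintype.card_unit, pow_one] at hdet
    obtain ⟨k, hk⟩ : Even m := by
      rcases hodd with ⟨k, hk⟩
      exact ⟨k, by omega⟩
    have hd : d = 1 := by
      rw [hk, pow_add, ← mul_pow, haa, one_pow, one_mul] at hdet
      exact hdet
    rcases mul_self_eq_one_iff.1 haa with h | h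
    · exfalso
      have : s = 1 := by
        apply hρ
        rw [had, h, hd, map_one, map_one, map_one, ← map_one (blockHom (eLast m)), blockHom_apply]
      rw [this, orderOf_one] at hs2
      omega
    · apply hρ
      rw [had, ht', h, hd, blockHom_apply, map_neg, map_one, map_one]

end Cfsg.Agent.S1348
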