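import Cfsg.Statements.S1358
import Cfsg.Agent.Lib.BG.S16_A
import Cfsg.Agent.Lib.SylTools.Rank

set_option autoImplicit false
open Cfsg

namespace Cfsg.Agent.S1358

open CfsgLib.BG CfsgLib.BG.S16A CfsgLib.PF


/-- Let G be a minimal simple group of odd order and M a maximal subgroup with standard factorisation M = K U M_σ. Then for every prime p, every Sylow p-subgroup of U is abelian and has no elementary abelian subgroup of order p ^ 3. -/
theorem result {G : Type*} [Group G] [Finite G] (hG : Cfsg.IsMinSimpleOddOrder G)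
    (M : Subgroup G) (hM : IsCoatom M) (K U : Subgroup G) (hKU : Cfsg.IsSigmaDecomposition M K U) :
    ∀ (p : ℕ), p.Prime → ∀ P : Sylow p U, IsMulCommutative (P : Subgroup U) ∧ Cfsg.PRankLE p 2 (P : Subgroup U) := by
  have h := (isSigmaDecomposition_iff hG hM).1 hKU
  intro p hp P
  have hP := isSylowOf_map hp P
  have hPM := (pHall_sub hP).trans (pHall_sub h.hallU)
  have hσ : IsPiSubgroup (sigma M)ᶜ ((P : Subgroup U).map U.subtype) :=
    pigroupS (pHall_sub hP) (sub_pigroup (pHall_pgroup h.hallU) fun q _ hq hs => hq (Or.inl hs))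
  have e := Subgroup.equivMapOfInjective (P : Subgroup U) U.subtype U.subtype_injective
  constructor
  · have := sigma'_nil_abelian hG hM hPM hσ (pgp_nil (pHall_pgroup hP))
    exact ⟨⟨fun a b => e.injective (by rw [map_mul, map_mul]; exact this.is_comm.comm _ _)⟩⟩
  · rw [CfsgLib.SylTools.pRankLE_congr e, ← S10.pRank_le_iff hp]
    by_cases h1 : (P : Subgroup U).map U.subtype = ⊥
    · rw [h1, S10.p_rank_p'group hp (pigroup1 _)]; omega
    · exact (S10.p_rankS hp hPM).trans
        (sigma'_rank_le2 hG hM hp (pgp_mem_pi (pHall_pgroup hP) h1 hσ))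

end Cfsg.Agent.S1358
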