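import Cfsg.Statements.S1360
import Cfsg.Agent.Lib.BG.S16_A

set_option autoImplicit false
open Cfsg

namespace Cfsg.Agent.S1360

open CfsgLib.BG CfsgLib.BG.S16A CfsgLib.PF


/-- Let G be a minimal simple group of odd order and M a maximal subgroup with standard factorisation M = K U M_σ. Then U contains a subgroup U₀ with the same exponent as U such that no non-identity element of U₀ centralizes a non-identity element of M_σ. -/
theorem result {G : Type*} [Group G] [Finite G] (hG : Cfsg.IsMinSimpleOddOrder G)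
    (M : Subgroup G) (hM : IsCoatom M) (K U : Subgroup G) (hKU : Cfsg.IsSigmaDecomposition M K U) :
    ∃ U₀ : Subgroup G, U₀ ≤ U ∧ Monoid.exponent U₀ = Monoid.exponent U ∧ ∀ u ∈ U₀, u ∈ Cfsg.sigmaHat M → u = 1 := by
  have h := (isSigmaDecomposition_iff hG hM).1 hKU
  obtain ⟨U₀, h1, h2, h3⟩ := kappa_structure_e hG hM h
  refine ⟨U₀, h1, h2, fun u hu ⟨_, y, hy, hy1, e⟩ => ?_⟩
  by_contra hu1
  have : y ∈ sigmaCore M ⊓ 𝒞[u] := ⟨hy, mem_cent1.2 e.symm⟩
  rw [h3 u hu hu1] at this
  exact hy1 this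

end Cfsg.Agent.S1360
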