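import Cfsg.Statements.S1376
import Cfsg.Agent.Lib.BG.S16_A

set_option autoImplicit false
open Cfsg

namespace Cfsg.Agent.S1376

open CfsgLib.BG CfsgLib.BG.S16A CfsgLib.PF


/-- Let G be a minimal simple group of odd order, M a maximal subgroup, x ≠ 1 in M_σ with C_G(x) not contained in M, and N a maximal subgroup containing C_G(x) with κ(N) nonempty. Then κ(M) is empty, M has a cyclic Frobenius complement (M is a Frobenius group), and M_F is not a TI-subset of G. -/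
theorem result {G : Type*} [Group G] [Finite G] (hG : Cfsg.IsMinSimpleOddOrder G)
    (M : Subgroup G) (hM : IsCoatom M) (x : G) (hx : x ∈ Cfsg.sigmaCore M) (hx1 : x ≠ 1) (hxM : ¬ Subgroup.centralizer ({x} : Set G) ≤ M)
    (N : Subgroup G) (hN : IsCoatom N) (hxN : Subgroup.centralizer ({x} : Set G) ≤ N) (hkN : (Cfsg.kappa N).Nonempty) :
    Cfsg.kappa M = ∅ ∧ (∃ E : Subgroup ↥M, Cfsg.IsFrobeniusComplement E ∧ IsCyclic E) ∧ ¬ Cfsg.IsTISubset (Cfsg.fittingHallOf M : Set G) := by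
  obtain ⟨h1, -⟩ := summaryD4 hG hM hx hx1 hxM
  obtain rfl := h1.eq hN hxN
  obtain ⟨h2, ⟨E, h3, h4⟩, h5⟩ := summaryD4P hG hM hx hx1 hxM ⟨hN, hkN⟩
  refine ⟨h2.2, ⟨E.subgroupOf M, frobeniusComplement_of_frob h3, ?_⟩, h5⟩
  exact (Subgroup.subgroupOfEquivOfLe (S16.sd_right h3.1)).isCyclic.2 h4

end Cfsg.Agent.S1376
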