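import Mathlib
import Cfsg.Statements.S1386

set_option autoImplicit false
open Cfsg Pointwise

namespace Cfsg.Agent.S1386

theorem card_sup_of_comm {G : Type*} [Group G] [Finite G] (A B : Subgroup G) (hAB : A ⊓ B = ⊥)
    (hc : ∀ a ∈ A, ∀ b ∈ B, a * b = b * a) : Nat.card ↥(A ⊔ B) = Nat.card A * Nat.card B := by
  have hn : A ≤ Subgroup.normalizer (B : Set G) := by
    intro a ha
    rw [Subgroup.mem_normalizer_iff]
    intro b
    constructor
    · intro hb
      rw [hc a ha b hb, mul_inv_cancel_right]; exact hb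
    · intro hb
      have := hc a ha _ hb
      have h2 : a * b * a⁻¹ = b := by
        have h3 : a * (a * b * a⁻¹) = a * b := by rw [this]; group
        exact mul_left_cancel h3
      rwa [h2] at hb
  have h1 : ((A ⊔ B : Subgroup G) : Set G) = (A : Set G) * (B : Set G) :=
    Subgroup.coe_mul_of_left_le_normalizer_right A B hn
  have hinj : Function.Injective (fun x : A × B => (x.1 : G) * x.2) := by
    rintro ⟨a, b⟩ ⟨a', b'⟩ h
    simp only at h
    have h2 : ((a' : G)⁻¹ * a : G) = b' * (b : G)⁻¹ := by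
      have : (a : G) = a' * b' * (b : G)⁻¹ := by rw [← h]; group
      rw [this]; group
    have h3 : ((a' : G)⁻¹ * a : G) ∈ A ⊓ B :=
      ⟨A.mul_mem (A.inv_mem a'.2) a.2, h2 ▸ B.mul_mem b'.2 (B.inv_mem b.2)⟩
    rw [hAB, Subgroup.mem_bot] at h3
    have h4 : (a : G) = a' := by
      have := h3; rw [inv_mul_eq_one] at this; exact this.symm
    have h5 : (b : G) = b' := by rw [h4] at h; exact mul_left_cancel h
    exact Prod.ext (Subtype.ext h4) (Subtype.ext h5)
  rw [← Nat.card_prod]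
  symm
  refine Nat.card_congr (Equiv.ofBijective (fun x : A × B => (⟨(x.1 : G) * x.2,
    Subgroup.mul_mem_sup x.1.2 x.2.2⟩ : ↥(A ⊔ B))) ⟨fun x y h => hinj (congrArg Subtype.val h), ?_⟩)
  rintro ⟨z, hz⟩
  have : z ∈ (A : Set G) * (B : Set G) := h1 ▸ hz
  obtain ⟨a, ha, b, hb, rfl⟩ := this
  exact ⟨⟨⟨a, ha⟩, ⟨b, hb⟩⟩, rfl⟩

theorem eq_of_card_eq_of_le_cyclic {G : Type*} [Group G] [Finite G] (W A B : Subgroup G)
    (hW : IsCyclic W) (hA : A ≤ W) (hB : B ≤ W) (h : Nat.card A = Nat.card B) : A = B := by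
  have key : ∀ C : Subgroup G, C ≤ W → ∀ x ∈ W, x ^ Nat.card C = 1 → x ∈ C := by
    intro C hC x hx hxC
    classical
    have := Fintype.ofFinite W
    have h1 : (Finset.univ.filter (fun a : W => a ^ Nat.card C = 1)).card ≤ Nat.card C :=
      IsCyclic.card_pow_eq_one_le Nat.card_pos
    have h2 : (Finset.univ.filter (fun a : W => (a : G) ∈ C)) ⊆
        (Finset.univ.filter (fun a : W => a ^ Nat.card C = 1)) := by
      intro a ha
      simp only [Finset.mem_filter, Finset.mem_univ, true_and] at ha ⊢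
      apply Subtype.ext
      have e : (a : G) ^ Nat.card C = 1 :=
        congrArg Subtype.val (pow_card_eq_one' (x := (⟨a, ha⟩ : C)))
      simpa using e
    have h3 : (Finset.univ.filter (fun a : W => (a : G) ∈ C)).card = Nat.card C := by
      rw [← Nat.card_congr (Subgroup.subgroupOfEquivOfLe hC).toEquiv, ← Fintype.card_subtype,
        Nat.card_eq_fintype_card]
      rfl
    have h4 := Finset.eq_of_subset_of_card_le h2 (h3 ▸ h1)
    have h5 : (⟨x, hx⟩ : W) ∈ (Finset.univ.filter (fun a : W => a ^ Nat.card C = 1)) := by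
      simp only [Finset.mem_filter, Finset.mem_univ, true_and]
      exact Subtype.ext (by simpa using hxC)
    rw [← h4] at h5
    simpa using h5
  apply le_antisymm
  · intro a ha
    apply key B hB a (hA ha)
    rw [← h]
    exact congrArg Subtype.val (pow_card_eq_one' (x := (⟨a, ha⟩ : A)))
  · intro a ha
    apply key A hA a (hB ha)
    rw [h]
    exact congrArg Subtype.val (pow_card_eq_one' (x := (⟨a, ha⟩ : B)))

/-- Let G be a finite group, W₁, W₂ subgroups forming a self-normalizing cyclic pair, S a subgroup with W₂ ≤ S and W₁ a complement to S' in S, and (W₁, U, W₂') type-P data for S. Then W₂' = W₂ (that is, C_{S'}(W₁) = W₂). -/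
theorem result {G : Type*} [Group G] [Finite G] (W₁ W₂ S U W₂' : Subgroup G) (hW : Cfsg.IsSelfNormalizingCyclic W₁ W₂)
    (hSW : Cfsg.IsComplIn ⁅S, S⁆ W₁ S) (hW₂S : W₂ ≤ S) (hP : Cfsg.IsTypePWith S W₁ U W₂') :
    W₂' = W₂ := by
  obtain ⟨h1, h2, h3, h4, h5, h6⟩ := hW
  obtain ⟨-, h2', h3', h4', h5', h6'⟩ := hP.selfNormalizing
  obtain ⟨x, hx, hx1⟩ := (Subgroup.bot_or_exists_ne_one W₁).resolve_left h1
  obtain ⟨y, hy, hy1⟩ := (Subgroup.bot_or_exists_ne_one W₂).resolve_left h2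
  have hW1c : ∀ a ∈ W₁, ∀ b ∈ W₁, a * b = b * a := by
    intro a ha b hb
    have := hP.W₁_cyclic
    exact setLike_mul_comm ha hb
  -- W ≤ W'
  have hle : W₁ ⊔ W₂ ≤ W₁ ⊔ W₂' := by
    refine sup_le le_sup_left fun s hs => ?_
    obtain ⟨a, ha, b, hb, rfl⟩ := hSW.2.2.2 s (hW₂S hs)
    have ha' : a ∈ W₂' := by
      rw [← hP.W₂_centralizer x hx hx1]
      refine Subgroup.mem_inf.2 ⟨ha, ?_⟩
      rw [Subgroup.mem_centralizer_singleton_iff]
      have e1 := h4 x hx _ hs
      have e2 := hW1c x hx b hb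
      have : a * x * b = x * a * b := by
        rw [mul_assoc, e2, ← mul_assoc, ← e1, mul_assoc]
      exact mul_right_cancel this
    rw [sup_comm]
    exact Subgroup.mul_mem_sup ha' hb
  have hz : x * y ∈ (↑(W₁ ⊔ W₂) : Set G) \ (↑W₁ ∪ ↑W₂) := by
    refine ⟨Subgroup.mul_mem_sup hx hy, ?_⟩
    rintro (h | h)
    · have : y ∈ W₁ ⊓ W₂ := ⟨by simpa using W₁.mul_mem (W₁.inv_mem hx) h, hy⟩
      rw [h3] at this; exact hy1 this
    · have : x ∈ W₁ ⊓ W₂ := ⟨hx, by simpa using W₂.mul_mem h (W₂.inv_mem hy)⟩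
      rw [h3] at this; exact hx1 this
  have hN := h6 {x * y} (Set.singleton_subset_iff.2 hz) (Set.singleton_nonempty _)
  have hge : W₁ ⊔ W₂' ≤ W₁ ⊔ W₂ := by
    intro w hw
    rw [← hN]
    apply Subgroup.centralizer_le_normalizer
    rw [Subgroup.mem_centralizer_singleton_iff]
    exact setLike_mul_comm hw (hle hz.1)
  have heq : W₁ ⊔ W₂' = W₁ ⊔ W₂ := le_antisymm hge hle
  have c1 := card_sup_of_comm W₁ W₂ h3 h4
  have c2 := card_sup_of_comm W₁ W₂' h3' h4'
  rw [heq, c1] at c2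
  have c3 : Nat.card W₂ = Nat.card W₂' := Nat.eq_of_mul_eq_mul_left Nat.card_pos c2
  exact eq_of_card_eq_of_le_cyclic (W₁ ⊔ W₂) _ _ h5 (heq ▸ le_sup_right) le_sup_right c3.symm

end Cfsg.Agent.S1386
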