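import Mathlib
import Cfsg.Statements.S1396
import Cfsg.Agent.Lib.BG.S7_W
import Cfsg.Agent.Lib.BG.S7_6

set_option autoImplicit false
open Cfsg

namespace Cfsg.Agent.S1396

/-- Let G be a minimal simple group of odd order, p a prime dividing the order of G and A an abelian p-subgroup. Suppose either (1) A consists exactly of the elements x of C_G(A) with x^p = 1, and every proper subgroup of G has p-length at most one, or (2) A is normal and self-centralizing in some Sylow p-subgroup of G and has rank at least 2. Then A satisfies the transitivity hypothesis. -/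
theorem result {G : Type*} [Group G] [Finite G] (hG : Cfsg.IsMinSimpleOddOrder G)
    (p : ℕ) [Fact p.Prime] (hp : p ∣ Nat.card G) (A : Subgroup G) (hAp : IsPGroup p A) (hAc : IsMulCommutative A)
    (h : (∀ x ∈ Subgroup.centralizer (A : Set G), x ^ p = 1 ↔ x ∈ A) ∧ (∀ H : Subgroup G, H ≠ ⊤ → Cfsg.PLengthLE p 1 H) ∨
      ∃ P : Sylow p G, Cfsg.IsSCN (P : Subgroup G) A ∧ ¬ Cfsg.PRankLE p 1 A) :
    Cfsg.TransitivityHypothesis A := by
  open CfsgLib.BG in
  have hpp : p.Prime := Fact.out
  rcases h with ⟨h1, h2⟩ | ⟨P, h1, h2⟩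
  · have hA1 : A ≠ ⊥ := by
      rintro rfl
      obtain ⟨x, hx⟩ := exists_prime_orderOf_dvd_card' p hp
      have h3 : x ∈ (⊥ : Subgroup G) :=
        (h1 x (by rw [CfsgLib.BG.cent_bot]; trivial)).1 (hx ▸ pow_orderOf_eq_one x)
      rw [Subgroup.mem_bot.1 h3, orderOf_one] at hx
      exact hpp.one_lt.ne hx
    refine CfsgLib.BG.transHyp_of_normedConstrained
      (CfsgLib.BG.plength_1_normed_constrained hG hpp hA1 ⟨le_top, ⟨hAc, fun a ha =>
        (h1 a (CfsgLib.BG.abelian_cents hAc ha)).2 ha⟩, fun B _ hB hAB => le_antisymm (fun b hb =>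
        (h1 b (CfsgLib.BG.sub_abelian_cent hB.1 hAB hb)).1 (hB.2 b hb)) hAB⟩ h2)
  · exact CfsgLib.BG.transHyp_of_normedConstrained (CfsgLib.BG.SCN_normed_constrained hG hpp
      (CfsgLib.BG.isSylowOf_top hpp P) h1 (CfsgLib.BG.s7_le_rank_of_not_pRankLE hpp h2))

end Cfsg.Agent.S1396
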