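import Cfsg.Statements.S1397
import Cfsg.Agent.Lib.BG.Sec8

set_option autoImplicit false
open Cfsg CfsgLib.BG

namespace Cfsg.Agent.S1397

/-- Let G be a minimal simple group of odd order, M a maximal subgroup, p a prime and A₀ an elementary abelian p-subgroup of F(M) of order at least p ^ 3 that is maximal among elementary abelian p-subgroups of F(M). (a) If F(M) is not a p-group, then F(M) ∩ C_G(A₀) lies in exactly one maximal subgroup of G. (b) If F(M) is a p-group and P is a Sylow p-subgroup of M, then p does not divide the index of P in G, and every normal self-centralizing subgroup A of P containing an elementary abelian subgroup of order p ^ 3 is contained in F(M) and lies in exactly one maximal subgroup of G. -/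
theorem result {G : Type*} [Group G] [Finite G] (hG : Cfsg.IsMinSimpleOddOrder G)
    (M : Subgroup G) (hM : IsCoatom M) (p : ℕ) [Fact p.Prime] (A₀ : Subgroup G)
    (hA₀ : A₀ ≤ Cfsg.fittingOf M) (hA₀e : Cfsg.IsElementaryAbelian p A₀) (hA₀3 : p ^ 3 ≤ Nat.card A₀)
    (hA₀max : ∀ B : Subgroup G, B ≤ Cfsg.fittingOf M → Cfsg.IsElementaryAbelian p B → A₀ ≤ B → B = A₀) :
    (¬ IsPGroup p ↥(Cfsg.fittingOf M) → Cfsg.InUniqueMaximal (Cfsg.fittingOf M ⊓ Subgroup.centralizer (A₀ : Set G))) ∧
      (IsPGroup p ↥(Cfsg.fittingOf M) → ∀ P : Sylow p M,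
        ¬ p ∣ ((P : Subgroup M).map M.subtype).index ∧
        ∀ A : Subgroup G, Cfsg.IsSCN ((P : Subgroup M).map M.subtype) A → ¬ Cfsg.PRankLE p 2 ↥A →
          A ≤ Cfsg.fittingOf M ∧ Cfsg.InUniqueMaximal A) := by
  have hp : p.Prime := Fact.out
  refine ⟨fun hF => non_pcore_Fitting_Uniqueness hG hp hM
    (fun h => hF ((pigroup_singleton hp).1 h)) ⟨hA₀, hA₀e, hA₀max⟩ ?_, fun hF P => ?_⟩
  · rwa [p_rank_abelem hp hA₀e, Nat.pow_le_pow_iff_right hp.one_lt] at hA₀3
  · have hF' := (pigroup_singleton hp).2 hF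
    have hP := isSylowOf_map hp P
    refine ⟨?_, fun A hA hA3 => (SCN_Fitting_Uniqueness hG hp hM hF' hP hA ?_).2⟩
    · rw [← Subgroup.relIndex_top_right]
      exact Sylow_index hp (pcore_Fitting_Sylow_G hG hp hM hF' hP).1
    · rw [← pRank_le_iff hp] at hA3
      exact (not_le.1 hA3).trans_le (p_rank_le_rank hp A)

end Cfsg.Agent.S1397
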