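import Cfsg.Statements.S1402
import Cfsg.Agent.Lib.BG.Sec9

set_option autoImplicit false
open Cfsg CfsgLib.BG

namespace Cfsg.Agent.S1402

/-- Let G be a minimal simple group of odd order, p a prime, P a Sylow p-subgroup of G and A a normal subgroup of P with C_P(A) = A containing an elementary abelian subgroup of order p ^ 3. Then A lies in exactly one maximal subgroup of G. -/
theorem result {G : Type*} [Group G] [Finite G] (hG : Cfsg.IsMinSimpleOddOrder G)
    (p : ℕ) [Fact p.Prime] (P : Sylow p G) (A : Subgroup G) (hA : Cfsg.IsSCN (P : Subgroup G) A) (hA3 : ¬ Cfsg.PRankLE p 2 ↥A) :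
    Cfsg.InUniqueMaximal A := by
  have hp : p.Prime := Fact.out
  rw [← pRank_le_iff hp] at hA3
  exact SCN_3_Uniqueness hG hp (isSylowOf_top hp P) hA
    ((not_le.1 hA3).trans_le (p_rank_le_rank hp A))

end Cfsg.Agent.S1402
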