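import Cfsg.Statements.S1405
import Cfsg.Agent.Lib.BG.Sec10a
import Cfsg.Agent.Lib.BG.AmbRank

set_option autoImplicit false
open Cfsg CfsgLib.BG

namespace Cfsg.Agent.S1405

/-- Let G be a minimal simple group of odd order and M a maximal subgroup, α(M) the set of primes p with M of p-rank at least 3, and M_α = O_{α(M)}(M). Then M_α is a Hall α(M)-subgroup of M and of G, M_α ≤ M_σ, the quotient M/M_α has no elementary abelian subgroup of order p ^ 3 for any prime p, and the image of M' in M/M_α is nilpotent. -/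
theorem result {G : Type*} [Group G] [Finite G] (hG : Cfsg.IsMinSimpleOddOrder G)
    (M : Subgroup G) (hM : IsCoatom M) :
    Cfsg.IsPiHallOf (Cfsg.alpha M) (Cfsg.alphaCore M) M ∧ Cfsg.IsPiHall (Cfsg.alpha M) (Cfsg.alphaCore M) ∧
      Cfsg.alphaCore M ≤ Cfsg.sigmaCore M ∧ Cfsg.RankLE 2 (↥M ⧸ Cfsg.piCore (Cfsg.alpha M) ↥M) ∧
      Group.IsNilpotent ↥((commutator ↥M).map (QuotientGroup.mk' (Cfsg.piCore (Cfsg.alpha M) ↥M))) := by
  have e : (↥M ⧸ piCore (alpha M) ↥M) ≃* ↥(M ⧸⧸ alphaCore M) := quotientEquivQuoMap (piCore (alpha M) M)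
  refine ⟨Malpha_Hall hG hM, pHall_top.1 (Malpha_Hall_G hG hM), Malpha_sub_Msigma hG hM, ?_, ?_⟩
  · intro p hp A hA hA'
    have h := rank_le_iff.1 (Malpha_quo_rank2 hG hM) p hp (A.map e.toMonoidHom) inferInstance ?_
    · rwa [Subgroup.card_map_of_injective (f := e.toMonoidHom) e.injective] at h
    · rintro _ ⟨a, ha, rfl⟩
      rw [← map_pow, hA' a ha, map_one]
  · have hn : M ≤ 𝒩(alphaCore M) := (normalIn_map_subtype (piCore (alpha M) M)).norm
    have h := Malpha_quo_nil hG hM
    have h1 : ⁅M, M⁆ ⧸⧸ alphaCore M = ⁅M ⧸⧸ alphaCore M, M ⧸⧸ alphaCore M⁆ := mim_commutator _ hn hn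
    rw [h1, ← Subgroup.map_subtype_commutator] at h
    have h2 : Group.IsNilpotent (commutator ↥(M ⧸⧸ alphaCore M)) :=
      Group.nilpotent_of_mulEquiv (Subgroup.equivMapOfInjective _ _ (Subgroup.subtype_injective _)).symm
    have h3 : (commutator ↥M).map (QuotientGroup.mk' (piCore (alpha M) ↥M)) = commutator _ := by
      rw [map_commutator_eq, MonoidHom.range_eq_top.2 (QuotientGroup.mk'_surjective _)]; rfl
    rw [h3]
    have h4 : (commutator (↥M ⧸ piCore (alpha M) ↥M)).map e.toMonoidHom = commutator _ := by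
      rw [map_commutator_eq, MonoidHom.range_eq_top.2 e.surjective]; rfl
    rw [← h4] at h2
    exact Group.nilpotent_of_mulEquiv (Subgroup.equivMapOfInjective _ e.toMonoidHom e.injective).symm

end Cfsg.Agent.S1405
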