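import Cfsg.Statements.S1414
import Cfsg.Agent.Lib.BG.Sec10a
import Cfsg.Agent.Lib.BG.AmbCore
import Cfsg.Agent.Lib.BG.AmbSol

set_option autoImplicit false
open Cfsg CfsgLib.BG

namespace Cfsg.Agent.S1414

/-- Let G be a minimal simple group of odd order, M a maximal subgroup, β(M) the set of ideal primes in α(M), and M_β = O_{β(M)}(M). Then M_β is a Hall β(M)-subgroup of M and of G; M' and M_σ each have a nilpotent Hall β(M)'-subgroup; and for each prime p dividing the order of M with p ∉ β(M), both M' and M_σ have normal p-complements and every prime dividing the index of O_{p'}(M) in M is at most p. -/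
theorem result {G : Type*} [Group G] [Finite G] (hG : Cfsg.IsMinSimpleOddOrder G)
    (M : Subgroup G) (hM : IsCoatom M) :
    Cfsg.IsPiHallOf (Cfsg.beta M) (Cfsg.piCoreOf (Cfsg.beta M) M) M ∧ Cfsg.IsPiHall (Cfsg.beta M) (Cfsg.piCoreOf (Cfsg.beta M) M) ∧
      (∃ H : Subgroup G, Cfsg.IsPiHallOf {q | q.Prime ∧ q ∉ Cfsg.beta M} H ⁅M, M⁆ ∧ Group.IsNilpotent H) ∧
      (∃ H : Subgroup G, Cfsg.IsPiHallOf {q | q.Prime ∧ q ∉ Cfsg.beta M} H (Cfsg.sigmaCore M) ∧ Group.IsNilpotent H) ∧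
      ∀ p : ℕ, p.Prime → p ∣ Nat.card M → p ∉ Cfsg.beta M →
        Cfsg.HasNormalPComplement p ↥⁅M, M⁆ ∧ Cfsg.HasNormalPComplement p ↥(Cfsg.sigmaCore M) ∧
        ∀ q : ℕ, q.Prime → q ∣ (Cfsg.pPrimeCore p ↥M).index → q ≤ p := by
  have key : ∀ L : Subgroup G, L ≤ ⁅M, M⁆ → ∃ H : Subgroup G,
      IsPiHallOf {q | q.Prime ∧ q ∉ beta M} H L ∧ Group.IsNilpotent H := by
    intro L hL
    obtain ⟨H, hH⟩ := Hall_exists {q | q.Prime ∧ q ∉ beta M}
      (sub_mmax_sol hG hM (hL.trans (der_sub M)))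
    exact ⟨H, hH, beta'_der1_nil hG hM (fun p hp hd => (hH.2.1 p hp hd).2) (hH.1.trans hL)⟩
  refine ⟨Mbeta_Hall hG hM, pHall_top.1 (Mbeta_Hall_G hG hM), key _ le_rfl,
    key _ (Msigma_der1 hG hM), fun p hp _ hβ => ?_⟩
  obtain ⟨h1, h2, h3⟩ := beta_max_pdiv hG hp hM hβ
  exact ⟨(hasNormalPCompl_iff hp).1 h1, (hasNormalPCompl_iff hp).1 h2,
    fun q hq hd => h3 q hq (by rwa [oppOf_relIndex hp])⟩

end Cfsg.Agent.S1414
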