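import Cfsg.Statements.S1415
import Cfsg.Agent.Lib.BG.Sec12a

set_option autoImplicit false
open Cfsg CfsgLib.BG

namespace Cfsg.Agent.S1415

/-- Let G be a minimal simple group of odd order, M a maximal subgroup and E a complement to M_σ in M. Then the derived subgroup E' is nilpotent; every Hall τ₁(M)-subgroup of E is cyclic; and every Hall τ₃(M)-subgroup E₃ of E is cyclic, contained in E' and normal in E. -/
theorem result {G : Type*} [Group G] [Finite G] (hG : Cfsg.IsMinSimpleOddOrder G)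
    (M : Subgroup G) (hM : IsCoatom M) (E : Subgroup G) (hE : Cfsg.IsComplIn E (Cfsg.sigmaCore M) M) :
    Group.IsNilpotent ↥⁅E, E⁆ ∧
      (∀ E₁ : Subgroup G, Cfsg.IsPiHallOf (Cfsg.tau1 M) E₁ E → IsCyclic E₁) ∧
      ∀ E₃ : Subgroup G, Cfsg.IsPiHallOf (Cfsg.tau3 M) E₃ E → IsCyclic E₃ ∧ E₃ ≤ ⁅E, E⁆ ∧ E ≤ Subgroup.normalizer (E₃ : Set G) := by
  have hE' := (sigma_compl_iff hG hM).1 hE
  refine ⟨der1_sigma_compl_nil hG hM hE', fun E₁ h => tau1_compl_cyclic hG hM hE' h, fun E₃ h => ?_⟩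
  obtain ⟨h1, h2, h3, -⟩ := tau3_compl_context hG hM hE' h
  exact ⟨h3, h1, h2.2⟩

end Cfsg.Agent.S1415
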