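import Cfsg.Statements.S1430
import Mathlib
import Cfsg.Agent.Lib.BG.Sec14a

set_option autoImplicit false
open Cfsg

namespace Cfsg.Agent.S1430

/-- Let G be a minimal simple group of odd order, M a maximal subgroup, K ≠ 1 a Hall κ(M)-subgroup of M and K* = M_σ ∩ C_G(K). Then M_σ ∩ C_G(k) = K* for every non-identity k ∈ K; there is an abelian subgroup U of M, a Hall subgroup of M for the primes outside κ(M) ∪ σ(M), normalized by K with U ∩ C_G(k) = 1 for all non-identity k ∈ K; and for every subgroup X ≤ K of prime order, M ∩ N_G(X) = M ∩ N_G(K) = K ⊔ K*, and X ≤ M*_σ for every maximal subgroup M* containing N_G(X). -/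
theorem result {G : Type*} [Group G] [Finite G] (hG : Cfsg.IsMinSimpleOddOrder G)
    (M : Subgroup G) (hM : IsCoatom M) (K : Subgroup G) (hK : Cfsg.IsPiHallOf (Cfsg.kappa M) K M) (hK1 : K ≠ ⊥) :
    (∀ k ∈ K, k ≠ 1 → Cfsg.sigmaCore M ⊓ Subgroup.centralizer ({k} : Set G) = (Cfsg.sigmaCore M ⊓ Subgroup.centralizer (K : Set G))) ∧
      (∃ U : Subgroup G, IsMulCommutative U ∧ Cfsg.IsPiHallOf {q | q.Prime ∧ q ∉ Cfsg.kappa M ∧ q ∉ Cfsg.sigma M} U M ∧
        K ≤ Subgroup.normalizer (U : Set G) ∧ ∀ k ∈ K, k ≠ 1 → U ⊓ Subgroup.centralizer ({k} : Set G) = ⊥) ∧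
      ∀ X : Subgroup G, X ≤ K → (Nat.card X).Prime →
        M ⊓ Subgroup.normalizer (X : Set G) = K ⊔ (Cfsg.sigmaCore M ⊓ Subgroup.centralizer (K : Set G)) ∧ M ⊓ Subgroup.normalizer (K : Set G) = K ⊔ (Cfsg.sigmaCore M ⊓ Subgroup.centralizer (K : Set G)) ∧
        ∀ Mstar : Subgroup G, IsCoatom Mstar → Subgroup.normalizer (X : Set G) ≤ Mstar → X ≤ Cfsg.sigmaCore Mstar := by
  have hP := (CfsgLib.BG.ntrivg_kappa hM hK).mp hK1
  obtain ⟨h1, U, hU, hab, hreg, hn⟩ := CfsgLib.BG.Ptype_structure_a hG hP hK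
  obtain ⟨h2, h3⟩ := CfsgLib.BG.Ptype_structure_b hG hP hK
  refine ⟨h1, ⟨U, hab, (CfsgLib.BG.pHall_congr fun p hp => ?_).mp hU, hn, hreg⟩, fun X hX hp =>
    ⟨(h3 X hX hp).1.trans h2.1.symm, h2.1.symm, (h3 X hX hp).2⟩⟩
  simp only [Set.mem_compl_iff, Set.mem_union, Set.mem_setOf_eq, hp, true_and]
  tauto

end Cfsg.Agent.S1430
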