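import Cfsg.Statements.S1433
import Mathlib
import Cfsg.Agent.Lib.BG.Sec14a

set_option autoImplicit false
open Cfsg

namespace Cfsg.Agent.S1433

open CfsgLib.BG in
theorem supportR_le {G : Type*} [Group G] [Finite G] (hG : Cfsg.IsMinSimpleOddOrder G)
    {M : Subgroup G} (hM : IsCoatom M) {x : G} (hx : x ∈ Cfsg.sigmaCore M) (hx1 : x ≠ 1) :
    Cfsg.supportR M x ≤ sigR x := by
  unfold Cfsg.supportR
  split_ifs with h
  · have h1 := (sigma_mmax_gt1_iff hG hx1 ⟨hM, hx⟩).mpr h.1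
    have hU := (FT_signalizer_context hG hx1 h1).1
    obtain ⟨h2, h3⟩ := Classical.choose_spec h.2.exists
    rw [hU.eq h2 h3]
    refine inf_le_inf_right _ (K14.k_sub_Msigma hG hU.1 (Fcore_sub _) fun p hp hd => ?_)
    have h4 := Fcore_pcore_Sylow hp hd
    exact K14.k_sigma_iff.mpr ⟨hp, hd.trans (cardSg (Fcore_sub _)), _, h4,
      (mmax_normal hG hU.1 (pcore_normal _ _) (Sylow_ne_bot hp h4 (hd.trans (cardSg (Fcore_sub _))))).le⟩
  · exact bot_le

/-- Let G be a minimal simple group of odd order, M and N maximal subgroups, x ≠ 1 in M_σ and y ≠ 1 in N_σ with x ≠ y, where R(x) = 1 if C_G(x) ≤ M and R(x) = C_{L_F}(x) for the unique maximal L containing C_G(x) otherwise (and likewise R(y) relative to N). Then no element lies in both x R(x) and y R(y). -/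
theorem result {G : Type*} [Group G] [Finite G] (hG : Cfsg.IsMinSimpleOddOrder G)
    (M N : Subgroup G) (hM : IsCoatom M) (hN : IsCoatom N) (x y : G) (hx : x ∈ Cfsg.sigmaCore M) (hy : y ∈ Cfsg.sigmaCore N)
    (hx1 : x ≠ 1) (hy1 : y ≠ 1) (hxy : x ≠ y) :
    ∀ r ∈ Cfsg.supportR M x, ∀ s ∈ Cfsg.supportR N y, x * r ≠ y * s := by
  intro r hr s hs h
  have h1 := CfsgLib.BG.sigma_cover_disjoint hG (CfsgLib.BG.Msigma_ell1 hM hx hx1)
    (CfsgLib.BG.Msigma_ell1 hN hy hy1) hxy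
  refine Set.disjoint_left.mp h1 (show x * r ∈ _ from ?_) ?_
  · rw [CfsgLib.BG.mem_sigmaCover, inv_mul_cancel_left]; exact supportR_le hG hM hx hx1 hr
  · rw [h, CfsgLib.BG.mem_sigmaCover, inv_mul_cancel_left]; exact supportR_le hG hN hy hy1 hs

end Cfsg.Agent.S1433
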