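import Cfsg.Statements.S1434
import Cfsg.Agent.Lib.BG.Sec14b

set_option autoImplicit false
open Cfsg CfsgLib.BG

namespace Cfsg.Agent.S1434

/-- Let G be a minimal simple group of odd order, M a maximal subgroup with standard factorisation M = K U M_σ, K ≠ 1, K* = M_σ ∩ C_G(K), and M* a maximal subgroup with K = M*_σ ∩ C_G(K*) and K* a Hall κ(M*)-subgroup of M*. Then κ(M) = τ₁(M); K* is a Hall σ(M)-subgroup of M*; for non-identity x ∈ K and y ∈ K*, C_M(x), C_{M*}(y) and C_G(xy) all equal K K*; the set Ẑ of elements of K K* outside K ∪ K* meets no gMg⁻¹ with g ∉ M; and with k = #K, k* = #K*, the union of the conjugates of Ẑ has k·k*·(number of elements) = (k k* − k − k* + 1)·#G and more than #G / 2 elements. -/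
theorem result {G : Type*} [Group G] [Finite G] (hG : Cfsg.IsMinSimpleOddOrder G)
    (M : Subgroup G) (hM : IsCoatom M) (K U : Subgroup G) (hKU : Cfsg.IsSigmaDecomposition M K U) (hK1 : K ≠ ⊥) (Mstar : Subgroup G) (hMstar : IsCoatom Mstar)
    (hKst : K = Cfsg.sigmaCore Mstar ⊓ Subgroup.centralizer ((Cfsg.sigmaCore M ⊓ Subgroup.centralizer (K : Set G)) : Set G))
    (hKstH : Cfsg.IsPiHallOf (Cfsg.kappa Mstar) (Cfsg.sigmaCore M ⊓ Subgroup.centralizer (K : Set G)) Mstar) :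
    Cfsg.kappa M = Cfsg.tau1 M ∧ Cfsg.IsPiHallOf (Cfsg.sigma M) (Cfsg.sigmaCore M ⊓ Subgroup.centralizer (K : Set G)) Mstar ∧
      (∀ x ∈ K, x ≠ 1 → ∀ y ∈ (Cfsg.sigmaCore M ⊓ Subgroup.centralizer (K : Set G)), y ≠ 1 →
        M ⊓ Subgroup.centralizer ({x} : Set G) = K ⊔ (Cfsg.sigmaCore M ⊓ Subgroup.centralizer (K : Set G)) ∧ Mstar ⊓ Subgroup.centralizer ({y} : Set G) = K ⊔ (Cfsg.sigmaCore M ⊓ Subgroup.centralizer (K : Set G)) ∧
        Subgroup.centralizer ({x * y} : Set G) = K ⊔ (Cfsg.sigmaCore M ⊓ Subgroup.centralizer (K : Set G))) ∧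
      (∀ g : G, g ∉ M → ∀ z ∈ ((↑(K ⊔ (Cfsg.sigmaCore M ⊓ Subgroup.centralizer (K : Set G))) : Set G) \ ((K : Set G) ∪ ↑(Cfsg.sigmaCore M ⊓ Subgroup.centralizer (K : Set G)))), z ∉ M.map (MulAut.conj g).toMonoidHom) ∧
      Nat.card K * Nat.card ↥(Cfsg.sigmaCore M ⊓ Subgroup.centralizer (K : Set G)) * Set.ncard {a : G | ∃ g : G, ∃ z ∈ ((↑(K ⊔ (Cfsg.sigmaCore M ⊓ Subgroup.centralizer (K : Set G))) : Set G) \ ((K : Set G) ∪ ↑(Cfsg.sigmaCore M ⊓ Subgroup.centralizer (K : Set G)))), a = g * z * g⁻¹} =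
        (Nat.card K * Nat.card ↥(Cfsg.sigmaCore M ⊓ Subgroup.centralizer (K : Set G)) - Nat.card K - Nat.card ↥(Cfsg.sigmaCore M ⊓ Subgroup.centralizer (K : Set G)) + 1) * Nat.card G ∧
      Nat.card G < 2 * Set.ncard {a : G | ∃ g : G, ∃ z ∈ ((↑(K ⊔ (Cfsg.sigmaCore M ⊓ Subgroup.centralizer (K : Set G))) : Set G) \ ((K : Set G) ∪ ↑(Cfsg.sigmaCore M ⊓ Subgroup.centralizer (K : Set G)))), a = g * z * g⁻¹} := by
  have h : PData M K _ := ⟨(ntrivg_kappa hM hKU.hall).1 hK1, hKU.hall, rfl⟩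
  obtain ⟨Ms, -, -, hu, ⟨-, hb⟩, ⟨-, hc⟩, ⟨-, -, hd1, hd2, hd3⟩, ⟨hti, he, hlt⟩, -⟩ :=
    Ptype_embedding hG h.typeP h.hall rfl
  have hs : PData Mstar _ K := ⟨(ntrivg_kappa hMstar hKstH).1 (h.Ks_ne_bot hG), hKstH, hKst⟩
  obtain ⟨X, sX, pX⟩ := exists_prime_order_subgroup hK1
  obtain rfl : Ms = Mstar := (hu X sX pX).unique (hs.uniq_cent hG sX pX)
  have e : ∀ A : Set G, {a : G | ∃ g : G, ∃ z ∈ A, a = g * z * g⁻¹} = CfsgLib.PF.conjSupp A ⊤ :=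
    fun A => Set.ext fun a => ⟨fun ⟨g, z, hz, e⟩ => ⟨z, hz, g, Subgroup.mem_top _, e⟩,
      fun ⟨z, hz, g, _, e⟩ => ⟨g, z, hz, e⟩⟩
  rw [e]
  refine ⟨hc, hb, fun x hx x1 y hy y1 => ⟨hd1 x hx x1, hd2 y hy y1, hd3 x hx x1 y hy y1⟩, he, ?_,
    hlt⟩
  have e1 := card_conjSupp_normedTI hti
  have e2 := h.ncard_zHat
  have h1 := cardG_gt1.2 hK1
  have h2 := cardG_gt1.2 (h.Ks_ne_bot hG)
  rw [zHat] at e1 e2
  rw [e1, ← Subgroup.card_mul_index (K ⊔ (sigmaCore M ⊓ Subgroup.centralizer (K : Set G))),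
    h.card_Z]
  generalize Nat.card K = k at *
  generalize Nat.card ↥(sigmaCore M ⊓ Subgroup.centralizer (K : Set G)) = s at *
  have h3 : k + s ≤ k * s := Nat.add_le_mul h1 h2
  rw [show k * s - k - s + 1 = k * s + 1 - (k + s) by omega, ← e2, Nat.add_sub_cancel]
  ring

end Cfsg.Agent.S1434
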