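import Cfsg.Statements.S1436
import Cfsg.Agent.Lib.BG.Sec14c

set_option autoImplicit false
open Cfsg CfsgLib.BG

namespace Cfsg.Agent.S1436

/-- Let G be a minimal simple group of odd order, M a maximal subgroup, x ≠ 1 in M_σ with C_G(x) ⊄ M, and N a maximal subgroup containing C_G(x). (a) If some prime of σ(N) divides the order of M, then κ(M) = ∅ and τ₂(M) = ∅. (b) If y ≠ 1 in M_σ has C_G(y) ⊄ M, N' is a maximal subgroup containing C_G(y), and gN'g⁻¹ = N for some g ∈ G, then mN'm⁻¹ = N for some m ∈ M. -/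
theorem result {G : Type*} [Group G] [Finite G] (hG : Cfsg.IsMinSimpleOddOrder G)
    (M : Subgroup G) (hM : IsCoatom M) (x : G) (hx : x ∈ Cfsg.sigmaCore M) (hx1 : x ≠ 1) (hxM : ¬ Subgroup.centralizer ({x} : Set G) ≤ M)
    (N : Subgroup G) (hN : IsCoatom N) (hxN : Subgroup.centralizer ({x} : Set G) ≤ N) :
    ((∃ p ∈ Cfsg.sigma N, p ∣ Nat.card M) → Cfsg.kappa M = ∅ ∧ Cfsg.tau2 M = ∅) ∧
      ∀ (y : G) (N' : Subgroup G) (g : G), y ∈ Cfsg.sigmaCore M → y ≠ 1 → ¬ Subgroup.centralizer ({y} : Set G) ≤ M → IsCoatom N' → Subgroup.centralizer ({y} : Set G) ≤ N' →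
        N'.map (MulAut.conj g).toMonoidHom = N → ∃ m ∈ M, N'.map (MulAut.conj m).toMonoidHom = N := by
  have hxs : M ∈ sigmaMmax x := ⟨hM, hx⟩
  have h1 := (sigma_mmax_gt1_iff hG hx1 hxs).2 hxM
  obtain rfl : N = sigN x := (FT_signalizer_context hG hx1 h1).1.eq hN hxN
  refine ⟨fun ⟨p, hp, hd⟩ => ?_, fun y N' g hy hy1 hyM hN' hyN hg => ?_⟩
  · obtain ⟨h2, h3, -⟩ := non_disjoint_signalizer_Frobenius hG hx1 h1 hxs
      (fun h => h p hp.1 hd hp)
    exact ⟨h2.2, h3⟩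
  · obtain rfl : N' = sigN y :=
      (FT_signalizer_context hG hy1 ((sigma_mmax_gt1_iff hG hy1 ⟨hM, hy⟩).2 hyM)).1.eq hN' hyN
    exact signalizer_base_trans hG hM hx hx1 hxM hy hy1 hyM ⟨g, hg.symm⟩

end Cfsg.Agent.S1436
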