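import Cfsg.Statements.S1437
import Cfsg.Agent.Lib.BG.Sec15a

set_option autoImplicit false
open Cfsg

namespace Cfsg.Agent.S1437

open CfsgLib.BG

/-- Let G be a minimal simple group of odd order and M a maximal subgroup with standard factorisation M = K U M_σ such that M_F ≠ M_σ; put K* = M_σ ∩ C_G(K), p = #K, q = #K*. Then U = 1 and M_σ = M'; p and q are prime, q divides #M_F and q ∈ β(M); M_σ has a Sylow q-subgroup Q normal in M and contained in M_F; every complement D of Q in M_σ is nilpotent, and Q₀ = Q ∩ C_G(D) is normal in M; Q₀ < Q with #Q = #Q₀ · q ^ p, every element of Q has its q-th power and all its commutators with Q in Q₀, and every subgroup strictly between Q₀ and Q fails to be normal in M. -/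
theorem result {G : Type*} [Group G] [Finite G] (hG : Cfsg.IsMinSimpleOddOrder G)
    (M : Subgroup G) (hM : IsCoatom M) (K U : Subgroup G) (hKU : Cfsg.IsSigmaDecomposition M K U) (hne : Cfsg.fittingHallOf M ≠ Cfsg.sigmaCore M) :
    U = ⊥ ∧ Cfsg.sigmaCore M = ⁅M, M⁆ ∧ (Nat.card K).Prime ∧ (Nat.card ↥(Cfsg.sigmaCore M ⊓ Subgroup.centralizer (K : Set G))).Prime ∧
      Nat.card ↥(Cfsg.sigmaCore M ⊓ Subgroup.centralizer (K : Set G)) ∣ Nat.card (Cfsg.fittingHallOf M) ∧ Nat.card ↥(Cfsg.sigmaCore M ⊓ Subgroup.centralizer (K : Set G)) ∈ Cfsg.beta M ∧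
      ∃ Q : Subgroup G, Q ≤ Cfsg.fittingHallOf M ∧ M ≤ Subgroup.normalizer (Q : Set G) ∧ IsPGroup (Nat.card ↥(Cfsg.sigmaCore M ⊓ Subgroup.centralizer (K : Set G))) Q ∧
        ¬ Nat.card ↥(Cfsg.sigmaCore M ⊓ Subgroup.centralizer (K : Set G)) ∣ Q.relIndex (Cfsg.sigmaCore M) ∧
        ∀ D : Subgroup G, Cfsg.IsComplIn Q D (Cfsg.sigmaCore M) →
          Group.IsNilpotent D ∧ M ≤ Subgroup.normalizer ((Q ⊓ Subgroup.centralizer (D : Set G) : Subgroup G) : Set G) ∧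
          Q ⊓ Subgroup.centralizer (D : Set G) < Q ∧
          Nat.card Q = Nat.card ↥(Q ⊓ Subgroup.centralizer (D : Set G)) * Nat.card ↥(Cfsg.sigmaCore M ⊓ Subgroup.centralizer (K : Set G)) ^ Nat.card K ∧
          (∀ a ∈ Q, ∀ b ∈ Q, a ^ Nat.card ↥(Cfsg.sigmaCore M ⊓ Subgroup.centralizer (K : Set G)) ∈ Q ⊓ Subgroup.centralizer (D : Set G) ∧
            a * b * a⁻¹ * b⁻¹ ∈ Q ⊓ Subgroup.centralizer (D : Set G)) ∧
          ∀ N : Subgroup G, Q ⊓ Subgroup.centralizer (D : Set G) < N → N < Q → ¬ M ≤ Subgroup.normalizer (N : Set G) := by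
  have hC := (isSigmaDecomposition_iff hG hM).1 hKU
  have hN := S15.Ms_normal M
  obtain ⟨D₀, hD₀⟩ := Hall_exists {Nat.card ↥(sigmaCore M ⊓ 𝒞(K))}ᶜ
    (solvableS hN.le (mmax_sol hG hM))
  obtain ⟨⟨a1, -, a3⟩, ⟨b1, b2, b3, b4⟩, ⟨c1, -, -⟩, -⟩ :=
    Fcore_structure hG hM hKU.hall hne rfl rfl rfl rfl hD₀ rfl
  have hQM := pcore_normal {Nat.card ↥(sigmaCore M ⊓ 𝒞(K))} M
  have hQF := normal_Sylow_sub_Fcore b2 c1 hQM.norm
  have hS := pHall_subl (hQF.trans (Fcore_sub_Msigma hG hM)) hN.le c1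
  refine ⟨(trivg_kappa_compl hG hM hC).2 a1, a3, b1, b2, b3, b4, _, hQF, hQM.norm,
    Sylow_isPGroup c1, Sylow_index b2 hS, fun D hD => ?_⟩
  have hD' : IsPiHallOf {Nat.card ↥(sigmaCore M ⊓ 𝒞(K))}ᶜ D (sigmaCore M) := by
    refine pHall_intro hD.2.1 ?_ ?_
    · have := pHall_index hS
      rwa [S15.compl_index hD] at this
    · rw [S15.compl_index' hD, compl_compl]; exact pHall_pgroup hS
  obtain ⟨-, -, ⟨-, c2, c3⟩, ⟨d1, d2, d3⟩, -⟩ :=
    Fcore_structure hG hM hKU.hall hne rfl rfl rfl rfl hD' rfl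
  have hQ0 := hQM.le.trans c3.norm
  have hch := chief_of_quo_minNormal c3 hQM.le inf_le_left d1
  obtain ⟨e1, e2⟩ := (quo_abelem_iff hQ0).1 d2
  refine ⟨c2, c3.norm, hch.2.2.1, ?_, fun a ha b hb => ⟨e2 a ha,
    e1 (Subgroup.commutator_mem_commutator ha hb)⟩, fun N h1 h2 h3 => ?_⟩
  · rw [← d3, mul_comm]
    exact (card_quo_mul_of_normal ⟨inf_le_left, hQ0⟩).symm
  · rcases hch.2.2.2 N ⟨h2.le.trans hQM.le, h3⟩ h1.le h2.le with h | h
    · exact h1.ne' h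
    · exact h2.ne h

end Cfsg.Agent.S1437
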