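import Cfsg.Statements.S1441
import Cfsg.Agent.Lib.BGI.Stable

set_option autoImplicit false
open Cfsg

namespace Cfsg.Agent.S1441

/-- Let G be a finite group, H a solvable subgroup and A a subgroup normalizing H. Suppose there is a chain H = H₀ ≥ H₁ ≥ ⋯ ≥ H_n = 1 of subgroups normal in H and normalized by A such that A acts trivially on each factor H_{i-1}/H_i (that is, [H_{i-1}, A] ≤ H_i). Then every prime dividing the index of C_A(H) in A divides the order of H. -/
theorem result {G : Type*} [Group G] [Finite G] (H A : Subgroup G) (hH : Group.IsSolvable H) (hA : (A ≤ Subgroup.normalizer (H : Set G)))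
    (n : ℕ) (c : Fin (n + 1) → Subgroup G) (hc0 : c 0 = H) (hcn : c (Fin.last n) = ⊥) (hanti : Antitone c)
    (hcN : ∀ i, H ≤ Subgroup.normalizer ((c i : Subgroup G) : Set G)) (hcA : ∀ i, A ≤ Subgroup.normalizer ((c i : Subgroup G) : Set G))
    (htriv : ∀ i : Fin n, ⁅c i.castSucc, A⁆ ≤ c i.succ) :
    ∀ p : ℕ, p.Prime → p ∣ (A ⊓ Subgroup.centralizer (H : Set G)).relIndex A → p ∣ Nat.card H := by
  intro p hp hd
  by_contra hnd
  have : Fact p.Prime := ⟨hp⟩
  refine CfsgLib.BGI.not_dvd_relIndex_of_pgroup_le (fun P hPA hP => le_inf hPA ?_) hd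
  have hle : ∀ i, c i ≤ H := fun i => hc0 ▸ hanti (Fin.zero_le i)
  refine CfsgLib.BGI.le_centralizer_of_stable_chain
    (CfsgLib.BGI.coprime_card_of_pgroup_of_not_dvd hP hnd) n
    (fun i => if h : i < n + 1 then c ⟨i, h⟩ else ⊥) ?_ ?_ ?_ ?_
  · simp only [Nat.zero_lt_succ, dif_pos]
    exact hc0.ge
  · simp only [Nat.lt_succ_self, dif_pos]
    exact hcn
  · intro i
    by_cases h : i < n + 1
    · simp only [h, dif_pos]; exact hle _
    · simp only [h, dif_neg, not_false_iff]; exact bot_le
  · intro i hi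
    have h1 : i < n + 1 := by omega
    have h2 : i + 1 < n + 1 := by omega
    simp only [h1, h2, dif_pos]
    exact (Subgroup.commutator_mono le_rfl hPA).trans (htriv ⟨i, hi⟩)

end Cfsg.Agent.S1441
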