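import Cfsg.Statements.S1449
import Cfsg.Agent.Lib.BG.Sec4b
import Cfsg.Agent.Lib.BG.Top

set_option autoImplicit false
open Cfsg

namespace Cfsg.Agent.S1449

/-- Let G be a finite group, p an odd prime, R a p-subgroup with no elementary abelian subgroup of order p ^ 3, and A a solvable subgroup of odd order normalizing R with A ∩ C_G(R) = 1. Then the derived subgroup [A, A] is a p-group. -/
theorem result {G : Type*} [Group G] [Finite G] (p : ℕ) [Fact p.Prime] (hp : p ≠ 2) (R A : Subgroup G) (hR : IsPGroup p R) (hr : Cfsg.PRankLE p 2 R)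
    (hA : (A ≤ Subgroup.normalizer (R : Set G))) (hAs : Group.IsSolvable A) (hAodd : Odd (Nat.card A)) (hfaith : A ⊓ Subgroup.centralizer (R : Set G) = ⊥) :
    IsPGroup p ↥⁅A, A⁆ := by
  open CfsgLib.BG in
  have hp' : p.Prime := Fact.out
  have hR' := (pigroup_singleton hp').2 hR
  have h1 := der1_Aut_rank2_pgroup hp' hR' (Top.odd_of_pgroup hp' hp hR')
    ((Top.rank_pgroup_le_iff hp' hR').2 hr) hA
    (hAodd.of_dvd_nat (Subgroup.relIndex_dvd_card _ _))
  have h2 : Subgroup.centralizer (R : Set G) ⊓ ⁅A, A⁆ = ⊥ :=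
    le_bot_iff.1 ((le_inf (inf_le_right.trans (der_sub A)) inf_le_left).trans hfaith.le)
  rw [← Subgroup.inf_relIndex_right, h2, Subgroup.relIndex_bot_left] at h1
  exact (pigroup_singleton hp').1 h1

end Cfsg.Agent.S1449
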