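import Cfsg.Statements.S1450
import Cfsg.Agent.Lib.BG.Sec4b
import Cfsg.Agent.Lib.BG.Top

set_option autoImplicit false
open Cfsg

namespace Cfsg.Agent.S1450

/-- Let G be a solvable group of odd order, p a prime dividing its order with G having no elementary abelian subgroup of order p ^ 3. Then every prime dividing the index of O_{p'}(G) is at most p; if p = 3 or p is the smallest prime divisor of #G then G has a normal p-complement; the derived subgroup G' has a normal p-complement; every subgroup of G' of order coprime to p lies in O_{p'}(G'); and G/O_{p',p}(G) is abelian of order coprime to p. -/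
theorem result {G : Type*} [Group G] [Finite G] [Group.IsSolvable G] (hodd : Odd (Nat.card G)) (p : ℕ) [Fact p.Prime] (hpG : p ∣ Nat.card G) (hr : Cfsg.PRankLE p 2 G) :
    (∀ q : ℕ, q.Prime → q ∣ (Cfsg.pPrimeCore p G).index → q ≤ p) ∧
      ((p = 3 ∨ ∀ q : ℕ, q.Prime → q ∣ Nat.card G → p ≤ q) → Cfsg.HasNormalPComplement p G) ∧
      Cfsg.HasNormalPComplement p ↥(commutator G) ∧
      (∀ L : Subgroup ↥(commutator G), (Nat.card L).Coprime p → L ≤ Cfsg.pPrimeCore p ↥(commutator G)) ∧
      commutator G ≤ Cfsg.pPrimePCore p G ∧ ((Cfsg.pPrimePCore p G).index).Coprime p := by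
  open CfsgLib.BG in
  have hp' : p.Prime := Fact.out
  have hs : Group.IsSolvable (⊤ : Subgroup G) := inferInstance
  have ho := Top.odd_top hodd
  have hr' := (pRank_top_le_iff hp').2 hr
  obtain ⟨h1, h2, h3⟩ := rank2_der1_complement hp' hs ho hr'
  rw [Top.opP_top] at h2 h3
  rw [Subgroup.relIndex_top_right] at h3
  refine ⟨fun q hq hd => rank2_max_pdiv hp' hq hs ho hr' ?_, fun h => ?_,
    (S1.hasNormalPCompl_iff hp' _).1 h1, fun L hL => ?_, h2,
    ((Nat.Prime.coprime_iff_not_dvd hp').2 h3).symm⟩
  · rwa [Top.oppOf_top hp', Subgroup.relIndex_top_right]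
  · refine (Top.hasNormalPCompl_top hp').1 (rank2_min_p_complement hp' hs ho hr' ?_)
    rwa [Subgroup.card_top]
  · have h4 := rank2_sub_p'core_der1 hp' hs ho hr' (A := L.map (commutator G).subtype)
      (Subgroup.map_subtype_le L)
      ((p'group_iff_coprime hp').2 (by rwa [Subgroup.card_subtype]))
    rw [S1.oppOf_eq hp'] at h4
    exact (Subgroup.map_le_map_iff_of_injective (Subgroup.subtype_injective _)).1 h4

end Cfsg.Agent.S1450
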