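import Cfsg.Statements.S1451
import Cfsg.Agent.Lib.BG.Sec4b
import Cfsg.Agent.Lib.BG.Top

set_option autoImplicit false
open Cfsg

namespace Cfsg.Agent.S1451

/-- Let G be a solvable group of odd order such that G, or its Fitting subgroup, has no elementary abelian subgroup of order q ^ 3 for any prime q. Then G' is nilpotent; for every Sylow subgroup S of G, every characteristic subgroup T of S with T ≤ [S, S] is normal in G; and for every prime p, G has a characteristic subgroup that is a Hall subgroup for the set of primes greater than p. -/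
theorem result {G : Type*} [Group G] [Finite G] [Group.IsSolvable G] (hodd : Odd (Nat.card G)) (hr : Cfsg.RankLE 2 G ∨ Cfsg.RankLE 2 (Cfsg.fittingSubgroup G)) :
    Group.IsNilpotent ↥(commutator G) ∧
      (∀ (q : ℕ) [Fact q.Prime] (S : Sylow q G) (T : Subgroup ↥(S : Subgroup G)), T.Characteristic → T.map (S : Subgroup G).subtype ≤ ⁅(S : Subgroup G), (S : Subgroup G)⁆ →
        (T.map (S : Subgroup G).subtype).Normal) ∧
      ∀ p : ℕ, ∃ N : Subgroup G, N.Characteristic ∧ Cfsg.IsPiHall {q | q.Prime ∧ p < q} N := by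
  open CfsgLib.BG in
  have hs : Group.IsSolvable (⊤ : Subgroup G) := inferInstance
  have ho := Top.odd_top hodd
  have hr' : rank (fittingOf (⊤ : Subgroup G)) ≤ 2 := by
    rcases hr with h | h
    · exact (rankS le_top).trans (rank_top_le_iff.2 h)
    · rw [Top.fittingOf_top]
      exact rank_le_iff.2 h
  refine ⟨nilpotentS (rank2_der1_sub_Fitting ho hs hr') (Fitting_nil _), fun q hq S T hT hle => ?_,
    fun p => ⟨piCoreOf {q | p + 1 ≤ q} ⊤, ?_, ?_⟩⟩
  · exact normalIn_top.1 (rank2_char_Sylow_normal hq.out ho hs hr' (isSylowOf_top hq.out S)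
      (charIn_map_subtype T) hle)
  · rw [Subgroup.characteristic_iff_le_comap]
    intro φ x hx
    exact (charIn_iff le_top).1 (pcore_charIn {q | p + 1 ≤ q} ⊤)
      (Subgroup.topEquiv.trans (φ.trans Subgroup.topEquiv.symm)) ⟨x, trivial⟩ hx
  · obtain ⟨h1, h2⟩ := pHall_top.1 (rank2_ge_pcore_Hall (p + 1) ho hs hr')
    exact ⟨fun q hq hd => ⟨hq, h1 q hq hd⟩, fun q hq hm => h2 q hq hm.2⟩

end Cfsg.Agent.S1451
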