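import Cfsg.Statements.S1452
import Cfsg.Agent.Lib.BG.Sec5
import Cfsg.Agent.Lib.BG.Top

set_option autoImplicit false
open Cfsg

namespace Cfsg.Agent.S1452

open CfsgLib.BG

/-- Let p be an odd prime and R a finite p-group containing an elementary abelian subgroup of order p ^ 3. If E is a normal elementary abelian subgroup of R of order p ^ 2, then E ≤ A for some normal subgroup A of R with C_R(A) = A that contains an elementary abelian subgroup of order p ^ 3. -/
theorem result {R : Type*} [Group R] [Finite R] (p : ℕ) [Fact p.Prime] (hp : p ≠ 2) (hR : IsPGroup p R) (hr : ¬ Cfsg.PRankLE p 2 R)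
    (E : Subgroup R) [E.Normal] (hE : Cfsg.IsElementaryAbelian p E) (hE2 : Nat.card E = p ^ 2) :
    ∃ A : Subgroup R, E ≤ A ∧ A.Normal ∧ Subgroup.centralizer (A : Set R) = A ∧ ¬ Cfsg.PRankLE p 2 A := by
  have pp : p.Prime := Fact.out
  have hT : IsPiSubgroup {p} (⊤ : Subgroup R) :=
    (pigroup_singleton pp).2 (hR.of_equiv Subgroup.topEquiv.symm)
  have h3 : 2 < rank (⊤ : Subgroup R) := by
    rw [rank_pgroup pp hT]
    exact not_le.1 fun h => hr ((pRank_top_le_iff pp).1 h)
  obtain ⟨B, hB, h1, h2⟩ := normal_p2Elem_SCN3 pp hT (Top.odd_of_pgroup pp hp hT) h3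
    ⟨le_top, hE, hE2⟩ (normalIn_top.2 inferInstance)
  refine ⟨B, h2, normalIn_top.1 ⟨hB.1, hB.2.1⟩, by simpa using hB.2.2, fun h => ?_⟩
  have := (pRank_le_iff pp).2 h
  rw [← rank_pgroup pp (pigroupS le_top hT)] at this
  omega

end Cfsg.Agent.S1452
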