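import Cfsg.Statements.S1453
import Cfsg.Agent.Lib.BG.Sec5
import Cfsg.Agent.Lib.BG.Top

set_option autoImplicit false
open Cfsg

namespace Cfsg.Agent.S1453

open CfsgLib.BG

/-- Let p be an odd prime and R a finite p-group with an elementary abelian subgroup of order p ^ 3 and an elementary abelian subgroup E of order p ^ 2 contained in no larger elementary abelian subgroup. Let Z₂ be the second centre of R, W the subgroup generated by the elements of Z₂ of order dividing p, and T = C_R(W). Then E is not contained in T; the elements of order dividing p of the centre of R generate a group of order p; W is elementary abelian of order p ^ 2; and T is characteristic in R of index p. -/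
theorem result {R : Type*} [Group R] [Finite R] (p : ℕ) [Fact p.Prime] (hp : p ≠ 2) (hR : IsPGroup p R) (hr : ¬ Cfsg.PRankLE p 2 R)
    (E : Subgroup R) (hE : Cfsg.IsElementaryAbelian p E) (hE2 : Nat.card E = p ^ 2)
    (hEmax : ∀ B : Subgroup R, Cfsg.IsElementaryAbelian p B → E ≤ B → B = E) :
    ¬ E ≤ Subgroup.centralizer ((Subgroup.closure {x : R | x ∈ Subgroup.upperCentralSeries R 2 ∧ x ^ p = 1} : Subgroup R) : Set R) ∧
      Nat.card ↥(Subgroup.closure {x : R | x ∈ Subgroup.center R ∧ x ^ p = 1}) = p ∧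
      (Cfsg.IsElementaryAbelian p (Subgroup.closure {x : R | x ∈ Subgroup.upperCentralSeries R 2 ∧ x ^ p = 1}) ∧
        Nat.card ↥(Subgroup.closure {x : R | x ∈ Subgroup.upperCentralSeries R 2 ∧ x ^ p = 1}) = p ^ 2) ∧
      (Subgroup.centralizer ((Subgroup.closure {x : R | x ∈ Subgroup.upperCentralSeries R 2 ∧ x ^ p = 1} : Subgroup R) : Set R)).Characteristic ∧
      (Subgroup.centralizer ((Subgroup.closure {x : R | x ∈ Subgroup.upperCentralSeries R 2 ∧ x ^ p = 1} : Subgroup R) : Set R)).index = p := by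
  have pp : p.Prime := Fact.out
  have hT : IsPiSubgroup {p} (⊤ : Subgroup R) :=
    (pigroup_singleton pp).2 (hR.of_equiv Subgroup.topEquiv.symm)
  have h3 : 2 < rank (⊤ : Subgroup R) := by
    rw [rank_pgroup pp hT]
    exact not_le.1 fun h => hr ((pRank_top_le_iff pp).1 h)
  have hZ : centerOf (⊤ : Subgroup R) = Subgroup.center R := by
    rw [centerOf, top_inf_eq, Subgroup.coe_top, Subgroup.centralizer_univ]
  have hU : ucnOf 2 (⊤ : Subgroup R) = Subgroup.upperCentralSeries R 2 := by
    ext x
    rw [S5.mem_ucn2, Subgroup.mem_upperCentralSeries_succ_iff, Subgroup.upperCentralSeries_one, hZ]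
    simp
  obtain ⟨h1, h2, h4, h5, h6⟩ := Ohm1_ucn_p2maxElem pp hT (Top.odd_of_pgroup pp hp hT) h3
    ⟨le_top, hE, hE2⟩ ⟨le_top, hE, fun B _ => hEmax B⟩
  rw [hU] at h1 h4 h5 h6
  rw [hZ] at h2
  rw [top_inf_eq] at h1 h5 h6
  refine ⟨h1, h2, ⟨h4.abelem, h4.card⟩, ?_, by rwa [Subgroup.relIndex_top_right] at h6⟩
  refine Subgroup.characteristic_iff_le_comap.2 fun φ x hx => ?_
  exact (charIn_iff le_top).1 h5
    (Subgroup.topEquiv.trans (φ.trans Subgroup.topEquiv.symm)) ⟨x, trivial⟩ hx

end Cfsg.Agent.S1453
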