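import Cfsg.Statements.S1454
import Cfsg.Agent.Lib.BG.Sec5
import Cfsg.Agent.Lib.BG.Top

set_option autoImplicit false
open Cfsg

namespace Cfsg.Agent.S1454

open CfsgLib.BG

/-- Let G be a finite group, p an odd prime, R a narrow p-subgroup and A a solvable subgroup of odd order normalizing R with A ∩ C_G(R) = 1. Then [A, A] ≤ O_p(A) and the index of O_p(A) in A is coprime to p; if R has an elementary abelian subgroup of order p ^ 3 then the order of every element of A of order coprime to p divides p − 1; and if the order of A is a prime not dividing p(p − 1), then 2·#A divides p + 1, and if in addition [R, A] = R and R is non-abelian then #R = p ^ 3. -/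
theorem result {G : Type*} [Group G] [Finite G] (p : ℕ) [Fact p.Prime] (hp : p ≠ 2) (R A : Subgroup G) (hR : IsPGroup p R) (hRn : Cfsg.IsNarrow p R)
    (hA : (A ≤ Subgroup.normalizer (R : Set G))) (hAs : Group.IsSolvable A) (hAodd : Odd (Nat.card A)) (hfaith : A ⊓ Subgroup.centralizer (R : Set G) = ⊥) :
    (commutator ↥A ≤ Cfsg.pCore p ↥A ∧ ((Cfsg.pCore p ↥A).index).Coprime p) ∧
      (¬ Cfsg.PRankLE p 2 R → ∀ a ∈ A, (orderOf a).Coprime p → orderOf a ∣ p - 1) ∧
      ((Nat.card A).Prime → ¬ Nat.card A ∣ p * (p - 1) →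
        2 * Nat.card A ∣ p + 1 ∧ (⁅R, A⁆ = R → ¬ IsMulCommutative R → Nat.card R = p ^ 3)) := by
  have pp : p.Prime := Fact.out
  have hT : IsPiSubgroup {p} R := (pigroup_singleton pp).2 hR
  have hodd := Top.odd_of_pgroup pp hp hT
  have hn := (narrow_iff_isNarrow pp hT hodd).2 hRn
  obtain ⟨⟨D, hD, -, h1, h2, h4⟩, h5⟩ := Aut_narrow pp hT hodd hn hAs hA hAodd
  have hDp : IsPiSubgroup {p} D := by
    have : Subgroup.centralizer (R : Set G) ⊓ D = ⊥ :=
      le_bot_iff.1 (hfaith ▸ le_inf (inf_le_right.trans hD.le) inf_le_left)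
    rwa [← Subgroup.inf_relIndex_right, this, Subgroup.relIndex_bot_left] at h1
  have hDO : D ≤ opOf p A := pcore_max hD hDp
  refine ⟨⟨?_, ?_⟩, fun hr a ha hc => ?_, fun hpr hnd => Aut_narrow_prime pp hT hodd hn hA hAodd hpr
    (fun h => prime_ne_bot hpr (by rw [← hfaith, inf_eq_left.2 h])) hnd⟩
  · rw [← opOf_subgroupOf pp, ← Subgroup.map_subtype_le_map_subtype, map_subtype_commutator',
      Subgroup.map_subgroupOf_eq_of_le (pcore_sub _ _)]
    exact h2.trans hDO
  · rw [← opOf_relIndex pp, Nat.coprime_comm, pp.coprime_iff_not_dvd]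
    exact fun h => h4 (h.trans (Subgroup.relIndex_dvd_of_le_left A hDO))
  · have h3 : 2 < rank R := not_le.1 fun h => hr ((Top.rank_pgroup_le_iff pp hT).1 h)
    have hap : IsPiElt {p}ᶜ a := by
      rw [isPiElt_iff, isPiNat_compl_singleton pp, ← pp.coprime_iff_not_dvd]
      exact hc.symm
    have h6 : a ^ (p - 1) ∈ A ⊓ Subgroup.centralizer (R : Set G) := ⟨pow_mem ha _, h5 h3 a ha hap⟩
    rw [hfaith] at h6
    exact orderOf_dvd_of_pow_eq_one h6

end Cfsg.Agent.S1454
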