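import Cfsg.Statements.S1455
import Cfsg.Agent.Lib.BG.Sec5
import Cfsg.Agent.Lib.BG.Top

set_option autoImplicit false
open Cfsg

namespace Cfsg.Agent.S1455

open CfsgLib.BG

/-- Let G be a solvable group of odd order, p a prime dividing its order, and S a Sylow p-subgroup of G that is narrow; if S has an elementary abelian subgroup of order p ^ 3 assume also G = O_{p',p,p'}(G). Then every prime dividing the index of O_{p'}(G) is at most p; if p = 3 or p is the smallest prime divisor of #G then G has a normal p-complement; G' has a normal p-complement; every subgroup of G' of order coprime to p lies in O_{p'}(G'); and G' ≤ O_{p',p}(G) with the index of O_{p',p}(G) coprime to p. -/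
theorem result {G : Type*} [Group G] [Finite G] [Group.IsSolvable G] (hodd : Odd (Nat.card G)) (p : ℕ) [Fact p.Prime] (hpG : p ∣ Nat.card G) (S : Sylow p G) (hS : Cfsg.IsNarrow p ↥(S : Subgroup G))
    (hpl : ¬ Cfsg.PRankLE p 2 ↥(S : Subgroup G) → Cfsg.PLengthLE p 1 G) :
    (∀ q : ℕ, q.Prime → q ∣ (Cfsg.pPrimeCore p G).index → q ≤ p) ∧
      ((p = 3 ∨ ∀ q : ℕ, q.Prime → q ∣ Nat.card G → p ≤ q) → Cfsg.HasNormalPComplement p G) ∧
      Cfsg.HasNormalPComplement p ↥(commutator G) ∧
      (∀ L : Subgroup ↥(commutator G), (Nat.card L).Coprime p → L ≤ Cfsg.pPrimeCore p ↥(commutator G)) ∧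
      commutator G ≤ Cfsg.pPrimePCore p G ∧ ((Cfsg.pPrimePCore p G).index).Coprime p := by
  have pp : p.Prime := Fact.out
  have hSy := isSylowOf_top pp S
  have hSp := pHall_pgroup hSy
  have hodd' := Top.odd_top hodd
  have hn := (narrow_iff_isNarrow pp hSp (oddSg le_top hodd')).2 hS
  have hs : Group.IsSolvable (⊤ : Subgroup G) := inferInstance
  have hpl' : 2 < rank (S : Subgroup G) → PLen1 p (⊤ : Subgroup G) := fun h =>
    (Top.plen1_top pp).2 (hpl fun h2 => absurd ((Top.rank_pgroup_le_iff pp hSp).2 h2) (by omega))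
  obtain ⟨h1, h2⟩ := narrow_der1_complement_max_pdiv pp hodd' hs hSy hn hpl'
  obtain ⟨h3, h4, h5⟩ := narrow_der1_sub_opP pp hodd' hs hSy hn hpl'
  rw [Top.oppOf_top pp, Subgroup.relIndex_top_right] at h2
  rw [Top.opP_top] at h3 h4
  rw [Subgroup.relIndex_top_right] at h4
  rw [Subgroup.card_top, Top.hasNormalPCompl_top pp] at h5
  refine ⟨h2, h5, (hasNormalPCompl_iff pp).1 h1, fun L hL => ?_, h3,
    (pp.coprime_iff_not_dvd.2 h4).symm⟩
  have h6 : L.map (commutator G).subtype ≤ oppOf p (commutator G) :=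
    (sub_Hall_pcore h1 (Subgroup.map_subtype_le L)).2 ((p'group_iff_coprime pp).2 (by
      rwa [Subgroup.card_map_of_injective (commutator G).subtype_injective]))
  rwa [oppOf_eq_map pp, Subgroup.map_subtype_le_map_subtype] at h6

end Cfsg.Agent.S1455
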