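import Mathlib
-- Template for statement S1457 (row 1457; see /opt/grader/pristine/manifest.json for weights).
-- Copy to Cfsg/Agent/S1457.lean and replace the sorry. The statement below is byte-identical to the frozen
-- statement Cfsg.CfsgFrozen.S1457 (Cfsg/Statements/S1457.lean; the theorem Cfsg.odd_solvable_abelian_normal_subgroup_of_sylow_le_core);
-- the grader kernel-checks Cfsg.Agent.S1457.result against that frozen type. Keep the theorem IN THIS FILE
-- (a `result` declared elsewhere and merely imported here is not credited); helpers may live anywhere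
-- under Cfsg/Agent/.
import Cfsg.Statements.S1457
import Cfsg.Agent.Lib.Puig.Main

set_option autoImplicit false
open Cfsg

namespace Cfsg.Agent.S1457

/-- Let G be a solvable group of odd order, p a prime, S a Sylow p-subgroup of G and A an abelian subgroup of S normal in S. Then A ≤ O_{p',p}(G). -/
theorem result {G : Type*} [Group G] [Finite G] [Group.IsSolvable G] (hodd : Odd (Nat.card G)) (p : ℕ) [Fact p.Prime] (S : Sylow p G) (A : Subgroup G) (hA : A ≤ (S : Subgroup G)) (hAc : IsMulCommutative A)
    (hAn : (S : Subgroup G) ≤ Subgroup.normalizer (A : Set G)) :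
    A ≤ Cfsg.pPrimePCore p G := by
  by_cases hp : p = 2
  · subst hp
    have h1 : Nat.card A = 1 := by
      obtain ⟨k, hk⟩ := (S.2.to_le hA).exists_card_eq
      have hd := A.card_subgroup_dvd_card
      rw [hk] at hd ⊢
      rcases Nat.eq_zero_or_pos k with rfl | h0
      · rfl
      · exact absurd ((dvd_pow_self 2 h0.ne').trans hd)
          (by rwa [← even_iff_two_dvd, Nat.not_even_iff_odd])
    rw [Subgroup.card_eq_one.mp h1]
    exact bot_le
  · exact CfsgLib.Puig.le_pPrimePCore_of_normal_abelian hp (CfsgLib.PStab.sylow_two_comm_of_odd hodd)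
      CfsgLib.PLocal.Constr.isPConstrained_of_isSolvable S hAc hAn

end Cfsg.Agent.S1457
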