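import Cfsg.Statements.S1458
import Cfsg.Agent.Lib.BG.AmbConj
import Cfsg.Agent.Lib.ZJ.Stable
import Cfsg.Agent.Lib.PStab.Stable
import Cfsg.Agent.Lib.PLocal.Constrained

set_option autoImplicit false
open Cfsg

namespace Cfsg.Agent.S1458

/-- Let G be a solvable group of odd order, p a prime and S a Sylow p-subgroup of G. Then the subgroup generated by the centre of the Thompson subgroup of S and O_{p'}(G) is normal in G. -/
theorem result {G : Type*} [Group G] [Finite G] [Group.IsSolvable G] (hodd : Odd (Nat.card G)) (p : ℕ) [Fact p.Prime] (S : Sylow p G) :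
    (Cfsg.centerThompsonOf p (S : Subgroup G) ⊔ Cfsg.pPrimeCore p G).Normal := by
  open CfsgLib.BG in
  have hp : p.Prime := Fact.out
  by_cases hp2 : p = 2
  · subst hp2
    have hS : (S : Subgroup G) = ⊥ := by
      obtain ⟨k, hk⟩ := S.isPGroup'.exists_card_eq
      have h1 : Odd (Nat.card S) := hodd.of_dvd_nat (Subgroup.card_subgroup_dvd_card _)
      rw [hk] at h1
      rcases k with _ | k
      · exact Subgroup.eq_bot_of_card_eq _ (by simpa using hk)
      · exact absurd h1 (by simp [Nat.odd_pow_iff])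
    have h2 : Cfsg.centerThompsonOf 2 (S : Subgroup G) = ⊥ :=
      eq_bot_iff.mpr ((CfsgLib.ZJ.centerThompsonOf_le _).trans hS.le)
    rw [h2, bot_sup_eq]
    infer_instance
  · have hq : Odd (Nat.card (G ⧸ Cfsg.pPrimeCore p G)) :=
      hodd.of_dvd_nat (Subgroup.card_quotient_dvd_card _)
    have h := CfsgLib.ZJ.pPrimeCore_sup_normalizer_centerThompsonOf hp2
      (CfsgLib.PLocal.Constr.isPConstrained_of_isSolvable)
      (CfsgLib.ZJ.quadStable_of_isPStableOn fun P _ hP =>
        CfsgLib.PStab.isPStableOn_of_odd hq hp2 P hP) S (CfsgLib.ZJ.isStronglyClosed_self _)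
    rw [← CfsgLib.BG.normalIn_top]
    refine ⟨le_top, ?_⟩
    rw [← h]
    refine sup_le (CfsgLib.BG.norm_of_le le_sup_right) (CfsgLib.BG.normsY le_rfl ?_)
    exact le_top.trans (CfsgLib.BG.normalIn_top.mpr inferInstance).2

end Cfsg.Agent.S1458
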