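import Cfsg.Statements.S1459
import Cfsg.Agent.Lib.BG.Sec6

set_option autoImplicit false
open Cfsg

namespace Cfsg.Agent.S1459

/-- Let G be a finite solvable group. (a) If H is a normal subgroup of order coprime to its index, K is a complement to H, and H ≤ G', then H = [H, K] and H ∩ C_G(K) ≤ [H, H]. (b) If G' is nilpotent and has prime index in G, then the order of G' is coprime to its index and G' = [G, K] (the subgroup generated by commutators of elements of G with elements of K) for every complement K of G'. -/
theorem result {G : Type*} [Group G] [Finite G] [Group.IsSolvable G] :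
    (∀ (H K : Subgroup G), H.Normal → (Nat.card H).Coprime H.index → Subgroup.IsComplement' H K → H ≤ commutator G →
        H = ⁅H, K⁆ ∧ H ⊓ Subgroup.centralizer (K : Set G) ≤ ⁅H, H⁆) ∧
      (Group.IsNilpotent ↥(commutator G) → (commutator G).index.Prime →
        (Nat.card ↥(commutator G)).Coprime (commutator G).index ∧
        ∀ K : Subgroup G, Subgroup.IsComplement' (commutator G) K → commutator G = ⁅(⊤ : Subgroup G), K⁆) := by
  open CfsgLib.BG in
  have hsd : ∀ H K : Subgroup G, H.Normal → Subgroup.IsComplement' H K → SDProd H K ⊤ := by
    intro H K hn hc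
    exact sdprod_of_sup (normalIn_top.mpr hn).2 hc.disjoint.eq_bot hc.sup_eq_top
  open CfsgLib.BG in
  refine ⟨fun H K hn hco hc hle => ?_, fun hnil hpr => ?_⟩
  · have h := coprime_der1_sdprod (hsd H K hn hc) (by rw [← hc.symm.index_eq_card]; exact hco)
      inferInstance hle
    exact ⟨h.1.symm, h.2⟩
  · have h := prime_nil_der1_factor (M := (⊤ : Subgroup G)) hnil
      (by rw [Subgroup.relIndex_top_right]; exact hpr)
    refine ⟨?_, fun K hK => h.2 K (hsd _ K inferInstance hK)⟩
    have h1 := h.1.2
    rwa [Subgroup.relIndex_top_right] at h1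

end Cfsg.Agent.S1459
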