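import Cfsg.Statements.S1462
import Cfsg.Agent.Lib.BG.Sec6
import Cfsg.Agent.Lib.BG.Top

set_option autoImplicit false
open Cfsg

namespace Cfsg.Agent.S1462

/-- Let G be a finite solvable group, p an odd prime with G = O_{p',p,p'}(G), E an elementary abelian p-subgroup contained in no larger elementary abelian p-subgroup of G, and L a subgroup of order coprime to p normalized by E. Then L ≤ O_{p'}(G). -/
theorem result {G : Type*} [Group G] [Finite G] [Group.IsSolvable G] (p : ℕ) [Fact p.Prime] (hp : p ≠ 2) (hpl : Cfsg.PLengthLE p 1 G) (E L : Subgroup G) (hE : Cfsg.IsElementaryAbelian p E)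
    (hEmax : ∀ B : Subgroup G, Cfsg.IsElementaryAbelian p B → E ≤ B → B = E) (hL : (Nat.card L).Coprime p) (hEL : E ≤ Subgroup.normalizer (L : Set G)) :
    L ≤ Cfsg.pPrimeCore p G := by
  have hp' : p.Prime := Fact.out
  rw [← CfsgLib.BG.Top.oppOf_top hp']
  exact CfsgLib.BG.plength1_norm_pmaxElem hp' ⟨le_top, hE, fun B _ => hEmax B⟩ hp inferInstance
    ((CfsgLib.BG.Top.plen1_top hp').mpr hpl) le_top hEL
    ((CfsgLib.BG.p'group_iff_coprime hp').mpr hL)

end Cfsg.Agent.S1462
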