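import Mathlib
-- Template for statement S1463 (row 1463; see /opt/grader/pristine/manifest.json for weights).
-- Copy to Cfsg/Agent/S1463.lean and replace the sorry. The statement below is byte-identical to the frozen
-- statement Cfsg.CfsgFrozen.S1463 (Cfsg/Statements/S1463.lean; the theorem Cfsg.odd_irreducible_linear_group_dim_two_coprime_char);
-- the grader kernel-checks Cfsg.Agent.S1463.result against that frozen type. Keep the theorem IN THIS FILE
-- (a `result` declared elsewhere and merely imported here is not credited); helpers may live anywhere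
-- under Cfsg/Agent/.
import Cfsg.Statements.S1463
import Cfsg.Agent.Lib.PStab.GL2

set_option autoImplicit false
open scoped MatrixGroups
open Cfsg

namespace Cfsg.Agent.S1463

/-- Let F be a field of odd characteristic p and H a finite subgroup of odd order of GL(2, F) that leaves no 1-dimensional subspace of F² invariant. Then p does not divide the order of H. -/
theorem result {F : Type*} [Field F] (p : ℕ) [Fact p.Prime] [CharP F p] (hp : p ≠ 2)
    (H : Subgroup (GL (Fin 2) F)) [Finite H] (hodd : Odd (Nat.card H))
    (hirr : ∀ v : Fin 2 → F, v ≠ 0 → ∃ g ∈ H, (g : Matrix (Fin 2) (Fin 2) F).mulVec v ∉ Submodule.span F {v}) :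
    ¬ p ∣ Nat.card H := by
  intro hpH
  obtain ⟨v, hv, h⟩ := CfsgLib.PStab.rep2_exists_eigenvector p hodd
    ((Units.coeHom (Matrix (Fin 2) (Fin 2) F)).comp H.subtype)
    (Units.val_injective.comp H.subtype_injective) hpH
  obtain ⟨g, hg, hgv⟩ := hirr v hv
  obtain ⟨c, hc⟩ := h ⟨g, hg⟩
  exact hgv (Submodule.mem_span_singleton.mpr ⟨c, hc.symm⟩)

end Cfsg.Agent.S1463
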