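import Mathlib
-- Template for statement S1466 (row 1466; see /opt/grader/pristine/manifest.json for weights).
-- Copy to Cfsg/Agent/S1466.lean and replace the sorry. The statement below is byte-identical to the frozen
-- statement Cfsg.CfsgFrozen.S1466 (Cfsg/Statements/S1466.lean; the theorem Cfsg.puig_subgroups_contain_centralizers_in_p_group);
-- the grader kernel-checks Cfsg.Agent.S1466.result against that frozen type. Keep the theorem IN THIS FILE
-- (a `result` declared elsewhere and merely imported here is not credited); helpers may live anywhere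
-- under Cfsg/Agent/.
import Cfsg.Statements.S1466
import Cfsg.Agent.Lib.Puig.Basic

set_option autoImplicit false
open Cfsg

namespace Cfsg.Agent.S1466

/-- Let p be a prime and R a nontrivial finite p-group. Then for every i > 0, Z(R) ≤ C_R(L_i(R)) ≤ L_i(R); likewise Z(R) ≤ C_R(L_*(R)) ≤ L_*(R) and Z(R) ≤ C_R(L(R)) ≤ L(R); and L(R) ≠ 1, L_*(R) ≠ 1. -/
theorem result {R : Type*} [Group R] [Finite R] (p : ℕ) [Fact p.Prime] (hR : IsPGroup p R) [Nontrivial R] :
    (∀ i : ℕ, 0 < i → Subgroup.center R ≤ Subgroup.centralizer ((Cfsg.puigSeq R i : Subgroup R) : Set R) ∧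
        Subgroup.centralizer ((Cfsg.puigSeq R i : Subgroup R) : Set R) ≤ Cfsg.puigSeq R i) ∧
      (Subgroup.center R ≤ Subgroup.centralizer ((Cfsg.puigLower R : Subgroup R) : Set R) ∧ Subgroup.centralizer ((Cfsg.puigLower R : Subgroup R) : Set R) ≤ Cfsg.puigLower R) ∧
      (Subgroup.center R ≤ Subgroup.centralizer ((Cfsg.puigSubgroup R : Subgroup R) : Set R) ∧ Subgroup.centralizer ((Cfsg.puigSubgroup R : Subgroup R) : Set R) ≤ Cfsg.puigSubgroup R) ∧
      Cfsg.puigSubgroup R ≠ ⊥ ∧ Cfsg.puigLower R ≠ ⊥ := by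
  simp only [CfsgLib.Puig.puigSeq_eq, CfsgLib.Puig.puigLower_eq, CfsgLib.Puig.puigSubgroup_eq]
  have hT : IsPGroup p (⊤ : Subgroup R) := hR.to_subgroup ⊤
  have h1 := CfsgLib.Puig.inf_centralizer_puigLowerOf_le hT
  have h2 := CfsgLib.Puig.inf_centralizer_puigOf_le hT
  rw [top_inf_eq] at h1 h2
  have hZ := hR.bot_lt_center.ne'
  refine ⟨fun i hi => ⟨Subgroup.center_le_centralizer _, ?_⟩, ⟨Subgroup.center_le_centralizer _, h1⟩,
    ⟨Subgroup.center_le_centralizer _, h2⟩, fun h => hZ ?_, fun h => hZ ?_⟩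
  · obtain ⟨n, rfl⟩ := Nat.exists_eq_succ_of_ne_zero hi.ne'
    have h := CfsgLib.Puig.inf_centralizer_seqIn_le hT n
    rwa [top_inf_eq] at h
  · exact le_bot_iff.mp (h ▸ (Subgroup.center_le_centralizer _).trans h2)
  · exact le_bot_iff.mp (h ▸ (Subgroup.center_le_centralizer _).trans h1)

end Cfsg.Agent.S1466
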