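import Mathlib
-- Template for statement S1468 (row 1468; see /opt/grader/pristine/manifest.json for weights).
-- Copy to Cfsg/Agent/S1468.lean and replace the sorry. The statement below is byte-identical to the frozen
-- statement Cfsg.CfsgFrozen.S1468 (Cfsg/Statements/S1468.lean; the theorem Cfsg.puig_subgroups_of_sylow_and_p_core_odd_solvable);
-- the grader kernel-checks Cfsg.Agent.S1468.result against that frozen type. Keep the theorem IN THIS FILE
-- (a `result` declared elsewhere and merely imported here is not credited); helpers may live anywhere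
-- under Cfsg/Agent/.
import Cfsg.Statements.S1468
import Cfsg.Agent.Lib.Puig.Main

set_option autoImplicit false
open Cfsg

namespace Cfsg.Agent.S1468

/-- Let p be an odd prime, G a solvable group of odd order with O_{p'}(G) = 1, S a Sylow p-subgroup and T = O_p(G). Then, viewing the Puig subgroups of S and of T inside G, L_*(S) ≤ L_*(T) ≤ L(T) ≤ L(S). -/
theorem result {G : Type*} [Group G] [Finite G] [Group.IsSolvable G] (hodd : Odd (Nat.card G)) (p : ℕ) [Fact p.Prime] (hp : p ≠ 2) (hO : Cfsg.pPrimeCore p G = ⊥) (S : Sylow p G) :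
    (Cfsg.puigLower ↥(S : Subgroup G)).map (S : Subgroup G).subtype ≤ (Cfsg.puigLower ↥(Cfsg.pCore p G)).map (Cfsg.pCore p G).subtype ∧
      (Cfsg.puigLower ↥(Cfsg.pCore p G)).map (Cfsg.pCore p G).subtype ≤ (Cfsg.puigSubgroup ↥(Cfsg.pCore p G)).map (Cfsg.pCore p G).subtype ∧
      (Cfsg.puigSubgroup ↥(Cfsg.pCore p G)).map (Cfsg.pCore p G).subtype ≤ (Cfsg.puigSubgroup ↥(S : Subgroup G)).map (S : Subgroup G).subtype := by
  have hT := CfsgLib.PStab.sylow_two_comm_of_odd hodd
  have hC := CfsgLib.PLocal.PSolv.centralizer_pCore_le CfsgLib.PLocal.PSolv.of_isSolvable hO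
  simp only [CfsgLib.Puig.map_subtype_puigLower, CfsgLib.Puig.map_subtype_puigSubgroup]
  exact ⟨CfsgLib.Puig.puigLowerOf_sylow_le hp hT hC S, CfsgLib.Puig.puigLowerOf_le_puigOf _,
    CfsgLib.Puig.puigOf_pCore_le hp hT hC S⟩

end Cfsg.Agent.S1468
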