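import Mathlib
-- Template for statement S1469 (row 1469; see /opt/grader/pristine/manifest.json for weights).
-- Copy to Cfsg/Agent/S1469.lean and replace the sorry. The statement below is byte-identical to the frozen
-- statement Cfsg.CfsgFrozen.S1469 (Cfsg/Statements/S1469.lean; the theorem Cfsg.puig_center_normal_odd_solvable);
-- the grader kernel-checks Cfsg.Agent.S1469.result against that frozen type. Keep the theorem IN THIS FILE
-- (a `result` declared elsewhere and merely imported here is not credited); helpers may live anywhere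
-- under Cfsg/Agent/.
import Cfsg.Statements.S1469
import Cfsg.Agent.Lib.Puig.Main

set_option autoImplicit false
open Cfsg

namespace Cfsg.Agent.S1469

/-- Let p be an odd prime, G a solvable group of odd order and S a Sylow p-subgroup, and let Z be the centre of the Puig subgroup L(S), viewed inside G. Then G is generated by O_{p'}(G) and N_G(Z); and if O_{p'}(G) = 1 then Z is normal in G. -/
theorem result {G : Type*} [Group G] [Finite G] [Group.IsSolvable G] (hodd : Odd (Nat.card G)) (p : ℕ) [Fact p.Prime] (hp : p ≠ 2) (S : Sylow p G) :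
    Cfsg.pPrimeCore p G ⊔ Subgroup.normalizer ((((Subgroup.center ↥(Cfsg.puigSubgroup ↥(S : Subgroup G))).map (Cfsg.puigSubgroup ↥(S : Subgroup G)).subtype).map (S : Subgroup G).subtype : Subgroup G) : Set G) = ⊤ ∧
      (Cfsg.pPrimeCore p G = ⊥ → (((Subgroup.center ↥(Cfsg.puigSubgroup ↥(S : Subgroup G))).map (Cfsg.puigSubgroup ↥(S : Subgroup G)).subtype).map (S : Subgroup G).subtype).Normal) := by
  have hT := CfsgLib.PStab.sylow_two_comm_of_odd hodd
  rw [CfsgLib.Puig.map_subtype_center_puigSubgroup]
  exact ⟨CfsgLib.Puig.pPrimeCore_sup_normalizer_zPuigOf hp hT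
      CfsgLib.PLocal.Constr.isPConstrained_of_isSolvable S,
    fun hO => CfsgLib.Puig.zPuigOf_sylow_normal hp hT
      (CfsgLib.PLocal.PSolv.centralizer_pCore_le CfsgLib.PLocal.PSolv.of_isSolvable hO) S⟩

end Cfsg.Agent.S1469
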