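import Mathlib
-- Template for statement S1470 (row 1470; see /opt/grader/pristine/manifest.json for weights).
-- Copy to Cfsg/Agent/S1470.lean and replace the sorry. The statement below is byte-identical to the frozen
-- statement Cfsg.CfsgFrozen.S1470 (Cfsg/Statements/S1470.lean; the theorem Cfsg.norm_one_pair_set_symmetric_forces_p_le_q);
-- the grader kernel-checks Cfsg.Agent.S1470.result against that frozen type. Keep the theorem IN THIS FILE
-- (a `result` declared elsewhere and merely imported here is not credited); helpers may live anywhere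
-- under Cfsg/Agent/.
import Cfsg.Statements.S1470
import Cfsg.Agent.Lib.BG.AppC1

set_option autoImplicit false
open Cfsg

namespace Cfsg.Agent.S1470

/-- Let p and q be odd primes with (p^q − 1)/(p − 1) coprime to p − 1, and let E be the set of elements a of the field with p ^ q elements whose norm to the prime field is 1 and for which 2 − a also has norm 1. If a⁻¹ ∈ E for every a ∈ E and E has at least two elements, then p ≤ q. -/
theorem result (p q : ℕ) [Fact p.Prime] [Fact q.Prime] (hp : p ≠ 2) (hq : q ≠ 2) (hA : Nat.Coprime ((p ^ q - 1) / (p - 1)) (p - 1))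
    (hinv : ∀ a ∈ {a : GaloisField p q | Algebra.norm (ZMod p) a = 1 ∧ Algebra.norm (ZMod p) (2 - a) = 1}, a⁻¹ ∈ {a : GaloisField p q | Algebra.norm (ZMod p) a = 1 ∧ Algebra.norm (ZMod p) (2 - a) = 1})
    (h2 : 2 ≤ Set.ncard {a : GaloisField p q | Algebra.norm (ZMod p) a = 1 ∧ Algebra.norm (ZMod p) (2 - a) = 1}) :
    p ≤ q := by
  have hq0 := (Fact.out : q.Prime).ne_zero
  obtain ⟨a, ha, ha1⟩ := Set.exists_ne_of_one_lt_ncard h2 1
  rw [← GaloisField.finrank p hq0]
  exact CfsgLib.BG.AppC.le_finrank_of_inv_closed (fun b h1 h2 => (hinv b ⟨h1, h2⟩).2) ha1 ha.1 ha.2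

end Cfsg.Agent.S1470
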