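import Mathlib
-- Template for statement S1471 (row 1471; see /opt/grader/pristine/manifest.json for weights).
-- Copy to Cfsg/Agent/S1471.lean and replace the sorry. The statement below is byte-identical to the frozen
-- statement Cfsg.CfsgFrozen.S1471 (Cfsg/Statements/S1471.lean; the theorem Cfsg.norm_one_pair_set_has_two_elements);
-- the grader kernel-checks Cfsg.Agent.S1471.result against that frozen type. Keep the theorem IN THIS FILE
-- (a `result` declared elsewhere and merely imported here is not credited); helpers may live anywhere
-- under Cfsg/Agent/.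
import Cfsg.Statements.S1471
import Cfsg.Agent.Lib.BG.AppC1

set_option autoImplicit false
open Cfsg

namespace Cfsg.Agent.S1471

/-- Let p and q be odd primes with (p^q − 1)/(p − 1) coprime to p − 1. Then there are at least two elements a of the field with p ^ q elements such that both a and 2 − a have norm 1 to the prime field. -/
theorem result (p q : ℕ) [Fact p.Prime] [Fact q.Prime] (hp : p ≠ 2) (hq : q ≠ 2) (hA : Nat.Coprime ((p ^ q - 1) / (p - 1)) (p - 1)) :
    2 ≤ Set.ncard {a : GaloisField p q | Algebra.norm (ZMod p) a = 1 ∧ Algebra.norm (ZMod p) (2 - a) = 1} := by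
  have hq' : q.Prime := Fact.out
  obtain ⟨a, ha1, ha⟩ := CfsgLib.BG.AppC.exists_ne_one_norm_one (F := GaloisField p q) hp
    (by rw [GaloisField.finrank p hq'.ne_zero]; have := hq'.two_le; omega)
  refine (Set.one_lt_ncard (Set.toFinite _)).mpr ⟨a, ha, 1, ⟨map_one _, ?_⟩, ha1⟩
  rw [show (2 : GaloisField p q) - 1 = 1 by norm_num, map_one]

end Cfsg.Agent.S1471
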