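import Mathlib
-- Template for statement S1473 (row 1473; see /opt/grader/pristine/manifest.json for weights).
-- Copy to Cfsg/Agent/S1473.lean and replace the sorry. The statement below is byte-identical to the frozen
-- statement Cfsg.CfsgFrozen.S1473 (Cfsg/Statements/S1473.lean; the theorem Cfsg.cn_group_quotient_by_solvable_normal);
-- the grader kernel-checks Cfsg.Agent.S1473.result against that frozen type. Keep the theorem IN THIS FILE
-- (a `result` declared elsewhere and merely imported here is not credited); helpers may live anywhere
-- under Cfsg/Agent/.
import Cfsg.Statements.S1473
import Cfsg.Agent.Lib.CN.Basic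

set_option autoImplicit false
open Cfsg

namespace Cfsg.Agent.S1473

/-- Let G be a finite group in which the centralizer of every non-identity element is nilpotent, and H a solvable normal subgroup of G. Then in G/H the centralizer of every non-identity element is nilpotent. -/
theorem result {G : Type*} [Group G] [Finite G] (hCN : Cfsg.IsCNGroup G) (H : Subgroup G) [H.Normal] (hH : Group.IsSolvable H) :
    Cfsg.IsCNGroup (G ⧸ H) := by
  exact CfsgLib.CN.quotient_of_solvable hCN _ (QuotientGroup.mk'_surjective H) (by rwa [QuotientGroup.ker_mk'])

end Cfsg.Agent.S1473
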