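import Mathlib
-- Template for statement S1474 (row 1474; see /opt/grader/pristine/manifest.json for weights).
-- Copy to Cfsg/Agent/S1474.lean and replace the sorry. The statement below is byte-identical to the frozen
-- statement Cfsg.CfsgFrozen.S1474 (Cfsg/Statements/S1474.lean; the theorem Cfsg.cn_group_with_normal_sylow_is_frobenius);
-- the grader kernel-checks Cfsg.Agent.S1474.result against that frozen type. Keep the theorem IN THIS FILE
-- (a `result` declared elsewhere and merely imported here is not credited); helpers may live anywhere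
-- under Cfsg/Agent/.
import Cfsg.Statements.S1474
import Cfsg.Agent.Lib.CN.Basic

set_option autoImplicit false
open Cfsg

namespace Cfsg.Agent.S1474

open CfsgLib.BG

/-- Let G be a finite group in which every non-identity element has nilpotent centralizer, not itself nilpotent, and having a nontrivial normal Sylow p-subgroup for some prime p. Let H be the largest normal nilpotent Hall subgroup of G. Then H is a nontrivial proper normal subgroup with a complement E that is a Frobenius complement in G (no non-identity element of E centralizes a non-identity element of H), and G/H is nilpotent. -/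
theorem result {G : Type*} [Group G] [Finite G] (hCN : Cfsg.IsCNGroup G) (hnn : ¬ Group.IsNilpotent G) (p : ℕ) [Fact p.Prime] (P : Sylow p G)
    (hP1 : (P : Subgroup G) ≠ ⊥) (hPn : (P : Subgroup G).Normal) :
    Cfsg.fittingHall G ≠ ⊥ ∧ Cfsg.fittingHall G ≠ ⊤ ∧
      (∃ E : Subgroup G, Subgroup.IsComplement' (Cfsg.fittingHall G) E ∧ Cfsg.IsFrobeniusComplement E ∧
        ∀ e ∈ E, e ≠ 1 → Cfsg.fittingHall G ⊓ Subgroup.centralizer ({e} : Set G) = ⊥) ∧
      Group.IsNilpotent (G ⧸ Cfsg.fittingHall G) := by
  have h1 : fittingHallOf (⊤ : Subgroup G) ≠ ⊥ :=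
    subG1_contra (normal_Sylow_sub_Fcore Fact.out (isSylowOf_top Fact.out P) (normalIn_top.mpr hPn).2) hP1
  obtain ⟨E, hE, hEn⟩ := CfsgLib.CN.exists_frob_Fcore hCN
    (fun h => hnn (nilpotent_of_mulEquiv Subgroup.topEquiv)) h1
  rw [CfsgLib.CN.fittingHallOf_top] at hE h1
  have hc := CfsgLib.CN.isComplement'_of_sdprod hE.sdprod
  refine ⟨h1, fun h => hE.compl_ne_bot ?_, ⟨E, hc, CfsgLib.Frob.frob_of_fpf hc h1 hE.compl_ne_bot hE.semiregular,
    hE.semiregular⟩, nilpotent_of_mulEquiv hc.symm.QuotientMulEquiv.symm⟩
  rw [← hE.sdprod.TI, h, top_inf_eq]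

end Cfsg.Agent.S1474
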