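import Mathlib
-- Template for statement S1475 (row 1475; see /opt/grader/pristine/manifest.json for weights).
-- Copy to Cfsg/Agent/S1475.lean and replace the sorry. The statement below is byte-identical to the frozen
-- statement Cfsg.CfsgFrozen.S1475 (Cfsg/Statements/S1475.lean; the theorem Cfsg.solvable_prime_power_orders_at_most_two_primes);
-- the grader kernel-checks Cfsg.Agent.S1475.result against that frozen type. Keep the theorem IN THIS FILE
-- (a `result` declared elsewhere and merely imported here is not credited); helpers may live anywhere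
-- under Cfsg/Agent/.
import Cfsg.Statements.S1475
import Cfsg.Agent.Lib.CN.Basic

set_option autoImplicit false
open Cfsg

namespace Cfsg.Agent.S1475

open CfsgLib.BG

/-- Let G be a finite solvable group such that the order of every element is a prime power (1 included). Then at most two distinct primes divide the order of G. -/
theorem result {G : Type*} [Group G] [Finite G] [Group.IsSolvable G] (h : ∀ g : G, IsPrimePow (orderOf g) ∨ g = 1) :
    (Nat.card G).primeFactors.card ≤ 2 := by
  have hs : Group.IsSolvable (⊤ : Subgroup G) := inferInstance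
  have key : ∀ (x y : G), x ≠ 1 → y ≠ 1 → (orderOf x).Coprime (orderOf y) → ¬ Commute x y := by
    intro x y hx hy hco hc
    have e := hc.orderOf_mul_eq_mul_orderOf_of_coprime hco
    rcases h (x * y) with h1 | h1
    · rw [e] at h1
      rcases (hco.isPrimePow_dvd_mul h1).mp dvd_rfl with h2 | h2
      · exact hy (orderOf_eq_one_iff.mp (Nat.eq_one_of_dvd_coprimes hco ((Dvd.intro_left _ rfl).trans h2) dvd_rfl))
      · exact hx (orderOf_eq_one_iff.mp (Nat.eq_one_of_dvd_coprimes hco dvd_rfl ((Dvd.intro _ rfl).trans h2)))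
    · rw [h1, orderOf_one] at e
      exact hx (orderOf_eq_one_iff.mp (Nat.eq_one_of_mul_eq_one_right e.symm))
  by_cases h1 : (⊤ : Subgroup G) = ⊥
  · rw [← Subgroup.card_top, h1]; simp
  obtain ⟨p, hp, hO⟩ := sol_exists_opOf_ne_bot hs h1
  obtain ⟨K, hK⟩ := Hall_exists {p}ᶜ hs
  have hreg : Semiregular (opOf p ⊤) K := fun x hx hx1 => by
    rw [eq_bot_iff]
    intro y hy
    by_contra hy1
    exact key y x hy1 hx1 (IsPiNat.coprime (mem_p_elt (pcore_pgroup _ _) hy.1) (mem_p_elt (pHall_pgroup hK) hx))
      (mem_cent1.mp hy.2)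
  obtain ⟨q, hq⟩ : ∃ q : ℕ, ∀ r : ℕ, r.Prime → r ∣ Nat.card K → r = q := by
    by_cases hK1 : K = ⊥
    · exact ⟨0, fun r hr hd => (ne_bot_of_prime_dvd hr hd hK1).elim⟩
    obtain ⟨Z, hZ, hq⟩ := exists_prime_order_subgroup
      (CfsgLib.Frob.center_ne_bot_of_fpf hO hK1 (le_top.trans (pcore_norm _ _)) hreg)
    obtain ⟨z, hz, hz'⟩ := Cauchy hq dvd_rfl
    refine ⟨Nat.card Z, fun r hr hd => ?_⟩
    obtain ⟨y, hy, rfl⟩ := Cauchy hr hd
    by_contra hne
    refine key y z (fun e => hr.ne_one (by rw [e, orderOf_one])) (fun e => hq.ne_one ?_) ?_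
      (congrArg Subtype.val (Subgroup.mem_center_iff.mp (hZ hz) ⟨y, hy⟩))
    · rw [← hz', ← Subgroup.orderOf_coe, e, orderOf_one]
    · rw [Subgroup.orderOf_coe, hz']
      exact (Nat.coprime_primes hr hq).mpr hne
  refine (Finset.card_le_card (t := {p, q}) fun r hr => ?_).trans Finset.card_le_two
  rw [Finset.mem_insert, Finset.mem_singleton, or_iff_not_imp_left]
  intro hne
  have hr' := Nat.prime_of_mem_primeFactors hr
  exact hq r hr' ((prime_dvd_pHall hK hr' hne).mpr (by simpa using Nat.dvd_of_mem_primeFactors hr))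

end Cfsg.Agent.S1475
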