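import Mathlib
-- Template for statement S1476 (row 1476; see /opt/grader/pristine/manifest.json for weights).
-- Copy to Cfsg/Agent/S1476.lean and replace the sorry. The statement below is byte-identical to the frozen
-- statement Cfsg.CfsgFrozen.S1476 (Cfsg/Statements/S1476.lean; the theorem Cfsg.solvable_cn_group_trichotomy);
-- the grader kernel-checks Cfsg.Agent.S1476.result against that frozen type. Keep the theorem IN THIS FILE
-- (a `result` declared elsewhere and merely imported here is not credited); helpers may live anywhere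
-- under Cfsg/Agent/.
import Cfsg.Statements.S1476
import Cfsg.Agent.Lib.CN.Basic
import Cfsg.Agent.Lib.BG.S4b_2
import Cfsg.Agent.Lib.BG.Quo2

set_option autoImplicit false
open Cfsg

namespace Cfsg.Agent.S1476

open CfsgLib.BG CfsgLib.CN CfsgLib.Frob Subgroup
open scoped commutatorElement

theorem norm_card_two_cent {G : Type*} [Group G] {M X : Subgroup G} (h2 : Nat.card X = 2) (h : M ≤ 𝒩(X)) :
    M ≤ 𝒞(X) := fun m hm => mem_cent_iff.mpr fun x hx => by
  by_cases hx1 : x = 1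
  · rw [hx1, one_mul, mul_one]
  have := ((Nat.card_eq_two_iff' (1 : X)).mp h2).unique (y₁ := ⟨x, hx⟩)
    (y₂ := ⟨m * x * m⁻¹, (mem_normalizer_iff.mp (h hm) x).mp hx⟩) (by simpa using hx1) (by simpa using hx1)
  exact mul_inv_eq_iff_eq_mul.mp (congrArg Subtype.val this).symm ▸ rfl

/-- the top part of a three-step group -/
theorem top_part {G : Type*} [Group G] [Finite G] (hCN : IsCNGroup G) {M K : Subgroup G} {p : ℕ} (hp : p.Prime)
    (hs : Group.IsSolvable M) (hO : opOf p M = ⊥) (hd : p ∣ Nat.card M) (hK : IsPiHallOf {p}ᶜ K M)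
    (hn : Group.IsNilpotent K) (hq : PQCond K) :
    K ⊲ M ∧ IsCyclic K ∧ Odd (Nat.card K) ∧ ∀ a ∈ K, a ≠ 1 → M ⊓ 𝒞[a] ≤ K := by
  have hF' : IsPiSubgroup {p}ᶜ (fittingOf M) := (pHall_bot_iff (π := {p})).mp (hO ▸ opOf_Sylow_Fitting p M)
  have hFK := normal_sub_Hall hK (Fitting_normal M) hF'
  have hreg : ∀ X : Subgroup G, X ≤ M → IsPiSubgroup {p} X → X ≠ ⊥ → fittingOf M ⊓ 𝒞(X) = ⊥ := by
    intro X hXM hX hX1
    by_contra h
    have := cents' hCN (pgp_nil hX) (Fitting_nil M) (pigroup_coprime hX hF') le_rfl hX1 inf_le_left h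
      (cents_symm inf_le_right)
    exact hX1 (pigroup_eq_bot hX (pigroupS ((le_inf hXM this).trans (sol_cent_Fitting hs)) hF'))
  obtain ⟨P, hP⟩ := Sylow_exists hp M
  have hodd : Odd (Nat.card (fittingOf M)) := by
    by_contra h
    have h2 := Sylow_ne_bot Nat.prime_two (opOf_Sylow_Fitting 2 M) (Nat.not_odd_iff_even.mp h).two_dvd
    have hZ : IsPiSubgroup {2} (centerOf (opOf 2 M)) := pigroupS (centerOf_le _) (pcore_pgroup _ _)
    obtain ⟨X, hX, hX2⟩ := pgp_exists_prime_subgroup hZ (center_nil_ne_bot (pgp_nil (pcore_pgroup _ _)) h2)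
    have hZK : centerOf (opOf 2 M) ≤ K := (centerOf_le _).trans ((opOf_le_Fitting 2 M).trans hFK)
    have hc : IsCyclic (centerOf (opOf 2 M)) := (hq.of_le hZK).isCyclic_of_comm (centerOf_abelian _)
    have hXn : M ≤ 𝒩(X) := norms_sub_cyclic hc hX (norms_centerOf (pcore_norm _ _))
    have hXc : M ≤ 𝒞(X) := norm_card_two_cent hX2 hXn
    refine prime_ne_bot (X := X) (hX2 ▸ Nat.prime_two) (eq_bot_iff.mpr ((le_inf ((hX.trans (centerOf_le _)).trans
      (opOf_le_Fitting 2 M)) (cents_symm ((pHall_sub hP).trans hXc))).trans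
      (hreg P (pHall_sub hP) (pHall_pgroup hP) (Sylow_ne_bot hp hP hd)).le))
  have hc : IsCyclic (fittingOf M) := nil_Zgroup_cyclic ((hq.of_le hFK).isZGroup_of_odd hodd) (Fitting_nil M)
  have hKn : K ⊲ M := ⟨pHall_sub hK, sub_der1_norm ((((le_inf (der_sub M)
    (der1_norm_cyclic_cent hc (Fitting_norm M))).trans (sol_cent_Fitting hs))).trans hFK) (pHall_sub hK)⟩
  have e : fittingOf M = K := le_antisymm hFK (Fitting_max hKn hn)
  rw [e] at hc hodd hreg
  refine ⟨hKn, hc, hodd, fun a ha ha1 => sub_normal_Hall hK hKn.2 inf_le_left ?_⟩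
  obtain ⟨X, hX⟩ := Sylow_exists hp (M ⊓ 𝒞[a])
  refine (pHall_bot_iff (π := {p})).mp ?_
  by_cases hX1 : X = ⊥
  · exact hX1 ▸ hX
  exact (ne_bot_of_mem (x := a) (mem_inf.mpr ⟨ha, sub_cent1.mp ((pHall_sub hX).trans inf_le_right)⟩) ha1
    (hreg X ((pHall_sub hX).trans inf_le_left) (pHall_pgroup hX) hX1)).elim


/-- Let G be a finite solvable group in which every non-identity element has nilpotent centralizer. Then either G is nilpotent; or G has a normal subgroup K with a Frobenius complement E (K E = G, K ∩ E = 1, E meets its conjugates by outside elements trivially) such that E is cyclic or E is generated by two elementwise-commuting subgroups, one cyclic of odd order and one isomorphic to a generalized quaternion group; or G is a three-step group with respect to some prime p. -/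
theorem result {G : Type*} [Group G] [Finite G] [Group.IsSolvable G] (hCN : Cfsg.IsCNGroup G) :
    Group.IsNilpotent G ∨
      (∃ K E : Subgroup G, K.Normal ∧ Subgroup.IsComplement' K E ∧ Cfsg.IsFrobeniusComplement E ∧
        (IsCyclic E ∨ ∃ C Q : Subgroup G, C ⊔ Q = E ∧ (∀ a ∈ C, ∀ b ∈ Q, a * b = b * a) ∧ IsCyclic C ∧ Odd (Nat.card C) ∧
          ∃ n : ℕ, Nonempty (↥Q ≃* QuaternionGroup (2 ^ n)))) ∨
      ∃ p : ℕ, p.Prime ∧ Cfsg.IsThreeStepGroup p G := by
  have hs : Group.IsSolvable (⊤ : Subgroup G) := inferInstance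
  rw [or_iff_not_imp_left]
  intro hnil
  have hnil' : ¬ Group.IsNilpotent (⊤ : Subgroup G) := fun h => hnil (nilpotent_of_mulEquiv topEquiv)
  by_cases hF : fittingHallOf (⊤ : Subgroup G) = ⊥
  swap
  · obtain ⟨E, hE, hn⟩ := exists_frob_Fcore hCN hnil' hF
    have := normalIn_top.mp hE.normal
    have hc := isComplement'_of_sdprod hE.sdprod
    have hq : PQCond E := pqCond_of_fpf hF hE.norm_right hE.semiregular
    have hD := nilpotent_pcoreC {2} hn
    have hodd : Odd (Nat.card (piCoreOf {2}ᶜ E)) :=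
      Nat.coprime_two_right.mp ((p'group_iff_coprime Nat.prime_two).mp (pcore_pgroup _ _))
    have hcyc := nil_Zgroup_cyclic ((hq.of_le (pcore_sub {2}ᶜ E)).isZGroup_of_odd hodd) (nilpotentS (pcore_sub _ _) hn)
    refine Or.inl ⟨_, E, this, hc, frob_of_fpf hc hF hE.compl_ne_bot hE.semiregular, ?_⟩
    have := Fact.mk Nat.prime_two
    rcases (hq.of_le (pcore_sub {2} E)).cyclic_or_quaternion (pgp_isPGroup (pcore_pgroup _ _)) with h | ⟨-, n, -, h⟩
    · left
      rw [← hD.sup_eq]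
      exact cyclicY h hcyc hD.cents (pigroup_coprime (pcore_pgroup _ _) (pcore_pgroup _ _))
    · exact Or.inr ⟨_, _, (sup_comm _ _).trans hD.sup_eq, cents_iff.mp hD.cents, hcyc, hodd, n, h⟩
  have h1 : (⊤ : Subgroup G) ≠ ⊥ := fun h => hnil' (h ▸ inferInstance)
  obtain ⟨p, hp, hO⟩ := sol_exists_opOf_ne_bot hs h1
  obtain ⟨K, hK⟩ := Hall_exists {p}ᶜ hs
  obtain ⟨P, hP⟩ := Sylow_exists hp (⊤ : Subgroup G)
  have hPn : ¬ ⊤ ≤ 𝒩(P) := fun h => hO (eq_bot_iff.mpr ((pcore_sub_Hall hP).trans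
    ((normal_Sylow_sub_Fcore hp hP h).trans hF.le)))
  set N := opOf p (⊤ : Subgroup G) with hN
  have hNp : IsPiSubgroup {p} N := pcore_pgroup _ _
  have hn : ∀ L : Subgroup G, L ≤ 𝒩(N) := fun L => le_top.trans (pcore_norm _ _)
  have hreg : Semiregular N K := fun x hx hx1 => by
    by_contra h
    have hX : zpowers x ≠ ⊥ := by rwa [Ne, zpowers_eq_bot]
    have key : ∀ Q : Subgroup G, IsSylowOf p Q ⊤ → Q = opOf p 𝒞[x] := fun Q hQ => by
      have := cents' hCN (pgp_nil (pHall_pgroup hQ)) (B := zpowers x) (nilpotentS (zpowers_le.mpr (cent1id x)) (hCN x hx1))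
        (pigroup_coprime (pHall_pgroup hQ) (pigroupS (zpowers_le.mpr hx) (pHall_pgroup hK)))
        (inf_le_left.trans (pcore_sub_Hall hQ)) h le_rfl hX (by rw [cent_zpowers]; exact inf_le_right)
      rw [cent_zpowers] at this
      exact nilpotent_Sylow_pcore hp (hCN x hx1) (pHall_subl this le_top hQ)
    exact hPn fun g _ => mem_norm_iff.mpr ((key _ (pHall_cj_top.mpr hP)).trans (key _ hP).symm)
  have hK1 : K ≠ ⊥ := by
    rintro rfl
    exact hnil' (pgp_nil (p := p) (by simpa using pHall_bot_iff.mp hK))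
  have hKn := nil_of_center_ne_bot hCN (center_ne_bot_of_fpf hO hK1 (hn _) hreg)
  have hq := pqCond_of_fpf hO (hn _) hreg
  have hCN' : IsCNGroup (Cos N) := quotient_of_pgroup hCN hp hNp
    ((cosHom N).comp ((MonoidHom.id G).codRestrict _ fun x => hn ⊤ (mem_top x)))
    ((cosHom_surjective N).comp fun x => ⟨x, rfl⟩) (Subgroup.ext fun x => by
      rw [MonoidHom.mem_ker, ← cos_eq_one_iff (hn ⊤ (mem_top x)), cos, pf_of_mem _ (hn ⊤ (mem_top x))]; rfl)
  have hKN : K ⊓ N = ⊥ := (inf_comm _ _).trans hreg.TI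
  have e := quoEquivOfDisjoint (hn K) hKN
  have hd : p ∣ Nat.card (⊤ ⧸⧸ N) := by
    rw [card_quo (hn _)]
    by_contra h
    exact hPn (sub_pHall (Sylow_intro le_top hNp h) (pHall_pgroup hP) (pcore_sub_Hall hP) le_top ▸ hn _)
  obtain ⟨t1, t2, t3, t4⟩ := top_part hCN' hp (mim_isSolvable _ hs) (trivg_pcore_quo _ _) hd (quo_pHall (hn _) hK)
    (mim_isNilpotent _ hKn) (hq.of_injective e.symm.toMonoidHom e.symm.injective)
  have hKp : (Nat.card K).Coprime p := (p'group_iff_coprime hp).mp (pHall_pgroup hK)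
  refine Or.inr ⟨p, hp, ?_⟩
  unfold IsThreeStepGroup
  rw [← opOf_top hp]
  refine ⟨hO, K, hK1, cyclic_of_mim _ (hn _) (by rwa [mker_cosHom]) t2, by rwa [Nat.card_congr e.toEquiv], hKp,
    normalIn_top.mp ⟨le_top, sup_comm K N ▸ norm_sup_of_quo_norm (hn _) (hn _) t1.2⟩, fun h => ?_, ?_, hreg,
    fun x hx a ha ha1 h => hx ?_⟩
  · rw [← h, quo_sup_left (hn _), ← Nat.card_congr e.toEquiv] at hd
    exact hp.one_lt.ne' (Nat.eq_one_of_dvd_coprimes hKp hd dvd_rfl)
  · have h := relIndex_pHall hK (by simpa using hP)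
    obtain ⟨k, hk⟩ := pgp_card hp (pHall_pgroup hP)
    rw [hk, relIndex_top_right] at h
    obtain ⟨j, -, hj⟩ := (Nat.dvd_prime_pow hp).mp (h ▸ index_dvd_of_le (le_sup_right : K ≤ N ⊔ K))
    exact ⟨j, hj⟩
  · have hx' := hn ⊤ (mem_top x)
    have ha' := hn ⊤ (mem_top a)
    have := t4 _ (pf_mem_mim _ ha) (fun h1 => ha1 (mem_bot.mp (hKN.le ⟨ha, (cos_eq_one_iff ha').mp h1⟩)))
      (x := cos N x) ⟨pf_mem_mim _ (mem_top x), mem_cent1.mpr (by
        rw [← commutatorElement_eq_one_iff_mul_comm, ← pf_commutatorElement _ hx' ha']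
        exact cos_eq_one_of_mem h)⟩
    rw [← quo_sup_left (hn K)] at this
    exact (cos_mem_quo_iff ⟨le_sup_left, hn _⟩ hx').mp this


end Cfsg.Agent.S1476
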