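import Mathlib
-- Template for statement S1477 (row 1477; see /opt/grader/pristine/manifest.json for weights).
-- Copy to Cfsg/Agent/S1477.lean and replace the sorry. The statement below is byte-identical to the frozen
-- statement Cfsg.CfsgFrozen.S1477 (Cfsg/Statements/S1477.lean; the theorem Cfsg.cn_group_maximal_nilpotent_subgroup);
-- the grader kernel-checks Cfsg.Agent.S1477.result against that frozen type. Keep the theorem IN THIS FILE
-- (a `result` declared elsewhere and merely imported here is not credited); helpers may live anywhere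
-- under Cfsg/Agent/.
import Cfsg.Statements.S1477
import Cfsg.Agent.Lib.CN.Basic

set_option autoImplicit false
open Cfsg

namespace Cfsg.Agent.S1477

/-- Let G be a finite group in which every non-identity element has nilpotent centralizer, and H a nilpotent subgroup not properly contained in any nilpotent subgroup. Then the order of H is coprime to its index; if the order of H is not a prime power then H ∩ gHg⁻¹ = 1 whenever gHg⁻¹ ≠ H; and if H ∩ gHg⁻¹ = 1 whenever gHg⁻¹ ≠ H, then C_G(x) ≤ H for every non-identity x ∈ H. -/
theorem result {G : Type*} [Group G] [Finite G] (hCN : Cfsg.IsCNGroup G) (H : Subgroup G) (hH : Group.IsNilpotent H)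
    (hmax : ∀ L : Subgroup G, Group.IsNilpotent L → H ≤ L → L = H) :
    (Nat.card H).Coprime H.index ∧
      (¬ IsPrimePow (Nat.card H) → Nat.card H ≠ 1 → ∀ g : G, H.map (MulAut.conj g).toMonoidHom ≠ H → H ⊓ H.map (MulAut.conj g).toMonoidHom = ⊥) ∧
      ((∀ g : G, H.map (MulAut.conj g).toMonoidHom ≠ H → H ⊓ H.map (MulAut.conj g).toMonoidHom = ⊥) → ∀ x ∈ H, x ≠ 1 → Subgroup.centralizer ({x} : Set G) ≤ H) := by
  refine ⟨by simpa using (CfsgLib.CN.maxnil_Hall hCN hH hmax).2, fun h1 _ g hg => ?_, fun h x hx hx1 => ?_⟩
  · by_contra h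
    exact hg (CfsgLib.CN.maxnil_TI hCN hH hmax h1 h)
  · refine CfsgLib.CN.maxnil_cent1_le hCN hH hmax (fun g hg => ?_) hx hx1
    by_contra h'
    exact hg (h g h')

end Cfsg.Agent.S1477
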