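import Mathlib
-- Template for statement S1481 (row 1481; see /opt/grader/pristine/manifest.json for weights).
-- Copy to Cfsg/Agent/S1481.lean and replace the sorry. The statement below is byte-identical to the frozen
-- statement Cfsg.CfsgFrozen.S1481 (Cfsg/Statements/S1481.lean; the theorem Cfsg.maximal_local_fitting_two_primes_unique_invariant_sylow);
-- the grader kernel-checks Cfsg.Agent.S1481.result against that frozen type. Keep the theorem IN THIS FILE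
-- (a `result` declared elsewhere and merely imported here is not credited); helpers may live anywhere
-- under Cfsg/Agent/.
import Cfsg.Statements.S1481
import Cfsg.Agent.Lib.TB.Trans

set_option autoImplicit false
open Cfsg

namespace Cfsg.Agent.S1481

open Subgroup CfsgLib.BG
open scoped commutatorElement

theorem main {G : Type*} [Group G] [Finite G] {H : Subgroup G}
    (hHmax : ∀ L : Subgroup G, Cfsg.IsLocalSubgroup L → H ≤ L → L = H)
    (hF2 : 2 ≤ (Nat.card (fittingOf H)).primeFactors.card)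
    {M : Subgroup G} (hM : M ≤ fittingOf H) (hCM : fittingOf H ⊓ 𝒞(M) ≤ M)
    {R : Subgroup G} (hR : Group.IsSolvable R) (hMR : M ≤ 𝒩(R)) (hXR : H ⊓ 𝒞(fittingOf H) ≤ 𝒩(R)) :
    (∀ Y : Subgroup G, Y ≤ R → IsPiSubgroup (piOf (Nat.card (fittingOf H)))ᶜ Y → Y ≤ 𝒞(M) → Y = ⊥) ∧
    ∀ Y : Subgroup G, Y ≤ R → IsPiSubgroup (piOf (Nat.card (fittingOf H)))ᶜ Y → M ≤ 𝒩(Y) →
      Y ≤ piCoreOf (piOf (Nat.card (fittingOf H)))ᶜ R := by
  set F := fittingOf H
  set π := piOf (Nat.card F)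
  have hF : IsPiSubgroup π F := pigroup_piOf F
  have hFn := Fitting_nil H
  have hZ : ∀ r ∈ π, ∃ Z : Subgroup G, Z ⊲ H ∧ IsPiSubgroup {r} Z ∧ Z ≤ M ∧ Z ≤ 𝒞(F) ∧ 𝒞(Z) ≤ H := by
    intro r hr
    have hO : opOf r H ≠ ⊥ := Sylow_ne_bot hr.1 (opOf_Sylow_Fitting r H) hr.2
    have hn : centerOf (opOf r H) ⊲ H := ⟨(centerOf_le _).trans (pcore_sub _ _), norms_centerOf (pcore_norm _ _)⟩
    have hp : IsPiSubgroup {r} (centerOf (opOf r H)) := pigroupS (centerOf_le _) (pcore_pgroup _ _)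
    have hc : centerOf (opOf r H) ≤ 𝒞(F) := by
      refine le_trans ?_ (centS (Fitting_le_sup r H))
      exact centsY (centerOf_le_cent _) ((centerOf_le _).trans (cents_symm (oppOf_cent_opOf r H)))
    refine ⟨_, hn, hp, (le_inf ((centerOf_le _).trans (opOf_le_Fitting r H)) (hc.trans (centS hM))).trans hCM, hc, ?_⟩
    exact (cent_sub _).trans
      (hHmax _ ⟨r, _, hr.1, pgp_isPGroup hp, center_nil_ne_bot (pgp_nil (pcore_pgroup _ _)) hO, rfl⟩ hn.2).le
  obtain ⟨p₁, hp₁, p₂, hp₂, hne⟩ := Finset.one_lt_card.mp hF2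
  have hπ : ∀ {r : ℕ}, r ∈ (Nat.card F).primeFactors → r ∈ π := fun h =>
    ⟨Nat.prime_of_mem_primeFactors h, Nat.dvd_of_mem_primeFactors h⟩
  have hXRF : H ⊓ 𝒞(F) ⊓ R ≤ F := by
    have hn : H ⊓ 𝒞(F) ⊓ R ⊲ H ⊓ 𝒞(F) := normalIn_inf_of_norm hXR
    have h1 : fittingOf (H ⊓ 𝒞(F) ⊓ R) ≤ F :=
      (Fitting_le_of_normal hn).trans (Fitting_le_of_normal (subcent_normal (Fitting_norm H)))
    refine le_trans (le_inf le_rfl ?_) ((sol_cent_Fitting (solvableS inf_le_right hR)).trans h1)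
    exact (inf_le_left.trans inf_le_right).trans (centS h1)
  have key : ∀ Y : Subgroup G, Y ≤ R → IsPiSubgroup πᶜ Y → Y ≤ H → Y ≤ 𝒞(M) → Y = ⊥ := by
    intro Y h1 h2 h3 h4
    have h5 : M ≤ F ⊓ 𝒞(Y) := le_inf hM (cents_symm h4)
    have h6 : Y ≤ 𝒞(F) := coprime_nil_faithful_cent_stab (h3.trans (Fitting_norm H)) (pigroup_coprime hF h2) hFn
      (((inf_le_inf_left _ (centS h5)).trans hCM).trans h5)
    exact pigroup_eq_bot (pigroupS ((le_inf (le_inf h3 h6) h1).trans hXRF) hF) h2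
  refine ⟨fun Y h1 h2 h4 => ?_, fun Y h1 h2 h3 => ?_⟩
  · obtain ⟨Z, -, -, hZM, -, hZH⟩ := hZ p₁ (hπ hp₁)
    exact key Y h1 h2 ((h4.trans (centS hZM)).trans hZH) h4
  have hYH : Y ⊓ H = ⊥ := by
    refine key _ (inf_le_left.trans h1) (pigroupS inf_le_left h2) inf_le_right ?_
    rw [← commG1, eq_bot_iff, ← pigroup_TI' h2 hF]
    exact le_inf ((commSg _ inf_le_left).trans (commg_subl.mpr h3))
      ((commgSS inf_le_right hM).trans (commg_subr.mpr (Fitting_norm H)))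
  have hL : Group.IsSolvable ↥(R ⊔ M) := solvableY (Or.inr hMR) hR (nilpotent_sol (nilpotentS hM hFn))
  have hp' : ∀ p ∈ π, Y ≤ oppOf p R := by
    intro p hp
    obtain ⟨r, hr, hrp⟩ : ∃ r ∈ π, r ≠ p := by
      by_cases h : p₁ = p
      · exact ⟨p₂, hπ hp₂, h ▸ hne.symm⟩
      · exact ⟨p₁, hπ hp₁, h⟩
    obtain ⟨Z, hZn, hZr, hZM, hZF, hZH⟩ := hZ r hr
    obtain ⟨W, -, hWp, hWM, -, hWH⟩ := hZ p hp
    have h4 : ⁅Y, Z⁆ = Y := coprime_commg_eq_of_cent_bot (hZM.trans h3) (pigroup_coprime' h2 (pi_pgp hZr hr))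
      (Or.inl (pgp_sol hZr)) (eq_bot_iff.mpr ((inf_le_inf_left _ hZH).trans hYH.le))
    have h5 : Z ≤ oppOf p (R ⊔ M) := by
      refine le_trans (pcore_max (hZn.of_le ?_ (inf_le_right.trans hWH)) (pgp_p'group hZr hrp))
        (p'core_cent_pgroup hp.1 (hWM.trans le_sup_right) hWp hL)
      exact le_inf (hZM.trans le_sup_right) (hZF.trans (centS (hWM.trans hM)))
    rw [oppOf, ← pcore_setI_normal _ (normalIn_sup_left hMR)]
    refine le_inf ?_ h1
    rw [← h4]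
    exact (commgS _ h5).trans (commg_subr.mpr ((h1.trans le_sup_left).trans (pcore_norm _ _)))
  refine le_trans (le_iInf₂ hp' : Y ≤ ⨅ p ∈ π, oppOf p R) (pcore_max ⟨?_, ?_⟩ fun p hp hd hp'' => ?_)
  · exact (iInf₂_le p₁ (hπ hp₁)).trans (pcore_sub _ _)
  · exact norms_iInf fun p => norms_iInf fun _ => pcore_norm _ _
  · exact pcore_pgroup {p}ᶜ R p hp (hd.trans (cardSg (iInf₂_le p hp''))) rfl


/-- Let G be a finite group and H a local subgroup (the normalizer of a nontrivial subgroup of prime-power order) not properly contained in any local subgroup; let F = F(H), suppose at least two primes divide #F, put X = H ∩ C_G(F), let M ≤ F with F ∩ C_G(M) ≤ M, and let R be a solvable subgroup normalized by M and by X. Then for every prime q not dividing #F there is exactly one maximal M-invariant q-subgroup of R, and it is a Sylow q-subgroup of the largest normal subgroup of R of order coprime to #F. -/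
theorem result {G : Type*} [Group G] [Finite G] (H : Subgroup G) (hH : Cfsg.IsLocalSubgroup H) (hHmax : ∀ L : Subgroup G, Cfsg.IsLocalSubgroup L → H ≤ L → L = H)
    (hF2 : 2 ≤ (Nat.card (Cfsg.fittingOf H)).primeFactors.card)
    (M : Subgroup G) (hM : M ≤ Cfsg.fittingOf H) (hCM : Cfsg.fittingOf H ⊓ Subgroup.centralizer (M : Set G) ≤ M)
    (R : Subgroup G) (hR : Group.IsSolvable R) (hMR : M ≤ Subgroup.normalizer (R : Set G))
    (hXR : H ⊓ Subgroup.centralizer (Cfsg.fittingOf H : Set G) ≤ Subgroup.normalizer (R : Set G))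
    (q : ℕ) [Fact q.Prime] (hq : ¬ q ∣ Nat.card (Cfsg.fittingOf H)) :
    ∃! Q : Subgroup G, Q ∈ Cfsg.maxInvSubgroups R M {q} ∧
      (∀ Q' : Subgroup G, Q' ∈ Cfsg.maxInvSubgroups R M {q} →
        Q' ≤ Cfsg.piCoreOf (Cfsg.primesNotDvd (Nat.card (Cfsg.fittingOf H))) R ∧
        ¬ q ∣ Q'.relIndex (Cfsg.piCoreOf (Cfsg.primesNotDvd (Nat.card (Cfsg.fittingOf H))) R)) := by
  obtain ⟨h1, h2⟩ := main hHmax hF2 hM hCM hR hMR hXR
  have hq' : q.Prime := Fact.out
  rw [pcore_congr (ρ := (piOf (Nat.card (fittingOf H)))ᶜ) fun r hr => by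
    rw [mem_primesNotDvd, Set.mem_compl_iff, mem_piOf]; simp [hr]]
  set T := piCoreOf (piOf (Nat.card (fittingOf H)))ᶜ R
  have hMT : M ≤ 𝒩(T) := norms_pcore _ hMR
  have hco : (Nat.card T).Coprime (Nat.card M) := pigroup_coprime' (pcore_pgroup _ _) (pigroupS hM (pigroup_piOf _))
  have hs : Group.IsSolvable T := solvableS (pcore_sub _ _) hR
  have key : ∀ Q ∈ maxInvSubgroups R M {q}, IsSylowOf q Q T := by
    intro Q hQ
    obtain ⟨P, h3, h4, h5⟩ := coprime_Sylow_subset hq' hMT hco (Or.inr hs)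
      (h2 Q hQ.1.1 (pi_pgp hQ.1.2.1 fun h => hq h.2) hQ.1.2.2) hQ.1.2.1 hQ.1.2.2
    rwa [← hQ.2 P ⟨(pHall_sub h3).trans (pcore_sub _ _), pHall_pgroup h3, h4⟩ h5]
  obtain ⟨Q, hQ, -⟩ := CfsgLib.TB.exists_maxInv (H := R) (A := M) (π := {q}) (X := ⊥)
    ⟨bot_le, pigroup1 _, by rw [norm_bot]; exact le_top⟩
  refine ⟨Q, ⟨hQ, fun Q' hQ' => ⟨pHall_sub (key Q' hQ'), Sylow_index hq' (key Q' hQ')⟩⟩, fun Q' hQ' => ?_⟩
  obtain ⟨x, hx, rfl⟩ := coprime_Sylow_trans hq' hMT hco (Or.inr hs) (key Q hQ) hQ.1.2.2 (key Q' hQ'.1) hQ'.1.1.2.2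
  rw [h1 _ (inf_le_left.trans (pcore_sub _ _)) (pigroupS inf_le_left (pcore_pgroup _ _)) inf_le_right, mem_bot] at hx
  rw [hx, cj_one]

end Cfsg.Agent.S1481
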