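import Cfsg.Statements.S1485
import Mathlib
import Cfsg.Agent.Lib.PF.S1_Frozen

set_option autoImplicit false
open Cfsg

namespace Cfsg.Agent.S1485

open CfsgLib.PF CfsgLib.BG CfsgLib.PF.Frozen1


/-- Let H be a normal subgroup of the finite group G and θ an irreducible character of H. On H, the function induced from θ equals r times the sum of the distinct G-conjugates of θ, where r is the number of elements of G fixing θ under conjugation divided by the order of H (the index of H in the inertia group). -/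
theorem result {G : Type*} [Group G] [Fintype G] (H : Subgroup G) [hN : H.Normal] (θ : H → ℂ) (hθ : Cfsg.IsIrrCharacter H θ) : (fun h : H => Cfsg.indFun H θ h) = ((Nat.card {g : G // ∀ h : H, θ ⟨g * h * g⁻¹, hN.conj_mem h h.2 g⟩ = θ h} : ℂ) / (Nat.card H : ℂ)) • ∑ᶠ ψ ∈ {ψ : H → ℂ | ∃ g : G, ψ = fun h : H => θ ⟨g * h * g⁻¹, hN.conj_mem h h.2 g⟩}, ψ := by
  classical
  have hθ' := isIrr_extendByZero.mpr hθ
  have h := cfInd_sum_cfclass (normalIn_top.mpr hN) hθ'.mem_CF
  rw [Ind_top_extendByZero, relIndex_eq_div (le_inertia le_top hθ'.mem_CF)] at h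
  have h1 : Nat.card {g : G // ∀ h : H, θ ⟨g * h * g⁻¹, hN.conj_mem h h.2 g⟩ = θ h} =
      Nat.card (inertia ⊤ (extendByZero H θ)) :=
    Nat.card_congr (Equiv.subtypeEquivRight fun g => (mem_inertia_top θ g).symm)
  have h2 : {ψ : H → ℂ | ∃ g : G, ψ = fun h : H => θ ⟨g * h * g⁻¹, hN.conj_mem h h.2 g⟩} =
      ((cfclass ⊤ (extendByZero H θ)).image fun (ψ : G → ℂ) (x : H) => ψ x : Finset (H → ℂ)) := by
    ext ψ
    simp only [Set.mem_setOf_eq, ← mem_cfclass_top, Finset.coe_image, Set.mem_image,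
      Finset.mem_coe]
    refine ⟨fun e => ⟨_, e, res_extendByZero H ψ⟩, ?_⟩
    rintro ⟨ξ, hξ, rfl⟩
    rwa [extendByZero_res, Res_eq_self (hθ'.of_mem_cfclass (normalIn_top.mpr hN).2 hξ).1]
  rw [h1, h2, finsum_mem_coe_finset, Finset.sum_image fun ξ hξ ξ' hξ' e =>
    eq_of_res_eq (hθ'.of_mem_cfclass (normalIn_top.mpr hN).2 hξ).1
      (hθ'.of_mem_cfclass (normalIn_top.mpr hN).2 hξ').1 e, h]
  ext x
  simp [Finset.sum_apply]

end Cfsg.Agent.S1485
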