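import Cfsg.Statements.S1488
import Mathlib
import Cfsg.Agent.Lib.PF.S1_Frozen

set_option autoImplicit false
open Cfsg

namespace Cfsg.Agent.S1488

open CfsgLib.PF CfsgLib.BG CfsgLib.PF.Frozen1


/-- Let A be a normal subgroup of the finite group G contained in the subgroup H, let θ be a function on H and θ₁ a function on the image of H in G ⧸ A whose composite with the projection is θ. Then the function induced from θ₁ to G ⧸ A, composed with the projection G → G ⧸ A, equals the function induced from θ to G. -/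
theorem result {G : Type*} [Group G] [Fintype G] (A H : Subgroup G) [A.Normal] (hAH : A ≤ H) [Fintype (G ⧸ A)] [Fintype ↥(H.map (QuotientGroup.mk' A))] (θ : H → ℂ) (θ₁ : ↥(H.map (QuotientGroup.mk' A)) → ℂ) (hθ : ∀ x : H, θ₁ ⟨QuotientGroup.mk' A x, Subgroup.mem_map_of_mem _ x.2⟩ = θ x) (g : G) : Cfsg.indFun (H.map (QuotientGroup.mk' A)) θ₁ (QuotientGroup.mk' A g) = Cfsg.indFun H θ g := by
  let f : (⊤ : Subgroup G) →* G ⧸ A := (QuotientGroup.mk' A).comp (Subgroup.subtype ⊤)
  have hpf : ∀ x, pf f x = QuotientGroup.mk' A x := fun x => pf_of_mem f (Subgroup.mem_top x)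
  have hm : ∀ K : Subgroup G, mim f K = K.map (QuotientGroup.mk' A) := fun K => by
    ext y
    simp only [mem_mim_of_le f le_top, hpf, Subgroup.mem_map]
  have h := Ind_cfMorph f (H := H) le_top le_rfl (fun x hx => hAH (by
    have := (pf_eq_one_iff f (Subgroup.mem_top x)).mpr hx.2
    rwa [hpf, QuotientGroup.mk'_apply, QuotientGroup.eq_one_iff] at this))
    (extendByZero (H.map (QuotientGroup.mk' A)) θ₁)
  have h1 : cfMorph f H (extendByZero (H.map (QuotientGroup.mk' A)) θ₁) = extendByZero H θ :=
    CF_ext (fun x hx => cfMorph_apply_of_not_mem f _ hx) (extendByZero_not_mem H θ) fun x hx => by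
      rw [cfMorph_apply_of_mem f _ hx, hpf]
      exact ((extendByZero_coe' _ θ₁ ⟨_, Subgroup.mem_map_of_mem _ hx⟩).trans (hθ ⟨x, hx⟩)).trans
        (extendByZero_coe' H θ ⟨x, hx⟩).symm
  rw [h1, hm, hm, Subgroup.map_top_of_surjective _ (QuotientGroup.mk'_surjective A),
    Ind_top_extendByZero, Ind_top_extendByZero] at h
  rw [h, cfMorph_apply_of_mem f _ (Subgroup.mem_top g), hpf]

end Cfsg.Agent.S1488
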