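import Cfsg.Statements.S1489
import Mathlib
import Cfsg.Agent.Lib.PF.S1_Frozen

set_option autoImplicit false
open Cfsg

namespace Cfsg.Agent.S1489

open CfsgLib.PF CfsgLib.BG CfsgLib.PF.Frozen1


/-- Let H be a normal subgroup of the finite group G, θ an irreducible character of H, and T the inertia group of θ (the elements g with θ(g h g⁻¹) = θ(h) for all h ∈ H). If ψ and ψ' are irreducible characters of T having nonzero inner product with the function induced from θ to T, then the function induced from ψ to G is an irreducible character of G, and it equals the one induced from ψ' only if ψ = ψ'. -/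
theorem result {G : Type*} [Group G] [Fintype G] (H T : Subgroup G) [hN : H.Normal] [Fintype T] (θ : H → ℂ) (hθ : Cfsg.IsIrrCharacter H θ) (hT : ∀ g : G, g ∈ T ↔ ∀ h : H, θ ⟨g * h * g⁻¹, hN.conj_mem h h.2 g⟩ = θ h) (hHT : H ≤ T) (ψ ψ' : T → ℂ) (hψ : Cfsg.IsIrrCharacter T ψ) (hψ' : Cfsg.IsIrrCharacter T ψ') (hc : Cfsg.classInner (Cfsg.indFun (H.subgroupOf T) (fun x => θ ⟨(x : T), Subgroup.mem_subgroupOf.mp x.2⟩)) ψ ≠ 0) (hc' : Cfsg.classInner (Cfsg.indFun (H.subgroupOf T) (fun x => θ ⟨(x : T), Subgroup.mem_subgroupOf.mp x.2⟩)) ψ' ≠ 0) : Cfsg.IsIrrCharacter G (Cfsg.indFun T ψ) ∧ (Cfsg.indFun T ψ = Cfsg.indFun T ψ' → ψ = ψ') := by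
  have hθ' := isIrr_extendByZero.mpr hθ
  have key : ∀ ψ : T → ℂ, IsIrrCharacter T ψ → classInner (indFun (H.subgroupOf T)
      (fun x => θ ⟨(x : T), Subgroup.mem_subgroupOf.mp x.2⟩)) ψ ≠ 0 →
      dot H (extendByZero T ψ) (extendByZero H θ) ≠ 0 := by
    intro ψ hψ hc e
    apply hc
    rw [← dot_Ind_right hHT _ (isIrr_extendByZero.mpr hψ).mem_CF, dot_eq_zero_comm,
      dot_eq_classInner, res_extendByZero, res_Ind_eq_indFun T hHT] at e
    rw [← e]
    congr 2
    ext x
    exact (extendByZero_coe' H θ ⟨(x : T), Subgroup.mem_subgroupOf.mp x.2⟩).symm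
  have hI := (inertia_top_eq hT).le
  rw [← Ind_top_extendByZero, ← Ind_top_extendByZero, ← isIrr_top]
  exact ⟨(Clifford_corr_irr (normalIn_top.mpr hN) hθ' hI le_top (isIrr_extendByZero.mpr hψ)
    (key ψ hψ hc)).1, fun e => extendByZero_inj.mp (Clifford_corr_inj (normalIn_top.mpr hN) hθ' hI
      le_top (isIrr_extendByZero.mpr hψ) (key ψ hψ hc) (isIrr_extendByZero.mpr hψ')
      (key ψ' hψ' hc') e)⟩

end Cfsg.Agent.S1489
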