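import Cfsg.Statements.S1490
import Mathlib
import Cfsg.Agent.Lib.PF.S1_Frozen

set_option autoImplicit false
open Cfsg

namespace Cfsg.Agent.S1490

open CfsgLib.PF CfsgLib.BG CfsgLib.PF.Frozen1


/-- Let H be a normal subgroup of the finite group G, θ an irreducible character of H with inertia group T, and suppose the commutator of any two elements of T lies in H (T/H abelian). Then there are a positive integer e and a finite set C of irreducible characters of G with e ^ 2 * |C| * |H| = |T|, such that the function induced from θ is e times the sum of the members of C and every member of C has degree [G:T] * e * θ(1). -/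
theorem result {G : Type*} [Group G] [Fintype G] (H T : Subgroup G) [hN : H.Normal] (θ : H → ℂ) (hθ : Cfsg.IsIrrCharacter H θ) (hT : ∀ g : G, g ∈ T ↔ ∀ h : H, θ ⟨g * h * g⁻¹, hN.conj_mem h h.2 g⟩ = θ h) (hab : ∀ x ∈ T, ∀ y ∈ T, x * y * x⁻¹ * y⁻¹ ∈ H) : ∃ (e : ℕ) (C : Finset (G → ℂ)), 0 < e ∧ (∀ χ ∈ C, Cfsg.IsIrrCharacter G χ) ∧ e ^ 2 * C.card * Nat.card H = Nat.card T ∧ Cfsg.indFun H θ = (e : ℂ) • ∑ χ ∈ C, χ ∧ ∀ χ ∈ C, χ 1 = (T.index : ℂ) * e * θ 1 := by
  have hθ' := isIrr_extendByZero.mpr hθ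
  have hI := inertia_top_eq hT
  obtain ⟨e, he, -, h2, h3, h4⟩ := cfInd_central_Inertia (normalIn_top.mpr hN) hθ'
    (by rw [hI]; exact Subgroup.commutator_le.mpr hab)
  rw [hI] at h3 h4
  rw [Ind_top_extendByZero] at h2
  refine ⟨e, _, he, fun χ hχ => isIrr_top.mp (mem_Irr.mp (Finset.mem_filter.mp hχ).1), ?_, h2,
    fun χ hχ => ?_⟩
  · rw [mul_comm (e ^ 2), h3, mul_comm, card_mul_relIndex (hI ▸ le_inertia le_top hθ'.mem_CF)]
  · rw [h4 χ (mem_Irr.mp (Finset.mem_filter.mp hχ).1) (Finset.mem_filter.mp hχ).2,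
      Subgroup.relIndex_top_right]
    exact congrArg _ (extendByZero_coe' H θ 1)

end Cfsg.Agent.S1490
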