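import Cfsg.Statements.S1491
import Mathlib
import Cfsg.Agent.Lib.PF.S1_Frozen

set_option autoImplicit false
open Cfsg

namespace Cfsg.Agent.S1491

open CfsgLib.PF CfsgLib.BG CfsgLib.PF.Frozen1


/-- Let H be a normal subgroup of the finite group G and θ an irreducible character of H with inertia group T, where T/H is abelian (commutators of T lie in H) and the index of H in T is coprime to the order of H. Then the function induced from θ is the sum of a set of exactly [T:H] irreducible characters of G, each of degree [G:T] * θ(1). -/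
theorem result {G : Type*} [Group G] [Fintype G] (H T : Subgroup G) [hN : H.Normal] (θ : H → ℂ) (hθ : Cfsg.IsIrrCharacter H θ) (hT : ∀ g : G, g ∈ T ↔ ∀ h : H, θ ⟨g * h * g⁻¹, hN.conj_mem h h.2 g⟩ = θ h) (hab : ∀ x ∈ T, ∀ y ∈ T, x * y * x⁻¹ * y⁻¹ ∈ H) (hcop : Nat.Coprime (Nat.card H) (H.relIndex T)) : ∃ C : Finset (G → ℂ), (∀ χ ∈ C, Cfsg.IsIrrCharacter G χ) ∧ C.card = H.relIndex T ∧ Cfsg.indFun H θ = ∑ χ ∈ C, χ ∧ ∀ χ ∈ C, χ 1 = (T.index : ℂ) * θ 1 := by
  have hθ' := isIrr_extendByZero.mpr hθ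
  have hI := inertia_top_eq hT
  obtain ⟨h2, h3, h4⟩ := cfInd_Hall_central_Inertia (normalIn_top.mpr hN) hθ'
    (by rw [hI]; exact Subgroup.commutator_le.mpr hab) (by rwa [hI])
  rw [hI] at h3 h4
  rw [Ind_top_extendByZero] at h2
  refine ⟨_, fun χ hχ => isIrr_top.mp (mem_Irr.mp (Finset.mem_filter.mp hχ).1), h3, h2,
    fun χ hχ => ?_⟩
  rw [h4 χ (mem_Irr.mp (Finset.mem_filter.mp hχ).1) (Finset.mem_filter.mp hχ).2,
    Subgroup.relIndex_top_right]
  exact congrArg _ (extendByZero_coe' H θ 1)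

end Cfsg.Agent.S1491
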