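import Cfsg.Statements.S1492
import Mathlib
import Cfsg.Agent.Lib.PF.Sec1

set_option autoImplicit false
open Cfsg

namespace Cfsg.Agent.S1492

open CfsgLib.PF CfsgLib.BG


/-- Let ψ be an irreducible character of the finite group G and B ≤ D ≤ C subgroups with B normal in C, every commutator of an element of D with an element of C lying in B (so D/B is central in C/B), and ψ constant equal to ψ 1 on B. Then ψ(1) ^ 2 * |C| * |D| ≤ |G| ^ 2. -/
theorem result {G : Type*} [Group G] [Finite G] (ψ : G → ℂ) (hψ : Cfsg.IsIrrCharacter G ψ) (B C D : Subgroup G) (hBD : B ≤ D) (hDC : D ≤ C) (hBn : ∀ c ∈ C, ∀ b ∈ B, c * b * c⁻¹ ∈ B) (hcent : ∀ d ∈ D, ∀ c ∈ C, d * c * d⁻¹ * c⁻¹ ∈ B) (hker : ∀ b ∈ B, ψ b = ψ 1) : ‖ψ 1‖ ^ 2 * (Nat.card C : ℝ) * (Nat.card D : ℝ) ≤ (Nat.card G : ℝ) ^ 2 := by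
  have hψ' := isIrr_top.mpr hψ
  have h := irr1_bound_quo (B := B) hψ' hker hDC le_top
    (Subgroup.commutator_le.mpr fun d hd c hc => hcent d hd c hc)
  obtain ⟨n, -, hn⟩ := hψ'.one_pos
  rw [hn] at h ⊢
  have h1 : (Nat.card C : ℝ) * C.relIndex ⊤ = Nat.card G := by
    rw [← Subgroup.card_top (G := G)]; exact_mod_cast card_mul_relIndex (le_top : C ≤ ⊤)
  have h2 : (Nat.card D : ℝ) * D.relIndex C = Nat.card C := by exact_mod_cast card_mul_relIndex hDC
  rw [Complex.natCast_re] at h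
  rw [Complex.norm_natCast, ← h1]
  calc (n : ℝ) ^ 2 * Nat.card C * Nat.card D
      ≤ (C.relIndex ⊤ : ℝ) ^ 2 * D.relIndex C * Nat.card C * Nat.card D := by gcongr
    _ = _ := by rw [mul_pow, sq (Nat.card C : ℝ)]; nth_rewrite 3 [← h2]; ring

end Cfsg.Agent.S1492
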