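import Cfsg.Statements.S1493
import Mathlib
import Cfsg.Agent.Lib.PF.Sec1

set_option autoImplicit false
open Cfsg

namespace Cfsg.Agent.S1493

open CfsgLib.PF CfsgLib.BG


/-- Let G be a finite group of order a * b with a and b coprime, let k be coprime to a, and let χ be a character of G. Then there is a character χ' of G such that χ'(g) = χ(g ^ k) whenever the order of g divides a and χ'(g) = χ(g) whenever the order of g is coprime to a; moreover χ' is irreducible if χ is. -/
theorem result {G : Type*} [Group G] [Finite G] (a b k : ℕ) (hab : Nat.card G = a * b) (hcop : Nat.Coprime a b) (hk : Nat.Coprime k a) (χ : G → ℂ) (hχ : Cfsg.IsCharacter G χ) : ∃ χ' : G → ℂ, Cfsg.IsCharacter G χ' ∧ (Cfsg.IsIrrCharacter G χ → Cfsg.IsIrrCharacter G χ') ∧ (∀ g : G, orderOf g ∣ a → χ' g = χ (g ^ k)) ∧ (∀ g : G, Nat.Coprime (orderOf g) a → χ' g = χ g) := by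
  have ha : 0 < a := Nat.pos_of_mul_pos_right (hab ▸ Nat.card_pos : 0 < a * b)
  obtain ⟨u, -, h2, h3⟩ := make_pi_cfAut G ha hk
  have hv := (isChar_top.mpr hχ).isVChar
  exact ⟨fun g => u (χ g), CfsgLib.CharGal.isCharacter_gal (u : ℂ →+* ℂ) hχ,
    CfsgLib.CharGal.isIrr_gal u, fun g hg => h2 ⊤ χ g hv trivial hg, fun g hg => h3 ⊤ χ g hv hg⟩

end Cfsg.Agent.S1493
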