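import Cfsg.Statements.S1495
import Mathlib
import Cfsg.Agent.Lib.PF.Sec1

set_option autoImplicit false
open Cfsg

namespace Cfsg.Agent.S1495

open CfsgLib.PF CfsgLib.BG


/-- Let p be a prime, ε = exp(2πi/p), and n an integer such that n = (1 − ε) * ω for some algebraic integer ω. Then p divides n. -/
theorem result (p : ℕ) (hp : p.Prime) (n : ℤ) (ω : ℂ) (hω : IsIntegral ℤ ω) (h : (n : ℂ) = (1 - Complex.exp (2 * Real.pi * Complex.I / p)) * ω) : (p : ℤ) ∣ n := by
  exact int_eqAmod_prime_prim hp (Complex.isPrimitiveRoot_exp p hp.ne_zero) hω h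

end Cfsg.Agent.S1495
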