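import Cfsg.Statements.S1497
import Cfsg.Agent.Lib.PF.Sec2

set_option autoImplicit false
open Cfsg

namespace Cfsg.Agent.S1497

open CfsgLib.PF CfsgLib.BG

/-- Let A be a nonempty subset of the finite group G not containing 1 and L a subgroup. Then A is a TI-subset whose normaliser is L if and only if the Dade hypothesis holds for A, L and the constant choice H(a) = ⊥. -/
theorem result {G : Type*} [Group G] [Finite G] (A : Set G) (hA : A.Nonempty) (h1 : (1 : G) ∉ A) (L : Subgroup G) : (Cfsg.IsTISubset A ∧ Subgroup.normalizer A = L) ↔ Cfsg.DadeHypothesis A L (fun _ => ⊥) := by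
  constructor
  · rintro ⟨hTI, rfl⟩
    have h2 : ∀ g : G, ∀ a ∈ A, g * a * g⁻¹ ∈ A → g ∈ Subgroup.normalizer A := fun g a ha hg => by
      by_contra hn
      exact h1 (hTI g hn a ha hg ▸ ha)
    exact normedTI_dade ⟨h1, fun a ha => h2 a a ha (by simpa using ha), le_top,
      fun x hx a ha => (hx a).1 ha, fun g _ => h2 g⟩
  · intro hD
    have h := normedTI_of_dade hD fun _ _ => rfl
    have h2 : Subgroup.normalizer A = L := by
      apply le_antisymm
      · intro g hg
        obtain ⟨a, ha⟩ := hA
        exact h.ti g trivial a ha ((hg a).1 ha)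
      · intro g hg a
        refine ⟨h.conj_mem g hg a, fun ha => ?_⟩
        simpa [mul_assoc] using h.conj_mem _ (L.inv_mem hg) _ ha
    exact ⟨fun g hg a ha hga => absurd (h2 ▸ h.ti g trivial a ha hga) hg, h2⟩

end Cfsg.Agent.S1497
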