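import Cfsg.Statements.S1500
import Cfsg.Agent.Lib.PF.Sec2

set_option autoImplicit false
open Cfsg

namespace Cfsg.Agent.S1500

open CfsgLib.PF CfsgLib.BG

theorem ext_mem_CFon {G : Type*} [Group G] [Finite G] {A : Set G} {L : Subgroup G} {α : L → ℂ}
    (hα : IsClassFunction L α) (hαA : ∀ x : L, (x : G) ∉ A → α x = 0) :
    extendByZero L α ∈ CFon L A :=
  mem_CFon_of (extendByZero_mem_CF.2 hα) fun x hx h =>
    (extendByZero_coe' L α ⟨x, hx⟩).trans (hαA ⟨x, hx⟩ h)

theorem dadeIsometry_eq {G : Type*} [Group G] [Finite G] {A : Set G} {L : Subgroup G}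
    {H : G → Subgroup G} (hD : DadeHypothesis A L H) {α : L → ℂ} (hα : IsClassFunction L α) :
    dadeIsometry A L H α = dade A H (extendByZero L α) := by
  rw [← dadeIsometry_eq_dade hD (extendByZero_mem_CF.2 hα), res_extendByZero]


/-- Under the Dade hypothesis for (A, L, H), let α be a class function of L vanishing outside A. Then (i) for every class function β of L vanishing outside A, the inner product over G of the Dade images of α and β equals the inner product of α and β over L; and (ii) for every class function χ of G and every function ψ on L whose value at each a ∈ A is the average of χ over the coset a·H(a), the inner product over G of the Dade image of α with χ equals the inner product over L of α with ψ. -/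
theorem result {G : Type*} [Group G] [Fintype G] (A : Set G) (L : Subgroup G) [Fintype L] (H : G → Subgroup G) (hD : Cfsg.DadeHypothesis A L H) (α : L → ℂ) (hα : Cfsg.IsClassFunction L α) (hαA : ∀ x : L, (x : G) ∉ A → α x = 0) : (∀ β : L → ℂ, Cfsg.IsClassFunction L β → (∀ x : L, (x : G) ∉ A → β x = 0) → Cfsg.classInner (Cfsg.dadeIsometry A L H α) (Cfsg.dadeIsometry A L H β) = Cfsg.classInner α β) ∧ (∀ (χ : G → ℂ) (ψ : L → ℂ), Cfsg.IsClassFunction G χ → (∀ a : L, (a : G) ∈ A → ψ a = (Nat.card (H a) : ℂ)⁻¹ * ∑ᶠ u ∈ (H a : Set G), χ (a * u)) → Cfsg.classInner (Cfsg.dadeIsometry A L H α) χ = Cfsg.classInner α ψ) := by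
  refine ⟨fun β hβ _ => ?_, fun χ ψ hχ hψ => ?_⟩
  · rw [dadeIsometry_eq hD hα, dadeIsometry_eq hD hβ, ← dot_top,
      dade_isometry hD (ext_mem_CFon hα hαA) (extendByZero_mem_CF.2 hβ), dot_extendByZero]
  · rw [dadeIsometry_eq hD hα, ← dot_top, ← dot_extendByZero]
    refine general_dade_reciprocity hD (ext_mem_CFon hα hαA) (mem_CF_top.2 hχ) fun a ha => ?_
    rw [sum_els_eq_finsum]
    exact (extendByZero_coe' L ψ ⟨a, hD.subset ha⟩).trans (hψ ⟨a, hD.subset ha⟩ ha)

end Cfsg.Agent.S1500
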