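import Cfsg.Statements.S1504
import Mathlib
import Cfsg.Agent.Lib.PF.S3_Frozen

set_option autoImplicit false
open Cfsg

namespace Cfsg.Agent.S1504

open CfsgLib.PF CfsgLib.PF.Frozen3


/-- Let W₁, W₂ be subgroups of a finite group with W₁ ⊓ W₂ = ⊥ whose elements commute, and W = W₁ ⊔ W₂. For linear characters φ, ψ of W with φ trivial on W₂ and ψ trivial on W₁, the function (1 − φ)(1 − ψ) vanishes on W₁ ∪ W₂; and the family of these functions, indexed by pairs (φ, ψ) with φ ≠ 1 ≠ ψ, is linearly independent over ℂ. -/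
theorem result {G : Type*} [Group G] [Finite G] (W₁ W₂ : Subgroup G) (hdisj : W₁ ⊓ W₂ = ⊥) (hcomm : ∀ a ∈ W₁, ∀ b ∈ W₂, a * b = b * a) : (∀ φ ψ : ↥(W₁ ⊔ W₂) →* ℂˣ, (∀ w : ↥(W₁ ⊔ W₂), (w : G) ∈ W₂ → φ w = 1) → (∀ w : ↥(W₁ ⊔ W₂), (w : G) ∈ W₁ → ψ w = 1) → ∀ w : ↥(W₁ ⊔ W₂), ((w : G) ∈ W₁ ∨ (w : G) ∈ W₂) → (1 - (φ w : ℂ) - (ψ w : ℂ) + (φ w : ℂ) * (ψ w : ℂ)) = 0) ∧ LinearIndependent ℂ (fun p : {p : (↥(W₁ ⊔ W₂) →* ℂˣ) × (↥(W₁ ⊔ W₂) →* ℂˣ) // p.1 ≠ 1 ∧ p.2 ≠ 1 ∧ (∀ w : ↥(W₁ ⊔ W₂), (w : G) ∈ W₂ → p.1 w = 1) ∧ (∀ w : ↥(W₁ ⊔ W₂), (w : G) ∈ W₁ → p.2 w = 1)} => fun w : ↥(W₁ ⊔ W₂) => 1 - (p.1.1 w : ℂ) - (p.1.2 w : ℂ) + (p.1.1 w : ℂ) * (p.1.2 w : ℂ)) := by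
  classical
  refine ⟨fun φ ψ hφ hψ w hw => ?_, ?_⟩
  · rcases hw with hw | hw
    · simp [hψ w hw]
    · simp [hφ w hw]
  rw [linearIndependent_iff']
  intro s c hc p hp
  have h1 : ∑ q ∈ s, c q • alphaF q.1.1 q.1.2 = 0 := by
    ext x
    by_cases hx : x ∈ W₁ ⊔ W₂
    · have := congrFun hc ⟨x, hx⟩
      simp only [Finset.sum_apply, Pi.smul_apply, Pi.zero_apply] at this ⊢
      rw [← this]
      exact Finset.sum_congr rfl fun q _ => congrArg _ (extendByZero_coe' _ _ ⟨x, hx⟩)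
    · simp [Finset.sum_apply, alphaF, extendByZero_not_mem _ _ x hx]
  have h2 := congrArg (fun f => dot (W₁ ⊔ W₂) f (dualChar (p.1.1 * p.1.2))) h1
  simp only [dot_sum_left, dot_smul_left] at h2
  rw [Finset.sum_eq_single p (fun q _ hq => ?_) (fun h => absurd hp h),
    dot_alphaF_dual p.2.2.2.1 p.2.2.2.1 p.2.2.2.2 p.2.2.2.2] at h2
  · simpa [p.2.1.symm, p.2.2.1.symm] using h2
  · rw [dot_alphaF_dual q.2.2.2.1 p.2.2.2.1 q.2.2.2.2 p.2.2.2.2]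
    by_cases e : q.1.1 = p.1.1
    · have e' : q.1.2 ≠ p.1.2 := fun e' => hq (Subtype.ext (Prod.ext e e'))
      simp [e', p.2.2.1.symm]
    · simp [e, p.2.1.symm]

end Cfsg.Agent.S1504
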