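import Cfsg.Statements.S1505
import Mathlib
import Cfsg.Agent.Lib.PF.S3_Frozen

set_option autoImplicit false
open Cfsg

namespace Cfsg.Agent.S1505

open CfsgLib.PF CfsgLib.PF.Frozen3


open Classical in
/-- Let W₁, W₂ ≤ G form a self-normalising cyclic subgroup W = W₁ ⊔ W₂. For nontrivial linear characters φ, φ' of W trivial on W₂ and ψ, ψ' trivial on W₁, put α = (1 − φ)(1 − ψ) and α' = (1 − φ')(1 − ψ'). Then the function induced from α to G has inner product 1 with the principal character, and the inner product of the functions induced from α and α' is 1 + a + b + ab where a = 1 if φ = φ' (else 0) and b = 1 if ψ = ψ' (else 0). -/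
theorem result {G : Type*} [Group G] [Fintype G] (W₁ W₂ : Subgroup G) (hW : Cfsg.IsSelfNormalizingCyclic W₁ W₂) (φ φ' ψ ψ' : ↥(W₁ ⊔ W₂) →* ℂˣ) (hφ : φ ≠ 1) (hφ' : φ' ≠ 1) (hψ : ψ ≠ 1) (hψ' : ψ' ≠ 1) (hφ₂ : ∀ w : ↥(W₁ ⊔ W₂), (w : G) ∈ W₂ → φ w = 1 ∧ φ' w = 1) (hψ₁ : ∀ w : ↥(W₁ ⊔ W₂), (w : G) ∈ W₁ → ψ w = 1 ∧ ψ' w = 1) : Cfsg.classInner (Cfsg.indFun (W₁ ⊔ W₂) (fun w => 1 - (φ w : ℂ) - (ψ w : ℂ) + (φ w : ℂ) * (ψ w : ℂ))) (fun _ => 1) = 1 ∧ Cfsg.classInner (Cfsg.indFun (W₁ ⊔ W₂) (fun w => 1 - (φ w : ℂ) - (ψ w : ℂ) + (φ w : ℂ) * (ψ w : ℂ))) (Cfsg.indFun (W₁ ⊔ W₂) (fun w => 1 - (φ' w : ℂ) - (ψ' w : ℂ) + (φ' w : ℂ) * (ψ' w : ℂ))) = 1 + (if φ = φ' then 1 else 0) + (if ψ = ψ' then 1 else 0) + (if φ = φ' then 1 else 0) * (if ψ = ψ' then 1 else 0) := by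
  have a1 : φ ∈ annih (W₁ ⊔ W₂) W₂ := fun w hw => (hφ₂ w hw).1
  have a2 : φ' ∈ annih (W₁ ⊔ W₂) W₂ := fun w hw => (hφ₂ w hw).2
  have b1 : ψ ∈ annih (W₁ ⊔ W₂) W₁ := fun w hw => (hψ₁ w hw).1
  have b2 : ψ' ∈ annih (W₁ ⊔ W₂) W₁ := fun w hw => (hψ₁ w hw).2
  rw [← Ind_top_extendByZero, ← Ind_top_extendByZero, ← dot_top, ← dot_top]
  constructor
  · rw [← cf1_top, dot_Ind_left le_top _ (cf1_mem_CF _), ← dot_Res_right_of_le le_rfl,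
      Res_cf1 le_top, ← dualChar_one, ← dual_mul_one (1 : Dual (W₁ ⊔ W₂))]
    refine (dot_alphaF_dual a1 (one_mem _) b1 (one_mem _)).trans ?_
    simp [hφ, hψ]
  · refine ((normedTI_of_snc hW).dot_Ind (alphaF_on a1 b1) (alphaF_on a2 b2)).trans ?_
    rw [alphaF_eq φ' ψ', dot_add_right, dot_sub_right, dot_sub_right,
      dot_alphaF_dual a1 (one_mem _) b1 (one_mem _), dot_alphaF_dual a1 a2 b1 (one_mem _),
      dot_alphaF_dual a1 (one_mem _) b1 b2, dot_alphaF_dual a1 a2 b1 b2]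
    simp only [hφ, hψ, hφ'.symm, hψ'.symm, if_true, if_false]
    ring_nf

end Cfsg.Agent.S1505
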