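import Cfsg.Statements.S1506
import Mathlib
import Cfsg.Agent.Lib.PF.S3_Frozen

set_option autoImplicit false
open Cfsg

namespace Cfsg.Agent.S1506

open CfsgLib.PF CfsgLib.PF.Frozen3


/-- Let W₁, W₂ ≤ G form a self-normalising cyclic subgroup W = W₁ ⊔ W₂ and χ an orthonormal family of irreducible characters of G up to sign, indexed by the linear characters ω of W, with χ_1 = 1, χ_ω = ω on W outside W₁ ∪ W₂, and the induction identity for (1 − φ)(1 − ψ). Let θ be a class function of G vanishing at every element of W outside W₁ ∪ W₂. For linear characters φ, φ' of W trivial on W₂ and ψ, ψ' trivial on W₁, the inner products a(ω) = ⟨θ, χ ω⟩ satisfy a(φψ) + a(φ'ψ') = a(φψ') + a(φ'ψ). -/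
theorem result {G : Type*} [Group G] [Fintype G] (W₁ W₂ : Subgroup G) (hW : Cfsg.IsSelfNormalizingCyclic W₁ W₂) (χ : (↥(W₁ ⊔ W₂) →* ℂˣ) → (G → ℂ)) (hχ : Cfsg.IsCyclicTIFamily W₁ W₂ χ) (θ : G → ℂ) (hθ : Cfsg.IsClassFunction G θ) (hθV : ∀ w : ↥(W₁ ⊔ W₂), (w : G) ∉ W₁ → (w : G) ∉ W₂ → θ w = 0) (φ φ' ψ ψ' : ↥(W₁ ⊔ W₂) →* ℂˣ) (hφ₂ : ∀ w : ↥(W₁ ⊔ W₂), (w : G) ∈ W₂ → φ w = 1 ∧ φ' w = 1) (hψ₁ : ∀ w : ↥(W₁ ⊔ W₂), (w : G) ∈ W₁ → ψ w = 1 ∧ ψ' w = 1) : Cfsg.classInner θ (χ (φ * ψ)) + Cfsg.classInner θ (χ (φ' * ψ')) = Cfsg.classInner θ (χ (φ * ψ')) + Cfsg.classInner θ (χ (φ' * ψ)) := by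
  have key : ∀ φ ∈ annih (W₁ ⊔ W₂) W₂, ∀ ψ ∈ annih (W₁ ⊔ W₂) W₁, classInner θ (χ (1 * 1)) -
      classInner θ (χ (φ * 1)) - classInner θ (χ (1 * ψ)) + classInner θ (χ (φ * ψ)) = 0 := by
    intro φ hφ ψ hψ
    rw [← dot_alphaF_fam hχ hθ hφ hψ]
    refine dot_eq_zero_of_disjoint fun x hx => ?_
    by_cases hV : x ∈ cycV W₁ W₂
    · exact Or.inl (hθV ⟨x, hx⟩ (mem_cycV.mp hV).2.1 (mem_cycV.mp hV).2.2)
    · exact Or.inr ((alphaF_on hφ hψ).2 x hV)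
  have a1 : φ ∈ annih (W₁ ⊔ W₂) W₂ := fun w hw => (hφ₂ w hw).1
  have a2 : φ' ∈ annih (W₁ ⊔ W₂) W₂ := fun w hw => (hφ₂ w hw).2
  have b1 : ψ ∈ annih (W₁ ⊔ W₂) W₁ := fun w hw => (hψ₁ w hw).1
  have b2 : ψ' ∈ annih (W₁ ⊔ W₂) W₁ := fun w hw => (hψ₁ w hw).2
  linear_combination key φ a1 ψ b1 + key φ' a2 ψ' b2 - key φ a1 ψ' b2 - key φ' a2 ψ b1

end Cfsg.Agent.S1506
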