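import Cfsg.Statements.S1507
import Mathlib
import Cfsg.Agent.Lib.PF.S3_Frozen

set_option autoImplicit false
open Cfsg

namespace Cfsg.Agent.S1507

open CfsgLib.PF CfsgLib.PF.Frozen3


open Classical in
/-- Let W₁, W₂ ≤ G form a self-normalising cyclic subgroup W = W₁ ⊔ W₂ of odd order with Nat.card W₁ < Nat.card W₂, and χ an orthonormal family of irreducible characters of G up to sign, indexed by the linear characters ω of W, with χ_1 = 1, χ_ω = ω on W outside W₁ ∪ W₂, and the induction identity for (1 − φ)(1 − ψ). Let θ be a class function of G vanishing on W outside W₁ ∪ W₂, and suppose fewer than 2 · Nat.card W₁ linear characters ω of W have ⟨θ, χ ω⟩ ≠ 0. Then one of: all ⟨θ, χ ω⟩ vanish; or there are ψ₀ and a with ⟨θ, χ ω⟩ = a when ω ψ₀⁻¹ is trivial on W₂ and 0 otherwise; or there are φ₀ and a with ⟨θ, χ ω⟩ = a when ω φ₀⁻¹ is trivial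 on W₁ and 0 otherwise. -/
theorem result {G : Type*} [Group G] [Fintype G] (W₁ W₂ : Subgroup G) (hW : Cfsg.IsSelfNormalizingCyclic W₁ W₂) (hodd : Odd (Nat.card ↥(W₁ ⊔ W₂))) (χ : (↥(W₁ ⊔ W₂) →* ℂˣ) → (G → ℂ)) (hχ : Cfsg.IsCyclicTIFamily W₁ W₂ χ) (hlt : Nat.card W₁ < Nat.card W₂) (θ : G → ℂ) (hθ : Cfsg.IsClassFunction G θ) (hθV : ∀ w : ↥(W₁ ⊔ W₂), (w : G) ∉ W₁ → (w : G) ∉ W₂ → θ w = 0) (hfew : Nat.card {ω : ↥(W₁ ⊔ W₂) →* ℂˣ // Cfsg.classInner θ (χ ω) ≠ 0} < 2 * Nat.card W₁) : (∀ ω, Cfsg.classInner θ (χ ω) = 0) ∨ (∃ (ψ₀ : ↥(W₁ ⊔ W₂) →* ℂˣ) (a : ℂ), ∀ ω, Cfsg.classInner θ (χ ω) = if (∀ w : ↥(W₁ ⊔ W₂), (w : G) ∈ W₂ → (ω * ψ₀⁻¹) w = 1) then a else 0) ∨ (∃ (φ₀ : ↥(W₁ ⊔ W₂) →* ℂˣ) (a : ℂ), ∀ ω, Cfsg.classInner θ (χ ω) = if (∀ w : ↥(W₁ ⊔ W₂), (w : G) ∈ W₁ → (ω * φ₀⁻¹) w = 1) then a else 0) := by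
  have h : CycTI W₁ W₂ := ⟨hW, hodd⟩
  have he : ∀ ω, classInner θ (χ ω) = dot ⊤ θ (eta W₁ W₂ (res₁ ω) (res₂ ω)) := fun ω => by
    rw [fam_eq_eta h hχ, dot_top]
  have hNC : cycNC W₁ W₂ θ = Nat.card {ω : ↥(W₁ ⊔ W₂) →* ℂˣ // classInner θ (χ ω) ≠ 0} := by
    rw [cycNC, cycNCIn, ← Fintype.card_subtype, ← Nat.card_eq_fintype_card]
    refine Nat.card_congr
      { toFun := fun p => ⟨h.pair.omegaHom p.1.1 p.1.2, ?_⟩
        invFun := fun ω => ⟨(res₁ ω.1, res₂ ω.1), ?_⟩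
        left_inv := fun p => Subtype.ext (Prod.ext (res_omegaHom h.pair _ _).1
          (res_omegaHom h.pair _ _).2)
        right_inv := fun ω => Subtype.ext ((res_inj h.pair).mp (res_omegaHom h.pair _ _)) }
    · rw [he, (res_omegaHom h.pair _ _).1, (res_omegaHom h.pair _ _).2]; exact p.2
    · have := ω.2
      rwa [he] at this
  by_cases h0 : ∀ ω, classInner θ (χ ω) = 0
  · exact Or.inl h0
  push Not at h0
  obtain ⟨ω₀, h0⟩ := h0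
  rw [he] at h0
  rcases h.small_NC (mem_CF_top.mpr hθ) (fun x hx => hθV ⟨x, hx.1⟩ (mem_cycV.mp hx).2.1
    (mem_cycV.mp hx).2.2) (by rw [hNC, min_eq_left hlt.le]; exact hfew) h0 with H | H
  · refine Or.inr (Or.inl ⟨ω₀, dot ⊤ θ (eta W₁ W₂ (res₁ ω₀) (res₂ ω₀)), fun ω => ?_⟩)
    rw [he, H]
    simp only [res₂_eq_iff]
  · refine Or.inr (Or.inr ⟨ω₀, dot ⊤ θ (eta W₁ W₂ (res₁ ω₀) (res₂ ω₀)), fun ω => ?_⟩)
    rw [he, H]
    simp only [res₁_eq_iff]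

end Cfsg.Agent.S1507
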