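import Mathlib
import Cfsg.Statements.S1510
import Cfsg.Agent.Lib.PF.PrimeTIGrp

set_option autoImplicit false
open Cfsg

namespace Cfsg.Agent.S1510

open CfsgLib.PF

/-- Let L be a finite group with a normal subgroup K and a nontrivial cyclic subgroup W₁ of order coprime to its index, K ⊓ W₁ = ⊥ and K ⊔ W₁ = ⊤; let W₂ ≠ ⊥ be a cyclic subgroup of K with K ⊓ C_L(x) = W₂ for every non-identity x ∈ W₁, and suppose W₁ ⊔ W₂ has odd order. Then (W₁, W₂) is a self-normalising cyclic pair in L. -/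
theorem result {L : Type*} [Group L] [Fintype L] (K W₁ W₂ : Subgroup L) [hK : K.Normal] (hKW₁ : K ⊓ W₁ = ⊥) (hKW₁' : K ⊔ W₁ = ⊤) (hW₁ : W₁ ≠ ⊥) (hW₁c : IsCyclic W₁) (hHall : Nat.Coprime (Nat.card W₁) W₁.index) (hW₂ : W₂ ≠ ⊥) (hW₂c : IsCyclic W₂) (hW₂K : W₂ ≤ K) (hC : ∀ x ∈ W₁, x ≠ 1 → K ⊓ Subgroup.centralizer ({x} : Set L) = W₂) (hodd : Odd (Nat.card ↥(W₁ ⊔ W₂))) : Cfsg.IsSelfNormalizingCyclic W₁ W₂ := by
  have hcomm : ∀ a ∈ W₁, ∀ b ∈ W₂, a * b = b * a := by
    intro a ha b hb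
    by_cases h : a = 1
    · simp [h]
    · rw [← hC a ha h] at hb
      exact (Subgroup.mem_centralizer_singleton_iff.mp hb.2).symm
  have hcompl : Subgroup.IsComplement' K W₁ :=
    Subgroup.isComplement'_of_disjoint_and_mul_eq_univ (disjoint_iff.mpr hKW₁) (by
      rw [← Subgroup.normal_mul, hKW₁']; rfl)
  have hcop : Nat.Coprime (Nat.card W₁) (Nat.card W₂) := by
    rw [hcompl.index_eq_card] at hHall
    exact Nat.Coprime.coprime_dvd_right (Subgroup.card_dvd_of_le hW₂K) hHall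
  have hcyc := isCyclic_sup_of_coprime hW₁c hW₂c hcomm hcop
  refine ⟨hW₁, hW₂, ?_, hcomm, hcyc, ?_⟩
  · rw [eq_bot_iff, ← hKW₁]
    exact fun x hx => ⟨hW₂K hx.2, hx.1⟩
  · rintro X hX ⟨x, hx⟩
    apply le_antisymm
    · intro g hg
      have hgx : g * x * g⁻¹ ∈ X := (Subgroup.mem_set_normalizer_iff.mp hg x).mp hx
      have hg' : g ∈ K ⊔ W₁ := by rw [hKW₁']; trivial
      obtain ⟨k, hk, w, hw, rfl⟩ := Subgroup.mem_sup_of_normal_left.mp hg'
      have hk2 := mem_sup_of_conj_mem (fun y _ k hk => hK.conj_mem k hk y) hKW₁ hW₁c hcop hC hk hw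
        (hX hx).1 (fun h => (hX hx).2 (Or.inr h)) (hX hgx).1
      exact Subgroup.mul_mem _ (Subgroup.mem_sup_right hk2) (Subgroup.mem_sup_left hw)
    · intro g hg
      rw [Subgroup.mem_set_normalizer_iff]
      intro y
      constructor
      · intro hy
        rwa [comm_of_isCyclic hcyc hg (hX hy).1, mul_inv_cancel_right]
      · intro hy
        have h1 : y ∈ W₁ ⊔ W₂ := by
          have := Subgroup.mul_mem _ (Subgroup.mul_mem _ (Subgroup.inv_mem _ hg) (hX hy).1) hg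
          simpa [mul_assoc] using this
        rwa [comm_of_isCyclic hcyc hg h1, mul_inv_cancel_right] at hy

end Cfsg.Agent.S1510
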