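import Mathlib
import Cfsg.Statements.S1511
import Cfsg.Agent.Lib.PF.S4_Bridge

set_option autoImplicit false
open Cfsg

namespace Cfsg.Agent.S1511

open CfsgLib.PF CfsgLib.PF.C5

/-- Let L be a finite group with K normal with complement W₁ ≠ 1 a cyclic Hall subgroup, and W₂ ≠ 1 a cyclic subgroup of K equal to C_K(x) for every non-identity x ∈ W₁, with W₁W₂ of odd order. Then there are a map μ from the linear characters of W = W₁ ⊔ W₂ to irreducible characters of L, injective, and a sign δ(ω) ∈ {1, −1} depending only on the values of ω on W₂, such that: for ω, ω' agreeing on W₂, the function induced to L from ω − ω' equals δ(ω) • (μ ω − μ ω'); μ ω x = δ(ω) ω x for x ∈ W outside W₂; every irreducible character of L not of the form μ ω vanishes on W outside W₂; and μ ω 1 − δ(ω) is an integer multiple of Nat.card W₁. -/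
theorem result {L : Type*} [Group L] [Fintype L] (K W₁ W₂ : Subgroup L) [hK : K.Normal] (hKW₁ : K ⊓ W₁ = ⊥) (hKW₁' : K ⊔ W₁ = ⊤) (hW₁ : W₁ ≠ ⊥) (hW₁c : IsCyclic W₁) (hHall : Nat.Coprime (Nat.card W₁) W₁.index) (hW₂ : W₂ ≠ ⊥) (hW₂c : IsCyclic W₂) (hW₂K : W₂ ≤ K) (hC : ∀ x ∈ W₁, x ≠ 1 → K ⊓ Subgroup.centralizer ({x} : Set L) = W₂) (hodd : Odd (Nat.card ↥(W₁ ⊔ W₂))) : ∃ (μ : (↥(W₁ ⊔ W₂) →* ℂˣ) → (L → ℂ)) (δ : (↥(W₁ ⊔ W₂) →* ℂˣ) → ℂ), Function.Injective μ ∧ (∀ ω, Cfsg.IsIrrCharacter L (μ ω)) ∧ (∀ ω, δ ω = 1 ∨ δ ω = -1) ∧ (∀ ω ω' : ↥(W₁ ⊔ W₂) →* ℂˣ, (∀ w : ↥(W₁ ⊔ W₂), (w : L) ∈ W₂ → ω w = ω' w) → δ ω = δ ω' ∧ Cfsg.indFun (W₁ ⊔ W₂) (fun w => (ω w : ℂ) - (ω' w : ℂ)) = δ ω • (μ ω - μ ω')) ∧ (∀ ω, ∀ w : ↥(W₁ ⊔ W₂), (w : L) ∉ W₂ → μ ω w = δ ω * (ω w : ℂ)) ∧ (∀ θ : L → ℂ, Cfsg.IsIrrCharacter L θ → (∀ ω, θ ≠ μ ω) → ∀ w : ↥(W₁ ⊔ W₂), (w : L) ∉ W₂ → θ w = 0) ∧ (∀ ω, ∃ n : ℤ,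 μ ω 1 - δ ω = n * (Nat.card W₁ : ℂ)) := by
  have h := primeTI_top K W₁ W₂ hKW₁ hKW₁' hW₁ hW₁c hHall hW₂ hW₂c hW₂K hC hodd
  refine ⟨fun ω => prTIirr ⊤ W₁ W₂ (ω.comp (Subgroup.inclusion le_sup_left))
      (ω.comp (Subgroup.inclusion le_sup_right)),
    fun ω => (prTIsign ⊤ W₁ W₂ (ω.comp (Subgroup.inclusion le_sup_right)) : ℂ),
    fun ω ω' e => ?_, fun ω => isIrr_top.mp (h.prTIirr_irr _ _), fun ω => ?_, fun ω ω' e => ?_,
    fun ω w hw => ?_, fun θ hθ hne w hw => ?_, fun ω => ?_⟩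
  · obtain ⟨e1, e2⟩ := h.prTIirr_inj e
    refine MonoidHom.ext fun w => Units.ext ?_
    rw [← omega_restrict h.pair ω, ← omega_restrict h.pair ω', e1, e2]
  · rcases h.prTIsign_eq (ω.comp (Subgroup.inclusion le_sup_right)) with e | e <;> simp [e]
  · have e2 : ω'.comp (Subgroup.inclusion le_sup_right) = ω.comp (Subgroup.inclusion le_sup_right) :=
      MonoidHom.ext fun b => (e _ b.2).symm
    refine ⟨by simp only [e2], ?_⟩
    simp only [e2]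
    rw [← h.Ind_sub_omega, Ind_top_eq_indFun]
    congr 1
    funext w
    rw [Pi.sub_apply, omega_restrict h.pair ω, ← e2, omega_restrict h.pair ω']
  · simp only []
    rw [h.prTIirr_id _ _ w.2 hw, omega_restrict h.pair ω]
  · refine h.not_prTIirr_vanish (isIrr_top.mpr hθ) (fun i j e => hne (h.pair.omegaHom i j) ?_) w.2 hw
    simp only [omegaHom_left, omegaHom_right]
    exact e
  · obtain ⟨n, hn⟩ := h.prTIirr1_mod (ω.comp (Subgroup.inclusion le_sup_left))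
      (ω.comp (Subgroup.inclusion le_sup_right))
    exact ⟨n, by simp only [hn]; ring⟩

end Cfsg.Agent.S1511
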