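import Mathlib
import Cfsg.Statements.S1512
import Cfsg.Agent.Lib.PF.PrimeTIGrp

set_option autoImplicit false
open Cfsg

namespace Cfsg.Agent.S1512

open CfsgLib.PF

/-- Let K be a normal subgroup of the finite group L and x a non-identity element whose order is coprime to the order of K, such that K ⊓ C_L(y) = W₂ for every non-identity element y of the cyclic group generated by x. Then the number of conjugacy classes of K mapped to themselves by conjugation by x is at most Nat.card W₂. -/
theorem result {L : Type*} [Group L] [Finite L] (K W₂ : Subgroup L) [hK : K.Normal] (x : L) (hx1 : x ≠ 1) (hx : Nat.Coprime (orderOf x) (Nat.card K)) (hC : ∀ y ∈ Subgroup.zpowers x, y ≠ 1 → K ⊓ Subgroup.centralizer ({y} : Set L) = W₂) : Nat.card {C : ConjClasses K // ConjClasses.map (MulEquiv.toMonoidHom ((MulAut.conjNormal x : MulAut K))) C = C} ≤ Nat.card W₂ := by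
  have hW₂K : W₂ ≤ K := by
    rw [← hC x (Subgroup.mem_zpowers x) hx1]; exact inf_le_left
  have key : ∀ C : {C : ConjClasses K // ConjClasses.map (MulEquiv.toMonoidHom
      ((MulAut.conjNormal x : MulAut K))) C = C}, ∃ w : W₂,
      ConjClasses.mk (⟨w, hW₂K w.2⟩ : K) = C.1 := by
    rintro ⟨C, hC'⟩
    obtain ⟨k, rfl⟩ := ConjClasses.mk_surjective C
    have h1 : IsConj (MulAut.conjNormal x k) k := ConjClasses.mk_eq_mk_iff_isConj.mp hC'
    obtain ⟨c, hc⟩ := isConj_iff.mp h1.symm
    obtain ⟨d, hd, y, hy, hy1, hyc⟩ := exists_conj_fixed_of_class_fixed K hx1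
      (fun k hk => hK.conj_mem k hk x) hx k.2
      ⟨c, c.2, by simpa using (congrArg Subtype.val hc).symm⟩
    have hmem : d * k * d⁻¹ ∈ W₂ := by
      rw [← hC y hy hy1]
      exact ⟨K.mul_mem (K.mul_mem hd k.2) (K.inv_mem hd),
        Subgroup.mem_centralizer_singleton_iff.mpr hyc.symm⟩
    refine ⟨⟨_, hmem⟩, ConjClasses.mk_eq_mk_iff_isConj.mpr ?_⟩
    exact (isConj_iff.mpr ⟨(⟨d, hd⟩ : K), Subtype.ext rfl⟩ : IsConj k _).symm
  choose f hf using key
  refine Nat.card_le_card_of_injective f fun a b h => Subtype.ext ?_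
  rw [← hf a, ← hf b, h]

end Cfsg.Agent.S1512
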