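import Mathlib
import Cfsg.Statements.S1513
import Cfsg.Agent.Lib.PF.S4_Bridge
import Cfsg.Agent.Lib.PF.S4_3

set_option autoImplicit false
open Cfsg

namespace Cfsg.Agent.S1513

open CfsgLib.PF CfsgLib.PF.C5

/-- Let L be a finite group with K normal with complement W₁ ≠ 1 a cyclic Hall subgroup, and W₂ ≠ 1 a cyclic subgroup of K equal to C_K(x) for every non-identity x ∈ W₁, with W₁W₂ of odd order. For an irreducible character θ of K: if θ is not fixed under conjugation by some element of W₁, then the function induced from θ to L is an irreducible character of L; and the irreducible characters of K fixed by all of W₁ are exactly Nat.card W₂ in number, each inducing to the sum of Nat.card W₁ pairwise distinct irreducible characters of L. -/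
theorem result {L : Type*} [Group L] [Fintype L] (K W₁ W₂ : Subgroup L) [hK : K.Normal] (hKW₁ : K ⊓ W₁ = ⊥) (hKW₁' : K ⊔ W₁ = ⊤) (hW₁ : W₁ ≠ ⊥) (hW₁c : IsCyclic W₁) (hHall : Nat.Coprime (Nat.card W₁) W₁.index) (hW₂ : W₂ ≠ ⊥) (hW₂c : IsCyclic W₂) (hW₂K : W₂ ≤ K) (hC : ∀ x ∈ W₁, x ≠ 1 → K ⊓ Subgroup.centralizer ({x} : Set L) = W₂) (hodd : Odd (Nat.card ↥(W₁ ⊔ W₂))) : (∀ θ : K → ℂ, Cfsg.IsIrrCharacter K θ → (∃ x ∈ W₁, (fun k : K => θ ⟨x * k * x⁻¹, hK.conj_mem (k : L) k.2 x⟩) ≠ θ) → Cfsg.IsIrrCharacter L (Cfsg.indFun K θ)) ∧ Nat.card {θ : Cfsg.IrrCharacter K // ∀ x ∈ W₁, (fun k : K => (θ : K → ℂ) ⟨x * k * x⁻¹, hK.conj_mem (k : L) k.2 x⟩) = θ} = Nat.card W₂ ∧ (∀ θ : K → ℂ, Cfsg.IsIrrCharacter K θ → (∀ x ∈ W₁, (fun k : K => θ ⟨x * k * x⁻¹, hK.conj_mem (k : L) k.2 x⟩) = θ) → ∃ C : Finset (L → ℂ), C.card = Nat.card W₁ ∧ (∀ μ ∈ C, Cfsg.IsIrrCharacter L μ) ∧ Cfsg.indFun K θ = ∑ μ ∈ C, μ) := by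
  classical
  have h := primeTI_top K W₁ W₂ hKW₁ hKW₁' hW₁ hW₁c hHall hW₂ hW₂c hW₂K hC hodd
  obtain ⟨x₀, hx₀⟩ := h.exists_W₁_ne_one
  have hres : ∀ j, extendByZero K (fun k : K => prTIres ⊤ K W₁ W₂ j k) = prTIres ⊤ K W₁ W₂ j :=
    fun j => by rw [extendByZero_res, Res_CF (h.prTIres_irr j).mem_CF]
  have hfix : ∀ θ : K → ℂ, IsIrrCharacter K θ →
      (∀ x ∈ W₁, (fun k : K => θ ⟨x * k * x⁻¹, hK.conj_mem (k : L) k.2 x⟩) = θ) →
      ∃ j, extendByZero K θ = prTIres ⊤ K W₁ W₂ j := fun θ hθ hf =>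
    h.eq_prTIres_of_cfJ (isIrr_extendByZero.mpr hθ) x₀.2 hx₀
      ((cfJ_extendByZero_iff K θ x₀).mpr (hf _ x₀.2))
  refine ⟨fun θ hθ ⟨x, _, hne⟩ => ?_, ?_, fun θ hθ hf => ?_⟩
  · rcases h.prTIres_irr_cases (isIrr_extendByZero.mpr hθ) with ⟨j, e⟩ | ⟨hI, -⟩
    · exact (hne ((cfJ_extendByZero_iff K θ x).mp (by
        rw [e]; exact h.cfJ_prTIres j (Subgroup.mem_top x)))).elim
    · rw [Ind_top_extendByZero] at hI; exact isIrr_top.mp hI
  · rw [← h.pair.card_dual₂, ← Nat.card_eq_fintype_card]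
    refine (Nat.card_congr (Equiv.ofBijective (fun j : Dual W₂ =>
      (⟨⟨fun k : K => prTIres ⊤ K W₁ W₂ j k, (h.prTIres_irr j).2⟩, fun x _ =>
        (cfJ_extendByZero_iff K _ x).mp (by
          rw [hres]; exact h.cfJ_prTIres j (Subgroup.mem_top x))⟩ :
        {θ : Cfsg.IrrCharacter K // ∀ x ∈ W₁, (fun k : K => (θ : K → ℂ)
          ⟨x * k * x⁻¹, hK.conj_mem (k : L) k.2 x⟩) = θ})) ⟨fun j l e => ?_, fun θ => ?_⟩)).symm
    · refine h.prTIres_inj ?_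
      rw [← hres j, ← hres l]
      exact congrArg (extendByZero K) (congrArg (fun t => (t.1 : K → ℂ)) e)
    · obtain ⟨j, e⟩ := hfix θ.1.1 θ.1.2 θ.2
      refine ⟨j, Subtype.ext (Subtype.ext ?_)⟩
      simp only [← e]
      exact res_extendByZero K _
  · obtain ⟨j, e⟩ := hfix θ hθ hf
    have hinj : Function.Injective fun i => prTIirr ⊤ W₁ W₂ i j := fun _ _ e => (h.prTIirr_inj e).1
    refine ⟨Finset.univ.image fun i => prTIirr ⊤ W₁ W₂ i j, by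
      rw [Finset.card_image_of_injective _ hinj, Finset.card_univ, h.pair.card_dual₁], fun μ hμ => ?_, ?_⟩
    · obtain ⟨i, -, rfl⟩ := Finset.mem_image.mp hμ
      exact isIrr_top.mp (h.prTIirr_irr i j)
    · rw [← Ind_top_extendByZero, e, h.Ind_prTIres, Finset.sum_image hinj.injOn, prTIred]

end Cfsg.Agent.S1513
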