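import Mathlib
import Cfsg.Statements.S1515
import Cfsg.Agent.Lib.PF.S5_Bridge

set_option autoImplicit false
open Cfsg

namespace Cfsg.Agent.S1515

open CfsgLib.PF CfsgLib.PF.C5

/-- Let (S, τ, R) be a coherence system from L to G, χ ∈ S, and ψ an integer combination of S with ⟨χ, ψ⟩ = ⟨conj χ, ψ⟩ = 0. Let τ₁ be a linear isometry on the integer combinations of χ − ψ and χ − conj χ, with virtual-character values, agreeing with τ on integer multiples of χ − conj χ. Then the sum over α ∈ R χ of the squared absolute values of ⟨τ₁(χ − ψ), α⟩ is at least ⟨χ, χ⟩; and if ⟨τ₁(χ − ψ), τ₁(χ − ψ)⟩ minus that sum is at least ⟨ψ, ψ⟩, then the sum equals ⟨χ, χ⟩ and every ⟨τ₁(χ − ψ), α⟩ with α ∈ R χ is 0 or 1. -/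
theorem result {L : Type*} [Group L] [Fintype L] {G : Type*} [Group G] [Fintype G] (S : Set (L → ℂ)) (τ : (L → ℂ) → (G → ℂ)) (R : (L → ℂ) → Finset (G → ℂ)) (hS : Cfsg.IsCoherenceSystem S τ R) (χ : L → ℂ) (hχ : χ ∈ S) (ψ : L → ℂ) (hψ : ψ ∈ Cfsg.zspan S) (h1 : Cfsg.classInner χ ψ = 0) (h2 : Cfsg.classInner (Cfsg.conjFun χ) ψ = 0) (τ₁ : (L → ℂ) → (G → ℂ)) (hτ₁ : Cfsg.IsLinearIsometryOn (Cfsg.zspan {χ - ψ, χ - Cfsg.conjFun χ}) τ₁) (hagree : ∀ n : ℤ, τ₁ (n • (χ - Cfsg.conjFun χ)) = τ (n • (χ - Cfsg.conjFun χ))) : (Cfsg.classInner χ χ).re ≤ ∑ α ∈ R χ, ‖Cfsg.classInner (τ₁ (χ - ψ)) α‖ ^ 2 ∧ ((Cfsg.classInner ψ ψ).re ≤ (Cfsg.classInner (τ₁ (χ - ψ)) (τ₁ (χ - ψ))).re - ∑ α ∈ R χ, ‖Cfsg.classInner (τ₁ (χ - ψ)) α‖ ^ 2 → (∑ α ∈ R χ, ‖Cfsg.classInner (τ₁ (χ - ψ)) α‖ ^ 2 = (Cfsg.classInner χ χ).re ∧ ∀ α ∈ R χ, Cfsg.classInner (τ₁ (χ - ψ)) α = 0 ∨ Cfsg.classInner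 (τ₁ (χ - ψ)) α = 1)) := by
  classical
  obtain ⟨S', ν, rfl, hν, hS'⟩ := subCoh_of_system hS
  have m1 : χ - ψ ∈ zspan ({χ - ψ, χ - conjFun χ} : Set (L → ℂ)) := mem_zspan (by simp)
  have m2 : χ - conjFun χ ∈ zspan ({χ - ψ, χ - conjFun χ} : Set (L → ℂ)) := mem_zspan (by simp)
  have hv : IsVChar ⊤ (τ₁ (χ - ψ)) := isVChar_top.mpr (hτ₁.2.2.2 _ m1)
  obtain ⟨X₀, hX, Y, e, hYv, hY⟩ := hS'.split hχ hv
  have hag : τ₁ (χ - conjFun χ) = ν (χ - conjFun χ) := by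
    have := hagree 1
    rw [one_smul] at this
    rw [this, hν _ (hS'.sub_conj_mem hχ)]
  rw [← dot_top] at h1 h2
  have h3 : dot ⊤ (X₀ - Y) (ν (χ - conjFun χ)) = dot ⊤ χ χ := by
    rw [← e, ← hag, dot_top, hτ₁.2.2.1 _ m1 _ m2, ← dot_top]
    simp only [dot_sub_left, dot_sub_right, hS'.dot_conj hχ, dot_eq_zero_symm h1, dot_eq_zero_symm h2]
    ring
  have h4 : dot ⊤ (X₀ - Y) (X₀ - Y) = dot ⊤ χ χ + dot ⊤ ψ ψ := by
    rw [← e, dot_top, hτ₁.2.2.1 _ m1 _ m1, ← dot_top]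
    simp only [dot_sub_left, dot_sub_right, h1, dot_eq_zero_symm h1]
    ring
  obtain ⟨c, hc⟩ := exists_int_coeff_of_mem_zspan hX
  have hof := hS'.orthoFam_R hχ
  have hc' : X₀ = ∑ α ∈ R χ, (c α : ℂ) • id α := by
    rw [hc]; exact Finset.sum_congr rfl fun α _ => by rw [Int.cast_smul_eq_zsmul]; rfl
  have hdot : ∀ α ∈ R χ, dot ⊤ (X₀ - Y) α = dot ⊤ X₀ α := fun α hα => by
    rw [dot_sub_left, hY α hα, sub_zero]
  have hsum : ∑ α ∈ R χ, ‖dot ⊤ (X₀ - Y) α‖ ^ 2 = (dot ⊤ X₀ X₀).re := by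
    rw [dot_self_re]
    conv_rhs => rw [hc', hof.cfnorm_sum_smul]
    refine Finset.sum_congr rfl fun α hα => ?_
    rw [hdot α hα]
    conv_lhs => rw [hc']
    exact congrArg (fun z => ‖z‖ ^ 2) (hof.dot_sum_smul_left _ hα)
  have hXY : dot ⊤ Y X₀ = 0 := dot_zspan_right hY hX
  obtain ⟨k1, k2⟩ := hS'.norm hχ hX hY h3
  simp only [← dot_top, e, hsum]
  refine ⟨k1, fun hle => ?_⟩
  obtain ⟨k3, -, E, hE, k4⟩ := k2 (dot ⊤ ψ ψ).re (by rw [h4, Complex.add_re]) (by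
    simp only [dot_sub_left, dot_sub_right, hXY, dot_eq_zero_symm hXY, sub_zero, zero_sub, sub_neg_eq_add,
      Complex.add_re] at hle
    linarith)
  refine ⟨by rw [k3], fun α hα => ?_⟩
  have := hof.dot_sum_left hE hα
  simp only [id] at this
  rw [hdot α hα, k4, this]
  split_ifs <;> simp

end Cfsg.Agent.S1515
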