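import Mathlib
import Cfsg.Statements.S1516
import Cfsg.Agent.Lib.PF.S5_Bridge

set_option autoImplicit false
open Cfsg

namespace Cfsg.Agent.S1516

open CfsgLib.PF CfsgLib.PF.C5

/-- Let (S, τ, R) be a coherence system from L to G with degrees φ 1 = d φ and squared norms ⟨φ, φ⟩ = n φ for φ ∈ S. Let S₁ ⊆ S be a finite subset closed under complex conjugation such that (S₁, L minus 1, τ) is coherent, let χ ∈ S with χ ∉ S₁ and conj χ ∉ S₁, and let χ₁ ∈ S₁ with d χ₁ dividing d χ and 2 d χ d χ₁ < Σ_{φ ∈ S₁} (d φ)² / n φ. Then S₁ together with χ and conj χ is coherent. -/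
theorem result {L : Type*} [Group L] [Fintype L] {G : Type*} [Group G] [Fintype G] (S : Set (L → ℂ)) (τ : (L → ℂ) → (G → ℂ)) (R : (L → ℂ) → Finset (G → ℂ)) (hS : Cfsg.IsCoherenceSystem S τ R) (d n : (L → ℂ) → ℕ) (hd : ∀ φ ∈ S, φ 1 = (d φ : ℂ)) (hn : ∀ φ ∈ S, Cfsg.classInner φ φ = (n φ : ℂ)) (S₁ : Finset (L → ℂ)) (hS₁ : ↑S₁ ⊆ S) (hS₁c : ∀ φ ∈ S₁, Cfsg.conjFun φ ∈ S₁) (hcoh : Cfsg.IsCoherent (↑S₁ : Set (L → ℂ)) {1}ᶜ τ) (χ : L → ℂ) (hχ : χ ∈ S) (hχ₁ : χ ∉ S₁) (hχ₂ : Cfsg.conjFun χ ∉ S₁) (χ₁ : L → ℂ) (hχ₁S : χ₁ ∈ S₁) (hdvd : d χ₁ ∣ d χ) (hineq : (2 * d χ * d χ₁ : ℝ) < ∑ φ ∈ S₁, ((d φ : ℝ) ^ 2 / (n φ : ℝ))) : Cfsg.IsCoherent (↑S₁ ∪ {χ, Cfsg.conjFun χ} : Set (L → ℂ)) {1}ᶜ τ := by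
  classical
  obtain ⟨S', ν, rfl, hν, hS'⟩ := subCoh_of_system hS
  have hsub : S₁ ⊆ S' := Finset.coe_subset.mp hS₁
  have hν₁ : ∀ α ∈ zspanOn (S₁ : Set (L → ℂ)) {1}ᶜ, ν α = τ α := fun α hα =>
    hν α (zspanOn_mono hS₁ _ hα)
  have := hS'.extend_coherent ⟨hsub, hS₁c⟩ hχ₁S hχ hχ₁ (coherent_of_isCoherent hν₁ hcoh)
    (by
      obtain ⟨a, ha⟩ := hdvd
      exact ⟨a, by rw [hd χ hχ, hd χ₁ (hS₁ hχ₁S), ha]; push_cast; ring⟩)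
    (by
      rw [hd χ hχ, hd χ₁ (hS₁ hχ₁S), Finset.sum_congr rfl fun φ hφ =>
        show (φ 1).re ^ 2 / (dot ⊤ φ φ).re = (d φ : ℝ) ^ 2 / (n φ : ℝ) by
          rw [dot_top, hd φ (hS₁ hφ), hn φ (hS₁ hφ)]; simp]
      simpa using hineq)
  have e : (↑S₁ ∪ {χ, Cfsg.conjFun χ} : Set (L → ℂ)) = ↑(insert χ (insert (conjFun χ) S₁)) := by
    ext φ; simp only [Set.mem_union, Finset.mem_coe, Set.mem_insert_iff, Set.mem_singleton_iff,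
      Finset.mem_insert]; tauto
  rw [e]
  refine isCoherent_of_coherent (fun α hα => hν α (zspanOn_mono ?_ _ hα)) (by convert this)
    (exists_zspanOn_ne_zero (χ := χ) (by simp) (by simp) (hS'.conj_ne χ hχ) (hS'.vchar hχ))
  intro φ hφ
  simp only [Finset.coe_insert, Set.mem_insert_iff] at hφ
  rcases hφ with rfl | rfl | hφ
  exacts [hχ, hS'.conj_mem χ hχ, hS₁ hφ]

end Cfsg.Agent.S1516
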