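import Mathlib
import Cfsg.Statements.S1517
import Cfsg.Agent.Lib.PF.S5_Bridge

set_option autoImplicit false
open Cfsg

namespace Cfsg.Agent.S1517

open CfsgLib.PF CfsgLib.PF.C5

/-- Let (S, τ, R) be a coherence system from L to G such that φ 1 = ψ 1 for all φ, ψ ∈ S. Then (S, L minus 1, τ) is coherent. -/
theorem result {L : Type*} [Group L] [Fintype L] {G : Type*} [Group G] [Fintype G] (S : Set (L → ℂ)) (τ : (L → ℂ) → (G → ℂ)) (R : (L → ℂ) → Finset (G → ℂ)) (hS : Cfsg.IsCoherenceSystem S τ R) (hdeg : ∀ φ ∈ S, ∀ ψ ∈ S, φ 1 = ψ 1) : Cfsg.IsCoherent S {1}ᶜ τ := by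
  obtain ⟨χ, hχ⟩ := hS.nonempty
  obtain ⟨S', ν, rfl, hν, hS'⟩ := subCoh_of_system hS
  exact isCoherent_of_coherent hν (hS'.uniform_degree_coherence hdeg)
    (exists_zspanOn_ne_zero hχ (hS'.conj_mem χ hχ) (hS'.conj_ne χ hχ) (hS'.vchar hχ))

end Cfsg.Agent.S1517
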