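import Mathlib
import Cfsg.Statements.S1521
import Cfsg.Agent.Lib.PF.S6_Bridge
import Cfsg.Agent.Lib.PF.S6_1
import Cfsg.Agent.Lib.BG.AmbHall

set_option autoImplicit false
open Cfsg

namespace Cfsg.Agent.S1521

open CfsgLib.PF CfsgLib.PF.C5 CfsgLib.BG

/-- Let K be a solvable normal subgroup of the finite group L of odd order and (S, τ, R) a coherence system from L to G with S the functions induced from non-principal irreducible characters of K; S(A) as before. Let M ≤ K be normal in L with K/M nilpotent, H₁ = [K, K] ⊔ M, H₁ < K < L, and suppose every element of K outside H₁ is centralised modulo H₁ only from inside K (L/H₁ is a Frobenius group with kernel K/H₁). Suppose one of the following: some normal subgroup of L lies strictly between H₁ and K; or [K:H₁] > 4[L:K]^2 + 1; or [K:M] is not a prime power; or [K,K] ≤ M; or [K:M] is a power of a prime p with [L:K] dividing p − 1. Then S(M) is coherent. -/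
theorem result {L : Type*} [Group L] [Fintype L] {G : Type*} [Group G] [Fintype G] (K : Subgroup L) [hK : K.Normal] (hsolv : Group.IsSolvable K) (τ : (L → ℂ) → (G → ℂ)) (R : (L → ℂ) → Finset (G → ℂ)) (hS : Cfsg.IsCoherenceSystem (Cfsg.inducedIrrAbove K ⊥) τ R) (hodd : Odd (Nat.card L)) (M : Subgroup L) [M.Normal] (hMK : M ≤ K) [(M.subgroupOf K).Normal] (hnil : Group.IsNilpotent (↥K ⧸ M.subgroupOf K)) (H₁ : Subgroup L) (hH₁ : H₁ = ⁅K, K⁆ ⊔ M) (hH₁K : H₁ < K) (hKL : K < ⊤) (hfrob : ∀ k ∈ K, k ∉ H₁ → ∀ x : L, x * k * x⁻¹ * k⁻¹ ∈ H₁ → x ∈ K) (hgood : (∃ N : Subgroup L, N.Normal ∧ H₁ < N ∧ N < K) ∨ 4 * K.index ^ 2 + 1 < H₁.relIndex K ∨ (¬ ∃ p m : ℕ, p.Prime ∧ M.relIndex K = p ^ m) ∨ ⁅K, K⁆ ≤ M ∨ (∃ p m : ℕ, p.Prime ∧ M.relIndex K = p ^ m ∧ K.index ∣ p - 1)) : Cfsg.IsCoherent (Cfsg.inducedIrrAbove K M) {1}ᶜ τ := by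
  obtain ⟨ν, hS', -, h2⟩ := subCoh_of_induced hS
  subst hH₁
  have hMlt : ¬ K ≤ M := fun h => hH₁K.not_ge (h.trans le_sup_right)
  have hKn : K ≤ 𝒩(M) := le_top.trans (normalIn_top M).2
  rw [inducedIrrAbove_eq hMK]
  refine h2 _ (seqIndD_conjSub le_rfl bot_le)
    (seqIndD_nonempty (normalIn_top K) (normalIn_of_normal hMK) le_rfl hMlt) ?_
  refine (non_coherent_chief (normalIn_top K) hsolv hS' ⟨by rwa [Subgroup.card_top], normalIn_top M,
    hMK, Group.nilpotent_of_mulEquiv (quotientEquivQuo hKn), hH₁K, hKL.ne,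
    fun k hk hk' x _ => hfrob k hk hk' x⟩).resolve_right ?_
  rintro ⟨hch, hb, p, hp, hpg, hna, hdv⟩
  rw [Subgroup.relIndex_top_right] at hb hdv
  haveI := Fact.mk hp
  obtain ⟨n, hn⟩ := IsPGroup.iff_card.mp hpg
  rw [card_quo hKn] at hn
  rcases hgood with ⟨N, hN, h3, h4⟩ | h3 | h3 | h3 | ⟨q, m, hq, h3, h4⟩
  · exact (hch.2.2.2 N (normalIn_top N) h3.le h4.le).elim h3.ne' h4.ne
  · omega
  · exact h3 ⟨p, n, hp, hn⟩
  · exact hna h3
  · have hn0 : n ≠ 0 := fun e => hMlt (Subgroup.relIndex_eq_one.mp (by rw [hn, e, pow_zero]))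
    have : p ∣ q ^ m := by rw [← h3, hn]; exact dvd_pow_self p hn0
    rw [← (Nat.prime_dvd_prime_iff_eq hp hq).mp (hp.dvd_of_dvd_pow this)] at h4
    exact hdv h4

end Cfsg.Agent.S1521
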