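import Mathlib
import Cfsg.Statements.S1522
import Cfsg.Agent.Lib.PF.S6_Bridge
import Cfsg.Agent.Lib.PF.S6_1
import Cfsg.Agent.Lib.BG.AmbHall

set_option autoImplicit false
open Cfsg

namespace Cfsg.Agent.S1522

open CfsgLib.PF CfsgLib.PF.C5 CfsgLib.BG

/-- Let K be a nilpotent normal subgroup of the finite group L of odd order with [K,K] < K < L and L/[K,K] a Frobenius group with kernel K/[K,K] (elements of K outside [K,K] are centralised modulo [K,K] only from inside K); let (S, τ, R) be a coherence system from L to G with S the functions induced from non-principal irreducible characters of K. Let Z be a nontrivial normal subgroup of L contained in the centre of K, and suppose every member of S outside S(Z) is an irreducible character of L. Then S minus S(Z) is the set of irreducible characters χ of L with χ z ≠ χ 1 for some z ∈ Z, and it is coherent. -/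
theorem result {L : Type*} [Group L] [Fintype L] {G : Type*} [Group G] [Fintype G] (K : Subgroup L) [hK : K.Normal] (hsolv : Group.IsSolvable K) (τ : (L → ℂ) → (G → ℂ)) (R : (L → ℂ) → Finset (G → ℂ)) (hS : Cfsg.IsCoherenceSystem (Cfsg.inducedIrrAbove K ⊥) τ R) (hodd : Odd (Nat.card L)) (hnil : Group.IsNilpotent K) (hH₁K : ⁅K, K⁆ < K) (hKL : K < ⊤) (hfrob : ∀ k ∈ K, k ∉ ⁅K, K⁆ → ∀ x : L, x * k * x⁻¹ * k⁻¹ ∈ ⁅K, K⁆ → x ∈ K) (Z : Subgroup L) [Z.Normal] (hZ1 : Z ≠ ⊥) (hZK : Z ≤ K) (hZc : ∀ z ∈ Z, ∀ k ∈ K, z * k = k * z) (hirr : ∀ χ ∈ Cfsg.inducedIrrAbove K ⊥ \ Cfsg.inducedIrrAbove K Z, Cfsg.IsIrrCharacter L χ) : Cfsg.inducedIrrAbove K ⊥ \ Cfsg.inducedIrrAbove K Z = {χ | Cfsg.IsIrrCharacter L χ ∧ ∃ z ∈ Z, χ z ≠ χ 1} ∧ Cfsg.IsCoherent (Cfsg.inducedIrrAbove K ⊥ \ Cfsg.inducedIrrAbove K Z) {1}ᶜ τ := by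
  obtain ⟨ν, hS', -, h2⟩ := subCoh_of_induced hS
  have hK' := normalIn_top K
  have e : inducedIrrAbove K ⊥ \ inducedIrrAbove K Z = (seqIndD K ⊤ Z ⊥ : Set (L → ℂ)) := by
    rw [inducedIrrAbove_eq bot_le, inducedIrrAbove_eq hZK]
    ext φ
    simp only [Set.mem_sdiff, Finset.mem_coe,
      mem_seqIndD_iff_inKer hK' hK' le_rfl (normalIn_top ⊥) bot_le,
      mem_seqIndD_iff_inKer hK' hK' le_rfl (normalIn_top Z) hZK,
      mem_seqIndD_iff_inKer hK' (normalIn_top Z) hZK (normalIn_top ⊥) bot_le]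
    exact ⟨fun h => ⟨h.1.1, fun h' => h.2 ⟨h.1.1, h.1.2.1, h'⟩, h.1.2.2⟩,
      fun h => ⟨⟨h.1, fun h' => h.2.1 (h'.mono hZK), h.2.2⟩, fun h' => h.2.1 h'.2.2⟩⟩
  rw [e] at hirr ⊢
  obtain ⟨h3, h4⟩ := seqIndD_irr_coherence hK' hsolv hS' ⟨by rwa [Subgroup.card_top], normalIn_top ⊥,
    bot_le, Group.nilpotent_of_mulEquiv (quoEquivOfDisjoint (le_top.trans (normalIn_top ⊥).2)
      (inf_bot_eq K)), by rwa [sup_bot_eq], hKL.ne,
    fun k hk hk' x _ => by rw [sup_bot_eq] at hk' ⊢; exact hfrob k hk hk' x⟩ (normalIn_top Z) hZ1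
    (fun z hz => ⟨hZK hz, fun k hk => (hZc z hz k hk).symm⟩) fun χ hχ => isIrr_top.mpr (hirr χ hχ)
  refine ⟨?_, h2 _ (seqIndD_conjSub hZK le_rfl)
    (seqIndD_nonempty hK' (normalIn_of_normal bot_le) hZK fun h => hZ1 (le_bot_iff.mp h)) h4⟩
  ext χ
  rw [Finset.mem_coe, h3, isIrr_top, Set.mem_ofPred_eq, InKer]
  push Not
  rfl

end Cfsg.Agent.S1522
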