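import Mathlib
import Cfsg.Statements.S1524
import Cfsg.Agent.Lib.PF.S6_Bridge
import Cfsg.Agent.Lib.PF.Sec6
import Cfsg.Agent.Lib.BG.AmbHall

set_option autoImplicit false
open Cfsg

namespace Cfsg.Agent.S1524

open CfsgLib.PF CfsgLib.PF.C5 CfsgLib.BG

/-- Let G be a finite group and H ≤ L subgroups with L of odd order, H ≠ ⊥ nilpotent and normal in L with a nontrivial complement W₁ in L (H ⊓ W₁ = ⊥, H ⊔ W₁ = L) acting on H without non-identity fixed points (L is a Frobenius group with kernel H), and suppose the underlying set of H is a TI-subset of G whose normaliser is L. Let S be the set of functions on L induced from the non-principal irreducible characters of H. Then (S, L minus 1, induction to G) is coherent. -/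
theorem result {G : Type*} [Group G] [Fintype G] (H L W₁ : Subgroup G) [Fintype L] (hodd : Odd (Nat.card L)) (hHL : H ≤ L) (hW₁L : W₁ ≤ L) (hH1 : H ≠ ⊥) (hW1 : W₁ ≠ ⊥) (hnil : Group.IsNilpotent H) (hHn : ∀ x ∈ L, ∀ h ∈ H, x * h * x⁻¹ ∈ H) (hinf : H ⊓ W₁ = ⊥) (hsup : H ⊔ W₁ = L) (hfpf : ∀ w ∈ W₁, w ≠ 1 → ∀ h ∈ H, w * h = h * w → h = 1) (hTI : Cfsg.IsTISubset (H : Set G)) (hN : Subgroup.normalizer (H : Set G) = L) : Cfsg.IsCoherent (Cfsg.inducedIrrAbove (H.subgroupOf L) ⊥) {1}ᶜ (fun α : L → ℂ => Cfsg.indFun L α) := by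
  have hn : H ⊲ L := ⟨hHL, hN.ge⟩
  have hc := Sibley_coherence (W₁ := W₁) hodd hnil (hN ▸ normedTI_sharp_of_TI hTI) (Or.inl
    ⟨⟨⟨hHL, hW₁L, hinf, fun m hm => ?_⟩, hN.ge⟩, hH1, hW1, fun w hw h1 => eq_bot_iff.mpr fun h hh =>
      hfpf w hw h1 h hh.1 (Subgroup.mem_centralizer_singleton_iff.mp hh.2).symm⟩)
  · obtain ⟨χ, hχ⟩ := seqIndD_nonempty (H := H) (M := ⊥) hn (normalIn_of_normal bot_le) le_rfl
      fun h => hH1 (le_bot_iff.mp h)
    exact isCoherent_of_coherent_amb (fun φ => (mem_inducedIrrAbove_subgroupOf hHL).mp)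
      (fun α _ => (Ind_top_extendByZero L α).symm) hc
      (exists_zspanOn_ne_zero_amb (fun φ => mem_inducedIrrAbove_subgroupOf hHL) hχ
        (conjFun_mem_seqIndD hχ) (seqIndD_conj_ne hn hodd le_rfl hχ)
        (seqIndT_char hHL (seqIndD_subset_seqIndT hχ)).isVChar)
  · rw [← hsup, ← SetLike.mem_coe, Subgroup.coe_mul_of_right_le_normalizer_left _ _
      (hW₁L.trans hN.ge)] at hm
    obtain ⟨a, ha, b, hb, e⟩ := hm
    exact ⟨a, ha, b, hb, e.symm⟩

end Cfsg.Agent.S1524
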