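import Cfsg.Statements.S1525
import Cfsg.Agent.Lib.PF.S7_1

set_option autoImplicit false
open Cfsg

namespace Cfsg.Agent.S1525

open CfsgLib.PF CfsgLib.BG

/-- Under the Dade hypothesis for (A, L, H), let χ be a class function of G and let ψ be a function on L whose value at each a ∈ A is the average of χ over the coset a·H(a). Then (1/|G|) Σ |χ g|² over the elements g of G conjugate into some coset a·H(a) with a ∈ A is at least (1/|L|) Σ_{a ∈ A ∩ L} |ψ a|². -/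
theorem result {G : Type*} [Group G] [Fintype G] (A : Set G) (L : Subgroup G) [Fintype L] (H : G → Subgroup G) (hD : Cfsg.DadeHypothesis A L H) (χ : G → ℂ) (hχ : Cfsg.IsClassFunction G χ) (ψ : L → ℂ) (hψ : ∀ a : L, (a : G) ∈ A → ψ a = (Nat.card (H a) : ℂ)⁻¹ * ∑ᶠ u ∈ (H a : Set G), χ (a * u)) : (Nat.card L : ℝ)⁻¹ * ∑ᶠ a ∈ {a : L | (a : G) ∈ A}, ‖ψ a‖ ^ 2 ≤ (Nat.card G : ℝ)⁻¹ * ∑ᶠ g ∈ {g : G | ∃ a ∈ A, ∃ u ∈ H a, ∃ x : G, x * g * x⁻¹ = a * u}, ‖χ g‖ ^ 2 := by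
  have h := norm_invDade_le_support hD (mem_CF_top.2 hχ)
  have h1 : {g : G | ∃ a ∈ A, ∃ u ∈ H a, ∃ x : G, x * g * x⁻¹ = a * u} = dadeSupp A H := by
    ext g
    exact ⟨fun ⟨a, ha, u, hu, x, h⟩ => ⟨a, ha, x, u, hu, h⟩, fun ⟨a, ha, x, u, hu, h⟩ => ⟨a, ha, u, hu, x, h⟩⟩
  rw [h1, ← sum_els_eq_finsum, ← sum_els_eq_finsum]
  refine le_of_eq_of_le ?_ h
  rw [cfnorm_eq_sum_on hD.subset fun x hx => invDade_apply_of_not_mem χ hx,
    ← sum_els_bij (A := {a : L | (a : G) ∈ A}) (B := A) Subtype.val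
      ⟨fun _ h => h, Subtype.val_injective.injOn, fun a ha => ⟨⟨a, hD.subset ha⟩, ha, rfl⟩⟩]
  congr 1
  refine sum_els_congr fun a ha => ?_
  rw [hψ a ha, invDade_apply_of_mem (A := A) χ ha, sum_els_eq_finsum]

end Cfsg.Agent.S1525
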