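import Mathlib
import Cfsg.Statements.S1526
import Cfsg.Agent.Lib.PF.S6_Bridge
import Cfsg.Agent.Lib.PF.S7_3
import Cfsg.Agent.Lib.Frob.Thompson

set_option autoImplicit false
open Cfsg

namespace Cfsg.Agent.S1526

open CfsgLib.PF CfsgLib.PF.C5 CfsgLib.BG

/-- Let G be a finite group of odd order and (L i, H i), i in a finite index type with at least two elements, pairs of subgroups with H i a nontrivial proper normal subgroup of L i such that every non-identity element of H i has its centraliser within L i contained in H i (L i is a Frobenius group with kernel H i), the orders of the H i pairwise coprime, and the underlying set of each H i a TI-subset of G with normaliser L i. If every non-identity element of G is conjugate to an element of some H i, we reach a contradiction. -/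
theorem result {G : Type*} [Group G] [Finite G] (hodd : Odd (Nat.card G)) {ι : Type*} [Fintype ι] (hι : 2 ≤ Fintype.card ι) (L H : ι → Subgroup G) (hHL : ∀ i, H i < L i) (hH1 : ∀ i, H i ≠ ⊥) (hHn : ∀ i, ∀ x ∈ L i, ∀ h ∈ H i, x * h * x⁻¹ ∈ H i) (hfrob : ∀ i, ∀ h ∈ H i, h ≠ 1 → L i ⊓ Subgroup.centralizer ({h} : Set G) ≤ H i) (hcop : ∀ i j, i ≠ j → Nat.Coprime (Nat.card (H i)) (Nat.card (H j))) (hTI : ∀ i, Cfsg.IsTISubset (H i : Set G) ∧ Subgroup.normalizer (H i : Set G) = L i) (hcover : ∀ g : G, g ≠ 1 → ∃ i, ∃ x : G, x * g * x⁻¹ ∈ H i) : False := by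
  haveI : Nonempty ι := Fintype.card_pos_iff.mp (by omega)
  have hn : ∀ i, H i ⊲ L i := fun i => ⟨(hHL i).le, (hTI i).2.ge⟩
  have hF : ∀ i, FrobKer (L i) (H i) := fun i => ⟨hn i, hH1 i, (hHL i).ne, hfrob i⟩
  obtain ⟨g, hg, h⟩ := no_coherent_Frobenius_partition hodd hF (fun i => by
      haveI : ((H i).subgroupOf (L i)).Normal := Subgroup.normal_subgroupOf_of_le_normalizer (hn i).2
      have := CfsgLib.Frob.isNilpotent_of_centralizer_le (N := (H i).subgroupOf (L i))
        (fun e => (hHL i).not_ge (Subgroup.subgroupOf_eq_top.mp e))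
        (fun x hx h1 y hy => hfrob i x hx (fun e => h1 (Subtype.ext e)) ⟨y.2,
          Subgroup.mem_centralizer_singleton_iff.mpr
            (congrArg Subtype.val (Subgroup.mem_centralizer_singleton_iff.mp hy))⟩)
      exact Group.nilpotent_of_mulEquiv (Subgroup.subgroupOfEquivOfLe (hHL i).le))
    (fun i => (hTI i).2 ▸ normedTI_sharp_of_TI (hTI i).1) hcop
  obtain ⟨i, x, hx⟩ := hcover g hg
  exact h i ⟨_, ⟨hx, fun e => hg (by simpa using e)⟩, x⁻¹, Subgroup.mem_top _, by group⟩

end Cfsg.Agent.S1526
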