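import Cfsg.Statements.S1527
import Mathlib

set_option autoImplicit false
open Cfsg

namespace Cfsg.Agent.S1527

open Classical in
/-- The conjugates of the non-identity elements of a TI subgroup. -/
theorem card_conj {G : Type*} [Group G] [Fintype G] (H : Subgroup G)
    (hTI : Cfsg.IsTISubset (H : Set G)) :
    (Finset.univ.filter (fun g : G => g ≠ 1 ∧ ∃ x : G, x * g * x⁻¹ ∈ H)).card =
      (Subgroup.normalizer (H : Set G)).index * (Nat.card H - 1) := by
  set N := Subgroup.normalizer (H : Set G) with hN
  set S := Finset.univ.filter (fun g : G => g ≠ 1 ∧ ∃ x : G, x * g * x⁻¹ ∈ H) with hS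
  set A := Finset.univ.filter (fun g : G => g ≠ 1 ∧ g ∈ H) with hA
  have hAcard : A.card = Nat.card H - 1 := by
    have : A = (Finset.univ.filter (fun g : G => g ∈ H)).erase 1 := by
      ext g; simp [hA]
    rw [this, Finset.card_erase_of_mem (by simp), Nat.card_eq_fintype_card, Fintype.card_subtype]
  -- count pairs (x, g) with x g x⁻¹ ∈ H, g ≠ 1
  let T := Finset.univ.filter (fun p : G × G => p.2 ≠ 1 ∧ p.1 * p.2 * p.1⁻¹ ∈ H)
  have h1 : T.card = Nat.card G * A.card := by
    rw [Finset.card_eq_sum_card_fiberwise (f := Prod.fst) (t := Finset.univ) (by simp)]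
    rw [Finset.sum_const_nat (m := A.card)]
    · simp
    · intro x _
      apply Finset.card_bij (fun p _ => x * p.2 * x⁻¹)
      · intro p hp
        simp only [T, Finset.mem_filter, Finset.mem_univ, true_and] at hp
        obtain ⟨⟨h1, h2⟩, h3⟩ := hp
        simp only [hA, Finset.mem_filter, Finset.mem_univ, true_and]
        refine ⟨?_, h3 ▸ h2⟩
        intro h; apply h1
        simpa using h
      · intro p hp q hq h
        simp only [T, Finset.mem_filter, Finset.mem_univ, true_and] at hp hq
        ext
        · rw [hp.2, hq.2]
        · simpa using h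
      · intro a ha
        simp only [hA, Finset.mem_filter, Finset.mem_univ, true_and] at ha
        refine ⟨(x, x⁻¹ * a * x), ?_, by group⟩
        simp only [T, Finset.mem_filter, Finset.mem_univ, true_and, and_true]
        refine ⟨?_, by simpa [mul_assoc] using ha.2⟩
        intro h; apply ha.1
        have : a = x * (x⁻¹ * a * x) * x⁻¹ := by group
        rw [this, h]; simp
  have h2 : T.card = S.card * Nat.card N := by
    rw [Finset.card_eq_sum_card_fiberwise (f := Prod.snd) (t := S)]
    · rw [Finset.sum_const_nat (m := Nat.card N)]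
      intro g hg
      simp only [hS, Finset.mem_filter, Finset.mem_univ, true_and] at hg
      obtain ⟨hg1, x, hx⟩ := hg
      rw [Nat.card_eq_fintype_card, Fintype.card_subtype]
      apply Finset.card_bij (fun p _ => p.1 * x⁻¹)
      · intro p hp
        simp only [T, Finset.mem_filter, Finset.mem_univ, true_and] at hp
        obtain ⟨⟨h1, h2⟩, h3⟩ := hp
        simp only [Finset.mem_filter, Finset.mem_univ, true_and]
        by_contra hn
        have := hTI _ hn (x * g * x⁻¹) hx (by
          have : p.1 * x⁻¹ * (x * g * x⁻¹) * (p.1 * x⁻¹)⁻¹ = p.1 * p.2 * p.1⁻¹ := by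
            rw [h3]; group
          rw [this]; exact h2)
        apply hg1
        simpa using this
      · intro p hp q hq h
        simp only [T, Finset.mem_filter, Finset.mem_univ, true_and] at hp hq
        ext
        · simpa using h
        · rw [hp.2, hq.2]
      · intro n hn
        simp only [Finset.mem_filter, Finset.mem_univ, true_and] at hn
        refine ⟨(n * x, g), ?_, by group⟩
        simp only [T, Finset.mem_filter, Finset.mem_univ, true_and, and_true]
        refine ⟨hg1, ?_⟩
        have := (Subgroup.mem_normalizer_iff.mp hn (x * g * x⁻¹)).mp hx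
        convert this using 1
        group
    · intro p hp
      simp only [T, Finset.coe_filter, Finset.mem_univ, true_and, Set.mem_ofPred_eq] at hp
      simp only [hS, Finset.coe_filter, Finset.mem_univ, true_and, Set.mem_ofPred_eq]
      exact ⟨hp.1, p.1, hp.2⟩
  have h3 : N.index * Nat.card N = Nat.card G := N.index_mul_card
  have hpos : 0 < Nat.card N := Nat.card_pos
  apply Nat.eq_of_mul_eq_mul_right hpos
  rw [← h2, h1, hAcard, ← h3]; ring

/-- Let G be a finite group and H i (i in a finite index type) subgroups of pairwise coprime orders, each of whose underlying sets is a TI-subset of G, such that every non-identity element of G is conjugate to an element of some H i. Then Nat.card G − 1 = Σ_i [G : N_G(H i)] · (Nat.card (H i) − 1). -/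
theorem result {G : Type*} [Group G] [Finite G] {ι : Type*} [Fintype ι] (H : ι → Subgroup G) (hcop : ∀ i j, i ≠ j → Nat.Coprime (Nat.card (H i)) (Nat.card (H j))) (hTI : ∀ i, Cfsg.IsTISubset (H i : Set G)) (hcover : ∀ g : G, g ≠ 1 → ∃ i, ∃ x : G, x * g * x⁻¹ ∈ H i) : Nat.card G - 1 = ∑ i, (Subgroup.normalizer (H i : Set G)).index * (Nat.card (H i) - 1) := by
  classical
  have := Fintype.ofFinite G
  rw [← Finset.sum_congr rfl (fun i _ => card_conj (H i) (hTI i))]
  rw [← Finset.card_biUnion]
  · have : (Finset.univ.biUnion (fun i => Finset.univ.filter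
        (fun g : G => g ≠ 1 ∧ ∃ x : G, x * g * x⁻¹ ∈ H i))) = Finset.univ.erase 1 := by
      ext g
      simp only [Finset.mem_biUnion, Finset.mem_univ, Finset.mem_filter, true_and,
        Finset.mem_erase, and_true]
      constructor
      · rintro ⟨i, h, -⟩; exact h
      · intro h
        obtain ⟨i, x, hx⟩ := hcover g h
        exact ⟨i, h, x, hx⟩
    rw [this, Finset.card_erase_of_mem (Finset.mem_univ _), Finset.card_univ,
      Nat.card_eq_fintype_card]
  · intro i _ j _ hij
    rw [Function.onFun, Finset.disjoint_left]
    intro g hi hj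
    simp only [Finset.mem_filter, Finset.mem_univ, true_and] at hi hj
    obtain ⟨hg, x, hx⟩ := hi
    obtain ⟨-, y, hy⟩ := hj
    have h1 : orderOf g ∣ Nat.card (H i) := by
      have := Subgroup.orderOf_dvd_natCard (H i) hx
      rwa [show x * g * x⁻¹ = MulAut.conj x g from rfl, MulEquiv.orderOf_eq] at this
    have h2 : orderOf g ∣ Nat.card (H j) := by
      have := Subgroup.orderOf_dvd_natCard (H j) hy
      rwa [show y * g * y⁻¹ = MulAut.conj y g from rfl, MulEquiv.orderOf_eq] at this
    exact hg (orderOf_eq_one_iff.mp (Nat.eq_one_of_dvd_coprimes (hcop i j hij) h1 h2))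

end Cfsg.Agent.S1527
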