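import Mathlib
import Cfsg.Statements.S1529
import Cfsg.Agent.Lib.PF.Feit1
import Cfsg.Agent.Lib.PF.S5_Bridge

set_option autoImplicit false
open Cfsg

namespace Cfsg.Agent.S1529

open CfsgLib.PF CfsgLib.PF.C5 CfsgLib.BG

/-- Let N be a subgroup of the finite group G, S a set of irreducible characters of N with at least two members, and τ₁ a linear isometry on the integer combinations of S with virtual-character values such that τ₁ α vanishes at 1 whenever α ∈ ℤ[S] does. Then there is ε ∈ {1, −1} such that ε • τ₁ χ is an irreducible character of G for every χ ∈ S, and distinct members of S give distinct characters. -/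
theorem result {G : Type*} [Group G] [Fintype G] (N : Subgroup G) [Fintype N] (S : Set (N → ℂ)) (hirr : ∀ χ ∈ S, Cfsg.IsIrrCharacter N χ) (htwo : ∃ χ ∈ S, ∃ ψ ∈ S, χ ≠ ψ) (τ₁ : (N → ℂ) → (G → ℂ)) (hτ₁ : Cfsg.IsLinearIsometryOn (Cfsg.zspan S) τ₁) (h0 : ∀ α ∈ Cfsg.zspan S, α 1 = 0 → τ₁ α 1 = 0) : ∃ ε : ℂ, (ε = 1 ∨ ε = -1) ∧ (∀ χ ∈ S, Cfsg.IsIrrCharacter G (ε • τ₁ χ)) ∧ (∀ χ ∈ S, ∀ ψ ∈ S, τ₁ χ = τ₁ ψ → χ = ψ) := by
  have hfin : S.Finite := (finite_isIrr (⊤ : Subgroup N)).subset fun χ hχ => isIrr_top.2 (hirr χ hχ)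
  obtain ⟨S', rfl⟩ := hfin.exists_finset_coe
  obtain ⟨ν, hν, hiso⟩ := exists_isoOn_of_isLinearIsometryOn hτ₁
  have hc : CoherentWith ⊤ S' ν ν := ⟨hiso, fun _ _ => rfl⟩
  obtain ⟨ε, hε, h⟩ := hc.exists_sign fun α hα => by
    rw [mem_zspanOn_one] at hα
    rw [hν α hα.1]; exact h0 α hα.1 hα.2
  refine ⟨ε, by rcases hε with rfl | rfl <;> simp, fun χ hχ => ?_, fun χ hχ ψ hψ e => ?_⟩
  · rw [← hν χ (mem_zspan hχ)]
    exact isIrr_top.1 (h χ hχ (isIrr_top.2 (hirr χ hχ)))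
  · have i1 := isIrr_top.2 (hirr χ hχ)
    refine i1.eq_of_dot_ne_zero (isIrr_top.2 (hirr ψ hψ)) ?_
    rw [← coh_dot hc hχ hψ, hν ψ (mem_zspan hψ), ← e, ← hν χ (mem_zspan hχ), coh_dot hc hχ hχ,
      i1.dot_self]
    exact one_ne_zero

end Cfsg.Agent.S1529
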