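import Mathlib
import Cfsg.Statements.S1530
import Cfsg.Agent.Lib.PF.Feit1
import Cfsg.Agent.Lib.PF.S5_Bridge

set_option autoImplicit false
open Cfsg

namespace Cfsg.Agent.S1530

open CfsgLib.PF CfsgLib.PF.C5 CfsgLib.BG

/-- Let N be a subgroup of the finite group G and S₀ a finite set of irreducible characters of N, χ an irreducible character of N not in S₀, with degrees ξ 1 = d ξ. Let τ be a linear isometry on the integer combinations of S₀ ∪ {χ} vanishing at 1, with values virtual characters of G vanishing at 1, such that (S₀, N minus 1, τ) is coherent. If some ψ ∈ S₀ has d ψ dividing d χ and 2 · d ψ · d χ < Σ_{ξ ∈ S₀} (d ξ)², then (S₀ ∪ {χ}, N minus 1, τ) is coherent. -/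
theorem result {G : Type*} [Group G] [Fintype G] (N : Subgroup G) [Fintype N] (S₀ : Finset (N → ℂ)) (χ : N → ℂ) (hirr : ∀ ξ ∈ S₀, Cfsg.IsIrrCharacter N ξ) (hχ : Cfsg.IsIrrCharacter N χ) (hχS : χ ∉ S₀) (d : (N → ℂ) → ℕ) (hd : ∀ ξ ∈ insert χ S₀, ξ 1 = (d ξ : ℂ)) (τ : (N → ℂ) → (G → ℂ)) (hτ : Cfsg.IsLinearIsometryOn (Cfsg.zspanOn (↑(insert χ S₀) : Set (N → ℂ)) {1}ᶜ) τ) (hτ1 : ∀ α ∈ Cfsg.zspanOn (↑(insert χ S₀) : Set (N → ℂ)) {1}ᶜ, τ α 1 = 0) (hcoh : Cfsg.IsCoherent (↑S₀ : Set (N → ℂ)) {1}ᶜ τ) (ψ : N → ℂ) (hψ : ψ ∈ S₀) (hdvd : d ψ ∣ d χ) (hlt : 2 * d ψ * d χ < ∑ ξ ∈ S₀, d ξ ^ 2) : Cfsg.IsCoherent (↑(insert χ S₀) : Set (N → ℂ)) {1}ᶜ τ := by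
  obtain ⟨ν, hν, hiso⟩ := exists_isoOn_of_isLinearIsometryOn hτ
  have hI : IrrIso ⊤ (insert χ S₀) ν := ⟨fun ξ hξ => isIrr_top.2 (by
    rcases Finset.mem_insert.1 hξ with rfl | hξ
    exacts [hχ, hirr ξ hξ]), hiso, fun α hα => by rw [hν α hα]; exact hτ1 α hα⟩
  have hsub : S₀ ⊆ insert χ S₀ := Finset.subset_insert _ _
  have hmono := zspanOn_mono (S := (S₀ : Set (N → ℂ))) (T := (↑(insert χ S₀) : Set (N → ℂ)))
    (by exact_mod_cast hsub) ({1}ᶜ : Set N)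
  have hc := coherent_of_isCoherent (ν := ν) (fun α hα => hν α (hmono hα)) hcoh
  obtain ⟨a, ha⟩ := hdvd
  have h1 := hd χ (Finset.mem_insert_self _ _)
  have h2 := hd ψ (hsub hψ)
  refine isCoherent_of_coherent hν (hI.extend hsub hψ (Finset.mem_insert_self _ _) hc
    ⟨a, by rw [h1, h2, ha]; push_cast; ring⟩ ?_) ?_
  · rw [h1, h2, Finset.sum_congr rfl fun ξ hξ => by rw [hd ξ (hsub hξ)]]
    simp only [Complex.natCast_re]
    have : 2 * d χ * d ψ < ∑ ξ ∈ S₀, d ξ ^ 2 := by rw [mul_right_comm]; exact hlt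
    exact_mod_cast this
  · have i1 := isIrr_top.2 hχ
    have i2 := isIrr_top.2 (hirr ψ hψ)
    exact ⟨_, irr_smul_sub_smul_mem (Finset.mem_coe.2 (Finset.mem_insert_self _ _))
      (Finset.mem_coe.2 (hsub hψ)) i1 i2,
      irr_smul_sub_smul_ne_zero i1 i2 fun e => hχS (e ▸ hψ)⟩

end Cfsg.Agent.S1530
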