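import Mathlib
import Cfsg.Statements.S1531
import Cfsg.Agent.Lib.PF.Feit1
import Cfsg.Agent.Lib.PF.S5_Bridge

set_option autoImplicit false
open Cfsg

namespace Cfsg.Agent.S1531

open CfsgLib.PF CfsgLib.PF.C5 CfsgLib.BG

/-- Let N be a subgroup of the finite group G, S a set of irreducible characters of N, and α a linear isometry on the integer combinations of S vanishing at 1 with values virtual characters of G vanishing at 1. Let X, Y ⊆ S be disjoint, each with at least two members, and σ, τ linear isometries on ℤ[X], ℤ[Y] into virtual characters agreeing with α on the members vanishing at 1. Then ⟨σ χ, τ η⟩ = 0 for χ ∈ X, η ∈ Y; and if for some χ₀ ∈ X, η₀ ∈ Y with degrees c = χ₀ 1, e = η₀ 1 one has α (c • η₀ − e • χ₀) = c • τ η₀ − e • σ χ₀, then (X ∪ Y, N minus 1, α) is coherent. -/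
theorem result {G : Type*} [Group G] [Fintype G] (N : Subgroup G) [Fintype N] (S X Y : Set (N → ℂ)) (hirr : ∀ ξ ∈ S, Cfsg.IsIrrCharacter N ξ) (hXS : X ⊆ S) (hYS : Y ⊆ S) (hXY : Disjoint X Y) (hX2 : ∃ a ∈ X, ∃ b ∈ X, a ≠ b) (hY2 : ∃ a ∈ Y, ∃ b ∈ Y, a ≠ b) (α : (N → ℂ) → (G → ℂ)) (hα : Cfsg.IsLinearIsometryOn (Cfsg.zspanOn S {1}ᶜ) α) (hα1 : ∀ θ ∈ Cfsg.zspanOn S {1}ᶜ, α θ 1 = 0) (σ τ : (N → ℂ) → (G → ℂ)) (hσ : Cfsg.IsLinearIsometryOn (Cfsg.zspan X) σ) (hσα : ∀ θ ∈ Cfsg.zspanOn X {1}ᶜ, σ θ = α θ) (hτ : Cfsg.IsLinearIsometryOn (Cfsg.zspan Y) τ) (hτα : ∀ θ ∈ Cfsg.zspanOn Y {1}ᶜ, τ θ = α θ) : (∀ χ ∈ X, ∀ η ∈ Y, Cfsg.classInner (σ χ) (τ η) = 0) ∧ ((∃ χ₀ ∈ X, ∃ η₀ ∈ Y, α (χ₀ 1 • η₀ - η₀ 1 • χ₀) = χ₀ 1 • τ η₀ - η₀ 1 • σ χ₀) → Cfsg.IsCoherent (X ∪ Y) {1}ᶜ α) := by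
  classical
  have hfin : S.Finite := (finite_isIrr (⊤ : Subgroup N)).subset fun χ hχ => isIrr_top.2 (hirr χ hχ)
  obtain ⟨X', rfl⟩ := (hfin.subset hXS).exists_finset_coe
  obtain ⟨Y', rfl⟩ := (hfin.subset hYS).exists_finset_coe
  obtain ⟨S', rfl⟩ := hfin.exists_finset_coe
  obtain ⟨ν, hν, hiso⟩ := exists_isoOn_of_isLinearIsometryOn hα
  obtain ⟨σ', hσ', hσi⟩ := exists_isoOn_of_isLinearIsometryOn hσ
  obtain ⟨τ', hτ', hτi⟩ := exists_isoOn_of_isLinearIsometryOn hτ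
  have hI : IrrIso ⊤ S' ν := ⟨fun ξ hξ => isIrr_top.2 (hirr ξ hξ), hiso,
    fun θ hθ => by rw [hν θ hθ]; exact hα1 θ hθ⟩
  have cσ : CoherentWith ⊤ X' ν σ' := ⟨hσi, fun θ hθ => by
    rw [hσ' θ (zspanOn_subset _ _ hθ), hσα θ hθ, hν θ (zspanOn_mono hXS _ hθ)]⟩
  have cτ : CoherentWith ⊤ Y' ν τ' := ⟨hτi, fun θ hθ => by
    rw [hτ' θ (zspanOn_subset _ _ hθ), hτα θ hθ, hν θ (zspanOn_mono hYS _ hθ)]⟩
  have hX : X' ⊆ S' := by exact_mod_cast hXS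
  have hY : Y' ⊆ S' := by exact_mod_cast hYS
  have hd : Disjoint X' Y' := by exact_mod_cast hXY
  refine ⟨fun χ hχ η hη => ?_, ?_⟩
  · rw [← hσ' χ (mem_zspan hχ), ← hτ' η (mem_zspan hη), ← dot_top]
    exact hI.coherent_ortho hX hY hd hX2 hY2 cσ cτ hχ hη
  · rintro ⟨χ₀, hχ₀, η₀, hη₀, hb⟩
    have i1 := hI.irr _ (hX hχ₀)
    have i2 := hI.irr _ (hY hη₀)
    rw [← Finset.coe_union]
    have hsub : ((X' ∪ Y' : Finset (N → ℂ)) : Set (N → ℂ)) ⊆ S' := by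
      exact_mod_cast Finset.union_subset hX hY
    refine isCoherent_of_coherent (fun θ hθ => hν θ (zspanOn_mono hsub _ hθ))
      (hI.coherent_union hX hY hd hX2 hY2 cσ cτ hχ₀ hη₀ ?_) ?_
    · rw [hν _ (irr_smul_sub_smul_mem (hYS hη₀) (hXS hχ₀) i2 i1), hb, hσ' _ (mem_zspan hχ₀),
        hτ' _ (mem_zspan hη₀)]
    · exact ⟨_, irr_smul_sub_smul_mem (Finset.mem_coe.2 (Finset.mem_union_left _ hχ₀))
        (Finset.mem_coe.2 (Finset.mem_union_right _ hη₀)) i1 i2,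
        irr_smul_sub_smul_ne_zero i1 i2 fun e => Finset.disjoint_left.1 hd hχ₀ (e ▸ hη₀)⟩

end Cfsg.Agent.S1531
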