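import Mathlib
import Cfsg.Statements.S1532
import Cfsg.Agent.Lib.PF.Feit2
import Cfsg.Agent.Lib.PF.S5_Bridge

set_option autoImplicit false
open Cfsg

namespace Cfsg.Agent.S1532

open CfsgLib.PF CfsgLib.PF.C5 CfsgLib.BG

/-- Let G be a finite group, p an odd prime and P a Sylow p-subgroup that is non-abelian, whose underlying set is a TI-subset of G, with P properly contained in its set normaliser N and C_G(x) ≤ P for every non-identity x ∈ P. Let Z be a nontrivial subgroup of the centre of P normalised by N. Then the set of irreducible characters χ of N with χ z ≠ χ 1 for some z ∈ Z is coherent for the map induced by induction from N to G. -/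
theorem result {G : Type*} [Group G] [Fintype G] (p : ℕ) [Fact p.Prime] (hp : p ≠ 2) (P : Sylow p G) (hna : ¬ IsMulCommutative (P : Subgroup G)) (hTI : Cfsg.IsTISubset ((P : Subgroup G) : Set G)) (hlt : (P : Subgroup G) < Subgroup.normalizer ((P : Subgroup G) : Set G)) (hC : ∀ k ∈ (P : Subgroup G), k ≠ 1 → Subgroup.centralizer ({k} : Set G) ≤ (P : Subgroup G)) [Fintype ↥(Subgroup.normalizer ((P : Subgroup G) : Set G))] (Z : Subgroup G) (hZ1 : Z ≠ ⊥) (hZP : ∀ z ∈ Z, z ∈ (P : Subgroup G) ∧ ∀ y ∈ (P : Subgroup G), z * y = y * z) (hZn : ∀ x ∈ Subgroup.normalizer ((P : Subgroup G) : Set G), ∀ z ∈ Z, x * z * x⁻¹ ∈ Z) : Cfsg.IsCoherent {χ : ↥(Subgroup.normalizer ((P : Subgroup G) : Set G)) → ℂ | Cfsg.IsIrrCharacter ↥(Subgroup.normalizer ((P : Subgroup G) : Set G)) χ ∧ ∃ z : ↥(Subgroup.normalizer ((P : Subgroup G) : Set G)), (z : G) ∈ Z ∧ χ z ≠ χ 1} {1}ᶜ (fun α => Cfsg.indFun (Subgroup.normalizer ((P : Subgroup G) : Set G)) α) := by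
  have hpp : p.Prime := Fact.out
  have hP1 : (P : Subgroup G) ≠ ⊥ := fun h => hna (h ▸ abelian_bot)
  have hF := frobKer_of_TI hP1 hlt hC
  have hZ : Z ≤ (P : Subgroup G) := fun z hz => (hZP z hz).1
  have hZL : Z ≤ 𝒩((P : Subgroup G)) := hZ.trans hF.normal.1
  have hodd : Odd (Nat.card 𝒩((P : Subgroup G))) := by
    obtain ⟨k, hk⟩ := pgroup_card hpp P.isPGroup'
    rw [← card_mul_relIndex hF.normal.1, hk]
    exact ((hpp.odd_of_ne_two hp).pow).mul (hF.odd_relIndex fun h => hna (abelian_iff_der1.2 h))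
  obtain ⟨W, hW⟩ := hF.exists_frob
  have hc := Sibley_coherence hodd hF.nilpotent (normedTI_sharp_of_TI hTI) (Or.inl hW)
  obtain ⟨χ, hχ, -, hk⟩ := exists_irr_not_inKer (NormalIn.bot _) hZL
    (fun h => hZ1 (le_bot_iff.1 h))
  refine isCoherent_of_coherent_amb (fun φ hφ => hF.mem_amb.1
    ⟨hφ.1, hφ.2.imp fun z h => ⟨hZ h.1, h.2⟩⟩) (fun α _ => (Ind_top_extendByZero _ α).symm) hc
    (exists_zspanOn_ne_zero_of_two hχ.conj hχ (hχ.conj_ne_of_odd hodd
      fun e => hk (e ▸ inKer_cf1.2 hZL)) fun φ h => ?_)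
  rw [Set.mem_ofPred_eq, ← isIrr_extendByZero, ← not_inKer_extendByZero hZL]
  rcases h with h | h <;> rw [h]
  exacts [⟨hχ.conj, by rwa [inKer_conjFun]⟩, ⟨hχ, hk⟩]

end Cfsg.Agent.S1532
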