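import Mathlib
import Cfsg.Statements.S1534
import Cfsg.Agent.Lib.PF.Feit2
import Cfsg.Agent.Lib.PF.S5_Bridge

set_option autoImplicit false
open Cfsg

namespace Cfsg.Agent.S1534

open CfsgLib.PF CfsgLib.PF.C5 CfsgLib.BG

/-- Let G be a finite group and K a nontrivial nilpotent subgroup whose underlying set is a TI-subset of G, properly contained in its set normaliser N, with C_G(k) ≤ K for every non-identity k ∈ K; let e be the index of K in N and S the set of irreducible characters χ of N with χ k ≠ χ 1 for some k ∈ K. Then one of: S has exactly one member, Nat.card K = e + 1 and K is an elementary abelian p-group for some prime p; or K is a Sylow 2-subgroup of G (Nat.card K is the largest power of 2 dividing Nat.card G) and [K : [K,K]] < 4e²; or (S, N minus 1, induction to G) is coherent. -/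
theorem result {G : Type*} [Group G] [Fintype G] (K : Subgroup G) (hK1 : K ≠ ⊥) (hnil : Group.IsNilpotent K) (hTI : Cfsg.IsTISubset (K : Set G)) (hlt : K < Subgroup.normalizer (K : Set G)) (hC : ∀ k ∈ K, k ≠ 1 → Subgroup.centralizer ({k} : Set G) ≤ K) [Fintype ↥(Subgroup.normalizer (K : Set G))] : (Nat.card {χ : ↥(Subgroup.normalizer (K : Set G)) → ℂ // Cfsg.IsIrrCharacter ↥(Subgroup.normalizer (K : Set G)) χ ∧ ∃ k : ↥(Subgroup.normalizer (K : Set G)), (k : G) ∈ K ∧ χ k ≠ χ 1} = 1 ∧ Nat.card K = (K.subgroupOf (Subgroup.normalizer (K : Set G))).index + 1 ∧ ∃ p : ℕ, p.Prime ∧ Cfsg.IsElementaryAbelian p K) ∨ (Nat.card K = 2 ^ (Nat.card G).factorization 2 ∧ (⁅K, K⁆.subgroupOf K).index < 4 * (K.subgroupOf (Subgroup.normalizer (K : Set G))).index ^ 2) ∨ Cfsg.IsCoherent {χ : ↥(Subgroup.normalizer (K : Set G)) → ℂ | Cfsg.IsIrrCharacter ↥(Subgroup.normalizer (K : Set G)) χ ∧ ∃ k : ↥(Subgroup.normalizer (K : Set G)), (k : G) ∈ K ∧ χ k ≠ χ 1} {1}ᶜ (fun α => Cfsg.indFun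 (Subgroup.normalizer (K : Set G)) α) := by
  have hF := frobKer_of_TI hK1 hlt hC
  by_cases he : Nat.card K = K.relIndex 𝒩(K) + 1
  · exact Or.inl ⟨hF.card_amb_eq_one he, he, hF.abelem he⟩
  rcases hF.TI_coherence (normedTI_sharp_of_TI hTI) with h | ⟨h1, h2, h3⟩
  · exact Or.inr (Or.inr (hF.isCoherent_amb he h))
  refine Or.inr (Or.inl ⟨?_, ?_⟩)
  · obtain ⟨S, hS, hKS⟩ := Sylow_superset Nat.prime_two (le_top (a := K))
      ((pigroup_singleton Nat.prime_two).2 h1)
    have hSp := (pigroup_singleton Nat.prime_two).1 (pHall_pgroup hS)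
    obtain ⟨z, hz, hz1⟩ := exists_ne_one_of_ne_bot (meet_center_nil (pgroup_nil Nat.prime_two hSp)
      (NormalIn.refl S) (subG1_contra hKS hK1))
    obtain ⟨k, hk, hk1⟩ := exists_ne_one_of_ne_bot hK1
    have hzS : ∀ y ∈ S, y ∈ 𝒞[z] := fun y hy => mem_cent1.2 (hz.2.2 y hy)
    have hzK : z ∈ K := hC k hk hk1 (cent1C.1 (hzS k (hKS hk)))
    have : K = S := le_antisymm hKS fun y hy => hC z hzK hz1 (hzS y hy)
    rw [this, card_Sylow Nat.prime_two hS, Subgroup.card_top]
  · have ho := hF.odd_relIndex h2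
    have h4 := hF.one_lt_relIndex
    obtain ⟨m, hm⟩ := (isPiNat_singleton Nat.prime_two (relIndex_pos ⁅K, K⁆ K).ne').1
      (pigroup_relIndex ((pigroup_singleton Nat.prime_two).2 h1) ⁅K, K⁆)
    change (⁅K, K⁆ : Subgroup G).relIndex K < 4 * K.relIndex 𝒩(K) ^ 2
    rw [hm] at h3 ⊢
    generalize K.relIndex 𝒩(K) = e at *
    by_contra hge
    rcases (show 2 ^ m = 4 * e ^ 2 ∨ 2 ^ m = 4 * e ^ 2 + 1 by omega) with h | h
    · have : e ∣ 2 ^ m := h ▸ Dvd.intro_left (4 * e) (by ring)
      have := Nat.Coprime.eq_one_of_dvd ((Nat.coprime_two_right.2 ho).pow_right m) this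
      omega
    · rcases m with _ | m
      · have : 0 < e ^ 2 := by positivity
        omega
      · rw [pow_succ] at h; omega

end Cfsg.Agent.S1534
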