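import Cfsg.Statements.S1536
import Mathlib
import Cfsg.Agent.Lib.PF.Sec1
import Cfsg.Agent.Lib.BG.AmbElt

set_option autoImplicit false
open Cfsg
open CfsgLib.PF CfsgLib.BG

namespace Cfsg.Agent.S1536

/-- Let H be a normal subgroup of the finite group M whose order is coprime to its index. For x ∈ M: some non-principal irreducible character of H is unchanged under h ↦ θ(x h x⁻¹) if and only if some non-identity element of H commutes with x. -/
theorem result {M : Type*} [Group M] [Finite M] (H : Subgroup M) [hN : H.Normal] (hHall : Nat.Coprime (Nat.card H) H.index) (x : M) : (∃ θ : H → ℂ, Cfsg.IsIrrCharacter H θ ∧ θ ≠ (fun _ => 1) ∧ (fun h : H => θ ⟨x * h * x⁻¹, hN.conj_mem h h.2 x⟩) = θ) ↔ ∃ h ∈ H, h ≠ 1 ∧ x * h = h * x := by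
  classical
  have hn : ∀ g : M, g ∈ 𝒩(H) := fun g => by simp [Subgroup.normalizer_eq_top]
  have key : ∀ θ : H → ℂ, cfJ x (extendByZero H θ) = extendByZero H θ ↔
      (fun h : H => θ ⟨x * h * x⁻¹, hN.conj_mem h h.2 x⟩) = θ := fun θ => by
    refine ⟨fun e => funext fun h => ?_, fun e => funext fun g => ?_⟩
    · have := congrFun e h
      rwa [cfJ_apply, extendByZero_coe', extendByZero_coe' H θ ⟨_, hN.conj_mem h h.2 x⟩] at this
    · by_cases hg : g ∈ H
      · rw [cfJ_apply, extendByZero_coe' H θ ⟨g, hg⟩, extendByZero_coe' H θ ⟨_, hN.conj_mem g hg x⟩]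
        exact congrFun e ⟨g, hg⟩
      · rw [cfJ_apply, extendByZero_not_mem H θ g hg, extendByZero_not_mem H θ _ fun h => hg (by
          simpa [mul_assoc] using hN.conj_mem _ h x⁻¹)]
  constructor
  · rintro ⟨θ, hθ, h1, h2⟩
    have hHall' : IsPiHallOf (piOf (Nat.card H)) H ⊤ := Hall_pi ⟨le_top, by simpa using hHall⟩
    by_cases hx : piPart (piOf (Nat.card H)) x = 1
    · by_contra! hc
      refine not_mem_inertia_of_coprime (NormalIn.bot H) (hn x) (by simp) ?_ (fun h hh => ?_)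
        (isIrr_extendByZero.2 hθ) (inKer_bot _) (fun e => h1 (funext fun h => ?_)) ((key θ).2 h2)
      · exact isPiNat_piOf_compl.1 (piPart_eq_one_iff.1 hx)
      · by_contra h1
        exact hc h hh.1 h1 (mem_cent1.1 hh.2).symm
      · rw [← extendByZero_coe' H θ h, e, cf1_apply_of_mem h.2]
    · exact ⟨_, piPart_mem_normal_Hall hHall' (fun g _ => hn g) trivial, hx, (commute_piPart _ x).eq⟩
  · rintro ⟨h, hh, h1, hx⟩
    have h2 := card_afix_irr_classes (hn x)
    have h3 : 1 < {C : Set M | ∃ y ∈ H, C = conjSupp {y} H ∧ x * y * x⁻¹ ∈ C}.ncard := by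
      refine (Set.one_lt_ncard (Set.toFinite _)).2 ⟨conjSupp {h} H, ⟨h, hh, rfl, h, rfl, 1, H.one_mem,
        by simp [hx]⟩, conjSupp {1} H, ⟨1, H.one_mem, rfl, 1, rfl, 1, H.one_mem, by simp⟩, fun e => ?_⟩
      have : h ∈ conjSupp {1} H := e ▸ ⟨h, rfl, 1, H.one_mem, by simp⟩
      obtain ⟨a, rfl, g, -, e⟩ := this
      exact h1 (by simpa using e)
    rw [← h2] at h3
    obtain ⟨χ, hχ, hne⟩ := Finset.exists_mem_ne h3 (cf1 H)
    rw [Finset.mem_filter, mem_Irr] at hχ
    refine ⟨fun y => χ y, hχ.1.2, fun e => hne (eq_of_res_eq hχ.1.1 (isIrr_cf1 H).1 (e.trans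
      (funext fun y => (cf1_apply_of_mem y.2).symm))), funext fun y => congrFun hχ.2 y⟩

end Cfsg.Agent.S1536
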