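import Cfsg.Statements.S1542
import Cfsg.Agent.Lib.PF.Sec12
import Cfsg.Agent.Lib.PF.S6_Bridge

set_option autoImplicit false
open Cfsg

namespace Cfsg.Agent.S1542

open CfsgLib.PF CfsgLib.PF.C5 CfsgLib.BG

/-- Let G be a minimal simple group of odd order and L a maximal subgroup of Type I in which every non-identity element of H = L_F has its centraliser within L inside H. Let S be the set of functions on L induced from non-principal irreducible characters of H. Then every member of S is an irreducible character of L, and (S, L minus 1, τ) is coherent for τ the Dade map relative to A(L), L and a ↦ R(a). -/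
theorem result {G : Type*} [Group G] [Fintype G] (hG : Cfsg.IsMinSimpleOddOrder G) (L : Subgroup G) [Fintype L] (hL : IsCoatom L) (hI : Cfsg.IsOfTypeI L) (hfrob : ∀ x ∈ Cfsg.fittingHallOf L, x ≠ 1 → L ⊓ Subgroup.centralizer ({x} : Set G) ≤ Cfsg.fittingHallOf L) : (∀ χ ∈ Cfsg.inducedIrrAbove (Cfsg.fittingHall L) ⊥, Cfsg.IsIrrCharacter L χ) ∧ Cfsg.IsCoherent (Cfsg.inducedIrrAbove (Cfsg.fittingHall L) ⊥) {1}ᶜ (Cfsg.dadeIsometry (Cfsg.typeA L) L (Cfsg.supportR L)) := by
  have hI' := typeI_of_isOfTypeI hG hL hI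
  have hF := FTtype1_Frobenius hG hL hI'
  have hn := Fcore_normal L
  have e : fittingHall L = (fittingHallOf L).subgroupOf L :=
    (Subgroup.comap_map_eq_self_of_injective L.subtype_injective _).symm
  have hS : ∀ φ, φ ∈ inducedIrrAbove (fittingHall L) ⊥ ↔
      extendByZero L φ ∈ seqIndD (fittingHallOf L) L (fittingHallOf L) ⊥ := fun φ => by
    rw [e]; exact mem_inducedIrrAbove_subgroupOf hn.1
  refine ⟨fun χ hχ => isIrr_extendByZero.1 (FT_Frobenius_irr hF ((hS χ).1 hχ)), ?_⟩
  obtain ⟨χ, hχ, -⟩ := FTtype1_ref_irr hG hL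
  refine isCoherent_of_coherent_amb (fun φ hφ => (hS φ).1 hφ) (fun α hα => ?_)
    (FT_Frobenius_coherence hG hL hF) (exists_zspanOn_ne_zero_amb hS hχ
      ((seqIndD_conjSub le_rfl le_rfl).2 χ hχ)
      (FTtypeP_seqInd_conj_ne hG hL hn le_rfl hχ) (FT_Frobenius_irr hF hχ).isVChar)
  rw [typeA_eq_FTA (Or.inl hI), FTsupp_Frobenius hG hL hF, ← dadeIsometry_eq_dade (FT_DadeF_hyp hG hL),
    res_extendByZero]
  have h1 := extendByZero_mem_zspan (fun φ hφ => (hS φ).1 hφ) hα.1
  exact (isVChar_of_mem_zspan (fun φ hφ => (FT_Frobenius_irr hF hφ).isVChar) h1).mem_CF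

end Cfsg.Agent.S1542
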