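import Cfsg.Statements.S1546
import Mathlib

set_option autoImplicit false
open Cfsg

namespace Cfsg.Agent.S1546

theorem geom_eq (p q : ℕ) (hp : 2 ≤ p) : (p ^ q - 1) / (p - 1) = ∑ i ∈ Finset.range q, p ^ i := by
  rw [Nat.geomSum_eq hp]

theorem geom_mul (p q : ℕ) (hp : 2 ≤ p) :
    (∑ i ∈ Finset.range q, p ^ i) * (p - 1) + 1 = p ^ q := by
  obtain ⟨k, rfl⟩ : ∃ k, p = k + 1 := ⟨p - 1, by omega⟩
  simpa using geom_sum_mul_add k q

theorem geom_cast (p q n : ℕ) (h : (p : ZMod n) = 1) :
    ((∑ i ∈ Finset.range q, p ^ i : ℕ) : ZMod n) = q := by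
  push_cast
  simp [h]

/-- Let p and q be odd primes and N = (p ^ q − 1) / (p − 1) = 1 + p + ⋯ + p^(q−1). Then N is odd; if p ≡ 1 (mod q) then q ∣ N; and if p is not ≡ 1 (mod q) then N is coprime to p − 1 and every divisor of N is ≡ 1 (mod q). -/
theorem result (p q : ℕ) (hp : p.Prime) (hq : q.Prime) (hp2 : p ≠ 2) (hq2 : q ≠ 2) : Odd ((p ^ q - 1) / (p - 1)) ∧ (p % q = 1 → q ∣ (p ^ q - 1) / (p - 1)) ∧ (p % q ≠ 1 → Nat.Coprime ((p ^ q - 1) / (p - 1)) (p - 1) ∧ ∀ x : ℕ, x ∣ (p ^ q - 1) / (p - 1) → x % q = 1) := by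
  rw [geom_eq p q hp.two_le]
  have hpodd : Odd p := hp.odd_of_ne_two hp2
  have hqodd : Odd q := hq.odd_of_ne_two hq2
  have hp1 : 1 ≤ p := hp.one_le
  refine ⟨?_, ?_, ?_⟩
  · rw [← ZMod.natCast_eq_one_iff_odd, geom_cast p q 2 (ZMod.natCast_eq_one_iff_odd.mpr hpodd)]
    exact ZMod.natCast_eq_one_iff_odd.mpr hqodd
  · intro h
    rw [← ZMod.natCast_eq_zero_iff, geom_cast p q q]
    · simp
    · rw [← ZMod.natCast_mod, h]; simp
  · intro h
    have hcop : Nat.Coprime (∑ i ∈ Finset.range q, p ^ i) (p - 1) := by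
      apply Nat.Coprime.symm
      apply Nat.coprime_of_dvd
      intro r hr hr1 hr2
      have h1 : (p : ZMod r) = 1 := by
        have := (ZMod.natCast_eq_zero_iff (p - 1) r).mpr hr1
        rw [Nat.cast_sub hp1] at this
        simpa [sub_eq_zero] using this
      have h2 := (ZMod.natCast_eq_zero_iff _ r).mpr hr2
      rw [geom_cast p q r h1, ZMod.natCast_eq_zero_iff] at h2
      have h3 : r = q := (Nat.prime_dvd_prime_iff_eq hr hq).mp h2
      subst h3
      apply h
      obtain ⟨k, hk⟩ := hr1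
      have : p = 1 + r * k := by omega
      rw [this, Nat.add_mul_mod_self_left]
      exact Nat.mod_eq_of_lt hr.one_lt
    refine ⟨hcop, ?_⟩
    have key : ∀ r : ℕ, r.Prime → r ∣ (∑ i ∈ Finset.range q, p ^ i) → (r : ZMod q) = 1 := by
      intro r hr hrN
      have := Fact.mk hr
      have h0 := (ZMod.natCast_eq_zero_iff _ r).mpr hrN
      have h1 : (p : ZMod r) ^ q = 1 := by
        have := congrArg (Nat.cast : ℕ → ZMod r) (geom_mul p q hp.two_le)
        rw [Nat.cast_add, Nat.cast_mul, h0] at this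
        simpa using this.symm
      have h2 : (p : ZMod r) ≠ 1 := by
        intro h2
        have : r ∣ p - 1 := by
          rw [← ZMod.natCast_eq_zero_iff, Nat.cast_sub hp1, h2]; simp
        exact hr.one_lt.ne' (Nat.eq_one_of_dvd_coprimes hcop hrN this)
      have := Fact.mk hq
      have h3 : orderOf (p : ZMod r) = q := orderOf_eq_prime h1 h2
      have h4 : (p : ZMod r) ≠ 0 := by
        intro h4
        rw [h4, zero_pow hq.ne_zero] at h1
        exact zero_ne_one h1
      have h5 := ZMod.orderOf_dvd_card_sub_one h4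
      rw [h3] at h5
      have := (ZMod.natCast_eq_zero_iff _ q).mpr h5
      rw [Nat.cast_sub hr.one_le] at this
      simpa [sub_eq_zero] using this
    have key2 : ∀ x : ℕ, x ∣ (∑ i ∈ Finset.range q, p ^ i) → (x : ZMod q) = 1 := by
      intro x
      induction x using Nat.recOnMul with
      | zero =>
        intro hx
        exfalso
        have := geom_mul p q hp.two_le
        rw [Nat.zero_dvd.mp hx] at this
        have h2 : 1 < p ^ q := Nat.one_lt_pow hq.ne_zero hp.one_lt
        omega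
      | one => simp
      | prime r hr => exact key r hr
      | mul a b iha ihb =>
        intro hx
        rw [Nat.cast_mul, iha (Dvd.dvd.trans (Dvd.intro b rfl) hx),
          ihb (Dvd.dvd.trans (Dvd.intro_left a rfl) hx), one_mul]
    intro x hx
    have := key2 x hx
    have h1 : ((x : ℕ) : ZMod q) = ((1 : ℕ) : ZMod q) := by simpa using this
    rw [ZMod.natCast_eq_natCast_iff'] at h1
    rw [h1]
    exact Nat.mod_eq_of_lt hq.one_lt

end Cfsg.Agent.S1546
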