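import Cfsg.Statements.S1551
import Cfsg.Agent.Lib.MOrb.Iso
import Cfsg.Agent.Lib.MOrb.Sext

set_option autoImplicit false
open scoped Pointwise
open Cfsg

namespace Cfsg.Agent.S1551

open CfsgLib.MOrb CfsgLib.Golay
open CfsgLib.Mathieu (idc inM24 comp)

set_option maxRecDepth 100000

/-- the six tetrads -/
def FS : List ℕ := [147496, 268544, 1082880, 2621632, 4268048, 8388615]

theorem fix_FS {g : M24} : Fix FS g ↔ ∀ t ∈ fam 6 S0, g • t = t := by
  constructor
  · intro h t ht
    obtain ⟨i, hi, rfl⟩ := mem_fam.1 ht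
    exact h _ (by revert i; decide +kernel)
  · intro h m hm
    have h2 : ∀ m ∈ FS, ∃ i < 6, blk S0 i = m := by decide +kernel
    obtain ⟨i, hi, e⟩ := h2 m hm
    exact h _ (mem_fam.2 ⟨i, hi, congrArg ofMask e⟩)

theorem card_le : Nat.card (FixG FS) ≤ 192 := by
  have h1 := card_le_step (F := FS) (b := 0) (A := 8388615) [] (by decide +kernel)
  have h2 := card_le_step (F := 2 ^ 0 :: FS) (b := 1) (A := 8388614) [(1, 1, 7)] (by decide +kernel)
  have h3 := card_le_step (F := 2 ^ 1 :: 2 ^ 0 :: FS) (b := 3) (A := 147496) [] (by decide +kernel)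
  have h4 := card_le_step (F := 2 ^ 3 :: 2 ^ 1 :: 2 ^ 0 :: FS) (b := 4) (A := 4268048) []
    (by decide +kernel)
  have h5 : FixG (2 ^ 4 :: 2 ^ 3 :: 2 ^ 1 :: 2 ^ 0 :: FS) = ⊥ := by
    rw [eq_bot_iff]
    intro g hg
    exact Fix.eq_one hg [(1, 0, 1), (1, 11, 2), (1, 12, 3), (1, 13, 4), (0, 14, 5), (1, 14, 15), (1, 16, 6), (1, 17, 7), (1, 18, 8), (0, 19, 9), (1, 19, 20), (2, 4, 2), (2, 22, 20), (3, 23, 4563017), (0, 6, 24), (1, 6, 25), (0, 7, 24), (1, 7, 27), (0, 8, 24), (1, 8, 29), (2, 3, 27), (2, 31, 20), (3, 32, 4845570), (0, 15, 33), (1, 15, 34), (0, 26, 33), (1, 26, 36), (0, 30, 33), (1, 30, 38), (2, 4, 36), (2, 40, 20), (3, 41, 7417889), (0, 28, 42), (1, 28, 43), (0, 35, 42), (1, 35, 45), (0, 39, 42), (1, 39, 47), (2, 3, 45), (2, 49, 29), (2, 50, 21), (3, 51, 8455014), (0, 20, 52), (1, 20, 53), (0, 37, 52), (1, 37, 55), (0, 44, 52), (1, 44, 57), (2, 40, 34), (2, 59, 46), (2, 60, 25), (3, 61, 13062145), (0, 21, 62), (1, 21, 63), (0, 54, 62), (1, 54, 65)] (by decide +kernel)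
  rw [h5, Subgroup.card_bot, show pc 4268048 = 4 by decide +kernel] at h4
  rw [show pc 147496 = 4 by decide +kernel] at h3
  rw [show pc 8388614 = 3 by decide +kernel] at h2
  rw [show pc 8388615 = 4 by decide +kernel] at h1
  omega

/-- stabiliser chain of the normal subgroup of order 64 -/
def chN : List (ℕ × List ℕ) := [(0, [58676030656508056853854093711016674, 21031891374900343699909455052375127]), (3, [961438956620049001677386430328277024, 984235865005994746954145143334668320]), (4, [972512676110088067912772961567868960, 961365507626256404119956257276790816])]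

/-- the normal subgroup of order 64 -/
noncomputable def A : Subgroup M24 :=
  FixG FS ⊓ Subgroup.centralizer (mk '' {p | p ∈ cgens chN})

theorem chN_ok : ∀ p ∈ cgens chN, inM24 p = true ∧ ∀ q ∈ cgens chN, comp p q = comp q p := by
  decide +kernel

theorem mem_A {g : M24} : g ∈ A ↔ g ∈ FixG FS ∧ g * g = 1 := by
  refine and_congr_right fun hg => ?_
  have := forall_eltS (hash := chd 233 61 0x2000900060000000000000000000b00030002000400000010000e00100011000e0036000600030001000600080016000a0012000000150006000d0003003100130012000100040000002d0000000a000300160008000200010008000b000900170029000000050000000200040001000400000004001f0000) (N := 233) (n := 192)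
    (gens := [21559225347744567917342058690546401, 976948186344841724045049627893335042, 984811422128274385044551653187420225, 29354017001627649457647037848160993])
    (f := fun a => (Nat.beq (comp a a) idc) == allL (cgens chN) fun p => Nat.beq (comp p a) (comp a p))
    (okG_FixG (by decide +kernel)) (by decide +kernel) card_le hg
  rw [beq_iff_eq, Bool.eq_iff_iff, ← cd_mul, Nat.beq_eq, cd_eq_idc, allL_iff] at this
  rw [this]
  constructor
  · intro h p hp
    rw [Nat.beq_eq, ← cd_mk (chN_ok p hp).1, ← commute_iff_cd]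
    exact h _ ⟨p, hp, rfl⟩
  · rintro h _ ⟨p, hp, rfl⟩
    have := h p hp
    rwa [Nat.beq_eq, ← cd_mk (chN_ok p hp).1, ← commute_iff_cd] at this

theorem card_A : Nat.card A = 64 := by
  have h1 := card_ge_of_chain (K := A) (lv := chN) (n := 64) (fun p hp => by
    have h := okG_FixG (F := FS) (gens := cgens chN) (by decide +kernel) p hp
    refine ⟨h.1, h.2, ?_⟩
    rintro _ ⟨q, hq, rfl⟩
    exact commute_mk (chN_ok q hq).1 (chN_ok p hp).1 ((chN_ok q hq).2 p hp)) (by decide +kernel)
  have h2 : IsPGroup 2 A := fun g => ⟨1, Subtype.ext (by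
    rw [pow_one, pow_two]; exact (mem_A.1 g.2).2)⟩
  obtain ⟨n, hn⟩ := IsPGroup.iff_card.1 h2
  have h3 : Nat.card A ≤ 192 := (Subgroup.card_le_of_le inf_le_left).trans card_le
  have h4 : A ≤ MulAction.stabilizer M24 (fam 6 S0) := fun g hg => smul_eq_of_forall (fix_FS.1 hg.1)
  rw [hn] at h1 h3 ⊢
  have h5 : n < 8 := (Nat.pow_lt_pow_iff_right (by norm_num)).1 (h3.trans_lt (by norm_num))
  have h6 : n ≠ 7 := by
    rintro rfl
    have h7 := Subgroup.card_dvd_of_le (inf_le_left : A ≤ FixG FS)
    have h8 := card_le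
    have h9 := card_ge_of_reachS (hash := chd 233 61 0x2000900060000000000000000000b00030002000400000010000e00100011000e0036000600030001000600080016000a0012000000150006000d0003003100130012000100040000002d0000000a000300160008000200010008000b000900170029000000050000000200040001000400000004001f0000) (N := 233) (n := 192)
      (gens := [21559225347744567917342058690546401, 976948186344841724045049627893335042, 984811422128274385044551653187420225, 29354017001627649457647037848160993]) (okG_FixG (F := FS) (by decide +kernel)) (by decide +kernel)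
    rw [le_antisymm h8 h9] at h7
    change Nat.card A ∣ 192 at h7
    rw [hn] at h7
    revert h7; decide
  interval_cases n <;> omega

theorem mem_fix (g k : M24) : k ∈ fixingSubgroup M24 ((g • fam 6 S0 : Finset (Finset GolayPt)) :
    Set (Finset GolayPt)) ↔ g⁻¹ * k * g ∈ FixG FS := by
  rw [mem_fixingSubgroup_iff, mem_FixG, fix_FS]
  constructor
  · intro h x hx
    rw [mul_smul, mul_smul, h _ (Finset.smul_mem_smul_finset hx), inv_smul_smul]
  · intro h y hy
    obtain ⟨x, rfl⟩ := MulAction.surjective g y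
    have := h x (Finset.smul_mem_smul_finset_iff g |>.1 hy)
    rwa [mul_smul, mul_smul, inv_smul_eq_iff] at this


/-- Structure of a sextet stabiliser: it induces every permutation of the six tetrads, the subgroup fixing each tetrad setwise has order 192, and there is a normal subgroup of order 64 consisting of elements squaring to the identity. -/
theorem result (S : Finset (Finset Cfsg.GolayPt)) (hS : S ∈ Cfsg.sextets) : (∀ e : Equiv.Perm ↥S, ∃ g ∈ MulAction.stabilizer Cfsg.M24 S, ∀ t : ↥S, (g : Equiv.Perm Cfsg.GolayPt) • (t : Finset Cfsg.GolayPt) = ((e t : ↥S) : Finset Cfsg.GolayPt)) ∧ Nat.card {g : ↥(MulAction.stabilizer Cfsg.M24 S) // ∀ t ∈ S, ((g : Cfsg.M24) : Equiv.Perm Cfsg.GolayPt) • t = t} = 192 ∧ ∃ N : Subgroup ↥(MulAction.stabilizer Cfsg.M24 S), N.Normal ∧ Nat.card N = 64 ∧ ∀ x ∈ N, x * x = 1 := by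
  obtain ⟨g, e⟩ := trans_sext hS
  have h1 := surjective_of_card_ker_le (resS (G := M24) S) (n := 192) (by
      rw [card_ker_resS, ← e, Nat.card_congr (conjEquiv g (mem_fix g)).toEquiv]; exact card_le) (by
      rw [Nat.card_perm, Nat.card_eq_fintype_card (α := S), Fintype.card_coe, hS.1, ← e,
        Nat.card_congr (conjEquiv g (mem_stabilizer_smul g _)).toEquiv, card_stab_S0]; rfl)
  refine ⟨fun s => ?_, ?_, ?_⟩
  · obtain ⟨k, rfl⟩ := h1.1 s
    exact ⟨k, k.2, fun _ => rfl⟩
  · rw [← h1.2]
    exact Nat.card_congr (Equiv.subtypeEquivRight fun x => (mem_ker_resS (G := M24) (g := x)).symm)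
  · subst e
    have hm : ∀ x : MulAction.stabilizer M24 (g • fam 6 S0),
        x ∈ ((A.subgroupOf _).comap (conjEquiv g (mem_stabilizer_smul g (fam 6 S0))).toMonoidHom) ↔
          x ∈ (resS (g • fam 6 S0)).ker ∧ x * x = 1 := by
      intro x
      change g⁻¹ * x * g ∈ A ↔ _
      rw [mem_A, ← mem_fix, mem_ker_resS, mem_fixingSubgroup_iff,
        show g⁻¹ * x * g * (g⁻¹ * x * g) = g⁻¹ * (x * x) * g by group, mul_assoc, inv_mul_eq_one,
        eq_comm, mul_eq_right, Subtype.ext_iff (a1 := x * x)]
      rfl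
    refine ⟨_, ⟨fun x hx k => (hm _).2 ⟨?_, ?_⟩⟩, ?_, fun x hx => ((hm x).1 hx).2⟩
    · exact (MonoidHom.normal_ker _).conj_mem _ ((hm x).1 hx).1 k
    · rw [show k * x * k⁻¹ * (k * x * k⁻¹) = k * (x * x) * k⁻¹ by group, ((hm x).1 hx).2]; group
    · rw [← card_A]
      exact Nat.card_congr ((((conjEquiv g (mem_stabilizer_smul g (fam 6 S0))).subgroupMap _).trans
        (MulEquiv.subgroupCongr (Subgroup.map_comap_eq_self_of_surjective
          (conjEquiv g (mem_stabilizer_smul g (fam 6 S0))).surjective _))).trans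
        (Subgroup.subgroupOfEquivOfLe (H := A) fun k hk => smul_eq_of_forall (fix_FS.1 hk.1))).toEquiv

end Cfsg.Agent.S1551
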