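import Cfsg.Statements.S1552
import Cfsg.Agent.Lib.MOrb.Sext

set_option autoImplicit false
open scoped Pointwise
open Cfsg

namespace Cfsg.Agent.S1552

open CfsgLib.MOrb CfsgLib.Golay


/-- A sextet stabiliser has four orbits on the 1771 sextets, of sizes 1, 90, 240, 1440; and the stabiliser is a maximal proper subgroup. -/
theorem result (S : Finset (Finset Cfsg.GolayPt)) (hS : S ∈ Cfsg.sextets) : ∃ X₁ ∈ Cfsg.sextets, ∃ X₂ ∈ Cfsg.sextets, ∃ X₃ ∈ Cfsg.sextets, (MulAction.orbit ↥(MulAction.stabilizer Cfsg.M24 S) X₁).ncard = 90 ∧ (MulAction.orbit ↥(MulAction.stabilizer Cfsg.M24 S) X₂).ncard = 240 ∧ (MulAction.orbit ↥(MulAction.stabilizer Cfsg.M24 S) X₃).ncard = 1440 ∧ Cfsg.sextets = {S} ∪ MulAction.orbit ↥(MulAction.stabilizer Cfsg.M24 S) X₁ ∪ MulAction.orbit ↥(MulAction.stabilizer Cfsg.M24 S) X₂ ∪ MulAction.orbit ↥(MulAction.stabilizer Cfsg.M24 S) X₃ ∧ IsCoatom (MulAction.stabilizer Cfsg.M24 S) := by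
  obtain ⟨g, rfl⟩ := trans_sext hS
  obtain ⟨h1, h2, -⟩ := suborbits_S0
  have ho := fun y : Finset (Finset GolayPt) => orbit_conj g (mem_stabilizer_smul g (fam 6 S0)) y
  refine ⟨g • fam 6 (repS 1), smul_mem_sextets g (repS_mem 1), g • fam 6 (repS 2),
    smul_mem_sextets g (repS_mem 2), g • fam 6 (repS 3), smul_mem_sextets g (repS_mem 3),
    by rw [ho, Set.ncard_smul_set, h1]; rfl, by rw [ho, Set.ncard_smul_set, h1]; rfl,
    by rw [ho, Set.ncard_smul_set, h1]; rfl, ?_, isCoatom_stabilizer_smul g isCoatom_S0⟩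
  have h3 : sextets = g • sextets := by
    rw [← orbit_S0, MulAction.smul_orbit]
  rw [ho, ho, ho, ← Set.smul_set_singleton, ← Set.smul_set_union, ← Set.smul_set_union,
    ← Set.smul_set_union, h3]
  congr 1
  rw [h2, ← orbit_stabilizer_self (H := MulAction.stabilizer M24 (fam 6 S0)) fun _ h => h]
  ext x
  simp only [Set.mem_iUnion, Set.mem_union, Fin.exists_fin_succ, IsEmpty.exists_iff, or_false,
    or_assoc]
  rfl

end Cfsg.Agent.S1552
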