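import Cfsg.Statements.S1554
import Cfsg.Agent.Lib.MOrb.Oct

set_option autoImplicit false
open scoped Pointwise
open Cfsg

namespace Cfsg.Agent.S1554

open CfsgLib.MOrb CfsgLib.Golay


/-- An octad stabiliser is a split extension: the joint stabiliser of the octad and a point outside it is a complement to the pointwise stabiliser of the octad, and is isomorphic to the alternating group of degree 8. -/
theorem result (o : Finset Cfsg.GolayPt) (ho : o ∈ Cfsg.octads) (p : Cfsg.GolayPt) (hp : p ∉ o) : (Cfsg.M24 ⊓ fixingSubgroup (Equiv.Perm Cfsg.GolayPt) (o : Set Cfsg.GolayPt)) ⊓ (Cfsg.M24 ⊓ MulAction.stabilizer (Equiv.Perm Cfsg.GolayPt) o ⊓ MulAction.stabilizer (Equiv.Perm Cfsg.GolayPt) p) = ⊥ ∧ (Cfsg.M24 ⊓ fixingSubgroup (Equiv.Perm Cfsg.GolayPt) (o : Set Cfsg.GolayPt)) ⊔ (Cfsg.M24 ⊓ MulAction.stabilizer (Equiv.Perm Cfsg.GolayPt) o ⊓ MulAction.stabilizer (Equiv.Perm Cfsg.GolayPt) p) = (Cfsg.M24 ⊓ MulAction.stabilizer (Equiv.Perm Cfsg.GolayPt) o) ∧ Nonempty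 (↥(Cfsg.M24 ⊓ MulAction.stabilizer (Equiv.Perm Cfsg.GolayPt) o ⊓ MulAction.stabilizer (Equiv.Perm Cfsg.GolayPt) p) ≃* alternatingGroup (Fin 8)) := by
  refine ⟨?_, ?_, ?_⟩
  · rw [eq_bot_iff]
    rintro g ⟨⟨hg, h1⟩, -, h2⟩
    exact congrArg Subtype.val (eq_one_of_fix_oct' ho hp (k := ⟨g, hg⟩)
      ((mem_fixingSubgroup_iff _).1 h1) h2)
  · apply le_antisymm
    · refine sup_le (fun g hg => ⟨hg.1, ?_⟩) inf_le_left
      exact smul_eq_of_forall ((mem_fixingSubgroup_iff _).1 hg.2)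
    · rintro g ⟨hg, h1⟩
      obtain ⟨k, h2, h3⟩ := fix_oct_trans ho hp (q := g • p) (by rwa [smul_mem_iff_of_stab h1])
      have h4 : (k : Equiv.Perm GolayPt) • o = o := smul_eq_of_forall h2
      rw [← mul_inv_cancel_left (k : Equiv.Perm GolayPt) g]
      refine Subgroup.mul_mem_sup ⟨k.2, (mem_fixingSubgroup_iff _).2 h2⟩
        ⟨⟨M24.mul_mem (M24.inv_mem k.2) hg, ?_⟩, ?_⟩
      · exact (MulAction.stabilizer _ o).mul_mem ((MulAction.stabilizer _ o).inv_mem h4) h1
      · change ((k : Equiv.Perm GolayPt)⁻¹ * g) • p = p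
        rw [mul_smul, inv_smul_eq_iff]
        exact h3.symm
  · have e1 : M24 ⊓ MulAction.stabilizer (Equiv.Perm GolayPt) o ⊓
        MulAction.stabilizer (Equiv.Perm GolayPt) p =
        (MulAction.stabilizer M24 o ⊓ MulAction.stabilizer M24 p).map M24.subtype := by
      ext g
      exact ⟨fun h => ⟨⟨g, h.1.1⟩, ⟨h.1.2, h.2⟩, rfl⟩, fun ⟨k, h, e⟩ => e ▸ ⟨⟨k.2, h.1⟩, h.2⟩⟩
    rw [e1]
    have hc : Fintype.card o = 8 := by rw [Fintype.card_coe, ho.2]
    haveI : Nontrivial o := Fintype.one_lt_card_iff_nontrivial.1 (by omega)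
    obtain ⟨e2⟩ := equiv_of_injective (G := ↥(MulAction.stabilizer M24 o ⊓ MulAction.stabilizer M24 p))
      (((resS o).comp (Subgroup.inclusion inf_le_left)).codRestrict (alternatingGroup o)
        fun g => range_res_oct ho ▸ ⟨_, rfl⟩) (by
        rw [injective_iff_map_eq_one]
        intro g hg
        exact Subtype.ext (eq_one_of_fix_oct' ho hp
          (mem_ker_resS.1 (show Subgroup.inclusion inf_le_left g ∈ (resS o).ker from
            congrArg Subtype.val hg)) g.2.2)) (by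
        have := two_mul_nat_card_alternatingGroup (α := o)
        rw [Nat.card_perm, Nat.card_eq_fintype_card (α := o), hc] at this
        rw [card_stab_oct_out ho hp]
        have h8 : Nat.factorial 8 = 40320 := rfl
        omega)
    exact ⟨((Subgroup.equivMapOfInjective _ _ M24.subtype_injective).symm.trans e2).trans
      (Fintype.equivFinOfCardEq hc).altCongrHom⟩

end Cfsg.Agent.S1554
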