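import Cfsg.Statements.S1555
import Cfsg.Agent.Lib.Golay.Octads

set_option autoImplicit false
open scoped Pointwise
open Cfsg

namespace Cfsg.Agent.S1555

open CfsgLib.Golay Finset


/-- Bottom row of the Leech triangle: an octad is met in a prescribed pair of its points by exactly 16 octads and in a prescribed 4-subset by exactly 4 octads. -/
theorem result (o : Finset Cfsg.GolayPt) (ho : o ∈ Cfsg.octads) (s : Finset Cfsg.GolayPt) (hs : s ⊆ o) : (s.card = 2 → {o' : Finset Cfsg.GolayPt | o' ∈ Cfsg.octads ∧ o ∩ o' = s}.ncard = 16) ∧ (s.card = 4 → {o' : Finset Cfsg.GolayPt | o' ∈ Cfsg.octads ∧ o ∩ o' = s}.ncard = 4) := by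
  have hB := octads_steiner
  have hc := ho.2
  have T := thru24 card_golayPt hB
  have z : ∀ j, j % 2 = 1 → cnt octads s o j = 0 := by
    intro j hj
    by_contra h
    obtain ⟨c, h1, -, h2⟩ := exists_of_cnt_pos (Nat.pos_of_ne_zero h)
    have := even_inter24 card_golayPt hB ho h1
    omega
  have z6 := cnt_block_eq_zero hB (s := s) ho (j := 6) (by omega) (by omega)
  have z8 := cnt_block_self hB ho hs
  have z0 : s.card ≠ 0 → cnt octads s o 0 = 0 := fun h => cnt_eq_zero_of_lt hs (by omega)
  rw [ncard_inter_eq_cnt hs]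
  refine ⟨fun h => ?_, fun h => ?_⟩
  · have h0 := moment (B := octads) hs 0 77 (fun u hu => (T u).2.2.1 (by omega))
    have h1 := moment (B := octads) hs 1 21 (fun u hu => (T u).2.2.2.1 (by omega))
    rw [hc, h] at h0 h1
    simp only [sum_range_succ, sum_range_zero, z0 (by omega), z 1 rfl, z 3 rfl, z 5 rfl, z 7 rfl, z6,
      z8] at h0 h1
    norm_num [Nat.choose] at h0 h1
    rw [h]; omega
  · have h0 := moment (B := octads) hs 0 5 (fun u hu => (T u).2.2.2.2.1 (by omega))
    have z2 := cnt_eq_zero_of_lt (B := octads) hs (j := 2) (by omega)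
    rw [hc, h] at h0
    simp only [sum_range_succ, sum_range_zero, z0 (by omega), z 1 rfl, z 3 rfl, z 5 rfl, z 7 rfl, z6,
      z8, z2] at h0
    norm_num [Nat.choose] at h0
    rw [h]; omega

end Cfsg.Agent.S1555
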