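import Cfsg.Statements.S1558
import Cfsg.Agent.Lib.MOrb.Iso
import Cfsg.Agent.Lib.MOrb.Trio

set_option autoImplicit false
open scoped Pointwise
open Cfsg

namespace Cfsg.Agent.S1558

open CfsgLib.MOrb CfsgLib.Golay
open CfsgLib.Mathieu (idc inM24 comp)

set_option maxRecDepth 100000

/-- pairs of a vector and an octad number -/
def Y : Type := (Fin 3 → ZMod 2) × Fin 3

instance instFintypeY : Fintype Y := inferInstanceAs (Fintype ((Fin 3 → ZMod 2) × Fin 3))

instance instActY : MulAction (GL (Fin 3) (ZMod 2) × Equiv.Perm (Fin 3)) Y where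
  smul k y := (k.1 • y.1, k.2 y.2)
  one_smul y := Prod.ext (one_smul (GL (Fin 3) (ZMod 2)) y.1) rfl
  mul_smul a b y := Prod.ext (mul_smul a.1 b.1 y.1) rfl

/-- the involutions that fix an octad of the trio pointwise -/
def f (y : Y) : ℕ := [984818244535754528103549039458486304, 232533649315936278902489140291896401, 140825387492013913453606068668843009, 607973331483163194022372819422315042, 98194099774536418322197851205590190, 61501795120280604616270314112816867, 712135271031710147258693856465587653, 28166109638943914996476167295383671, 984818244535754528103549039458486304, 237127486333460923385827361926087761, 154050744116424677395520740181918721, 610972855239753370621941044088046114, 112512365560916772520529720748072110, 70973983691768505020711737912989411, 735587983175154151975762742722235845, 29435610948763618421167709975787639, 984818244535754528103549039458486304, 980224387687010295957922729495201824, 971592882964418941354553515258775584, 981818691054096003685363657089320992,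 970499966350631336865513127433832480, 975346028712660580592452217730074656, 961365507626256404119956257276790816, 983548720921252936276249910206105632].getD
  ((y.1 0).val + 2 * (y.1 1).val + 4 * (y.1 2).val + 8 * y.2.val) 0

/-- the octads of the trio -/
def oc (j : Fin 3) : ℕ := ![337856, 7903248, O0] j

theorem hf : ∀ y, inM24 (f y) = true := by decide +kernel

theorem oc_lt : ∀ j, oc j < 2 ^ 24 := by decide

theorem oc_inj {i j : Fin 3} (h : ofMask (oc i) = ofMask (oc j)) : i = j := by
  have h2 : ∀ a b, oc a = oc b → a = b := by decide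
  exact h2 _ _ (ofMask_injOn (oc_lt _) (oc_lt _) h)

/-- the equivariant map -/
noncomputable def β (y : Y) : Cj × Finset GolayPt := (Cj.of (mk (f y)), ofMask (oc y.2))

/-- the normal subgroup of order 64 -/
noncomputable def K0 : Subgroup M24 := ⨅ y, MulAction.stabilizer M24 (β y)

theorem mem_K0 {g : M24} : g ∈ K0 ↔ ∀ y, g • β y = β y := Subgroup.mem_iInf

theorem card_K0 : Nat.card K0 ≤ 64 := by
  have h1 := CfsgLib.Mathieu.card_le_of_orbit K0 (pt 0) (ofMask O0) fun g hg =>
    (smul_mem_iff_of_stab (s := ofMask O0) (congrArg Prod.snd (mem_K0.1 hg (0, 2))) _).2 (by decide)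
  have h2 := CfsgLib.Mathieu.card_le_of_orbit (K0 ⊓ MulAction.stabilizer M24 (pt 0)) (pt 4)
    (ofMask 7903248) fun g hg =>
    (smul_mem_iff_of_stab (s := ofMask 7903248) (congrArg Prod.snd (mem_K0.1 hg.1 (0, 1))) _).2
      (by decide)
  have h3 : K0 ⊓ MulAction.stabilizer M24 (pt 0) ⊓ MulAction.stabilizer M24 (pt 4) = ⊥ := by
    rw [eq_bot_iff]
    rintro g ⟨⟨a, b⟩, c⟩
    refine eq_one_of_fix_oct (fun x hx => ?_) c
    have h4 : ∀ x ∈ ofMask O0, ∃ y : Y, pt (ap (f y) 0) = x := by decide +kernel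
    obtain ⟨y, e⟩ := h4 x hx
    have h5 : Commute g (mk (f y)) := Cj.mem_stabilizer.1 (congrArg Prod.fst (mem_K0.1 a y))
    rw [← e, ← mk_smul_pt (okP_of_inM24 (hf y)) (by norm_num), ← mul_smul, h5.eq, mul_smul,
      show g • pt 0 = pt 0 from b]
  rw [h3, Subgroup.card_bot, card_ofMask (by norm_num), show pc 7903248 = 8 by decide +kernel] at h2
  rw [O0_mem.2] at h1
  omega

theorem sq_K0 {g : M24} (hg : g ∈ K0) : g * g = 1 := by
  have := forall_eltS (hash := chd 79 19 0x50000001c00190003000800000002000400000000003d000000000016000000030025) (N := 79) (n := 64) (K := K0)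
    (gens := [232533649315936278902489140291896401, 140825387492013913453606068668843009, 98194099774536418322197851205590190, 237127486333460923385827361926087761, 154050744116424677395520740181918721, 112512365560916772520529720748072110]) (f := fun a => Nat.beq (comp a a) idc) (by
      intro p hp
      have h : ∀ p ∈ [232533649315936278902489140291896401, 140825387492013913453606068668843009, 98194099774536418322197851205590190, 237127486333460923385827361926087761, 154050744116424677395520740181918721, 112512365560916772520529720748072110], okP p = true ∧ ∀ y, f y = cj p (f y) ∧ oc y.2 = im p (oc y.2) := by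
        decide +kernel
      obtain ⟨h1, h2⟩ := h p hp
      refine ⟨h1, mem_K0.2 fun y => Prod.ext ?_ ?_⟩
      · change Cj.of (mk p * mk (f y) * (mk p)⁻¹) = Cj.of (mk (f y))
        rw [cj_mk h1 (hf y), ← (h2 y).1]
      · change mk p • ofMask (oc y.2) = ofMask (oc y.2)
        rw [mk_smul_ofMask h1, ← (h2 y).2]) (by decide +kernel) card_K0 hg
  rwa [← cd_mul, Nat.beq_eq, cd_eq_idc] at this

theorem std : ∃ φ : MulAction.stabilizer M24 (fam 3 T0) →* GL (Fin 3) (ZMod 2) × Equiv.Perm (Fin 3),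
    Function.Surjective φ ∧ Nat.card φ.ker = 64 ∧ (∀ x ∈ φ.ker, x * x = 1) ∧
      ∀ h j, ofMask (oc ((φ h).2 j)) = (h : M24) • ofMask (oc j) := by
  obtain ⟨φ, h1, -⟩ := exists_hom_of_chain (MonoidHom.id (GL (Fin 3) (ZMod 2) × Equiv.Perm (Fin 3)))
    β chT_mem chT_ok card_stab_T0.le (by
      intro p hp
      have h : ∀ p ∈ cgens chT, ∃ k ∈ ([(⟨!![0, 1, 0; 1, 0, 0; 0, 1, 1], !![0, 1, 0; 1, 0, 0; 1, 0, 1], by decide, by decide⟩, ⟨![1, 0, 2], ![1, 0, 2], by decide, by decide⟩), (⟨!![1, 0, 1; 0, 1, 1; 1, 1, 1], !![0, 1, 1; 1, 0, 1; 1, 1, 1], by decide, by decide⟩, ⟨![0, 2, 1], ![0, 2, 1], by decide, by decide⟩), (⟨!![1, 1, 0; 0, 1, 1; 1, 1, 1], !![0, 1, 1; 1, 1, 1; 1, 0, 1], by decide, by decide⟩, ⟨![0, 1, 2], ![0, 1, 2], by decide, by decide⟩), (⟨!![1, 0, 1; 0, 1, 0; 1, 0, 0], !![0, 0, 1; 0, 1, 0; 1, 0, 1], by decide, by decide⟩, ⟨![1, 0, 2], ![1, 0, 2], by decide, by decide⟩), (⟨!![0, 1, 0; 1, 1, 1; 0, 1, 1], !![0, 1, 1; 1, 0, 0; 1, 0, 1], by decide, by decide⟩, ⟨![0, 1, 2], ![0,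 1, 2], by decide, by decide⟩), (⟨!![1, 0, 0; 0, 1, 0; 1, 1, 1], !![1, 0, 0; 0, 1, 0; 1, 1, 1], by decide, by decide⟩, ⟨![0, 1, 2], ![0, 1, 2], by decide, by decide⟩), (⟨!![1, 1, 1; 0, 1, 1; 1, 0, 1], !![1, 1, 0; 1, 0, 1; 1, 1, 1], by decide, by decide⟩, ⟨![0, 1, 2], ![0, 1, 2], by decide, by decide⟩), (⟨!![0, 0, 1; 0, 1, 0; 1, 0, 1], !![1, 0, 1; 0, 1, 0; 1, 0, 0], by decide, by decide⟩, ⟨![0, 1, 2], ![0, 1, 2], by decide, by decide⟩)] : List (GL (Fin 3) (ZMod 2) × Equiv.Perm (Fin 3))),
          ∀ y : Y, f (k • y) = cj p (f y) ∧ oc (k • y).2 = im p (oc y.2) := by decide +kernel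
      obtain ⟨k, -, hk⟩ := h p hp
      refine ⟨k, fun y => Prod.ext ?_ ?_⟩
      · change Cj.of (mk (f (k • y))) = Cj.of (mk p * mk (f y) * (mk p)⁻¹)
        rw [cj_mk (chT_mem p hp).1 (hf y), (hk y).1]
      · change ofMask (oc (k • y).2) = mk p • ofMask (oc y.2)
        rw [mk_smul_ofMask (chT_mem p hp).1, (hk y).2]) (fun k hk => by
      have h2 : k.2 = 1 := Equiv.ext fun j => oc_inj (congrArg Prod.snd (hk (0, j)))
      refine Prod.ext (gl_eq_one fun v => ?_) h2
      have h : ∀ a b : Fin 3 → ZMod 2, f (a, 0) = f (b, 0) → a = b := by decide +kernel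
      have h3 := mk_inj (hf _) (hf _) (Cj.of_injective (congrArg Prod.fst (hk (v, 0))))
      refine h _ _ (Eq.trans ?_ h3)
      change _ = f (k.1 • v, k.2 0)
      rw [h2]; rfl)
  have h2 : ∀ x ∈ φ.ker, (x : M24) ∈ K0 := by
    intro x hx
    obtain ⟨k, h2, h3⟩ := h1 x
    rw [MonoidHom.mem_ker.1 hx] at h2
    rw [← show 1 = k from h2] at h3
    exact mem_K0.2 fun y => by rw [← h3, one_smul]
  have h3 := surjective_of_card_ker_le φ (n := 64) (le_trans (Nat.card_le_card_of_injective
      (fun x : φ.ker => (⟨x, h2 x x.2⟩ : K0))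
      fun a b e => Subtype.ext (Subtype.ext (congrArg (Subtype.val : K0 → M24) e))) card_K0)
    (by rw [card_stab_T0, Nat.card_prod, card_GL32, Nat.card_perm, Nat.card_fin]; rfl)
  refine ⟨φ, h3.1, h3.2, fun x hx => Subtype.ext (sq_K0 (h2 x hx)), fun h j => ?_⟩
  obtain ⟨k, h4, h5⟩ := h1 h
  rw [h4]
  exact congrArg Prod.snd (h5 (0, j))


/-- Structure of a trio stabiliser: every permutation of the three octads is induced, and there is a normal subgroup of order 64 of elements squaring to the identity whose quotient is isomorphic to the product of GL(3, 2) with the symmetric group of degree 3. -/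
theorem result (T : Finset (Finset Cfsg.GolayPt)) (hT : T ∈ Cfsg.trios) : (∀ e : Equiv.Perm ↥T, ∃ g ∈ MulAction.stabilizer Cfsg.M24 T, ∀ o : ↥T, (g : Equiv.Perm Cfsg.GolayPt) • (o : Finset Cfsg.GolayPt) = ((e o : ↥T) : Finset Cfsg.GolayPt)) ∧ ∃ (N : Subgroup ↥(MulAction.stabilizer Cfsg.M24 T)) (_ : N.Normal), Nat.card N = 64 ∧ (∀ x ∈ N, x * x = 1) ∧ Nonempty (↥(MulAction.stabilizer Cfsg.M24 T) ⧸ N ≃* GL (Fin 3) (ZMod 2) × Equiv.Perm (Fin 3)) := by
  obtain ⟨g, rfl⟩ := trans_trio hT
  obtain ⟨φ, h1, h2, h3, h4⟩ := std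
  constructor
  · intro e
    have hm : ∀ j, g • ofMask (oc j) ∈ g • fam 3 T0 := fun j => Finset.smul_mem_smul_finset
      (mem_fam.2 ⟨j, j.2, congrArg ofMask (by revert j; decide +kernel)⟩)
    have hb : Function.Bijective fun j => (⟨_, hm j⟩ : ↥(g • fam 3 T0)) :=
      (Fintype.bijective_iff_injective_and_card _).2
        ⟨fun a b h => oc_inj (MulAction.injective g (congrArg Subtype.val h)), by
          rw [Fintype.card_coe, hT.1, Fintype.card_fin]⟩
    obtain ⟨h, hh⟩ := h1 (1, ((Equiv.ofBijective _ hb).trans e).trans (Equiv.ofBijective _ hb).symm)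
    refine ⟨g * h * g⁻¹, (mem_stabilizer_smul g _ _).2 (by
      rw [show g⁻¹ * (g * h * g⁻¹) * g = h by group]; exact h.2), fun o => ?_⟩
    obtain ⟨j, rfl⟩ := hb.2 o
    change (g * h * g⁻¹) • g • ofMask (oc j) = _
    rw [conj_smul, ← h4, hh]
    exact congrArg Subtype.val ((Equiv.ofBijective _ hb).apply_symm_apply _)
  · obtain ⟨N, hN, h5, h6, h7⟩ := exists_ker (conjEquiv g (mem_stabilizer_smul g (fam 3 T0))) φ h1
    refine ⟨N, hN, h5.trans h2, fun x hx => ?_, h7⟩
    apply (conjEquiv g (mem_stabilizer_smul g (fam 3 T0))).injective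
    rw [map_mul, map_one]
    exact h3 _ (h6 x hx)

end Cfsg.Agent.S1558
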