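import Cfsg.Statements.S1559
import Cfsg.Agent.Lib.MOrb.Trio

set_option autoImplicit false
open scoped Pointwise
open Cfsg

namespace Cfsg.Agent.S1559

open CfsgLib.MOrb CfsgLib.Golay


/-- A trio stabiliser has five orbits on the 3795 trios, of sizes 1, 42, 56, 1008, 2688; and the stabiliser is a maximal proper subgroup. -/
theorem result (T : Finset (Finset Cfsg.GolayPt)) (hT : T ∈ Cfsg.trios) : ∃ X₁ ∈ Cfsg.trios, ∃ X₂ ∈ Cfsg.trios, ∃ X₃ ∈ Cfsg.trios, ∃ X₄ ∈ Cfsg.trios, (MulAction.orbit ↥(MulAction.stabilizer Cfsg.M24 T) X₁).ncard = 42 ∧ (MulAction.orbit ↥(MulAction.stabilizer Cfsg.M24 T) X₂).ncard = 56 ∧ (MulAction.orbit ↥(MulAction.stabilizer Cfsg.M24 T) X₃).ncard = 1008 ∧ (MulAction.orbit ↥(MulAction.stabilizer Cfsg.M24 T) X₄).ncard = 2688 ∧ Cfsg.trios = {T} ∪ MulAction.orbit ↥(MulAction.stabilizer Cfsg.M24 T) X₁ ∪ MulAction.orbit ↥(MulAction.stabilizer Cfsg.M24 T) X₂ ∪ MulAction.orbit ↥(MulAction.stabilizer Cfsg.M24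 T) X₃ ∪ MulAction.orbit ↥(MulAction.stabilizer Cfsg.M24 T) X₄ ∧ IsCoatom (MulAction.stabilizer Cfsg.M24 T) := by
  obtain ⟨g, rfl⟩ := trans_trio hT
  obtain ⟨h1, h2, -⟩ := suborbits_T0
  have ho := fun y : Finset (Finset GolayPt) => orbit_conj g (mem_stabilizer_smul g (fam 3 T0)) y
  refine ⟨g • fam 3 (repT 1), smul_mem_trios g (repT_mem 1), g • fam 3 (repT 2),
    smul_mem_trios g (repT_mem 2), g • fam 3 (repT 3), smul_mem_trios g (repT_mem 3),
    g • fam 3 (repT 4), smul_mem_trios g (repT_mem 4),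
    by rw [ho, Set.ncard_smul_set, h1]; rfl, by rw [ho, Set.ncard_smul_set, h1]; rfl,
    by rw [ho, Set.ncard_smul_set, h1]; rfl, by rw [ho, Set.ncard_smul_set, h1]; rfl, ?_,
    isCoatom_stabilizer_smul g isCoatom_T0⟩
  have h3 : trios = g • trios := by
    rw [← orbit_T0, MulAction.smul_orbit]
  rw [ho, ho, ho, ho, ← Set.smul_set_singleton, ← Set.smul_set_union, ← Set.smul_set_union,
    ← Set.smul_set_union, ← Set.smul_set_union, h3]
  congr 1
  rw [h2, ← orbit_stabilizer_self (H := MulAction.stabilizer M24 (fam 3 T0)) fun _ h => h]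
  ext x
  simp only [Set.mem_iUnion, Set.mem_union, Fin.exists_fin_succ, IsEmpty.exists_iff, or_false,
    or_assoc]
  rfl

end Cfsg.Agent.S1559
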