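import Cfsg.Statements.S1560
import Cfsg.Agent.Lib.MOrb.Cls

set_option autoImplicit false
open scoped Pointwise
open Cfsg

namespace Cfsg.Agent.S1560

open CfsgLib.MOrb CfsgLib.Golay


/-- Intersection numbers of dodecads: a dodecad meets every other dodecad in 0, 4, 6 or 8 points, meeting 495 of them in 4 points, 1584 in 6 points and 495 in 8 points. -/
theorem result (d : Finset Cfsg.GolayPt) (hd : d ∈ Cfsg.dodecads) : (∀ d' ∈ Cfsg.dodecads, d' ≠ d → (d ∩ d').card = 0 ∨ (d ∩ d').card = 4 ∨ (d ∩ d').card = 6 ∨ (d ∩ d').card = 8) ∧ {d' : Finset Cfsg.GolayPt | d' ∈ Cfsg.dodecads ∧ (d ∩ d').card = 4}.ncard = 495 ∧ {d' : Finset Cfsg.GolayPt | d' ∈ Cfsg.dodecads ∧ (d ∩ d').card = 6}.ncard = 1584 ∧ {d' : Finset Cfsg.GolayPt | d' ∈ Cfsg.dodecads ∧ (d ∩ d').card = 8}.ncard = 495 := by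
  have key : ∀ j, {d' : Finset GolayPt | d' ∈ dodecads ∧ (d ∩ d').card = j}.ncard =
      cntLT 4096 fun k => and (wIJ 12 [] [] (cw k)) (Nat.beq (pc (Nat.land D0 (cw k))) j) := by
    intro j
    obtain ⟨g, rfl⟩ := trans_dod hd
    rw [← ncard_WIJ_inter 12 [] [] (by simp) (by simp) D0_lt j g]
    congr 1; ext s; simp [WIJ, mem_dodecads]
  refine ⟨fun d' hd' hne => ?_, by rw [key]; decide +kernel, by rw [key]; decide +kernel,
    by rw [key]; decide +kernel⟩
  have h1 := card_symmDiff_add d d'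
  have h2 := card_codeSet (symmDiff_mem_codeSets hd.1 hd'.1)
  have h3 := hd.2
  have h4 := hd'.2
  have h5 : (symmDiff d d').card ≠ 0 := by
    rw [Finset.card_ne_zero, Finset.nonempty_iff_ne_empty]
    exact fun h => hne (symmDiff_eq_bot.1 h).symm
  omega

end Cfsg.Agent.S1560
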