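import Cfsg.Statements.S1562
import Cfsg.Agent.Lib.MOrb.InOct

set_option autoImplicit false
open scoped Pointwise
open Cfsg

namespace Cfsg.Agent.S1562

open CfsgLib.MOrb CfsgLib.Golay

/-- the octads through the standard triad -/
def ol : List ℕ := [9347075, 14716939, 12656663, 8536111, 13893731, 9465987, 11010247, 11731203, 8421811, 8524371, 8716939, 13124355, 10765331, 8983587, 8398155, 9471495, 9963547, 8505411, 8657159, 10496547, 12717187]

theorem ol_ok : octList 8388611 ol = true := by decide +kernel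

theorem key {m : ℕ} (hm : m < 2 ^ 24) :
    (∃ o ∈ octads, ofMask 8388611 ∪ ofMask m ⊆ o) ↔ inO ol m = true := inO_iff (by norm_num) ol_ok hm

theorem dj {m : ℕ} : Disjoint (ofMask 8388611) (ofMask m) ↔ Nat.beq (Nat.land 8388611 m) 0 = true := by
  rw [ofMask_disjoint_iff (by norm_num), Nat.beq_eq]; rfl


/-- Orbits of a triad stabiliser on the triads disjoint from it: the 210 triads inside a common octad with it form one orbit and the remaining 1120 another. -/
theorem result (T : Finset Cfsg.GolayPt) (hT : T.card = 3) : {U : Finset Cfsg.GolayPt | U.card = 3 ∧ Disjoint T U ∧ (∃ o ∈ Cfsg.octads, T ∪ U ⊆ o)}.ncard = 210 ∧ {U : Finset Cfsg.GolayPt | U.card = 3 ∧ Disjoint T U ∧ ¬ (∃ o ∈ Cfsg.octads, T ∪ U ⊆ o)}.ncard = 1120 ∧ ∀ U U' : Finset Cfsg.GolayPt, U.card = 3 → U'.card = 3 → Disjoint T U → Disjoint T U' → ((∃ o ∈ Cfsg.octads, T ∪ U ⊆ o) ↔ (∃ o ∈ Cfsg.octads, T ∪ U' ⊆ o)) → ∃ g : Equiv.Perm Cfsg.GolayPt, g ∈ Cfsg.M24 ∧ g • T = T ∧ g • U = U' := by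
  obtain ⟨g, hg, e⟩ := CfsgLib.Mathieu.set_trans24 (s := ofMask 8388611) (t := T)
    (by rw [hT, card_ofMask (by norm_num)]; decide +kernel)
    (by rw [card_ofMask (by norm_num)]; decide +kernel)
  obtain ⟨g, rfl⟩ : ∃ g : M24, g • ofMask 8388611 = T := ⟨⟨g, hg⟩, e⟩
  refine ⟨?_, ?_, ?_⟩
  · rw [ncard_smul_eq g (P := fun U => U.card = 3 ∧ Disjoint (ofMask 8388611) U ∧
      ∃ o ∈ octads, ofMask 8388611 ∪ U ⊆ o) (fun U => by
        rw [Finset.card_smul_finset, disjoint_smul, ← Finset.smul_finset_union, exists_octad_smul]),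
      ncard_subs 3 (fun m => and (Nat.beq (Nat.land 8388611 m) 0) (inO ol m)) (fun _ h => h.1)
        (fun m hm h => by
          rw [Set.mem_ofPred_eq, key hm, dj, card_ofMask hm, Bool.and_eq_true]
          exact and_iff_right h)]
    decide +kernel
  · rw [ncard_smul_eq g (P := fun U => U.card = 3 ∧ Disjoint (ofMask 8388611) U ∧
      ¬ ∃ o ∈ octads, ofMask 8388611 ∪ U ⊆ o) (fun U => by
        rw [Finset.card_smul_finset, disjoint_smul, ← Finset.smul_finset_union, exists_octad_smul]),
      ncard_subs 3 (fun m => and (Nat.beq (Nat.land 8388611 m) 0) (not (inO ol m))) (fun _ h => h.1)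
        (fun m hm h => by
          rw [Set.mem_ofPred_eq, key hm, dj, card_ofMask hm, Bool.and_eq_true, Bool.not_eq_true',
            Bool.not_eq_true]
          exact and_iff_right h)]
    decide +kernel
  · intro U U' h1 h2 h3 h4 h5
    obtain ⟨U, rfl⟩ := MulAction.surjective g U
    obtain ⟨U', rfl⟩ := MulAction.surjective g U'
    obtain ⟨a, ha, rfl⟩ := exists_mask U
    obtain ⟨b, hb, rfl⟩ := exists_mask U'
    rw [Finset.card_smul_finset, card_ofMask (by assumption)] at h1 h2
    rw [disjoint_smul, dj] at h3 h4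
    rw [← Finset.smul_finset_union, ← Finset.smul_finset_union, exists_octad_smul, exists_octad_smul,
      key ha, key hb] at h5
    obtain ⟨k, hk, e⟩ := chkSCls_sound (hash := syn) (F := [8388611])
      (gens := [979447237138354568611725060002455553, 18910944914252024912910457678144567])
      (reps := [28, 44]) (fuel := 2024) (k := 3) (P := fun m => Nat.beq (Nat.land 8388611 m) 0)
      (c := fun m => Bool.rec 0 1 (inO ol m)) (by decide +kernel) ha hb h1 h2 h3 h4
      (by rw [Bool.eq_iff_iff.2 h5])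
    refine ⟨((g * k * g⁻¹ : M24) : Equiv.Perm GolayPt), (g * k * g⁻¹).2, ?_, ?_⟩
    · exact (conj_smul g k (ofMask 8388611)).trans (by rw [hk _ List.mem_cons_self])
    · exact (conj_smul g k (ofMask a)).trans (by rw [e])

end Cfsg.Agent.S1562
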