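import Cfsg.Statements.S1563
import Cfsg.Agent.Lib.MOrb.Salt

set_option autoImplicit false
open scoped Pointwise
open Cfsg

namespace Cfsg.Agent.S1563

open CfsgLib.MOrb CfsgLib.Golay

theorem orbit_le : (MulAction.orbit M24 (ofMask 8388609)).ncard ≤ 276 := by
  have h : MulAction.orbit M24 (ofMask 8388609) ⊆ ↑(Finset.powersetCard 2 (Finset.univ : Finset GolayPt)) := by
    rintro _ ⟨g, rfl⟩
    simp only [Finset.mem_coe, Finset.mem_powersetCard, Finset.subset_univ, true_and,
      Finset.card_smul_finset]
    rw [card_ofMask (by norm_num)]
    decide +kernel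
  refine (Set.ncard_le_ncard h (Finset.finite_toSet _)).trans ?_
  rw [Set.ncard_coe_finset, Finset.card_powersetCard, Finset.card_univ, card_golayPt]
  decide

theorem std : IsCoatom (MulAction.stabilizer M24 (ofMask 8388609)) :=
  Model.isCoatom_of_chkMaxS (M := maskModel syn)
    (gens := [975002219335412752079202753955726688, 24767525149119920642954381901605047])
    (reps := [71492056680133066869724754691572096, 113072304910174064711471962407945633])
    (m0 := 8388609) (N := 4096) (n := 276)
    (okG_mem (F := [8388609]) (by decide +kernel) fun _ h => h _ List.mem_cons_self)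
    (by decide +kernel) orbit_le


/-- The stabiliser of a pair of points (setwise) is a maximal proper subgroup of the group of the length-24 code. -/
theorem result (s : Finset Cfsg.GolayPt) (hs : s.card = 2) : IsCoatom (MulAction.stabilizer Cfsg.M24 s) := by
  obtain ⟨g, hg, e⟩ := CfsgLib.Mathieu.set_trans24 (s := ofMask 8388609) (t := s)
    (by rw [hs, card_ofMask (by norm_num)]; decide +kernel)
    (by rw [card_ofMask (by norm_num)]; decide +kernel)
  rw [← e]
  exact isCoatom_stabilizer_smul (⟨g, hg⟩ : M24) std

end Cfsg.Agent.S1563
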