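import Cfsg.Statements.S1564
import Cfsg.Agent.Lib.MOrb.Salt

set_option autoImplicit false
open scoped Pointwise
open Cfsg

namespace Cfsg.Agent.S1564

open CfsgLib.MOrb CfsgLib.Golay

theorem orbit_le : (MulAction.orbit M24 (ofMask 8388611)).ncard ≤ 2024 := by
  have h : MulAction.orbit M24 (ofMask 8388611) ⊆ ↑(Finset.powersetCard 3 (Finset.univ : Finset GolayPt)) := by
    rintro _ ⟨g, rfl⟩
    simp only [Finset.mem_coe, Finset.mem_powersetCard, Finset.subset_univ, true_and,
      Finset.card_smul_finset]
    rw [card_ofMask (by norm_num)]
    decide +kernel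
  refine (Set.ncard_le_ncard h (Finset.finite_toSet _)).trans ?_
  rw [Set.ncard_coe_finset, Finset.card_powersetCard, Finset.card_univ, card_golayPt]
  decide

theorem std : IsCoatom (MulAction.stabilizer M24 (ofMask 8388611)) :=
  Model.isCoatom_of_chkMaxS (M := maskModel syn)
    (gens := [3257174040996399450838854563212343, 44608054446150885781818498615617559])
    (reps := [26136954100604221678627938012446754, 21644791593907394750148404909383747, 111893598989926479226434971600701540, 97848327441099748800540102030376037])
    (m0 := 8388611) (N := 4096) (n := 2024)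
    (okG_mem (F := [8388611]) (by decide +kernel) fun _ h => h _ List.mem_cons_self)
    (by decide +kernel) orbit_le


/-- The stabiliser of a set of three points (setwise) is a maximal proper subgroup of the group of the length-24 code. -/
theorem result (s : Finset Cfsg.GolayPt) (hs : s.card = 3) : IsCoatom (MulAction.stabilizer Cfsg.M24 s) := by
  obtain ⟨g, hg, e⟩ := CfsgLib.Mathieu.set_trans24 (s := ofMask 8388611) (t := s)
    (by rw [hs, card_ofMask (by norm_num)]; decide +kernel)
    (by rw [card_ofMask (by norm_num)]; decide +kernel)
  rw [← e]
  exact isCoatom_stabilizer_smul (⟨g, hg⟩ : M24) std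

end Cfsg.Agent.S1564
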