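import Cfsg.Statements.S1565
import Cfsg.Agent.Lib.MOrb.Salt

set_option autoImplicit false
open scoped Pointwise
open Cfsg

namespace Cfsg.Agent.S1565

open CfsgLib.MOrb CfsgLib.Golay

theorem orbit_le : (MulAction.orbit M24 (ofMask O0)).ncard ≤ 759 := by
  rw [← ncard_octads]
  refine Set.ncard_le_ncard ?_ (Set.toFinite _)
  rintro _ ⟨g, rfl⟩
  exact (smul_mem_octads_iff g).2 O0_mem

theorem std : IsCoatom (MulAction.stabilizer M24 (ofMask O0)) :=
  Model.isCoatom_of_chkMaxS (M := maskModel hC) (gens := gO)
    (reps := [524887424808606282674601379030599683, 500432394989384232420338740126520576, 768123229226891082689981389102948778])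
    (m0 := O0) (N := 4096) (n := 759)
    (okG_mem (F := [O0]) (by decide +kernel) fun _ h => h _ List.mem_cons_self)
    (by decide +kernel) orbit_le


/-- The stabiliser of an octad is a maximal proper subgroup of the group of the length-24 code. -/
theorem result (o : Finset Cfsg.GolayPt) (ho : o ∈ Cfsg.octads) : IsCoatom (MulAction.stabilizer Cfsg.M24 o) := by
  obtain ⟨g, rfl⟩ := trans_oct ho
  exact isCoatom_stabilizer_smul g std

end Cfsg.Agent.S1565
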