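import Cfsg.Statements.S1566
import Cfsg.Agent.Lib.MOrb.Salt

set_option autoImplicit false
open scoped Pointwise
open Cfsg

namespace Cfsg.Agent.S1566

open CfsgLib.MOrb CfsgLib.Golay

theorem smul_pair (g : M24) (d : Finset GolayPt) :
    g • ({d, dᶜ} : Finset (Finset GolayPt)) = {g • d, (g • d)ᶜ} := by
  rw [Finset.smul_finset_insert, Finset.smul_finset_singleton, smul_compl]

theorem fam_eq : fam 2 275756764967775 = {ofMask D0, (ofMask D0)ᶜ} := by
  rw [← ofMask_compl]
  ext s
  simp only [mem_fam, Finset.mem_insert, Finset.mem_singleton]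
  have h0 : blk 275756764967775 0 = D0 := by decide +kernel
  have h1 : blk 275756764967775 1 = D0 ^^^ 16777215 := by decide +kernel
  constructor
  · rintro ⟨i, hi, rfl⟩
    interval_cases i
    · exact Or.inl (by rw [h0])
    · exact Or.inr (by rw [h1])
  · rintro (rfl | rfl)
    · exact ⟨0, by norm_num, by rw [h0]⟩
    · exact ⟨1, by norm_num, by rw [h1]⟩

theorem orbit_le : (MulAction.orbit M24 (fam 2 275756764967775)).ncard ≤ 1288 := by
  have h1 : {d | d ∈ dodecads ∧ pt 0 ∈ d}.ncard = 1288 := by
    rw [ncard_code (fun m => and (Nat.beq (pc m) 12) (tb m 0)) (fun _ h => h.1.1) (fun m hm => by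
      rw [Set.mem_ofPred_eq, ofMask_mem_dodecads (lt_of_isCode hm), ← tb_iff (by norm_num)]
      simp [hm])]
    decide +kernel
  rw [← h1]
  refine le_trans (Set.ncard_le_ncard ?_ (Set.toFinite _))
    (Set.ncard_image_le (f := fun d => ({d, dᶜ} : Finset (Finset GolayPt))) (Set.toFinite _))
  rintro _ ⟨g, rfl⟩
  have h2 := (smul_mem_dodecads_iff g).2 D0_mem
  simp only [fam_eq, smul_pair]
  by_cases h : pt 0 ∈ g • ofMask D0
  · exact ⟨_, ⟨h2, h⟩, rfl⟩
  · exact ⟨_, ⟨compl_mem_dodecads h2, Finset.mem_compl.2 h⟩, by simp only [compl_compl, Finset.pair_comm]⟩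

theorem std : IsCoatom (MulAction.stabilizer M24 (fam 2 275756764967775)) :=
  Model.isCoatom_of_chkMaxS (M := blkModel 2 (fun b => Nat.mul (Nat.land b 1) (hC b)) fun x => x)
    (gens := [664980851772363939933420661851531947, 337519960988203357514088295694812485])
    (reps := [175785523465552673337827054644114131, 466186510607719981105635248437889746])
    (m0 := 275756764967775) (N := 4096) (n := 1288)
    (okF_stab (by decide +kernel)) (by decide +kernel) orbit_le


/-- The setwise stabiliser of a dodecad together with its complement is a maximal proper subgroup of the group of the length-24 code. -/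
theorem result (d : Finset Cfsg.GolayPt) (hd : d ∈ Cfsg.dodecads) : IsCoatom (MulAction.stabilizer Cfsg.M24 ({d, dᶜ} : Finset (Finset Cfsg.GolayPt))) := by
  obtain ⟨g, rfl⟩ := trans_dod hd
  rw [← smul_pair, ← fam_eq]
  exact isCoatom_stabilizer_smul g std

end Cfsg.Agent.S1566
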