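import Cfsg.Statements.S1568
import Cfsg.Agent.Lib.Leech.Mono

set_option autoImplicit false
open Cfsg

namespace Cfsg.Agent.S1568

open CfsgLib.Leech

/-- Shape census of the lattice vectors of sum of squares 48 (customary norm 6): the four families (2^12, 0^12), (±3^3, ±1^21), (±4, ±2^8, 0^15) and (±5, ±1^23) have 5275648, 8290304, 3108864 and 98304 members. -/
theorem result : {x : Cfsg.GolayPt → ℤ | x ∈ Cfsg.leechLattice ∧ Cfsg.sqNorm x = 48 ∧ ∀ i, x i = 0 ∨ x i = 2 ∨ x i = -2}.ncard = 5275648 ∧ {x : Cfsg.GolayPt → ℤ | x ∈ Cfsg.leechLattice ∧ Cfsg.sqNorm x = 48 ∧ ∃ i j k, i ≠ j ∧ j ≠ k ∧ i ≠ k ∧ |x i| = 3 ∧ |x j| = 3 ∧ |x k| = 3}.ncard = 8290304 ∧ {x : Cfsg.GolayPt → ℤ | x ∈ Cfsg.leechLattice ∧ Cfsg.sqNorm x = 48 ∧ ∃ i, |x i| = 4}.ncard = 3108864 ∧ {x : Cfsg.GolayPt → ℤ | x ∈ Cfsg.leechLattice ∧ Cfsg.sqNorm x = 48 ∧ ∃ i, |x i| = 5}.ncard = 98304 := by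
  have tot := ncard_norm48
  have fin : {x : Cfsg.GolayPt → ℤ | x ∈ Cfsg.leechLattice ∧ Cfsg.sqNorm x = 48}.Finite :=
    Set.finite_of_ncard_ne_zero (by rw [tot]; norm_num)
  have compl : ∀ k : ℤ, {x : Cfsg.GolayPt → ℤ | x ∈ Cfsg.leechLattice ∧ Cfsg.sqNorm x = 48 ∧
      ∃ i, |x i| = k}.ncard + {x : Cfsg.GolayPt → ℤ | x ∈ Cfsg.leechLattice ∧
      Cfsg.sqNorm x = (48 : ℕ) ∧ ∀ i, (fun v : ℤ => |v| != k) (x i) = true}.ncard = 16773120 := by
    intro k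
    rw [← tot, ← Set.ncard_union_eq _ (fin.subset fun x hx => ⟨hx.1, hx.2.1⟩)
      (fin.subset fun x hx => ⟨hx.1, hx.2.1⟩)]
    · congr 1
      ext x
      simp only [Set.mem_union, Set.mem_ofPred_eq, bne_iff_ne, ne_eq, Nat.cast_ofNat]
      by_cases h : ∃ i, |x i| = k
      · simp only [h, and_true]; tauto
      · have h' := not_exists.1 h
        simp [h']
    · rw [Set.disjoint_left]
      rintro x ⟨-, -, i, hi⟩ ⟨-, -, h⟩
      have := h i
      simp [hi] at this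
  have c3 := compl 3
  have c4 := compl 4
  have c5 := compl 5
  have d3 := ncard_vectors (fun v : ℤ => |v| != 3) 48 (by norm_num)
  have d4 := ncard_vectors (fun v : ℤ => |v| != 4) 48 (by norm_num)
  have d5 := ncard_vectors (fun v : ℤ => |v| != 5) 48 (by norm_num)
  rw [d3] at c3
  rw [d4] at c4
  rw [d5] at c5
  refine ⟨?_, ?_, ?_, ?_⟩
  · have := ncard_vectors (fun v => v == 0 || v == 2 || v == -2) 48 (by norm_num)
    simp only [Bool.or_eq_true, beq_iff_eq, Nat.cast_ofNat, or_assoc] at this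
    rw [this]
    decide +kernel
  · have e : {x : Cfsg.GolayPt → ℤ | x ∈ Cfsg.leechLattice ∧ Cfsg.sqNorm x = 48 ∧ ∃ i j k, i ≠ j ∧ j ≠ k ∧ i ≠ k ∧ |x i| = 3 ∧ |x j| = 3 ∧ |x k| = 3} = {x : Cfsg.GolayPt → ℤ | x ∈ Cfsg.leechLattice ∧ Cfsg.sqNorm x = 48 ∧
      ∃ i, |x i| = 3} := by
      ext x
      simp only [Set.mem_ofPred_eq]
      refine and_congr_right fun hx => and_congr_right fun hn => ⟨fun ⟨i, _, _, h⟩ => ⟨i, h.2.2.2.1⟩,
        fun ⟨i, hi⟩ => ?_⟩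
      have ho := isOddVec_of_odd hx (i := i) (by rcases abs_cases (x i) with h | h <;> omega)
      obtain ⟨a1, a2, -, -⟩ := odd_cnt ho (by omega)
      have h1 : 0 < cnt x 3 := Finset.card_pos.2 ⟨i, by simp [hi]⟩
      have h2 : 2 < cnt x 3 := by omega
      obtain ⟨a, b, c, ha, hb, hc, h3, h4, h5⟩ := Finset.two_lt_card_iff.1 h2
      simp only [Finset.mem_filter, Finset.mem_univ, true_and] at ha hb hc
      exact ⟨a, b, c, h3, h5, h4, ha, hb, hc⟩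
    rw [e]
    have : ∑ m ∈ Finset.range 2, (cntF (fun v : ℤ => |v| != 3) 48 m 0 + 759 * cntF (fun v : ℤ => |v| != 3) 48 m 8 + 2576 * cntF (fun v : ℤ => |v| != 3) 48 m 12 +
        759 * cntF (fun v : ℤ => |v| != 3) 48 m 16 + cntF (fun v : ℤ => |v| != 3) 48 m 24) = 16773120 - 8290304 := by decide +kernel
    omega
  · have : ∑ m ∈ Finset.range 2, (cntF (fun v : ℤ => |v| != 4) 48 m 0 + 759 * cntF (fun v : ℤ => |v| != 4) 48 m 8 + 2576 * cntF (fun v : ℤ => |v| != 4) 48 m 12 +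
        759 * cntF (fun v : ℤ => |v| != 4) 48 m 16 + cntF (fun v : ℤ => |v| != 4) 48 m 24) = 16773120 - 3108864 := by decide +kernel
    omega
  · have : ∑ m ∈ Finset.range 2, (cntF (fun v : ℤ => |v| != 5) 48 m 0 + 759 * cntF (fun v : ℤ => |v| != 5) 48 m 8 + 2576 * cntF (fun v : ℤ => |v| != 5) 48 m 12 +
        759 * cntF (fun v : ℤ => |v| != 5) 48 m 16 + cntF (fun v : ℤ => |v| != 5) 48 m 24) = 16773120 - 98304 := by decide +kernel
    omega

end Cfsg.Agent.S1568
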