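import Cfsg.Statements.S1569
import Cfsg.Agent.Lib.Leech.Index

set_option autoImplicit false
open scoped Pointwise
open Cfsg

namespace Cfsg.Agent.S1569

/-- The cross through a lattice vector of customary norm 8 has exactly 48 members. -/
theorem result (x : Cfsg.GolayPt → ℤ) (hx : x ∈ Cfsg.leechLattice) (hxn : Cfsg.sqNorm x = 64) : (Cfsg.cross x).ncard = 48 := by
  have h1 := CfsgLib.Leech.eight_mul_beta_self ⟨x, hx⟩
  have h := CfsgLib.Leech.frames.2 ⟨x, hx⟩ (by simp only at h1; omega)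
  rw [← h, ← Set.ncard_image_of_injective _ Subtype.val_injective]
  congr 1
  ext y
  simp only [Cfsg.cross, Set.mem_image, Set.mem_ofPred_eq]
  constructor
  · rintro ⟨hy, h2, z, hz, h3⟩
    have h4 := CfsgLib.Leech.eight_mul_beta_self ⟨y, hy⟩
    refine ⟨⟨y, hy⟩, ⟨by simp only at h4; omega, ⟨z, hz⟩, Subtype.ext ?_⟩, rfl⟩
    simpa [two_smul] using h3
  · rintro ⟨y, ⟨h2, z, h3⟩, rfl⟩
    have h4 := CfsgLib.Leech.eight_mul_beta_self y
    refine ⟨y.2, by omega, z, z.2, ?_⟩
    have := congrArg Subtype.val h3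
    simpa [two_smul] using this

end Cfsg.Agent.S1569
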