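import Cfsg.Statements.S1571
import Cfsg.Agent.Lib.Leech.Mono

set_option autoImplicit false
open scoped Pointwise
open Cfsg

namespace Cfsg.Agent.S1571

open CfsgLib.Leech

/-- The stabiliser of the standard cross in the automorphism group of the lattice is the monomial group of the code: each of its elements acts as a signed permutation with permutation part in the code's group and sign set a codeword, and it has order 4096 · 244823040. -/
theorem result : (∀ g : ↥Cfsg.Co0, (∀ v : ↥Cfsg.leechLattice, (v : Cfsg.GolayPt → ℤ) ∈ Cfsg.stdCross → ((g • v : ↥Cfsg.leechLattice) : Cfsg.GolayPt → ℤ) ∈ Cfsg.stdCross) → ∃ f ∈ Cfsg.golayMonomialMaps, ∀ v : ↥Cfsg.leechLattice, ((g • v : ↥Cfsg.leechLattice) : Cfsg.GolayPt → ℤ) = f (v : Cfsg.GolayPt → ℤ)) ∧ Nat.card {g : ↥Cfsg.Co0 // (∀ v : ↥Cfsg.leechLattice, (v : Cfsg.GolayPt → ℤ) ∈ Cfsg.stdCross → ((g • v : ↥Cfsg.leechLattice) : Cfsg.GolayPt → ℤ) ∈ Cfsg.stdCross)} = 4096 * 244823040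 := by
  have key : ∀ g : ↥Cfsg.Co0, (∀ v : ↥Cfsg.leechLattice, (v : Cfsg.GolayPt → ℤ) ∈ Cfsg.stdCross → ((g • v : ↥Cfsg.leechLattice) : Cfsg.GolayPt → ℤ) ∈ Cfsg.stdCross) ↔ g ∈ monoGrp := by
    have h : ∀ v : ↥Cfsg.leechLattice, (v : Cfsg.GolayPt → ℤ) ∈ Cfsg.stdCross ↔
        ∃ b, v = e8 b ∨ v = -e8 b := by
      intro v
      constructor
      · rintro ⟨i, s, rfl | rfl, h⟩
        · exact ⟨i, Or.inl (Subtype.ext h)⟩
        · exact ⟨i, Or.inr (Subtype.ext (by rw [h, AddSubgroup.coe_neg, coe_e8, ← Pi.single_neg]))⟩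
      · rintro ⟨b, rfl | rfl⟩
        · exact ⟨b, 8, Or.inl rfl, rfl⟩
        · exact ⟨b, -8, Or.inr rfl, by rw [AddSubgroup.coe_neg, coe_e8, ← Pi.single_neg]⟩
    intro g
    simp only [h]
    constructor
    · intro hg
      exact mem_monoGrp_of_forall g fun a => hg _ ⟨a, Or.inl rfl⟩
    · rintro hg v ⟨b, rfl | rfl⟩
      · exact smul_e8_of_mem_monoGrp hg b
      · obtain ⟨c, hc⟩ := smul_e8_of_mem_monoGrp hg b
        refine ⟨c, ?_⟩
        rw [smul_neg]
        rcases hc with hc | hc <;> simp [hc]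
  constructor
  · intro g hg
    obtain ⟨c, hc, σ, rfl⟩ := (key g).1 hg
    exact ⟨_, ⟨σ, σ.2, c, hc, rfl⟩, fun v => rfl⟩
  · rw [← card_monoGrp]
    exact Nat.card_congr (Equiv.subtypeEquivRight key)

end Cfsg.Agent.S1571
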