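import Cfsg.Statements.S1572
import Cfsg.Agent.Lib.Leech.Max

set_option autoImplicit false
open scoped Pointwise
open Cfsg

namespace Cfsg.Agent.S1572

open CfsgLib.Leech Spor MulAction

/-- The stabiliser of the standard cross is a maximal proper subgroup of the lattice's automorphism group. -/
theorem result (H : Subgroup ↥Cfsg.Co0) (hH : (H : Set ↥Cfsg.Co0) = {g : ↥Cfsg.Co0 | (∀ v : ↥Cfsg.leechLattice, (v : Cfsg.GolayPt → ℤ) ∈ Cfsg.stdCross → ((g • v : ↥Cfsg.leechLattice) : Cfsg.GolayPt → ℤ) ∈ Cfsg.stdCross)}) : IsCoatom H := by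
  have : H = monoGrp := by
    ext g
    rw [← SetLike.mem_coe, hH]
    constructor
    · intro h
      obtain ⟨b, s, hs, e⟩ := h (e8 none) ⟨none, 8, Or.inl rfl, rfl⟩
      refine mem_monoGrp_of_smul_e8 g (a := none) (b := b) (hs.imp (fun h => Subtype.ext ?_) fun h => Subtype.ext ?_)
      · rw [e, h]; rfl
      · rw [e, h, Pi.single_neg]; rfl
    · rintro hg v ⟨a, s, hs, e⟩
      obtain ⟨b, hb⟩ := smul_e8_of_mem_monoGrp hg a
      have h1 : v = e8 a ∨ v = -e8 a := hs.imp (fun h => Subtype.ext (by rw [e, h]; rfl))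
        fun h => Subtype.ext (by rw [e, h, Pi.single_neg]; rfl)
      have h2 : g • v = e8 b ∨ g • v = -e8 b := by
        rcases h1 with rfl | rfl
        · exact hb
        · rw [smul_neg]; exact hb.symm.imp (fun h => by rw [h, neg_neg]) fun h => by rw [h]
      exact h2.elim (fun h => ⟨b, 8, Or.inl rfl, by rw [h]; rfl⟩)
        fun h => ⟨b, -8, Or.inr rfl, by rw [h, Pi.single_neg]; rfl⟩
  rw [this]
  exact isCoatom_monoGrp

end Cfsg.Agent.S1572
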