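import Cfsg.Statements.S1573
import Cfsg.Agent.Lib.Leech.Conf2

set_option autoImplicit false
open Cfsg

namespace Cfsg.Agent.S1573

open CfsgLib.Leech Spor MulAction

/-- Census of minimal vectors by inner product with a fixed minimal vector: 4600 have customary inner product −2, 47104 have −1, and 93150 are orthogonal. -/
theorem result (v : Cfsg.GolayPt → ℤ) (hv : v ∈ Cfsg.leechLattice) (hvn : Cfsg.sqNorm v = 32) : {w : Cfsg.GolayPt → ℤ | w ∈ Cfsg.leechLattice ∧ Cfsg.sqNorm w = 32 ∧ Cfsg.dotInt v w = -16}.ncard = 4600 ∧ {w : Cfsg.GolayPt → ℤ | w ∈ Cfsg.leechLattice ∧ Cfsg.sqNorm w = 32 ∧ Cfsg.dotInt v w = -8}.ncard = 47104 ∧ {w : Cfsg.GolayPt → ℤ | w ∈ Cfsg.leechLattice ∧ Cfsg.sqNorm w = 32 ∧ Cfsg.dotInt v w = 0}.ncard = 93150 := by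
  obtain ⟨g, hg⟩ := exists_smul_eq_of_sqNorm ⟨v, hv⟩ leechU (by rw [sqNorm_U]; exact hvn)
    (by simp only [hvn]; norm_num)
  have key : ∀ k : ℤ, {w : GolayPt → ℤ | w ∈ leechLattice ∧ sqNorm w = 32 ∧ dotInt v w = k}.ncard =
      {x : leechLattice | sqNorm x.1 = 32 ∧ dotInt leechU.1 x.1 = k}.ncard := fun k => by
    rw [← ncard_subtype]
    exact ncard_smul_set g fun x => by
      simp only [Set.mem_ofPred_eq, sqNorm_smul, ← hg, dotInt_smul]
  rw [key, key, key]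
  exact ⟨ncard_4600, ncard_47104, ncard_93150⟩

end Cfsg.Agent.S1573
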