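import Cfsg.Statements.S1574
import Cfsg.Agent.Lib.Leech.CCo2.Orb

set_option autoImplicit false
open Cfsg

namespace Cfsg.Agent.S1574

open CfsgLib.Leech Spor MulAction

/-- The stabiliser of a minimal vector is transitive on the minimal vectors of customary inner product −2 with it. -/
theorem result (v w w' : ↥Cfsg.leechLattice) (hv : Cfsg.sqNorm (v : Cfsg.GolayPt → ℤ) = 32) (hw : Cfsg.sqNorm (w : Cfsg.GolayPt → ℤ) = 32) (hw' : Cfsg.sqNorm (w' : Cfsg.GolayPt → ℤ) = 32) (hd : Cfsg.dotInt (v : Cfsg.GolayPt → ℤ) (w : Cfsg.GolayPt → ℤ) = -16) (hd' : Cfsg.dotInt (v : Cfsg.GolayPt → ℤ) (w' : Cfsg.GolayPt → ℤ) = -16) : ∃ g : ↥Cfsg.Co0, g • v = v ∧ g • w = w' := by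
  obtain ⟨g, hg⟩ := exists_smul_eq_of_sqNorm v leechU (by rw [hv, sqNorm_U]) (by omega)
  have hc : chkN 0x642108421084210842108421084290 = true := by decide +kernel
  have h := orbit_eq_of_le (stabilizer Co0 leechU) (toL 0x642108421084210842108421084290)
    (S := {x : leechLattice | sqNorm x.1 = 32 ∧ dotInt leechU.1 x.1 = -16})
    (finite_of_norm fun _ hx => hx.1) (fun k hk =>
      ⟨by rw [sqNorm_smul, sqNorm_toL hc]; decide +kernel,
        by rw [dot_smul_of_fix hk, dot_U_toL hc]; decide +kernel⟩) (ncard_4600 ▸ CCo2.le4600)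
  have m1 : g • w ∈ {w | ∃ g ∈ stabilizer Co0 leechU,
      g • toL 0x642108421084210842108421084290 = w} := by
    rw [h]; exact ⟨by rw [sqNorm_smul, hw], by rw [← hg, dotInt_smul, hd]⟩
  have m2 : g • w' ∈ {w | ∃ g ∈ stabilizer Co0 leechU,
      g • toL 0x642108421084210842108421084290 = w} := by
    rw [h]; exact ⟨by rw [sqNorm_smul, hw'], by rw [← hg, dotInt_smul, hd']⟩
  obtain ⟨k, h1, h2⟩ := exists_of_mem_orbit m1 m2
  exact ⟨g⁻¹ * k * g, conj_smul_eq (by rw [hg]; exact h1), conj_smul_eq h2⟩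

end Cfsg.Agent.S1574
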