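import Cfsg.Statements.S1577
import Cfsg.Agent.Lib.LeechId.U62

set_option autoImplicit false
open Cfsg

namespace Cfsg.Agent.S1577

open CfsgLib.Leech Spor MulAction CfsgLib.LeechId.U62

/-- The joint stabiliser of two minimal vectors of customary inner product −2 is isomorphic to PSU(6, 2). -/
theorem result (v w : ↥Cfsg.leechLattice) (hv : Cfsg.sqNorm (v : Cfsg.GolayPt → ℤ) = 32) (hw : Cfsg.sqNorm (w : Cfsg.GolayPt → ℤ) = 32) (hd : Cfsg.dotInt (v : Cfsg.GolayPt → ℤ) (w : Cfsg.GolayPt → ℤ) = -16) (F : Type) [Field F] [Fintype F] (hF : Fintype.card F = 4) : Nonempty (↥(MulAction.stabilizer ↥Cfsg.Co0 v ⊓ MulAction.stabilizer ↥Cfsg.Co0 w) ≃* Cfsg.PSU 6 F 2) := by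
  obtain ⟨g, hg⟩ := exists_smul_eq_of_sqNorm v leechU (by rw [hv, sqNorm_U]) (by omega)
  obtain ⟨k, h1, h2⟩ : g • w ∈ {w | ∃ g ∈ stabilizer Co0 leechU, g • w0 = w} := by
    rw [orbit_w0]; exact ⟨by rw [sqNorm_smul, hw], by rw [← hg, dotInt_smul, hd]⟩
  obtain ⟨e⟩ := iso hF
  exact ⟨(stabEquiv₂ (g := k⁻¹ * g) (by rw [mul_smul, hg]; exact inv_smul_eq_iff.2 (Eq.symm h1))
    (by rw [mul_smul, ← h2, inv_smul_smul])).trans e⟩

end Cfsg.Agent.S1577
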