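import Cfsg.Statements.S1578
import Cfsg.Agent.Lib.Leech.Conf2

set_option autoImplicit false
open Cfsg

namespace Cfsg.Agent.S1578

open CfsgLib.Leech Spor MulAction

/-- A lattice vector of customary norm 6 is the sum of an unordered pair of minimal vectors in exactly 276 ways (552 ordered summands). -/
theorem result (u : ↥Cfsg.leechLattice) (hu : Cfsg.sqNorm (u : Cfsg.GolayPt → ℤ) = 48) : {v : ↥Cfsg.leechLattice | Cfsg.sqNorm (v : Cfsg.GolayPt → ℤ) = 32 ∧ Cfsg.sqNorm ((u - v) : Cfsg.GolayPt → ℤ) = 32}.ncard = 552 := by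
  obtain ⟨g, hg⟩ := exists_smul_eq_of_sqNorm (-u) leechV
    (by rw [sqNorm_V, AddSubgroup.coe_neg, sqNorm_neg, hu]) (by rw [AddSubgroup.coe_neg, sqNorm_neg, hu]; norm_num)
  rw [← ncard_552]
  refine ncard_smul_set g fun x => ?_
  simp only [Set.mem_ofPred_eq, sqNorm_smul, ← hg, dotInt_smul, sqNorm_sub, hu, AddSubgroup.coe_neg,
    dotInt_neg_left]
  omega

end Cfsg.Agent.S1578
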