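import Cfsg.Statements.S1579
import Cfsg.Agent.Lib.Leech.Conf2

set_option autoImplicit false
open Cfsg

namespace Cfsg.Agent.S1579

open CfsgLib.Leech Spor MulAction

/-- The stabiliser of a vector of customary norm 6 is transitive on the 552 minimal vectors that complete it to a sum of two minimal vectors. -/
theorem result (u v v' : ↥Cfsg.leechLattice) (hu : Cfsg.sqNorm (u : Cfsg.GolayPt → ℤ) = 48) (hv : Cfsg.sqNorm (v : Cfsg.GolayPt → ℤ) = 32 ∧ Cfsg.sqNorm ((u - v) : Cfsg.GolayPt → ℤ) = 32) (hv' : Cfsg.sqNorm (v' : Cfsg.GolayPt → ℤ) = 32 ∧ Cfsg.sqNorm ((u - v') : Cfsg.GolayPt → ℤ) = 32) : ∃ g : ↥Cfsg.Co0, g • u = u ∧ g • v = v' := by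
  have hu' : sqNorm (-u).1 = 48 := by rw [AddSubgroup.coe_neg, sqNorm_neg, hu]
  rw [sqNorm_sub] at hv hv'
  obtain ⟨g, h1, h2⟩ := exists_pair_V_U hu' hv.1 (by rw [AddSubgroup.coe_neg, dotInt_neg_left]; omega)
  obtain ⟨g', h3, h4⟩ := exists_pair_V_U hu' hv'.1
    (by rw [AddSubgroup.coe_neg, dotInt_neg_left]; omega)
  refine ⟨g'⁻¹ * g, neg_injective ?_, by rw [mul_smul, h2, ← h4, inv_smul_smul]⟩
  rw [← smul_neg, mul_smul, h1, ← h3, inv_smul_smul]

end Cfsg.Agent.S1579
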