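import Cfsg.Statements.S1580
import Cfsg.Agent.Lib.Leech.Conf3

set_option autoImplicit false
open Cfsg

namespace Cfsg.Agent.S1580

open CfsgLib.Leech Spor MulAction

/-- The McLaughlin configuration: for u of customary norm 6 and v minimal with u − v minimal, there are 275 further such summands x of customary inner product 2 with v, permuted transitively by the stabiliser of u and v. -/
theorem result (u v : ↥Cfsg.leechLattice) (hu : Cfsg.sqNorm (u : Cfsg.GolayPt → ℤ) = 48) (hv : Cfsg.sqNorm (v : Cfsg.GolayPt → ℤ) = 32 ∧ Cfsg.sqNorm ((u - v) : Cfsg.GolayPt → ℤ) = 32) : {x : ↥Cfsg.leechLattice | Cfsg.sqNorm (x : Cfsg.GolayPt → ℤ) = 32 ∧ Cfsg.sqNorm ((u - x) : Cfsg.GolayPt → ℤ) = 32 ∧ Cfsg.dotInt (v : Cfsg.GolayPt → ℤ) (x : Cfsg.GolayPt → ℤ) = 16}.ncard = 275 ∧ ∀ x ∈ {x : ↥Cfsg.leechLattice | Cfsg.sqNorm (x : Cfsg.GolayPt → ℤ) = 32 ∧ Cfsg.sqNorm ((u - x) : Cfsg.GolayPt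 → ℤ) = 32 ∧ Cfsg.dotInt (v : Cfsg.GolayPt → ℤ) (x : Cfsg.GolayPt → ℤ) = 16}, ∀ x' ∈ {x : ↥Cfsg.leechLattice | Cfsg.sqNorm (x : Cfsg.GolayPt → ℤ) = 32 ∧ Cfsg.sqNorm ((u - x) : Cfsg.GolayPt → ℤ) = 32 ∧ Cfsg.dotInt (v : Cfsg.GolayPt → ℤ) (x : Cfsg.GolayPt → ℤ) = 16}, ∃ g : ↥Cfsg.Co0, g • u = u ∧ g • v = v ∧ g • x = x' := by
  have hu' : sqNorm (-u).1 = 48 := by rw [AddSubgroup.coe_neg, sqNorm_neg, hu]
  rw [sqNorm_sub] at hv
  have hd : dotInt (-u).1 v.1 = -24 := by rw [AddSubgroup.coe_neg, dotInt_neg_left]; omega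
  constructor
  · obtain ⟨g, h1, h2⟩ := exists_pair_V_U hu' hv.1 hd
    rw [← ncard_275]
    refine ncard_smul_set g fun x => ?_
    simp only [Set.mem_ofPred_eq, sqNorm_smul, ← h1, ← h2, dotInt_smul, sqNorm_sub, hu,
      AddSubgroup.coe_neg, dotInt_neg_left]
    omega
  · rintro x ⟨a1, a2, a3⟩ x' ⟨b1, b2, b3⟩
    rw [sqNorm_sub] at a2 b2
    obtain ⟨g, h1, h2, h3⟩ := exists_triple_X hu' hv.1 a1 hd
      (by rw [AddSubgroup.coe_neg, dotInt_neg_left]; omega) a3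
    obtain ⟨g', h4, h5, h6⟩ := exists_triple_X hu' hv.1 b1 hd
      (by rw [AddSubgroup.coe_neg, dotInt_neg_left]; omega) b3
    refine ⟨g'⁻¹ * g, neg_injective ?_, by rw [mul_smul, h2, ← h5, inv_smul_smul],
      by rw [mul_smul, h3, ← h6, inv_smul_smul]⟩
    rw [← smul_neg, mul_smul, h1, ← h4, inv_smul_smul]

end Cfsg.Agent.S1580
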