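import Cfsg.Statements.S1581
import Cfsg.Agent.Lib.Leech.Conf3

set_option autoImplicit false
open Cfsg

namespace Cfsg.Agent.S1581

open CfsgLib.Leech Spor MulAction

/-- The McLaughlin group acts with rank 3 and subdegrees 1, 112, 162 on its 275 points: the point stabiliser has two orbits on the remaining points, distinguished by customary inner product 1 or 2 with the fixed point. -/
theorem result (u v x : ↥Cfsg.leechLattice) (hu : Cfsg.sqNorm (u : Cfsg.GolayPt → ℤ) = 48) (hv : Cfsg.sqNorm (v : Cfsg.GolayPt → ℤ) = 32 ∧ Cfsg.sqNorm ((u - v) : Cfsg.GolayPt → ℤ) = 32) (hx : x ∈ {x : ↥Cfsg.leechLattice | Cfsg.sqNorm (x : Cfsg.GolayPt → ℤ) = 32 ∧ Cfsg.sqNorm ((u - x) : Cfsg.GolayPt → ℤ) = 32 ∧ Cfsg.dotInt (v : Cfsg.GolayPt → ℤ) (x : Cfsg.GolayPt → ℤ) = 16}) : {y : ↥Cfsg.leechLattice | y ∈ {x : ↥Cfsg.leechLattice | Cfsg.sqNorm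 (x : Cfsg.GolayPt → ℤ) = 32 ∧ Cfsg.sqNorm ((u - x) : Cfsg.GolayPt → ℤ) = 32 ∧ Cfsg.dotInt (v : Cfsg.GolayPt → ℤ) (x : Cfsg.GolayPt → ℤ) = 16} ∧ Cfsg.dotInt (x : Cfsg.GolayPt → ℤ) (y : Cfsg.GolayPt → ℤ) = 8}.ncard = 112 ∧ {y : ↥Cfsg.leechLattice | y ∈ {x : ↥Cfsg.leechLattice | Cfsg.sqNorm (x : Cfsg.GolayPt → ℤ) = 32 ∧ Cfsg.sqNorm ((u - x) : Cfsg.GolayPt → ℤ) = 32 ∧ Cfsg.dotInt (v : Cfsg.GolayPt → ℤ) (x : Cfsg.GolayPt → ℤ) = 16} ∧ y ≠ x ∧ Cfsg.dotInt (x : Cfsg.GolayPt → ℤ) (y : Cfsg.GolayPt → ℤ) = 16}.ncard = 162 ∧ ∀ y ∈ {x : ↥Cfsg.leechLattice | Cfsg.sqNorm (x : Cfsg.GolayPt → ℤ) = 32 ∧ Cfsg.sqNorm ((u - x) : Cfsg.GolayPt → ℤ) = 32 ∧ Cfsg.dotInt (v : Cfsg.GolayPt → ℤ) (x : Cfsg.GolayPt → ℤ) = 16}, ∀ y' ∈ {x : ↥Cfsg.leechLattice | Cfsg.sqNorm (x : Cfsg.GolayPt → ℤ) = 32 ∧ Cfsg.sqNorm ((u - x) : Cfsg.GolayPt → ℤ) = 32 ∧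 Cfsg.dotInt (v : Cfsg.GolayPt → ℤ) (x : Cfsg.GolayPt → ℤ) = 16}, y ≠ x → y' ≠ x → Cfsg.dotInt (x : Cfsg.GolayPt → ℤ) (y : Cfsg.GolayPt → ℤ) = Cfsg.dotInt (x : Cfsg.GolayPt → ℤ) (y' : Cfsg.GolayPt → ℤ) → ∃ g : ↥Cfsg.Co0, g • u = u ∧ g • v = v ∧ g • x = x ∧ g • y = y' := by
  have hu' : sqNorm (-u).1 = 48 := by rw [AddSubgroup.coe_neg, sqNorm_neg, hu]
  obtain ⟨a1, a2, a3⟩ := hx
  rw [sqNorm_sub] at hv a2
  obtain ⟨g, h1, h2, h3⟩ := exists_triple_X hu' hv.1 a1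
    (by rw [AddSubgroup.coe_neg, dotInt_neg_left]; omega)
    (by rw [AddSubgroup.coe_neg, dotInt_neg_left]; omega) a3
  obtain ⟨p1, p2, p3⟩ := part275
  have key : ∀ y : leechLattice, (sqNorm y.1 = 32 ∧ sqNorm (u.1 - y.1) = 32 ∧ dotInt v.1 y.1 = 16) ↔
      sqNorm (g • y).1 = 32 ∧ dotInt leechV.1 (g • y).1 = -24 ∧ dotInt leechU.1 (g • y).1 = 16 := by
    intro y
    simp only [sqNorm_smul, ← h1, ← h2, dotInt_smul, sqNorm_sub, hu, AddSubgroup.coe_neg,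
      dotInt_neg_left]
    omega
  have key2 : ∀ y : leechLattice, dotInt leechX.1 (g • y).1 = dotInt x.1 y.1 := fun y => by
    rw [← h3, dotInt_smul]
  refine ⟨(ncard_smul_set g fun y => ?_).trans (p1 1), (ncard_smul_set g fun y => ?_).trans (p1 2),
    fun y hy y' hy' _ _ e => ?_⟩
  · rw [p2, ← key, key2]; rfl
  · rw [p2, ← key, key2]
    refine and_congr_right fun _ => ⟨fun h => h.2, fun h => ⟨?_, h⟩⟩
    rintro rfl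
    rw [dotInt_self, a1] at h
    exact absurd h (by decide)
  · obtain ⟨i, hi⟩ := p3 _ ((key y).1 hy)
    obtain ⟨k, ⟨⟨k1, k2⟩, k3⟩, k4⟩ := exists_of_mem_orbit ((p2 i _).2 ⟨(key y).1 hy, hi⟩)
      ((p2 i _).2 ⟨(key y').1 hy', by rw [key2, ← e, ← key2, hi]⟩)
    refine ⟨g⁻¹ * k * g, neg_injective ?_, conj_smul_eq (by rw [h2]; exact k2),
      conj_smul_eq (by rw [h3]; exact k3), conj_smul_eq k4⟩
    rw [← smul_neg]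
    exact conj_smul_eq (by rw [h1]; exact k1)

end Cfsg.Agent.S1581
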