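import Cfsg.Statements.S1582
import Cfsg.Agent.Lib.LeechId.U43

set_option autoImplicit false
open Cfsg

namespace Cfsg.Agent.S1582

open CfsgLib.Leech Spor MulAction

theorem stab_neg (u : leechLattice) : stabilizer Co0 (-u) = stabilizer Co0 u := by
  ext g
  simp only [mem_stabilizer_iff, smul_neg, neg_inj]

/-- The point stabiliser in the rank-3 action of the McLaughlin group on 275 points is isomorphic to PSU(4, 3). -/
theorem result (u v x : ↥Cfsg.leechLattice) (hu : Cfsg.sqNorm (u : Cfsg.GolayPt → ℤ) = 48) (hv : Cfsg.sqNorm (v : Cfsg.GolayPt → ℤ) = 32 ∧ Cfsg.sqNorm ((u - v) : Cfsg.GolayPt → ℤ) = 32) (hx : x ∈ {x : ↥Cfsg.leechLattice | Cfsg.sqNorm (x : Cfsg.GolayPt → ℤ) = 32 ∧ Cfsg.sqNorm ((u - x) : Cfsg.GolayPt → ℤ) = 32 ∧ Cfsg.dotInt (v : Cfsg.GolayPt → ℤ) (x : Cfsg.GolayPt → ℤ) = 16}) (F : Type) [Field F] [Fintype F] (hF : Fintype.card F = 9) : Nonempty (↥(MulAction.stabilizer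 ↥Cfsg.Co0 u ⊓ MulAction.stabilizer ↥Cfsg.Co0 v ⊓ MulAction.stabilizer ↥Cfsg.Co0 x) ≃* Cfsg.PSU 4 F 3) := by
  have hu' : sqNorm (-u).1 = 48 := by rw [AddSubgroup.coe_neg, sqNorm_neg, hu]
  obtain ⟨a1, a2, a3⟩ := hx
  rw [sqNorm_sub] at hv a2
  obtain ⟨g, h1, h2, h3⟩ := exists_triple_X hu' hv.1 a1
    (by rw [AddSubgroup.coe_neg, dotInt_neg_left]; omega)
    (by rw [AddSubgroup.coe_neg, dotInt_neg_left]; omega) a3
  obtain ⟨e⟩ := CfsgLib.LeechId.U43.iso hF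
  rw [← stab_neg u]
  exact ⟨(stabEquiv₃ h1 h2 h3).trans e⟩

end Cfsg.Agent.S1582
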