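import Cfsg.Statements.S1583
import Cfsg.Agent.Lib.Leech.Conf2

set_option autoImplicit false
open Cfsg

namespace Cfsg.Agent.S1583

open CfsgLib.Leech Spor MulAction

/-- The Higman–Sims configuration: for two vectors of customary norm 6 with inner product −4, exactly 100 minimal vectors have customary inner products 3 and −3 with them, and the joint stabiliser permutes these transitively. -/
theorem result (v w : ↥Cfsg.leechLattice) (hv : Cfsg.sqNorm (v : Cfsg.GolayPt → ℤ) = 48) (hw : Cfsg.sqNorm (w : Cfsg.GolayPt → ℤ) = 48) (hvw : Cfsg.dotInt (v : Cfsg.GolayPt → ℤ) (w : Cfsg.GolayPt → ℤ) = -32) : {x : ↥Cfsg.leechLattice | Cfsg.sqNorm (x : Cfsg.GolayPt → ℤ) = 32 ∧ Cfsg.dotInt (v : Cfsg.GolayPt → ℤ) (x : Cfsg.GolayPt → ℤ) = 24 ∧ Cfsg.dotInt (w : Cfsg.GolayPt → ℤ) (x : Cfsg.GolayPt → ℤ) = -24}.ncard = 100 ∧ ∀ x ∈ {x : ↥Cfsg.leechLattice | Cfsg.sqNorm (x : Cfsg.GolayPt → ℤ) = 32 ∧ Cfsg.dotInt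 (v : Cfsg.GolayPt → ℤ) (x : Cfsg.GolayPt → ℤ) = 24 ∧ Cfsg.dotInt (w : Cfsg.GolayPt → ℤ) (x : Cfsg.GolayPt → ℤ) = -24}, ∀ x' ∈ {x : ↥Cfsg.leechLattice | Cfsg.sqNorm (x : Cfsg.GolayPt → ℤ) = 32 ∧ Cfsg.dotInt (v : Cfsg.GolayPt → ℤ) (x : Cfsg.GolayPt → ℤ) = 24 ∧ Cfsg.dotInt (w : Cfsg.GolayPt → ℤ) (x : Cfsg.GolayPt → ℤ) = -24}, ∃ g : ↥Cfsg.Co0, g • v = v ∧ g • w = w ∧ g • x = x' := by
  have hu : sqNorm (-(v + w)).1 = 32 := by
    rw [AddSubgroup.coe_neg, sqNorm_neg, AddSubgroup.coe_add, sqNorm_add, hv, hw, hvw]; norm_num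
  constructor
  · obtain ⟨g, h1, h2⟩ := exists_pair_48_48 hv hw hvw
    have h3 : leechU' = -(g • (v + w)) := by rw [smul_add, h1, h2]; abel
    rw [← ncard_100]
    refine ncard_smul_set (negAut * g) fun x => ?_
    simp only [Set.mem_ofPred_eq, mul_smul, negAut_smul, h3, ← h1, AddSubgroup.coe_neg, sqNorm_neg,
      sqNorm_smul, dotInt_neg_left, dotInt_neg_right, dotInt_smul, AddSubgroup.coe_add,
      dotInt_add_left]
    omega
  · have key : ∀ x : leechLattice, sqNorm x.1 = 32 → dotInt v.1 x.1 = 24 → dotInt w.1 x.1 = -24 →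
        ∃ g : Co0, g • v = leechV ∧ g • (-x) = leechU ∧ g • (-(v + w)) = leechU' := by
      intro x a1 a2 a3
      refine exists_triple hv (by rw [AddSubgroup.coe_neg, sqNorm_neg, a1]) hu ?_ ?_ ?_ <;>
        simp only [AddSubgroup.coe_neg, dotInt_neg_left, dotInt_neg_right, AddSubgroup.coe_add,
          dotInt_add_right, dotInt_comm x.1, a2, a3, hvw, dotInt_self, hv] <;> norm_num
    rintro x ⟨a1, a2, a3⟩ x' ⟨b1, b2, b3⟩
    obtain ⟨g, h1, h2, h3⟩ := key x a1 a2 a3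
    obtain ⟨g', h4, h5, h6⟩ := key x' b1 b2 b3
    have e1 : (g'⁻¹ * g) • v = v := by rw [mul_smul, h1, ← h4, inv_smul_smul]
    have e2 : (g'⁻¹ * g) • (-(v + w)) = -(v + w) := by rw [mul_smul, h3, ← h6, inv_smul_smul]
    have e3 : (g'⁻¹ * g) • (-x) = -x' := by rw [mul_smul, h2, ← h5, inv_smul_smul]
    rw [smul_neg, neg_inj] at e2 e3
    rw [smul_add, e1, add_right_inj] at e2
    exact ⟨_, e1, e2, e3⟩

end Cfsg.Agent.S1583
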