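import Cfsg.Statements.S1584
import Cfsg.Agent.Lib.Leech.Conf3

set_option autoImplicit false
open Cfsg

namespace Cfsg.Agent.S1584

open CfsgLib.Leech Spor MulAction

/-- The Higman–Sims group acts with rank 3 and subdegrees 1, 22, 77 on its 100 points, the orbits of a point stabiliser being distinguished by customary inner product 1 with the fixed point. -/
theorem result (v w x : ↥Cfsg.leechLattice) (hv : Cfsg.sqNorm (v : Cfsg.GolayPt → ℤ) = 48) (hw : Cfsg.sqNorm (w : Cfsg.GolayPt → ℤ) = 48) (hvw : Cfsg.dotInt (v : Cfsg.GolayPt → ℤ) (w : Cfsg.GolayPt → ℤ) = -32) (hx : x ∈ {x : ↥Cfsg.leechLattice | Cfsg.sqNorm (x : Cfsg.GolayPt → ℤ) = 32 ∧ Cfsg.dotInt (v : Cfsg.GolayPt → ℤ) (x : Cfsg.GolayPt → ℤ) = 24 ∧ Cfsg.dotInt (w : Cfsg.GolayPt → ℤ) (x : Cfsg.GolayPt → ℤ) = -24}) : {y : ↥Cfsg.leechLattice | y ∈ {x : ↥Cfsg.leechLattice | Cfsg.sqNorm (x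 : Cfsg.GolayPt → ℤ) = 32 ∧ Cfsg.dotInt (v : Cfsg.GolayPt → ℤ) (x : Cfsg.GolayPt → ℤ) = 24 ∧ Cfsg.dotInt (w : Cfsg.GolayPt → ℤ) (x : Cfsg.GolayPt → ℤ) = -24} ∧ Cfsg.dotInt (x : Cfsg.GolayPt → ℤ) (y : Cfsg.GolayPt → ℤ) = 8}.ncard = 22 ∧ {y : ↥Cfsg.leechLattice | y ∈ {x : ↥Cfsg.leechLattice | Cfsg.sqNorm (x : Cfsg.GolayPt → ℤ) = 32 ∧ Cfsg.dotInt (v : Cfsg.GolayPt → ℤ) (x : Cfsg.GolayPt → ℤ) = 24 ∧ Cfsg.dotInt (w : Cfsg.GolayPt → ℤ) (x : Cfsg.GolayPt → ℤ) = -24} ∧ y ≠ x ∧ Cfsg.dotInt (x : Cfsg.GolayPt → ℤ) (y : Cfsg.GolayPt → ℤ) ≠ 8}.ncard = 77 ∧ ∀ y ∈ {x : ↥Cfsg.leechLattice | Cfsg.sqNorm (x : Cfsg.GolayPt → ℤ) = 32 ∧ Cfsg.dotInt (v : Cfsg.GolayPt → ℤ) (x : Cfsg.GolayPt → ℤ) = 24 ∧ Cfsg.dotInt (w : Cfsg.GolayPt → ℤ) (x : Cfsg.GolayPt → ℤ) = -24}, ∀ y' ∈ {x : ↥Cfsg.leechLattice | Cfsg.sqNorm (x : Cfsg.GolayPt → ℤ) = 32 ∧ Cfsg.dotInt (v : Cfsg.GolayPt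 → ℤ) (x : Cfsg.GolayPt → ℤ) = 24 ∧ Cfsg.dotInt (w : Cfsg.GolayPt → ℤ) (x : Cfsg.GolayPt → ℤ) = -24}, y ≠ x → y' ≠ x → (Cfsg.dotInt (x : Cfsg.GolayPt → ℤ) (y : Cfsg.GolayPt → ℤ) = 8 ↔ Cfsg.dotInt (x : Cfsg.GolayPt → ℤ) (y' : Cfsg.GolayPt → ℤ) = 8) → ∃ g : ↥Cfsg.Co0, g • v = v ∧ g • w = w ∧ g • x = x ∧ g • y = y' := by
  obtain ⟨a1, a2, a3⟩ := hx
  obtain ⟨g, h1, h2, h3⟩ : ∃ g : Co0, g • v = leechV ∧ g • (-x) = leechU ∧
      g • (-(v + w)) = leechU' := by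
    refine exists_triple hv (by rw [AddSubgroup.coe_neg, sqNorm_neg, a1]) (by
      rw [AddSubgroup.coe_neg, sqNorm_neg, AddSubgroup.coe_add, sqNorm_add, hv, hw, hvw]; norm_num)
      ?_ ?_ ?_ <;>
      simp only [AddSubgroup.coe_neg, dotInt_neg_left, dotInt_neg_right, AddSubgroup.coe_add,
        dotInt_add_right, dotInt_comm x.1, a2, a3, hvw, dotInt_self, hv] <;> norm_num
  obtain ⟨p1, p2, p3⟩ := part100
  have hs : ∀ y : leechLattice, (negAut * g) • y = g • (-y) := fun y => by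
    rw [mul_smul, negAut_smul, smul_neg]
  have key : ∀ y : leechLattice, (sqNorm y.1 = 32 ∧ dotInt v.1 y.1 = 24 ∧ dotInt w.1 y.1 = -24) ↔
      sqNorm (g • (-y)).1 = 32 ∧ dotInt leechV.1 (g • (-y)).1 = -24 ∧
        dotInt leechU'.1 (g • (-y)).1 = 0 := by
    intro y
    simp only [sqNorm_smul, ← h1, ← h3, dotInt_smul, AddSubgroup.coe_neg, sqNorm_neg,
      dotInt_neg_left, dotInt_neg_right, AddSubgroup.coe_add, dotInt_add_left]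
    omega
  have key2 : ∀ y : leechLattice, dotInt leechU.1 (g • (-y)).1 = dotInt x.1 y.1 := fun y => by
    rw [← h2, dotInt_smul, AddSubgroup.coe_neg, AddSubgroup.coe_neg, dotInt_neg_left,
      dotInt_neg_right, neg_neg]
  have key3 : ∀ y : leechLattice, (sqNorm y.1 = 32 ∧ dotInt v.1 y.1 = 24 ∧ dotInt w.1 y.1 = -24) →
      y ≠ x → dotInt x.1 y.1 ≠ 8 → dotInt x.1 y.1 = 16 := by
    intro y hy h4 h5
    obtain ⟨i, hi⟩ := p3 _ ((key y).1 hy)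
    rw [key2] at hi
    fin_cases i
    · exact absurd (eq_of_dot_eq a1 hy.1 hi) h4
    · exact absurd hi h5
    · exact hi
  refine ⟨(ncard_smul_set (negAut * g) fun y => ?_).trans (p1 1),
    (ncard_smul_set (negAut * g) fun y => ?_).trans (p1 2), fun y hy y' hy' h4 h5 e => ?_⟩
  · rw [hs, p2, ← key, key2]; rfl
  · rw [hs, p2, ← key, key2]
    refine and_congr_right fun hy => ⟨fun h => key3 y hy h.1 h.2, fun h => ⟨?_, ?_⟩⟩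
    · rintro rfl
      rw [dotInt_self, a1] at h
      exact absurd h (by decide)
    · rw [h]; decide
  · have e' : dotInt x.1 y.1 = dotInt x.1 y'.1 := by
      by_cases h : dotInt x.1 y.1 = 8
      · rw [h, e.1 h]
      · rw [key3 y hy h4 h, key3 y' hy' h5 (mt e.2 h)]
    obtain ⟨i, hi⟩ := p3 _ ((key y).1 hy)
    obtain ⟨k, ⟨⟨k1, k2⟩, k3⟩, k4⟩ := exists_of_mem_orbit ((p2 i _).2 ⟨(key y).1 hy, hi⟩)
      ((p2 i _).2 ⟨(key y').1 hy', by rw [key2, ← e', ← key2, hi]⟩)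
    have e1 : (g⁻¹ * k * g) • v = v := conj_smul_eq (by rw [h1]; exact k1)
    have e2 : (g⁻¹ * k * g) • (-(v + w)) = -(v + w) := conj_smul_eq (by rw [h3]; exact k2)
    have e3 : (g⁻¹ * k * g) • (-x) = -x := conj_smul_eq (by rw [h2]; exact k3)
    have e4 := conj_smul_eq k4
    rw [smul_neg, neg_inj] at e2 e3 e4
    rw [smul_add, e1, add_right_inj] at e2
    exact ⟨_, e1, e2, e3, e4⟩

end Cfsg.Agent.S1584
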