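import Cfsg.Statements.S1595
import Cfsg.Agent.Lib.Golay.Steiner

set_option autoImplicit false
open Cfsg

namespace Cfsg.Agent.S1595

open CfsgLib.Golay Finset in
theorem cnt2 {α : Type*} [Fintype α] [DecidableEq α] (hα : Fintype.card α = 12) {B : Set (Finset α)}
    (hB : Cfsg.IsSteinerSystem 5 6 B) {b s : Finset α} (hb : b ∈ B) (hs : s ⊆ b) :
    (s.card = 2 → cnt B s b 2 = 3) ∧ (s.card = 3 → cnt B s b 3 = 2) ∧
      (s.card = 4 → cnt B s b 4 = 3) := by
  have hc := hB.1 b hb
  have z5 := cnt_block_eq_zero hB (s := s) hb (j := 5) (by omega) (by omega)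
  have z6 := cnt_block_self hB hb hs
  have T := thru12 hα hB
  refine ⟨fun h => ?_, fun h => ?_, fun h => ?_⟩
  · have h0 := moment (B := B) hs 0 30 (fun u hu => (T u).2.2.1 (by omega))
    have h1 := moment (B := B) hs 1 12 (fun u hu => (T u).2.2.2.1 (by omega))
    have h2 := moment (B := B) hs 2 4 (fun u hu => (T u).2.2.2.2.1 (by omega))
    have z0 := cnt_eq_zero_of_lt (B := B) hs (j := 0) (by omega)
    have z1 := cnt_eq_zero_of_lt (B := B) hs (j := 1) (by omega)
    rw [hc, h] at h0 h1 h2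
    simp only [sum_range_succ, sum_range_zero, z0, z1, z5, z6] at h0 h1 h2
    norm_num [Nat.choose] at h0 h1 h2
    omega
  · have h0 := moment (B := B) hs 0 12 (fun u hu => (T u).2.2.2.1 (by omega))
    have h1 := moment (B := B) hs 1 4 (fun u hu => (T u).2.2.2.2.1 (by omega))
    have z0 := cnt_eq_zero_of_lt (B := B) hs (j := 0) (by omega)
    have z1 := cnt_eq_zero_of_lt (B := B) hs (j := 1) (by omega)
    have z2 := cnt_eq_zero_of_lt (B := B) hs (j := 2) (by omega)
    rw [hc, h] at h0 h1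
    simp only [sum_range_succ, sum_range_zero, z0, z1, z2, z5, z6] at h0 h1
    norm_num [Nat.choose] at h0 h1
    omega
  · have h0 := moment (B := B) hs 0 4 (fun u hu => (T u).2.2.2.2.1 (by omega))
    have z0 := cnt_eq_zero_of_lt (B := B) hs (j := 0) (by omega)
    have z1 := cnt_eq_zero_of_lt (B := B) hs (j := 1) (by omega)
    have z2 := cnt_eq_zero_of_lt (B := B) hs (j := 2) (by omega)
    have z3 := cnt_eq_zero_of_lt (B := B) hs (j := 3) (by omega)
    rw [hc, h] at h0
    simp only [sum_range_succ, sum_range_zero, z0, z1, z2, z3, z5, z6] at h0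
    norm_num [Nat.choose] at h0
    omega


/-- Leech triangle of S(5, 6, 12): blocks meet in 0, 2, 3 or 4 points, and a block is met exactly in a given 2-, 3- or 4-subset by 3, 2, 3 blocks respectively. -/
theorem result {α : Type*} [Fintype α] [DecidableEq α] (hα : Fintype.card α = 12) {B : Set (Finset α)} (hB : Cfsg.IsSteinerSystem 5 6 B) (b : Finset α) (hb : b ∈ B) : (∀ c ∈ B, c ≠ b → (b ∩ c).card = 0 ∨ (b ∩ c).card = 2 ∨ (b ∩ c).card = 3 ∨ (b ∩ c).card = 4) ∧ ∀ s ⊆ b, (s.card = 2 → {c : Finset α | c ∈ B ∧ b ∩ c = s}.ncard = 3) ∧ (s.card = 3 → {c : Finset α | c ∈ B ∧ b ∩ c = s}.ncard = 2) ∧ (s.card = 4 → {c : Finset α | c ∈ B ∧ b ∩ c = s}.ncard = 3) := by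
  constructor
  · intro c hc hcb
    have h1 := CfsgLib.Golay.ne_of_cnt_eq_zero (CfsgLib.Golay.cnt12_empty hα hB hb).2.1 hc
      (Finset.empty_subset _)
    have h5 : ¬ 5 ≤ (b ∩ c).card := fun h =>
      hcb (CfsgLib.Golay.steiner_eq_of_le hB hb hc h).symm
    omega
  · intro s hs
    have := cnt2 hα hB hb hs
    rw [CfsgLib.Golay.ncard_inter_eq_cnt hs]
    exact ⟨fun h => by rw [h]; exact this.1 h, fun h => by rw [h]; exact this.2.1 h,
      fun h => by rw [h]; exact this.2.2 h⟩

end Cfsg.Agent.S1595
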