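import Cfsg.Statements.S1597
import Cfsg.Agent.Lib.MOrb.Quart

set_option autoImplicit false
open scoped Pointwise
open Cfsg

namespace Cfsg.Agent.S1597

open CfsgLib.MOrb CfsgLib.Golay


/-- A dodecad has 220 quartets and its stabiliser is transitive on them. -/
theorem result (d : Finset Cfsg.GolayPt) (hd : d ∈ Cfsg.dodecads) : (Cfsg.quartets d).ncard = 220 ∧ ∀ Q ∈ Cfsg.quartets d, ∀ Q' ∈ Cfsg.quartets d, ∃ g : Equiv.Perm Cfsg.GolayPt, g ∈ Cfsg.M24 ∧ g • d = d ∧ g • Q = Q' := by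
  constructor
  · obtain ⟨g, rfl⟩ := trans_dod hd
    rw [quartets_smul, Set.ncard_smul_set, ncard_quartets]
  · intro Q hQ Q' hQ'
    obtain ⟨g, h1, h2⟩ := trans_quartet hd hQ
    obtain ⟨k, h3, h4⟩ := trans_quartet hd hQ'
    refine ⟨((k * g⁻¹ : M24) : Equiv.Perm GolayPt), (k * g⁻¹).2, ?_, ?_⟩
    · change (k * g⁻¹ : M24) • d = d
      conv_lhs => rw [← h1, mul_smul, inv_smul_smul, h3]
    · change (k * g⁻¹ : M24) • Q = Q'
      rw [← h2, mul_smul, inv_smul_smul, h4]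

end Cfsg.Agent.S1597
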