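import Cfsg.Statements.S1599
import Cfsg.Agent.Lib.MOrb.Quart

set_option autoImplicit false
open scoped Pointwise
open Cfsg

namespace Cfsg.Agent.S1599

open CfsgLib.MOrb CfsgLib.Golay


/-- A quartet stabiliser has five orbits on the quartets of its dodecad, of sizes 1, 12, 27, 72, 108. -/
theorem result (d : Finset Cfsg.GolayPt) (hd : d ∈ Cfsg.dodecads) (Q : Finset (Finset Cfsg.GolayPt)) (hQ : Q ∈ Cfsg.quartets d) : ∃ X₁ ∈ Cfsg.quartets d, ∃ X₂ ∈ Cfsg.quartets d, ∃ X₃ ∈ Cfsg.quartets d, ∃ X₄ ∈ Cfsg.quartets d, (MulAction.orbit ↥(MulAction.stabilizer Cfsg.M24 d ⊓ MulAction.stabilizer Cfsg.M24 Q) X₁).ncard = 12 ∧ (MulAction.orbit ↥(MulAction.stabilizer Cfsg.M24 d ⊓ MulAction.stabilizer Cfsg.M24 Q) X₂).ncard = 27 ∧ (MulAction.orbit ↥(MulAction.stabilizer Cfsg.M24 d ⊓ MulAction.stabilizer Cfsg.M24 Q) X₃).ncard = 72 ∧ (MulAction.orbit ↥(MulAction.stabilizer Cfsg.M24 d ⊓ MulAction.stabilizer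 Cfsg.M24 Q) X₄).ncard = 108 ∧ Cfsg.quartets d = {Q} ∪ MulAction.orbit ↥(MulAction.stabilizer Cfsg.M24 d ⊓ MulAction.stabilizer Cfsg.M24 Q) X₁ ∪ MulAction.orbit ↥(MulAction.stabilizer Cfsg.M24 d ⊓ MulAction.stabilizer Cfsg.M24 Q) X₂ ∪ MulAction.orbit ↥(MulAction.stabilizer Cfsg.M24 d ⊓ MulAction.stabilizer Cfsg.M24 Q) X₃ ∪ MulAction.orbit ↥(MulAction.stabilizer Cfsg.M24 d ⊓ MulAction.stabilizer Cfsg.M24 Q) X₄ := by
  obtain ⟨g, rfl, rfl⟩ := trans_quartet hd hQ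
  obtain ⟨h1, h2, -⟩ := suborbits_Q0
  have ho := fun y : Finset (Finset GolayPt) => orbit_conj g (mem_HQ_conj g) y
  refine ⟨g • fam 4 (repQ 1), smul_mem_quartets g (repQ_mem 1), g • fam 4 (repQ 2),
    smul_mem_quartets g (repQ_mem 2), g • fam 4 (repQ 3), smul_mem_quartets g (repQ_mem 3),
    g • fam 4 (repQ 4), smul_mem_quartets g (repQ_mem 4),
    by rw [ho, Set.ncard_smul_set, h1]; rfl, by rw [ho, Set.ncard_smul_set, h1]; rfl,
    by rw [ho, Set.ncard_smul_set, h1]; rfl, by rw [ho, Set.ncard_smul_set, h1]; rfl, ?_⟩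
  rw [ho, ho, ho, ho, ← Set.smul_set_singleton, ← Set.smul_set_union, ← Set.smul_set_union,
    ← Set.smul_set_union, ← Set.smul_set_union, quartets_smul]
  congr 1
  rw [h2, ← orbit_stabilizer_self (H := HQ) fun _ h => h.2]
  ext x
  simp only [Set.mem_iUnion, Set.mem_union, Fin.exists_fin_succ, IsEmpty.exists_iff, or_false,
    or_assoc]
  rfl

end Cfsg.Agent.S1599
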