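import Cfsg.Statements.S1600
import Cfsg.Agent.Lib.MOrb.Ord

set_option autoImplicit false
open scoped Pointwise
open Cfsg

namespace Cfsg.Agent.S1600

open CfsgLib.MOrb CfsgLib.Golay


/-- The pointwise stabiliser of three points of a dodecad inside the dodecad stabiliser (order 72) is transitive on the complementary dodecad. -/
theorem result (d : Finset Cfsg.GolayPt) (hd : d ∈ Cfsg.dodecads) (p q r : Cfsg.GolayPt) (hp : p ∈ d) (hq : q ∈ d) (hr : r ∈ d) (hpq : p ≠ q) (hpr : p ≠ r) (hqr : q ≠ r) : Nat.card ↥(MulAction.stabilizer Cfsg.M24 d ⊓ MulAction.stabilizer Cfsg.M24 p ⊓ MulAction.stabilizer Cfsg.M24 q ⊓ MulAction.stabilizer Cfsg.M24 r) = 72 ∧ ∀ x ∉ d, ∀ y ∉ d, ∃ g ∈ (MulAction.stabilizer Cfsg.M24 d ⊓ MulAction.stabilizer Cfsg.M24 p ⊓ MulAction.stabilizer Cfsg.M24 q ⊓ MulAction.stabilizer Cfsg.M24 r), ((g : ↥Cfsg.M24) : Equiv.Perm Cfsg.GolayPt) x = y := by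
  obtain ⟨g, rfl, rfl, rfl, rfl⟩ := trans_dod_in3 hd hp hq hr hpq hpr hqr
  have key : ∀ k : M24, k ∈ MulAction.stabilizer M24 (g • ofMask D0) ⊓
      MulAction.stabilizer M24 (g • pt 0) ⊓ MulAction.stabilizer M24 (g • pt 1) ⊓
      MulAction.stabilizer M24 (g • pt 2) ↔ g⁻¹ * k * g ∈ FixG [2 ^ 2, 2 ^ 1, 2 ^ 0, D0] := by
    intro k
    simp only [FixG_cons_pt (show 2 < 24 by norm_num), FixG_cons_pt (show 1 < 24 by norm_num),
      FixG_cons_pt (show 0 < 24 by norm_num), FixG_single, Subgroup.mem_inf, mem_stabilizer_smul]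
  refine ⟨(Nat.card_congr (conjEquiv g key).toEquiv).trans card_Dabc, fun x hx y hy => ?_⟩
  have h : chkPt [2 ^ 2, 2 ^ 1, 2 ^ 0, D0] gDabc 23 (D0 ^^^ 16777215) = true := by decide +kernel
  obtain ⟨a, ha, rfl⟩ := step_pt h g (mem_smul_compl hx)
  obtain ⟨b, hb, rfl⟩ := step_pt h g (mem_smul_compl hy)
  refine ⟨g * (b * a⁻¹) * g⁻¹, (key _).2 (by
    rw [show g⁻¹ * (g * (b * a⁻¹) * g⁻¹) * g = b * a⁻¹ by group]; exact hb.mul ha.inv), ?_⟩
  change (g * (b * a⁻¹) * g⁻¹) • (g * a) • pt 23 = _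
  rw [← mul_smul]
  congr 1
  group

end Cfsg.Agent.S1600
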