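import Cfsg.Statements.S1602
import Cfsg.Agent.Lib.MOrb.Iso

set_option autoImplicit false
open scoped Pointwise
open Cfsg

namespace Cfsg.Agent.S1602

open CfsgLib.MOrb CfsgLib.Golay
open CfsgLib.Mathieu (idc)

/-- stabiliser chain -/
def ch : List (ℕ × List ℕ) := [(7, [227578386318009578406903204956702752, 968986657566102297500802845123158208]), (1, [227755381100005911481382526495818944]), (2, [978239198764604640668953934463309856])]

/-- the five points -/
def f (i : Fin 5) : ℕ := ![3, 4, 12, 13, 18] i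

theorem ch_mem : ∀ p ∈ cgens ch, okP p = true ∧ mk p ∈ FixG [8388640, 2 ^ 0, D0] :=
  okG_FixG (by decide +kernel)

theorem ch_ok : chkChain ch 120 = true := by decide +kernel

theorem card_le : Nat.card (FixG [8388640, 2 ^ 0, D0]) ≤ 120 := by
  have h1 := CfsgLib.Mathieu.card_eq_orbit_mul (FixG [2 ^ 0, D0]) (ofMask 8388640)
  have h2 : 66 ≤ (MulAction.orbit (FixG [2 ^ 0, D0]) (ofMask 8388640)).ncard :=
    Model.le_orbitS (M := maskModel syn) (gens := gDa) (m := 8388640) (N := 4096)
      (okG_FixG (by decide +kernel)) (by decide +kernel)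
  rw [card_Da, ← FixG_cons] at h1
  by_contra hc
  have := Nat.mul_le_mul h2 (show 121 ≤ Nat.card (FixG [8388640, 2 ^ 0, D0]) by omega)
  omega

theorem std : Nonempty (FixG [8388640, 2 ^ 0, D0] ≃* Equiv.Perm (Fin 5)) := by
  have hf : ∀ y, f y < 24 := by decide
  obtain ⟨φ, h1, -⟩ := exists_hom_of_chain (MonoidHom.id (Equiv.Perm (Fin 5))) (fun y => pt (f y))
    ch_mem ch_ok card_le (match_pt hf ch_mem
      (ks := [⟨![0, 3, 4, 2, 1], ![0, 4, 3, 1, 2], by decide, by decide⟩, ⟨![2, 3, 4, 0, 1], ![3, 4, 0, 1, 2], by decide, by decide⟩, ⟨![4, 3, 1, 2, 0], ![4, 2, 3, 1, 0], by decide, by decide⟩, ⟨![4, 1, 3, 2, 0], ![4, 1, 3, 2, 0], by decide, by decide⟩]) (by decide +kernel)) (fun k hk => by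
      ext1 y
      have h : ∀ a b, f a = f b → a = b := by decide
      exact h _ _ ((pt_inj (hf _) (hf _)).1 (hk y)))
  refine equiv_of_injective φ ?_ ?_
  · rw [injective_iff_map_eq_one]
    intro g hg
    obtain ⟨k, h2, h3⟩ := h1 g
    rw [hg] at h2
    rw [← show 1 = k from h2] at h3
    have h4 : ∀ y, ap (cd g) (f y) = f y := fun y => ap_eq_of_smul (hf y) (hf y) (h3 y)
    have := forall_eltS (hash := chd 149 47 0x7000600000008000000030000000e00040003000300110002000e000100030000000200070001000500000005001300010000000e00010009000700050010000c001000050005000a0000000100020002000500000002000000000000) (N := 149) (n := 120)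
      (f := fun a => or (Nat.beq a idc) (not (and (Nat.beq (ap a 3) 3) (and (Nat.beq (ap a 4) 4)
        (and (Nat.beq (ap a 12) 12) (Nat.beq (ap a 13) 13)))))) ch_mem (by decide +kernel) card_le g.2
    rw [show ap (cd g) 3 = 3 from h4 0, show ap (cd g) 4 = 4 from h4 1, show ap (cd g) 12 = 12 from h4 2,
      show ap (cd g) 13 = 13 from h4 3] at this
    exact Subtype.ext (cd_eq_idc.1 (by simpa using this))
  · rw [le_antisymm card_le (card_ge_of_chain ch_mem ch_ok), Nat.card_perm, Nat.card_fin]; rfl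

set_option maxRecDepth 100000 in

/-- In the 12-point action of the smallest Mathieu group the setwise stabiliser of a pair is isomorphic to the symmetric group of degree 5. -/
theorem result (d : Finset Cfsg.GolayPt) (hd : d ∈ Cfsg.dodecads) (p q q' : Cfsg.GolayPt) (hp : p ∈ d) (hq : q ∉ d) (hq' : q' ∉ d) (hqq' : q ≠ q') : Nonempty (↥(MulAction.stabilizer Cfsg.M24 d ⊓ MulAction.stabilizer Cfsg.M24 p ⊓ MulAction.stabilizer Cfsg.M24 ({q, q'} : Finset Cfsg.GolayPt)) ≃* Equiv.Perm (Fin 5)) := by
  obtain ⟨g, rfl, rfl, rfl, rfl⟩ := trans_dod_in_out2 hd hp hq hq' hqq'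
  have e : ({g • pt 23, g • pt 5} : Finset GolayPt) = g • ofMask 8388640 := by
    rw [show ofMask 8388640 = {pt 23, pt 5} by decide, Finset.smul_finset_insert,
      Finset.smul_finset_singleton]
  rw [e]
  obtain ⟨e2⟩ := std
  refine ⟨(conjEquiv g fun k => ?_).trans e2⟩
  simp only [FixG_cons 8388640, FixG_cons_pt (show 0 < 24 by norm_num), FixG_single, Subgroup.mem_inf,
    mem_stabilizer_smul]

end Cfsg.Agent.S1602
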