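import Cfsg.Statements.S1604
import Cfsg.Agent.Lib.MOrb.Cls

set_option autoImplicit false
open scoped Pointwise
open Cfsg

namespace Cfsg.Agent.S1604

open CfsgLib.MOrb CfsgLib.Golay


/-- A hexad stabiliser in the two-point stabiliser has orbits of sizes 1, 16, 60 on the 77 hexads: the 16 hexads disjoint from it and the 60 meeting it in two points. -/
theorem result (p q : Cfsg.GolayPt) (hpq : p ≠ q) (o o' o'' : Finset Cfsg.GolayPt) (ho : o ∈ Cfsg.octads) (ho' : o' ∈ Cfsg.octads) (ho'' : o'' ∈ Cfsg.octads) (hp : p ∈ o ∧ p ∈ o' ∧ p ∈ o'') (hq : q ∈ o ∧ q ∈ o' ∧ q ∈ o'') (h : (o ∩ o').card = (o ∩ o'').card) : {x : Finset Cfsg.GolayPt | x ∈ Cfsg.octads ∧ p ∈ x ∧ q ∈ x ∧ (o ∩ x).card = 2}.ncard = 16 ∧ {x : Finset Cfsg.GolayPt | x ∈ Cfsg.octads ∧ p ∈ x ∧ q ∈ x ∧ (o ∩ x).card = 4}.ncard = 60 ∧ ∃ g : Equiv.Perm Cfsg.GolayPt, g ∈ Cfsg.M24 ∧ g p = p ∧ g q = q ∧ g • o = o ∧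 g • o' = o'' := by
  obtain ⟨g, rfl, rfl, rfl⟩ := trans_oct_in2 ho hp.1 hq.1 hpq
  have key : ∀ j, {x : Finset GolayPt | x ∈ octads ∧ g • pt 23 ∈ x ∧ g • pt 0 ∈ x ∧
      (g • ofMask O0 ∩ x).card = j}.ncard =
      cntLT 4096 fun k => and (wIJ 8 [23, 0] [] (cw k)) (Nat.beq (pc (Nat.land O0 (cw k))) j) := by
    intro j
    rw [← ncard_WIJ_inter 8 [23, 0] [] (by simp) (by simp) O0_lt j g]
    congr 1; ext s; simp [WIJ, mem_octads, and_assoc]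
  refine ⟨by rw [key]; decide +kernel, by rw [key]; decide +kernel, ?_⟩
  obtain ⟨k, hk, e⟩ := cls_WIJ (by simp) (by simp) O0_lt cls_Oab g (s := o') (t := o'')
    ⟨ho', by simp [hp, hq], by simp⟩ ⟨ho'', by simp [hp, hq], by simp⟩ h
  exact ⟨_, (g * k * g⁻¹).2, hk.conj_pt g (by norm_num) (by simp),
    hk.conj_pt g (by norm_num) (by simp), hk.conj_mask g (by simp), e⟩

end Cfsg.Agent.S1604
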