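import Cfsg.Statements.S1605
import Cfsg.Agent.Lib.MOrb.Cls

set_option autoImplicit false
open scoped Pointwise
open Cfsg

namespace Cfsg.Agent.S1605

open CfsgLib.MOrb CfsgLib.Golay

theorem chk176 : chkC [2 ^ 23, 2 ^ 0] gM22 8394986 (wIJ 8 [23] [0]) = true := by decide +kernel


/-- The two-point stabiliser acts on the 176 octads through the first point avoiding the second with rank 3 and subdegrees 1, 70, 105 (intersections 8, 2, 4). -/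
theorem result (p q : Cfsg.GolayPt) (hpq : p ≠ q) : {x : Finset Cfsg.GolayPt | (x ∈ Cfsg.octads ∧ p ∈ x ∧ q ∉ x)}.ncard = 176 ∧ (∀ o o' : Finset Cfsg.GolayPt, (o ∈ Cfsg.octads ∧ p ∈ o ∧ q ∉ o) → (o' ∈ Cfsg.octads ∧ p ∈ o' ∧ q ∉ o') → ∃ g : Equiv.Perm Cfsg.GolayPt, g ∈ Cfsg.M24 ∧ g p = p ∧ g q = q ∧ g • o = o') ∧ ∀ o : Finset Cfsg.GolayPt, (o ∈ Cfsg.octads ∧ p ∈ o ∧ q ∉ o) → {x : Finset Cfsg.GolayPt | (x ∈ Cfsg.octads ∧ p ∈ x ∧ q ∉ x) ∧ (o ∩ x).card = 2}.ncard = 70 ∧ {x : Finset Cfsg.GolayPt | (x ∈ Cfsg.octads ∧ p ∈ x ∧ q ∉ x) ∧ (o ∩ x).card = 4}.ncard = 105 ∧ ∀ o' o'' : Finset Cfsg.GolayPt, (o' ∈ Cfsg.octads ∧ p ∈ o' ∧ q ∉ o') → (o'' ∈ Cfsg.octads ∧ p ∈ o'' ∧ q ∉ o'') → (o ∩ o').card = (o ∩ o'').card → ∃ g : Equiv.Perm Cfsg.GolayPt, g ∈ Cfsg.M24 ∧ g p = p ∧ g q = q ∧ g • o = o ∧ g • o' = o'' := by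
  refine ⟨?_, ?_, ?_⟩
  · obtain ⟨g, rfl, rfl⟩ := trans_pt2 hpq
    have := ncard_WIJ 8 [23] [0] (by simp) (by simp) g
    rw [show cntLT 4096 (fun k => wIJ 8 [23] [0] (cw k)) = 176 by decide +kernel] at this
    rw [← this]
    congr 1; ext s; simp [WIJ, mem_octads]
  · obtain ⟨g, rfl, rfl⟩ := trans_pt2 hpq
    have key : ∀ o : Finset GolayPt, (o ∈ octads ∧ g • pt 23 ∈ o ∧ g • pt 0 ∉ o) →
        ∃ k, Fix [2 ^ 23, 2 ^ 0] k ∧ g • k • ofMask 8394986 = o := by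
      intro o ho
      obtain ⟨o, rfl⟩ := MulAction.surjective g o
      have h1 : WIJ 8 [23] [0] g (g • o) := ⟨ho.1, by simpa using ho.2.1, by simpa using ho.2.2⟩
      rw [WIJ_smul] at h1
      obtain ⟨m, hm, rfl⟩ := exists_isCode h1.1.1
      obtain ⟨k, hk, e⟩ := chkC_sound chk176 hm ((wIJ_iff (by simp) (by simp) hm).1 h1)
      exact ⟨k, hk, by rw [e]⟩
    intro o o' ho ho'
    obtain ⟨k, hk, rfl⟩ := key o ho
    obtain ⟨k', hk', rfl⟩ := key o' ho'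
    have hkk := hk'.mul hk.inv
    refine ⟨_, (g * (k' * k⁻¹) * g⁻¹).2, hkk.conj_pt g (by norm_num) (by simp),
      hkk.conj_pt g (by norm_num) (by simp), ?_⟩
    change (g * (k' * k⁻¹) * g⁻¹) • g • k • ofMask 8394986 = _
    rw [conj_smul, mul_smul, inv_smul_smul]
  · rintro o ⟨ho, hp, hq⟩
    obtain ⟨g, rfl, rfl, rfl⟩ := trans_oct_in_out ho hp hq
    have key : ∀ j, {x : Finset GolayPt | (x ∈ octads ∧ g • pt 23 ∈ x ∧ g • pt 4 ∉ x) ∧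
        (g • ofMask O0 ∩ x).card = j}.ncard =
        cntLT 4096 fun k => and (wIJ 8 [23] [4] (cw k)) (Nat.beq (pc (Nat.land O0 (cw k))) j) := by
      intro j
      rw [← ncard_WIJ_inter 8 [23] [4] (by simp) (by simp) O0_lt j g]
      congr 1; ext s; simp [WIJ, mem_octads, and_assoc]
    refine ⟨by rw [key]; decide +kernel, by rw [key]; decide +kernel, ?_⟩
    intro o' o'' h1 h2 h
    obtain ⟨k, hk, e⟩ := cls_WIJ (by simp) (by simp) O0_lt cls_Oaz g (s := o') (t := o'')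
      ⟨h1.1, by simp [h1], by simp [h1]⟩ ⟨h2.1, by simp [h2], by simp [h2]⟩ h
    exact ⟨_, (g * k * g⁻¹).2, hk.conj_pt g (by norm_num) (by simp),
      hk.conj_pt g (by norm_num) (by simp), hk.conj_mask g (by simp), e⟩

end Cfsg.Agent.S1605
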