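import Cfsg.Statements.S1608
import Cfsg.Agent.Lib.MOrb.Cls

set_option autoImplicit false
open scoped Pointwise
open Cfsg

namespace Cfsg.Agent.S1608

open CfsgLib.MOrb CfsgLib.Golay


/-- The point stabiliser acts on the 506 octads avoiding the point with rank 4 and subdegrees 1, 15, 210, 280, the suborbits being given by intersection size with the fixed octad. -/
theorem result (x : Cfsg.GolayPt) (o : Finset Cfsg.GolayPt) (ho : o ∈ Cfsg.octads) (hx : x ∉ o) : {o' : Finset Cfsg.GolayPt | o' ∈ Cfsg.octads ∧ x ∉ o' ∧ (o ∩ o').card = 0}.ncard = 15 ∧ {o' : Finset Cfsg.GolayPt | o' ∈ Cfsg.octads ∧ x ∉ o' ∧ (o ∩ o').card = 4}.ncard = 210 ∧ {o' : Finset Cfsg.GolayPt | o' ∈ Cfsg.octads ∧ x ∉ o' ∧ (o ∩ o').card = 2}.ncard = 280 ∧ ∀ o' o'' : Finset Cfsg.GolayPt, o' ∈ Cfsg.octads → o'' ∈ Cfsg.octads → x ∉ o' → x ∉ o'' → (o ∩ o').card = (o ∩ o'').card → ∃ g : Equiv.Perm Cfsg.GolayPt, g ∈ Cfsg.M24 ∧ g x =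 x ∧ g • o = o ∧ g • o' = o'' := by
  obtain ⟨g, rfl, rfl⟩ := trans_oct_out ho hx
  have key : ∀ j, {x : Finset GolayPt | x ∈ octads ∧ g • pt 4 ∉ x ∧
      (g • ofMask O0 ∩ x).card = j}.ncard =
      cntLT 4096 fun k => and (wIJ 8 [] [4] (cw k)) (Nat.beq (pc (Nat.land O0 (cw k))) j) := by
    intro j
    rw [← ncard_WIJ_inter 8 [] [4] (by simp) (by simp) O0_lt j g]
    congr 1; ext s; simp [WIJ, mem_octads, and_assoc]
  refine ⟨by rw [key]; decide +kernel, by rw [key]; decide +kernel, by rw [key]; decide +kernel, ?_⟩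
  intro o' o'' ho' ho'' h1 h2 h
  obtain ⟨k, hk, e⟩ := cls_WIJ (by simp) (by simp) O0_lt cls_Oz g (s := o') (t := o'')
    ⟨ho', by simp, by simp [h1]⟩ ⟨ho'', by simp, by simp [h2]⟩ h
  exact ⟨_, (g * k * g⁻¹).2, hk.conj_pt g (by norm_num) (by simp), hk.conj_mask g (by simp), e⟩

end Cfsg.Agent.S1608
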