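import Cfsg.Statements.S1610
import Mathlib
import Cfsg.Agent.Lib.Hexa.Basic

set_option autoImplicit false
open Cfsg

namespace Cfsg.Agent.S1610

open CfsgLib.Hexa CfsgLib.Asch in

/-- The hexacode has 64 words, minimum weight 4, and weight distribution 0^1 4^45 6^18. -/
theorem result (F : Type*) [Field F] [Fintype F] [DecidableEq F] (hF : Fintype.card F = 4) (ω : F) (hω : ω ^ 2 + ω + 1 = 0) : Nat.card ↥(Cfsg.hexacode F ω) = 64 ∧ (∀ x ∈ Cfsg.hexacode F ω, x ≠ 0 → (Finset.univ.filter fun i => x i ≠ 0).card = 4 ∨ (Finset.univ.filter fun i => x i ≠ 0).card = 6) ∧ {x : Fin 6 → F | x ∈ Cfsg.hexacode F ω ∧ (Finset.univ.filter fun i => x i ≠ 0).card = 4}.ncard = 45 ∧ {x : Fin 6 → F | x ∈ Cfsg.hexacode F ω ∧ (Finset.univ.filter fun i => x i ≠ 0).card = 6}.ncard = 18 := by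
  obtain ⟨e, w, hw, rfl⟩ := exists_equiv hF hω
  let f : TF4 × TF4 × TF4 → (Fin 6 → F) := fun p => e ∘ cw w p.1 p.2.1 p.2.2
  have hf : Function.Injective f := by
    rintro ⟨a, b, c⟩ ⟨a', b', c'⟩ h
    obtain ⟨rfl, rfl, rfl⟩ := cw_inj4 w hw a b c a' b' c' (e.injective (congrFun h 0))
      (e.injective (congrFun h 2)) (e.injective (congrFun h 4))
    rfl
  have hm : ∀ x, x ∈ Cfsg.hexacode F (e w) ↔ ∃ p, f p = x := fun x => by
    rw [mem_iff_cw]
    constructor
    · rintro ⟨a, b, c, rfl⟩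
      exact ⟨(e.symm a, e.symm b, e.symm c), by simp [f, map_cw]⟩
    · rintro ⟨p, rfl⟩
      exact ⟨_, _, _, (map_cw e w _ _ _).symm⟩
  have hwt : ∀ p, (Finset.univ.filter fun i => f p i ≠ 0).card = wt (cw w p.1 p.2.1 p.2.2) :=
    fun p => by simp [f, wt]
  have key : ∀ n, {x : Fin 6 → F | x ∈ Cfsg.hexacode F (e w) ∧
      (Finset.univ.filter fun i => x i ≠ 0).card = n}.ncard =
      (Finset.univ.filter fun p : TF4 × TF4 × TF4 => wt (cw w p.1 p.2.1 p.2.2) = n).card := by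
    intro n
    rw [← Set.ncard_coe_finset, ← Set.ncard_image_of_injective _ hf]
    congr 1
    ext x
    simp only [Set.mem_setOf_eq, hm, Set.mem_image, Finset.coe_filter, Finset.mem_univ, true_and]
    constructor
    · rintro ⟨⟨p, rfl⟩, h⟩
      exact ⟨p, (hwt p).symm.trans h, rfl⟩
    · rintro ⟨p, h, rfl⟩
      exact ⟨⟨p, rfl⟩, (hwt p).trans h⟩
  obtain ⟨h1, h2, h3⟩ := wt4 w hw
  refine ⟨?_, fun x hx h0 => ?_, (key 4).trans h2, (key 6).trans h3⟩
  · have : (Cfsg.hexacode F (e w) : Set (Fin 6 → F)) = Set.range f := Set.ext hm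
    change (Cfsg.hexacode F (e w) : Set (Fin 6 → F)).ncard = 64
    rw [this, ← Set.image_univ, Set.ncard_image_of_injective _ hf, Set.ncard_univ,
      Nat.card_eq_fintype_card, Fintype.card_prod, Fintype.card_prod, card_TF4]
    rfl
  · obtain ⟨p, rfl⟩ := (hm x).1 hx
    rw [hwt]
    refine (h1 p.1 p.2.1 p.2.2).resolve_left fun h => h0 (funext fun i => ?_)
    simp [f, h i]

end Cfsg.Agent.S1610
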