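import Cfsg.Statements.S1611
import Mathlib
import Cfsg.Agent.Lib.Hexa.Basic

set_option autoImplicit false
open Cfsg

namespace Cfsg.Agent.S1611

open CfsgLib.Hexa Cfsg in

/-- The monomial automorphism group of the hexacode has order 1080: its diagonal part is the scalars and its permutation parts form the alternating group of degree 6. -/
theorem result (F : Type*) [Field F] [Fintype F] [DecidableEq F] (hF : Fintype.card F = 4) (ω : F) (hω : ω ^ 2 + ω + 1 = 0) : Nat.card {f : Equiv.Perm (Fin 6) × (Fin 6 → Fˣ) // (∀ x ∈ Cfsg.hexacode F ω, Cfsg.monomialMap f.1 f.2 x ∈ Cfsg.hexacode F ω)} = 1080 ∧ (∀ c : Fin 6 → Fˣ, (∀ x ∈ Cfsg.hexacode F ω, Cfsg.monomialMap 1 c x ∈ Cfsg.hexacode F ω) → ∀ i j, c i = c j) ∧ {σ : Equiv.Perm (Fin 6) | ∃ c : Fin 6 → Fˣ, (∀ x ∈ Cfsg.hexacode F ω, Cfsg.monomialMap σ c x ∈ Cfsg.hexacode F ω)} = (alternatingGroup (Fin 6) : Set (Equiv.Perm (Fin 6))) := by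
  have comp : ∀ (σ τ : Equiv.Perm (Fin 6)) (c d : Fin 6 → Fˣ) (x : Fin 6 → F),
      monomialMap σ c (monomialMap τ d x) = monomialMap (σ * τ) (fun i => c i * d (σ.symm i)) x := by
    intro σ τ c d x
    funext i
    simp only [monomialMap, Units.val_mul, mul_assoc]
    rfl
  have hd : ∀ c : Fin 6 → Fˣ, (∀ x ∈ hexacode F ω, monomialMap 1 c x ∈ hexacode F ω) →
      ∀ i j, c i = c j := fun c h i j =>
    Units.ext (diag hF hω ((pres_iff hF hω 1 c).1 h) i j)
  let S₀ : Submonoid (Equiv.Perm (Fin 6)) :=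
    { carrier := {σ | ∃ c : Fin 6 → Fˣ, ∀ x ∈ hexacode F ω, monomialMap σ c x ∈ hexacode F ω}
      one_mem' := ⟨1, fun x hx => by
        have : monomialMap (1 : Equiv.Perm (Fin 6)) (1 : Fin 6 → Fˣ) x = x := by
          funext i; exact one_mul (x i)
        rwa [this]⟩
      mul_mem' := by
        rintro σ τ ⟨c, hc⟩ ⟨d, hd⟩
        exact ⟨_, fun x hx => comp σ τ c d x ▸ hc _ (hd x hx)⟩ }
  let S : Subgroup (Equiv.Perm (Fin 6)) :=
    { S₀ with
      inv_mem' := fun {σ} h => (Submonoid.powers_le (P := S₀)).2 h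
        (mem_powers_iff_mem_zpowers.2 (inv_mem (Subgroup.mem_zpowers σ))) }
  have hω0 : ω ≠ 0 := by rintro rfl; simp at hω
  have h1 : alternatingGroup (Fin 6) ≤ S := by
    rw [← Equiv.Perm.closure_three_cycles_eq_alternating, Subgroup.closure_le]
    intro g hg
    have hg3 : g.IsThreeCycle := hg
    obtain ⟨a, ha⟩ := Finset.card_pos.1 (by rw [hg3.card_support]; norm_num : 0 < g.support.card)
    have h2 := hg3.nodup_iff_mem_support.2 ha
    have h3 := hg3.eq_swap_mul_swap_iff_mem_support.2 ha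
    simp only [List.nodup_cons, List.mem_cons, not_or, List.not_mem_nil] at h2
    refine ⟨fun i => Units.mk0 ω hω0 ^ ex (g a) a (g (g a)) i, (pres_iff hF hω _ _).2 ?_⟩
    convert three hF hω (Ne.symm h2.1.1) h2.2.1.1 h2.1.2.1 using 2
    · rename_i i
      rw [Equiv.symm_apply_eq]
      refine Eq.trans ?_ (congrArg (fun k : Equiv.Perm (Fin 6) => k _) h3).symm
      simp [Equiv.swap_comm a]
    · simp
  have h2 : S = alternatingGroup (Fin 6) := by
    refine le_antisymm (fun σ hσ => ?_) h1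
    by_contra h
    have h3 : Equiv.swap (0 : Fin 6) 1 * σ⁻¹ ∈ alternatingGroup (Fin 6) := by
      rw [Equiv.Perm.mem_alternatingGroup] at h ⊢
      rw [map_mul, Equiv.Perm.sign_inv, Equiv.Perm.sign_swap (by decide),
        (Int.units_eq_one_or _).resolve_left h]
      rfl
    obtain ⟨c, hc⟩ := mul_mem (h1 h3) hσ
    rw [inv_mul_cancel_right] at hc
    have h4 := (pres_iff hF hω _ _).1 hc
    rw [Equiv.symm_swap] at h4
    exact (c 0).ne_zero (not_swap hF hω h4)
  refine ⟨?_, hd, congrArg SetLike.coe h2⟩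
  choose s hs using fun σ : S => σ.2
  let φ : S × Fˣ → {f : Equiv.Perm (Fin 6) × (Fin 6 → Fˣ) //
      ∀ x ∈ hexacode F ω, monomialMap f.1 f.2 x ∈ hexacode F ω} := fun p =>
    ⟨(p.1, fun i => p.2 * s p.1 i), fun x hx => by
      have : monomialMap (p.1 : Equiv.Perm (Fin 6)) (fun i => p.2 * s p.1 i) x =
          (p.2 : F) • monomialMap (p.1 : Equiv.Perm (Fin 6)) (s p.1) x := by
        funext i; simp [monomialMap, mul_assoc]
      rw [this]
      exact Submodule.smul_mem _ _ (hs p.1 x hx)⟩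
  have hφ : Function.Bijective φ := by
    constructor
    · rintro ⟨σ, u⟩ ⟨τ, v⟩ h
      have h3 := Prod.ext_iff.1 (Subtype.ext_iff.1 h)
      obtain rfl : σ = τ := Subtype.ext h3.1
      exact Prod.ext rfl (mul_right_cancel (congrFun h3.2 0))
    · rintro ⟨⟨σ, c⟩, h⟩
      have hσ : σ ∈ S := ⟨c, h⟩
      have h3 := hd (fun i => c i * s ⟨σ, hσ⟩⁻¹ (σ.symm i)) fun x hx => by
        have := h _ (hs ⟨σ, hσ⟩⁻¹ x hx)
        rwa [comp, Subgroup.coe_inv, mul_inv_cancel] at this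
      have h4 := hd (fun i => s ⟨σ, hσ⟩ i * s ⟨σ, hσ⟩⁻¹ (σ.symm i)) fun x hx => by
        have := hs ⟨σ, hσ⟩ _ (hs ⟨σ, hσ⟩⁻¹ x hx)
        rwa [comp, Subgroup.coe_inv, mul_inv_cancel] at this
      refine ⟨(⟨σ, hσ⟩, c 0 * (s ⟨σ, hσ⟩ 0)⁻¹), Subtype.ext (Prod.ext rfl (funext fun i => ?_))⟩
      have h5 := h3 i 0
      have h6 := h4 i 0
      apply mul_right_cancel (b := s ⟨σ, hσ⟩⁻¹ (σ.symm i))
      simp only [φ] at h5 h6 ⊢
      rw [h5, mul_assoc, h6, mul_assoc, inv_mul_cancel_left]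
  rw [← Nat.card_eq_of_bijective φ hφ, Nat.card_prod, h2, Nat.card_units, Nat.card_eq_fintype_card (α := F), hF]
  have := two_mul_nat_card_alternatingGroup (α := Fin 6)
  rw [Nat.card_perm, Nat.card_fin] at this
  simp only [Nat.factorial] at this
  omega

end Cfsg.Agent.S1611
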