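import Mathlib
import Cfsg.Statements.S1612
import Cfsg.Agent.Lib.ThreeTrans.Rank3

set_option autoImplicit false
open Cfsg

namespace Cfsg.Agent.S1612

open CfsgLib.ThreeTrans

theorem cj_mem_normalizer {G : Type*} [Group G] {E : Set G} {g : G} (h : cj g E = E) :
    g ∈ Subgroup.normalizer E := by
  rw [Subgroup.mem_set_normalizer_iff]
  intro x
  constructor
  · intro hx
    rw [← h]
    exact cj_mem hx
  · intro hx
    rw [← h, mem_cj] at hx
    simpa [mul_assoc] using hx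

/-- In a 3-transposition group (no solvable normal subgroup, perfect derived group), the normaliser of a commuting set of transpositions of maximum size contains a Sylow 2-subgroup and is doubly transitive on the set. -/
theorem result {G : Type*} [Group G] [Finite G] (hsol : ∀ N : Subgroup G, N.Normal → Group.IsSolvable ↥N → N = ⊥) (hperf : ⁅commutator G, commutator G⁆ = commutator G) {D : Set G} (hD : Cfsg.IsThreeTranspositionClass D) {E : Set G} (hE : E ⊆ D) (hc : ∀ a ∈ E, ∀ b ∈ E, Commute a b) (hmax : ∀ E' : Set G, E' ⊆ D → (∀ a ∈ E', ∀ b ∈ E', Commute a b) → E'.ncard ≤ E.ncard) : (∃ P : Sylow 2 G, (P : Subgroup G) ≤ Subgroup.normalizer E) ∧ ∀ a ∈ E, ∀ b ∈ E, ∀ c ∈ E, ∀ d ∈ E, a ≠ b → c ≠ d → ∃ g ∈ Subgroup.normalizer E, g * a * g⁻¹ = c ∧ g * b * g⁻¹ = d := by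
  have h := (prim_of_fischer hsol hperf hD).1
  have hG := h.grp
  have hmax' : ∀ X : Set G, X ⊆ D → E ⊆ X → (∀ a ∈ X, ∀ b ∈ X, Commute a b) → X = E :=
    fun X h1 h2 h3 => (Set.eq_of_subset_of_ncard_le h2 (hmax X h1 h3)).symm
  constructor
  · obtain ⟨T, hT⟩ := exists_sylow_of_commute h.set hE hc
    have h1 := hmax' {d | d ∈ D ∧ d ∈ (T : Subgroup G)} (fun _ h => h.1) (fun x hx => ⟨hE hx, hT hx⟩)
      (commute_of_mem_two h.set T.isPGroup')
    refine ⟨T, fun g hg => cj_mem_normalizer ?_⟩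
    refine Set.eq_of_subset_of_ncard_le ?_ (ncard_cj g E).ge
    rintro _ ⟨x, hx, rfl⟩
    rw [← h1]
    exact ⟨hG.2.1 g x (hE hx), T.1.mul_mem (T.1.mul_mem hg (hT hx)) (T.1.inv_mem hg)⟩
  · intro a ha b hb c hc' d hd hab hcd
    obtain ⟨g, h1, h2⟩ := h.trans_pair (b := b) (e := d) (hE ha) (hE hc') ⟨hE hb, hab.symm, hc a ha b hb⟩
      ⟨hE hd, hcd.symm, hc c hc' d hd⟩
    have hC : ∀ X : Set G, (∀ a ∈ X, ∀ b ∈ X, Commute a b) → c ∈ X → d ∈ X →
        X ⊆ Subgroup.centralizer ({c, d} : Set G) := by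
      intro X hX h3 h4 x hx
      rw [SetLike.mem_coe, Subgroup.mem_centralizer_iff]
      rintro y (rfl | rfl)
      · exact hX _ h3 x hx
      · exact hX _ h4 x hx
    have hcj : ∀ a ∈ cj g E, ∀ b ∈ cj g E, Commute a b := by
      rintro _ ⟨x, hx, rfl⟩ _ ⟨y, hy, rfl⟩
      exact (commute_conj_iff g x y).2 (hc x hx y hy)
    obtain ⟨k, hk, h3⟩ := exists_conj_of_max h.set hG.2.1 (Subgroup.centralizer ({c, d} : Set G))
      (cj_subset hG.2.1 hE g) hE (hC _ hcj (h1 ▸ cj_mem ha) (h2 ▸ cj_mem hb)) (hC _ hc hc' hd) hcj hc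
      (fun X h1 _ h2 h3 => hmax' X h1 h2 h3)
    rw [← cj_mul] at h3
    rw [Subgroup.mem_centralizer_iff] at hk
    refine ⟨k * g, cj_mem_normalizer (Set.eq_of_subset_of_ncard_le h3 (ncard_cj _ E).ge), ?_, ?_⟩
    · have : k * g * a * (k * g)⁻¹ = k * (g * a * g⁻¹) * k⁻¹ := by group
      rw [this, h1, ← hk c (by simp), mul_inv_cancel_right]
    · have : k * g * b * (k * g)⁻¹ = k * (g * b * g⁻¹) * k⁻¹ := by group
      rw [this, h2, ← hk d (by simp), mul_inv_cancel_right]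

end Cfsg.Agent.S1612
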