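import Mathlib
import Cfsg.Statements.S1615
import Cfsg.Agent.Lib.FTHM.SymA
import Cfsg.Agent.Lib.Core.Cores

set_option autoImplicit false
open Cfsg

namespace Cfsg.Agent.S1615

open CfsgLib.ThreeTrans CfsgLib.FTHM Subgroup

theorem weq_odd {G : Type*} [Group G] {D : Set G} (hD : IsThreeTranspositionSet D) {N : Subgroup G} [N.Normal]
    (hN : Odd (Nat.card N)) {a b : G} (ha : a ∈ D) (hb : b ∈ D) (hab : a * b ∈ N) : Weq D a b := by
  have odd : ∀ a ∈ D, ∀ b ∈ D, a * b ∈ N → Commute a b → a = b := by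
    intro a ha b hb h hc
    by_contra hne
    have h1 := orderOf_dvd_natCard (⟨a * b, h⟩ : N)
    rw [← orderOf_coe, orderOf_mul_of_commute hD ha hb hne hc] at h1
    exact (Nat.not_even_iff_odd.2 hN) (even_iff_two_dvd.2 h1)
  have key : ∀ a ∈ D, ∀ b ∈ D, a * b ∈ N → ∀ e ∈ D, e ≠ a ∧ Commute a e → e ≠ b ∧ Commute b e := by
    intro a ha b hb hab e he h
    constructor
    · rintro rfl
      exact h.1 (odd _ ha _ he hab h.2).symm
    by_contra h2
    have := (mul_mem_of_commute_of_not hD ha hb he hab h.2.symm fun h => h2 h.symm).1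
    exact h.1 (odd _ he _ ha this h.2.symm)
  have hba : b * a ∈ N := by
    have := N.inv_mem hab
    rwa [mul_inv_rev, inv_eq hD ha, inv_eq hD hb] at this
  exact fun e he => ⟨key a ha b hb hab e he, key b hb a ha hba e he⟩


/-- If O(⟨D_x⟩) is not central in ⟨D_x⟩ for some transposition x, the 3-transposition group is the symmetric group of degree 5. -/
theorem result {G : Type*} [Group G] [Finite G] (hsol : ∀ N : Subgroup G, N.Normal → Group.IsSolvable ↥N → N = ⊥) (hperf : ⁅commutator G, commutator G⁆ = commutator G) {D : Set G} (hD : Cfsg.IsThreeTranspositionClass D) (x : G) (hx : x ∈ D) (h : ¬ Cfsg.oddCore ↥(Subgroup.closure {y : G | y ∈ D ∧ y ≠ x ∧ Commute x y}) ≤ Subgroup.center ↥(Subgroup.closure {y : G | y ∈ D ∧ y ≠ x ∧ Commute x y})) : Nonempty (G ≃* Equiv.Perm (Fin 5)) := by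
  have hP := kprim_of_prim (prim_of_fischer hsol hperf hD).1
  have hW : LocW D := by
    by_contra hn
    refine h ((le_center_iff (closure_sub (perp D x))).2 fun g hg d hd => ?_)
    have hT := tt_sub (hP.tt.perp' x)
    have hd' : g * d * g⁻¹ ∈ CfsgLib.FTHM.sub (perp D x) := hT.conj_mem (by rw [closure_sub]; trivial) hd
    have := weq_odd hT.set (CfsgLib.Core.odd_card_oddCore _) hd hd' (mul_conj_mem (sq hT.set hd) hg)
    by_contra hne
    exact hn ⟨x, hx, _, hd, _, hd', fun e => hne (Subtype.ext e).symm,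
      (weq_kiso (kiso_sub _) hT (hP.tt.perp' x).set hd hd').2 this⟩
  obtain ⟨φ, h1, h2⟩ := symT_iff.1 (a1 hP hW)
  obtain ⟨e⟩ := equiv_of_swaps h1 h2.symm
  exact ⟨(topEquiv.symm.trans (MulEquiv.subgroupCongr hD.2.2.symm)).trans e⟩

end Cfsg.Agent.S1615
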