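import Cfsg.Statements.S1617
import Cfsg.Agent.Lib.PTrans.Main
import Cfsg.Agent.Lib.Invol.BaerSuzuki
import Cfsg.Agent.Lib.FT.OddOrder
import Cfsg.Agent.Lib.Coprime.Action

set_option autoImplicit false
open Cfsg

namespace Cfsg.Agent.S1617

open Subgroup CfsgLib CfsgLib.ThreeTrans CfsgLib.PTrans

def Orb {G : Type*} [Group G] (x a b : G) : Prop := ∃ g : G, Commute g x ∧ g * a * g⁻¹ = b

section
variable {G : Type*} [Group G] {D : Set G}

theorem Orb.symm {x a b : G} (h : Orb x a b) : Orb x b a :=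
  let ⟨g, hg, e⟩ := h; ⟨g⁻¹, hg.inv_left, by rw [← e]; group⟩

theorem Orb.trans {x a b c : G} (h : Orb x a b) (h' : Orb x b c) : Orb x a c :=
  let ⟨g, hg, e⟩ := h; let ⟨g', hg', e'⟩ := h'; ⟨g' * g, hg'.mul_left hg, by rw [← e', ← e]; group⟩

theorem ord_conj (g a : G) : orderOf (g * a * g⁻¹) = orderOf a := (MulAut.conj g).orderOf_eq a

theorem Orb.ord {x a b : G} (h : Orb x a b) : orderOf (x * a) = orderOf (x * b) := by
  obtain ⟨g, hg, rfl⟩ := h
  rw [← ord_conj g, ← mul_assoc g, hg.eq]; simp only [mul_assoc]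

theorem pow_mem' (hc : ∀ g : G, ∀ d ∈ D, g * d * g⁻¹ ∈ D) {x y : G} (hx : x ∈ D) (hy : y ∈ D) (x2 : x * x = 1)
    (y2 : y * y = 1) (j : ℕ) : x * (x * y) ^ j ∈ D := by
  induction j using Nat.twoStepInduction with
  | zero => simpa using hx
  | one => simpa [← mul_assoc, x2] using hy
  | more j h _ =>
    have := hc (x * y)⁻¹ _ h
    have e : (x * y)⁻¹ * x = x * (x * y) := by
      rw [mul_inv_rev, mul_assoc, inv_mul_cancel, mul_one, ← mul_assoc, x2, one_mul, inv_eq_of_mul_eq_one_left y2]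
    rwa [inv_inv, ← mul_assoc _ x ((x * y) ^ j), e, mul_assoc x, mul_assoc x, ← pow_succ', ← pow_succ] at this

theorem exists_ord [Finite G] (hc : ∀ g : G, ∀ d ∈ D, g * d * g⁻¹ ∈ D) {x y : G} (hx : x ∈ D) (hy : y ∈ D)
    (x2 : x * x = 1) (y2 : y * y = 1) {n : ℕ} (hn : n ∣ orderOf (x * y)) : ∃ v ∈ D, orderOf (x * v) = n :=
  ⟨_, pow_mem' hc hx hy x2 y2 (orderOf (x * y) / n), by
    rw [← mul_assoc, x2, one_mul, orderOf_pow_orderOf_div (orderOf_pos _).ne' hn]⟩

/-- the case `p ≠ 3` cannot occur -/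
theorem not_ne_three [Finite G] {p : ℕ} (h : PT p D) (h3 : p ≠ 3) (hO : pCore 2 G = ⊥)
    (hc : ∀ g : G, ∀ d ∈ D, g * d * g⁻¹ ∈ D) (cl : ∀ a ∈ D, ∀ b ∈ D, ∃ g : G, g * a * g⁻¹ = b)
    (hgen : closure D = ⊤) (ex : ∃ x ∈ D, ∃ z ∈ D, x ≠ z ∧ Commute x z)
    (o1 : ∀ x ∈ D, ∀ a ∈ D, ∀ b ∈ D, a ≠ x → b ≠ x → Commute x a → Commute x b → Orb x a b)
    (o2 : ∀ x ∈ D, ∀ a ∈ D, ∀ b ∈ D, ¬ Commute x a → ¬ Commute x b → Orb x a b) : False := by
  by_cases tr : ∀ a ∈ D, ∀ b ∈ D, ∀ c ∈ D, Commute a b → Commute b c → Commute a c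
  · obtain ⟨x, hx, z, hz, hne, hxz⟩ := ex
    have vq : ∀ a ∈ D, ∀ b ∈ D, Commute a b → Veq D a b := fun a ha b hb hab e he =>
      ⟨tr b hb a ha e he hab.symm, tr a ha b hb e he hab⟩
    have := relKer_normal hc (Veq D) Veq.refl (fun _ _ => Veq.symm) (fun _ _ _ => Veq.trans)
      fun g a b hab => hab.conj fun d hd => by simpa using hc g⁻¹ d hd
    have hE : IsPGroup 2 (closure {d | d ∈ D ∧ Commute x d}) :=
      isPGroup_closure_of_commute (fun a ha => h.sq ha.1) fun a ha b hb => tr a ha.1 x hx b hb.1 ha.2.symm hb.2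
    have key := inf_le_pCore (K := relKer D hc (Veq D) Veq.refl (fun _ _ => Veq.symm) (fun _ _ _ => Veq.trans)) hE
      (fun g hg a ha => by
        have : closure {d | d ∈ D ∧ Commute x d} ≤ (closure {d | d ∈ D ∧ Commute x d}).comap (MulAut.conj g).toMonoidHom :=
          (closure_le _).2 fun d hd => subset_closure
            (show g * d * g⁻¹ ∈ _ from ⟨hc g d hd.1, (((hg d hd.1) x hx).2 hd.2.symm).symm⟩)
        exact this ha)
      (show x * z ∈ _ from ⟨mul_mem (subset_closure ⟨hx, Commute.refl x⟩) (subset_closure ⟨hz, hxz⟩), fun e he => by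
        refine vq _ (hc _ e he) e he ?_
        by_cases hxe : Commute x e
        · rw [(hxe.mul_left (tr z hz x hx e he hxz.symm hxe)).eq, mul_inv_cancel_right]
        · have := (commute_conj_left_iff (h.sq hx) _ _).1 (h.tri_of_trans tr hx hz he hxz hxe)
          rw [mul_inv_rev, h.inv hx, h.inv hz]
          simpa only [mul_assoc] using this.symm⟩)
    rw [hO, mem_bot] at key
    exact hne (h.eq_of_mul hx key)
  push Not at tr
  obtain ⟨z, hz, x, hx, z', hz', hzx, hxz', hzz'⟩ := tr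
  have hxz : x ≠ z := fun e => hzz' (e ▸ hxz')
  obtain ⟨w, hw, hwz, hzw, hwz'⟩ : ∃ w ∈ D, w ≠ z ∧ Commute z w ∧ ¬ Commute w z' := by
    by_contra! H
    have H' : ∀ w ∈ D, w ≠ z → Commute z w → ∀ s ∈ D, (s = z ∨ ¬ Commute z s) → Commute w s := by
      rintro w hw h1 h2 s hs (rfl | h3)
      · exact h2.symm
      · obtain ⟨g, hg, rfl⟩ := o2 z hz z' hz' s hs hzz' h3
        have e : g⁻¹ * z * g = z := by rw [mul_assoc, ← hg.eq, inv_mul_cancel_left]
        refine ((commute_conj_left_iff' g z' w).2 (H _ (by simpa using hc g⁻¹ w hw) (fun e' => h1 ?_) ?_).symm).symm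
        · rw [← e] at e'; simpa using e'
        · rw [← e]; simpa using (commute_conj_iff g⁻¹ z w).2 h2
    have base : ∀ d ∈ D, ∀ s ∈ D, (s = z ∨ ¬ Commute z s) → (d * s * d⁻¹ = z ∨ ¬ Commute z (d * s * d⁻¹)) := by
      intro d hd s hs h1
      by_contra! h2
      by_cases h4 : d = z ∨ ¬ Commute z d
      · have := H' _ (hc d s hs) h2.1 h2.2 d hd h4
        rw [commute_conj_left_iff', inv_mul_cancel, one_mul] at this
        rw [← this.eq, mul_inv_cancel_right] at h2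
        exact h1.elim h2.1 fun h => h h2.2
      · push Not at h4
        rw [(H' d hd h4.1 h4.2 s hs h1).eq, mul_inv_cancel_right] at h2
        exact h1.elim h2.1 fun h => h h2.2
    have inv : ∀ g : G, ∀ s ∈ D, (s = z ∨ ¬ Commute z s) → (g * s * g⁻¹ = z ∨ ¬ Commute z (g * s * g⁻¹)) := by
      intro g
      have hg : g ∈ closure D := hgen ▸ mem_top g
      induction hg using closure_induction'' with
      | one => simp
      | mem d hd => exact base d hd
      | inv_mem d hd => exact base _ ((h.inv hd).symm ▸ hd)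
      | mul a b _ _ ha hb =>
        intro s hs h1
        simpa only [mul_inv_rev, mul_assoc] using ha _ (hc b s hs) (hb s hs h1)
    obtain ⟨g, rfl⟩ := cl z hz x hx
    exact (inv g z hz (Or.inl rfl)).elim hxz fun h => h hzx
  have hxw : Commute x w := by
    by_contra hn
    exact h.no_path h3 hx hw hz' hz hn hwz' (fun e => hzz' e.symm) hxz' hzx.symm hzw.symm
  have sub : {v | v ∈ D ∧ Commute w v ∧ ¬ Commute z v} ⊆ {v | v ∈ D ∧ Commute x v ∧ ¬ Commute z v} :=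
    fun v ⟨hv, h1, h2⟩ => ⟨hv, by
      by_contra hn
      by_cases h4 : Commute v z'
      · exact h.no_path h3 hx hv hz hz' hn (fun e => h2 e.symm) hzz' hzx.symm hxz' h4
      · exact h.no_path h3 hx hv hz' hw hn h4 (fun e => hwz' e.symm) hxz' hxw h1.symm, h2⟩
  obtain ⟨g, hg, e⟩ := o1 z hz x hx w hw hxz hwz hzx hzw
  have ez : g * z * g⁻¹ = z := by rw [hg.eq, mul_inv_cancel_right]
  have le : {v | v ∈ D ∧ Commute x v ∧ ¬ Commute z v}.ncard ≤ {v | v ∈ D ∧ Commute w v ∧ ¬ Commute z v}.ncard :=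
    Set.ncard_le_ncard_of_injOn (fun a => g * a * g⁻¹) (fun a ha => ⟨hc g a ha.1,
      by rw [← e, commute_conj_iff]; exact ha.2.1, by rw [← ez, commute_conj_iff]; exact ha.2.2⟩)
      fun a _ a' _ e => by simpa using e
  exact hwz' (show z' ∈ {v | v ∈ D ∧ Commute w v ∧ ¬ Commute z v} from
    Set.eq_of_subset_of_ncard_le sub le ▸ ⟨hz', hxz', hzz'⟩).2.1

end

/-- A generating conjugacy class of involutions on which the group (with trivial solvable radical) acts with rank 3 is a class of 3-transpositions. -/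
theorem result {G : Type*} [Group G] [Finite G] (hsol : ∀ N : Subgroup G, N.Normal → Group.IsSolvable ↥N → N = ⊥) {D : Set G} (hinv : ∀ d ∈ D, orderOf d = 2) (hconj : ∃ d ∈ D, D = conjugatesOf d) (hgen : Subgroup.closure D = ⊤) (hrank : ∀ x ∈ D, ∃ y ∈ D, ∃ z ∈ D, {w : G | ∃ g : G, Commute g x ∧ g * y * g⁻¹ = w} ≠ {w : G | ∃ g : G, Commute g x ∧ g * x * g⁻¹ = w} ∧ {w : G | ∃ g : G, Commute g x ∧ g * z * g⁻¹ = w} ≠ {w : G | ∃ g : G, Commute g x ∧ g * x * g⁻¹ = w} ∧ {w : G | ∃ g : G, Commute g x ∧ g * y * g⁻¹ = w} ≠ {w : G | ∃ g : G, Commute g x ∧ g * z * g⁻¹ = w} ∧ D = {w : G | ∃ g : G, Commute g x ∧ g * x * g⁻¹ = w} ∪ {w : G | ∃ g : G, Commute g x ∧ g * y * g⁻¹ = w} ∪ {w : G | ∃ g : G, Commute g x ∧ g * z * g⁻¹ = w}) : Cfsg.IsThreeTranspositionClass D := by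
  obtain ⟨d, hd, hD⟩ := hconj
  have hc : ∀ g : G, ∀ e ∈ D, g * e * g⁻¹ ∈ D := fun g e he => by
    rw [hD] at he ⊢; exact IsConj.trans he (isConj_iff.2 ⟨g, rfl⟩)
  have cl : ∀ a ∈ D, ∀ b ∈ D, ∃ g : G, g * a * g⁻¹ = b := fun a ha b hb => by
    rw [hD] at ha hb; exact isConj_iff.1 (IsConj.trans (IsConj.symm ha) hb)
  have sq : ∀ a ∈ D, a * a = 1 := fun a ha => Invol.mul_self_of_orderOf_two (hinv a ha)
  have := Fact.mk Nat.prime_two
  have hO : pCore 2 G = ⊥ := hsol _ inferInstance (Coprime.isSolvable_of_isPGroup (Core.isPGroup_pCore 2 G))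
  have two : ∀ x ∈ D, ∀ a ∈ D, ∀ b ∈ D, ∀ v ∈ D, a ≠ x → b ≠ x → v ≠ x → orderOf (x * a) ≠ orderOf (x * b) →
      Orb x a v ∨ Orb x b v := fun x hx a ha b hb v hv h1 h2 h3 hn => by
    obtain ⟨y, -, z, -, -, -, -, e⟩ := hrank x hx
    have k : ∀ v ∈ D, v ≠ x → Orb x y v ∨ Orb x z v := fun v hv hne => by
      rw [e] at hv
      rcases hv with (⟨g, hg, rfl⟩ | hv) | hv
      · exact absurd (by rw [hg.eq, mul_inv_cancel_right]) hne
      · exact Or.inl hv
      · exact Or.inr hv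
    rcases k a ha h1 with ka | ka <;> rcases k b hb h2 with kb | kb <;> rcases k v hv h3 with kv | kv
    all_goals first
      | exact absurd (ka.symm.trans kb).ord hn
      | exact Or.inl (ka.symm.trans kv)
      | exact Or.inr (kb.symm.trans kv)
  have tp : ∀ n, (∃ v ∈ D, orderOf (d * v) = n) → ∀ x ∈ D, ∃ v ∈ D, orderOf (x * v) = n := by
    rintro n ⟨v, hv, rfl⟩ x hx
    obtain ⟨g, rfl⟩ := cl d hd x hx
    exact ⟨_, hc g v hv, by rw [← ord_conj g (d * v)]; congr 1; group⟩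
  have e2 : ∀ x ∈ D, ∃ v ∈ D, orderOf (x * v) = 2 := tp 2 (by
    by_contra H
    obtain ⟨N, hN, hodd, hcomm⟩ := exists_odd_normal_of_zstar zstar d (hinv d hd) fun g => by
      by_contra he
      exact H (exists_ord hc hd (hc g d hd) (sq d hd) (sq _ (hc g d hd))
        (even_iff_two_dvd.1 (Nat.not_odd_iff_even.1 he)))
    rw [hsol N hN (FT.odd_order_solvable hodd)] at hcomm
    obtain ⟨y, hy, -, -, hne, -⟩ := hrank d hd
    obtain ⟨g, rfl⟩ := cl d hd y hy
    have : d * g = g * d := by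
      have := mem_bot.1 (hcomm g)
      rwa [mul_inv_eq_one, mul_inv_eq_iff_eq_mul] at this
    exact hne (by rw [← this, mul_inv_cancel_right]))
  obtain ⟨p, hp, hp2, ep⟩ : ∃ p : ℕ, p.Prime ∧ p ≠ 2 ∧ ∀ x ∈ D, ∃ v ∈ D, orderOf (x * v) = p := by
    obtain ⟨g, y, hy, h1, hodd, -⟩ := Invol.exists_inverted_of_not_mem_pCore (sq d hd) (by
      rw [hO, mem_bot]; exact Invol.ne_one_of_orderOf_two (hinv d hd))
    obtain ⟨p, hp, hpy⟩ := Nat.exists_prime_and_dvd (mt orderOf_eq_one_iff.1 h1)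
    exact ⟨p, hp, fun e => by subst e; exact (Nat.not_even_iff_odd.2 hodd) (even_iff_two_dvd.2 hpy),
      tp p (exists_ord hc hd (hc g d hd) (sq d hd) (sq _ (hc g d hd)) (hpy.trans (orderOf_dvd_of_mem_zpowers hy)))⟩
  have cm : ∀ x ∈ D, ∀ v ∈ D, orderOf (x * v) = 2 → Commute x v := fun x hx v hv e =>
    commute_of_sq (sq x hx) (sq v hv) (e ▸ pow_orderOf_eq_one _)
  have alt : ∀ x ∈ D, ∃ a ∈ D, ∃ b ∈ D, orderOf (x * a) = 2 ∧ orderOf (x * b) = p ∧
      ∀ v ∈ D, v ≠ x → Orb x a v ∨ Orb x b v := fun x hx => by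
    obtain ⟨a, ha, ea⟩ := e2 x hx
    obtain ⟨b, hb, eb⟩ := ep x hx
    refine ⟨a, ha, b, hb, ea, eb, fun v hv hne => two x hx a ha b hb v hv ?_ ?_ hne (by rw [ea, eb]; exact hp2.symm)⟩
    · rintro rfl; rw [sq a ha, orderOf_one] at ea; exact absurd ea (by decide)
    · rintro rfl; rw [sq b hb, orderOf_one] at eb; exact hp.one_lt.ne eb
  have h : PT p D := ⟨hp, hp2, hinv, fun x hx v hv hn => by
    obtain ⟨a, ha, b, hb, ea, eb, H⟩ := alt x hx
    rcases H v hv (fun e => hn (e ▸ Commute.refl _)) with o | o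
    · exact absurd (cm x hx v hv (o.ord ▸ ea)) hn
    · rw [← eb, o.ord]; exact pow_orderOf_eq_one _,
    fun a ha b hb => by simpa only [inv_eq_of_mul_eq_one_left (sq a ha)] using hc a b hb⟩
  obtain rfl : p = 3 := by
    by_contra h3
    refine not_ne_three h h3 hO hc cl hgen ?_ (fun x hx v hv v' hv' h1 h1' h2 h2' => ?_) fun x hx v hv v' hv' h2 h2' => ?_
    · obtain ⟨v, hv, e⟩ := e2 d hd
      exact ⟨d, hd, v, hv, by rintro rfl; rw [sq d hd, orderOf_one] at e; exact absurd e (by decide), cm d hd v hv e⟩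
    · obtain ⟨a, ha, b, hb, ea, eb, H⟩ := alt x hx
      have k : ∀ v ∈ D, v ≠ x → Commute x v → Orb x a v := fun v hv h1 h2 => (H v hv h1).resolve_right fun o =>
        h1 (h.eq_of_pow hx hv h2 h.odd (by rw [← eb, o.ord]; exact pow_orderOf_eq_one _)).symm
      exact (k v hv h1 h2).symm.trans (k v' hv' h1' h2')
    · obtain ⟨a, ha, b, hb, ea, eb, H⟩ := alt x hx
      have k : ∀ v ∈ D, ¬ Commute x v → Orb x b v := fun v hv h2 =>
        (H v hv fun e => h2 (e ▸ Commute.refl _)).resolve_left fun o => h2 (cm x hx v hv (o.ord ▸ ea))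
      exact (k v hv h2).symm.trans (k v' hv' h2')
  refine ⟨⟨hinv, fun a ha b hb => ?_⟩, ⟨d, hd, hD⟩, hgen⟩
  by_cases hab : Commute a b
  · exact Or.inl (sq_of_commute (sq a ha) (sq b hb) hab)
  · exact Or.inr (h.pow a ha b hb hab)

end Cfsg.Agent.S1617
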