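import Mathlib
import Cfsg.Statements.S1618
import Cfsg.Agent.Lib.ThreeTrans.ZInst
import Cfsg.Agent.Lib.ThreeTrans.Width

set_option autoImplicit false
open Cfsg

namespace Cfsg.Agent.S1618



/-- A group generated by a class of involutions whose pairwise products (of distinct members) have p-power order for a fixed odd prime p has nilpotent derived subgroup. -/
theorem result {G : Type*} [Group G] [Finite G] (p : ℕ) (hp : p.Prime) (hodd : p ≠ 2) {D : Set G} (hinv : ∀ d ∈ D, orderOf d = 2) (hconj : ∃ d ∈ D, D = conjugatesOf d) (hgen : Subgroup.closure D = ⊤) (hprod : ∀ x ∈ D, ∀ y ∈ D, x ≠ y → ∃ k : ℕ, orderOf (x * y) = p ^ k) : Group.IsNilpotent ↥(commutator G) := by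
  obtain ⟨d, hd, rfl⟩ := hconj
  have hF : Fact p.Prime := ⟨hp⟩
  have key := CfsgLib.ThreeTrans.mul_mem_pCore_of_zstar CfsgLib.ThreeTrans.zstar hp hodd d (hinv d hd) fun g => by
    by_cases h : d = g * d * g⁻¹
    · refine ⟨0, ?_⟩
      rw [← h, pow_zero, pow_one, ← pow_two, ← hinv d hd, pow_orderOf_eq_one]
    · obtain ⟨k, hk⟩ := hprod d hd (g * d * g⁻¹) (isConj_iff.2 ⟨g, rfl⟩) h
      exact ⟨k, by rw [← hk, pow_orderOf_eq_one]⟩
  have hsq : ∀ a ∈ conjugatesOf d, a * a = 1 := fun a ha => by
    rw [← pow_two, ← hinv a ha, pow_orderOf_eq_one]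
  have hle : commutator G ≤ Cfsg.pCore p G := by
    have hc : ∀ x y : G ⧸ Cfsg.pCore p G, x * y = y * x := by
      have h1 : ∀ a ∈ conjugatesOf d, (a : G ⧸ Cfsg.pCore p G) = (d : G ⧸ Cfsg.pCore p G) := by
        intro a ha
        rw [QuotientGroup.eq, inv_eq_of_mul_eq_one_right (hsq a ha)]
        exact key a ha d hd
      have h2 : ∀ x : G, (x : G ⧸ Cfsg.pCore p G) ∈ Subgroup.zpowers (d : G ⧸ Cfsg.pCore p G) := by
        intro x
        have : Subgroup.closure (conjugatesOf d) ≤
            (Subgroup.zpowers (d : G ⧸ Cfsg.pCore p G)).comap (QuotientGroup.mk' _) := by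
          rw [Subgroup.closure_le]
          intro a ha
          change (a : G ⧸ Cfsg.pCore p G) ∈ Subgroup.zpowers (d : G ⧸ Cfsg.pCore p G)
          rw [h1 a ha]
          exact Subgroup.mem_zpowers _
        exact this (hgen ▸ Subgroup.mem_top x)
      intro x y
      induction x using QuotientGroup.induction_on with | H x => ?_
      induction y using QuotientGroup.induction_on with | H y => ?_
      obtain ⟨i, hi⟩ := h2 x
      obtain ⟨j, hj⟩ := h2 y
      rw [← hi, ← hj]
      exact (Commute.zpow_zpow_self _ i j).eq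
    rw [commutator_def, Subgroup.commutator_le]
    intro x _ y _
    rw [← QuotientGroup.eq_one_iff, commutatorElement_def]
    simp only [QuotientGroup.mk_mul, QuotientGroup.mk_inv]
    rw [hc (x : G ⧸ Cfsg.pCore p G) y]
    group
  exact ((CfsgLib.Core.isPGroup_pCore (p := p) G).to_le hle).isNilpotent

end Cfsg.Agent.S1618
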