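import Cfsg.Statements.S1621
import Cfsg.Agent.Lib.J2.Iso

set_option autoImplicit false
open Quaternion
open Cfsg

namespace Cfsg.Agent.S1621

open CfsgLib.J2 CfsgLib.Comput Cfsg.Spor

theorem UL_ok : UL.length = 120 ∧ (UL.map fun n => eI (dI n)).Nodup :=
  ⟨by decide +kernel, nodupB_sound (by decide +kernel)⟩

theorem card_units : {u : ℍ[ℝ] | u ∈ icosians ∧ normSq u = 1}.ncard = 120 := by
  have h1 : {u : ℍ[ℝ] | u ∈ icosians ∧ normSq u = 1} = (fun n => (dI n).ev) '' (UL.toFinset : Set ℕ) := by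
    ext u
    constructor
    · rintro ⟨h1, h2⟩
      obtain ⟨x, rfl⟩ := exists_ev h1
      obtain ⟨n, hn, rfl⟩ := (small_spec x (by rw [tr_of_normSq h2]; norm_num)).2.1 (tr_of_normSq h2)
      exact ⟨n, by simpa using hn, rfl⟩
    · rintro ⟨n, hn, rfl⟩
      exact ⟨Ico.ev_mem _, normSq_of_nrm (allL_sound UL_nrm n (by simpa using hn))⟩
  rw [h1, Set.InjOn.ncard_image, Set.ncard_coe_finset, List.toFinset_card_of_nodup (UL_ok.2.of_map _), UL_ok.1]
  intro m hm n hn e
  exact List.inj_on_of_nodup_map UL_ok.2 (by simpa using hm) (by simpa using hn) (congrArg eI (Ico.ev_inj e))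

/-- The icosian Leech lattice has 37800 minimal vectors giving 315 distinct reflections. -/
theorem result : {r : Fin 3 → ℍ[ℝ] | r ∈ Cfsg.Spor.icoLeech ∧ Cfsg.Spor.qip r r = 4}.ncard = 37800 ∧ {f : Equiv.Perm ↥Cfsg.Spor.icoLeech | Cfsg.Spor.IsIcoReflection f}.ncard = 315 := by
  constructor
  · have h1 : {r : Fin 3 → ℍ[ℝ] | r ∈ icoLeech ∧ qip r r = 4} = (fun x : ℍ[ℝ] × ℕ => x.1 • rv x.2) ''
        ({u : ℍ[ℝ] | u ∈ icosians ∧ normSq u = 1} ×ˢ (Finset.range 315 : Set ℕ)) := by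
      ext r
      constructor
      · intro h
        obtain ⟨u, hu, h1, i, hi, rfl⟩ := MinV.found h
        exact ⟨(u, i), ⟨⟨hu, h1⟩, by simpa using hi⟩, rfl⟩
      · rintro ⟨⟨u, i⟩, ⟨⟨hu, h1⟩, hi⟩, rfl⟩
        exact (minV_rv (by simpa using hi)).smul hu h1
    rw [h1, Set.InjOn.ncard_image, Set.ncard_prod, card_units, Set.ncard_coe_finset, Finset.card_range]
    rintro ⟨u, i⟩ ⟨⟨hu, h1⟩, hi⟩ ⟨v, j⟩ ⟨⟨hv, h2⟩, hj⟩ e
    have hi : i < 315 := by simpa using hi
    have hj : j < 315 := by simpa using hj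
    have e : u • rv i = v • rv j := e
    obtain rfl : i = j := rf_inj i hi j hj (by
      rw [rf_def, rf_def, ← fr_smul (minV_rv hi) hu h1, e, fr_smul (minV_rv hj) hv h2])
    have h3 : rv i ≠ 0 := fun h => by
      have := qip_eq_four.1 (minV_rv hi).2
      rw [h] at this
      norm_num at this
    rw [smul_left_injective _ h3 e]
  · have h1 : {f | IsIcoReflection f} = rf '' (Finset.range 315 : Set ℕ) := by
      ext f
      simp only [Set.mem_ofPred_eq, isRefl_iff_rf, Set.mem_image, Finset.coe_range, Set.mem_Iio, eq_comm]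
    rw [h1, Set.InjOn.ncard_image, Set.ncard_coe_finset, Finset.card_range]
    intro i hi j hj
    exact rf_inj i (by simpa using hi) j (by simpa using hj)

end Cfsg.Agent.S1621
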