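import Cfsg.Statements.S1626
import Cfsg.Agent.Lib.Comput.LinNet
import Cfsg.Agent.Lib.J3.Iso

set_option autoImplicit false
open scoped MatrixGroups
open Matrix
open Cfsg

namespace Cfsg.Agent.S1626

open CfsgLib.Comput CfsgLib.J3 Cfsg.Spor

set_option maxRecDepth 100000

def ops0 : List (ℕ × ℕ) := [(8, 512), (10, 2048), (14, 32768), (16, 131072), (17, 65536), (15, 16384), (13, 4096), (12, 8192), (11, 1024), (9, 256), (7, 64), (6, 128), (5, 16), (4, 32), (3, 4), (2, 8)]
def ops1 : List (ℕ × ℕ) := [(0, 4096), (1, 8192), (2, 16384), (3, 32768), (4, 65536), (5, 131072), (6, 4097), (7, 8194), (8, 16388), (9, 32776), (10, 65552), (11, 131104), (16, 134192), (17, 67616), (15, 17164), (14, 33028), (13, 130), (12, 65), (11, 196608), (10, 131072), (9, 16384), (8, 49152), (7, 8192), (6, 4096), (5, 2048), (4, 1024), (3, 512), (2, 256), (1, 128), (0, 64)]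
def ops2 : List (ℕ × ℕ) := [(2, 65536), (3, 131072), (4, 256), (5, 512), (6, 16384), (7, 32768), (8, 16448), (9, 32896), (10, 16720), (11, 33440), (12, 17744), (13, 35488), (14, 65540), (15, 131080), (17, 43688), (16, 21844), (15, 141984), (14, 70992), (13, 131072), (12, 65536), (11, 8192), (10, 4096), (9, 2080), (8, 1040), (7, 512), (6, 256), (5, 2048), (4, 1024), (3, 32768), (2, 16384)]
def ops3 : List (ℕ × ℕ) := [(6, 4116), (7, 8232), (10, 16640), (11, 33280), (17, 33280), (16, 16640), (15, 133120), (14, 66560), (13, 128), (12, 64), (9, 133120), (8, 66560), (7, 8232), (6, 4116), (5, 8320), (4, 4160), (3, 8320), (2, 4160)]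

theorem ok0 : linOK 18 (nth [] ML 0) ops0 = true := by decide +kernel
theorem ok1 : linOK 18 (nth [] ML 2) ops1 = true := by decide +kernel
theorem ok2 : linOK 18 (nth [] ML 4) ops2 = true := by decide +kernel
theorem ok3 : linOK 18 (nth [] ML 6) ops3 = true := by decide +kernel

/-- the networks of the four generators -/
noncomputable def W : List Net := [linNet 18 ops0, linNet 18 ops1, linNet 18 ops2, linNet 18 ops3]

/-- truth table of "an odd number of the first `k` coordinates is nonzero" -/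
noncomputable def nzx (n k : ℕ) : ℕ :=
  Nat.rec 0 (fun i r => Nat.xor r (Nat.lor (col n (Nat.mul 2 i)) (col n (Nat.succ (Nat.mul 2 i))))) k

theorem closed1 : closedB (stepN W) [1, 2, 3, 4] (grow (stepN W) [1, 2, 3, 4] 8 (1 <<< 1)) = true := by
  decide +kernel
theorem pop1 : Nat.beq (pop 262144 (grow (stepN W) [1, 2, 3, 4] 8 (1 <<< 1))) 69768 = true := by decide +kernel
theorem all5 : Nat.beq (Nat.lor (Nat.lor (grow (stepN W) [1, 2, 3, 4] 7 (1 <<< 5)) (nzx 262144 9)) 1)
    (Nat.pred (Nat.shiftLeft 1 262144)) = true := by decide +kernel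

variable {F : Type} [Field F] {ω : F}

/-- the generators -/
noncomputable def gg (h : Hyp F ω) (m : ℕ) : GL F9 F := [h.g 0, h.g 2, h.g 4, h.g 6].getD m 1

/-- the vectors -/
abbrev pt (ω : F) (x : ℕ) : F9 → F := dec2 18 (e ω) x 0

theorem sm (h : Hyp F ω) : SM (gg h) 262144 (pt ω) (stepN W) := by
  refine SM.ofNets (dec2_e4_inj h.two h.om enum) (by norm_num) (acts_nth ?_)
  exact .cons (acts_linNet h.add_self (by norm_num) (h.actL.1 0 (by decide)) ok0)
    (.cons (acts_linNet h.add_self (by norm_num) (h.actL.1 2 (by decide)) ok1)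
    (.cons (acts_linNet h.add_self (by norm_num) (h.actL.1 4 (by decide)) ok2)
    (.cons (acts_linNet h.add_self (by norm_num) (h.actL.1 6 (by decide)) ok3) .nil)))

theorem cl_gg (h : Hyp F ω) : cl (gg h) [1, 2, 3, 4] = threeJ3 F ω := by
  refine le_antisymm (cl_le.2 fun w hw => ?_) ?_
  · simp only [List.mem_cons, List.not_mem_nil, or_false] at hw
    rcases hw with rfl | rfl | rfl | rfl
    · rw [ev_letter _ (m := 0) (by norm_num)]; exact h.g_mem 0
    · rw [ev_letter _ (m := 1) (by norm_num)]; exact h.g_mem 2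
    · rw [ev_letter _ (m := 2) (by norm_num)]; exact h.g_mem 4
    · rw [ev_letter _ (m := 3) (by norm_num)]; exact h.g_mem 6
  · rw [h.threeJ3_eq]
    refine cl_le.2 fun w hw => ?_
    have key : ∀ m, m < 255 → m + 1 ∈ [1, 2, 3, 4] → gg h m ∈ cl (gg h) [1, 2, 3, 4] := by
      intro m h1 h2
      have := ev_mem_cl (gg h) h2
      rwa [ev_letter _ h1] at this
    simp only [P.top, List.mem_cons, List.not_mem_nil, or_false] at hw
    rcases hw with rfl | rfl | rfl | rfl
    · rw [ev_letter _ (m := 0) (by norm_num)]; exact key 0 (by norm_num) (by decide)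
    · rw [ev_letter _ (m := 2) (by norm_num)]; exact key 1 (by norm_num) (by decide)
    · rw [ev_letter _ (m := 4) (by norm_num)]; exact key 2 (by norm_num) (by decide)
    · rw [ev_letter _ (m := 6) (by norm_num)]; exact key 3 (by norm_num) (by decide)

theorem pt_one : pt ω 1 = Pi.single (0 : F9) (1 : F) := by
  have := dec2_two_pow (d := 18) (k := 0) (e ω) (by norm_num)
  rw [pow_zero] at this
  rw [pt, this]
  simp only [e4]
  rfl

theorem ncard_orbit (h : Hyp F ω) :
    (MulAction.orbit (threeJ3 F ω) (Pi.single (0 : F9) (1 : F) : F9 → F)).ncard = 69768 := by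
  rw [← pt_one (ω := ω), ← cl_gg h, (sm h).orbit_eq (by norm_num) closed1, (sm h).ncard_sem]
  exact Nat.eq_of_beq_eq_true pop1

theorem f4_cube (h : Hyp F ω) (c : ℕ) : f4 ω c ^ 3 = if (c.testBit 0 || c.testBit 1) then 1 else 0 := by
  have h3 := omega_pow_three h.om
  rw [f4]
  cases c.testBit 0 <;> cases c.testBit 1
  · simp
  · simpa using h3
  · simp
  · simp only [if_true, Bool.or_self]
    linear_combination h3 + (3 : F) * h.om - (1 : F) * h.two

theorem sum_nzx (h : Hyp F ω) {n x : ℕ} (hx : x < n) (k : ℕ) :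
    ∑ i ∈ Finset.range k, f4 ω (dig4 x i) ^ 3 = if (nzx n k).testBit x then 1 else 0 := by
  induction k with
  | zero => simp [nzx]
  | succ k ih =>
    have e : nzx n (k + 1) = nzx n k ^^^ (col n (2 * k) ||| col n (2 * k + 1)) := rfl
    rw [Finset.sum_range_succ, ih, e, Nat.testBit_xor, Nat.testBit_or, testBit_col, testBit_col, f4_cube h,
      testBit_dig4_zero, testBit_dig4_one, decide_eq_true hx]
    cases (nzx n k).testBit x <;> cases x.testBit (2 * k) <;> cases x.testBit (2 * k + 1) <;>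
      simp [add_self_of_two h.two]

theorem sum_F9 (f : F9 → F) : ∑ z, f z = ∑ i ∈ Finset.range 9, f (idx i) := by
  rw [Finset.sum_range (fun i => f (idx i))]
  exact (Function.Bijective.sum_comp (e := fun i : Fin 9 => idx i) (by decide) f).symm

theorem iso_mem [Fintype F] (hF : Fintype.card F = 4) (h : Hyp F ω) {v : F9 → F} (hv : v ≠ 0)
    (h0 : ∑ z, (v z) ^ 3 = 0) : ∃ k ∈ threeJ3 F ω, k • pt ω 5 = v := by
  obtain ⟨x, hx, rfl⟩ := exists_dec2_e4 hF h.om enum v
  have hx' : x < 262144 := hx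
  have h1 : (nzx 262144 9).testBit x = false := by
    rw [sum_F9, Finset.sum_congr rfl (fun i hi => by rw [dec2_e4 enum x (Finset.mem_range.1 hi)]),
      sum_nzx h hx'] at h0
    revert h0
    cases (nzx 262144 9).testBit x <;> simp
  have h2 : x ≠ 0 := by rintro rfl; exact hv (dec2_zero _ _ _)
  have h3 := Nat.eq_of_beq_eq_true all5
  have h4 : (grow (stepN W) [1, 2, 3, 4] 7 (1 <<< 5)).testBit x = true := by
    generalize grow (stepN W) [1, 2, 3, 4] 7 (1 <<< 5) = S at h3
    generalize nzx 262144 9 = T at h3 h1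
    generalize 262144 = n at h3 hx'
    have h5 : (S ||| T ||| 1).testBit x = (2 ^ n - 1).testBit x := by
      rw [← Nat.one_shiftLeft]; exact congrArg (·.testBit x) h3
    rw [Nat.testBit_or, Nat.testBit_or, h1, Nat.testBit_two_pow_sub_one, decide_eq_true hx',
      show (1 : ℕ) = 2 ^ 0 from rfl, Nat.testBit_two_pow] at h5
    simpa [h2.symm] using h5
  obtain ⟨k, hk, y, hy, e⟩ := (sm h).grow_sound (K := threeJ3 F ω)
    (fun w hw => cl_gg h ▸ ev_mem_cl _ hw) 7 _ _ (((sm h).mem_sem hx').2 h4)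
  rw [sem_single _ (by norm_num)] at hy
  exact ⟨k, hk, hy ▸ e⟩

theorem ncard_lines {V : Type} [AddCommGroup V] [Module F V] [Fintype F] (hF : Fintype.card F = 4) {O : Set V}
    (hf : O.Finite) (h0 : (0 : V) ∉ O) (hc : ∀ c : Fˣ, ∀ v ∈ O, c • v ∈ O) :
    O.ncard = 3 * ((fun v => F ∙ v) '' O).ncard := by
  classical
  lift O to Finset V using hf
  rw [← Finset.coe_image, Set.ncard_coe_finset, Set.ncard_coe_finset,
    Finset.card_eq_sum_card_image (fun v => F ∙ v) O, Finset.sum_const_nat (m := 3), mul_comm]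
  intro L hL
  obtain ⟨v, hv, rfl⟩ := Finset.mem_image.1 hL
  have hv0 : v ≠ 0 := fun e => h0 (e ▸ hv)
  have : O.filter (fun a => (F ∙ a) = F ∙ v) = Finset.univ.image fun c : Fˣ => c • v := by
    ext a
    simp only [Finset.mem_filter, Finset.mem_image, Finset.mem_univ, true_and]
    constructor
    · rintro ⟨_, e⟩
      exact Submodule.span_singleton_eq_span_singleton.1 e.symm
    · rintro ⟨c, rfl⟩
      exact ⟨hc c v hv, (Submodule.span_singleton_eq_span_singleton.2 ⟨c, rfl⟩).symm⟩
  rw [this, Finset.card_image_of_injective, Finset.card_univ, Fintype.card_units, hF]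
  intro c c' e
  exact Units.ext (smul_left_injective F hv0 e)

theorem z_smul (h : Hyp F ω) (v : F9 → F) : h.z • v = ω • v := by
  change (scalar F9 ω) *ᵥ v = _
  ext i
  simp [scalar_apply, mulVec_diagonal]

/-- Orbits of the triple cover of the third Janko group on lines of its 9-space over the field with 4 elements: the line through the first basis vector has exactly 23256 images, and the isotropic lines (nonzero v with Σ v_z³ = 0) form a single orbit. -/
theorem result (F : Type) [Field F] [Fintype F] (hF : Fintype.card F = 4) (ω : F) (hω : ω ^ 2 + ω + 1 = 0) : {L : Submodule F (Cfsg.Spor.F9 → F) | ∃ g ∈ Cfsg.Spor.threeJ3 F ω, L = F ∙ ((g : Matrix Cfsg.Spor.F9 Cfsg.Spor.F9 F) *ᵥ (Pi.single (0 : Cfsg.Spor.F9) (1 : F) : Cfsg.Spor.F9 → F))}.ncard = 23256 ∧ ∀ v w : Cfsg.Spor.F9 → F, v ≠ 0 → w ≠ 0 → ∑ z, (v z) ^ 3 = 0 → ∑ z, (w z) ^ 3 = 0 → ∃ g ∈ Cfsg.Spor.threeJ3 F ω, ∃ c : F, c ≠ 0 ∧ (g : Matrix Cfsg.Spor.F9 Cfsg.Spor.F9 F) *ᵥ v = c • w := by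
  have h := Hyp.of_card hF hω
  constructor
  · have h1 := ncard_orbit h
    have h2 := ncard_lines (F := F) hF
      (O := MulAction.orbit (threeJ3 F ω) (Pi.single (0 : F9) (1 : F) : F9 → F)) (Set.toFinite _) (by
        rintro ⟨k, hk⟩
        have : (k : GL F9 F) • (Pi.single (0 : F9) (1 : F) : F9 → F) = 0 := hk
        rw [smul_eq_zero_iff_eq] at this
        simpa using congrFun this 0) (by
        have hz : ∀ v ∈ MulAction.orbit (threeJ3 F ω) (Pi.single (0 : F9) (1 : F) : F9 → F),
            ω • v ∈ MulAction.orbit (threeJ3 F ω) (Pi.single (0 : F9) (1 : F) : F9 → F) := by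
          intro v hv
          rw [← z_smul h]
          exact MulAction.mapsTo_smul_orbit (⟨h.z, h.z_mem⟩ : threeJ3 F ω) _ hv
        intro c v hv
        obtain ⟨k, hk, e⟩ := f4_surjective hF hω (c : F)
        rw [Units.smul_def, ← e]
        interval_cases k
        · exact absurd e.symm (by simp)
        · simpa using hv
        · simpa using hz v hv
        · rw [f4_three h.two hω, pow_two, mul_smul]; exact hz _ (hz v hv))
    have h3 : {L : Submodule F (Cfsg.Spor.F9 → F) | ∃ g ∈ Cfsg.Spor.threeJ3 F ω, L = F ∙ ((g : Matrix Cfsg.Spor.F9 Cfsg.Spor.F9 F) *ᵥ (Pi.single (0 : Cfsg.Spor.F9) (1 : F) : Cfsg.Spor.F9 → F))} =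
        (fun v => F ∙ v) '' MulAction.orbit (threeJ3 F ω) (Pi.single (0 : F9) (1 : F) : F9 → F) := by
      ext L
      constructor
      · rintro ⟨g, hg, rfl⟩
        exact ⟨_, ⟨⟨g, hg⟩, rfl⟩, rfl⟩
      · rintro ⟨_, ⟨⟨g, hg⟩, rfl⟩, rfl⟩
        exact ⟨g, hg, rfl⟩
    rw [h3]
    omega
  · intro v w hv hw h1 h2
    obtain ⟨k, hk, e⟩ := iso_mem hF h hv h1
    obtain ⟨k', hk', e'⟩ := iso_mem hF h hw h2
    refine ⟨k' * k⁻¹, mul_mem hk' (inv_mem hk), 1, one_ne_zero, ?_⟩
    change (k' * k⁻¹) • v = _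
    rw [one_smul, ← e, ← e', mul_smul, inv_smul_smul]

end Cfsg.Agent.S1626
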