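import Cfsg.Statements.S1633
import Cfsg.Agent.Lib.LeechId.U35

set_option autoImplicit false
open Cfsg

namespace Cfsg.Agent.S1633

open CfsgLib.Leech Spor MulAction CfsgLib.LeechId.U35

theorem stab_neg (u : leechLattice) : stabilizer Co0 (-u) = stabilizer Co0 u := by
  ext g
  simp only [mem_stabilizer_iff, smul_neg, neg_inj]

/-- The Higman–Sims group acts transitively on 352 vectors, a set closed under x ↦ −w − x, with vector stabiliser isomorphic to PSU(3, 5). -/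
theorem result (v w : ↥Cfsg.leechLattice) (hv : Cfsg.sqNorm (v : Cfsg.GolayPt → ℤ) = 48) (hw : Cfsg.sqNorm (w : Cfsg.GolayPt → ℤ) = 48) (hvw : Cfsg.dotInt (v : Cfsg.GolayPt → ℤ) (w : Cfsg.GolayPt → ℤ) = -32) (F : Type) [Field F] [Fintype F] (hF : Fintype.card F = 25) : {x : ↥Cfsg.leechLattice | Cfsg.sqNorm (x : Cfsg.GolayPt → ℤ) = 32 ∧ Cfsg.dotInt (v : Cfsg.GolayPt → ℤ) (x : Cfsg.GolayPt → ℤ) = 16 ∧ Cfsg.dotInt (w : Cfsg.GolayPt → ℤ) (x : Cfsg.GolayPt → ℤ) = -24}.ncard = 352 ∧ (∀ x ∈ {x : ↥Cfsg.leechLattice | Cfsg.sqNorm (x : Cfsg.GolayPt → ℤ) = 32 ∧ Cfsg.dotInt (v : Cfsg.GolayPt → ℤ) (x : Cfsg.GolayPt → ℤ) = 16 ∧ Cfsg.dotInt (w : Cfsg.GolayPt → ℤ) (x : Cfsg.GolayPt → ℤ) = -24}, -w - x ∈ {x : ↥Cfsg.leechLattice | Cfsg.sqNorm (x : Cfsg.GolayPt → ℤ) = 32 ∧ Cfsg.dotInt (v : Cfsg.GolayPt → ℤ) (x : Cfsg.GolayPt → ℤ) = 16 ∧ Cfsg.dotInt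 (w : Cfsg.GolayPt → ℤ) (x : Cfsg.GolayPt → ℤ) = -24}) ∧ (∀ x ∈ {x : ↥Cfsg.leechLattice | Cfsg.sqNorm (x : Cfsg.GolayPt → ℤ) = 32 ∧ Cfsg.dotInt (v : Cfsg.GolayPt → ℤ) (x : Cfsg.GolayPt → ℤ) = 16 ∧ Cfsg.dotInt (w : Cfsg.GolayPt → ℤ) (x : Cfsg.GolayPt → ℤ) = -24}, ∀ x' ∈ {x : ↥Cfsg.leechLattice | Cfsg.sqNorm (x : Cfsg.GolayPt → ℤ) = 32 ∧ Cfsg.dotInt (v : Cfsg.GolayPt → ℤ) (x : Cfsg.GolayPt → ℤ) = 16 ∧ Cfsg.dotInt (w : Cfsg.GolayPt → ℤ) (x : Cfsg.GolayPt → ℤ) = -24}, ∃ g : ↥Cfsg.Co0, g • v = v ∧ g • w = w ∧ g • x = x') ∧ ∀ x ∈ {x : ↥Cfsg.leechLattice | Cfsg.sqNorm (x : Cfsg.GolayPt → ℤ) = 32 ∧ Cfsg.dotInt (v : Cfsg.GolayPt → ℤ) (x : Cfsg.GolayPt → ℤ) = 16 ∧ Cfsg.dotInt (w : Cfsg.GolayPt → ℤ) (x : Cfsg.GolayPt → ℤ) = -24}, Nonempty (↥(MulAction.stabilizer ↥Cfsg.Co0 v ⊓ MulAction.stabilizer ↥Cfsg.Co0 w ⊓ MulAction.stabilizer ↥Cfsg.Co0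 x) ≃* Cfsg.PSU 3 F 5) := by
  obtain ⟨g, h1, h2⟩ := exists_pair_48_48 hv hw hvw
  have h3 : leechU' = -(g • (v + w)) := by rw [smul_add, h1, h2]; abel
  have key : ∀ x : leechLattice, (sqNorm x.1 = 32 ∧ dotInt v.1 x.1 = 16 ∧ dotInt w.1 x.1 = -24) ↔
      sqNorm ((negAut * g) • x).1 = 32 ∧ dotInt leechV.1 ((negAut * g) • x).1 = -16 ∧
        dotInt leechU'.1 ((negAut * g) • x).1 = -8 := by
    intro x
    simp only [mul_smul, negAut_smul, h3, ← h1, AddSubgroup.coe_neg, sqNorm_neg,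
      sqNorm_smul, dotInt_neg_left, dotInt_neg_right, dotInt_smul, AddSubgroup.coe_add,
      dotInt_add_left]
    omega
  have key2 : ∀ x : leechLattice, (sqNorm x.1 = 32 ∧ dotInt v.1 x.1 = 16 ∧ dotInt w.1 x.1 = -24) →
      ∃ k : Co0, k • v = leechV ∧ k • w = -(leechV + leechU') ∧ k • x = -y0 := by
    intro x hx
    obtain ⟨k, ⟨k1, k2⟩, k3⟩ : (negAut * g) • x ∈
        {w | ∃ g ∈ stabilizer Co0 leechV ⊓ stabilizer Co0 leechU', g • y0 = w} := by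
      rw [orbit_y0]; exact (key x).1 hx
    have k4 : k⁻¹ • leechV = leechV := inv_smul_eq_iff.2 (Eq.symm k1)
    have k5 : k⁻¹ • leechU' = leechU' := inv_smul_eq_iff.2 (Eq.symm k2)
    refine ⟨k⁻¹ * g, by rw [mul_smul, h1, k4], by rw [mul_smul, h2, smul_neg, smul_add, k4, k5], ?_⟩
    rw [mul_smul, negAut_smul] at k3
    rw [mul_smul, inv_smul_eq_iff, smul_neg, k3, neg_neg]
  refine ⟨(ncard_smul_set (negAut * g) key).trans ncard_352, ?_, fun x hx x' hx' => ?_, fun x hx => ?_⟩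
  · rintro x ⟨a1, a2, a3⟩
    simp only [Set.mem_ofPred_eq, sub_eq_add_neg, AddSubgroup.coe_add, AddSubgroup.coe_neg, sqNorm_add, sqNorm_neg,
      dotInt_add_right, dotInt_neg_right, dotInt_neg_left, dotInt_self, a1, a2, a3, hw, hvw]
    norm_num
  · obtain ⟨k, k1, k2, k3⟩ := key2 x hx
    obtain ⟨l, l1, l2, l3⟩ := key2 x' hx'
    exact ⟨l⁻¹ * k, by rw [mul_smul, k1, ← l1, inv_smul_smul], by rw [mul_smul, k2, ← l2, inv_smul_smul],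
      by rw [mul_smul, k3, ← l3, inv_smul_smul]⟩
  · obtain ⟨k, k1, k2, k3⟩ := key2 x hx
    obtain ⟨e⟩ := iso hF
    rw [← stab_inf_neg_add, ← stab_neg y0] at e
    exact ⟨(stabEquiv₃ k1 k2 k3).trans e⟩

end Cfsg.Agent.S1633
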