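import Cfsg.Statements.S1634
import Cfsg.Agent.Lib.Leech.Conf3

set_option autoImplicit false
open Cfsg

namespace Cfsg.Agent.S1634

open CfsgLib.Leech Spor MulAction

/-- The McLaughlin group acts on 2025 points (minimal vectors orthogonal to v with customary inner product 2 with w) transitively with rank 4 and subdegrees 1, 330, 462, 1232. -/
theorem result (v w : ↥Cfsg.leechLattice) (hv : Cfsg.sqNorm (v : Cfsg.GolayPt → ℤ) = 32) (hw : Cfsg.sqNorm (w : Cfsg.GolayPt → ℤ) = 32) (hvw : Cfsg.dotInt (v : Cfsg.GolayPt → ℤ) (w : Cfsg.GolayPt → ℤ) = -8) : {x : ↥Cfsg.leechLattice | Cfsg.sqNorm (x : Cfsg.GolayPt → ℤ) = 32 ∧ Cfsg.dotInt (v : Cfsg.GolayPt → ℤ) (x : Cfsg.GolayPt → ℤ) = 0 ∧ Cfsg.dotInt (w : Cfsg.GolayPt → ℤ) (x : Cfsg.GolayPt → ℤ) = 16}.ncard = 2025 ∧ (∀ x ∈ {x : ↥Cfsg.leechLattice | Cfsg.sqNorm (x : Cfsg.GolayPt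 → ℤ) = 32 ∧ Cfsg.dotInt (v : Cfsg.GolayPt → ℤ) (x : Cfsg.GolayPt → ℤ) = 0 ∧ Cfsg.dotInt (w : Cfsg.GolayPt → ℤ) (x : Cfsg.GolayPt → ℤ) = 16}, ∀ x' ∈ {x : ↥Cfsg.leechLattice | Cfsg.sqNorm (x : Cfsg.GolayPt → ℤ) = 32 ∧ Cfsg.dotInt (v : Cfsg.GolayPt → ℤ) (x : Cfsg.GolayPt → ℤ) = 0 ∧ Cfsg.dotInt (w : Cfsg.GolayPt → ℤ) (x : Cfsg.GolayPt → ℤ) = 16}, ∃ g : ↥Cfsg.Co0, g • v = v ∧ g • w = w ∧ g • x = x') ∧ ∀ x ∈ {x : ↥Cfsg.leechLattice | Cfsg.sqNorm (x : Cfsg.GolayPt → ℤ) = 32 ∧ Cfsg.dotInt (v : Cfsg.GolayPt → ℤ) (x : Cfsg.GolayPt → ℤ) = 0 ∧ Cfsg.dotInt (w : Cfsg.GolayPt → ℤ) (x : Cfsg.GolayPt → ℤ) = 16}, ∃ y₁ ∈ {x : ↥Cfsg.leechLattice | Cfsg.sqNorm (x : Cfsg.GolayPt → ℤ) = 32 ∧ Cfsg.dotInt (v : Cfsg.GolayPt → ℤ) (x : Cfsg.GolayPt → ℤ) = 0 ∧ Cfsg.dotInt (w : Cfsg.GolayPt → ℤ) (x : Cfsg.GolayPt → ℤ) = 16}, ∃ y₂ ∈ {x : ↥Cfsg.leechLattice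 | Cfsg.sqNorm (x : Cfsg.GolayPt → ℤ) = 32 ∧ Cfsg.dotInt (v : Cfsg.GolayPt → ℤ) (x : Cfsg.GolayPt → ℤ) = 0 ∧ Cfsg.dotInt (w : Cfsg.GolayPt → ℤ) (x : Cfsg.GolayPt → ℤ) = 16}, ∃ y₃ ∈ {x : ↥Cfsg.leechLattice | Cfsg.sqNorm (x : Cfsg.GolayPt → ℤ) = 32 ∧ Cfsg.dotInt (v : Cfsg.GolayPt → ℤ) (x : Cfsg.GolayPt → ℤ) = 0 ∧ Cfsg.dotInt (w : Cfsg.GolayPt → ℤ) (x : Cfsg.GolayPt → ℤ) = 16}, (MulAction.orbit ↥(MulAction.stabilizer ↥Cfsg.Co0 v ⊓ MulAction.stabilizer ↥Cfsg.Co0 w ⊓ MulAction.stabilizer ↥Cfsg.Co0 x) y₁).ncard = 330 ∧ (MulAction.orbit ↥(MulAction.stabilizer ↥Cfsg.Co0 v ⊓ MulAction.stabilizer ↥Cfsg.Co0 w ⊓ MulAction.stabilizer ↥Cfsg.Co0 x) y₂).ncard = 462 ∧ (MulAction.orbit ↥(MulAction.stabilizer ↥Cfsg.Co0 v ⊓ MulAction.stabilizer ↥Cfsg.Co0 w ⊓ MulAction.stabilizer ↥Cfsg.Co0 x) y₃).ncard = 1232 := by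
  have hu : sqNorm (-(v + w)).1 = 48 := by
    rw [AddSubgroup.coe_neg, sqNorm_neg, AddSubgroup.coe_add, sqNorm_add, hv, hw, hvw]; norm_num
  have huv : dotInt (-(v + w)).1 v.1 = -24 := by
    rw [AddSubgroup.coe_neg, dotInt_neg_left, AddSubgroup.coe_add, dotInt_add_left,
      dotInt_self, hv, dotInt_comm, hvw]; norm_num
  have key : ∀ g : Co0, g • (-(v + w)) = leechV → g • v = leechU → ∀ y : leechLattice,
      (sqNorm y.1 = 32 ∧ dotInt v.1 y.1 = 0 ∧ dotInt w.1 y.1 = 16) ↔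
      sqNorm (g • y).1 = 32 ∧ dotInt leechV.1 (g • y).1 = -16 ∧ dotInt leechU.1 (g • y).1 = 0 := by
    intro g h1 h2 y
    simp only [sqNorm_smul, ← h1, ← h2, dotInt_smul, AddSubgroup.coe_neg, dotInt_neg_left,
      AddSubgroup.coe_add, dotInt_add_left]
    omega
  have tr : ∀ x : leechLattice, sqNorm x.1 = 32 ∧ dotInt v.1 x.1 = 0 ∧ dotInt w.1 x.1 = 16 →
      ∃ g : Co0, g • (-(v + w)) = leechV ∧ g • v = leechU ∧ g • x = leechU' := fun x hx =>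
    exists_triple hu hv hx.1 hx.2.1 huv (by
      rw [AddSubgroup.coe_neg, dotInt_neg_left, AddSubgroup.coe_add, dotInt_add_left, hx.2.1, hx.2.2]
      norm_num)
  have fx : ∀ k : Co0, k • v = v → (k • w = w ↔ k • (-(v + w)) = -(v + w)) := fun k hk => by
    rw [smul_neg, neg_inj, smul_add, hk, add_right_inj]
  refine ⟨?_, fun x hx x' hx' => ?_, fun x hx => ?_⟩
  · obtain ⟨g, h1, h2⟩ := exists_pair_V_U hu hv huv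
    rw [← ncard_2025]
    exact ncard_smul_set g (key g h1 h2)
  · obtain ⟨g, h1, h2, h3⟩ := tr x hx
    obtain ⟨g', h4, h5, h6⟩ := tr x' hx'
    have e1 : (g'⁻¹ * g) • v = v := by rw [mul_smul, h2, ← h5, inv_smul_smul]
    exact ⟨_, e1, (fx _ e1).2 (by rw [mul_smul, h1, ← h4, inv_smul_smul]),
      by rw [mul_smul, h3, ← h6, inv_smul_smul]⟩
  · obtain ⟨g, h1, h2, h3⟩ := tr x hx
    obtain ⟨p1, p2, -⟩ := part2025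
    have hc : ∀ h : Co0, h ∈ stabilizer Co0 v ⊓ stabilizer Co0 w ⊓ stabilizer Co0 x ↔
        g * h * g⁻¹ ∈ stabilizer Co0 leechV ⊓ stabilizer Co0 leechU ⊓ stabilizer Co0 leechU' := by
      intro h
      simp only [Subgroup.mem_inf, ← mem_stabilizer_conj h1, ← mem_stabilizer_conj h2,
        ← mem_stabilizer_conj h3]
      refine and_congr_left fun _ => ⟨fun a => ⟨(fx _ a.1).1 a.2, a.1⟩, fun a => ⟨a.2, (fx _ a.2).2 a.1⟩⟩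
    have m : ∀ i, g⁻¹ • rep2025 i ∈ {x : leechLattice | sqNorm x.1 = 32 ∧ dotInt v.1 x.1 = 0 ∧
        dotInt w.1 x.1 = 16} := fun i => (key g h1 h2 _).2 (by
      rw [smul_inv_smul]; exact ((p2 i _).1 ⟨1, one_mem _, one_smul _ _⟩).1)
    exact ⟨_, m 1, _, m 2, _, m 3, (ncard_smul_set g (mem_orbit_conj g hc _)).trans (p1 1),
      (ncard_smul_set g (mem_orbit_conj g hc _)).trans (p1 2),
      (ncard_smul_set g (mem_orbit_conj g hc _)).trans (p1 3)⟩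

end Cfsg.Agent.S1634
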