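import Cfsg.Statements.S1635
import Cfsg.Agent.Lib.MOrb.Sext

set_option autoImplicit false
open Cfsg

namespace Cfsg.Agent.S1635

open CfsgLib.MOrb CfsgLib.Golay

theorem covering (s : Finset GolayPt) : ∃ t : Finset GolayPt, t.card ≤ 4 ∧ symmDiff s t ∈ codeSets := by
  classical
  obtain ⟨t, ht, hmin⟩ := Finset.exists_min_image
    (Finset.univ.filter fun t : Finset GolayPt => symmDiff s t ∈ codeSets) Finset.card
    ⟨s, by simpa using empty_mem_codeSets⟩
  rw [Finset.mem_filter] at ht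
  refine ⟨t, ?_, ht.2⟩
  by_contra hc
  obtain ⟨u, hu, h5⟩ := Finset.exists_subset_card_eq (s := t) (n := 5) (by omega)
  obtain ⟨o, ho, huo⟩ := exists_octad_of_card_le h5.le
  have h1 := hmin (symmDiff t o) (by
    rw [Finset.mem_filter, ← symmDiff_assoc]
    exact ⟨Finset.mem_univ _, symmDiff_mem_codeSets ht.2 ho.1⟩)
  have h2 := card_symmDiff_add t o
  have h3 := Finset.card_le_card (Finset.subset_inter hu huo)
  rw [ho.2] at h2
  omega

theorem sub_mem_iff (w v : GolayPt → ZMod 2) :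
    w - v ∈ golayCode ↔ symmDiff (support₂ w) (support₂ v) ∈ codeSets := by
  rw [← support₂_add, support₂_mem_codeSets, CharTwo.sub_eq_add]

theorem ncard_eq (w : GolayPt → ZMod 2) :
    {v : GolayPt → ZMod 2 | hammingNorm v ≤ 4 ∧ w - v ∈ golayCode}.ncard =
      {t : Finset GolayPt | t.card ≤ 4 ∧ symmDiff (support₂ w) t ∈ codeSets}.ncard := by
  rw [← Set.ncard_image_of_injective _ support₂_injective]
  congr 1
  ext t
  constructor
  · rintro ⟨v, hv, rfl⟩
    exact ⟨hv.1, (sub_mem_iff w v).1 hv.2⟩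
  · intro ht
    refine ⟨ind t, ⟨?_, ?_⟩, support₂_ind t⟩
    · rw [hammingNorm_eq_card, support₂_ind]; exact ht.1
    · rw [sub_mem_iff, support₂_ind]; exact ht.2

theorem cancel {s t u : Finset GolayPt} (h1 : symmDiff s t ∈ codeSets) :
    symmDiff s u ∈ codeSets ↔ symmDiff t u ∈ codeSets := by
  constructor
  · intro h2
    have := symmDiff_mem_codeSets h1 h2
    rwa [symmDiff_comm s t, symmDiff_assoc, symmDiff_symmDiff_cancel_left] at this
  · intro h2
    have := symmDiff_mem_codeSets h1 h2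
    rwa [symmDiff_assoc, symmDiff_symmDiff_cancel_left] at this


/-- Coset leaders of the length-24 code: a coset contains a unique word of weight ≤ 3, or else exactly six words of weight 4 and none lighter. -/
theorem result (w : Cfsg.GolayPt → ZMod 2) : ({v : Cfsg.GolayPt → ZMod 2 | hammingNorm v ≤ 4 ∧ w - v ∈ Cfsg.golayCode}.ncard = 1 ∧ ∃ v : Cfsg.GolayPt → ZMod 2, hammingNorm v ≤ 3 ∧ w - v ∈ Cfsg.golayCode) ∨ ({v : Cfsg.GolayPt → ZMod 2 | hammingNorm v ≤ 4 ∧ w - v ∈ Cfsg.golayCode}.ncard = 6 ∧ ∀ v : Cfsg.GolayPt → ZMod 2, w - v ∈ Cfsg.golayCode → hammingNorm v ≤ 4 → hammingNorm v = 4) := by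
  rw [ncard_eq]
  by_cases h : ∃ v : GolayPt → ZMod 2, hammingNorm v ≤ 3 ∧ w - v ∈ golayCode
  · refine Or.inl ⟨?_, h⟩
    obtain ⟨v, h1, h2⟩ := h
    rw [sub_mem_iff] at h2
    rw [hammingNorm_eq_card] at h1
    rw [Set.ncard_eq_one]
    refine ⟨support₂ v, Set.eq_singleton_iff_unique_mem.2 ⟨⟨by omega, h2⟩, fun t ht => ?_⟩⟩
    have h3 := card_symmDiff_add (support₂ v) t
    have h4 := eq_empty_of_card_lt ((cancel h2).1 ht.2) (by have := ht.1; omega)
    rw [← Finset.bot_eq_empty, symmDiff_eq_bot] at h4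
    exact h4.symm
  · push Not at h
    have h4 : ∀ v : GolayPt → ZMod 2, w - v ∈ golayCode → hammingNorm v ≤ 4 → hammingNorm v = 4 := by
      intro v h1 h2
      by_contra hc
      exact h v (by omega) h1
    have h5 : ∀ t : Finset GolayPt, symmDiff (support₂ w) t ∈ codeSets → t.card ≤ 4 → t.card = 4 := by
      intro t h1 h2
      have := h4 (ind t) (by rwa [sub_mem_iff, support₂_ind])
      rw [hammingNorm_eq_card, support₂_ind] at this
      exact this h2
    refine Or.inr ⟨?_, h4⟩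
    obtain ⟨t, h1, h2⟩ := covering (support₂ w)
    rw [← card_sext (h5 t h2 h1), ← Set.ncard_coe_finset]
    congr 1
    ext u
    rw [Finset.mem_coe, mem_sext, ← cancel h2]
    exact ⟨fun hu => ⟨h5 u hu.2 hu.1, hu.2⟩, fun hu => ⟨hu.1.le, hu.2⟩⟩

end Cfsg.Agent.S1635
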