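import Cfsg.Statements.S1636
import Cfsg.Agent.Lib.Golay.Octads

set_option autoImplicit false
open Cfsg

namespace Cfsg.Agent.S1636

open CfsgLib.Golay

/-- the punctured word of a set -/
def pw (s : Finset GolayPt) : ZMod 23 → ZMod 2 := fun x => ind s (some x)

theorem norm_pw (s : Finset GolayPt) : hammingNorm (pw s) = (s.erase none).card := by
  rw [hammingNorm_eq_card, ← Finset.card_image_of_injective _ (Option.some_injective _)]
  congr 1
  ext p
  cases p with
  | none => simp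
  | some x => simp [mem_support₂, pw, ind]

theorem mem_iff (u : ZMod 23 → ZMod 2) :
    (∃ w ∈ golayCode, ∀ x : ZMod 23, u x = w (some x)) ↔ ∃ s ∈ codeSets, pw s = u := by
  constructor
  · rintro ⟨w, hw, h⟩
    exact ⟨support₂ w, support₂_mem_codeSets.2 hw, funext fun x => by rw [pw, ind_support₂, h]⟩
  · rintro ⟨s, hs, rfl⟩
    exact ⟨ind s, mem_codeSets_iff.1 hs, fun _ => rfl⟩

theorem pw_injOn : Set.InjOn pw codeSets := by
  intro s hs t ht e
  have h1 : symmDiff s t ⊆ {none} := by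
    intro p hp
    cases p with
    | none => simp
    | some x =>
      have := congrFun e x
      rw [Finset.mem_symmDiff] at hp
      rcases hp with h | h <;> simp [pw, ind, h.1, h.2] at this
  have h2 := eq_empty_of_card_lt (symmDiff_mem_codeSets hs ht)
    (lt_of_le_of_lt (Finset.card_le_card h1) (by simp))
  rwa [← Finset.bot_eq_empty, symmDiff_eq_bot] at h2

theorem count (k : ℕ) : {u : ZMod 23 → ZMod 2 | u ∈ {u : ZMod 23 → ZMod 2 |
    ∃ w ∈ golayCode, ∀ x : ZMod 23, u x = w (some x)} ∧ hammingNorm u = k}.ncard =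
    cntLT 4096 fun j => Nat.beq (pc (Nat.land (cw j) 8388607)) k := by
  have h1 : {u : ZMod 23 → ZMod 2 | u ∈ {u : ZMod 23 → ZMod 2 |
      ∃ w ∈ golayCode, ∀ x : ZMod 23, u x = w (some x)} ∧ hammingNorm u = k} =
      pw '' {s | s ∈ codeSets ∧ (s.erase none).card = k} := by
    ext u
    simp only [Set.mem_ofPred_eq, mem_iff, Set.mem_image]
    constructor
    · rintro ⟨⟨s, hs, rfl⟩, h⟩
      exact ⟨s, ⟨hs, by rwa [norm_pw] at h⟩, rfl⟩
    · rintro ⟨s, hs, rfl⟩
      exact ⟨⟨s, hs.1, rfl⟩, by rw [norm_pw, hs.2]⟩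
  rw [h1, Set.InjOn.ncard_image (pw_injOn.mono fun _ h => h.1)]
  refine ncard_code (fun m => Nat.beq (pc (Nat.land m 8388607)) k) (fun _ h => h.1) fun m hm => ?_
  have h2 : (ofMask m).erase none = ofMask m ∩ ofMask 8388607 := by
    rw [show ofMask 8388607 = Finset.univ.erase none by decide, Finset.inter_erase, Finset.inter_univ]
  rw [Set.mem_ofPred_eq, h2, card_inter_ofMask (lt_of_isCode hm), Nat.beq_eq]
  exact and_iff_right (mem_of_isCode hm)

set_option maxRecDepth 100000 in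

/-- The punctured length-23 code has weight distribution 0^1 7^253 8^506 11^1288 12^1288 15^506 16^253 23^1. -/
theorem result : {u : ZMod 23 → ZMod 2 | ∃ w ∈ Cfsg.golayCode, ∀ x : ZMod 23, u x = w (some x)}.ncard = 4096 ∧ {u : ZMod 23 → ZMod 2 | u ∈ {u : ZMod 23 → ZMod 2 | ∃ w ∈ Cfsg.golayCode, ∀ x : ZMod 23, u x = w (some x)} ∧ hammingNorm u = 7}.ncard = 253 ∧ {u : ZMod 23 → ZMod 2 | u ∈ {u : ZMod 23 → ZMod 2 | ∃ w ∈ Cfsg.golayCode, ∀ x : ZMod 23, u x = w (some x)} ∧ hammingNorm u = 8}.ncard = 506 ∧ {u : ZMod 23 → ZMod 2 | u ∈ {u : ZMod 23 → ZMod 2 | ∃ w ∈ Cfsg.golayCode, ∀ x : ZMod 23, u x = w (some x)} ∧ hammingNorm u = 11}.ncard = 1288 ∧ {u : ZMod 23 → ZMod 2 | u ∈ {u : ZMod 23 → ZMod 2 | ∃ w ∈ Cfsg.golayCode, ∀ x : ZMod 23, u x = w (some x)} ∧ hammingNorm u = 12}.ncard = 1288 ∧ {u : ZMod 23 → ZMod 2 | u ∈ {u : ZMod 23 → ZMod 2 | ∃ w ∈ Cfsg.golayCode, ∀ x : ZMod 23, u x = w (some x)} ∧ hammingNorm u = 15}.ncard = 506 ∧ {u : ZMod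 23 → ZMod 2 | u ∈ {u : ZMod 23 → ZMod 2 | ∃ w ∈ Cfsg.golayCode, ∀ x : ZMod 23, u x = w (some x)} ∧ hammingNorm u = 16}.ncard = 253 ∧ ∀ u ∈ {u : ZMod 23 → ZMod 2 | ∃ w ∈ Cfsg.golayCode, ∀ x : ZMod 23, u x = w (some x)}, u ≠ 0 → 7 ≤ hammingNorm u := by
  refine ⟨?_, by rw [count]; decide +kernel, by rw [count]; decide +kernel,
    by rw [count]; decide +kernel, by rw [count]; decide +kernel, by rw [count]; decide +kernel,
    by rw [count]; decide +kernel, ?_⟩
  · rw [← ncard_codeSets, ← pw_injOn.ncard_image]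
    congr 1
    ext u
    exact mem_iff u
  · intro u hu h0
    obtain ⟨s, hs, rfl⟩ := (mem_iff u).1 hu
    have h1 := Finset.pred_card_le_card_erase (s := s) (a := none)
    have h2 := card_codeSet hs
    have h3 : s.card ≠ 0 := by
      rw [Ne, Finset.card_eq_zero]
      rintro rfl
      exact h0 (funext fun x => by simp [pw, ind])
    rw [norm_pw]
    omega

end Cfsg.Agent.S1636
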