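import Cfsg.Statements.S1637
import Cfsg.Agent.S1635
import Cfsg.Agent.S1636

set_option autoImplicit false
open Cfsg

namespace Cfsg.Agent.S1637

open CfsgLib.Golay Cfsg.Agent.S1636

theorem pw_symmDiff (s t : Finset GolayPt) : pw (symmDiff s t) = pw s + pw t :=
  funext fun x => congrFun (ind_symmDiff s t) (some x)

theorem dist_pw (s t : Finset GolayPt) :
    hammingDist (pw s) (pw t) = ((symmDiff s t).erase none).card := by
  rw [hammingDist_eq_hammingNorm, ← norm_pw, pw_symmDiff, CharTwo.neg_eq]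

theorem exists_odd (u : ZMod 23 → ZMod 2) : ∃ s : Finset GolayPt, s.card % 2 = 1 ∧ pw s = u := by
  have h1 : pw ((support₂ u).image some) = u := by
    funext x
    conv_rhs => rw [← ind_support₂ u]
    simp [pw, ind]
  by_cases h : ((support₂ u).image some).card % 2 = 1
  · exact ⟨_, h, h1⟩
  · refine ⟨insert none ((support₂ u).image some), ?_, ?_⟩
    · rw [Finset.card_insert_of_notMem (by simp)]; omega
    · refine Eq.trans ?_ h1; funext x; simp [pw, ind]


/-- The punctured length-23 code is a perfect 3-error-correcting code: each word of length 23 is within distance 3 of exactly one codeword. -/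
theorem result (u : ZMod 23 → ZMod 2) : ∃! c : ZMod 23 → ZMod 2, c ∈ {u : ZMod 23 → ZMod 2 | ∃ w ∈ Cfsg.golayCode, ∀ x : ZMod 23, u x = w (some x)} ∧ hammingDist u c ≤ 3 := by
  obtain ⟨s, hs, rfl⟩ := exists_odd u
  obtain ⟨t, h1, h2⟩ := Cfsg.Agent.S1635.covering s
  have h3 := card_symmDiff_add s t
  have h4 := card_codeSet h2
  have h5 : hammingDist (pw s) (pw (symmDiff s t)) ≤ 3 := by
    rw [dist_pw, symmDiff_symmDiff_cancel_left]
    have := Finset.card_erase_le (s := t) (a := none)
    omega
  refine ⟨pw (symmDiff s t), ⟨(mem_iff _).2 ⟨_, h2, rfl⟩, h5⟩, ?_⟩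
  rintro c ⟨hc, h6⟩
  obtain ⟨r, hr, rfl⟩ := (mem_iff _).1 hc
  have h7 := hammingDist_triangle_left (pw r) (pw (symmDiff s t)) (pw s)
  rw [dist_pw r] at h7
  have h8 := Finset.pred_card_le_card_erase (s := symmDiff r (symmDiff s t)) (a := none)
  have h9 := eq_empty_of_card_lt (symmDiff_mem_codeSets hr h2) (by omega)
  rw [← Finset.bot_eq_empty, symmDiff_eq_bot] at h9
  rw [h9]

end Cfsg.Agent.S1637
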