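import Cfsg.Statements.S1638
import Cfsg.Agent.Lib.MOrb.InOct

set_option autoImplicit false
open scoped Pointwise
open Cfsg

namespace Cfsg.Agent.S1638

open CfsgLib.MOrb CfsgLib.Golay

/-- the octads through the standard tetrad -/
def ol : List ℕ := [12656663, 8536111, 11010247, 9471495, 8657159]

theorem ol_ok : octList 8388615 ol = true := by decide +kernel

theorem key (g : M24) {m : ℕ} (hm : m < 2 ^ 24) :
    (∃ o ∈ octads, g • pt 23 ∈ o ∧ g • pt 0 ∈ o ∧ g • ofMask 6 ∪ g • ofMask m ⊆ o) ↔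
      inO ol m = true := by
  rw [← inO_iff (by norm_num) ol_ok hm, ← exists_octad_smul g]
  have : ofMask 8388615 = insert (pt 23) (insert (pt 0) (ofMask 6)) := by decide
  simp only [this, Finset.insert_union, Finset.smul_finset_insert, Finset.insert_subset_iff,
    Finset.smul_finset_union]

theorem dj (g : M24) {m : ℕ} :
    Disjoint (g • ofMask 6) (g • ofMask m) ↔ Nat.beq (Nat.land 6 m) 0 = true := by
  rw [disjoint_smul, ofMask_disjoint_iff (by norm_num), Nat.beq_eq]; rfl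

theorem av (g : M24) {m : ℕ} (hm : m < 2 ^ 24) :
    ((g • ofMask m).card = 2 ∧ g • pt 23 ∉ g • ofMask m ∧ g • pt 0 ∉ g • ofMask m) ↔
      pc m = 2 ∧ (and (not (tb m 23)) (not (tb m 0))) = true := by
  rw [Finset.card_smul_finset, Finset.smul_mem_smul_finset_iff, Finset.smul_mem_smul_finset_iff,
    card_ofMask hm, ← tb_iff (by norm_num), ← tb_iff (by norm_num)]
  simp


/-- Fix two points p ≠ q and a pair s of two further points. Among the pairs avoiding p, q and disjoint from s, exactly 30 lie in an octad together with p, q and s and exactly 160 do not; and any two pairs other than s that meet s in equally many points and agree on that octad property are carried to one another by an element of the group of the length-24 code fixing p, q and s. -/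
theorem result (p q : Cfsg.GolayPt) (hpq : p ≠ q) (s : Finset Cfsg.GolayPt) (hs : (s.card = 2 ∧ p ∉ s ∧ q ∉ s)) : {t : Finset Cfsg.GolayPt | (t.card = 2 ∧ p ∉ t ∧ q ∉ t) ∧ Disjoint s t ∧ (∃ o ∈ Cfsg.octads, p ∈ o ∧ q ∈ o ∧ s ∪ t ⊆ o)}.ncard = 30 ∧ {t : Finset Cfsg.GolayPt | (t.card = 2 ∧ p ∉ t ∧ q ∉ t) ∧ Disjoint s t ∧ ¬ (∃ o ∈ Cfsg.octads, p ∈ o ∧ q ∈ o ∧ s ∪ t ⊆ o)}.ncard = 160 ∧ ∀ t t' : Finset Cfsg.GolayPt, (t.card = 2 ∧ p ∉ t ∧ q ∉ t) → (t'.card = 2 ∧ p ∉ t' ∧ q ∉ t') → t ≠ s → t' ≠ s → (s ∩ t).card = (s ∩ t').card → ((∃ o ∈ Cfsg.octads, p ∈ o ∧ q ∈ o ∧ s ∪ t ⊆ o) ↔ (∃ o ∈ Cfsg.octads, p ∈ o ∧ q ∈ o ∧ s ∪ t' ⊆ o)) → ∃ g : Equiv.Perm Cfsg.GolayPt, g ∈ Cfsg.M24 ∧ g p = p ∧ g q = q ∧ g • s = s ∧ g • t = t' := by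
  obtain ⟨h2, hp, hq⟩ := hs
  obtain ⟨x, y, hxy, rfl⟩ := Finset.card_eq_two.1 h2
  simp only [Finset.mem_insert, Finset.mem_singleton, not_or] at hp hq
  obtain ⟨g, rfl, rfl, rfl, rfl⟩ := trans_pt4 hpq hp.1 hq.1 hp.2 hq.2 hxy
  have e6 : ({g • pt 1, g • pt 2} : Finset GolayPt) = g • ofMask 6 := by
    rw [show ofMask 6 = {pt 1, pt 2} by decide, Finset.smul_finset_insert, Finset.smul_finset_singleton]
  rw [e6]
  refine ⟨?_, ?_, ?_⟩
  · rw [← ncard_smul_eq g⁻¹ (Q := fun t => ((g • t).card = 2 ∧ g • pt 23 ∉ g • t ∧ g • pt 0 ∉ g • t) ∧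
      Disjoint (g • ofMask 6) (g • t) ∧
        ∃ o ∈ octads, g • pt 23 ∈ o ∧ g • pt 0 ∈ o ∧ g • ofMask 6 ∪ g • t ⊆ o)
        (fun t => by rw [smul_inv_smul]),
      ncard_subs 2 (fun m => and (and (not (tb m 23)) (not (tb m 0)))
        (and (Nat.beq (Nat.land 6 m) 0) (inO ol m))) (fun _ h => by simpa using h.1.1)
        (fun m hm h => by
          rw [Set.mem_ofPred_eq, key g hm, dj, av g hm]
          simp only [h, true_and, Bool.and_eq_true])]
    decide +kernel
  · rw [← ncard_smul_eq g⁻¹ (Q := fun t => ((g • t).card = 2 ∧ g • pt 23 ∉ g • t ∧ g • pt 0 ∉ g • t) ∧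
      Disjoint (g • ofMask 6) (g • t) ∧
        ¬ ∃ o ∈ octads, g • pt 23 ∈ o ∧ g • pt 0 ∈ o ∧ g • ofMask 6 ∪ g • t ⊆ o)
        (fun t => by rw [smul_inv_smul]),
      ncard_subs 2 (fun m => and (and (not (tb m 23)) (not (tb m 0)))
        (and (Nat.beq (Nat.land 6 m) 0) (not (inO ol m)))) (fun _ h => by simpa using h.1.1)
        (fun m hm h => by
          rw [Set.mem_ofPred_eq, key g hm, dj, av g hm]
          simp only [h, true_and, Bool.and_eq_true, Bool.not_eq_true', Bool.not_eq_true])]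
    decide +kernel
  · intro U U' h1 h2 h3 h4 h5 h6
    obtain ⟨U, rfl⟩ := MulAction.surjective g U
    obtain ⟨U', rfl⟩ := MulAction.surjective g U'
    obtain ⟨a, ha, rfl⟩ := exists_mask U
    obtain ⟨b, hb, rfl⟩ := exists_mask U'
    rw [av g (by assumption)] at h1 h2
    rw [key g ha, key g hb] at h6
    rw [card_smul_inter, card_smul_inter, ← pc_land (by norm_num), ← pc_land (by norm_num)] at h5
    have h7 : ∀ c, g • ofMask c ≠ g • ofMask 6 → not (Nat.beq c 6) = true := by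
      intro c hc
      rw [Bool.not_eq_true', ← Bool.not_eq_true, Nat.beq_eq]
      rintro rfl
      exact hc rfl
    obtain ⟨k, hk, e⟩ := chkSCls_sound (hash := syn) (F := [2 ^ 23, 2 ^ 0, 6])
      (gens := [979324170037577997009341392416278560, 980624224951109404166369807281816640])
      (reps := [10, 24, 40]) (fuel := 276) (k := 2)
      (P := fun m => and (and (not (tb m 23)) (not (tb m 0))) (not (Nat.beq m 6)))
      (c := fun m => Nat.add (Nat.mul 2 (pc (Nat.land 6 m))) (Bool.rec 0 1 (inO ol m)))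
      (by decide +kernel) ha hb h1.1 h2.1 (by rw [h1.2, h7 a h3]; rfl) (by rw [h2.2, h7 b h4]; rfl)
      (by rw [Bool.eq_iff_iff.2 h6, h5])
    refine ⟨((g * k * g⁻¹ : M24) : Equiv.Perm GolayPt), (g * k * g⁻¹).2, ?_, ?_, ?_, ?_⟩
    · exact (conj_smul g k (pt 23)).trans (by rw [hk.pt (by norm_num) (by simp)])
    · exact (conj_smul g k (pt 0)).trans (by rw [hk.pt (by norm_num) (by simp)])
    · exact (conj_smul g k (ofMask 6)).trans (by rw [hk _ (by simp)])
    · exact (conj_smul g k (ofMask a)).trans (by rw [e])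

end Cfsg.Agent.S1638
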