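import Cfsg.Statements.S1639
import Cfsg.Agent.Lib.MOrb.Cls

set_option autoImplicit false
open scoped Pointwise
open Cfsg

namespace Cfsg.Agent.S1639

open CfsgLib.MOrb CfsgLib.Golay


/-- The point stabiliser acts on the 1288 dodecads through the point with rank 4 and subdegrees 1, 165, 330, 792, distinguished by intersection 4, 8, 6 with the fixed dodecad. -/
theorem result (x : Cfsg.GolayPt) (d : Finset Cfsg.GolayPt) (hd : d ∈ Cfsg.dodecads) (hx : x ∈ d) : {d' : Finset Cfsg.GolayPt | d' ∈ Cfsg.dodecads ∧ x ∈ d' ∧ (d ∩ d').card = 4}.ncard = 165 ∧ {d' : Finset Cfsg.GolayPt | d' ∈ Cfsg.dodecads ∧ x ∈ d' ∧ (d ∩ d').card = 8}.ncard = 330 ∧ {d' : Finset Cfsg.GolayPt | d' ∈ Cfsg.dodecads ∧ x ∈ d' ∧ (d ∩ d').card = 6}.ncard = 792 ∧ ∀ d' d'' : Finset Cfsg.GolayPt, d' ∈ Cfsg.dodecads → d'' ∈ Cfsg.dodecads → x ∈ d' → x ∈ d'' → (d ∩ d').card = (d ∩ d'').card → ∃ g : Equiv.Perm Cfsg.GolayPt, g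 ∈ Cfsg.M24 ∧ g x = x ∧ g • d = d ∧ g • d' = d'' := by
  obtain ⟨g, rfl, rfl⟩ := trans_dod_in hd hx
  have key : ∀ j, {x : Finset GolayPt | x ∈ dodecads ∧ g • pt 0 ∈ x ∧
      (g • ofMask D0 ∩ x).card = j}.ncard =
      cntLT 4096 fun k => and (wIJ 12 [0] [] (cw k)) (Nat.beq (pc (Nat.land D0 (cw k))) j) := by
    intro j
    rw [← ncard_WIJ_inter 12 [0] [] (by simp) (by simp) D0_lt j g]
    congr 1; ext s; simp [WIJ, mem_dodecads, and_assoc]
  refine ⟨by rw [key]; decide +kernel, by rw [key]; decide +kernel, by rw [key]; decide +kernel, ?_⟩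
  intro o' o'' ho' ho'' h1 h2 h
  obtain ⟨k, hk, e⟩ := cls_WIJ (by simp) (by simp) D0_lt cls_Da g (s := o') (t := o'')
    ⟨ho', by simp [h1], by simp⟩ ⟨ho'', by simp [h2], by simp⟩ h
  exact ⟨_, (g * k * g⁻¹).2, hk.conj_pt g (by norm_num) (by simp), hk.conj_mask g (by simp), e⟩

end Cfsg.Agent.S1639
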