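import Cfsg.Statements.S1640
import Cfsg.Agent.Lib.Leech.Conf2

set_option autoImplicit false
open Cfsg

namespace Cfsg.Agent.S1640

open CfsgLib.Leech Spor MulAction

/-- The stabiliser of a vector of customary norm 6 is transitive on the 11178 minimal vectors of customary inner product −2 with it. -/
theorem result (u : ↥Cfsg.leechLattice) (hu : Cfsg.sqNorm (u : Cfsg.GolayPt → ℤ) = 48) : {x : ↥Cfsg.leechLattice | Cfsg.sqNorm (x : Cfsg.GolayPt → ℤ) = 32 ∧ Cfsg.dotInt (u : Cfsg.GolayPt → ℤ) (x : Cfsg.GolayPt → ℤ) = -16}.ncard = 11178 ∧ ∀ x ∈ {x : ↥Cfsg.leechLattice | Cfsg.sqNorm (x : Cfsg.GolayPt → ℤ) = 32 ∧ Cfsg.dotInt (u : Cfsg.GolayPt → ℤ) (x : Cfsg.GolayPt → ℤ) = -16}, ∀ x' ∈ {x : ↥Cfsg.leechLattice | Cfsg.sqNorm (x : Cfsg.GolayPt → ℤ) = 32 ∧ Cfsg.dotInt (u : Cfsg.GolayPt → ℤ) (x : Cfsg.GolayPt → ℤ) = -16}, ∃ g : ↥Cfsg.Co0, g • u = u ∧ g • x = x' := by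
  constructor
  · obtain ⟨g, hg⟩ := exists_smul_eq_of_sqNorm u leechV (by rw [sqNorm_V, hu]) (by omega)
    rw [← ncard_11178]
    exact ncard_smul_set g fun x => by
      simp only [Set.mem_ofPred_eq, sqNorm_smul, ← hg, dotInt_smul]
  · rintro x ⟨a1, a2⟩ x' ⟨b1, b2⟩
    obtain ⟨g, h1, h2⟩ := exists_pair_V_U' hu a1 a2
    obtain ⟨g', h3, h4⟩ := exists_pair_V_U' hu b1 b2
    exact ⟨g'⁻¹ * g, by rw [mul_smul, h1, ← h3, inv_smul_smul],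
      by rw [mul_smul, h2, ← h4, inv_smul_smul]⟩

end Cfsg.Agent.S1640
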