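import Cfsg.Statements.S1641
import Cfsg.Agent.Lib.Leech.Conf3
import Cfsg.Agent.Lib.Leech.CHS.Orb

set_option autoImplicit false
open Cfsg

namespace Cfsg.Agent.S1641

open CfsgLib.Leech Spor MulAction

noncomputable def rep : Fin 5 → leechLattice :=
  ![leechU', toL 0x84210842108421284a109421294a52, toL 0xa42108421084210842108421084190,
    toL 0x842108421084250942128425294a50, toL 0x9421084210842129421094a50741d0]

theorem rep_spec (i : Fin 5) : sqNorm (rep i).1 = 32 ∧ dotInt leechV.1 (rep i).1 = -16 ∧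
    dotInt leechU'.1 (rep i).1 = ![32, -8, 16, 0, 8] i := by
  have h0 : chkN 0x84210842108421284a109421294a52 = true := by decide +kernel
  have h1 : chkN 0xa42108421084210842108421084190 = true := by decide +kernel
  have h2 : chkN 0x842108421084250942128425294a50 = true := by decide +kernel
  have h3 : chkN 0x9421084210842129421094a50741d0 = true := by decide +kernel
  fin_cases i
  · exact ⟨sqNorm_U', dot_V_U', by rw [rep]; exact (dotInt_self _).trans sqNorm_U'⟩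
  all_goals simp only [rep, Fin.zero_eta, Fin.mk_one, Fin.reduceFinMk,
      Matrix.cons_val, sqNorm_toL, dot_V_toL, dot_U'_toL, h0, h1, h2, h3]; decide +kernel

/-- The third Conway group acts on the 11178 cosets of the Higman–Sims group with rank 5 and subdegrees 1, 352, 1100, 4125, 5600. -/
theorem result (u x : ↥Cfsg.leechLattice) (hu : Cfsg.sqNorm (u : Cfsg.GolayPt → ℤ) = 48) (hx : x ∈ {x : ↥Cfsg.leechLattice | Cfsg.sqNorm (x : Cfsg.GolayPt → ℤ) = 32 ∧ Cfsg.dotInt (u : Cfsg.GolayPt → ℤ) (x : Cfsg.GolayPt → ℤ) = -16}) : ∃ y₁ ∈ {x : ↥Cfsg.leechLattice | Cfsg.sqNorm (x : Cfsg.GolayPt → ℤ) = 32 ∧ Cfsg.dotInt (u : Cfsg.GolayPt → ℤ) (x : Cfsg.GolayPt → ℤ) = -16}, ∃ y₂ ∈ {x : ↥Cfsg.leechLattice | Cfsg.sqNorm (x : Cfsg.GolayPt → ℤ) = 32 ∧ Cfsg.dotInt (u : Cfsg.GolayPt → ℤ) (x : Cfsg.GolayPt → ℤ) = -16}, ∃ y₃ ∈ {x : ↥Cfsg.leechLattice | Cfsg.sqNorm (x : Cfsg.GolayPt → ℤ) = 32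 ∧ Cfsg.dotInt (u : Cfsg.GolayPt → ℤ) (x : Cfsg.GolayPt → ℤ) = -16}, ∃ y₄ ∈ {x : ↥Cfsg.leechLattice | Cfsg.sqNorm (x : Cfsg.GolayPt → ℤ) = 32 ∧ Cfsg.dotInt (u : Cfsg.GolayPt → ℤ) (x : Cfsg.GolayPt → ℤ) = -16}, (MulAction.orbit ↥(MulAction.stabilizer ↥Cfsg.Co0 u ⊓ MulAction.stabilizer ↥Cfsg.Co0 x) y₁).ncard = 352 ∧ (MulAction.orbit ↥(MulAction.stabilizer ↥Cfsg.Co0 u ⊓ MulAction.stabilizer ↥Cfsg.Co0 x) y₂).ncard = 1100 ∧ (MulAction.orbit ↥(MulAction.stabilizer ↥Cfsg.Co0 u ⊓ MulAction.stabilizer ↥Cfsg.Co0 x) y₃).ncard = 4125 ∧ (MulAction.orbit ↥(MulAction.stabilizer ↥Cfsg.Co0 u ⊓ MulAction.stabilizer ↥Cfsg.Co0 x) y₄).ncard = 5600 ∧ {x : ↥Cfsg.leechLattice | Cfsg.sqNorm (x : Cfsg.GolayPt → ℤ) = 32 ∧ Cfsg.dotInt (u : Cfsg.GolayPt → ℤ) (x : Cfsg.GolayPt → ℤ) = -16} = {x} ∪ MulAction.orbit ↥(MulAction.stabilizer ↥Cfsg.Co0 u ⊓ MulAction.stabilizer ↥Cfsg.Co0 x) y₁ ∪ MulAction.orbit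 ↥(MulAction.stabilizer ↥Cfsg.Co0 u ⊓ MulAction.stabilizer ↥Cfsg.Co0 x) y₂ ∪ MulAction.orbit ↥(MulAction.stabilizer ↥Cfsg.Co0 u ⊓ MulAction.stabilizer ↥Cfsg.Co0 x) y₃ ∪ MulAction.orbit ↥(MulAction.stabilizer ↥Cfsg.Co0 u ⊓ MulAction.stabilizer ↥Cfsg.Co0 x) y₄ := by
  obtain ⟨g, h1, h2⟩ := exists_pair_V_U' hu hx.1 hx.2
  obtain ⟨p1, p2, p3⟩ := partition_of_le (X := {x : leechLattice | sqNorm x.1 = 32 ∧
    dotInt leechV.1 x.1 = -16}) (finite_of_norm fun _ hx => hx.1)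
    (fun z => dotInt leechU'.1 z.1) ![32, -8, 16, 0, 8] (by decide)
    (fun i => {w | ∃ g ∈ stabilizer Co0 leechV ⊓ stabilizer Co0 leechU', g • rep i = w})
    ![1, 352, 1100, 4125, 5600] (by
      rintro i _ ⟨g, ⟨e1, e2⟩, rfl⟩
      exact ⟨⟨by rw [sqNorm_smul, (rep_spec i).1], by rw [dot_smul_of_fix e1, (rep_spec i).2.1]⟩,
        by rw [dot_smul_of_fix e2, (rep_spec i).2.2]⟩) (fun i => by
      fin_cases i
      exacts [one_le_ncard_orbit _ _, CHS.le352, CHS.le1100, CHS.le4125, CHS.le5600])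
    (by rw [ncard_11178]; decide)
  have key : ∀ y : leechLattice, (sqNorm y.1 = 32 ∧ dotInt u.1 y.1 = -16) ↔
      sqNorm (g • y).1 = 32 ∧ dotInt leechV.1 (g • y).1 = -16 := by
    intro y
    simp only [sqNorm_smul, ← h1, dotInt_smul]
  have hc : ∀ h : Co0, h ∈ stabilizer Co0 u ⊓ stabilizer Co0 x ↔
      g * h * g⁻¹ ∈ stabilizer Co0 leechV ⊓ stabilizer Co0 leechU' := by
    intro h
    simp only [Subgroup.mem_inf, ← mem_stabilizer_conj h1, ← mem_stabilizer_conj h2]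
  have m : ∀ i, g⁻¹ • rep i ∈ {x : leechLattice | sqNorm x.1 = 32 ∧ dotInt u.1 x.1 = -16} :=
    fun i => (key _).2 (by rw [smul_inv_smul]; exact ⟨(rep_spec i).1, (rep_spec i).2.1⟩)
  refine ⟨_, m 1, _, m 2, _, m 3, _, m 4, (ncard_smul_set g (mem_orbit_conj g hc _)).trans (p1 1),
      (ncard_smul_set g (mem_orbit_conj g hc _)).trans (p1 2),
      (ncard_smul_set g (mem_orbit_conj g hc _)).trans (p1 3),
      (ncard_smul_set g (mem_orbit_conj g hc _)).trans (p1 4), ?_⟩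
  ext z
  simp only [Set.mem_union, mem_orbit_conj g hc, Set.mem_singleton_iff]
  rw [Set.mem_setOf_eq, key]
  constructor
  · intro hz
    obtain ⟨i, hi⟩ := p3 _ hz
    fin_cases i
    · obtain ⟨k, hk, e⟩ := hi
      have : k • rep 0 = leechU' := hk.2
      refine Or.inl (Or.inl (Or.inl (Or.inl (smul_left_cancel g ?_))))
      rw [h2, ← e]; exact this
    exacts [Or.inl (Or.inl (Or.inl (Or.inr hi))), Or.inl (Or.inl (Or.inr hi)), Or.inl (Or.inr hi),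
      Or.inr hi]
  · rintro ((((rfl | h) | h) | h) | h)
    exacts [(key _).1 hx, ((p2 1 _).1 h).1, ((p2 2 _).1 h).1, ((p2 3 _).1 h).1, ((p2 4 _).1 h).1]

end Cfsg.Agent.S1641
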