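import Cfsg.Statements.S1685
import Cfsg.Agent.Lib.Fischer.Model22
import Cfsg.Agent.Lib.Fischer.Words

set_option autoImplicit false
open Cfsg

namespace Cfsg.Agent.S1685

/-- In the presented Fischer group Fi₂₂ (generators a, …, i), the subgroup generated by the images of b, c, d, e, f, g, h, i has index 14080. -/
theorem result : (((Subgroup.closure ({Cfsg.Spor.Fi22.b, Cfsg.Spor.Fi22.c, Cfsg.Spor.Fi22.d, Cfsg.Spor.Fi22.e, Cfsg.Spor.Fi22.f, Cfsg.Spor.Fi22.g, Cfsg.Spor.Fi22.h, Cfsg.Spor.Fi22.i} : Set (FreeGroup Cfsg.Spor.Fi22.Gen))).map (PresentedGroup.mk (Cfsg.Spor.coxRelators Cfsg.Spor.Fi22.edges ∪ {r | r ∈ Cfsg.Spor.Fi22.extra})))).index = 14080 := by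
  rw [CfsgLib.Fischer.words22_o7]
  have h1 := CfsgLib.Fischer.r22.fb7
  have h2 := (CfsgLib.Fischer.r22.toR22d.step h1).2
  rw [CfsgLib.Fischer.cl_g22, Subgroup.card_top, CfsgLib.Fischer.card22] at h2
  exact CfsgLib.Fischer.index_eq_of_card (a := 4585351680) CfsgLib.Fischer.card22
    (le_antisymm h1.2 (Nat.le_of_mul_le_mul_left (c := 14080) h2 (by norm_num))) (by norm_num) (by norm_num)

end Cfsg.Agent.S1685
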