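import Cfsg.Statements.S1712
import Cfsg.Agent.Lib.J4.DTab

set_option autoImplicit false
open Cfsg

namespace Cfsg.Agent.S1712

open CfsgLib.J4 CfsgLib.CosetEnum

/-- In the presented fourth Janko group (generators x, y, t), the subgroup generated by the images of x, y and (y * w⁻¹ * t * w) ^ 3 with w = (y * x) ^ 4 * y⁻¹ * x has index 173067389. -/
theorem result : (((Subgroup.closure ({Cfsg.Spor.J4.x, Cfsg.Spor.J4.y, (Cfsg.Spor.J4.y * ((Cfsg.Spor.J4.y * Cfsg.Spor.J4.x) ^ 4 * Cfsg.Spor.J4.y⁻¹ * Cfsg.Spor.J4.x)⁻¹ * Cfsg.Spor.J4.t * ((Cfsg.Spor.J4.y * Cfsg.Spor.J4.x) ^ 4 * Cfsg.Spor.J4.y⁻¹ * Cfsg.Spor.J4.x)) ^ 3} : Set (FreeGroup Cfsg.Spor.J4.Gen))).map (PresentedGroup.mk (Cfsg.Spor.coxRelators Cfsg.Spor.J4.edges ∪ {r | r ∈ Cfsg.Spor.J4.extra})))).index = 173067389 := by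
  have h := map_closure_eq_gen gJ_idx [Spor.J4.x, Spor.J4.y, (Spor.J4.y * ((Spor.J4.y * Spor.J4.x) ^ 4 * Spor.J4.y⁻¹ *
    Spor.J4.x)⁻¹ * Spor.J4.t * ((Spor.J4.y * Spor.J4.x) ^ 4 * Spor.J4.y⁻¹ * Spor.J4.x)) ^ 3]
  rw [show ∀ a b c : FreeGroup Spor.J4.Gen, {R | R ∈ [a, b, c]} = ({a, b, c} : Set _) from fun a b c => by ext; simp]
    at h
  rw [h, ← index_Lam]
  congr 1
  have e : ∀ R, normW (imOf [0, 2]) (code idx R) = wU → ev gJ (code idx R) = uu iotaJ (gJ 2) := fun R hR => by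
    rw [uu_J, ← hR, ev_normW relJ.inv]
  refine le_antisymm (gen_le.2 fun w hw => ?_) (hypJ.lam_le ?_ ?_ ?_)
  · simp only [List.map, List.mem_cons, List.not_mem_nil, or_false] at hw
    rcases hw with rfl | rfl | rfl
    · rw [show code idx Spor.J4.x = [2 * 0] by decide +kernel, ev_single, ← iotaJ_x]; exact hypJ.iota_mem _
    · rw [show code idx Spor.J4.y = [2 * 1] by decide +kernel, ev_single, ← iotaJ_y]; exact hypJ.iota_mem _
    · rw [e _ (by decide +kernel)]; exact hypJ.uu_mem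
  · rw [iotaJ_x]; exact mem_gen_of_letter gJ (i := 0) (by decide +kernel)
  · rw [iotaJ_y]; exact mem_gen_of_letter gJ (i := 1) (by decide +kernel)
  · exact (e _ (by decide +kernel)).subst (motive := fun x => x ∈ _)
      (ev_mem_gen gJ (List.mem_cons_of_mem _ (List.mem_cons_of_mem _ List.mem_cons_self)))

end Cfsg.Agent.S1712
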