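import Cfsg.Statements.S1717
import Cfsg.Agent.Lib.Mathieu.AGL

set_option autoImplicit false
open Cfsg

namespace Cfsg.Agent.S1717

/-- Let G be a finite group with an involution z whose centraliser C is isomorphic to the centraliser of a transvection of SL(5, 2). Then a Sylow 2-subgroup of C, viewed in G, is a Sylow 2-subgroup of G (its index in G is odd). -/
theorem result {G : Type*} [Group G] [Finite G] (s : Matrix.SpecialLinearGroup (Fin 5) (ZMod 2)) (hs : (s : Matrix (Fin 5) (Fin 5) (ZMod 2)) = Matrix.transvection 0 1 1) (z : G) (hz : orderOf z = 2) (e : (Subgroup.centralizer ({z} : Set G)) ≃* Subgroup.centralizer ({s} : Set (Matrix.SpecialLinearGroup (Fin 5) (ZMod 2)))) (T : Sylow 2 (Subgroup.centralizer ({z} : Set G))) : ¬ 2 ∣ ((T : Subgroup (Subgroup.centralizer ({z} : Set G))).map (Subgroup.subtype (Subgroup.centralizer ({z} : Set G)))).index := by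
  obtain ⟨e', _⟩ := CfsgLib.Mathieu.cent2A_equiv s hs
  obtain ⟨f⟩ := CfsgLib.Mathieu.sylow_cent2A_equiv (e.trans e'.symm) T
  exact CfsgLib.Mathieu.not_dvd_index_of_center hz T fun a b ha hb hac hbc =>
    CfsgLib.Mathieu.center_unique_of_equiv_syl24 f ha hb hac hbc

end Cfsg.Agent.S1717
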