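import Mathlib
import Cfsg.Statements.S1725
import Cfsg.Agent.Lib.SuzRec.Eleven

set_option autoImplicit false
open Cfsg

namespace Cfsg.Agent.S1725

open CfsgLib.SuzRec

/-- A 3-local step in the uniqueness proof for the sporadic Suzuki group: let G satisfy the large-extraspecial hypothesis with Q of order 2 ^ 7, quotient Ω⁻(6, 2) and z not weakly closed in Q, and let X be a subgroup of order 3 of the centraliser C of z with the commutator subgroup of Q and X of order 8 and non-abelian (a quaternion group). Then for any Sylow 3-subgroup P of the normaliser of X in G, P is a Sylow 3-subgroup of G (its index in G is prime to 3), and P contains an elementary abelian subgroup A of order 3 ^ 5 with C_G(A) = A and N_G(A) / A isomorphic to the Mathieu group M₁₁. -/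
theorem result {G : Type*} [Group G] [Finite G] (z : G) (hz : orderOf z = 2) (Q : Subgroup (Subgroup.centralizer ({z} : Set G))) [Q.Normal] (hF : Cfsg.generalizedFittingSubgroup (Subgroup.centralizer ({z} : Set G)) = Q) (hQ : Cfsg.IsExtraspecial 2 Q) (hcard : Nat.card Q = 2 ^ 7) (e : (Subgroup.centralizer ({z} : Set G)) ⧸ Q ≃* Cfsg.Omega (ZMod 2) (Cfsg.quadFormMinus 2 (ZMod 2) 1 1)) (hnwc : ∃ g : G, (∃ hq : g * z * g⁻¹ ∈ Subgroup.centralizer ({z} : Set G), (⟨g * z * g⁻¹, hq⟩ : Subgroup.centralizer ({z} : Set G)) ∈ Q) ∧ g * z * g⁻¹ ≠ z) (X : Subgroup (Subgroup.centralizer ({z} : Set G))) (hX : Nat.card X = 3) (hQX : Nat.card ↥⁅Q, X⁆ = 8) (hQXna : ¬ IsMulCommutative ↥⁅Q, X⁆) (P : Sylow 3 ↥(Subgroup.normalizer ((X.map (Subgroup.subtype (Subgroup.centralizer ({z} : Set G))) : Subgroup G) : Set G))) : ¬ 3 ∣ (((P : Subgroup ↥(Subgroup.normalizer ((X.map (Subgroup.subtype (Subgroup.centralizer ({z} : Set G))) : Subgroup G) : Set G))).map (Subgroup.subtype (Subgroup.normalizer ((X.map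 (Subgroup.subtype (Subgroup.centralizer ({z} : Set G))) : Subgroup G) : Set G)))).index) ∧ ∃ A : Subgroup G, A ≤ (P : Subgroup ↥(Subgroup.normalizer ((X.map (Subgroup.subtype (Subgroup.centralizer ({z} : Set G))) : Subgroup G) : Set G))).map (Subgroup.subtype (Subgroup.normalizer ((X.map (Subgroup.subtype (Subgroup.centralizer ({z} : Set G))) : Subgroup G) : Set G))) ∧ Cfsg.IsElementaryAbelian 3 A ∧ Nat.card A = 3 ^ 5 ∧ Subgroup.centralizer (A : Set G) = A ∧ ∃ _ : (A.subgroupOf (Subgroup.normalizer (A : Set G))).Normal, Cfsg.Spor.IsoM11 (↥(Subgroup.normalizer (A : Set G)) ⧸ A.subgroupOf (Subgroup.normalizer (A : Set G))) := by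
  have : Fact (Nat.Prime 3) := ⟨by norm_num⟩
  obtain ⟨-, y, h, e1⟩ := exists_equiv_y hz Q hF hQ hcard e hnwc X hX hQX hQXna
  obtain ⟨Φ, _, s, -⟩ := exists_equiv hz Q hF hQ hcard e hnwc
  have m := sm.map Φ
  generalize X.map (Subgroup.subtype _) = Y at *
  subst e1
  have h1 := CfsgLib.CosetEnum.card_inf_mul_relIndex (Subgroup.centralizer (Subgroup.zpowers y : Set G))
    (Subgroup.normalizer (Subgroup.zpowers y : Set G))
  have h2 := (Subgroup.normalizer (Subgroup.zpowers y : Set G)).card_mul_index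
  rw [inf_eq_right.2 (Subgroup.centralizer_le_normalizer _), h.relIndex, h.card_cent] at h1
  rw [← h1, m.card] at h2
  have h3 : ¬ 3 ∣ (P.toSubgroup.map (Subgroup.subtype _)).index := by
    rw [Subgroup.index_map_subtype, Nat.prime_three.dvd_mul, not_or]
    exact ⟨P.not_dvd_index, by omega⟩
  obtain ⟨g, -, hg⟩ := CfsgLib.SylTools.exists_conj_le_of_not_dvd_relIndex (H := ⊤)
    (IsPGroup.of_card (p := 3) (n := 5) m.spec3.2) le_top (P.isPGroup'.map _)
    (by rwa [Subgroup.relIndex_top_right])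
  have m' := m.map (MulAut.conj g)
  have h4 := m'.three ((s.y3 m.tm).map (MulAut.conj g))
  exact ⟨h3, _, (CfsgLib.CosetEnum.map_gen (MulAut.conj g).toMonoidHom _ A5).ge.trans
    (CfsgLib.SylTools.map_conj_le_iff.2 hg), m'.elem3, m'.spec3.2, h4.1, inferInstance, h4.2⟩

end Cfsg.Agent.S1725
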