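import Cfsg.Statements.S1755
import Cfsg.Agent.Lib.Comp.FStar
import Cfsg.Agent.Lib.Transfer.Thompson
import Cfsg.Agent.Lib.Core.MinNormal

set_option autoImplicit false
open Cfsg

namespace Cfsg.Agent.S1755

open Subgroup CfsgLib

/-- Let G be a finite group and let z be an involution of G such that Q, the generalized Fitting subgroup of the centralizer C of z, is a 2-group of symplectic type (every characteristic abelian subgroup of Q is cyclic). Let B be a characteristic abelian subgroup of Q, viewed as a subgroup of G. Then for every g in G, the conjugate of B by g either equals B or meets B trivially. -/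
theorem result {G : Type*} [Group G] [Finite G] (z : G) (hz : orderOf z = 2) (hQ : Cfsg.IsOfSymplecticType ↥(Cfsg.generalizedFittingSubgroup ↥(Subgroup.centralizer ({z} : Set G))))
    (B : Subgroup ↥(Cfsg.generalizedFittingSubgroup ↥(Subgroup.centralizer ({z} : Set G)))) (hBc : B.Characteristic) (hBa : IsMulCommutative ↥B) (g : G) :
    ((B.map (Cfsg.generalizedFittingSubgroup ↥(Subgroup.centralizer ({z} : Set G))).subtype).map (Subgroup.centralizer ({z} : Set G)).subtype).map (MulAut.conj g).toMonoidHom =
        (B.map (Cfsg.generalizedFittingSubgroup ↥(Subgroup.centralizer ({z} : Set G))).subtype).map (Subgroup.centralizer ({z} : Set G)).subtype ∨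
      ((B.map (Cfsg.generalizedFittingSubgroup ↥(Subgroup.centralizer ({z} : Set G))).subtype).map (Subgroup.centralizer ({z} : Set G)).subtype).map (MulAut.conj g).toMonoidHom ⊓
        (B.map (Cfsg.generalizedFittingSubgroup ↥(Subgroup.centralizer ({z} : Set G))).subtype).map (Subgroup.centralizer ({z} : Set G)).subtype = ⊥ := by
  have := Comp.fstar_normal (G := centralizer ({z} : Set G))
  have hz' : (⟨z, mem_centralizer_singleton_iff.2 rfl⟩ : centralizer ({z} : Set G)) ∈ center _ :=
    mem_center_iff.2 fun x => Subtype.ext (mem_centralizer_singleton_iff.1 x.2)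
  have hzQ := Comp.fit_le_fstar (Comp.center_le_fit hz')
  generalize generalizedFittingSubgroup (centralizer ({z} : Set G)) = Q at *
  have hc := hQ.2 (B ⊔ center Q) inferInstance (Core.isMulCommutative_sup
    (le_centralizer_iff.1 (center_le_centralizer _)))
  have key : ∀ x ∈ (B.map Q.subtype).map (centralizer ({z} : Set G)).subtype, orderOf x = 2 → x = z := by
    rintro _ ⟨_, ⟨x, hx, rfl⟩, rfl⟩ h
    exact congrArg (fun y : Q => (y.1 : G)) (Transfer.eq_of_orderOf_eq_two_of_isCyclic hc
      (b := ⟨_, hzQ⟩) (mem_sup_left hx) (mem_sup_right (mem_center_iff.2 fun y =>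
        Subtype.ext (mem_center_iff.1 hz' y))) (by simpa using h) (by simpa using hz))
  refine or_iff_not_imp_right.2 fun h => ?_
  obtain ⟨x, ⟨⟨y, hy, rfl⟩, hx⟩, h2⟩ := Core.exists_mem_orderOf_eq_of_isPGroup
    ((((hQ.1.to_subgroup B).map _).map _).to_inf_right) h
  have h3 := key _ hx h2
  rw [key y hy (((MulAut.conj g).orderOf_eq y).symm.trans h2)] at h3
  have : (B.map Q.subtype).Normal := inferInstance
  exact Core.mem_normalizer_iff_map_conj_eq'.1 (Core.le_normalizer_map_subtype_of_normal _
    (mem_centralizer_singleton_iff.2 (mul_inv_eq_iff_eq_mul.1 h3)))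

end Cfsg.Agent.S1755
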