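import Cfsg.Statements.S5395
import Cfsg.Agent.Lib.ExtraTwo.Coord

set_option autoImplicit false
open Cfsg

namespace Cfsg.Agent.S5395


/-- For a finite extraspecial 2-group E, an automorphism of E that induces the identity on E modulo its centre is inner (so these automorphisms form exactly the inner automorphism group, an elementary abelian 2-group of order |E|/2). -/
theorem result {E : Type*} [Group E] [Finite E] (hE : Cfsg.IsExtraspecial 2 E) (φ : E ≃* E) (hφ : ∀ x : E, φ x * x⁻¹ ∈ Subgroup.center E) : ∃ g : E, ∀ x : E, φ x = g * x * g⁻¹ := by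
  obtain ⟨z, h⟩ := CfsgLib.ExtraTwo.exists_ES_top hE
  obtain ⟨u, -, hu⟩ := h.inner φ (fun x _ y _ => map_mul φ x y) (fun x _ => by
    have h1 := h.center _ trivial fun q _ => Subgroup.mem_center_iff.mp (hφ x) q
    rcases h1 with e | e
    · left; exact mul_inv_eq_one.mp e
    · right; rw [h.comm_z x trivial, ← e]; group)
  exact ⟨u, fun x => hu x trivial⟩

end Cfsg.Agent.S5395
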