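import Cfsg.Statements.S1756
import Cfsg.Agent.S5395
import Cfsg.Agent.Lib.Core.Basic

set_option autoImplicit false
open Cfsg

namespace Cfsg.Agent.S1756

open Subgroup CfsgLib

/-- Let Q be an extraspecial 2-subgroup of the finite group G (special with centre of order 2) and t an involution of G normalizing Q such that the centralizer of t in Q has index at most 2 in Q. Then t lies in the product of Q with the centralizer of Q. -/
theorem result {G : Type*} [Group G] [Finite G] (Q : Subgroup G)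
    (hQ : Cfsg.IsExtraspecial 2 ↥Q) (t : G) (ht : orderOf t = 2) (htN : t ∈ Subgroup.normalizer (Q : Set G))
    (hi : (Subgroup.centralizer ({t} : Set G) ⊓ Q).relIndex Q ≤ 2) :
    t ∈ Q ⊔ Subgroup.centralizer (Q : Set G) := by
  let φ := Q.normalizerMonoidHom ⟨t, htN⟩
  have hφ : ∀ x : Q, (φ x : G) = t * x * t⁻¹ := fun _ => rfl
  have h2 : ∀ x, φ (φ x) = x := fun x => Subtype.ext (by
    have : t * t = 1 := by rw [← sq, ← ht, pow_orderOf_eq_one]
    rw [hφ, hφ, show t * (t * x * t⁻¹) * t⁻¹ = t * t * x * (t * t)⁻¹ by group, this]; group)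
  obtain ⟨K, hK, hKi⟩ : ∃ K : Subgroup Q, (∀ x, x ∈ K ↔ φ x = x) ∧ K.index ≤ 2 :=
    ⟨_, fun x => by
      rw [mem_subgroupOf, mem_inf, mem_centralizer_singleton_iff, Subtype.ext_iff, hφ,
        mul_inv_eq_iff_eq_mul, eq_comm]
      exact and_iff_left x.2, hi⟩
  obtain ⟨g, hg⟩ := S5395.result hQ φ fun x => by
    by_cases hx : x ∈ K
    · simp [(hK x).1 hx]
    have h0 := K.index_ne_zero_of_finite
    have h1 : K.index ≠ 1 := fun e => hx (index_eq_one.1 e ▸ mem_top x)
    have hm := fun a b => @mul_mem_iff_of_index_two _ _ K (by omega) a b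
    have h3 : φ x * x⁻¹ ∈ K := (hm _ _).2 (iff_of_false (fun k => hx ((hK x).2
      (((hK _).1 k).symm.trans (h2 x)))) (mt (inv_mem_iff.1) hx))
    have h4 : ∀ y ∈ K, y * (φ x * x⁻¹) = φ x * x⁻¹ * y := fun y hy => by
      have := (hK _).1 ((hm _ x).2 (iff_of_false (fun k => hx (inv_mem_iff.1
        ((mul_mem_cancel_right hy).1 k))) hx) : x⁻¹ * y * x ∈ K)
      rw [map_mul, map_mul, map_inv, (hK y).1 hy] at this
      calc _ = φ x * ((φ x)⁻¹ * y * φ x) * x⁻¹ := by group
        _ = _ := by rw [this]; group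
    have h5 := (hK _).1 h3
    have h6 := (hK _).1 ((hm x x).2 Iff.rfl)
    rw [map_mul, map_inv, h2] at h5
    rw [map_mul] at h6
    have h7 : x * (φ x * x⁻¹) = φ x * x⁻¹ * x := by
      calc _ = x * (x * (φ x)⁻¹) := by rw [h5]
        _ = φ x * φ x * (φ x)⁻¹ := by rw [h6]; group
        _ = _ := by group
    refine mem_center_iff.2 fun y => ?_
    by_cases hy : y ∈ K
    · exact h4 y hy
    · have := h4 _ ((hm y x⁻¹).2 (iff_of_false hy (mt (inv_mem_iff.1) hx)))
      calc _ = y * x⁻¹ * (x * (φ x * x⁻¹)) := by group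
        _ = y * x⁻¹ * (φ x * x⁻¹) * x := by rw [h7]; group
        _ = _ := by rw [this]; group
  rw [← mul_inv_cancel_left (g : G) t]
  refine mul_mem_sup g.2 fun y hy => ?_
  have := (hφ ⟨y, hy⟩).symm.trans (congrArg Subtype.val (hg _))
  calc _ = (g : G)⁻¹ * (g * y * (g : G)⁻¹) * t := by group
    _ = (g : G)⁻¹ * (t * y * t⁻¹) * t := by rw [this]; rfl
    _ = _ := by group

end Cfsg.Agent.S1756
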