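import Cfsg.Statements.S1774
import Cfsg.Agent.Lib.Comp.FStar
import Cfsg.Agent.Lib.PGroup.Symplectic
import Cfsg.Agent.Lib.Core.Frattini

set_option autoImplicit false
open Cfsg

namespace Cfsg.Agent.S1774

open Subgroup CfsgLib

variable {G : Type*} [Group G]

/-- the element-wise data of a large symplectic type subgroup of exponent dividing four -/
structure Sy (Q : Subgroup G) (z : G) : Prop where
  ne_one : z ≠ 1
  zz : z * z = 1
  mem : z ∈ Q
  comm_z : ∀ x ∈ Q, x * z = z * x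
  sq : ∀ x ∈ Q, x * x = 1 ∨ x * x = z
  cen : ∀ x ∈ Q, (∀ q ∈ Q, q * x = x * q) → x * x = 1 → x = 1 ∨ x = z
  norm : ∀ g : G, g * z = z * g → ∀ x ∈ Q, g * x * g⁻¹ ∈ Q
  cent : ∀ g : G, g * z = z * g → (∀ q ∈ Q, q * g = g * q) → g ∈ Q
  big : ∀ N : Subgroup G, (∀ n ∈ N, n * z = z * n) →
    (∀ h : G, h * z = z * h → ∀ n ∈ N, h * n * h⁻¹ ∈ N) → (∀ n ∈ N, n * n ∈ Q) → N ≤ Q

theorem conj_comm_iff (g x y : G) :
    (g * x * g⁻¹) * (g * y * g⁻¹) = (g * y * g⁻¹) * (g * x * g⁻¹) ↔ x * y = y * x := by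
  constructor
  · intro e
    calc x * y = g⁻¹ * ((g * x * g⁻¹) * (g * y * g⁻¹)) * g := by group
      _ = y * x := by rw [e]; group
  · intro e
    calc _ = g * (x * y) * g⁻¹ := by group
      _ = _ := by rw [e]; group

theorem conj_eq {x g : G} (h : g * x = x * g) : g * x * g⁻¹ = x := by rw [h]; group

theorem comm_of_conj {x g : G} (h : g * x * g⁻¹ = x) : g * x = x * g := by
  conv_rhs => rw [← h]
  group

namespace Sy
variable {Q : Subgroup G} {z : G}

theorem inv_eq (h : Sy Q z) : z⁻¹ = z := inv_eq_of_mul_eq_one_right h.zz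

theorem zz' (h : Sy Q z) (x : G) : x * z * z = x := by rw [mul_assoc, h.zz, mul_one]

theorem inv_mem (h : Sy Q z) {x : G} (hx : x ∈ Q) : x⁻¹ = x ∨ x⁻¹ = x * z := by
  rcases h.sq x hx with e | e
  · exact Or.inl (inv_eq_of_mul_eq_one_right e)
  · exact Or.inr (inv_eq_of_mul_eq_one_right (by rw [← mul_assoc, e, h.zz]))

theorem comm (h : Sy Q z) {x y : G} (hx : x ∈ Q) (hy : y ∈ Q) :
    x * y = y * x ∨ x * y = y * x * z := by
  have h1 := h.inv_mem (Q.mul_mem hy hx)
  rw [mul_inv_rev] at h1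
  have e1 : x * z * y = x * y * z := by rw [mul_assoc, ← h.comm_z y hy, mul_assoc]
  have e2 : ∀ a b : G, a * z = b * z ↔ a = b := fun a b => mul_left_inj z
  have e3 : ∀ a b : G, a * z = b ↔ a = b * z := fun a b =>
    ⟨fun e => by rw [← e, h.zz'], fun e => by rw [e, h.zz']⟩
  rcases h.inv_mem hx with a | a <;> rcases h.inv_mem hy with b | b <;> rw [a, b] at h1
  · exact h1
  · rw [← mul_assoc, e2, e3] at h1; tauto
  · rw [e1, e2, e3] at h1; tauto
  · rw [← mul_assoc, e1, h.zz'] at h1; exact h1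

theorem comm_of_ne (h : Sy Q z) {x y : G} (hx : x ∈ Q) (hy : y ∈ Q) (hne : x * y ≠ y * x) :
    x * y = y * x * z := (h.comm hx hy).resolve_left hne

theorem conj (h : Sy Q z) {x y : G} (hx : x ∈ Q) (hy : y ∈ Q) :
    x * y * x⁻¹ = y ∨ x * y * x⁻¹ = y * z := by
  rcases h.comm hx hy with e | e
  · exact Or.inl (conj_eq e)
  · right; rw [e, mul_assoc y, h.comm_z x hx]; group

theorem mul_comm_of_not_comm (h : Sy Q z) {x a b : G} (hx : x ∈ Q) (ha : a ∈ Q) (hb : b ∈ Q)
    (h1 : a * x ≠ x * a) (h2 : b * x ≠ x * b) : a * b * x = x * (a * b) := by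
  calc a * b * x = a * (x * b * z) := by rw [mul_assoc, h.comm_of_ne hb hx h2]
    _ = (a * x) * (b * z) := by group
    _ = x * a * (z * b) * z := by rw [h.comm_of_ne ha hx h1]; group
    _ = x * (a * b) := by rw [← h.comm_z b hb, ← mul_assoc, h.zz']; group

theorem double_cent (h : Sy Q z) {t u : G} (ht : t ∈ Q) (hu : u ∈ Q) (ht2 : t * t = 1)
    (hu2 : u * u = 1) (hc : ∀ y ∈ Q, y * t = t * y → y * u = u * y) :
    u = 1 ∨ u = z ∨ u = t ∨ u = t * z := by
  by_cases hcen : ∀ q ∈ Q, q * u = u * q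
  · rcases h.cen u hu hcen hu2 with e | e
    · exact Or.inl e
    · exact Or.inr (Or.inl e)
  push Not at hcen
  obtain ⟨y, hy, hyu⟩ := hcen
  have hyt : y * t ≠ t * y := fun e => hyu (hc y hy e)
  have htu : t * u = u * t := hc t ht rfl
  have h1 : ∀ q ∈ Q, q * (t * u) = t * u * q := by
    intro q hq
    by_cases hqt : q * t = t * q
    · rw [← mul_assoc, hqt, mul_assoc, hc q hq hqt, mul_assoc]
    · have h2 := hc _ (Q.mul_mem hq hy) (h.mul_comm_of_not_comm ht hq hy hqt hyt)
      have hqu : q * u ≠ u * q := fun e => hyu (by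
        have : q * (y * u) = q * (u * y) := by rw [← mul_assoc, h2, ← mul_assoc, ← e, mul_assoc]
        exact mul_left_cancel this)
      exact (h.mul_comm_of_not_comm hq ht hu (Ne.symm hqt) (Ne.symm hqu)).symm
  have h3 : t * u * (t * u) = 1 := by
    calc t * u * (t * u) = t * (u * t) * u := by group
      _ = (t * t) * (u * u) := by rw [← htu]; group
      _ = 1 := by rw [ht2, hu2, one_mul]
  rcases h.cen _ (Q.mul_mem ht hu) h1 h3 with e | e
  · right; right; left
    calc u = (t * t) * u := by rw [ht2, one_mul]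
      _ = t := by rw [mul_assoc, e, mul_one]
  · right; right; right
    calc u = (t * t) * u := by rw [ht2, one_mul]
      _ = t * z := by rw [mul_assoc, e]

theorem mem_of_conj (h : Sy Q z) {g : G} (hg : g * z = z * g)
    (ht : ∀ x ∈ Q, g * x * g⁻¹ = x ∨ g * x * g⁻¹ = x * z) : g ∈ Q := by
  let N : Subgroup G :=
    { carrier := {g | g * z = z * g ∧ ∀ x ∈ Q, g * x * g⁻¹ = x ∨ g * x * g⁻¹ = x * z}
      one_mem' := ⟨by simp, fun x _ => Or.inl (by simp)⟩
      mul_mem' := by
        rintro a b ⟨ha, ha'⟩ ⟨hb, hb'⟩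
        refine ⟨(Commute.mul_left ha hb : Commute (a * b) z), fun x hx => ?_⟩
        have e : a * b * x * (a * b)⁻¹ = a * (b * x * b⁻¹) * a⁻¹ := by group
        have e' : a * (x * z) * a⁻¹ = a * x * a⁻¹ * z := by
          rw [mul_assoc _ a⁻¹, (Commute.inv_left ha : Commute a⁻¹ z).eq]; group
        rw [e]
        rcases hb' x hx with e1 | e1 <;> rw [e1]
        · exact ha' x hx
        · rw [e']
          rcases ha' x hx with e2 | e2 <;> rw [e2]
          · exact Or.inr rfl
          · exact Or.inl (h.zz' x)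
      inv_mem' := by
        rintro a ⟨ha, ha'⟩
        refine ⟨(Commute.inv_left ha : Commute a⁻¹ z), fun x hx => ?_⟩
        rcases ha' x hx with e | e
        · left; conv_lhs => rw [← e]
          group
        · right
          have : x = a * x * a⁻¹ * z := by rw [e, h.zz']
          conv_lhs => rw [this]
          rw [mul_assoc (a * x), (Commute.inv_left ha : Commute a⁻¹ z).eq]; group }
  refine h.big N (fun n hn => hn.1) ?_ ?_ ⟨hg, ht⟩
  · rintro k hk n ⟨hn, hn'⟩
    refine ⟨(Commute.mul_left (Commute.mul_left hk hn) (Commute.inv_left hk) :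
      Commute (k * n * k⁻¹) z), fun x hx => ?_⟩
    have hx' := h.norm k⁻¹ (Commute.inv_left hk : Commute k⁻¹ z) x hx
    have e : k * n * k⁻¹ * x * (k * n * k⁻¹)⁻¹ = k * (n * (k⁻¹ * x * k⁻¹⁻¹) * n⁻¹) * k⁻¹ := by group
    rw [e]
    rcases hn' _ hx' with e1 | e1 <;> rw [e1]
    · left; group
    · right; rw [mul_assoc k, mul_assoc _ z, ← (Commute.inv_left hk : Commute k⁻¹ z).eq]; group
  · rintro n ⟨hn, hn'⟩
    refine h.cent _ (Commute.mul_left hn hn : Commute (n * n) z) fun q hq => ?_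
    refine (comm_of_conj ?_).symm
    have e : n * n * q * (n * n)⁻¹ = n * (n * q * n⁻¹) * n⁻¹ := by group
    rw [e]
    rcases hn' q hq with e1 | e1 <;> rw [e1]
    · exact e1
    · have e' : n * (q * z) * n⁻¹ = n * q * n⁻¹ * z := by
        rw [mul_assoc _ n⁻¹, (Commute.inv_left hn : Commute n⁻¹ z).eq]; group
      rw [e', e1, h.zz']

theorem map (h : Sy Q z) (φ : G ≃* G) : Sy (Q.map φ.toMonoidHom) (φ z) := by
  have hm : ∀ x, x ∈ Q.map φ.toMonoidHom ↔ φ.symm x ∈ Q := fun x => mem_map_equiv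
  have hc : ∀ g, g * φ z = φ z * g ↔ φ.symm g * z = z * φ.symm g := fun g => by
    rw [← φ.symm.injective.eq_iff]; simp
  refine ⟨by simpa using h.ne_one, by rw [← map_mul, h.zz, map_one], ⟨z, h.mem, rfl⟩, ?_, ?_, ?_,
    ?_, ?_, ?_⟩
  · intro x hx; exact (hc x).2 (h.comm_z _ ((hm x).1 hx))
  · rintro _ ⟨x, hx, rfl⟩
    rcases h.sq x hx with e | e
    · left; simp [← map_mul, e]
    · right; simp [← map_mul, e]
  · rintro _ ⟨x, hx, rfl⟩ h1 h2
    have := h.cen x hx (fun q hq => φ.injective (by simpa using h1 _ ⟨q, hq, rfl⟩))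
      (φ.injective (by simpa using h2))
    rcases this with e | e <;> simp [e]
  · intro g hg x hx
    rw [hm] at hx ⊢
    simpa using h.norm _ ((hc g).1 hg) _ hx
  · intro g hg h1
    rw [hm]
    refine h.cent _ ((hc g).1 hg) fun q hq => φ.injective ?_
    simpa using h1 _ ⟨q, hq, rfl⟩
  · intro N h1 h2 h3 n hn
    rw [hm]
    refine h.big (N.comap φ.toMonoidHom) (fun n hn => ?_) (fun k hk n hn => ?_) (fun n hn => ?_)
      (by simpa using hn)
    · simpa using (hc _).1 (h1 _ hn)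
    · have := h2 (φ k) ((hc _).2 (by simpa using hk)) _ hn
      simpa using this
    · simpa using (hm _).1 (h3 _ hn)

theorem exists_conj (h : Sy Q z) {t : G} (ht : t ∈ Q) (ht2 : t * t = 1) (h1 : t ≠ 1) (hz : t ≠ z) :
    ∃ a ∈ Q, a * t = t * a * z := by
  by_contra hn
  push Not at hn
  rcases h.cen t ht (fun q hq => (h.comm hq ht).resolve_right (hn q hq)) ht2 with e | e
  exacts [h1 e, hz e]

/-- the dihedral case -/
theorem small (h : Sy Q z) {t : G} (ht : t ∈ Q) (ht2 : t * t = 1) (h1 : t ≠ 1) (hz : t ≠ z)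
    (hP : ∀ p ∈ Q, p * t = t * p → p * p = 1) {k : G} (hk : k * z = z * k) : k ∈ Q := by
  have hP4 : ∀ p ∈ Q, p * t = t * p → p = 1 ∨ p = z ∨ p = t ∨ p = t * z := by
    intro p hp hpt
    refine h.double_cent ht hp ht2 (hP p hp hpt) fun y hy hyt => ?_
    have e1 := hP _ (Q.mul_mem hy hp) (Commute.mul_left hyt hpt : Commute (y * p) t)
    have e2 := inv_eq_of_mul_eq_one_right e1
    rw [mul_inv_rev, inv_eq_of_mul_eq_one_right (hP p hp hpt),
      inv_eq_of_mul_eq_one_right (hP y hy hyt)] at e2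
    exact e2.symm
  have sq : ∀ a ∈ Q, a * t = t * a * z → a * t * (a * t) = a * a * z := by
    intro a ha e
    calc a * t * (a * t) = a * t * (t * a * z) := by rw [e]
      _ = a * (t * t) * a * z := by group
      _ = a * a * z := by rw [ht2, mul_one]
  have hzt : z * t = t * z := (h.comm_z t ht).symm
  obtain ⟨a, ha, hat, haa⟩ : ∃ a ∈ Q, a * t = t * a * z ∧ a * a = z := by
    obtain ⟨a, ha, e⟩ := h.exists_conj ht ht2 h1 hz
    rcases h.sq a ha with e1 | e1
    · refine ⟨a * t, Q.mul_mem ha ht, ?_, by rw [sq a ha e, e1, one_mul]⟩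
      calc a * t * t = t * a * (z * t) := by rw [e]; group
        _ = t * (a * t) * z := by rw [hzt]; group
    · exact ⟨a, ha, e, e1⟩
  have hne : a * t ≠ t * a := fun e => h.ne_one (by rw [e] at hat; exact left_eq_mul.1 hat)
  have hzsq : ∀ x ∈ Q, x * z * (x * z) = x * x := fun x hx => by
    rw [mul_assoc x z, ← mul_assoc z, ← h.comm_z x hx, h.zz']
  have hQ : ∀ x ∈ Q, (x = 1 ∨ x = z ∨ x = t ∨ x = t * z) ∨
      (x = a ∨ x = a * z ∨ x = a * t ∨ x = a * t * z) := by
    intro x hx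
    by_cases hxt : x * t = t * x
    · exact Or.inl (hP4 x hx hxt)
    right
    have h2 : a⁻¹ * t ≠ t * a⁻¹ := fun e => hne (by
      have := (Commute.inv_left e : Commute a⁻¹⁻¹ t); simpa using this.eq)
    have h3 := hP4 _ (Q.mul_mem (Q.inv_mem ha) hx)
      (h.mul_comm_of_not_comm ht (Q.inv_mem ha) hx h2 hxt)
    simp only [inv_mul_eq_iff_eq_mul, mul_one, ← mul_assoc] at h3
    exact h3
  have hatsq : a * t * (a * t) = 1 := by rw [sq a ha hat, haa, h.zz]
  refine h.big (centralizer {z}) (fun n hn => mem_centralizer_singleton_iff.1 hn)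
    (fun k hk n hn => mem_centralizer_singleton_iff.2 (Commute.mul_left (Commute.mul_left hk
      (mem_centralizer_singleton_iff.1 hn)) (Commute.inv_left hk) : Commute (k * n * k⁻¹) z))
    (fun n hn => ?_) (mem_centralizer_singleton_iff.2 hk)
  have hn := mem_centralizer_singleton_iff.1 hn
  have cz : ∀ x, n * (x * z) * n⁻¹ = n * x * n⁻¹ * z := fun x => by
    rw [mul_assoc _ n⁻¹, (Commute.inv_left hn : Commute n⁻¹ z).eq]; group
  have cm : ∀ x y, n * (x * y) * n⁻¹ = n * x * n⁻¹ * (n * y * n⁻¹) := fun x y => by group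
  have cnn : ∀ x, n * n * x * (n * n)⁻¹ = n * (n * x * n⁻¹) * n⁻¹ := fun x => by group
  have na : n * a * n⁻¹ = a ∨ n * a * n⁻¹ = a * z := by
    have e : n * a * n⁻¹ * (n * a * n⁻¹) = z := by rw [← cm, haa, conj_eq hn]
    have hz1 := h.ne_one.symm
    rcases hQ _ (h.norm n hn a ha) with (e1 | e1 | e1 | e1) | (e1 | e1 | e1 | e1)
    · rw [e1, one_mul] at e; exact absurd e hz1
    · rw [e1, h.zz] at e; exact absurd e hz1
    · rw [e1, ht2] at e; exact absurd e hz1
    · rw [e1, hzsq t ht, ht2] at e; exact absurd e hz1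
    · exact Or.inl e1
    · exact Or.inr e1
    · rw [e1, hatsq] at e; exact absurd e hz1
    · rw [e1, hzsq _ (Q.mul_mem ha ht), hatsq] at e; exact absurd e hz1
  have nna : n * n * a * (n * n)⁻¹ = a := by
    rw [cnn]
    rcases na with e | e <;> rw [e]
    · exact e
    · rw [cz, e, h.zz']
  have nnt : n * n * t * (n * n)⁻¹ = t ∨ n * n * t * (n * n)⁻¹ = t * z := by
    have e : n * t * n⁻¹ * (n * t * n⁻¹) = 1 := by rw [← cm, ht2]; group
    have e5 : a * (a * t) = t * z := by rw [← mul_assoc, haa, hzt]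
    have e6 : a * z * (a * t) = t := by
      rw [mul_assoc a z, ← mul_assoc z, ← h.comm_z a ha, ← mul_assoc, ← mul_assoc, haa, h.zz,
        one_mul]
    rw [cnn]
    rcases hQ _ (h.norm n hn t ht) with (e1 | e1 | e1 | e1) | (e1 | e1 | e1 | e1)
    · exact absurd (by simpa using e1) h1
    · refine absurd ?_ hz
      calc t = n⁻¹ * (n * t * n⁻¹) * n := by group
        _ = z := by rw [e1, mul_assoc, ← hn]; group
    · rw [e1, e1]; exact Or.inl rfl
    · rw [e1, cz, e1, h.zz']; exact Or.inl rfl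
    · rw [e1, haa] at e; exact absurd e h.ne_one
    · rw [e1, hzsq a ha, haa] at e; exact absurd e h.ne_one
    · rw [e1, cm, e1]
      rcases na with e2 | e2 <;> rw [e2]
      · exact Or.inr e5
      · exact Or.inl e6
    · rw [e1, cz, cm, e1]
      rcases na with e2 | e2 <;> rw [e2, ← mul_assoc _ (a * t), h.zz']
      · exact Or.inr e5
      · exact Or.inl e6
  have hnn : n * n * z = z * (n * n) := (Commute.mul_left hn hn : Commute (n * n) z)
  refine h.mem_of_conj hnn ?_
  generalize n * n = m at nna nnt hnn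
  have cz : ∀ x, m * (x * z) * m⁻¹ = m * x * m⁻¹ * z := fun x => by
    rw [mul_assoc _ m⁻¹, (Commute.inv_left hnn : Commute m⁻¹ z).eq]; group
  have cm : ∀ x y, m * (x * y) * m⁻¹ = m * x * m⁻¹ * (m * y * m⁻¹) := fun x y => by group
  have mz : ∀ x, (m * x * m⁻¹ = x ∨ m * x * m⁻¹ = x * z) →
      (m * (x * z) * m⁻¹ = x * z ∨ m * (x * z) * m⁻¹ = x * z * z) := fun x e => by
    rw [cz]; rcases e with e | e <;> rw [e]
    · exact Or.inl rfl
    · exact Or.inr rfl
  have nat : m * (a * t) * m⁻¹ = a * t ∨ m * (a * t) * m⁻¹ = a * t * z := by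
    rw [cm, nna]; rcases nnt with e | e <;> rw [e]
    · exact Or.inl rfl
    · exact Or.inr (mul_assoc _ _ _).symm
  intro x hx
  rcases hQ x hx with (e1 | e1 | e1 | e1) | (e1 | e1 | e1 | e1) <;> rw [e1]
  · left; group
  · exact Or.inl (conj_eq hnn)
  · exact nnt
  · exact mz _ nnt
  · exact Or.inl nna
  · exact mz _ (Or.inl nna)
  · exact nat
  · exact mz _ nat

theorem mem_conj (h : Sy Q z) {g : G} (ht : g * z * g⁻¹ ∈ Q) (hne : g * z * g⁻¹ ≠ z) :
    z ∈ Q.map (MulAut.conj g).toMonoidHom := by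
  have h1 : Sy (Q.map (MulAut.conj g).toMonoidHom) (g * z * g⁻¹) := h.map (MulAut.conj g)
  have hmem : ∀ x, x ∈ Q.map (MulAut.conj g).toMonoidHom ↔ g⁻¹ * x * g ∈ Q := fun x => by
    rw [mem_map_equiv]; simp
  set t := g * z * g⁻¹ with htdef
  set V := Q.map (MulAut.conj g).toMonoidHom with hV
  have ctz := h.comm_z t ht
  by_contra hz
  by_cases hP : ∀ p ∈ Q, p * t = t * p → p * p = 1
  · refine hz ((hmem z).2 (h.small ht h1.zz h1.ne_one hne hP ?_))
    calc g⁻¹ * z * g * z = g⁻¹ * (z * t) * g := by rw [htdef]; group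
      _ = z * (g⁻¹ * z * g) := by rw [← ctz, htdef]; group
  push Not at hP
  obtain ⟨x, hx, hxt, hxx⟩ := hP
  replace hxx := (h.sq x hx).resolve_left hxx
  -- no element of `V` maps `z` to `z t`
  have hA : ∀ v ∈ V, z * v * z⁻¹ = v * t → False := by
    intro v hv e
    apply hz
    have hb : v⁻¹ * t * v⁻¹⁻¹ = t := conj_eq (h1.comm_z _ (V.inv_mem hv))
    have hbz : v⁻¹ * z * v⁻¹⁻¹ = z * t := by
      calc v⁻¹ * z * v⁻¹⁻¹ = v⁻¹ * (z * v * z⁻¹) * z := by group
        _ = z * t := by rw [e, ← ctz]; group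
    generalize v⁻¹ = b at hb hbz
    obtain ⟨a, ha, e⟩ := h.exists_conj ht h1.zz h1.ne_one hne
    have e' : a * t * a⁻¹ = t * z := by rw [e, mul_assoc t, h.comm_z a ha]; group
    have haz : a * z * a⁻¹ = z := conj_eq (h.comm_z a ha)
    have n1 : (b * a * b) * z * (b * a * b)⁻¹ = t := by
      calc _ = b * (a * (b * z * b⁻¹) * a⁻¹) * b⁻¹ := by group
        _ = b * ((a * z * a⁻¹) * (a * t * a⁻¹)) * b⁻¹ := by rw [hbz]; group
        _ = t := by rw [haz, e', ctz, ← mul_assoc z, h.zz, one_mul, hb]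
    have n2 : (b * a * b) * t * (b * a * b)⁻¹ = z := by
      calc _ = b * (a * (b * t * b⁻¹) * a⁻¹) * b⁻¹ := by group
        _ = b * (t * z) * b⁻¹ := by rw [hb, e']
        _ = (b * t * b⁻¹) * (b * z * b⁻¹) := by group
        _ = z := by rw [hb, hbz, ← ctz, ← mul_assoc, h1.zz, one_mul]
    generalize b * a * b = n at n1 n2
    rw [hmem]
    have := h.norm (g⁻¹ * n) (comm_of_conj (by
      calc g⁻¹ * n * z * (g⁻¹ * n)⁻¹ = g⁻¹ * (n * z * n⁻¹) * g := by group
        _ = z := by rw [n1, htdef]; group)) t ht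
    convert this using 1
    rw [← n2]; group
  have hzn : ∀ v ∈ V, z * v * z⁻¹ ∈ V := h1.norm z ctz.symm
  have hzz : ∀ v, z * (z * v * z⁻¹) * z⁻¹ = v := fun v => by
    calc _ = (z * z) * v * (z * z)⁻¹ := by group
      _ = v := by rw [h.zz]; group
  have hw : ∀ v ∈ V, (v⁻¹ * (z * v * z⁻¹)) * z = z * (v⁻¹ * (z * v * z⁻¹)) := by
    intro v hv
    have hwQ : v⁻¹ * (z * v * z⁻¹) ∈ V := V.mul_mem (V.inv_mem hv) (hzn v hv)
    have hinv : z * (v⁻¹ * (z * v * z⁻¹)) * z⁻¹ = (v⁻¹ * (z * v * z⁻¹))⁻¹ := by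
      calc _ = z * v⁻¹ * z⁻¹ * (z * (z * v * z⁻¹) * z⁻¹) := by group
        _ = _ := by rw [hzz]; group
    generalize v⁻¹ * (z * v * z⁻¹) = w at hwQ hinv
    rcases h1.inv_mem hwQ with e | e
    · symm; apply comm_of_conj; rw [hinv, e]
    · exact (hA w hwQ (hinv.trans e)).elim
  -- `x` centralizes `C_V(z)` modulo `t`
  have hR : ∀ a ∈ V, a * z = z * a → x * a * x⁻¹ = a ∨ x * a * x⁻¹ = a * t := by
    intro a ha haz
    have hu1 : a⁻¹ * (x * a * x⁻¹) ∈ V := V.mul_mem (V.inv_mem ha) (h1.norm x hxt a ha)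
    have hu : a⁻¹ * (x * a * x⁻¹) ∈ Q := by
      have := Q.mul_mem (h.norm a⁻¹ (Commute.inv_left haz) x hx) (Q.inv_mem hx)
      simpa [mul_assoc] using this
    have hu2 : a⁻¹ * (x * a * x⁻¹) * (a⁻¹ * (x * a * x⁻¹)) = 1 :=
      (h.sq _ hu).resolve_right fun e => hz (e ▸ V.mul_mem hu1 hu1)
    have hE : ∀ y ∈ Q, y * t = t * y → y * (a⁻¹ * (x * a * x⁻¹)) = a⁻¹ * (x * a * x⁻¹) * y := by
      intro y hy hyt
      rcases h.conj hy hu with e | e
      · exact comm_of_conj e
      · exfalso; apply hz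
        have := V.mul_mem (V.inv_mem hu1) (h1.norm y hyt _ hu1)
        rwa [e, inv_mul_cancel_left] at this
    rcases h.double_cent ht hu h1.zz hu2 hE with e | e | e | e
    · left; exact (inv_mul_eq_one.mp e).symm
    · exact absurd (e ▸ hu1) hz
    · right; rw [← e]; group
    · exfalso; apply hz
      have := V.mul_mem (V.inv_mem h1.mem) hu1
      rwa [e, inv_mul_cancel_left] at this
  -- commutation is unchanged by multiplication with commuting elements
  have hiff : ∀ a ∈ V, ∀ b ∈ V, ∀ v ∈ V, (a * v = v * a ↔ b * v = v * b) →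
      a⁻¹ * b * v = v * (a⁻¹ * b) := by
    intro a ha b hb v hv e
    by_cases h2 : a * v = v * a
    · exact (Commute.mul_left (Commute.inv_left h2) (e.1 h2) : Commute (a⁻¹ * b) v)
    · refine h1.mul_comm_of_not_comm hv (V.inv_mem ha) hb (fun h3 => h2 ?_) (fun h3 => h2 (e.2 h3))
      simpa using (Commute.inv_left h3 : Commute a⁻¹⁻¹ v).eq
  -- `C_V(C_V(z))` is centralized by `z`
  have hW : ∀ w ∈ V, (∀ r ∈ V, r * z = z * r → w * r = r * w) → w * z = z * w := by
    intro w hw' hc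
    have hcV : w⁻¹ * (z * w * z⁻¹) ∈ V := V.mul_mem (V.inv_mem hw') (hzn w hw')
    have hcen : ∀ v ∈ V, v * (w⁻¹ * (z * w * z⁻¹)) = w⁻¹ * (z * w * z⁻¹) * v := by
      intro v hv
      refine (hiff w hw' _ (hzn w hw') v hv ?_).symm
      have e1 : Commute w (v⁻¹ * (z * v * z⁻¹)) :=
        hc _ (V.mul_mem (V.inv_mem hv) (hzn v hv)) (hw v hv)
      conv_rhs => rw [← hzz v, conj_comm_iff]
      constructor
      · intro e2
        simpa using (Commute.mul_right e2 e1 : Commute w (v * (v⁻¹ * (z * v * z⁻¹)))).eq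
      · intro e2
        have := (Commute.mul_right e2 e1.inv_right :
          Commute w (z * v * z⁻¹ * (v⁻¹ * (z * v * z⁻¹))⁻¹)).eq
        simpa [mul_assoc] using this
    have hc2 : w⁻¹ * (z * w * z⁻¹) * (w⁻¹ * (z * w * z⁻¹)) = 1 := by
      have e1 : z * (w * w) * z⁻¹ = w * w := by
        rcases h1.sq w hw' with e | e <;> rw [e]
        · group
        · exact conj_eq ctz.symm
      calc _ = w⁻¹ * ((z * w * z⁻¹) * (w⁻¹ * (z * w * z⁻¹))) := by group
        _ = w⁻¹ * w⁻¹ * (z * (w * w) * z⁻¹) := by rw [hcen _ (hzn w hw')]; group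
        _ = 1 := by rw [e1]; group
    rcases h1.cen _ hcV hcen hc2 with e | e
    · exact (comm_of_conj (inv_mul_eq_one.1 e).symm).symm
    · exact (hA w hw' (by rw [← e]; group)).elim
  refine hz (h1.mem_of_conj ctz.symm fun v hv => ?_)
  have hxv := h1.norm x hxt v hv
  have huV : v⁻¹ * (x * v * x⁻¹) ∈ V := V.mul_mem (V.inv_mem hv) hxv
  have hu : v⁻¹ * (x * v * x⁻¹) * z = z * (v⁻¹ * (x * v * x⁻¹)) := by
    refine hW _ huV fun r hr hrz => hiff v hv _ hxv r hr ?_
    rw [← conj_comm_iff x v r]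
    rcases hR r hr hrz with e | e <;> rw [e]
    rw [← mul_assoc, mul_assoc r t, ← h1.comm_z _ hxv, ← mul_assoc r, mul_left_inj]
  have e1 : z * v * z⁻¹ = v * (v⁻¹ * (x * v * x⁻¹) * (x * (v⁻¹ * (x * v * x⁻¹)) * x⁻¹)) := by
    rw [← hxx]; group
  rw [e1]
  rcases hR _ huV hu with e | e <;> rw [e] <;> generalize v⁻¹ * (x * v * x⁻¹) = u at huV <;>
    rcases h1.sq u huV with e2 | e2
  · left; rw [e2, mul_one]
  · right; rw [e2]
  · right; rw [← mul_assoc u, e2, one_mul]
  · left; rw [← mul_assoc u, e2, h1.zz, mul_one]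
end Sy

theorem sq_mem_center {P : Type*} [Group P] [Finite P] (h : IsOfSymplecticType P)
    (h4 : ∀ x : P, x ^ 4 = 1) (x : P) : x ^ 2 ∈ center P := by
  have : Fact (Nat.Prime 2) := ⟨Nat.prime_two⟩
  have hes : ∀ {E : Type _} [Group E] [Finite E], IsExtraspecial 2 E → ∀ e : E, e ^ 2 ∈ center E :=
    fun hE e => hE.1.2.1 ▸ PGroup.pow_mem_frattini hE.1.1 e
  rcases PGroup.symplectic_type_aux h.1 h.2 with h1 | h1 | ⟨E, u, m, hu, hm, hch, hE, hE', huE, hC, -⟩
  · exact mem_center_iff.2 fun y => (IsCyclic.isMulCommutative.1.1 y _)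
  · exact hes h1 x
  have hu2 : u ^ 2 ∈ center P := by
    have := PGroup.zpowers_pow_characteristic (v := u) 2
    refine mem_center_iff.2 fun y => ?_
    have h1 : y * u ^ 2 * y⁻¹ ∈ zpowers (u ^ 2) := Normal.conj_mem inferInstance _ (mem_zpowers _) y
    have h2 : u ^ 2 * u ^ 2 = 1 := by rw [← pow_add]; exact h4 u
    obtain ⟨k, hk⟩ := h1
    have h3 : (u ^ 2) ^ (2 : ℤ) = 1 := by rw [zpow_two]; exact h2
    refine comm_of_conj ?_
    rcases Int.even_or_odd' k with ⟨j, rfl | rfl⟩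
    · have : y * u ^ 2 * y⁻¹ = 1 := by rw [← hk]; simp only; rw [zpow_mul, h3, one_zpow]
      have h5 : u ^ 2 = 1 := by simpa using this
      rw [h5]; simp
    · rw [← hk]; simp only; rw [zpow_add, zpow_mul, h3, one_zpow]; simp
  have htop : E ⊔ zpowers u = ⊤ := by
    rw [← hC, eq_top_iff]
    intro y _
    exact mem_centralizer_singleton_iff.2 (mem_center_iff.1 hu2 y)
  have huc : u ∈ center P := by
    refine mem_center_iff.2 fun y => ?_
    have : (⊤ : Subgroup P) ≤ centralizer {u} := by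
      rw [← htop]
      exact sup_le (fun e he => mem_centralizer_singleton_iff.2 (huE e he))
        (zpowers_le.2 (mem_centralizer_singleton_iff.2 rfl))
    exact mem_centralizer_singleton_iff.1 (this (mem_top y))
  have hn : zpowers u ≤ normalizer (E : Set P) :=
    (zpowers_le.2 huc).trans (center_le_normalizer _)
  obtain ⟨e, he, w, hw, rfl⟩ := (Core.mem_sup_of_le_normalizer_left hn).1 (htop ▸ mem_top x)
  have hwc : w ∈ center P := zpowers_le.2 huc hw
  rw [(show Commute e w from mem_center_iff.1 hwc e).mul_pow]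
  refine mul_mem ?_ (pow_mem hwc 2)
  rcases hE' with h1 | h1
  · exact pow_mem (h1 he) 2
  · have h2 := hes h1 ⟨e, he⟩
    refine mem_center_iff.2 fun y => ?_
    have : (⊤ : Subgroup P) ≤ centralizer {e ^ 2} := by
      rw [← hE]
      refine sup_le (fun a ha => mem_centralizer_singleton_iff.2
        (congrArg Subtype.val (mem_center_iff.1 h2 ⟨a, ha⟩))) fun c hc => ?_
      exact mem_centralizer_singleton_iff.2 (hc _ (pow_mem he 2)).symm
    exact mem_centralizer_singleton_iff.1 (this (mem_top y))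

theorem unique_inv {P : Type*} [Group P] [Finite P] (h : IsOfSymplecticType P) {x z : P}
    (hx : x ∈ center P) (hz : z ∈ center P) (hx2 : x ^ 2 = 1) (hz2 : z ^ 2 = 1) (hz1 : z ≠ 1) :
    x = 1 ∨ x = z := by
  classical
  have := h.2 (center P) inferInstance inferInstance
  have := Fintype.ofFinite (center P)
  by_contra hn
  push Not at hn
  have h1 := IsCyclic.card_pow_eq_one_le (α := center P) (n := 2) two_pos
  have h2 : ({1, ⟨x, hx⟩, ⟨z, hz⟩} : Finset (center P)) ⊆ Finset.univ.filter (fun a => a ^ 2 = 1) := by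
    intro a ha
    simp only [Finset.mem_insert, Finset.mem_singleton] at ha
    rcases ha with rfl | rfl | rfl <;> simp [Subtype.ext_iff, hx2, hz2]
  have h3 := Finset.card_le_card h2
  have h4 : ({1, ⟨x, hx⟩, ⟨z, hz⟩} : Finset (center P)).card = 3 :=
    Finset.card_eq_three.2 ⟨1, ⟨x, hx⟩, ⟨z, hz⟩, fun e => hn.1 (congrArg Subtype.val e).symm,
      fun e => hz1 (congrArg Subtype.val e).symm, fun e => hn.2 (congrArg Subtype.val e), rfl⟩
  omega

theorem sy_of [Finite G] {z : G} (hz : orderOf z = 2)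
    (hQ : IsOfSymplecticType (generalizedFittingSubgroup (centralizer ({z} : Set G))))
    (h4 : ∀ q ∈ (generalizedFittingSubgroup (centralizer ({z} : Set G))).map
      (centralizer ({z} : Set G)).subtype, q ^ 4 = 1) :
    Sy ((generalizedFittingSubgroup (centralizer ({z} : Set G))).map
      (centralizer ({z} : Set G)).subtype) z := by
  have : Fact (Nat.Prime 2) := ⟨Nat.prime_two⟩
  set C := centralizer ({z} : Set G) with hC
  set F := generalizedFittingSubgroup C with hF
  have := Comp.fstar_normal (G := C)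
  have hmC : ∀ g, g ∈ C ↔ g * z = z * g := fun g => mem_centralizer_singleton_iff
  have hz1 : z ≠ 1 := by rintro rfl; simp at hz
  have hz2 : z * z = 1 := by rw [← pow_two, ← hz, pow_orderOf_eq_one]
  have hcent : ∀ g : G, g * z = z * g → (∀ q ∈ F.map C.subtype, q * g = g * q) →
      g ∈ F.map C.subtype := fun g hg h1 =>
    ⟨⟨g, (hmC g).2 hg⟩, Comp.centralizer_fstar_le fun q hq => Subtype.ext (h1 _ ⟨q, hq, rfl⟩), rfl⟩
  have hcz : ∀ x ∈ F.map C.subtype, x * z = z * x := fun x hx => (hmC x).1 (map_subtype_le _ hx)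
  obtain ⟨z', hz', hzz'⟩ := hcent z rfl hcz
  have hzc : (⟨z', hz'⟩ : F) ∈ center F := mem_center_iff.2 fun y => Subtype.ext (Subtype.ext (by
    have : (z' : G) = z := hzz'
    simpa [this] using (hmC _).1 y.1.2))
  have hcen : ∀ x : F, x ∈ center F → x ^ 2 = 1 → ((x : C) : G) = 1 ∨ ((x : C) : G) = z := by
    intro x hx hx2
    have e : (z' : G) = z := hzz'
    rcases unique_inv hQ hx hzc hx2 (Subtype.ext (Subtype.ext (by simp [e, pow_two, hz2])))
      (fun h1 => hz1 (by rw [← e]; exact congrArg (fun y : F => ((y : C) : G)) h1)) with h1 | h1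
    · left; rw [h1]; rfl
    · right; rw [h1]; exact e
  have h4' : ∀ x : F, x ^ 4 = 1 := fun x =>
    Subtype.ext (Subtype.ext (by simpa using h4 _ ⟨x, x.2, rfl⟩))
  refine ⟨hz1, hz2, ⟨z', hz', hzz'⟩, hcz, ?_, ?_, ?_, hcent, ?_⟩
  · rintro _ ⟨x, hx, rfl⟩
    have := hcen _ (sq_mem_center hQ h4' ⟨x, hx⟩) (by rw [← pow_mul]; exact h4' _)
    simpa [pow_two] using this
  · rintro _ ⟨x, hx, rfl⟩ h1 h2
    exact hcen ⟨x, hx⟩ (mem_center_iff.2 fun y => Subtype.ext (Subtype.ext (h1 _ ⟨y, y.2, rfl⟩)))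
      (Subtype.ext (Subtype.ext (by simpa [pow_two] using h2)))
  · rintro g hg _ ⟨x, hx, rfl⟩
    exact ⟨_, Normal.conj_mem inferInstance x hx ⟨g, (hmC g).2 hg⟩, rfl⟩
  · intro N h1 h2 h3 n hn
    have hN : (N.subgroupOf C).Normal := ⟨fun a ha k => h2 k ((hmC _).1 k.2) a ha⟩
    have hp : IsPGroup 2 (N.subgroupOf C) := fun a => ⟨3, Subtype.ext (Subtype.ext (by
      have := h4 _ (h3 _ a.2)
      rw [← pow_two, ← pow_mul] at this
      simpa using this))⟩
    exact ⟨⟨n, (hmC n).2 (h1 n hn)⟩, Comp.pCore_le_fstar 2 (Core.le_pCore hp hn), rfl⟩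

/-- Let G be a finite group and let z be an involution of G such that Q, the generalized Fitting subgroup of the centralizer C of z, is a 2-group of symplectic type (every characteristic abelian subgroup of Q is cyclic); suppose every element of Q has order dividing 4. Let g ∈ G with z' = g z g⁻¹ ≠ z and z' ∈ Q. Then z lies in the conjugate g Q g⁻¹, and the subgroup X generated by Q and g Q g⁻¹ induces every automorphism of the four-group generated by z and z': for any two distinct non-identity elements u, v of that four-group there is x ∈ X with x z x⁻¹ = u and x z' x⁻¹ = v. -/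
theorem result {G : Type*} [Group G] [Finite G] (z : G) (hz : orderOf z = 2) (hQ : Cfsg.IsOfSymplecticType ↥(Cfsg.generalizedFittingSubgroup ↥(Subgroup.centralizer ({z} : Set G))))
    (h4 : ∀ q ∈ (Cfsg.generalizedFittingSubgroup ↥(Subgroup.centralizer ({z} : Set G))).map (Subgroup.centralizer ({z} : Set G)).subtype, q ^ 4 = 1) (g : G) (hne : g * z * g⁻¹ ≠ z) (hin : g * z * g⁻¹ ∈ (Cfsg.generalizedFittingSubgroup ↥(Subgroup.centralizer ({z} : Set G))).map (Subgroup.centralizer ({z} : Set G)).subtype) :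
    z ∈ ((Cfsg.generalizedFittingSubgroup ↥(Subgroup.centralizer ({z} : Set G))).map (Subgroup.centralizer ({z} : Set G)).subtype).map (MulAut.conj g).toMonoidHom ∧
      ∀ u ∈ Subgroup.closure ({z, g * z * g⁻¹} : Set G), ∀ v ∈ Subgroup.closure ({z, g * z * g⁻¹} : Set G),
        u ≠ 1 → v ≠ 1 → u ≠ v →
          ∃ x ∈ (Cfsg.generalizedFittingSubgroup ↥(Subgroup.centralizer ({z} : Set G))).map (Subgroup.centralizer ({z} : Set G)).subtype ⊔ ((Cfsg.generalizedFittingSubgroup ↥(Subgroup.centralizer ({z} : Set G))).map (Subgroup.centralizer ({z} : Set G)).subtype).map (MulAut.conj g).toMonoidHom, x * z * x⁻¹ = u ∧ x * (g * z * g⁻¹) * x⁻¹ = v := by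
  have h := sy_of hz hQ h4
  generalize (generalizedFittingSubgroup (centralizer ({z} : Set G))).map
    (centralizer ({z} : Set G)).subtype = Q at *
  have hzV := h.mem_conj hin hne
  have h1 : Sy (Q.map (MulAut.conj g).toMonoidHom) (g * z * g⁻¹) := h.map (MulAut.conj g)
  refine ⟨hzV, ?_⟩
  generalize Q.map (MulAut.conj g).toMonoidHom = V at *
  generalize g * z * g⁻¹ = t at *
  have ctz := h.comm_z t hin
  have hV : ∀ x ∈ closure ({z, t} : Set G), x = 1 ∨ x = z ∨ x = t ∨ x = t * z := by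
    have e1 : ∀ y, z * (z * y) = y := fun y => by rw [← mul_assoc, h.zz, one_mul]
    have e2 : ∀ y, t * (t * y) = y := fun y => by rw [← mul_assoc, h1.zz, one_mul]
    intro x hx
    induction hx using closure_induction_left with
    | one => simp
    | mul_left c hc y _ ih =>
      rcases hc with rfl | rfl <;> rcases ih with rfl | rfl | rfl | rfl <;>
        simp [ctz, h.zz, h1.zz, e1]
      rw [← ctz, e2]; simp
    | inv_mul_cancel c hc y _ ih =>
      rcases hc with rfl | rfl <;> rcases ih with rfl | rfl | rfl | rfl <;>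
        simp [ctz, h.zz, h1.zz, e1, h.inv_eq, h1.inv_eq]
      rw [← ctz, e2]; simp
  obtain ⟨a, ha, ea⟩ := h.exists_conj hin h1.zz h1.ne_one hne
  obtain ⟨b, hb, eb⟩ := h1.exists_conj hzV h.zz h.ne_one hne.symm
  have at' : a * t * a⁻¹ = t * z := by rw [ea, mul_assoc t, h.comm_z a ha]; group
  have az : a * z * a⁻¹ = z := conj_eq (h.comm_z a ha)
  have bz : b * z * b⁻¹ = t * z := by rw [eb, mul_assoc z, h1.comm_z b hb, ctz]; group
  have bt : b * t * b⁻¹ = t := conj_eq (h1.comm_z b hb)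
  have cm : ∀ n x y : G, n * (x * y) * n⁻¹ = n * x * n⁻¹ * (n * y * n⁻¹) := fun n x y => by group
  have atz : a * (t * z) * a⁻¹ = t := by rw [cm, at', az, h.zz']
  have btz : b * (t * z) * b⁻¹ = z := by rw [cm, bt, bz, ← mul_assoc, h1.zz, one_mul]
  have c2 : ∀ m n x : G, m * n * x * (m * n)⁻¹ = m * (n * x * n⁻¹) * m⁻¹ := fun m n x => by group
  have hA : a ∈ Q ⊔ V := mem_sup_left ha
  have hB : b ∈ Q ⊔ V := mem_sup_right hb
  intro u hu v hv hu1 hv1 huv
  rcases (hV u hu).resolve_left hu1 with e | e | e <;>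
    rcases (hV v hv).resolve_left hv1 with e' | e' | e' <;>
    first | exact absurd (e.trans e'.symm) huv | rw [e, e']
  · exact ⟨1, one_mem _, by simp, by simp⟩
  · exact ⟨a, hA, az, at'⟩
  · exact ⟨a * b * a, mul_mem (mul_mem hA hB) hA, by rw [c2, c2, az, bz, atz],
      by rw [c2, c2, at', btz, az]⟩
  · exact ⟨a * b, mul_mem hA hB, by rw [c2, bz, atz], by rw [c2, bt, at']⟩
  · exact ⟨b * a, mul_mem hB hA, by rw [c2, az, bz], by rw [c2, at', btz]⟩
  · exact ⟨b, hB, bz, bt⟩

end Cfsg.Agent.S1774
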