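import Cfsg.Statements.S1781
import Cfsg.Agent.Lib.Classif.TI

set_option autoImplicit false
open Cfsg

namespace Cfsg.Agent.S1781

/-- Let A be an abelian 2-subgroup of the finite group G such that every conjugate of A equals A or meets A trivially, and let g ∈ G with g A g⁻¹ ≠ A. Then either the subgroup of those elements of A that normalize g A g⁻¹ is an elementary abelian 2-group, or A and g A g⁻¹ commute elementwise. -/
theorem result {G : Type*} [Group G] [Finite G] (A : Subgroup G)
    (hA2 : IsPGroup 2 ↥A) (hAa : IsMulCommutative ↥A)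
    (hti : ∀ h : G, A.map (MulAut.conj h).toMonoidHom = A ∨ A.map (MulAut.conj h).toMonoidHom ⊓ A = ⊥)
    (g : G) (hg : A.map (MulAut.conj g).toMonoidHom ≠ A) :
    Cfsg.IsElementaryAbelian 2 (A ⊓ Subgroup.normalizer ((A.map (MulAut.conj g).toMonoidHom : Subgroup G) : Set G)) ∨
      ⁅A, A.map (MulAut.conj g).toMonoidHom⁆ = ⊥ := by
  by_cases h : ∀ t ∈ A ⊓ Subgroup.normalizer
      ((A.map (MulAut.conj g).toMonoidHom : Subgroup G) : Set G), t ^ 2 = 1
  · left
    exact ⟨IsMulCommutative.of_setLike_mul_comm fun a ha b hb =>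
      setLike_mul_comm (s := A) ha.1 hb.1, h⟩
  · right
    push Not at h
    obtain ⟨t, ht, ht2⟩ := h
    exact CfsgLib.Classif.ti_abelian_dichotomy hA2 hAa hti hg ht.1 ht.2 ht2

end Cfsg.Agent.S1781
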