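import Cfsg.Statements.S1784
import Cfsg.Agent.Lib.LargeExtra.Sub
import Cfsg.Agent.Lib.Core.Commutator

set_option autoImplicit false
open Cfsg

namespace Cfsg.Agent.S1784

open Subgroup CfsgLib CfsgLib.LargeExtra CfsgLib.ExtraTwo
open scoped commutatorElement

/-- Let G be a finite group and let z be an involution of G such that Q, the generalized Fitting subgroup of the centralizer C of z, is a 2-group of symplectic type (every characteristic abelian subgroup of Q is cyclic); suppose Q is extraspecial, and view Q inside G. Let α be an involution of C that is not in Q, and let Q₀ be the subgroup of those q ∈ Q whose commutator with α lies in the subgroup generated by z. Then (a) the subgroup generated by the commutators α q α⁻¹ q⁻¹, q ∈ Q, equals the centre of Q₀; and (b) if Q₀ is not contained in the product of the centralizer of α in Q with the subgroup generated by z, then some element of Q conjugates α to α z. -/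
theorem result {G : Type*} [Group G] [Finite G] (z : G) (hz : orderOf z = 2) (hQ : Cfsg.IsOfSymplecticType ↥(Cfsg.generalizedFittingSubgroup ↥(Subgroup.centralizer ({z} : Set G)))) (hE : Cfsg.IsExtraspecial 2 ↥(Cfsg.generalizedFittingSubgroup ↥(Subgroup.centralizer ({z} : Set G))))
    (α : G) (hα : orderOf α = 2) (hαC : α ∈ Subgroup.centralizer ({z} : Set G)) (hαQ : α ∉ (Cfsg.generalizedFittingSubgroup ↥(Subgroup.centralizer ({z} : Set G))).map (Subgroup.centralizer ({z} : Set G)).subtype)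
    (Q₀ : Subgroup G) (hQ₀ : ∀ q : G, q ∈ Q₀ ↔ (q ∈ (Cfsg.generalizedFittingSubgroup ↥(Subgroup.centralizer ({z} : Set G))).map (Subgroup.centralizer ({z} : Set G)).subtype ∧ α * q * α⁻¹ * q⁻¹ ∈ Subgroup.zpowers z)) :
    Subgroup.closure ((fun q : G => α * q * α⁻¹ * q⁻¹) '' ((Cfsg.generalizedFittingSubgroup ↥(Subgroup.centralizer ({z} : Set G))).map (Subgroup.centralizer ({z} : Set G)).subtype : Set G)) = (Subgroup.center ↥Q₀).map Q₀.subtype ∧
      (¬ Q₀ ≤ ((Cfsg.generalizedFittingSubgroup ↥(Subgroup.centralizer ({z} : Set G))).map (Subgroup.centralizer ({z} : Set G)).subtype ⊓ Subgroup.centralizer ({α} : Set G)) ⊔ Subgroup.zpowers z →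
        ∃ q ∈ (Cfsg.generalizedFittingSubgroup ↥(Subgroup.centralizer ({z} : Set G))).map (Subgroup.centralizer ({z} : Set G)).subtype, q * α * q⁻¹ = α * z) := by
  have h : Pre ((generalizedFittingSubgroup (centralizer ({z} : Set G))).map (centralizer ({z} : Set G)).subtype) z :=
    pre_of_fstar hz _ rfl hE
  generalize (generalizedFittingSubgroup (centralizer ({z} : Set G))).map (centralizer ({z} : Set G)).subtype = Q at *
  have e := h.es
  have hαz := mem_centralizer_singleton_iff.1 hαC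
  have h2 : α * α = 1 := mul_self_of_orderOf hα
  have hi : α⁻¹ = α := inv_eq_of_mul_eq_one_right h2
  have hn := h.norm α hαz
  have hm : ∀ x ∈ Q, α * x * α⁻¹ * x⁻¹ ∈ Q := fun x hx => mul_mem (hn x hx) (inv_mem hx)
  have hc : ∀ g, g * z = z * g → ∀ x ∈ Q, ∀ y ∈ Q, Commute g ⁅x, y⁆ := fun g hg x hx y hy => by
    rcases e.commutator hx hy with k | k <;> rw [commutatorElement_def, k]
    exacts [Commute.one_right g, hg]
  have key : ∀ x ∈ Q, ∀ y ∈ Q, ⁅α * x * α⁻¹ * x⁻¹, y⁆ = ⁅x, α * y * α⁻¹ * y⁻¹⁆ := fun x hx y hy => by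
    have h3 : ⁅α * x * α⁻¹, y⁆ = ⁅x, α * y * α⁻¹⁆ := by
      rw [← mul_inv_eq_iff_eq_mul.2 (hc α hαz x hx _ (hn y hy)).eq]
      simp only [commutatorElement_def, mul_inv_rev, hi, inv_inv, mul_assoc, ← mul_assoc α α, h2, one_mul,
        mul_one]
    rw [Core.commutatorElement_mul_left_of_commute (hc _ (e.comm_z _ (hn x hx)) _ (inv_mem hx) y hy),
      Core.commutatorElement_mul_right_of_commute (hc _ (e.comm_z _ (hn y hy)) x hx _ (inv_mem hy)),
      Core.commutatorElement_inv_left_of_commute (hc x (e.comm_z x hx) x hx y hy), h3,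
      ← commutatorElement_inv y⁻¹,
      Core.commutatorElement_inv_left_of_commute (hc y (e.comm_z y hy) y hy x hx), inv_inv,
      commutatorElement_inv]
    exact (hc _ (hc z rfl y hy x hx).symm x hx _ (hn y hy)).eq
  refine ⟨?_, fun k => ?_⟩
  · have hW : closure ((fun q : G => α * q * α⁻¹ * q⁻¹) '' (Q : Set G)) ≤ Q :=
      (closure_le _).2 fun _ ⟨x, hx, k⟩ => k ▸ hm x hx
    have hQ : Q ⊓ centralizer (closure ((fun q : G => α * q * α⁻¹ * q⁻¹) '' (Q : Set G)) : Set G) = Q₀ := by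
      ext y
      rw [hQ₀, centralizer_closure, e.mem_zpowers, ← e.center_iff, mem_inf]
      refine and_congr_right fun hy => ⟨fun k => ⟨hm y hy, fun x hx => ?_⟩, ?_⟩
      · exact commutatorElement_eq_one_iff_mul_comm.1 ((key x hx y hy).symm.trans
          (commutatorElement_eq_one_iff_mul_comm.2 (k _ ⟨x, hx, rfl⟩)))
      · rintro k _ ⟨x, hx, rfl⟩
        exact commutatorElement_eq_one_iff_mul_comm.1 ((key x hx y hy).trans
          (commutatorElement_eq_one_iff_mul_comm.2 (k.2 x hx)))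
    have hz : z ∈ closure ((fun q : G => α * q * α⁻¹ * q⁻¹) '' (Q : Set G)) := by
      by_contra k
      refine hαQ (h.mem_of_conj fun x hx => Or.inl (mul_inv_eq_one.1 (by_contra fun k1 => ?_)))
      have k0 : α * x * α⁻¹ * x⁻¹ ∈ closure ((fun q : G => α * q * α⁻¹ * q⁻¹) '' (Q : Set G)) :=
        subset_closure ⟨x, hx, rfl⟩
      obtain ⟨y, hy, k2⟩ := e.exists_conj (hm x hx) k1 fun k2 => k (k2 ▸ k0)
      refine k ((mul_mem_cancel_left k0).1 (k2 ▸ ?_))
      rw [show y * (α * x * α⁻¹ * x⁻¹) * y⁻¹ = (α * y * α⁻¹ * y⁻¹)⁻¹ * (α * (y * x) * α⁻¹ * (y * x)⁻¹) by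
        group]
      exact mul_mem (inv_mem (subset_closure ⟨y, hy, rfl⟩)) (subset_closure ⟨_, mul_mem hy hx, rfl⟩)
    have hW0 : closure ((fun q : G => α * q * α⁻¹ * q⁻¹) '' (Q : Set G)) ≤ Q₀ := by
      rw [closure_le]
      rintro _ ⟨x, hx, rfl⟩
      refine (hQ₀ _).2 ⟨hm x hx, e.mem_zpowers.2 ?_⟩
      rw [show α * (α * x * α⁻¹ * x⁻¹) * α⁻¹ = α * α * x * (α * α)⁻¹ * (α * x⁻¹ * α⁻¹) by group, h2,
        show 1 * x * 1⁻¹ * (α * x⁻¹ * α⁻¹) = (α * x * α⁻¹ * x⁻¹)⁻¹ by group]
      exact e.sq (inv_mem (hm x hx))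
    have h3 := card_mul_card_centralizer e hW hz
    have h4 := card_mul_card_centralizer e (hQ.ge.trans inf_le_left) (hW0 hz)
    rw [hQ, ← h4, mul_comm] at h3
    have h5 := Core.eq_of_le_of_card_le (le_inf hW (le_centralizer_iff.1 (hQ.ge.trans inf_le_right)))
      (Nat.eq_of_mul_eq_mul_left Nat.card_pos h3).ge
    rw [Core.map_subtype_center]
    exact le_antisymm (le_inf hW0 (h5.le.trans inf_le_right))
      ((inf_le_inf_right _ (hQ.ge.trans inf_le_left)).trans h5.ge)
  obtain ⟨q, hq, k⟩ := SetLike.not_le_iff_exists.1 k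
  obtain ⟨h3, h4⟩ := (hQ₀ q).1 hq
  rcases e.mem_zpowers.1 h4 with h4 | h4
  · exact absurd (mem_sup_left (mem_inf.2 ⟨h3, mem_centralizer_singleton_iff.2
      (commutatorElement_eq_one_iff_mul_comm.1 h4).symm⟩)) k
  · exact ⟨q, h3, by rw [← h4, ← mul_assoc, ← mul_assoc, ← mul_assoc, h2, hi, one_mul]⟩

end Cfsg.Agent.S1784
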