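import Cfsg.Statements.S1785
import Cfsg.Agent.Lib.Classif.Conn

set_option autoImplicit false
open Cfsg

namespace Cfsg.Agent.S1785

open CfsgLib.Classif


/-- Let X be a finite 2-group having a normal elementary abelian subgroup of order at least 32. Then (a) for any two elementary abelian subgroups A, B of X of order 8 there is a chain A = A₁, A₂, …, Aₙ = B of elementary abelian subgroups of order 8 in which consecutive members commute elementwise; and (b) every elementary abelian subgroup of X of order 4 is contained in an elementary abelian subgroup of order 8. -/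
theorem result {X : Type*} [Group X] [Finite X]
    (hX : IsPGroup 2 X) (E : Subgroup X) [E.Normal] (hE : Cfsg.IsElementaryAbelian 2 E) (hE32 : 32 ≤ Nat.card ↥E) :
    (∀ A B : Subgroup X, Cfsg.IsElementaryAbelian 2 A → Nat.card ↥A = 8 → Cfsg.IsElementaryAbelian 2 B → Nat.card ↥B = 8 →
        Relation.ReflTransGen
          (fun C D : Subgroup X => Cfsg.IsElementaryAbelian 2 C ∧ Nat.card ↥C = 8 ∧ Cfsg.IsElementaryAbelian 2 D ∧ Nat.card ↥D = 8 ∧ ⁅C, D⁆ = ⊥)
          A B) ∧
      (∀ V : Subgroup X, Cfsg.IsElementaryAbelian 2 V → Nat.card ↥V = 4 →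
        ∃ A : Subgroup X, V ≤ A ∧ Cfsg.IsElementaryAbelian 2 A ∧ Nat.card ↥A = 8) := by
  have hE2 := hE.2
  have hEne : E ≠ ⊥ := by
    rintro rfl
    rw [Subgroup.card_bot] at hE32
    omega
  obtain ⟨z, hzE, hzZ, hz2⟩ := CfsgLib.PGroup.exists_mem_center_orderOf_eq hX E hEne
  have hz1 : z ≠ 1 := by rintro rfl; simp at hz2
  have hzc : ∀ a ∈ Subgroup.zpowers z, ∀ b : X, a * b = b * a := fun a ha b =>
    (Subgroup.mem_center_iff.mp ((Subgroup.zpowers_le.mpr hzZ) ha) b).symm
  have hcardz : Nat.card (Subgroup.zpowers z) = 2 := by rw [Nat.card_zpowers, hz2]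
  -- centralisers of one and of two commuting involutions
  have hC1 : ∀ a : X, a ^ 2 = 1 →
      8 ≤ Nat.card (E ⊓ Subgroup.centralizer ({a} : Set X) : Subgroup X) := by
    intro a ha
    have hC := card_le_sq_card_centralizer hE2 (a := a) (Subgroup.le_normalizer_of_normal
      (K := ⊤) (Subgroup.mem_top a)) (by intro e _; rw [ha, one_mul, mul_one])
    exact pow_succ_le_card (p := 2) (n := 2) (hX.to_subgroup _)
      (by nlinarith)
  have hC2 : ∀ a b : X, a ^ 2 = 1 → b ^ 2 = 1 → a * b = b * a →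
      4 ≤ Nat.card (E ⊓ Subgroup.centralizer ({a} : Set X) ⊓ Subgroup.centralizer ({b} : Set X) :
        Subgroup X) := by
    intro a b ha hb hab
    have hbN : b ∈ Subgroup.normalizer
        ((E ⊓ Subgroup.centralizer ({a} : Set X) : Subgroup X) : Set X) := by
      apply Subgroup.inf_normalizer_le_normalizer_inf
      refine ⟨Subgroup.le_normalizer_of_normal (K := ⊤) (Subgroup.mem_top b), ?_⟩
      exact Subgroup.le_normalizer (Subgroup.mem_centralizer_singleton_iff.mpr hab.symm)
    have hC := card_le_sq_card_centralizer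
      (E := E ⊓ Subgroup.centralizer ({a} : Set X)) (fun x hx => hE2 x hx.1) hbN
      (by intro e _; rw [hb, one_mul, mul_one])
    have := hC1 a ha
    exact pow_succ_le_card (p := 2) (n := 1) (hX.to_subgroup _)
      (by nlinarith)
  -- an elementary group of order `2 * |W|` containing `W` is generated by `W` and one element
  have hgen : ∀ A W : Subgroup X, (∀ a ∈ A, a ^ 2 = 1) → W ≤ A → W ≠ A →
      ∃ a ∈ A, 2 * Nat.card W ≤ Nat.card (W ⊔ Subgroup.zpowers a : Subgroup X) := by
    intro A W hA hWA hne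
    obtain ⟨a, haA, haW⟩ := SetLike.exists_of_lt (lt_of_le_of_ne hWA hne)
    refine ⟨a, haA, ?_⟩
    have hlt : W < W ⊔ Subgroup.zpowers a := lt_of_le_of_ne le_sup_left fun h =>
      haW (h ▸ Subgroup.mem_sup_right (Subgroup.mem_zpowers a))
    obtain ⟨k, hk⟩ := IsPGroup.iff_card.mp (hX.to_subgroup W)
    have := pow_succ_le_card (hX.to_subgroup (W ⊔ Subgroup.zpowers a)) (hk ▸ card_lt_of_lt hlt)
    rw [hk, ← pow_succ']
    exact this
  constructor
  · set r : Subgroup X → Subgroup X → Prop := fun C D => Cfsg.IsElementaryAbelian 2 C ∧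
      Nat.card C = 8 ∧ Cfsg.IsElementaryAbelian 2 D ∧ Nat.card D = 8 ∧ ⁅C, D⁆ = ⊥ with hr
    have hsymm : ∀ A B, r A B → r B A := fun A B h =>
      ⟨h.2.2.1, h.2.2.2.1, h.1, h.2.1, by rw [Subgroup.commutator_comm]; exact h.2.2.2.2⟩
    -- step: from `A` to a group of order 8 containing a given small subgroup commuting with `A`
    have step : ∀ A W : Subgroup X, (∀ a ∈ A, a ^ 2 = 1) → Nat.card A = 8 → W ≤ E →
        Nat.card W ≤ 8 → (∀ a ∈ A, ∀ w ∈ W, a * w = w * a) →
        ∃ B : Subgroup X, W ≤ B ∧ (∀ b ∈ B, b ^ 2 = 1) ∧ Nat.card B = 8 ∧ r A B := by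
      intro A W hA hA8 hWE hW8 hAW
      have h1 := sup_sq_eq_one hA (fun w hw => hE2 w (hWE hw)) hAW
      obtain ⟨B, hWB, hB, hB8⟩ := exists_between_card_pow (m := 3) (isPGroup_of_sq_eq_one h1)
        (le_sup_right : W ≤ A ⊔ W) hW8
        (by have := Subgroup.card_le_of_le (le_sup_left : A ≤ A ⊔ W); omega)
      refine ⟨B, hWB, fun b hb => h1 b (hB hb), hB8, isElementaryAbelian_two_iff.mpr hA, hA8,
        isElementaryAbelian_two_iff.mpr fun b hb => h1 b (hB hb), hB8, ?_⟩
      exact commutator_eq_bot_iff_forall.mpr fun a ha b hb =>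
        comm_of_sq_eq_one h1 (Subgroup.mem_sup_left ha) (hB hb)
    have key : ∀ A : Subgroup X, (∀ a ∈ A, a ^ 2 = 1) → Nat.card A = 8 →
        ∃ D : Subgroup X, D ≤ E ∧ Nat.card D = 8 ∧ Relation.ReflTransGen r A D := by
      intro A hA hA8
      obtain ⟨B, hzB, hB, hB8, hAB⟩ := step A (Subgroup.zpowers z) hA hA8
        (Subgroup.zpowers_le.mpr hzE) (by omega) fun a _ w hw => (hzc w hw a).symm
      obtain ⟨a, haB, ha⟩ := hgen B _ hB hzB (by rintro rfl; omega)
      have hle1 : Subgroup.zpowers z ⊔ Subgroup.zpowers a ≤ B :=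
        sup_le hzB (Subgroup.zpowers_le.mpr haB)
      obtain ⟨b, hbB, hb⟩ : ∃ b ∈ B, Subgroup.zpowers z ⊔ Subgroup.zpowers a ⊔
          Subgroup.zpowers b = B := by
        by_cases h : Subgroup.zpowers z ⊔ Subgroup.zpowers a = B
        · exact ⟨1, B.one_mem, by rw [Subgroup.zpowers_one_eq_bot, sup_bot_eq, h]⟩
        · obtain ⟨b, hbB, hb⟩ := hgen B _ hB hle1 h
          exact ⟨b, hbB, Subgroup.eq_of_le_of_card_ge
            (sup_le hle1 (Subgroup.zpowers_le.mpr hbB)) (by omega)⟩
      obtain ⟨W, -, hW, hW4⟩ := exists_between_card_pow (m := 2)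
        (hX.to_subgroup _) bot_le (by simp)
        (hC2 a b (hB a haB) (hB b hbB) (comm_of_sq_eq_one hB haB hbB))
      obtain ⟨C, hWC, hC, hC8, hBC⟩ := step B W hB hB8 (fun w hw => (hW hw).1.1) (by omega) (by
        intro x hx w hw
        rw [← hb] at hx
        have : Subgroup.zpowers z ⊔ Subgroup.zpowers a ⊔ Subgroup.zpowers b ≤
            Subgroup.centralizer ({w} : Set X) := by
          refine sup_le (sup_le ?_ ?_) ?_ <;>
            refine Subgroup.zpowers_le.mpr (Subgroup.mem_centralizer_singleton_iff.mpr ?_)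
          · exact hzc z (Subgroup.mem_zpowers z) w
          · exact (Subgroup.mem_centralizer_singleton_iff.mp (hW hw).1.2).symm
          · exact (Subgroup.mem_centralizer_singleton_iff.mp (hW hw).2).symm
        exact Subgroup.mem_centralizer_singleton_iff.mp (this hx))
      obtain ⟨c, hcC, hc⟩ := hgen C W hC hWC (by rintro rfl; omega)
      have hc' : W ⊔ Subgroup.zpowers c = C := Subgroup.eq_of_le_of_card_ge
        (sup_le hWC (Subgroup.zpowers_le.mpr hcC)) (by omega)
      obtain ⟨D, -, hD, hD8⟩ := exists_between_card_pow (m := 3)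
        (hX.to_subgroup _) bot_le (by simp) (hC1 c (hC c hcC))
      refine ⟨D, fun d hd => (hD hd).1, hD8, Relation.ReflTransGen.head hAB
        (Relation.ReflTransGen.head hBC (Relation.ReflTransGen.single ?_))⟩
      refine ⟨isElementaryAbelian_two_iff.mpr hC, hC8,
        isElementaryAbelian_two_iff.mpr fun d hd => hE2 d (hD hd).1, hD8, ?_⟩
      refine commutator_eq_bot_iff_forall.mpr fun x hx d hd => ?_
      rw [← hc'] at hx
      have : W ⊔ Subgroup.zpowers c ≤ Subgroup.centralizer ({d} : Set X) := by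
        refine sup_le (fun w hw => ?_) (Subgroup.zpowers_le.mpr ?_)
        · exact Subgroup.mem_centralizer_singleton_iff.mpr
            (comm_of_sq_eq_one hE2 (hW hw).1.1 (hD hd).1)
        · exact Subgroup.mem_centralizer_singleton_iff.mpr
            (Subgroup.mem_centralizer_singleton_iff.mp (hD hd).2).symm
      exact Subgroup.mem_centralizer_singleton_iff.mp (this hx)
    intro A B hA hA8 hB hB8
    obtain ⟨C, hCE, hC8, hAC⟩ := key A hA.2 hA8
    obtain ⟨D, hDE, hD8, hBD⟩ := key B hB.2 hB8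
    refine (hAC.tail ?_).trans (reflTransGen_symm hsymm hBD)
    exact ⟨isElementaryAbelian_two_iff.mpr fun x hx => hE2 x (hCE hx), hC8,
      isElementaryAbelian_two_iff.mpr fun x hx => hE2 x (hDE hx), hD8,
      commutator_eq_bot_iff_forall.mpr fun a ha b hb => comm_of_sq_eq_one hE2 (hCE ha) (hDE hb)⟩
  · intro V hV hV4
    have hfin : ∀ W : Subgroup X, W ≤ E → (∀ v ∈ V, ∀ w ∈ W, v * w = w * v) → ¬ W ≤ V →
        ∃ A : Subgroup X, V ≤ A ∧ Cfsg.IsElementaryAbelian 2 A ∧ Nat.card A = 8 := by
      intro W hWE hVW hnot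
      have h1 := sup_sq_eq_one hV.2 (fun w hw => hE2 w (hWE hw)) hVW
      have hlt : V < V ⊔ W := lt_of_le_of_ne le_sup_left fun h => hnot (h ▸ le_sup_right)
      obtain ⟨A, hVA, hA, hA8⟩ := exists_between_card_pow (m := 3) (isPGroup_of_sq_eq_one h1)
        hlt.le (by omega) (pow_succ_le_card (n := 2) (isPGroup_of_sq_eq_one h1)
          (by have := card_lt_of_lt hlt; omega))
      exact ⟨A, hVA, isElementaryAbelian_two_iff.mpr fun a ha => h1 a (hA ha), hA8⟩
    by_cases hzV : Subgroup.zpowers z ≤ V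
    · obtain ⟨v, hvV, hv⟩ := hgen V _ hV.2 hzV (by rintro rfl; omega)
      have hv' : Subgroup.zpowers z ⊔ Subgroup.zpowers v = V := Subgroup.eq_of_le_of_card_ge
        (sup_le hzV (Subgroup.zpowers_le.mpr hvV)) (by omega)
      refine hfin (E ⊓ Subgroup.centralizer ({v} : Set X)) inf_le_left ?_ ?_
      · intro x hx w hw
        rw [← hv'] at hx
        have : Subgroup.zpowers z ⊔ Subgroup.zpowers v ≤ Subgroup.centralizer ({w} : Set X) := by
          refine sup_le ?_ ?_ <;>
            refine Subgroup.zpowers_le.mpr (Subgroup.mem_centralizer_singleton_iff.mpr ?_)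
          · exact hzc z (Subgroup.mem_zpowers z) w
          · exact (Subgroup.mem_centralizer_singleton_iff.mp hw.2).symm
        exact Subgroup.mem_centralizer_singleton_iff.mp (this hx)
      · intro h
        have h1 := Subgroup.card_le_of_le h
        have h2 := hC1 v (hV.2 v hvV)
        omega
    · exact hfin _ (Subgroup.zpowers_le.mpr hzE) (fun v _ w hw => (hzc w hw v).symm) hzV

end Cfsg.Agent.S1785
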