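import Cfsg.Statements.S1850
import Cfsg.Agent.Lib.LAE.CharP
import Cfsg.Agent.Lib.Comp.FStar
import Cfsg.Agent.Lib.Core.Fitting

set_option autoImplicit false
open Cfsg

namespace Cfsg.Agent.S1850

open CfsgLib.LAE Subgroup in
theorem climb {G : Type*} [Group G] [Finite G] {p : ℕ} [Fact p.Prime] {U : Subgroup G}
    (hU : IsPGroup p U) (W : Subgroup G) (hW : W ≤ U)
    (h : IsCharP p (normalizer (W : Set G))) : IsCharP p (normalizer (U : Set G)) := by
  induction hn : W.index using Nat.strong_induction_on generalizing W with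
  | _ n ih =>
    rcases hW.eq_or_lt with rfl | hlt
    · exact h
    have h1 := CfsgLib.Core.lt_inf_normalizer_of_isPGroup hU hlt
    refine ih _ ?_ (U ⊓ normalizer (W : Set G)) inf_le_left ?_ rfl
    · rw [← hn]
      exact Subgroup.index_strictAnti h1
    · have h2 := h.inf_centralizer (B := U ⊓ normalizer (W : Set G)) hU.to_inf_left inf_le_right
      refine IsCharP.of_inf_centralizer hU.to_inf_left le_normalizer le_rfl ?_
      rw [inf_eq_right.2 (centralizer_le_normalizer _)]
      rwa [inf_eq_right.2 ((centralizer_anti h1.le).trans (centralizer_le_normalizer _))] at h2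

/-- Let G be a non-abelian finite simple QTKE-group and T a Sylow 2-subgroup of G. If U is a nontrivial 2-subgroup of G with U ∩ Z(T) ≠ 1, then F*(N_G(U)) = O₂(N_G(U)). -/
theorem result {G : Type*} [Group G] [Finite G] [IsSimpleGroup G]
    (hG : ¬ IsMulCommutative G) (hQ : Cfsg.IsQTKE G) (T : Sylow 2 G) (U : Subgroup G)
    (hU : IsPGroup 2 ↥U) (hZ : U ⊓ ((T : Subgroup G) ⊓ Subgroup.centralizer ((T : Subgroup G) : Set G)) ≠ ⊥) :
    Subgroup.normalizer (U : Set G) ∈ Cfsg.calHe G := by
  open CfsgLib.LAE Subgroup in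
  have : Fact (Nat.Prime 2) := ⟨Nat.prime_two⟩
  set W := U ⊓ ((T : Subgroup G) ⊓ Subgroup.centralizer ((T : Subgroup G) : Set G)) with hW
  have h1 : IsCharP 2 (normalizer (W : Set G)) :=
    isCharP_iff.2 (hQ.2.2 _ ⟨W, hU.to_inf_left, hZ, rfl⟩ ⟨T,
      (le_centralizer_iff.1 (inf_le_right.trans inf_le_right)).trans
        (centralizer_le_normalizer _)⟩)
  exact CfsgLib.Comp.fstar_eq_pCore_iff.2 (isCharP_iff.1 (climb hU W inf_le_left h1))

end Cfsg.Agent.S1850
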