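import Cfsg.Statements.S1851
import Cfsg.Agent.Lib.LAE.CharP
import Cfsg.Agent.Lib.Comp.FStar
import Cfsg.Agent.Lib.Core.Fitting

set_option autoImplicit false
open Cfsg

namespace Cfsg.Agent.S1851

open CfsgLib.LAE Subgroup in
theorem oddGenerated_eq {G : Type*} [Group G] (K : Subgroup G) :
    Cfsg.oddGenerated K = pResOf 2 K := by
  rw [pResOf_eq_closure, Cfsg.oddGenerated]
  simp only [Nat.coprime_two_right]

open CfsgLib.LAE Subgroup in
theorem pResOf_of_perfect {G : Type*} [Group G] [Finite G] {p : ℕ} [Fact p.Prime] {K : Subgroup G}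
    (hK : ⁅K, K⁆ = K) : pResOf p K = K := by
  have := CfsgLib.Transfer.pResidual_normal p K
  have h1 : IsPGroup p (K ⧸ Cfsg.pResidual p K) := CfsgLib.Transfer.isPGroup_quotient_pResidual
  have := h1.isNilpotent
  have h2 : ⁅(⊤ : Subgroup K), (⊤ : Subgroup K)⁆ = ⊤ := by
    apply map_injective K.subtype_injective
    rw [map_commutator, ← MonoidHom.range_eq_map, range_subtype, hK]
  have h3 : ⁅(⊤ : Subgroup (K ⧸ Cfsg.pResidual p K)), (⊤ : Subgroup (K ⧸ Cfsg.pResidual p K))⁆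
      = ⊤ := by
    have := congrArg (Subgroup.map (QuotientGroup.mk' (Cfsg.pResidual p K))) h2
    rwa [map_commutator, map_top_of_surjective _ (QuotientGroup.mk'_surjective _)] at this
  have h4 := CfsgLib.Comp.eq_bot_of_perfect_of_solvable h3 inferInstance
  have h5 : Cfsg.pResidual p K = ⊤ := by
    rw [eq_top_iff]
    intro x _
    have : (x : K ⧸ Cfsg.pResidual p K) ∈ (⊥ : Subgroup (K ⧸ Cfsg.pResidual p K)) :=
      h4 ▸ mem_top _
    exact (QuotientGroup.eq_one_iff x).1 (mem_bot.1 this)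
  rw [pResOf_def, h5, ← MonoidHom.range_eq_map, range_subtype]

open CfsgLib.LAE Subgroup in
theorem calL_facts {G : Type*} [Group G] [Finite G] (hQ : Cfsg.IsOfEvenCharacteristic G)
    (T : Sylow 2 G) {K : Subgroup G} (hK : K ∈ Cfsg.calL (T : Subgroup G)) :
    pResOf 2 K = K ∧ SubnormalIn K (K ⊔ T) ∧ IsCharP 2 (K ⊔ (T : Subgroup G)) := by
  have : Fact (Nat.Prime 2) := ⟨Nat.prime_two⟩
  obtain ⟨⟨-, h1, h2, -⟩, -, h3⟩ := hK
  refine ⟨pResOf_of_perfect ?_, subnormalIn_iff.2 ⟨le_sup_left, h2⟩, ?_⟩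
  · have := congrArg (Subgroup.map (K ⊔ (T : Subgroup G)).subtype) h1
    rwa [map_commutator, map_subgroupOf_eq_of_le le_sup_left] at this
  · have h4 := le_normalizer_pCoreOf (p := 2) (K ⊔ (T : Subgroup G))
    have h5 : IsCharP 2 (normalizer (Cfsg.pCoreOf 2 (K ⊔ (T : Subgroup G)) : Set G)) :=
      isCharP_iff.2 (hQ _ ⟨_, isPGroup_pCoreOf _, fun h => h3 (pCoreOf_eq_bot_iff.1 h), rfl⟩
        ⟨T, le_sup_right.trans h4⟩)
    exact h5.of_pCoreOf_le h4
      ((isSylowIn_of_le T (le_sup_right.trans h4)).pCoreOf_le.trans le_sup_right)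

/-- Let G be a non-abelian finite simple QTKE-group and T a Sylow 2-subgroup of G, and let L be a member of ℒ_f(G, T) (a member of ℒ(G, T) that lies in 𝒳 — L ≠ 1, L = O²(L), F*(L) = O₂(L) — and acts nontrivially on Ω₁(Z(O₂(L)))). Then (1) every member K of ℒ(G, T) containing L is again in ℒ_f(G, T) (a sharper form of (1) also compares the modules [Ω₁(Z(R)), L] and [Ω₁(Z(R')), K] for suitable 2-subgroups R, R'; that comparison is not included); and (2) if L is maximal under inclusion among the members of ℒ_f(G, T), then L is a maximal member of ℒ(G, T), hence a member of ℒ_f*(G, T). -/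
theorem result {G : Type*} [Group G] [Finite G] [IsSimpleGroup G]
    (hG : ¬ IsMulCommutative G) (hQ : Cfsg.IsQTKE G) (T : Sylow 2 G) (L : Subgroup G)
    (hL : L ∈ Cfsg.calLf (T : Subgroup G)) :
    (∀ K ∈ Cfsg.calL (T : Subgroup G), L ≤ K → K ∈ Cfsg.calLf (T : Subgroup G)) ∧
    ((∀ K ∈ Cfsg.calLf (T : Subgroup G), L ≤ K → K = L) → L ∈ Cfsg.calLfMax (T : Subgroup G)) := by
  open CfsgLib.LAE Subgroup in
  have : Fact (Nat.Prime 2) := ⟨Nat.prime_two⟩
  have key : ∀ K ∈ Cfsg.calL (T : Subgroup G), L ≤ K → K ∈ Cfsg.calLf (T : Subgroup G) := by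
    intro K hK hLK
    obtain ⟨hL1, ⟨hL2, -, -⟩, hL3⟩ := hL
    obtain ⟨a1, a2, a3⟩ := calL_facts hQ.2.2 T hL1
    obtain ⟨b1, b2, b3⟩ := calL_facts hQ.2.2 T hK
    refine ⟨hK, ⟨fun h => hL2 (le_bot_iff.1 (h ▸ hLK)), by rw [oddGenerated_eq, b1],
      CfsgLib.Comp.fstar_eq_pCore_iff.2 (isCharP_iff.1 (b3.of_subnormalIn b2))⟩, fun hV => hL3 ?_⟩
    change ⁅omegaZ 2 (Cfsg.pCoreOf 2 K), K⁆ = ⊥ at hV
    change ⁅omegaZ 2 (Cfsg.pCoreOf 2 L), L⁆ = ⊥
    rw [commutator_eq_bot_iff_le_centralizer, le_centralizer_iff] at hV ⊢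
    set J := K ⊔ (T : Subgroup G) with hJ
    set H := L ⊔ (T : Subgroup G) with hH
    have hHJ : H ≤ J := sup_le_sup_right hLK _
    set W := omegaZ 2 (Cfsg.pCoreOf 2 J) with hW
    have hWp : IsPGroup 2 W := (isPGroup_pCoreOf J).to_le (omegaZ_le _)
    have hJW : J ≤ normalizer (W : Set G) := le_normalizer_omegaZ_of_le (le_normalizer_pCoreOf J)
    have c1 : pResOf 2 K ≤ centralizer (W : Set G) := by
      refine pResOf_le_centralizer_of_le (X := omegaZ 2 (Cfsg.pCoreOf 2 K)) hWp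
        (le_sup_left.trans hJW) ?_ (b1.le.trans hV)
      have := b2.commutator_pResOf_le hWp ((omegaZ_le _).trans (pCoreOf_le J)) hJW
      refine this.trans fun x hx => mem_omegaZ.2 ⟨?_, ?_, (mem_omegaZ.1 hx.1).2.2⟩
      · rw [b2.pCoreOf_eq]
        exact ⟨pResOf_le K hx.2, omegaZ_le _ hx.1⟩
      · exact centralizer_anti b2.pCoreOf_le (omegaZ_le_centralizer _ hx.1)
    have c2 : omegaZ 2 (Cfsg.pCoreOf 2 H) ≤ W :=
      b3.omegaZ_le ((pCoreOf_le H).trans hHJ) (pCoreOf_le_pCoreOf_of_le hHJ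
        ((isSylowIn_of_le T (le_sup_right : (T : Subgroup G) ≤ J)).pCoreOf_le.trans le_sup_right))
    have c3 : Cfsg.pCoreOf 2 H ≤ normalizer (L : Set G) := by
      have := a2.le_normalizer_pResOf (isPGroup_pCoreOf (p := 2) H) (pCoreOf_le H) (le_normalizer_pCoreOf H)
      rwa [a1] at this
    have c4 := pq_lemma (p := 2) (V := omegaZ 2 (Cfsg.pCoreOf 2 L)) (B := Cfsg.pCoreOf 2 H) (R := L)
      ((isPGroup_pCoreOf L).to_le (omegaZ_le _))
      (le_normalizer_omegaZ_of_le (le_normalizer_pCoreOf_of_le c3))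
      (le_normalizer_omegaZ_of_le (le_normalizer_pCoreOf L))
      (by rw [pResOf_eq_bot_of_isPGroup (isPGroup_pCoreOf H)]; exact bot_le)
      (by
        refine (a2.commutator_pResOf_le (isPGroup_pCoreOf H) (pCoreOf_le H)
          (le_normalizer_pCoreOf H)).trans (le_trans ?_ (le_centralizer_omegaZ _))
        rw [a2.pCoreOf_eq, a1, inf_comm])
      (by
        refine (pResOf_mono hLK).trans (c1.trans (centralizer_anti (le_trans ?_ c2)))
        exact fun x hx => mem_omegaZ.2 ⟨a2.pCoreOf_le (omegaZ_le _ hx.1), hx.2,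
          (mem_omegaZ.1 hx.1).2.2⟩)
    rwa [a1] at c4
  exact ⟨key, fun h => ⟨⟨hL.1, fun K hK hLK => h K (key K hK hLK) hLK⟩, hL.2⟩⟩

end Cfsg.Agent.S1851
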