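import Cfsg.Statements.S1957
import Cfsg.Agent.Lib.Transfer.Thompson
import Cfsg.Agent.Lib.Coprime.Generation
import Cfsg.Agent.Lib.Core.Cores
import Cfsg.Agent.Lib.PGroup.Basic

set_option autoImplicit false
open Cfsg

namespace Cfsg.Agent.S1957

open Subgroup CfsgLib.Core
open scoped Pointwise

variable {G : Type*} [Group G]

theorem k_sq {U : Subgroup G} (h : IsKleinFour U) {v : G} (hv : v ∈ U) : v * v = 1 :=
  congrArg Subtype.val (IsKleinFour.mul_self (⟨v, hv⟩ : U))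

theorem k_comm {U : Subgroup G} (h : IsKleinFour U) {v w : G} (hv : v ∈ U) (hw : w ∈ U) :
    v * w = w * v := by
  have h1 := k_sq h (U.mul_mem hv hw)
  calc v * w = (v * w)⁻¹ := eq_inv_of_mul_eq_one_left h1
    _ = w * v := by
      rw [mul_inv_rev, inv_eq_of_mul_eq_one_left (k_sq h hv), inv_eq_of_mul_eq_one_left (k_sq h hw)]

theorem k_cases {U : Subgroup G} (h : IsKleinFour U) {u z v : G} (hu : u ∈ U) (hz : z ∈ U)
    (hv : v ∈ U) (hu1 : u ≠ 1) (hz1 : z ≠ 1) (huz : u ≠ z) :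
    v = 1 ∨ v = u ∨ v = z ∨ v = u * z := by
  by_contra hne
  push Not at hne
  have := IsKleinFour.eq_mul_of_ne_all (x := (⟨u, hu⟩ : U)) (y := ⟨z, hz⟩) (z := ⟨v, hv⟩)
    (fun e => hu1 (congrArg Subtype.val e)) (fun e => hz1 (congrArg Subtype.val e))
    (fun e => huz (congrArg Subtype.val e)) (fun e => hne.1 (congrArg Subtype.val e))
    (fun e => hne.2.1 (congrArg Subtype.val e)) (fun e => hne.2.2.1 (congrArg Subtype.val e))
  exact hne.2.2.2 (congrArg Subtype.val this)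

theorem k_conj {U : Subgroup G} (h : IsKleinFour U) {u v r : G} (hu : u ∈ U) (hu1 : u ≠ 1)
    (hv : v ∈ U) (hr : ∀ w ∈ U, r * w * r⁻¹ ∈ U) (hru : r * u * r⁻¹ = u) :
    r * v * r⁻¹ = v ∨ r * v * r⁻¹ = u * v := by
  by_cases hv1 : v = 1
  · left; simp [hv1]
  by_cases hvu : u = v
  · left; rw [← hvu, hru]
  rcases k_cases h hu hv (hr v hv) hu1 hv1 hvu with e | e | e | e
  · exact absurd (conj_eq_one_iff.1 e) hv1
  · exact absurd (by simpa using hru.trans e.symm) hvu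
  · exact Or.inl e
  · exact Or.inr e

theorem mem_norm_zp [Finite G] {u g : G} (hu : u * u = 1) :
    g ∈ normalizer ((zpowers u : Subgroup G) : Set G) ↔ g * u * g⁻¹ = u := by
  classical
  constructor
  · intro hg
    by_cases hu1 : u = 1
    · simp [hu1]
    have h2 : orderOf u = 2 := orderOf_eq_prime (by rw [sq, hu]) hu1
    have h := (mem_normalizer_iff.1 hg u).1 (mem_zpowers u)
    rw [mem_zpowers_iff_mem_range_orderOf, h2] at h
    simp only [Finset.mem_image, Finset.mem_range] at h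
    obtain ⟨i, hi, e⟩ := h
    interval_cases i
    · exact absurd (by simpa using e.symm) hu1
    · simpa using e.symm
  · intro hg
    have hc : Commute g u := mul_inv_eq_iff_eq_mul.1 hg
    refine centralizer_le_normalizer _ (mem_centralizer_iff.2 ?_)
    rintro _ ⟨k, rfl⟩
    exact (hc.zpow_right k).symm.eq

theorem sylow_norm [Finite G] (P : Sylow 2 G) (U : Subgroup G) (hUP : U ≤ (P : Subgroup G))
    (hUn : (P : Subgroup G) ≤ normalizer (U : Set G)) (hU4 : IsKleinFour ↥U)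
    (hUZ : ¬ IsCyclic ↥((P : Subgroup G) ⊓ centralizer ((P : Subgroup G) : Set G)) →
      U ≤ centralizer ((P : Subgroup G) : Set G)) {u : G} (hu : u ∈ U) (hu1 : u ≠ 1)
    {Q : Subgroup G} (hQ : IsPGroup 2 Q) (hQu : ∀ x ∈ Q, x * u * x⁻¹ = u)
    (hPQ : ∀ x ∈ (P : Subgroup G), x * u * x⁻¹ = u → x ∈ Q) :
    ∀ x ∈ Q, ∀ w ∈ U, x * w * x⁻¹ ∈ U := by
  have hPn : ∀ x ∈ (P : Subgroup G), ∀ w ∈ U, x * w * x⁻¹ ∈ U := fun x hx w hw =>
    (mem_normalizer_iff.1 (hUn hx) w).1 hw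
  by_cases hPu : ∀ x ∈ (P : Subgroup G), x * u * x⁻¹ = u
  · have : Q = P := P.3 hQ fun x hx => hPQ x hx (hPu x hx)
    rw [this]; exact hPn
  push Not at hPu
  obtain ⟨a, haP, hau⟩ := hPu
  have hcyc : IsCyclic ↥((P : Subgroup G) ⊓ centralizer ((P : Subgroup G) : Set G)) := by
    by_contra h
    exact hau (by rw [mem_centralizer_iff.1 (hUZ h hu) a haP, mul_inv_cancel_right])
  obtain ⟨z, hzU, hz1, hzP⟩ : ∃ z ∈ U, z ≠ 1 ∧ ∀ x ∈ (P : Subgroup G), x * z * x⁻¹ = z := by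
    have hn : (U.subgroupOf P).Normal := (normal_subgroupOf_iff_le_normalizer hUP).2 hUn
    have hne : U.subgroupOf (P : Subgroup G) ≠ ⊥ := fun h => by
      have : (⟨u, hUP hu⟩ : (P : Subgroup G)) ∈ U.subgroupOf (P : Subgroup G) := hu
      rw [h, mem_bot] at this
      exact hu1 (congrArg Subtype.val this)
    have := P.2.isNilpotent
    obtain ⟨z, hz, hz2, hz1⟩ := CfsgLib.PGroup.exists_mem_center_of_normal _ hne
    refine ⟨z, hz, fun e => hz1 (Subtype.ext e), fun x hx => ?_⟩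
    have := congrArg Subtype.val (mem_center_iff.1 hz2 ⟨x, hx⟩)
    exact mul_inv_eq_iff_eq_mul.2 this
  have huz : u ≠ z := fun e => hau (e ▸ hzP a haP)
  set P0 : Subgroup G := (P : Subgroup G) ⊓ normalizer ((zpowers u : Subgroup G) : Set G) with hP0
  have mP0 : ∀ x, x ∈ P0 ↔ x ∈ (P : Subgroup G) ∧ x * u * x⁻¹ = u := fun x => by
    rw [hP0, mem_inf, mem_norm_zp (k_sq hU4 hu)]
  have hP0Q : P0 ≤ Q := fun x hx => hPQ x ((mP0 x).1 hx).1 ((mP0 x).1 hx).2
  have hidx : P0.relIndex P = 2 := by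
    refine relIndex_eq_two_iff.2 ⟨a, haP, fun b hb => ?_⟩
    have ha2 := (k_conj hU4 hzU hz1 hu (hPn a haP) (hzP a haP)).resolve_left hau
    have hzu : z * u ≠ u := by simpa using hz1
    rw [mP0, mP0]
    have e1 : b * a * u * (b * a)⁻¹ = z * (b * u * b⁻¹) := by
      calc b * a * u * (b * a)⁻¹ = b * (a * u * a⁻¹) * b⁻¹ := by group
        _ = (b * z * b⁻¹) * (b * u * b⁻¹) := by rw [ha2]; group
        _ = _ := by rw [hzP b hb]
    rcases k_conj hU4 hzU hz1 hu (hPn b hb) (hzP b hb) with e | e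
    · exact Or.inr ⟨⟨hb, e⟩, fun h => hzu (by rw [e1, e] at h; exact h.2)⟩
    · exact Or.inl ⟨⟨mul_mem hb haP, by rw [e1, e, ← mul_assoc, k_sq hU4 hzU, one_mul]⟩,
        fun h => hzu (e ▸ h.2)⟩
  intro x hx
  by_cases hx0 : x ∈ P0
  · exact hPn x hx0.1
  obtain ⟨P', hP'⟩ := hQ.exists_le_sylow
  have hc1 : Nat.card P0 * P0.relIndex P = Nat.card (P : Subgroup G) :=
    card_mul_relIndex_of_le inf_le_left
  have hc2 := card_mul_relIndex_of_le hP0Q
  have hc3 : Nat.card Q ≤ Nat.card (P' : Subgroup G) := card_le_of_le hP'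
  have hc4 : Nat.card (P' : Subgroup G) = Nat.card (P : Subgroup G) := by
    rw [Sylow.card_eq_multiplicity, Sylow.card_eq_multiplicity]
  have hc5 : P0.relIndex Q ≠ 1 := fun h => hx0 (relIndex_eq_one.1 h hx)
  have hc6 : P0.relIndex Q ≠ 0 := index_ne_zero_of_finite
  have hc7 : 0 < Nat.card P0 := Nat.card_pos
  rw [hidx] at hc1
  have hi2 : P0.relIndex Q = 2 := by
    have : Nat.card P0 * P0.relIndex Q ≤ Nat.card P0 * 2 := by omega
    have := Nat.le_of_mul_le_mul_left this hc7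
    omega
  have hQP' : Q = P' := eq_of_le_of_card_ge hP' (by rw [hc4, ← hc1, ← hc2, hi2])
  have hmul : ∀ a ∈ Q, ∀ b ∈ Q, a * b ∈ P0 ↔ (a ∈ P0 ↔ b ∈ P0) := fun a ha b hb =>
    mul_mem_iff_of_index_two (H := P0.subgroupOf Q) hi2 (a := ⟨a, ha⟩) (b := ⟨b, hb⟩)
  have hz0 : z ∈ P0 := (mP0 z).2 ⟨hUP hzU, by rw [k_comm hU4 hzU hu, mul_inv_cancel_right]⟩
  have hzc : ∀ y ∈ P0, y * z = z * y := fun y hy => mul_inv_eq_iff_eq_mul.1 (hzP y hy.1)
  have hxi : x⁻¹ ∉ P0 := fun h => hx0 (inv_mem_iff.1 h)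
  have hcj : ∀ y ∈ P0, x⁻¹ * y * x ∈ P0 := fun y hy =>
    (hmul _ (mul_mem (inv_mem hx) (hP0Q hy)) _ hx).2
      (iff_of_false (fun h => hxi ((P0.mul_mem_cancel_right hy).1 h)) hx0)
  set z' := x * z * x⁻¹ with hz'
  have hz'c : ∀ y ∈ P0, y * z' = z' * y := fun y hy => by
    calc y * z' = x * ((x⁻¹ * y * x) * z) * x⁻¹ := by rw [hz']; group
      _ = x * (z * (x⁻¹ * y * x)) * x⁻¹ := by rw [hzc _ (hcj y hy)]
      _ = z' * y := by rw [hz']; group
  have hxx : x * x ∈ P0 := (hmul x hx x hx).2 Iff.rfl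
  have hw : ∀ y ∈ Q, y * (z * z') = (z * z') * y := by
    have h0 : ∀ y ∈ P0, y * (z * z') = (z * z') * y := fun y hy => by
      rw [← mul_assoc y, hzc y hy, mul_assoc z, hz'c y hy, mul_assoc z]
    have h1 : x * (z * z') = (z * z') * x := by
      calc x * (z * z') = z' * ((x * x) * z) * x⁻¹ := by rw [hz']; group
        _ = z' * z * x := by rw [hzc _ hxx]; group
        _ = _ := by rw [hz'c z hz0]
    intro y hy
    by_cases hy0 : y ∈ P0
    · exact h0 y hy0
    · have := h0 _ ((hmul _ (inv_mem hx) y hy).2 (iff_of_false hxi hy0))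
      calc y * (z * z') = x * (x⁻¹ * y * (z * z')) := by group
        _ = x * (z * z') * (x⁻¹ * y) := by rw [this]; group
        _ = _ := by rw [h1]; group
  have hwQ : z * z' ∈ Q := mul_mem (hP0Q hz0) (mul_mem (mul_mem hx (hP0Q hz0)) (inv_mem hx))
  have hww : (z * z') ^ 2 = 1 := by
    have : z' * z' = 1 := by
      calc z' * z' = x * (z * z) * x⁻¹ := by rw [hz']; group
        _ = 1 := by rw [k_sq hU4 hzU]; group
    calc (z * z') ^ 2 = z * (z' * z) * z' := by rw [sq]; group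
      _ = (z * z) * (z' * z') := by rw [← hz'c z hz0]; group
      _ = 1 := by rw [this, k_sq hU4 hzU, one_mul]
  have hz'U : z' ∈ U := by
    by_cases h1 : z * z' = 1
    · rw [eq_inv_of_mul_eq_one_right h1]; exact inv_mem hzU
    obtain ⟨g, hg⟩ := MulAction.exists_smul_eq G P' P
    have hm : ∀ y ∈ Q, (∀ t ∈ Q, t * y = y * t) → g * y * g⁻¹ ∈
        (P : Subgroup G) ⊓ centralizer ((P : Subgroup G) : Set G) := by
      intro y hy hyc
      rw [← hg, Sylow.coe_subgroup_smul, ← hQP']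
      refine ⟨smul_mem_pointwise_smul _ (MulAut.conj g) _ hy, mem_centralizer_iff.2 ?_⟩
      rintro _ ⟨t, ht, rfl⟩
      change g * t * g⁻¹ * _ = _ * (g * t * g⁻¹)
      calc g * t * g⁻¹ * (g * y * g⁻¹) = g * (t * y) * g⁻¹ := by group
        _ = _ := by rw [hyc t ht]; group
    have huQ : u ∈ Q := hPQ u (hUP hu) (by group)
    have ho : ∀ y : G, y ^ 2 = 1 → y ≠ 1 → orderOf (g * y * g⁻¹) = 2 := fun y h h' =>
      orderOf_eq_prime (by rw [conj_pow, h]; group) (fun e => h' (conj_eq_one_iff.1 e))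
    have := CfsgLib.Transfer.eq_of_orderOf_eq_two_of_isCyclic hcyc (hm _ hwQ hw)
      (hm u huQ fun t ht => mul_inv_eq_iff_eq_mul.1 (hQu t ht)) (ho _ hww h1)
      (ho u (by rw [sq, k_sq hU4 hu]) hu1)
    have e : z * z' = u := by simpa using this
    rw [eq_inv_mul_of_mul_eq e]
    exact mul_mem (inv_mem hzU) hu
  intro w hw
  rcases k_cases hU4 hu hzU hw hu1 hz1 huz with rfl | rfl | rfl | rfl
  · simp
  · rwa [hQu x hx]
  · exact hz'U
  · have : x * (u * z) * x⁻¹ = (x * u * x⁻¹) * z' := by rw [hz']; group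
    rw [this, hQu x hx]; exact mul_mem hu hz'U

/-- Let `G` be a finite non-abelian simple group in which every local subgroup is solvable and which is of characteristic 2 type. Let `P` be a Sylow 2-subgroup of `G` and `U` a normal subgroup of `P` that is a four-group, with `U` central in `P` if the centre of `P` is not cyclic. Then `U` centralizes every subgroup of odd order of `G` that it normalizes. -/
theorem result {G : Type*} [Group G] [Finite G]
    [IsSimpleGroup G] (hna : ¬ IsMulCommutative G) (hN : Cfsg.IsNGroup G) (h2 : Cfsg.IsCharacteristicTwoType G)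
    (P : Sylow 2 G) (U : Subgroup G) (hUP : U ≤ (P : Subgroup G)) (hUn : (P : Subgroup G) ≤ Subgroup.normalizer (U : Set G))
    (hU4 : IsKleinFour ↥U)
    (hUZ : ¬ IsCyclic ↥((P : Subgroup G) ⊓ Subgroup.centralizer ((P : Subgroup G) : Set G)) →
      U ≤ Subgroup.centralizer ((P : Subgroup G) : Set G))
    (K : Subgroup G) (hK : Odd (Nat.card K)) (hUK : U ≤ Subgroup.normalizer (K : Set G)) :
    U ≤ Subgroup.centralizer (K : Set G) := by
  have hcomm : IsMulCommutative U := ⟨⟨fun a b => Subtype.ext (k_comm hU4 a.2 b.2)⟩⟩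
  rw [le_centralizer_iff]
  refine CfsgLib.Coprime.le_of_forall_centralizer_le (IsKleinFour.not_isCyclic) hUK
    (by rw [hU4.card_four]; exact (Nat.coprime_two_left.2 hK).pow_left 2) ?_
  rintro u hu hu1 k ⟨hkK, hku⟩
  have huu := k_sq hU4 hu
  set N := normalizer ((zpowers u : Subgroup G) : Set G) with hN
  have hN2 := h2.2 (zpowers u) (P.2.to_le ((zpowers_le.2 hu).trans hUP)) (by simpa using hu1)
  obtain ⟨Q, hQ⟩ := ((P.2.to_le (inf_le_left : (P : Subgroup G) ⊓ N ≤ P)).comap_of_injective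
    N.subtype N.subtype_injective).exists_le_sylow
  have key := sylow_norm P U hUP hUn hU4 hUZ hu hu1 (Q := (Q : Subgroup N).map N.subtype)
    (Q.2.map _) (by rintro _ ⟨x, -, rfl⟩; exact (mem_norm_zp huu).1 x.2)
    (fun x hx hxu => ⟨⟨x, (mem_norm_zp huu).2 hxu⟩, hQ ⟨hx, (mem_norm_zp huu).2 hxu⟩, rfl⟩)
  have hRn : (pCore 2 N).Normal := pCore_normal 2 N
  have hk : k * u * k⁻¹ = u := by
    rw [← mem_centralizer_singleton_iff.1 hku |>.symm, mul_inv_cancel_right]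
  rw [mem_centralizer_iff]
  intro v hv
  have hvu : v * u * v⁻¹ = u := by rw [k_comm hU4 hv hu, mul_inv_cancel_right]
  let k' : N := ⟨k, (mem_norm_zp huu).2 hk⟩
  let v' : N := ⟨v, (mem_norm_zp huu).2 hvu⟩
  let u' : N := ⟨u, le_normalizer (mem_zpowers u)⟩
  have hu'c : ∀ x : N, x * u' = u' * x := fun x =>
    Subtype.ext (mul_inv_eq_iff_eq_mul.1 ((mem_norm_zp huu).1 x.2))
  have hu'2 : u' * u' = 1 := Subtype.ext huu
  have hv'2 : v' * v' = 1 := Subtype.ext (k_sq hU4 hv)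
  let A : N → Prop := fun g => ∀ r ∈ pCore 2 N, g * r * g⁻¹ = r ∨ g * r * g⁻¹ = u' * r
  have hAv : A v' := by
    intro r hr
    have h := k_conj hU4 hu hu1 hv (r := (r : G)⁻¹)
      (key _ ⟨r⁻¹, pCore_le_sylow Q (inv_mem hr), rfl⟩) ((mem_norm_zp huu).1 (r⁻¹).2)
    have h' : r⁻¹ * v' * r⁻¹⁻¹ = v' ∨ r⁻¹ * v' * r⁻¹⁻¹ = u' * v' :=
      h.imp (fun e => Subtype.ext e) (fun e => Subtype.ext e)
    rw [inv_inv] at h'
    refine h'.imp (fun e => ?_) (fun e => ?_)
    · calc v' * r * v'⁻¹ = r * (r⁻¹ * v' * r) * v'⁻¹ := by group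
        _ = r := by rw [e]; group
    · calc v' * r * v'⁻¹ = r * (r⁻¹ * v' * r) * v'⁻¹ := by group
        _ = r * u' := by rw [e]; group
        _ = _ := hu'c r
  have hAc : ∀ g x : N, A g → A (x * g * x⁻¹) := by
    intro g x hg r hr
    have hr' : x⁻¹ * r * x⁻¹⁻¹ ∈ pCore 2 N := hRn.conj_mem r hr x⁻¹
    have e0 : x * g * x⁻¹ * r * (x * g * x⁻¹)⁻¹ = x * (g * (x⁻¹ * r * x⁻¹⁻¹) * g⁻¹) * x⁻¹ := by group
    rw [e0]
    refine (hg _ hr').imp (fun e => ?_) (fun e => ?_)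
    · rw [e]; group
    · rw [e, ← mul_assoc, hu'c x]; group
  have hAm : ∀ g h : N, A g → A h → A (g * h) := by
    intro g h hg hh r hr
    have e0 : g * h * r * (g * h)⁻¹ = g * (h * r * h⁻¹) * g⁻¹ := by group
    have e1 : g * (u' * r) * g⁻¹ = u' * (g * r * g⁻¹) := by rw [← mul_assoc, hu'c g]; group
    rw [e0]
    rcases hh r hr with e | e
    · rw [e]; exact hg r hr
    · rw [e, e1]
      rcases hg r hr with e2 | e2
      · right; rw [e2]
      · left; rw [e2, ← mul_assoc, hu'2, one_mul]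
  have hA2 : ∀ g : N, A g → g * g ∈ pCore 2 N := by
    intro g hg
    refine hN2 (mem_centralizer_iff.2 fun r hr => ?_)
    have e0 : g * g * r * (g * g)⁻¹ = g * (g * r * g⁻¹) * g⁻¹ := by group
    have e1 : g * (u' * r) * g⁻¹ = u' * (g * r * g⁻¹) := by rw [← mul_assoc, hu'c g]; group
    symm
    rw [← mul_inv_eq_iff_eq_mul, e0]
    rcases hg r hr with e | e
    · rw [e, e]
    · rw [e, e1, e, ← mul_assoc, hu'2, one_mul]
  have hy := hA2 _ (hAm _ _ (hAc v' k' hAv) hAv)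
  set y : N := k' * v' * k'⁻¹ * v' with hy0
  have hyK : (y : G) ∈ K := by
    have : (y : G) = k * (v * k⁻¹ * v⁻¹) := by
      rw [inv_eq_of_mul_eq_one_left (k_sq hU4 hv)]
      change k * v * k⁻¹ * v = _
      group
    rw [this]
    exact mul_mem hkK ((mem_normalizer_iff.1 (hUK hv) _).1 (inv_mem hkK))
  obtain ⟨n, hn⟩ := isPGroup_pCore 2 N ⟨_, hy⟩
  have hn' : (y : G) ^ 2 ^ (n + 1) = 1 := by
    have := congrArg (fun t : pCore 2 N => ((t : N) : G)) hn
    rw [pow_succ', pow_mul, sq]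
    simpa using this
  have ho : orderOf (y : G) = 1 := Nat.eq_one_of_dvd_coprimes
    ((Nat.coprime_two_left.2 hK).pow_left (n + 1)) (orderOf_dvd_of_pow_eq_one hn')
    (K.orderOf_dvd_natCard hyK)
  have e : k * v * k⁻¹ * v = 1 := orderOf_eq_one_iff.1 ho
  have e2 : k * v * k⁻¹ = v := by
    rw [eq_inv_of_mul_eq_one_left e, inv_eq_of_mul_eq_one_left (k_sq hU4 hv)]
  exact (mul_inv_eq_iff_eq_mul.1 e2).symm

end Cfsg.Agent.S1957
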