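import Cfsg.Statements.S1958
import Cfsg.Agent.Lib.PLocal.Constrained
import Cfsg.Agent.Lib.Core.Cores

set_option autoImplicit false
open Cfsg

namespace Cfsg.Agent.S1958

open Subgroup

theorem aux {G : Type*} [Group G] [Finite G] (p : ℕ) [Fact p.Prime] (x y : G) (hy : orderOf y = p)
    (hxy : x * y = y * x) (hCx : Group.IsSolvable ↥(Subgroup.centralizer ({x} : Set G))) :
    Cfsg.centralizerPPrimeCore p x ⊓ Subgroup.centralizer {y} =
      (pPrimeCore p ↥(centralizer ({x} : Set G) ⊓ centralizer ({y} : Set G))).map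
        (centralizer ({x} : Set G) ⊓ centralizer ({y} : Set G)).subtype := by
  set H := centralizer ({x} : Set G) with hH
  have hyH : y ∈ H := mem_centralizer_singleton_iff.2 hxy.symm
  have hP : IsPGroup p (zpowers (⟨y, hyH⟩ : H)) := by
    apply IsPGroup.of_card (n := 1)
    rw [Nat.card_zpowers, ← Subgroup.orderOf_coe, pow_one]
    exact hy
  have h1 := (CfsgLib.PLocal.Constr.centralizer_of_isPConstrained
    (CfsgLib.PLocal.Constr.isPConstrained_of_isSolvable (G := H) (p := p)) hP).2
  have h2 : centralizer ((zpowers (⟨y, hyH⟩ : H) : Subgroup H) : Set H) =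
      (H ⊓ centralizer ({y} : Set G)).subgroupOf H := by
    rw [CfsgLib.Core.centralizer_zpowers]
    ext z
    rw [mem_subgroupOf, mem_inf, mem_centralizer_singleton_iff, Subtype.ext_iff]
    exact ⟨fun h => ⟨z.2, mem_centralizer_singleton_iff.2 h⟩,
      fun h => mem_centralizer_singleton_iff.1 h.2⟩
  rw [h2] at h1
  rw [← CfsgLib.Core.map_map_pPrimeCore_subgroupOf (inf_le_left : H ⊓ centralizer ({y} : Set G) ≤ H),
    h1, map_inf _ _ _ H.subtype_injective, subgroupOf_map_subtype]
  have h3 : Cfsg.centralizerPPrimeCore p x ≤ H := map_subtype_le _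
  change _ = Cfsg.centralizerPPrimeCore p x ⊓ _
  apply le_antisymm
  · exact le_inf inf_le_left (le_inf (le_inf (inf_le_left.trans h3) inf_le_right)
      (inf_le_left.trans h3))
  · exact inf_le_inf_left _ (inf_le_left.trans inf_le_right)


/-- Let `G` be a finite group, `p` a prime, and `x, y` commuting elements of order `p` whose centralizers `C_G(x)` and `C_G(y)` are both solvable. Then `O_{p'}(C_G(x)) ∩ C_G(y) = O_{p'}(C_G(y)) ∩ C_G(x)` (balance). -/
theorem result {G : Type*} [Group G] [Finite G]
    (p : ℕ) [Fact p.Prime] (x y : G) (hx : orderOf x = p) (hy : orderOf y = p) (hxy : x * y = y * x)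
    (hCx : Group.IsSolvable ↥(Subgroup.centralizer ({x} : Set G))) (hCy : Group.IsSolvable ↥(Subgroup.centralizer ({y} : Set G))) :
    Cfsg.centralizerPPrimeCore p x ⊓ Subgroup.centralizer {y} = Cfsg.centralizerPPrimeCore p y ⊓ Subgroup.centralizer {x} := by
  rw [aux p x y hy hxy hCx, aux p y x hx hxy.symm hCy, inf_comm]

end Cfsg.Agent.S1958
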