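import Cfsg.Statements.S1981
import Cfsg.Agent.Lib.CFun.KInf

set_option autoImplicit false
open Cfsg

namespace Cfsg.Agent.S1981

open CfsgLib CfsgLib.CFun Subgroup

/-- Let P be a finite p-group generated by its abelian normal subgroups. Then both K-infinity subgroups of P equal P. -/
theorem result {P : Type*} [Group P] [Finite P] {p : ℕ} [Fact p.Prime] (hP : IsPGroup p P) (hgen : ⨆ A ∈ {A : Subgroup P | A.Normal ∧ IsMulCommutative ↥A}, A = ⊤) : Cfsg.kInfLower P = ⊤ ∧ Cfsg.kInfUpper P = ⊤ := by
  rw [kInfLower_eq, kInfUpper_eq, eq_top_iff, eq_top_iff]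
  constructor
  · refine hgen.ge.trans (iSup₂_le fun A hA => ?_)
    have := hA.1
    exact le_kLoIn_of_comm le_top (Subgroup.le_centralizer_iff_isMulCommutative.2 hA.2)
      le_normalizer_of_normal
  · refine hgen.ge.trans (iSup₂_le fun A hA => ?_)
    have := hA.1
    exact le_kUpIn_of_comm le_top (Subgroup.le_centralizer_iff_isMulCommutative.2 hA.2)
      le_normalizer_of_normal

end Cfsg.Agent.S1981
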