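import Mathlib
import Cfsg.Statements.S1990
import Cfsg.Agent.Lib.ZJ.FunctorApp
import Cfsg.Agent.S2005

set_option autoImplicit false
universe u
open Cfsg

namespace Cfsg.Agent.S1990

/-- Let p be an odd prime, G a finite group with Sylow p-subgroup S, and W an isomorphism-invariant p-group functor (W assigns to every group Q a subgroup W(Q), nontrivial whenever Q is a nontrivial finite p-group, and every isomorphism from a finite p-group Q onto a group R carries W(Q) onto W(R)). Suppose N_G(W(S)) has a normal p-complement, and W(T) controls strong fusion in every section G* = K/R of G all of whose sections are p-stable in the normalizer form, for every Sylow p-subgroup T of G*. Then G has a normal p-complement. -/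
theorem result {G : Type u} [Group G] [Finite G] {p : ℕ} [Fact p.Prime] (hp : p ≠ 2) (W : ∀ (Q : Type u) [Group Q], Subgroup Q) (hW : Cfsg.IsCharPFunctor.{u} p W) (S : Sylow p G) (hN : Cfsg.HasNormalPComplement p ↥(Subgroup.normalizer ((Cfsg.inducedFunctor (G := G) W (S : Subgroup G) : Subgroup G) : Set G))) (hctl : ∀ (K R : Subgroup G) [hR : (R.subgroupOf K).Normal], (∀ (K' R' : Subgroup (↥K ⧸ R.subgroupOf K)) [hR' : (R'.subgroupOf K').Normal], Cfsg.IsNormalizerPStable p (↥K' ⧸ R'.subgroupOf K')) → ∀ T : Sylow p (↥K ⧸ R.subgroupOf K), Cfsg.ControlsStrongFusion p (Cfsg.inducedFunctor (G := (↥K ⧸ R.subgroupOf K)) W (T : Subgroup (↥K ⧸ R.subgroupOf K)))) : Cfsg.HasNormalPComplement p G := by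
  have hW' := CfsgLib.ZJ.isSubFunctor_inducedFunctor hW
  refine Cfsg.Agent.S2005.result W hW S hN fun K R _ hc hq T hm => ?_
  have hab := CfsgLib.ZJ.sylow_comm_of_isCoatom hp (CfsgLib.Tech.IsSylowIn.of_sylow_top T) hq hm
  refine CfsgLib.ZJ.normal_of_controlsStrongFusion hc ((CfsgLib.PLocal.PSolv.pCore_le_sylow T).trans
    (Subgroup.le_normalizer.trans (hW'.norm_le T.isPGroup'))) (hctl K R (fun K' R' _ => ?_) T)
  exact CfsgLib.ZJ.isNormalizerPStable_of_sylow_two_comm hp
    (CfsgLib.ZJ.sylow_comm_of_involves (CfsgLib.ZJ.involves_section K' R') hab)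

end Cfsg.Agent.S1990
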