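import Cfsg.Statements.S2007
import Cfsg.Agent.Lib.CFun.Section

set_option autoImplicit false
open Cfsg

namespace Cfsg.Agent.S2007

open CfsgLib CfsgLib.CFun CfsgLib.Tech Subgroup

/-- Let p be a prime, G a finite group with Sylow p-subgroup S, and T a normal subgroup of S containing C_S(T). If N_G(T)/C_G(T) is a p-group (every element of N_G(T) of order prime to p centralizes T), then N_G(T) has a normal p-complement. -/
theorem result {G : Type*} [Group G] [Finite G] {p : ℕ} [Fact p.Prime] (S : Sylow p G) (T : Subgroup G) (hTS : T ≤ (S : Subgroup G)) (hTn : (S : Subgroup G) ≤ Subgroup.normalizer ((T : Subgroup G) : Set G)) (hC : (S : Subgroup G) ⊓ Subgroup.centralizer ((T : Subgroup G) : Set G) ≤ T) (hN : ∀ g ∈ Subgroup.normalizer ((T : Subgroup G) : Set G), (orderOf g).Coprime p → g ∈ Subgroup.centralizer ((T : Subgroup G) : Set G)) : Cfsg.HasNormalPComplement p ↥(Subgroup.normalizer ((T : Subgroup G) : Set G)) := by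
  have hS : IsSylowIn p (S : Subgroup G) 𝐍(T) := IsSylowIn.of_sylow S hTn
  have hR := hS.inf_of_le_normalizer (LAE.normalizer_le_normalizer_centralizer T)
  rw [inf_eq_right.2 (cent_le_norm T)] at hR
  have h2 : Cfsg.HasNormalPComplement p 𝐂(T) := by
    refine Transfer.hasNormalPComplement_of_sylow_le_center hR.toSylow fun x hx => ?_
    rw [Subgroup.mem_center_iff]
    intro c
    exact Subtype.ext (c.2 _ (hC (hR.mem_toSylow.1 hx))).symm
  refine Transfer.hasNormalPComplement_of_pResidual_le (N := (𝐂(T)).subgroupOf 𝐍(T))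
    (Transfer.pResidual_le_iff.2 fun g hg => hN g g.2 (by rwa [Subgroup.orderOf_coe])) ?_
  exact (Transfer.hasNormalPComplement_subgroupOf_iff (cent_le_norm T)).2 h2

end Cfsg.Agent.S2007
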