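import Cfsg.Statements.S1992
import Cfsg.Agent.Lib.CFun.KInfMain
import Cfsg.Agent.S1991
import Cfsg.Agent.Lib.Char.Burnside

set_option autoImplicit false
open Cfsg

namespace Cfsg.Agent.S1992

open CfsgLib CfsgLib.CFun CfsgLib.Tech Subgroup

/-- Let G be a finite group in which, for every prime q dividing the order of G, every Sylow q-subgroup is its own normalizer. Then the order of G is a power of a single prime (G is a q-group for some prime q; for G trivial any prime works). -/
theorem result {G : Type*} [Group G] [Finite G] (h : ∀ q : ℕ, q.Prime → q ∣ Nat.card G → ∀ Q : Sylow q G, Subgroup.normalizer ((Q : Subgroup G) : Set G) = Q) : ∃ q : ℕ, q.Prime ∧ IsPGroup q G := by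
  have key : ∀ N : Subgroup G, N.Normal → N.index.Prime → IsPGroup N.index G := by
    intro N hN hp
    have := Fact.mk hp
    refine (IsPGroup.iff_card).2 ⟨_, Nat.eq_prime_pow_of_unique_prime_dvd Nat.card_pos.ne' ?_⟩
    intro q hq hdvd
    by_contra hne
    have := Fact.mk hq
    obtain ⟨Q⟩ : Nonempty (Sylow q G) := inferInstance
    have hQN : (Q : Subgroup G) ≤ N := Core.le_of_coprime_card_index
      (Core.isPGroup_coprime_card Q.2 ((Nat.coprime_primes hp hq).2 (Ne.symm hne)))
    have h1 : ⊤ ≤ N := fun g _ => by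
      obtain ⟨n, hn, hg⟩ := (IsSylowIn.of_sylow Q hQN).frattini
        (le_normalizer_of_normal (mem_top g))
      rw [h q hq hdvd Q] at hg
      have := N.mul_mem (N.inv_mem hn) (hQN hg)
      rwa [inv_mul_cancel_left] at this
    rw [top_le_iff.1 h1, index_top] at hp
    exact Nat.not_prime_one hp
  by_cases h5 : ∃ p : ℕ, p.Prime ∧ p ∣ Nat.card G ∧ 5 ≤ p
  · obtain ⟨p, hp, hdvd, h5⟩ := h5
    have := Fact.mk hp
    obtain ⟨S⟩ : Nonempty (Sylow p G) := inferInstance
    obtain ⟨N, hN, hi⟩ := Cfsg.Agent.S1991.result h5 S (S.ne_bot_of_dvd_card hdvd) (fun g hg hg' => by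
      rw [h p hp hdvd S] at hg
      obtain ⟨k, hk⟩ := isPGroup_iff_mem.1 S.2 g hg
      have : orderOf g = 1 := Nat.eq_one_of_dvd_coprimes (hg'.pow_right k) dvd_rfl
        (orderOf_dvd_of_pow_eq_one hk)
      rw [orderOf_eq_one_iff.1 this]
      exact one_mem _)
    exact ⟨_, hi ▸ hp, key N hN (hi ▸ hp)⟩
  · have hs : Group.IsSolvable G := Char.isSolvable_of_prime_dvd_card Nat.prime_two Nat.prime_three
      fun r hr hd => by
        have h6 : r < 5 := by
          by_contra hc
          exact h5 ⟨r, hr, hd, not_lt.1 hc⟩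
        interval_cases r <;> simp_all (config := {decide := true})
    by_cases hG : Nontrivial G
    · obtain ⟨N, hN, hi⟩ := Core.exists_normal_prime_index G
      exact ⟨_, hi, key N hN hi⟩
    · rw [not_nontrivial_iff_subsingleton] at hG
      exact ⟨2, Nat.prime_two, fun g => ⟨0, Subsingleton.elim _ _⟩⟩

end Cfsg.Agent.S1992
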