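import Cfsg.Statements.S1996
import Cfsg.Agent.Lib.CFun.Reduce

set_option autoImplicit false
universe u
open Cfsg

namespace Cfsg.Agent.S1996

open CfsgLib CfsgLib.CFun CfsgLib.Tech Subgroup

theorem fusGen_of_mul {G : Type*} [Group G] [Finite G] {p : ℕ} [Fact p.Prime] {S N₁ N₂ : Subgroup G}
    (hS : IsSylowIn p S ⊤) (h1 : S ≤ N₁) (h2 : S ≤ N₂) (h : ∀ x, ∃ a ∈ N₁, ∃ b ∈ N₂, x = a * b) :
    FusGen (↑N₁ ∪ ↑N₂) ⊤ S := by
  intro A hA x _ hx
  obtain ⟨a, ha, b, hb, rfl⟩ := h x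
  have h3 : cj b A ≤ N₁ ⊓ N₂ := by
    refine le_inf ?_ (cj_le_of_le_of_mem (hA.trans h2) hb)
    have := cj_le_of_le_of_mem (hx.trans h1) (N₁.inv_mem ha)
    rwa [← cj_mul, inv_mul_cancel_left] at this
  obtain ⟨l, hl, hl'⟩ := (hS.of_le (le_inf h1 h2) le_top).exists_cj_le
    (isPGroup_cj _ (hS.pgroup.to_le hA)) h3
  rw [← cj_mul] at hl'
  have e : a * b = (a * l⁻¹) * (l * b) := by group
  rw [e] at hx ⊢
  refine Reach.step (Reach.single ?_ hl') ?_ hx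
  · exact Or.inr (N₂.mul_mem hl.2 hb)
  · exact Or.inl (N₁.mul_mem ha (N₁.inv_mem hl.1))


/-- Let p be a prime, G a finite group and W₁, W₂ two isomorphism-invariant p-group functors (W assigns to every group Q a subgroup W(Q), nontrivial whenever Q is a nontrivial finite p-group, and every isomorphism from a finite p-group Q onto a group R carries W(Q) onto W(R)). Suppose that G* = N_{G*}(W₁(S*)) N_{G*}(W₂(S*)) whenever G* = K/R is a section of G with C_{G*}(O_p(G*)) ≤ O_p(G*) and S* is a Sylow p-subgroup of G*. Then the pair {W₁, W₂} controls strong fusion in G. -/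
theorem result {G : Type u} [Group G] [Finite G] {p : ℕ} [Fact p.Prime] (W₁ W₂ : ∀ (Q : Type u) [Group Q], Subgroup Q) (hW₁ : Cfsg.IsCharPFunctor.{u} p W₁) (hW₂ : Cfsg.IsCharPFunctor.{u} p W₂) (hfac : ∀ (K R : Subgroup G) [hR : (R.subgroupOf K).Normal], Subgroup.centralizer ((Cfsg.pCore p (↥K ⧸ R.subgroupOf K) : Subgroup (↥K ⧸ R.subgroupOf K)) : Set (↥K ⧸ R.subgroupOf K)) ≤ Cfsg.pCore p (↥K ⧸ R.subgroupOf K) → ∀ T : Sylow p (↥K ⧸ R.subgroupOf K), ∀ x : (↥K ⧸ R.subgroupOf K), ∃ a ∈ Subgroup.normalizer ((Cfsg.inducedFunctor (G := (↥K ⧸ R.subgroupOf K)) W₁ (T : Subgroup (↥K ⧸ R.subgroupOf K)) : Subgroup (↥K ⧸ R.subgroupOf K)) : Set (↥K ⧸ R.subgroupOf K)), ∃ b ∈ Subgroup.normalizer ((Cfsg.inducedFunctor (G := (↥K ⧸ R.subgroupOf K)) W₂ (T : Subgroup (↥K ⧸ R.subgroupOf K)) : Subgroup (↥K ⧸ R.subgroupOf K)) : Set (↥K ⧸ R.subgroupOf K)), x = a * b) : Cfsg.FamilyControlsStrongFusionIn p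 {Cfsg.inducedFunctor (G := G) W₁, Cfsg.inducedFunctor (G := G) W₂} ⊤ := by
  have h𝓦 : ∀ W ∈ ({W₁, W₂} : Set (∀ (Q : Type u) [Group Q], Subgroup Q)),
      Cfsg.IsCharPFunctor.{u} p W := by
    rintro _ (rfl | rfl) <;> assumption
  rw [← ind_pair]
  refine fusCtl_of_sections h𝓦 (G := G) (fun K R _ hc _ => ?_) G (Sec.refl G)
  obtain ⟨T⟩ : Nonempty (Sylow p (K ⧸ R.subgroupOf K)) := inferInstance
  have hT := IsSylowIn.of_sylow_top T
  rw [FusCtl, familyControlsStrongFusionIn_iff (ind_conj h𝓦) hT]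
  refine (fusGen_of_mul hT (cf_le_norm (isConjugacyFunctor_induced hW₁) T.2)
    (cf_le_norm (isConjugacyFunctor_induced hW₂) T.2) (hfac K R hc T)).mono ?_
  rintro x (hx | hx)
  · exact ⟨_, ⟨W₁, Or.inl rfl, rfl⟩, trivial, hx⟩
  · exact ⟨_, ⟨W₂, Or.inr rfl, rfl⟩, trivial, hx⟩

end Cfsg.Agent.S1996
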