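import Cfsg.Statements.S1997
import Cfsg.Agent.Lib.CFun.Reduce
import Cfsg.Agent.Lib.PLocal.Factorization
import Cfsg.Agent.S1996

set_option autoImplicit false
universe u
open Cfsg

namespace Cfsg.Agent.S1997

open CfsgLib CfsgLib.CFun CfsgLib.Tech CfsgLib.PLocal Subgroup

theorem constrained_quot {K : Type*} [Group K] [Finite K] {p : ℕ} [Fact p.Prime]
    {S P : Subgroup K} [P.Normal] (hS : IsSylowIn p S ⊤) (hP : P ≤ S) (hc : S ⊓ 𝐂(P) ≤ P) :
    𝐂(pCore p (K ⧸ pPrimeCore p K)) ≤ pCore p (K ⧸ pPrimeCore p K) := by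
  have hπ := QuotientGroup.mk'_surjective (pPrimeCore p K)
  have hk := Constr.coprime_ker_mk' (G := K) (p := p)
  have hS' := sylIn_map_top hS hπ
  refine cent_le_of_norm_eq_top hS' PSolv.pPrimeCore_quotient ?_
  have hPn : (P.map (QuotientGroup.mk' (pPrimeCore p K))).Normal := Normal.map inferInstance _ hπ
  have h1 : P.map (QuotientGroup.mk' (pPrimeCore p K)) ≤ pCore p (K ⧸ pPrimeCore p K) :=
    Core.le_pCore ((hS.pgroup.to_le hP).map _)
  have h2 : S.map (QuotientGroup.mk' (pPrimeCore p K)) ⊓ 𝐂(pCore p (K ⧸ pPrimeCore p K)) =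
      zc (pCore p (K ⧸ pPrimeCore p K)) := by
    refine le_antisymm (le_inf ?_ inf_le_right) (inf_le_inf_right _ (pCore_le_sylIn hS'))
    rintro _ ⟨⟨s, hs, rfl⟩, h3⟩
    exact h1 ⟨s, hc ⟨hs, Constr.mem_centralizer_of_coprime_ker hk (hS.pgroup.to_le hP)
      (le_normalizer_of_normal (mem_top s)) (cent_anti h1 h3)⟩, rfl⟩
  rw [h2]
  exact top_le_iff.1 (le_normalizer_of_normal.trans (norm_le_norm_zc _))

universe v in
theorem fac_of {G : Type v} [Group G] [Finite G] {p : ℕ} [Fact p.Prime]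
    {W : ∀ (Q : Type v) [Group Q], Subgroup Q} (hW : Cfsg.IsCharPFunctor.{v} p W)
    (hfac : ∀ (K R : Subgroup G) [(R.subgroupOf K).Normal],
      𝐂(pCore p (K ⧸ R.subgroupOf K)) ≤ pCore p (K ⧸ R.subgroupOf K) →
      ∀ T : Sylow p (K ⧸ R.subgroupOf K), ∀ x : K ⧸ R.subgroupOf K,
        ∃ a ∈ 𝐂(omegaOne p (zc (T : Subgroup (K ⧸ R.subgroupOf K)))),
        ∃ b ∈ 𝐍(inducedFunctor W (T : Subgroup (K ⧸ R.subgroupOf K))), x = a * b)
    {S P : Subgroup G} (hS : IsSylowIn p S ⊤) (hP : P ≤ S) (hSP : S ≤ 𝐍(P)) (hc : S ⊓ 𝐂(P) ≤ P)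
    {k : G} (hk : k ∈ 𝐍(P)) :
    ∃ a ∈ 𝐂(omegaOne p (zc S)), ∃ b ∈ 𝐍(inducedFunctor W S), k = a * b := by
  set K := 𝐍(P) with hK
  have e : ((pPrimeCore p K).map K.subtype).subgroupOf K = pPrimeCore p K :=
    comap_map_eq_self_of_injective K.subtype_injective _
  have hn : (((pPrimeCore p K).map K.subtype).subgroupOf K).Normal := by rw [e]; infer_instance
  have hS' : IsSylowIn p (S.subgroupOf K) ⊤ :=
    ⟨le_top, hS.pgroup.comap_subtype, by
      rw [relIndex_top_right]; exact (hS.of_le hSP le_top).not_dvd⟩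
  have hPn : (P.subgroupOf K).Normal := normal_in_normalizer
  have hc' : S.subgroupOf K ⊓ 𝐂(P.subgroupOf K) ≤ P.subgroupOf K := fun x hx =>
    hc ⟨hx.1, fun y hy => congrArg Subtype.val (hx.2 ⟨y, le_normalizer hy⟩ hy)⟩
  have h1 := Constr.centralizer_pCore_le_equiv (QuotientGroup.quotientMulEquivOfEq e).symm
    (constrained_quot (P := P.subgroupOf K) hS' (comap_mono hP) hc')
  have hπ := QuotientGroup.mk'_surjective (((pPrimeCore p K).map K.subtype).subgroupOf K)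
  set π := QuotientGroup.mk' (((pPrimeCore p K).map K.subtype).subgroupOf K) with hπd
  have hker : π.ker = pPrimeCore p K := by rw [hπd, QuotientGroup.ker_mk', e]
  have hcop : (Nat.card π.ker).Coprime p := by rw [hker]; exact PSolv.coprime_card_pPrimeCore
  have hd := (PSolv.disjoint_of_isPGroup_of_coprime hS'.pgroup hcop).eq_bot
  obtain ⟨a, ha, b, hb, hab⟩ := hfac K _ h1 (sylIn_map_top hS' hπ).toSylowTop (π ⟨k, hk⟩)
  obtain ⟨a, rfl⟩ := hπ a
  obtain ⟨b, rfl⟩ := hπ b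
  rw [IsSylowIn.coe_toSylowTop] at ha hb
  rw [← map_omegaOne_center_of_disjoint hd] at ha
  rw [← map_inducedFunctor hW π hS'.pgroup hd] at hb
  obtain ⟨a, ha, ea⟩ := Constr.exists_mem_centralizer_of_coprime_ker hcop
    (hS'.pgroup.to_le ((omegaOne_le _).trans inf_le_left)) ha
  obtain ⟨b, hb, eb⟩ := Constr.exists_mem_normalizer_of_coprime_ker hcop
    (hS'.pgroup.to_le (cf_le (isConjugacyFunctor_induced hW) hS'.pgroup)) hb
  have ho : ⟨k, hk⟩ * (a * b)⁻¹ ∈ π.ker := by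
    rw [MonoidHom.mem_ker, map_mul, map_inv, map_mul, hab, ea, eb, mul_inv_cancel]
  have ho' : ⟨k, hk⟩ * (a * b)⁻¹ ∈ 𝐂(P.subgroupOf K) :=
    Constr.mem_centralizer_of_coprime_ker (P := P.subgroupOf K) hcop
      (hS'.pgroup.to_le (comap_mono hP))
      (le_normalizer_of_normal (mem_top _)) (by rw [MonoidHom.mem_ker.1 ho]; exact one_mem _)
  have hZ : omegaOne p (zc (S.subgroupOf K)) ≤ P.subgroupOf K :=
    (omegaOne_le _).trans ((inf_le_inf_left _ (cent_anti (comap_mono hP))).trans hc')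
  refine ⟨(⟨k, hk⟩ * (a * b)⁻¹ * a : K), ?_, b, ?_, ?_⟩
  · rw [← map_subgroupOf_eq_of_le hSP, ← map_omegaOne_center K.subtype_injective]
    exact map_centralizer_le_centralizer_image _ _ ⟨_, mul_mem (cent_anti hZ ho') ha, rfl⟩
  · rw [← map_subgroupOf_eq_of_le hSP,
      ← map_inducedFunctor_of_injective hW K.subtype_injective hS'.pgroup]
    exact le_normalizer_map _ ⟨b, hb, rfl⟩
  · simp [mul_assoc]

theorem mem_clos {G : Type*} [Group G] {Z N X : Subgroup G} (hZ : Z ≤ N) :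
    (normalClosure ((Z.subgroupOf N : Subgroup N) : Set N)).map N.subtype ≤ X ↔
      ∀ n ∈ N, cj n Z ≤ X := by
  rw [map_le_iff_le_comap, normalClosure, closure_le]
  constructor
  · intro h n hn
    refine cj_le_iff.2 fun z hz => ?_
    exact h (Group.mem_conjugatesOfSet_iff.2 ⟨⟨z, hZ hz⟩, hz, isConj_iff.2 ⟨⟨n, hn⟩, rfl⟩⟩)
  · intro h x hx
    obtain ⟨z, hz, h1⟩ := Group.mem_conjugatesOfSet_iff.1 hx
    obtain ⟨n, rfl⟩ := isConj_iff.1 h1
    exact cj_le_iff.1 (h n n.2) z hz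

theorem le_norm_clos {G : Type*} [Group G] {Z N : Subgroup G} :
    N ≤ 𝐍((normalClosure ((Z.subgroupOf N : Subgroup N) : Set N)).map N.subtype) := by
  have h3 := le_normalizer_map
    (H := normalClosure ((Z.subgroupOf N : Subgroup N) : Set N)) N.subtype
  rwa [normalizer_eq_top, ← MonoidHom.range_eq_map, range_subtype] at h3

theorem elem_clos {G : Type*} [Group G] {p : ℕ} {S U : Subgroup G} (hU : U ≤ S)
    (hZ : omegaOne p (zc S) ≤ U) :
    (normalClosure (((omegaOne p (zc S)).subgroupOf 𝐍(U) : Subgroup 𝐍(U)) : Set 𝐍(U))).map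
      𝐍(U).subtype ≤ omegaOne p (zc U) := by
  rw [mem_clos (hZ.trans le_normalizer)]
  intro n hn
  refine cj_le_of_le_of_mem_norm (omegaOne_le_iff.2 fun x hx hp => mem_omegaOne
    ⟨hZ (mem_omegaOne hx hp), cent_anti hU hx.2⟩ hp) ?_
  exact normalizer_le_normalizer_omegaOne _ (norm_le_norm_zc U hn)

universe v in
theorem clos_le {G : Type v} [Group G] [Finite G] {p : ℕ} [Fact p.Prime]
    {W : ∀ (Q : Type v) [Group Q], Subgroup Q} (hW : Cfsg.IsCharPFunctor.{v} p W)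
    (hfac : ∀ (K R : Subgroup G) [(R.subgroupOf K).Normal],
      𝐂(pCore p (K ⧸ R.subgroupOf K)) ≤ pCore p (K ⧸ R.subgroupOf K) →
      ∀ T : Sylow p (K ⧸ R.subgroupOf K), ∀ x : K ⧸ R.subgroupOf K,
        ∃ a ∈ 𝐂(omegaOne p (zc (T : Subgroup (K ⧸ R.subgroupOf K)))),
        ∃ b ∈ 𝐍(inducedFunctor W (T : Subgroup (K ⧸ R.subgroupOf K))), x = a * b)
    {S U X : Subgroup G} (hS : IsSylowIn p S ⊤) (hU : U ≤ S) (hSU : S ≤ 𝐍(U))
    (hZ : omegaOne p (zc S) ≤ U) (hX : ∀ n ∈ 𝐍(inducedFunctor W S), cj n (omegaOne p (zc S)) ≤ X)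
    {n : G} (hn : n ∈ 𝐍(U)) : cj n (omegaOne p (zc S)) ≤ X := by
  set A := omegaOne p (zc U) with hA
  have hAU : A ≤ U := (omegaOne_le _).trans (zc_le U)
  have hN : 𝐍(U) ≤ 𝐍(A) := (norm_le_norm_zc U).trans (normalizer_le_normalizer_omegaOne _)
  have hN' : 𝐍(U) ≤ 𝐍(𝐂(A)) := hN.trans (Core.normalizer_le_normalizer_centralizer _)
  have hZA : omegaOne p (zc S) ≤ A := omegaOne_le_iff.2 fun x hx hp => mem_omegaOne
    ⟨hZ (mem_omegaOne hx hp), cent_anti hU hx.2⟩ hp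
  have hAc : A ≤ 𝐂(A) := elemAb_le_centralizer (elemAb_omegaOne_center U)
  have h1 := (hS.of_le hSU le_top).inf_of_le_normalizer hN'
  obtain ⟨c, hc, hcn⟩ := h1.frattini' (LAE.le_normalizer_inf le_normalizer hN' hn)
  obtain ⟨a, ha, b, hb, hab⟩ := fac_of hW hfac hS (P := S ⊓ 𝐂(A)) inf_le_left
    (LAE.le_normalizer_inf le_normalizer (hSU.trans hN'))
    (inf_le_inf_left _ (cent_anti (le_inf (hAU.trans hU) hAc))) (inv_mem hcn)
  have e : n = b⁻¹ * (a⁻¹ * c⁻¹) := by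
    rw [← mul_assoc, ← mul_inv_rev, ← hab]; group
  rw [e, cj_mul, cj_eq_of_mem_norm (cent_le_norm _
    (mul_mem (inv_mem ha) (inv_mem (cent_anti hZA hc.2))))]
  exact hX _ (inv_mem hb)


/-- Let p be a prime, G a finite group with Sylow p-subgroup S, and W₁, W₂ two isomorphism-invariant p-group functors (W assigns to every group Q a subgroup W(Q), nontrivial whenever Q is a nontrivial finite p-group, and every isomorphism from a finite p-group Q onto a group R carries W(Q) onto W(R)). Suppose that G* = C_{G*}(Ω₁Z(S*)) N_{G*}(W₁(S*)) = C_{G*}(Ω₁Z(S*)) N_{G*}(W₂(S*)) = N_{G*}(W₁(S*)) N_{G*}(W₂(S*)) whenever G* = K/R is a section of G with C_{G*}(O_p(G*)) ≤ O_p(G*) and S* is a Sylow p-subgroup of G*, where Ω₁Z denotes the subgroup generated by the elements of order dividing p in the centre. Suppose also Ω₁Z(S) ≤ W₁(S) ∩ W₂(S), and let A be the normal closure of Ω₁Z(S) in N_G(W₁(S)). Then A is an elementary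 abelian subgroup of S, strongly closed in S with respect to G, and A controls strong fusion in G. -/
theorem result {G : Type u} [Group G] [Finite G] {p : ℕ} [Fact p.Prime] (S : Sylow p G) (W₁ W₂ : ∀ (Q : Type u) [Group Q], Subgroup Q) (hW₁ : Cfsg.IsCharPFunctor.{u} p W₁) (hW₂ : Cfsg.IsCharPFunctor.{u} p W₂) (hfac : ∀ (K R : Subgroup G) [hR : (R.subgroupOf K).Normal], Subgroup.centralizer ((Cfsg.pCore p (↥K ⧸ R.subgroupOf K) : Subgroup (↥K ⧸ R.subgroupOf K)) : Set (↥K ⧸ R.subgroupOf K)) ≤ Cfsg.pCore p (↥K ⧸ R.subgroupOf K) → ∀ T : Sylow p (↥K ⧸ R.subgroupOf K), (∀ x : (↥K ⧸ R.subgroupOf K), ∃ a ∈ Subgroup.centralizer ((Cfsg.omegaOne p ((T : Subgroup (↥K ⧸ R.subgroupOf K)) ⊓ Subgroup.centralizer (((T : Subgroup (↥K ⧸ R.subgroupOf K)) : Subgroup (↥K ⧸ R.subgroupOf K)) : Set (↥K ⧸ R.subgroupOf K))) : Subgroup (↥K ⧸ R.subgroupOf K)) : Set (↥K ⧸ R.subgroupOf K)), ∃ b ∈ Subgroup.normalizer ((Cfsg.inducedFunctor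 (G := (↥K ⧸ R.subgroupOf K)) W₁ (T : Subgroup (↥K ⧸ R.subgroupOf K)) : Subgroup (↥K ⧸ R.subgroupOf K)) : Set (↥K ⧸ R.subgroupOf K)), x = a * b) ∧ (∀ x : (↥K ⧸ R.subgroupOf K), ∃ a ∈ Subgroup.centralizer ((Cfsg.omegaOne p ((T : Subgroup (↥K ⧸ R.subgroupOf K)) ⊓ Subgroup.centralizer (((T : Subgroup (↥K ⧸ R.subgroupOf K)) : Subgroup (↥K ⧸ R.subgroupOf K)) : Set (↥K ⧸ R.subgroupOf K))) : Subgroup (↥K ⧸ R.subgroupOf K)) : Set (↥K ⧸ R.subgroupOf K)), ∃ b ∈ Subgroup.normalizer ((Cfsg.inducedFunctor (G := (↥K ⧸ R.subgroupOf K)) W₂ (T : Subgroup (↥K ⧸ R.subgroupOf K)) : Subgroup (↥K ⧸ R.subgroupOf K)) : Set (↥K ⧸ R.subgroupOf K)), x = a * b) ∧ (∀ x : (↥K ⧸ R.subgroupOf K), ∃ a ∈ Subgroup.normalizer ((Cfsg.inducedFunctor (G := (↥K ⧸ R.subgroupOf K)) W₁ (T : Subgroup (↥K ⧸ R.subgroupOf K)) : Subgroup (↥K ⧸ R.subgroupOf K)) : Set (↥K ⧸ R.subgroupOf K)), ∃ b ∈ Subgroup.normalizer ((Cfsg.inducedFunctor (G := (↥K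 ⧸ R.subgroupOf K)) W₂ (T : Subgroup (↥K ⧸ R.subgroupOf K)) : Subgroup (↥K ⧸ R.subgroupOf K)) : Set (↥K ⧸ R.subgroupOf K)), x = a * b)) (hZ : Cfsg.omegaOne p ((S : Subgroup G) ⊓ Subgroup.centralizer (((S : Subgroup G) : Subgroup G) : Set G)) ≤ Cfsg.inducedFunctor (G := G) W₁ (S : Subgroup G) ⊓ Cfsg.inducedFunctor (G := G) W₂ (S : Subgroup G)) (N₁ : Subgroup G) (hN₁ : N₁ = Subgroup.normalizer ((Cfsg.inducedFunctor (G := G) W₁ (S : Subgroup G) : Subgroup G) : Set G)) (A : Subgroup G) (hA : A = (Subgroup.normalClosure (((Cfsg.omegaOne p ((S : Subgroup G) ⊓ Subgroup.centralizer (((S : Subgroup G) : Subgroup G) : Set G))).subgroupOf N₁ : Subgroup ↥N₁) : Set ↥N₁)).map N₁.subtype) : A ≤ (S : Subgroup G) ∧ Cfsg.IsElementaryAbelian p A ∧ Cfsg.IsStronglyClosed A (S : Subgroup G) ∧ Cfsg.ControlsStrongFusion p A := by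
  subst hN₁
  have hS := IsSylowIn.of_sylow_top S
  have c1 := isConjugacyFunctor_induced (G := G) hW₁
  have c2 := isConjugacyFunctor_induced (G := G) hW₂
  have hZ1 := hZ.trans inf_le_left
  have hZ2 := hZ.trans inf_le_right
  have hA1 := (mem_clos (hZ1.trans le_normalizer)).1 hA.ge
  have hAe := hA.le.trans (elem_clos (cf_le c1 S.2) hZ1)
  have hAS : A ≤ S := (hAe.trans ((omegaOne_le _).trans (zc_le _))).trans (cf_le c1 S.2)
  have hN1 : 𝐍(inducedFunctor W₁ (S : Subgroup G)) ≤ 𝐍(A) := hA ▸ le_norm_clos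
  have hN2 : 𝐍(inducedFunctor W₂ (S : Subgroup G)) ≤ 𝐍(A) := by
    have h1 := (mem_clos (hZ2.trans le_normalizer)).2 fun n hn => clos_le hW₁
      (fun K R _ h T => (hfac K R h T).1) hS (cf_le c2 S.2) (cf_le_norm c2 S.2) hZ2 hA1 hn
    have h2 := hA.le.trans ((mem_clos (hZ1.trans le_normalizer)).2 fun n hn => clos_le hW₂
      (fun K R _ h T => (hfac K R h T).2.1) hS (cf_le c1 S.2) (cf_le_norm c1 S.2) hZ1
      ((mem_clos (hZ2.trans le_normalizer)).1 le_rfl) hn)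
    rw [le_antisymm h2 h1]
    exact le_norm_clos
  have h3 := (familyControlsStrongFusionIn_iff (by rintro _ (rfl | rfl) <;> assumption) hS).1
    (Cfsg.Agent.S1996.result W₁ W₂ hW₁ hW₂ fun K R _ h T => (hfac K R h T).2.2)
  have h4 : FusGen ↑𝐍(A) ⊤ (S : Subgroup G) := by
    refine h3.mono ?_
    rintro x ⟨_, rfl | rfl, hx⟩
    exacts [hN1 hx.2, hN2 hx.2]
  refine ⟨hAS, elemAb_mono (elemAb_omegaOne_center _) hAe, ⟨hAS, fun x hx g hg => ?_⟩,
    controlsStrongFusion_of_fusGen S hAS h4⟩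
  obtain ⟨y, hy, h5⟩ := fusGen_subgroup_iff.1 h4 {x} g (mem_top g)
    (Set.singleton_subset_iff.2 (hAS hx)) (by rintro _ ⟨_, rfl, rfl⟩; exact hg)
  rw [← h5 x rfl]
  exact conj_mem_of_mem_normalizer hy hx

end Cfsg.Agent.S1997
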