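import Mathlib
import Cfsg.Statements.S2004
import Cfsg.Agent.Lib.ZJ.QdInvolve

set_option autoImplicit false
open Cfsg

namespace Cfsg.Agent.S2004

/-- Let p be an odd prime and G a finite group such that SL₂(p) is not involved in N_G(P) for any nonidentity p-subgroup P of G. Then every section of G is p-stable in the normalizer form: in each section, whenever an element of the normalizer of a p-subgroup Q acts quadratically on Q, its image in N(Q)/C(Q) lies in O_p(N(Q)/C(Q)). -/
theorem result {G : Type*} [Group G] [Finite G] {p : ℕ} [Fact p.Prime] (hp : p ≠ 2) (h : ∀ P : Subgroup G, IsPGroup p ↥P → P ≠ ⊥ → ¬ Cfsg.Involves (Matrix.SpecialLinearGroup (Fin 2) (ZMod p)) ↥(Subgroup.normalizer ((P : Subgroup G) : Set G))) : ∀ (K R : Subgroup G) [hR : (R.subgroupOf K).Normal], Cfsg.IsNormalizerPStable p (↥K ⧸ R.subgroupOf K) := by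
  open CfsgLib.ZJ CfsgLib.CFun CfsgLib.Tech Subgroup in
  refine (not_involves_qd_iff hp).1 fun hq => ?_
  obtain ⟨K, f, hf⟩ := involves_iff.1 hq
  obtain ⟨S⟩ : Nonempty (Sylow p K) := inferInstance
  let φ := (qdLin p).comp f
  have hT := sylow_inf_normal S φ.ker
  have hV := (isSylowIn_map_top (IsSylowIn.of_sylow_top S) hf).le_of_le_normalizer isPGroup_ker_qdLin le_top
    le_normalizer_of_normal
  refine h (((S : Subgroup K) ⊓ φ.ker).map K.subtype) (hT.pgroup.map _) (fun h1 => ker_qdLin_ne_bot (p := p) ?_) ?_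
  · rw [map_eq_bot_iff_of_injective _ K.subtype_injective] at h1
    rw [eq_bot_iff]
    intro v hv
    obtain ⟨s, hs, rfl⟩ := hV hv
    have : s ∈ (S : Subgroup K) ⊓ φ.ker := ⟨hs, hv⟩
    rw [h1, mem_bot] at this
    rw [this, map_one]
    exact one_mem _
  · refine involves_of_injective_surjective
      ((K.subtype.comp (normalizer (((S : Subgroup K) ⊓ φ.ker : Subgroup K) : Set K)).subtype).codRestrict _
        fun x => le_normalizer_map _ ⟨x, x.2, rfl⟩) (fun x y hxy => ?_)
      (φ.comp (normalizer _).subtype) fun y => ?_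
    · have := congrArg Subtype.val hxy
      exact Subtype.ext (Subtype.ext this)
    · obtain ⟨g, rfl⟩ := (qdLin_surjective.comp hf) y
      obtain ⟨n, hn, hng⟩ := hT.frattini (g := g) (le_normalizer_of_normal (mem_top g))
      refine ⟨⟨n * g, hng⟩, ?_⟩
      change φ (n * g) = φ g
      rw [map_mul, show φ n = 1 from hn, one_mul]

end Cfsg.Agent.S2004
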