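import Cfsg.Statements.S2009


set_option autoImplicit false
open Cfsg

namespace Cfsg.Agent.S2009

open Subgroup

theorem inv_of_fpf {H : Type*} [Group H] [Finite H] {N : Subgroup H} [hN : N.Normal] {e : H}
    (he : e * e = 1) (h : N ⊓ centralizer ({e} : Set H) = ⊥) {n : H} (hn : n ∈ N) :
    e * n * e⁻¹ = n⁻¹ := by
  let φ : N →* N := (MulAut.conjNormal (H := N) e).toMonoidHom
  have hφ : ∀ x : N, ((φ x : N) : H) = e * x * e⁻¹ := fun x => MulAut.conjNormal_apply e x
  have h1 : MonoidHom.FixedPointFree φ := by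
    intro x hx
    have h2 : (x : H) ∈ N ⊓ centralizer ({e} : Set H) := by
      refine ⟨x.2, mem_centralizer_singleton_iff.2 ?_⟩
      have := congrArg Subtype.val hx
      rw [hφ] at this
      calc (x : H) * e = (e * x * e⁻¹) * e := by rw [this]
        _ = e * x := by group
    rw [h] at h2
    exact Subtype.ext (mem_bot.1 h2)
  have h2 : Function.Involutive φ := by
    intro x
    apply Subtype.ext
    rw [hφ, hφ]
    calc e * (e * x * e⁻¹) * e⁻¹ = (e * e) * x * (e * e)⁻¹ := by group
      _ = x := by rw [he]; group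
  have h3 := congrFun (h1.coe_eq_inv_of_involutive h2) ⟨n, hn⟩
  have := congrArg Subtype.val h3
  rwa [hφ] at this


/-- Let H be a finite group and z an involution such that every proper normal subgroup of H meets the centralizer of z trivially, and suppose z lies in a Klein four-subgroup E of H all three of whose involutions are conjugate to z in H. Then H is simple. -/
theorem result {H : Type*} [Group H] [Finite H] (z : H) (hz : orderOf z = 2) (hN : ∀ N : Subgroup H, N.Normal → N ≠ ⊤ → N ⊓ Subgroup.centralizer ({z} : Set H) = ⊥) (E : Subgroup H) (hE : IsKleinFour ↥E) (hzE : z ∈ E) (hc : ∀ e ∈ E, e ≠ 1 → IsConj z e) : IsSimpleGroup H := by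
  have hz1 : z ≠ 1 := by
    rintro rfl
    simp at hz
  have : Nontrivial H := ⟨⟨z, 1, hz1⟩⟩
  refine ⟨fun N hn => ?_⟩
  by_cases hT : N = ⊤
  · exact Or.inr hT
  left
  have hC : ∀ e ∈ E, e ≠ 1 → N ⊓ centralizer ({e} : Set H) = ⊥ := by
    intro e he he1
    obtain ⟨c, hc'⟩ := isConj_iff.1 (hc e he he1)
    rw [eq_bot_iff]
    rintro x ⟨hx1, hx2⟩
    have h3 : c⁻¹ * x * c ∈ N ⊓ centralizer ({z} : Set H) := by
      refine ⟨hn.conj_mem' x hx1 c, mem_centralizer_singleton_iff.2 ?_⟩
      have h4 := mem_centralizer_singleton_iff.1 hx2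
      rw [← hc'] at h4
      calc c⁻¹ * x * c * z = c⁻¹ * (x * (c * z * c⁻¹)) * c := by group
        _ = c⁻¹ * (c * z * c⁻¹ * x) * c := by rw [h4]
        _ = z * (c⁻¹ * x * c) := by group
    rw [hN N hn hT, mem_bot] at h3
    have : x = 1 := by
      calc x = c * (c⁻¹ * x * c) * c⁻¹ := by group
        _ = 1 := by rw [h3]; group
    exact mem_bot.2 this
  have hsq : ∀ e ∈ E, e * e = 1 := fun e he =>
    congrArg Subtype.val (IsKleinFour.mul_self (⟨e, he⟩ : E))
  -- a second involution
  obtain ⟨w, hwE, hw1, hwz⟩ : ∃ w ∈ E, w ≠ 1 ∧ w ≠ z := by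
    by_contra hcon
    push Not at hcon
    have hsub : (E : Set H) ⊆ {1, z} := by
      intro w hw
      by_cases h1 : w = 1
      · exact Or.inl h1
      · exact Or.inr (hcon w hw h1)
    have h4 : (E : Set H).ncard = 4 := by
      rw [← hE.card_four]; rfl
    have := Set.ncard_le_ncard hsub (Set.toFinite _)
    have h5 := Set.ncard_insert_le (1 : H) ({z} : Set H)
    rw [Set.ncard_singleton] at h5
    omega
  have hzw1 : z * w ≠ 1 := by
    intro h
    apply hwz
    calc w = (z * z) * w := by rw [hsq z hzE, one_mul]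
      _ = z := by rw [mul_assoc, h, mul_one]
  rw [← hC (z * w) (E.mul_mem hzE hwE) hzw1, eq_comm, inf_eq_left]
  intro n hn'
  rw [mem_centralizer_singleton_iff]
  have h1 := inv_of_fpf (hsq w hwE) (hC w hwE hw1) hn'
  have h2 := inv_of_fpf (hsq z hzE) (hC z hzE hz1) (N.inv_mem hn')
  calc n * (z * w) = (z * n⁻¹ * z⁻¹) * (z * w) := by rw [h2, inv_inv]
    _ = (z * (w * n * w⁻¹) * z⁻¹) * (z * w) := by rw [h1]
    _ = z * w * n := by group

end Cfsg.Agent.S2009
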