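import Cfsg.Statements.S2008
import Cfsg.Agent.S2009

set_option autoImplicit false
open Cfsg

namespace Cfsg.Agent.S2008

open Subgroup

/-- Let H be a finite group and z an involution such that every proper normal subgroup of H meets the centralizer of z trivially, and suppose z lies in a Klein four-subgroup E of H all three of whose involutions are conjugate to z in H. Then H has no non-trivial abelian normal subgroup. -/
theorem result {H : Type*} [Group H] [Finite H] (z : H) (hz : orderOf z = 2) (hN : ∀ N : Subgroup H, N.Normal → N ≠ ⊤ → N ⊓ Subgroup.centralizer ({z} : Set H) = ⊥) (E : Subgroup H) (hE : IsKleinFour ↥E) (hzE : z ∈ E) (hc : ∀ e ∈ E, e ≠ 1 → IsConj z e) (N : Subgroup H) [N.Normal] (hab : IsMulCommutative ↥N) : N = ⊥ := by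
  have hs := Cfsg.Agent.S2009.result z hz hN E hE hzE hc
  rcases hs.eq_bot_or_eq_top_of_normal N inferInstance with h | h
  · exact h
  exfalso
  have hsub : (E : Set H) ⊆ {1, z} := by
    intro w hw
    by_cases h1 : w = 1
    · exact Or.inl h1
    · obtain ⟨c, hc'⟩ := isConj_iff.1 (hc w hw h1)
      have h2 : c * z = z * c := congrArg Subtype.val
        (hab.is_comm.comm (⟨c, h ▸ mem_top c⟩ : N) ⟨z, h ▸ mem_top z⟩)
      right
      rw [← hc', h2]
      simp
  have h4 : (E : Set H).ncard = 4 := by
    rw [← hE.card_four]; rfl
  have := Set.ncard_le_ncard hsub (Set.toFinite _)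
  have h5 := Set.ncard_insert_le (1 : H) ({z} : Set H)
  rw [Set.ncard_singleton] at h5
  omega

end Cfsg.Agent.S2008
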