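import Cfsg.Statements.S2042
import Cfsg.Agent.Lib.J4.Simple
import Cfsg.Agent.S2038
import Cfsg.Agent.Lib.Schur.Hopf
import Cfsg.Agent.Lib.Schur.Cover

set_option autoImplicit false
set_option maxRecDepth 100000
set_option Elab.async false
open Cfsg

namespace Cfsg.Agent.S2042

open CfsgLib CfsgLib.J4 CfsgLib.CosetEnum CfsgLib.MOrb CfsgLib.Schur
open scoped Pointwise commutatorElement

theorem comm_of_odd {E Q : Type*} [Group E] [Group Q] {σ : E →* Q} (hσ : IsCentralExt σ) {a b m : E}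
    (h1 : σ (a * b * a⁻¹ * b⁻¹) = 1) (hb : σ (b * b) = 1) (hm : a * m = m * a) {n : ℕ} (hn : Odd n)
    (h : σ ((b * m) ^ n) = 1) : a * b = b * a := by
  have hc : ∀ {k : E}, σ k = 1 → ∀ x, Commute k x := fun hk x => (Subgroup.mem_center_iff.1 (hσ.central hk) x).symm
  generalize hz : a * b * a⁻¹ * b⁻¹ = z at h1
  have h2 : a * b * a⁻¹ = z * b := by rw [← hz, inv_mul_cancel_right]
  have h3 : ∀ {x : E} {k : ℕ}, σ (x ^ k) = 1 → a * x * a⁻¹ = z * x → z ^ k = 1 := fun {x k} h4 h5 => by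
    have h6 := (hc h1 x).mul_pow k
    rw [← h5, conj_pow, ← (hc h4 a).eq, mul_inv_cancel_right] at h6
    exact right_eq_mul.1 h6
  have h4 := h3 (k := 2) (by rwa [sq]) h2
  have h5 := h3 h (by rw [← mul_assoc z, ← h2, mul_assoc _ _ m, (Commute.inv_left hm).eq]; simp only [mul_assoc])
  obtain ⟨k, rfl⟩ := hn
  rw [pow_succ, pow_mul, h4, one_pow, one_mul] at h5
  rwa [h5, one_mul, mul_inv_eq_iff_eq_mul] at h2

theorem ev_eq_one {w : List ℕ} (h : Comput.trivW 112 mL w = true) : ev gJ w = 1 := by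
  refine rho_inj ?_
  rw [map_ev, map_one, funext rho_gJ]
  exact Comput.ev_glG2 (by norm_num) mL_ok h

def m1 : List ℕ := [2, 0, 3, 0, 2, 0, 3, 0, 2, 0, 3, 0, 2, 0, 3, 0, 2, 0, 3, 0, 3, 0, 3, 0, 3, 0, 2, 0, 2, 0, 3, 0, 3, 0,
  2, 0, 2]

def m2 : List ℕ := [0, 2, 0, 2, 0, 3, 0, 3, 0, 3, 0, 3, 0, 2, 0, 2, 0, 3, 0, 3, 0, 3, 0, 2, 0, 2, 0, 3, 0, 3, 0, 3, 0, 2,
  0, 3, 0, 3, 0, 3, 0, 3]

def m3 : List ℕ := [0, 3, 0, 3, 0, 3, 0, 2, 0, 2, 0, 3, 0, 3]

theorem rel_m {u w : List ℕ} {n : ℕ} (hw : allL (fun x => Nat.blt x 4) w = true)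
    (h : Comput.trivW 112 mL (powW (u ++ w) n) = true) : (ev gJ u * iotaJ (ev gM w)) ^ n = 1 := by
  rw [← ev_xy iotaJ_x iotaJ_y hw, ← ev_append, ← ev_powW, ev_eq_one h]

theorem comm_m {u w : List ℕ} (h : Nat.beq (evC cXY (u ++ w)) (evC cXY (w ++ u)) = true) :
    ev gM u * ev gM w = ev gM w * ev gM u := by
  rw [← ev_append, ← ev_append, gM, ev_gC cXY_ok, ev_gC cXY_ok, Nat.eq_of_beq_eq_true h]

theorem exists_hyp {E : Type*} [Group E] {σ : E →* Spor.J4} (hσ : IsCentralExt σ) {ι : M24 →* E}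
    (hι : ∀ g, σ (ι g) = iotaJ g) : ∃ t ζ : E, σ t = gJ 2 ∧ Hyp ι t ζ := by
  have hc : ∀ {k : E}, σ k = 1 → ∀ x, Commute k x := fun hk x => (Subgroup.mem_center_iff.1 (hσ.central hk) x).symm
  obtain ⟨t, ht⟩ := hσ.surj (gJ 2)
  have hw : ∀ w, σ (cw ι t w) = cw iotaJ (gJ 2) w := fun w => by simp only [cw, map_mul, map_inv, hι, ht]
  have h2 : σ (t * t) = 1 := by rw [map_mul, ht, hypJ.tt]
  have h3 : ∀ {u w : List ℕ} {n : ℕ}, Odd n → fixT (evC cXY u) = true → ev gM u * ev gM w = ev gM w * ev gM u →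
      (ev gJ [2 * 2] * iotaJ (ev gM w)) ^ n = 1 → ι (ev gM u) * t = t * ι (ev gM u) := fun {u w n} hn h1 h3 h4 => by
    refine comm_of_odd hσ (m := ι (ev gM w)) ?_ h2 (by rw [← map_mul, h3, map_mul]) hn
      (by rwa [map_pow, map_mul, ht, hι, ← ev_single gJ 2])
    have := hypJ.iota_comm h1
    rw [← ev_gC cXY_ok] at this
    simp only [map_mul, map_inv, hι, ht]
    rw [gM, this]; group
  have hs : ∀ g : M24, g • fam 3 T0 = fam 3 T0 → ι g * t = t * ι g := fun g hg =>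
    Subgroup.mem_centralizer_singleton_iff.1 (stabT_le (K := (Subgroup.centralizer {t}).comap ι)
      (Subgroup.mem_centralizer_singleton_iff.2 (ev_single gM 0 ▸ h3 (w := m1) (n := 11) (by decide) (by decide +kernel)
        (comm_m (by decide +kernel)) (rel_m (by decide) (by decide +kernel))))
      (Subgroup.mem_centralizer_singleton_iff.2 (h3 (w := m2) (n := 5) (by decide) (by decide +kernel)
        (comm_m (by decide +kernel)) (rel_m (by decide) (by decide +kernel)))) hg)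
  have hq : ∀ w, cw ι t w * cw ι t w = t * t := fun w => by
    rw [cw, conj_mul, ← (hc h2 _).eq, mul_inv_cancel_right]
  have h4 : cw ι t i1 * cw ι t (2 :: i1) = cw ι t (2 :: i1) * cw ι t i1 := by
    refine comm_of_odd hσ (m := ι (ev gM (i1 ++ (m3 ++ pushI 0 i1 [])))) (n := 21) ?_ (by rw [hq, h2]) ?_ (by decide) ?_
    · have h5 := hypJ.r11
      have h6 : ∀ w, cw iotaJ (gJ 2) w * cw iotaJ (gJ 2) w = 1 := fun w => by
        rw [cw, conj_mul, hypJ.tt, mul_one, mul_inv_cancel]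
      rw [cube (iota_y3 _), ← cw_y, ← cw_z, mul_one, mul_eq_one_comm, mul_assoc, mul_eq_one_iff_inv_eq,
        inv_eq_of_mul_eq_one_right (h6 _)] at h5
      simp only [map_mul, map_inv, hw]
      rw [inv_eq_of_mul_eq_one_right (h6 _), inv_eq_of_mul_eq_one_right (h6 _), mul_assoc, ← h5, h6]
    · have := hs (ev gM m3) (by
        rw [← mk_cd (ev gM m3), ← fam_actB (okP_cd _), fam_eq_iff, gM, cd_ev cXY_ok]; decide +kernel)
      rw [ev_append, ev_append, ev_pushI (invOk_zero gM), ev_nil, mul_one, map_mul, map_mul, map_inv, cw,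
        ← mul_assoc (ι (ev gM i1)) (ι (ev gM m3)), conj_mul, conj_mul, this]
    · rw [map_pow, map_mul, hw, hι, ← ev_cw iotaJ_x iotaJ_y (by decide)]
      exact rel_m (by decide) (by decide +kernel)
  have h5 : σ ((ι (gM 1) * cw ι t i1) ^ 3) = 1 := by rw [map_pow, map_mul, hw, hι, hypJ.r11]
  generalize hz : (ι (gM 1) * cw ι t i1) ^ 3 = z at h5
  have h6 : (t * t) ^ 3 = z ^ 2 := by
    rw [cube (iota_y3 _), ← cw_y, ← cw_z, mul_one] at hz
    have h7 : cw ι t i1 * cw ι t (2 :: i1) * cw ι t (3 :: i1) = z := by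
      rw [← mul_inv_cancel_right z (cw ι t i1), (hc h5 _).eq, ← hz]; group
    have h8 := hq (3 :: i1)
    rw [← inv_mul_cancel_left (cw ι t i1 * cw ι t (2 :: i1)) (cw ι t (3 :: i1)), h7, ← sq, ← (hc h5 _).eq,
      (hc h5 _).mul_pow, inv_pow, Commute.mul_pow h4, sq (cw ι t _), sq (cw ι t _), hq, hq, mul_inv_eq_iff_eq_mul] at h8
    rw [h8, pow_three]
  have h7 : σ (t * t * z⁻¹) = 1 := by rw [map_mul, map_inv, h2, h5, inv_one, mul_one]
  generalize hc' : t * t * z⁻¹ = c at h7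
  have h8 : ∀ w, cw ι (t * c) w = cw ι t w * c := fun w => by
    rw [cw, cw, ← mul_assoc, mul_assoc _ c, (hc h7 _).eq, mul_assoc _ _ c]
  have h9 : σ ((ι (ev gM wP) * (t * c) * cw ι (t * c) i2) ^ 2) = 1 := by
    simp only [h8, map_pow, map_mul, h7, mul_one, hw, hι, ht, hypJ.r12]
  refine ⟨t * c, _, by rw [map_mul, h7, ht, mul_one], fun x => (hc h9 x).eq, ?_, fun g hg => ?_, ?_, rfl⟩
  · rw [← sq, (hc h7 t).symm.mul_pow, ← hc', (hc h2 _).mul_pow, inv_pow, ← h6, sq t]; group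
  · rw [← mul_assoc, hs g hg, mul_assoc, mul_assoc, (hc h7 _).eq]
  · rw [h8, ← mul_assoc, (hc h7 _).symm.mul_pow, hz, ← hc', (hc h2 _).mul_pow, h6]; group

/-- The Schur multiplier of the Janko group J₄ (the finitely presented group of the definitions) is trivial; here the Schur multiplier is described through stem extensions, as in the definitions: surjective homomorphisms onto the group from a finite group, whose kernel is central in that finite group and contained in that finite group's commutator subgroup. -/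
theorem result : Cfsg.HasCyclicSchurMultiplier Cfsg.Spor.J4 1 := by
  refine trivial_mult_iff.2 fun E _ _ σ hσ => ?_
  have := Mathieu.simple_M24
  have : Group.IsPerfect M24 := ⟨(inferInstance : (commutator M24).Normal).eq_bot_or_eq_top.resolve_left fun h => by
    have h1 : ev gM [0, 2, 0, 3] = 1 := by
      have : ⁅gM 0, gM 1⁆ ∈ commutator M24 :=
        Subgroup.commutator_mem_commutator (Subgroup.mem_top _) (Subgroup.mem_top _)
      rw [h, Subgroup.mem_bot, commutatorElement_def, inv_eq_of_mul_eq_one_right (rel0 gM_rel)] at this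
      simpa only [ev_cons, ev_nil, evL0, evL2, evL3, mul_one, mul_assoc] using this
    rw [← cd_eq_idc, gM, cd_ev cXY_ok] at h1
    exact absurd h1 (by decide +kernel)⟩
  obtain ⟨ι, hι⟩ := exists_lift_of_trivial_mult S2038.result iotaJ (centralExt_of_stem hσ)
  obtain ⟨t, ζ, ht, H⟩ := exists_hyp (centralExt_of_stem hσ) (DFunLike.congr_fun hι)
  obtain ⟨ψ, hψ⟩ := H.rel.exists_hom
  refine ker_eq_bot_of_section hσ ψ (PresentedGroup.ext fun a => ?_)
  rw [MonoidHom.comp_apply, hψ, MonoidHom.id_apply, ← gJ_idx]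
  cases a
  exacts [(DFunLike.congr_fun hι _).trans iotaJ_x, (DFunLike.congr_fun hι _).trans iotaJ_y, ht]

end Cfsg.Agent.S2042
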