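import Cfsg.Statements.S2045
import Cfsg.Agent.Lib.MultC.ConwayIso
import Cfsg.Agent.Lib.MultC.Co3.Link
import Cfsg.Agent.Lib.MultC.Co3.Ub

set_option autoImplicit false
open Cfsg

namespace Cfsg.Agent.S2045

/-- The Schur multiplier of the Conway group Co₃ (the stabiliser of a vector of the second shortest length in the rank-24 lattice) is trivial; here the Schur multiplier is described through stem extensions, as in the definitions: surjective homomorphisms onto the group from a finite group, whose kernel is central in that finite group and contained in that finite group's commutator subgroup. -/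
theorem result : Cfsg.HasCyclicSchurMultiplier ↥Cfsg.Spor.Co3 1 := by
  obtain ⟨e⟩ := CfsgLib.MultC.isoCo3
  exact CfsgLib.Schur.mult_congr_left (CfsgLib.MultC.trivial_of_pBound
    (CfsgLib.MultC.Co3.others CfsgLib.MultC.Co3.model CfsgLib.MultC.Co3.real0 CfsgLib.MultC.Co3.card)) e.symm

end Cfsg.Agent.S2045
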