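import Cfsg.Statements.S2055
import Cfsg.Agent.Lib.MultC.Fi24.Ub

set_option autoImplicit false
open Cfsg

namespace Cfsg.Agent.S2055

/-- The Schur multiplier of the Fischer group Fi₂₄′ (the commutator subgroup of the presented group Fi₂₄) is cyclic of order 3; here the Schur multiplier is described through stem extensions, as in the definitions: surjective homomorphisms onto the group from a finite group, whose kernel is central in that finite group and contained in that finite group's commutator subgroup. -/
theorem result : Cfsg.HasCyclicSchurMultiplier Cfsg.Spor.Fi24' 3 := by
  exact CfsgLib.MultC.Fi24.low.cyclic (by norm_num) CfsgLib.MultC.Fi24.p3 CfsgLib.MultC.Fi24.others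

end Cfsg.Agent.S2055
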