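import Cfsg.Statements.S2087
import Cfsg.Agent.Lib.LieModel.L32.Iso
import Cfsg.Agent.Lib.MultC.L32.Link
import Cfsg.Agent.Lib.MultC.L32.Ub
import Cfsg.Agent.Lib.MultC.L32.Cov

set_option autoImplicit false
open Cfsg

namespace Cfsg.Agent.S2087

/-- Exceptional Schur multiplier: over the field with 2 elements, PSL₃ has Schur multiplier cyclic of order 2 (here the Schur multiplier is described through stem extensions, as in the definitions). -/
theorem result {F : Type*} [Field F] [Fintype F] (hF : Fintype.card F = 2) : Cfsg.HasCyclicSchurMultiplier (Matrix.ProjectiveSpecialLinearGroup (Fin 3) F) 2 := by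
  obtain ⟨e⟩ := CfsgLib.LieModel.L32.iso hF
  exact CfsgLib.Schur.mult_congr_left (CfsgLib.MultC.Low.cyclic CfsgLib.MultC.L32.Cov.low
    (by norm_num)
    (CfsgLib.MultC.L32.P2.pb CfsgLib.MultC.L32.model CfsgLib.MultC.L32.real0 CfsgLib.MultC.L32.card)
    (CfsgLib.MultC.L32.others CfsgLib.MultC.L32.model CfsgLib.MultC.L32.real0
      CfsgLib.MultC.L32.card)) e.symm

end Cfsg.Agent.S2087
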