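import Cfsg.Statements.S2091
import Cfsg.Agent.Lib.LieModel.U62.Iso
import Cfsg.Agent.Lib.MultC.U62.Link
import Cfsg.Agent.Lib.MultC.U62.Ub
import Cfsg.Agent.Lib.MultC.U62.Cov

set_option autoImplicit false
open Cfsg

namespace Cfsg.Agent.S2091

/-- Exceptional Schur multiplier: PSU₆(2), realised over the field with 4 elements, has Schur multiplier isomorphic to the product of cyclic groups of orders 3, 2 and 2 (order 12, not cyclic; here the Schur multiplier is described through stem extensions, as in the definitions). -/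
theorem result {F : Type*} [Field F] [Fintype F] (hF : Fintype.card F = 4) : Cfsg.HasSchurMultiplier (Cfsg.PSU 6 F 2) (Multiplicative (ZMod 3 × ZMod 2 × ZMod 2)) := by
  obtain ⟨e⟩ := CfsgLib.LieModel.U62.iso hF
  obtain ⟨_, _, _, h1, h2⟩ := CfsgLib.MultC.U62.Cov.low
  exact CfsgLib.Schur.mult_congr_left (CfsgLib.MultC.mult_three_of_pBound
    (CfsgLib.MultC.U62.P3.pb CfsgLib.MultC.U62.model CfsgLib.MultC.U62.real0 CfsgLib.MultC.U62.card)
    (CfsgLib.MultC.U62.P2.pb CfsgLib.MultC.U62.model CfsgLib.MultC.U62.real0 CfsgLib.MultC.U62.card)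
    (fun r h1 h2 h3 h4 => CfsgLib.MultC.U62.others CfsgLib.MultC.U62.model CfsgLib.MultC.U62.real0 CfsgLib.MultC.U62.card r h1 h2 h4 h3) h1 h2) e.symm

end Cfsg.Agent.S2091
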