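import Cfsg.Statements.S2094
import Cfsg.Agent.Lib.LieMult.OmegaBD

set_option autoImplicit false
open Cfsg

namespace Cfsg.Agent.S2094

/-- Schur multipliers of the odd-dimensional orthogonal groups: for m ≥ 3 and a field F of odd order q with (m, q) ≠ (3, 3), the Schur multiplier of PΩ_(2m+1)(F) (for the form x₀² + Σ xᵢyᵢ) is cyclic of order 2 = gcd(2, q − 1); here the Schur multiplier is described through stem extensions, as in the definitions. -/
theorem result {F : Type*} [Field F] [Fintype F] {q : ℕ} (hF : Fintype.card F = q) (hq : Odd q) (m : ℕ) (hm : 3 ≤ m) (hexc : ¬ (m = 3 ∧ q = 3)) : Cfsg.HasCyclicSchurMultiplier (Cfsg.POmega F (Cfsg.quadFormOdd m F)) 2 := by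
  subst hF
  have h2 := CfsgLib.OrthE.two_ne_zero_of_odd hq
  refine CfsgLib.LieMult.pomega_mult_odd_dim (CfsgLib.OrthE.qOdd_eq m) (CfsgLib.OrthE.nondeg_qOdd h2 m)
    (by simp; omega) (CfsgLib.LieMult.spinBound_odd hm h2 ?_) h2 (by simp [Nat.odd_add])
  by_contra h
  push Not at h
  classical
  refine hexc ⟨by omega, ?_⟩
  rw [← Finset.card_univ, show (Finset.univ : Finset F) = {0, 1, -1} from Finset.ext fun t => by
    by_cases h0 : t = 0
    · simp [h0]
    · have := h.2 t h0
      rw [pow_two, mul_self_eq_one_iff] at this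
      simp [this]]
  exact Finset.card_eq_three.2 ⟨_, _, _, zero_ne_one, by simp, fun e => h2 (by linear_combination e), rfl⟩

end Cfsg.Agent.S2094
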