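import Cfsg.Statements.S2095
import Cfsg.Agent.Lib.LieModel.O73.Iso
import Cfsg.Agent.Lib.MultC.O73.Link
import Cfsg.Agent.Lib.MultC.O73.Ub
import Cfsg.Agent.Lib.MultC.O73.Cov

set_option autoImplicit false
open Cfsg

namespace Cfsg.Agent.S2095

/-- Exceptional Schur multiplier: over the field with 3 elements, PΩ₇ (for the form x₀² + Σ xᵢyᵢ) has Schur multiplier cyclic of order 6 (the product of cyclic groups of orders 3 and 2; here the Schur multiplier is described through stem extensions, as in the definitions). -/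
theorem result {F : Type*} [Field F] [Fintype F] (hF : Fintype.card F = 3) : Cfsg.HasCyclicSchurMultiplier (Cfsg.POmega F (Cfsg.quadFormOdd 3 F)) 6 := by
  obtain ⟨e⟩ := CfsgLib.LieModel.O73.iso hF
  exact CfsgLib.Schur.mult_congr_left (CfsgLib.MultC.Low.cyclic₂ (a := 2) (b := 3) CfsgLib.MultC.O73.Cov.low
    (by norm_num) (by norm_num)
    (CfsgLib.MultC.O73.P2.pb CfsgLib.MultC.O73.model CfsgLib.MultC.O73.real0 CfsgLib.MultC.O73.card)
    (CfsgLib.MultC.O73.P3.pb CfsgLib.MultC.O73.model CfsgLib.MultC.O73.real0 CfsgLib.MultC.O73.card)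
    (CfsgLib.MultC.O73.others CfsgLib.MultC.O73.model CfsgLib.MultC.O73.real0 CfsgLib.MultC.O73.card)) e.symm

end Cfsg.Agent.S2095
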