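import Cfsg.Statements.S2096
import Cfsg.Agent.Lib.LieMult.OmegaBD
import Cfsg.Agent.S0790

set_option autoImplicit false
open Cfsg

namespace Cfsg.Agent.S2096

/-- Schur multipliers of the even-dimensional orthogonal groups of plus type and odd rank: for odd l ≥ 5 and a field F with q elements, the Schur multiplier of PΩ⁺_2l(F) (for the form Σ xᵢyᵢ) is cyclic of order gcd(4, q^l − 1); here the Schur multiplier is described through stem extensions, as in the definitions. -/
theorem result {F : Type*} [Field F] [Fintype F] {q : ℕ} (hF : Fintype.card F = q) (l : ℕ) (hl : 5 ≤ l) (hodd : Odd l) : Cfsg.HasCyclicSchurMultiplier (Cfsg.POmega F (Cfsg.quadFormPlus l F)) (Nat.gcd 4 (q ^ l - 1)) := by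
  subst hF
  have hpos : 1 ≤ Fintype.card F ^ l := Nat.one_le_pow _ _ Fintype.card_pos
  exact CfsgLib.LieMult.pomega_mult_gcd (CfsgLib.OrthE.qPlus_eq l) (CfsgLib.OrthE.nondeg_qPlus l)
    (by simp; omega) (CfsgLib.LieMult.spinBound_plus (by omega) (by omega)) (k := l) (by simp; omega) _
    (fun h2 => Nat.Even.sub_odd hpos
      ((CfsgLib.OrthE.even_card_of_two_eq_zero h2).pow_of_ne_zero (by omega)) odd_one)
    (fun h2 => Nat.Odd.sub_odd (CfsgLib.OrthE.odd_card_of_two_ne_zero h2).pow odd_one)
    (fun h2 => by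
      rw [CfsgLib.OrthE.negO_mem_commutator_iff (CfsgLib.OrthE.qPlus_eq (F := F) l),
        Cfsg.Agent.S0790.result rfl (CfsgLib.OrthE.odd_card_of_two_ne_zero h2) _ (by omega)]
      omega) fun _ _ => hodd

end Cfsg.Agent.S2096
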