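import Cfsg.Statements.S2097
import Cfsg.Agent.Lib.LieMult.OmegaBD
import Cfsg.Agent.S0790

set_option autoImplicit false
open Cfsg

namespace Cfsg.Agent.S2097

/-- Schur multipliers of the even-dimensional orthogonal groups of plus type and even rank: for even l ≥ 4 and a field F with q elements, (l, q) ≠ (4, 2), the Schur multiplier of PΩ⁺_2l(F) (for the form Σ xᵢyᵢ) is the product of two cyclic groups of order gcd(2, q^l − 1) (so trivial for q even and a four-group for q odd; here the Schur multiplier is described through stem extensions, as in the definitions). -/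
theorem result {F : Type*} [Field F] [Fintype F] {q : ℕ} (hF : Fintype.card F = q) (l : ℕ) (hl : 4 ≤ l) (heven : Even l) (hexc : ¬ (l = 4 ∧ q = 2)) : Cfsg.HasSchurMultiplier (Cfsg.POmega F (Cfsg.quadFormPlus l F)) (Multiplicative (ZMod (Nat.gcd 2 (q ^ l - 1)) × ZMod (Nat.gcd 2 (q ^ l - 1)))) := by
  subst hF
  have hpos : 1 ≤ Fintype.card F ^ l := Nat.one_le_pow _ _ Fintype.card_pos
  have hb := CfsgLib.LieMult.spinBound_plus (F := F) hl fun h =>
    CfsgLib.Stein.exists_ne_of_card fun e => hexc ⟨h, e⟩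
  by_cases h2 : (2 : F) = 0
  · have : Odd (Fintype.card F ^ l - 1) := Nat.Even.sub_odd hpos
      ((CfsgLib.OrthE.even_card_of_two_eq_zero h2).pow_of_ne_zero (by omega)) odd_one
    rw [show Nat.gcd 2 _ = 1 from Nat.coprime_two_left.2 this]
    let _ : Unique (ZMod 1 × ZMod 1) := uniqueOfSubsingleton 0
    exact CfsgLib.Schur.mult_congr_right (CfsgLib.LieMult.pomega_mult_char_two (CfsgLib.OrthE.qPlus_eq l)
      (CfsgLib.OrthE.nondeg_qPlus l) (by simp; omega) hb h2) MulEquiv.ofUnique
  · have ho := CfsgLib.OrthE.odd_card_of_two_ne_zero h2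
    rw [Nat.gcd_eq_left (Nat.Odd.sub_odd (ho.pow (n := l)) odd_one).two_dvd]
    refine CfsgLib.LieMult.pomega_mult_four (CfsgLib.OrthE.qPlus_eq l) (CfsgLib.OrthE.nondeg_qPlus l)
      (by simp; omega) hb h2 (k := l) (by simp; omega) heven ?_
    rw [CfsgLib.OrthE.negO_mem_commutator_iff (CfsgLib.OrthE.qPlus_eq (F := F) l),
      Cfsg.Agent.S0790.result rfl ho _ (by omega)]
    obtain ⟨k, rfl⟩ := heven
    obtain ⟨j, hj⟩ := ho.pow (n := k)
    rw [pow_add, hj, show (2 * j + 1) * (2 * j + 1) = 4 * (j * j + j) + 1 by ring]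
    omega

end Cfsg.Agent.S2097
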