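import Cfsg.Statements.S2104
import Cfsg.Agent.Lib.F42M.Low

set_option autoImplicit false
open Cfsg

namespace Cfsg.Agent.S2104

/-- Exceptional Schur multiplier: over the field with 2 elements the Chevalley group of type F₄ has Schur multiplier cyclic of order 2 (here the Schur multiplier is described through stem extensions, as in the definitions). -/
theorem result {F : Type*} [Field F] [Fintype F] (hF : Fintype.card F = 2) : Cfsg.HasCyclicSchurMultiplier ↥(Cfsg.Lie.chevF4.group F) 2 := by
  refine CfsgLib.F42M.mult fun t => ?_
  classical
  by_contra h
  push Not at h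
  have := Finset.card_le_univ ({t, 0, 1} : Finset F)
  rw [Finset.card_eq_three.2 ⟨t, 0, 1, h.1, h.2, zero_ne_one, rfl⟩] at this
  omega

end Cfsg.Agent.S2104
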