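import Cfsg.Statements.S2106
import Cfsg.Agent.Lib.Stein.Exc
import Cfsg.Agent.Lib.Chev.Cert
import Cfsg.Agent.S1079

set_option autoImplicit false
open Cfsg

open Cfsg.Lie CfsgLib.Weyl CfsgLib.Chev CfsgLib.Stein

namespace Cfsg.Agent.S2106

/-- Schur multipliers of the (adjoint, simple) Chevalley groups of type E₇: over a field with q elements the Schur multiplier is cyclic of order gcd(2, q − 1) (here the Schur multiplier is described through stem extensions, as in the definitions). -/
theorem result {F : Type*} [Field F] [Fintype F] {q : ℕ} (hF : Fintype.card F = q) : Cfsg.HasCyclicSchurMultiplier ↥(Cfsg.Lie.chevE7.group F) (Nat.gcd 2 (q - 1)) := by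
  have hD : chevE7 ∈ [chevG2, chevB2, chevD4, chevF4, chevE6, chevE7, chevE8] := by simp
  have := good_of_mem hD
  have h := rtOK_of_mem hD
  have hg := genOK_of_mem hD
  obtain ⟨θ, C⟩ := exists_cover_cover (K := F) h
  have := C.perfect hD fun hm => absurd (List.mem_map_of_mem (f := ChevalleyDatum.rank) hm) (by decide)
  exact mult_group h hg (hasLifts_E7 h hg) (((Nat.dvd_prime Nat.prime_two).1 (Nat.gcd_dvd_left _ _)).imp_right fun e => by rw [e]; decide)
    (S1079.result hF (chevE7, 2) (by simp))

end Cfsg.Agent.S2106
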