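import Cfsg.Statements.S2115
import Cfsg.Agent.Lib.LieModel.Tits.Iso
import Cfsg.Agent.Lib.MultC.Tits.Link
import Cfsg.Agent.Lib.MultC.Tits.Ub

set_option autoImplicit false
open Cfsg

namespace Cfsg.Agent.S2115

/-- The Tits group, the commutator subgroup of ²F₄(2), has trivial Schur multiplier (here the Schur multiplier is described through stem extensions, as in the definitions). -/
theorem result : Cfsg.HasCyclicSchurMultiplier Cfsg.Lie.TitsGroup 1 := by
  obtain ⟨e⟩ := CfsgLib.LieModel.Tits.iso
  exact CfsgLib.Schur.mult_congr_left (CfsgLib.MultC.trivial_of_pBound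
    (CfsgLib.MultC.Tits.others CfsgLib.MultC.Tits.model CfsgLib.MultC.Tits.real0 CfsgLib.MultC.Tits.card)) e.symm

end Cfsg.Agent.S2115
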