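import Cfsg.Statements.S2118
import Cfsg.Agent.Lib.MultC.A6.Mult
import Cfsg.Agent.S0254
import Cfsg.Agent.Lib.Classical.SLCard
import Cfsg.Agent.Lib.Classical.SLBasic
import Cfsg.Agent.Lib.Schur.Cover

set_option autoImplicit false
open Cfsg

namespace Cfsg.Agent.S2118

/-- For the field with 9 elements, the special linear group SL₂ has Schur multiplier cyclic of order 3 (here the Schur multiplier is described through stem extensions, as in the definitions). -/
theorem result {F : Type*} [Field F] [Fintype F] (hF : Fintype.card F = 9) : Cfsg.HasCyclicSchurMultiplier (Matrix.SpecialLinearGroup (Fin 2) F) 3 := by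
  classical
  obtain ⟨e⟩ := Cfsg.Agent.S0254.result hF
  have hA := CfsgLib.Schur.mult_congr_left CfsgLib.MultC.mult_alt_six e.symm
  have hp : commutator (Matrix.SpecialLinearGroup (Fin 2) F) = ⊤ :=
    CfsgLib.Classical.sl_fin_commutator_eq_top 2 le_rfl fun _ => by rw [hF]; norm_num
  have : Group.IsPerfect (Matrix.SpecialLinearGroup (Fin 2) F) := ⟨hp⟩
  let τ : Matrix.SpecialLinearGroup (Fin 2) F →* Matrix.ProjectiveSpecialLinearGroup (Fin 2) F :=
    QuotientGroup.mk' _
  have hk : τ.ker = Subgroup.center _ := QuotientGroup.ker_mk' _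
  have hτ : Cfsg.IsStemExtension τ :=
    ⟨QuotientGroup.mk'_surjective _, hk.le, by rw [hp]; exact le_top⟩
  have hc : Nat.card τ.ker = 2 := by
    rw [hk, CfsgLib.Classical.sl_card_center, hF]; rfl
  obtain ⟨Γ, _, _, σ, hσ, ⟨eσ⟩, β, hβ, hc'⟩ := CfsgLib.Schur.exists_cover_onto' hA hτ
  have : Group.IsPerfect (Matrix.ProjectiveSpecialLinearGroup (Fin 2) F) :=
    Group.IsPerfect.ofSurjective hτ.1
  have : Group.IsPerfect Γ := CfsgLib.Schur.perfect_of_stem hσ
  have h6 : Nat.card σ.ker = 6 := by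
    rw [Nat.card_congr eσ.toEquiv]; simp
  have hΓ : Cfsg.HasCyclicSchurMultiplier Γ 1 :=
    CfsgLib.Schur.trivial_mult_of_perfect_cover hA (CfsgLib.Schur.centralExt_of_stem hσ)
      (by rw [h6]; simp)
  have hle : β.ker ≤ σ.ker := by
    intro x hx
    rw [← hc', MonoidHom.mem_ker, MonoidHom.comp_apply, MonoidHom.mem_ker.mp hx, map_one]
  have hβs : Cfsg.IsStemExtension β := ⟨hβ, hle.trans hσ.2.1, hle.trans hσ.2.2⟩
  have e1 := Subgroup.card_mul_index β.ker
  have e2 := Subgroup.card_mul_index σ.ker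
  have e3 := Subgroup.card_mul_index τ.ker
  rw [Subgroup.index_ker, MonoidHom.range_eq_top.mpr hβ, Subgroup.card_top] at e1
  rw [Subgroup.index_ker, MonoidHom.range_eq_top.mpr hσ.1, Subgroup.card_top, h6] at e2
  rw [Subgroup.index_ker, MonoidHom.range_eq_top.mpr hτ.1, Subgroup.card_top, hc] at e3
  have hpos : 0 < Nat.card (Matrix.ProjectiveSpecialLinearGroup (Fin 2) F) := Nat.card_pos
  have h3 : Nat.card β.ker = 3 := by
    rw [← e3, ← e2] at e1
    have : Nat.card β.ker * 2 = 6 := Nat.eq_of_mul_eq_mul_right hpos (by rw [← e1]; ring)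
    omega
  have : Fact (Nat.Prime 3) := ⟨by norm_num⟩
  exact CfsgLib.Schur.mult_of_stem_of_trivial_mult hβs hΓ
    (mulEquivOfPrimeCardEq h3 (by simp))

end Cfsg.Agent.S2118
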