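import Cfsg.Statements.S2143
import Cfsg.Agent.Lib.MinIdx.OFinal
import Cfsg.Agent.Lib.OrthE.OrderP

set_option autoImplicit false
open Cfsg

namespace Cfsg.Agent.S2143

open CfsgLib.MinIdx CfsgLib.OrthE Module

/-- Minimal index of a proper subgroup of the odd-dimensional orthogonal groups: for m ≥ 3 and a field F with q elements, q odd and q ≥ 5, every proper subgroup of PΩ_(2m+1)(F) (for the form x₀² + Σ xᵢyᵢ) has index at least (q^(2m) − 1)/(q − 1), and that index is attained. -/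
theorem result {F : Type*} [Field F] [Fintype F] {q : ℕ} (hF : Fintype.card F = q) (hodd : Odd q) (h5 : 5 ≤ q) (m : ℕ) (hm : 3 ≤ m) : (∀ H : Subgroup (Cfsg.POmega F (Cfsg.quadFormOdd m F)), H ≠ ⊤ → (q ^ (2 * m) - 1) / (q - 1) ≤ H.index) ∧ (∃ H : Subgroup (Cfsg.POmega F (Cfsg.quadFormOdd m F)), H.index = (q ^ (2 * m) - 1) / (q - 1)) := by
  have h2 : (2 : F) ≠ 0 := two_ne_zero_of_odd (hF ▸ hodd)
  have hQ := nondeg_qOdd (F := F) h2 m
  have hd : finrank F (Unit ⊕ (Fin m ⊕ Fin m) → F) = 2 * m + 1 := by simp; ring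
  obtain ⟨r, rfl⟩ : ∃ r, q = r + 1 := ⟨q - 1, by omega⟩
  have hr : Nat.card F = r + 1 := by rw [Nat.card_eq_fintype_card, hF]
  have hh := hyp_qOdd (F := F) (m := m) ⟨0, by omega⟩
  have h1 := om_index_sing hQ (by omega) hh.e_ne hh.he hr
  have h3 := card_zeros_odd m _ hQ hd
  rw [h3, hr] at h1
  set D := (lineStab (CfsgLib.RootMax.Om (qOdd F m)).subtype _).index with hD
  have h4 : ((r + 1) ^ (2 * m) - 1) / (r + 1 - 1) = D :=
    Nat.div_eq_of_eq_mul_left (by omega) (by rw [← h1]; simp)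
  rw [h4]
  refine pomega_min (qOdd_eq m) hQ (by omega) (om_lower hQ (by omega) hr ?_ (by omega) (by omega)
    (by omega) (by rw [h3, hr, h1]) fun c hc => ⟨fun h => absurd h h2, fun _ => ?_⟩) hD.symm
  · have : (r + 1) ^ (2 * m) = (r + 1) ^ 4 * (r + 1) ^ (finrank F (Unit ⊕ (Fin m ⊕ Fin m) → F) - 5) := by
      rw [← pow_add, hd]; congr 1; omega
    rw [add_mul, ← this, ← h1, mul_comm]
    omega
  · have h5 := level_ge c 0 (Or.inl rfl) _ _ hQ hd
    rw [hr, Nat.add_sub_cancel, show (2 * m + 1) / 2 = m by omega] at h5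
    have h6 : 2 ≤ (r + 1) ^ m := (Nat.le_self_pow (by omega) _).trans' (by omega)
    rw [two_mul, pow_add] at h1 h5
    nlinarith

end Cfsg.Agent.S2143
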