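import Cfsg.Statements.S2144
import Cfsg.Agent.Lib.MinIdx.OFinal
import Cfsg.Agent.Lib.OrthE.OrderP

set_option autoImplicit false
open Cfsg

namespace Cfsg.Agent.S2144

open CfsgLib.MinIdx CfsgLib.OrthE Module

/-- Minimal index of a proper subgroup of the odd-dimensional orthogonal groups over the field with 3 elements: for m ≥ 3, every proper subgroup of PΩ_(2m+1)(3) (for the form x₀² + Σ xᵢyᵢ) has index at least 3^m(3^m − 1)/2, and that index is attained. -/
theorem result {F : Type*} [Field F] [Fintype F] (hF : Fintype.card F = 3) (m : ℕ) (hm : 3 ≤ m) : (∀ H : Subgroup (Cfsg.POmega F (Cfsg.quadFormOdd m F)), H ≠ ⊤ → 3 ^ m * (3 ^ m - 1) / 2 ≤ H.index) ∧ (∃ H : Subgroup (Cfsg.POmega F (Cfsg.quadFormOdd m F)), H.index = 3 ^ m * (3 ^ m - 1) / 2) := by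
  have h2 : (2 : F) ≠ 0 := two_ne_zero_of_odd (by rw [hF]; decide)
  have hQ := nondeg_qOdd (F := F) h2 m
  have hd : finrank F (Unit ⊕ (Fin m ⊕ Fin m) → F) = 2 * m + 1 := by simp; ring
  have hr : Nat.card F = 2 + 1 := by rw [Nat.card_eq_fintype_card, hF]
  have hh := hyp_qOdd (F := F) (m := m) ⟨0, by omega⟩
  have hv := hh.Q_add_smul (-1)
  have h1 := (om_index_ns hQ (by omega) (hv.trans_ne (by simp))).2 h2
  have h3 := card_zeros_odd m _ hQ hd
  have h4 := card_hypm_add (F := F) m (X := Unit → F) fun z => z () ^ 2 + 1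
  have h5 : Nat.card {v // qOdd F m v = -1} = _ :=
    Nat.card_congr (((Equiv.sumArrowEquivProdArrow _ _ _).trans (Equiv.prodComm _ _)).subtypeEquiv
      (q := fun p => ∑ i, p.1 (.inl i) * p.1 (.inr i) + (fun z : Unit → F => z () ^ 2 + 1) p.2 = 0)
      fun p => by
        simp only [qOdd_apply, Equiv.trans_apply, Equiv.prodComm_apply, Prod.fst_swap,
          Prod.snd_swap, Equiv.sumArrowEquivProdArrow_apply_fst,
          Equiv.sumArrowEquivProdArrow_apply_snd]
        constructor <;> intro h <;> linear_combination h)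
  have h6 : Nat.card {z : Unit → F // z () ^ 2 + 1 = 0} = 0 := by
    rw [Nat.card_eq_zero]
    refine Or.inl ⟨fun z => ?_⟩
    have k1 := FiniteField.pow_card (z.1 ())
    rw [hF] at k1
    have k2 : z.1 () = 0 := (mul_eq_zero.1 (show 2 * z.1 () = 0 by
      linear_combination z.1 () * z.2 - k1)).resolve_left h2
    have k3 := z.2
    simp [k2] at k3
  rw [← h5, h6, Nat.card_fun, hr] at h4
  rw [hv] at h1
  set D := (lineStab (CfsgLib.RootMax.Om (qOdd F m)).subtype _).index with hD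
  have h7 : D * 2 + 3 ^ m = 3 ^ m * 3 ^ m := by
    rw [h1]; zify; simp at h4; linarith
  have h8 : 1 ≤ 3 ^ m := Nat.one_le_pow _ _ (by norm_num)
  have h9 : 3 ^ m * (3 ^ m - 1) / 2 = D :=
    Nat.div_eq_of_eq_mul_left (by omega) (by rw [Nat.mul_sub, ← h7]; simp)
  have h10 : 3 ^ m * 3 ^ m = 81 * 3 ^ (finrank F (Unit ⊕ (Fin m ⊕ Fin m) → F) - 5) := by
    rw [← pow_add, hd, show (81 : ℕ) = 3 ^ 4 by norm_num, ← pow_add]; congr 1; omega
  rw [h9]
  refine pomega_min (qOdd_eq m) hQ (by omega) (om_lower hQ (by omega) hr (by change _ ≤ 84 * 3 ^ _; omega)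
    (by omega) (by omega) (by omega) (by rw [h3, hr, two_mul, pow_add]; norm_num; omega)
    fun c hc => ⟨fun h => absurd h h2, fun _ => ?_⟩) hD.symm
  have k := level_ge c 0 (Or.inl rfl) _ _ hQ hd
  rw [hr, Nat.add_sub_cancel, show (2 * m + 1) / 2 = m by omega, two_mul, pow_add] at k
  norm_num at k
  omega

end Cfsg.Agent.S2144
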