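import Cfsg.Statements.S2145
import Cfsg.Agent.Lib.MinIdx.OFinal
import Cfsg.Agent.Lib.OrthE.OrderP

set_option autoImplicit false
open Cfsg

namespace Cfsg.Agent.S2145

open CfsgLib.MinIdx CfsgLib.OrthE Module

/-- Minimal index of a proper subgroup of the even-dimensional orthogonal groups of plus type: for m ≥ 4 and a field F with q ≥ 4 elements, every proper subgroup of PΩ⁺_2m(F) (for the form Σ xᵢyᵢ) has index at least (q^m − 1)(q^(m−1) + 1)/(q − 1), and that index is attained (the singular points). -/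
theorem result {F : Type*} [Field F] [Fintype F] {q : ℕ} (hF : Fintype.card F = q) (hq : 4 ≤ q) (m : ℕ) (hm : 4 ≤ m) : (∀ H : Subgroup (Cfsg.POmega F (Cfsg.quadFormPlus m F)), H ≠ ⊤ → (q ^ m - 1) * (q ^ (m - 1) + 1) / (q - 1) ≤ H.index) ∧ (∃ H : Subgroup (Cfsg.POmega F (Cfsg.quadFormPlus m F)), H.index = (q ^ m - 1) * (q ^ (m - 1) + 1) / (q - 1)) := by
  obtain ⟨k, rfl⟩ : ∃ k, m = k + 1 := ⟨m - 1, by omega⟩
  have hQ := nondeg_qPlus (F := F) (k + 1)
  have hd : finrank F (Fin (k + 1) ⊕ Fin (k + 1) → F) = 2 * k + 2 := by simp; ring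
  obtain ⟨r, rfl⟩ : ∃ r, q = r + 1 := ⟨q - 1, by omega⟩
  have hr : Nat.card F = r + 1 := by rw [Nat.card_eq_fintype_card, hF]
  have hh := hyp_qPlus (F := F) (m := k + 1) 0
  have h1 := om_index_sing hQ (by omega) hh.e_ne hh.he hr
  have h3 := card_zeros_qPlus (F := F) k
  set D := (lineStab (CfsgLib.RootMax.Om (qPlus F (k + 1))).subtype _).index with hD
  have h2 : D * r + 1 + (r + 1) ^ k = (r + 1) ^ (2 * k + 1) + (r + 1) ^ (k + 1) := by
    rw [h1]; zify; rw [h3, hr]; push_cast; ring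
  have h5 : 1 ≤ (r + 1) ^ (k + 1) := Nat.one_le_pow _ _ (by omega)
  have h4 : ((r + 1) ^ (k + 1) - 1) * ((r + 1) ^ (k + 1 - 1) + 1) / (r + 1 - 1) = D := by
    refine Nat.div_eq_of_eq_mul_left (by omega) ?_
    zify [h5] at h2 ⊢
    simp only [Nat.add_sub_cancel]
    linear_combination -h2
  rw [h4]
  have h6 : 4 ≤ (r + 1) ^ k := (Nat.le_self_pow (by omega) _).trans' (by omega)
  refine pomega_min (qPlus_eq _) hQ (by omega) (om_lower hQ (by omega) hr ?_ (by omega) (by omega)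
    (fun h8 _ _ _ => Or.inr ⟨by omega, ?_⟩) h1.le fun c hc => ?_) hD.symm
  · obtain ⟨j, rfl⟩ : ∃ j, k = j + 3 := ⟨k - 3, by omega⟩
    rw [hd, show 2 * (j + 3) + 2 - 5 = 2 * j + 3 by omega]
    have h7 : (r + 1) ^ (j + 3 + 1) ≤ (r + 1) ^ (2 * j + 3 + 1) :=
      Nat.pow_le_pow_right (by omega) (by omega)
    have h8 : ((r + 1) ^ 4 + (r + 1)) * (r + 1) ^ (2 * j + 3) =
      (r + 1) ^ (2 * (j + 3) + 1) + (r + 1) ^ (2 * j + 3 + 1) := by ring
    rw [h8, mul_comm]
    omega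
  · obtain rfl : k = 3 := by omega
    apply Nat.le_of_mul_le_mul_right _ (show 0 < r by omega)
    have : ((r + 1) ^ 2 + 1) * (r + 2) * ((r + 1) ^ 3 + 1) * r + 1 + (r + 1) ^ 3 =
      (r + 1) ^ (2 * 3 + 1) + (r + 1) ^ (3 + 1) := by ring
    omega
  · have h7 := level_ge_even hc k _ hQ hd
    rw [hr] at h7
    rw [show 2 * k + 1 = k + k + 1 by ring, pow_succ, pow_add] at h2 h7
    rw [pow_succ] at h2
    generalize (r + 1) ^ k = Y at *
    have k1 : 4 * (Y * (r + 1)) ≤ Y * Y * (r + 1) := by nlinarith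
    have k2 : Y * 4 ≤ Y * (r + 1) := by gcongr
    have k3 : D * 3 ≤ D * r := by gcongr; omega
    refine ⟨fun _ => by omega, fun h => ?_⟩
    have h8 : 4 ≤ r := by
      have := odd_card_of_two_ne_zero h
      rw [hF, Nat.odd_iff] at this
      omega
    have k4 : D * 4 ≤ D * r := by gcongr
    omega

end Cfsg.Agent.S2145
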