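import Cfsg.Statements.S2152
import Cfsg.Agent.Lib.MinIdx.UFinal

set_option autoImplicit false
open Cfsg

namespace Cfsg.Agent.S2152

open CfsgLib.MinIdx CfsgLib.Forms CfsgLib.RootMax CfsgLib.Unitary

/-- Minimal index of a proper subgroup of the unitary groups of even dimension n ≥ 6: for a field F with q² elements, q ≥ 3, every proper subgroup of PSU_n(q) has index at least (q^n − 1)(q^(n−1) + 1)/(q² − 1), and that index is attained (the isotropic points). -/
theorem result {F : Type*} [Field F] [Fintype F] (q : ℕ) (hF : Fintype.card F = q ^ 2) (hq : 3 ≤ q) (n : ℕ) (hn : 6 ≤ n) (heven : Even n) : (∀ H : Subgroup (Cfsg.PSU n F q), H ≠ ⊤ → (q ^ n - 1) * (q ^ (n - 1) + 1) / (q ^ 2 - 1) ≤ H.index) ∧ (∃ H : Subgroup (Cfsg.PSU n F q), H.index = (q ^ n - 1) * (q ^ (n - 1) + 1) / (q ^ 2 - 1)) := by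
  obtain ⟨x, -, hx0, hx⟩ := herm_exists_sing (uPQ_isHerm hF n) (Z := ⊤) (by simp; omega)
  have h1 := su_index_iso hF (by omega) hx0 hx.self_eq
  have h2 := h1.trans (card_isotropic hF n)
  rw [if_pos heven, Nat.add_right_cancel_iff] at h2
  have h3 : 0 < q ^ 2 - 1 := Nat.sub_pos_of_lt (Nat.one_lt_pow two_ne_zero (by omega))
  rw [Nat.div_eq_of_eq_mul_left h3 h2.symm]
  refine psu_min hF (by omega) (su_lower hF (by omega) h1.le ?_) rfl
  rw [if_pos heven]
  refine Nat.le_of_mul_le_mul_right ?_ (show 0 < q - 1 by omega)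
  rw [mul_assoc, ← sq_sub_one_eq q (by omega), h2, mul_comm (q ^ (n - 1)), mul_assoc]
  have h4 : 1 ≤ q ^ (n - 1) := Nat.one_le_pow _ _ (by omega)
  exact Nat.mul_le_mul_left _ (le_trans (by omega)
    (Nat.mul_le_mul_left _ (show 2 ≤ q - 1 by omega)))

end Cfsg.Agent.S2152
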