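import Cfsg.Statements.S2153
import Cfsg.Agent.Lib.MinIdx.UFinal

set_option autoImplicit false
open Cfsg

namespace Cfsg.Agent.S2153

open CfsgLib.MinIdx CfsgLib.Forms CfsgLib.RootMax CfsgLib.Unitary

/-- Minimal index of a proper subgroup of the unitary groups PSU_n(2) with n divisible by 6, realised over the field with 4 elements: every proper subgroup has index at least 2^(n−1)(2^n − 1)/3, and that index is attained. -/
theorem result {F : Type*} [Field F] [Fintype F] (hF : Fintype.card F = 4) (n : ℕ) (hn : 6 ∣ n) (hpos : 6 ≤ n) : (∀ H : Subgroup (Cfsg.PSU n F 2), H ≠ ⊤ → 2 ^ (n - 1) * (2 ^ n - 1) / 3 ≤ H.index) ∧ (∃ H : Subgroup (Cfsg.PSU n F 2), H.index = 2 ^ (n - 1) * (2 ^ n - 1) / 3) := by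
  have hF' : Fintype.card F = 2 ^ 2 := hF
  have he : Even n := (even_iff_two_dvd.2 (Dvd.dvd.trans (by norm_num) hn))
  have h1 := su_index_ni hF' (by omega) (v := Pi.single (⟨0, by omega⟩ : Fin n) 1)
    (by simp [uPQ_B, herm_single_left])
  rw [if_pos he] at h1
  rw [Nat.div_eq_of_eq_mul_left (by norm_num) h1.symm]
  refine psu_min hF' (by omega) (su_lower hF' (by omega) ?_ (by rw [if_pos he, h1])) rfl
  rw [card_isotropic hF', if_pos he, Nat.add_le_add_iff_right, show 2 ^ 2 - 1 = 2 + 1 from rfl, h1,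
    mul_comm]
  exact Nat.mul_le_mul_left _ (Nat.le_succ _)

end Cfsg.Agent.S2153
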