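import Mathlib
import Cfsg.Statements.S2154
import Cfsg.Agent.Lib.RGD.ChevTools

set_option autoImplicit false
open Cfsg

namespace Cfsg.Agent.S2154

open CfsgLib.Chev CfsgLib.Weyl CfsgLib.RGD

/-- The Borel–Tits property of the finite Chevalley groups of types G₂, B₂, D₄, F₄, E₆, E₇, E₈ over a finite field of characteristic p: for every non-trivial p-subgroup U of the group G there are an element g of G and a proper set J of fundamental roots such that the normaliser of U in G lies in the conjugate by g of the standard parabolic subgroup P_J and U lies in the conjugate by g of its unipotent radical U_J. -/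
theorem result {F : Type*} [Field F] [Fintype F] (p : ℕ) [Fact p.Prime] [CharP F p] (D : Cfsg.Lie.ChevalleyDatum) (hD : D ∈ [Cfsg.Lie.chevG2, Cfsg.Lie.chevB2, Cfsg.Lie.chevD4, Cfsg.Lie.chevF4, Cfsg.Lie.chevE6, Cfsg.Lie.chevE7, Cfsg.Lie.chevE8]) (U : Subgroup (GL D.Idx F)) (hUG : U ≤ D.group F) (hU : IsPGroup p ↥U) (hne : U ≠ ⊥) : ∃ g ∈ D.group F, ∃ J : Set ℕ, (∃ i, i < D.rank ∧ i ∉ J) ∧ Subgroup.normalizer (U : Set (GL D.Idx F)) ⊓ D.group F ≤ (D.parabolicSubgroup F J).map (MulAut.conj g).toMonoidHom ∧ U ≤ (D.unipotentRadical F J).map (MulAut.conj g).toMonoidHom := by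
  have := good_of_mem hD; have h := rtOK_of_mem hD; have hS := stSys_nondeg h (F := F)
  obtain ⟨g₀, hg₀, h₀⟩ := exists_conj_mem_posUnipotent h p hUG hU
  rw [← stSys_grp h] at hg₀ ⊢
  rw [← stSys_U h] at h₀
  obtain ⟨g, hg, J, ⟨i, hi⟩, h1, h2⟩ := hS.borelTits (X := U) hg₀ h₀
    (by simpa [Subgroup.eq_bot_iff_forall] using hne)
  have e : J = {j : Fin D.rank | (j : ℕ) ∈ Fin.val '' J} := by ext j; simp [Fin.val_inj]
  refine ⟨g, hg, Fin.val '' J, ⟨i, i.2, by simpa [Fin.val_inj] using hi⟩, ?_, ?_⟩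
  · rintro n ⟨hn, hn'⟩
    rw [← stSys_P h, ← e]
    exact ⟨_, h1 n hn' fun x hx => (Subgroup.mem_normalizer_iff''.1 hn x).1 hx, by simp [mul_assoc]⟩
  · intro x hx
    rw [← stSys_UJ h, ← e]
    exact ⟨_, h2 x hx, by simp [mul_assoc]⟩

end Cfsg.Agent.S2154
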