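import Mathlib
import Cfsg.Statements.S2155
import Cfsg.Agent.Lib.ChevAut.ParCent
import Cfsg.Agent.Lib.Chev.Cert
import Cfsg.Agent.Lib.Comp.FStar

set_option autoImplicit false
open Cfsg CfsgLib.ChevAut CfsgLib.Chev CfsgLib.Weyl CfsgLib.RGD

namespace Cfsg.Agent.S2155

theorem conn {D : Lie.ChevalleyDatum} (hD : D ∈ [Lie.chevG2, Lie.chevB2, Lie.chevD4, Lie.chevF4,
    Lie.chevE6, Lie.chevE7, Lie.chevE8]) : ∀ i < D.rank, ∀ j < D.rank, i = j ∨
      ∃ s < D.nroots, D.nroots / 2 ≤ s ∧ rt D s i ≠ 0 ∧ nn D (D.simple j) s ≠ 0 := by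
  simp only [List.mem_cons, List.not_mem_nil, or_false] at hD
  rcases hD with rfl | rfl | rfl | rfl | rfl | rfl | rfl <;> decide +kernel


/-- In a Chevalley group of type G₂, B₂, D₄, F₄, E₆, E₇ or E₈ over a finite field of characteristic p (for types G₂ and B₂ the field is assumed to have at least 3 elements, so that the group is simple), the generalized Fitting subgroup of every proper standard parabolic subgroup P_J is a p-group (P_J is p-constrained with trivial largest normal subgroup of order prime to p). -/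
theorem result {F : Type*} [Field F] [Fintype F] (p : ℕ) [Fact p.Prime] [CharP F p] (D : Cfsg.Lie.ChevalleyDatum) (hD : D ∈ [Cfsg.Lie.chevG2, Cfsg.Lie.chevB2, Cfsg.Lie.chevD4, Cfsg.Lie.chevF4, Cfsg.Lie.chevE6, Cfsg.Lie.chevE7, Cfsg.Lie.chevE8]) (hq : (D = Cfsg.Lie.chevG2 ∨ D = Cfsg.Lie.chevB2) → 3 ≤ Fintype.card F) (J : Set ℕ) (hJ : ∃ i, i < D.rank ∧ i ∉ J) : IsPGroup p ↥(Cfsg.generalizedFittingSubgroup ↥(D.parabolicSubgroup F J)) := by
  have := good_of_mem hD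
  have h := rtOK_of_mem hD
  obtain ⟨i, hi, hiJ⟩ := hJ
  rw [← stSys_P h]
  set S := stSys h F
  set J' : Set (Fin D.rank) := {j | (j : ℕ) ∈ J}
  have hn : ((S.UJ J').subgroupOf (S.P J')).Normal :=
    (Subgroup.normal_subgroupOf_iff_le_normalizer ((S.UJ_le_U J').trans (S.U_le_B.trans (S.B_le_P J')))).mpr
      (S.P_le_normalizer_UJ J')
  have hU : IsPGroup p (S.U.subgroupOf (S.P J')) :=
    (isPGroup_U p).comap_of_injective _ (S.P J').subtype_injective
  have h1 : (S.UJ J').subgroupOf (S.P J') ≤ pCore p (S.P J') :=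
    CfsgLib.Core.le_pCore (hU.to_le (Subgroup.subgroupOf_mono _ (S.UJ_le_U J')))
  rw [← CfsgLib.Comp.fstar_eq_pCore_iff_isPGroup, CfsgLib.Comp.fstar_eq_pCore_iff]
  refine (Subgroup.centralizer_le h1).trans (CfsgLib.Core.le_pCore (hU.to_le fun g hg => ?_))
  refine mem_U_of_centralizes (CfsgLib.Twist.sharp_stSys h F) (J := J') (fun j hj => ?_)
    (S.P_le_grp J' g.2) fun u hu => ?_
  · obtain ⟨s, h2, h3, h4, h5⟩ := (conn hD i hi j j.2).resolve_left fun e => hiJ (e ▸ hj)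
    refine ⟨⟨s, h2⟩, ⟨_, radd_lt (simple_lt j.2) h2 h5⟩, ⟨(rootSys_pos_iff h _).mpr
      (isPosRoot_iff.mpr ⟨h3, h2⟩), fun h6 => h4 (h6 ⟨i, hi⟩ hiJ)⟩, fun m => ?_⟩
    simpa [rootSys_rt, rootSys_simple] using (chainRoot_spec h (simple_lt j.2) one_pos
      ((chainRoot_one (simple_lt j.2) h2 _).mpr ⟨h5, rfl⟩)).2.2 m m.2
  · exact congrArg Subtype.val (hg ⟨u, S.B_le_P J' (S.U_le_B (S.UJ_le_U J' hu))⟩ hu).symm

end Cfsg.Agent.S2155
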