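import Mathlib
import Cfsg.Statements.S2158
import Cfsg.Agent.Lib.ChevAut.Main
import Cfsg.Agent.Lib.Chev.Cert

set_option autoImplicit false
open Cfsg CfsgLib.ChevAut CfsgLib.Chev CfsgLib.Weyl CfsgLib.RGD

namespace Cfsg.Agent.S2158

theorem mem_H {ι κ : Type} [Fintype κ] [DecidableEq κ] [Finite ι] {Φ : RootSys ι κ} {F : Type*} [Field F]
    {G : Type*} [Group G] {S : StSys Φ F G} (hS : S.Nondeg) {g : G} (hg : g ∈ S.grp) (ha : S.Acts g 1) :
    g ∈ S.H := by
  rw [← hS.B_inf_V_sup_H, ← StSys.op_B]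
  refine ⟨hS.mem_B_of_conj hg fun u hu => S.U_le_B (ha.conj_mem_UU (fun _ hs => hs) hu),
    hS.op.mem_B_of_conj (by rwa [StSys.op_grp]) fun u hu => S.op.U_le_B ?_⟩
  rw [StSys.op_U] at hu ⊢
  exact ha.conj_mem_UU (fun _ hs => hs) hu


/-- In a Chevalley group of type G₂, B₂, D₄, F₄, E₆, E₇ or E₈ over any field, an element of the group whose matrix is the diagonal matrix `ĥ(χ)` of a character `χ` of the root lattice already lies in the diagonal subgroup H (the non-trivial inclusion of the statement that the group meets the group of all such diagonal matrices in H). -/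
theorem result {F : Type*} [Field F] (D : Cfsg.Lie.ChevalleyDatum) (hD : D ∈ [Cfsg.Lie.chevG2, Cfsg.Lie.chevB2, Cfsg.Lie.chevD4, Cfsg.Lie.chevF4, Cfsg.Lie.chevE6, Cfsg.Lie.chevE7, Cfsg.Lie.chevE8]) (χ : ℕ → Fˣ) (hχ : D.IsRootCharacter χ) (g : GL D.Idx F) (hg : g ∈ D.group F)
    (hgχ : (g : Matrix D.Idx D.Idx F) = D.charDiag F χ) : g ∈ D.diagonalSubgroup F := by
  have := good_of_mem hD
  have h := rtOK_of_mem hD
  have e : g = charU D χ := Units.ext hgχ
  rw [← stSys_H h]
  refine mem_H (stSys_nondeg h) (by rwa [stSys_grp]) ⟨fun s => χ s, fun s => ?_, fun s t => ?_⟩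
  · simp [rootSys_neg, hχ.1 s s.2]
  · rw [e]; exact charU_conj_xU hχ s t

end Cfsg.Agent.S2158
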