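import Mathlib
import Cfsg.Statements.S2159
import Cfsg.Agent.Lib.ChevAut.Out

set_option autoImplicit false
open Cfsg CfsgLib.ChevAut

namespace Cfsg.Agent.S2159

/-- Structure of the outer automorphism group of the Chevalley group `G` of type G₂, B₂, D₄, F₄, E₆, E₇ or E₈ over a finite field. Let `D̄` be the image in `Out(G)` of the subgroup generated by the diagonal automorphisms and `F̄` the image of the subgroup generated by the field automorphisms. Then `D̄` is a normal abelian subgroup of `Out(G)`, `F̄` is cyclic, `D̄F̄` is a normal subgroup, and the quotient of `Out(G)` by `D̄F̄` is trivial, of order 2, or non-abelian of order 6 (so isomorphic to the symmetric group on three letters): its index is 1 or 2, or it is 6 with the commutator subgroup of `Out(G)` not inside `D̄F̄`. -/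
theorem result {F : Type*} [Field F] [Finite F] (D : Cfsg.Lie.ChevalleyDatum) (hD : D ∈ [Cfsg.Lie.chevG2, Cfsg.Lie.chevB2, Cfsg.Lie.chevD4, Cfsg.Lie.chevF4, Cfsg.Lie.chevE6, Cfsg.Lie.chevE7, Cfsg.Lie.chevE8])
    (Dbar Fbar : Subgroup (Cfsg.Out ↥(D.group F)))
    (hDbar : Dbar = (Subgroup.closure {φ : MulAut ↥(D.group F) | D.IsDiagonalAut φ}).map (QuotientGroup.mk' (Cfsg.Inn ↥(D.group F))))
    (hFbar : Fbar = (Subgroup.closure {φ : MulAut ↥(D.group F) | D.IsFieldAut φ}).map (QuotientGroup.mk' (Cfsg.Inn ↥(D.group F)))) :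
    Dbar.Normal ∧ IsMulCommutative ↥Dbar ∧ IsCyclic ↥Fbar ∧ (Dbar ⊔ Fbar).Normal ∧
      ((Dbar ⊔ Fbar).index = 1 ∨ (Dbar ⊔ Fbar).index = 2 ∨
        ((Dbar ⊔ Fbar).index = 6 ∧ ¬ commutator (Cfsg.Out ↥(D.group F)) ≤ Dbar ⊔ Fbar)) := by
  have := CfsgLib.Chev.good_of_mem hD
  have h := CfsgLib.Weyl.rtOK_of_mem hD
  obtain ⟨L, hs⟩ := exists_symOK hD
  rw [closure_isDiagonalAut h] at hDbar
  rw [closure_isFieldAut] at hFbar
  have h1 : Dbar ⊔ Fbar = (piHom F h).ker.map (mkA F h) := by
    rw [hDbar, hFbar]; exact diag_sup_field h hs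
  refine ⟨hDbar ▸ normal_diag h, ?_, ?_, h1 ▸ Subgroup.Normal.map inferInstance _ (mkA_surjective h), ?_⟩
  · rw [hDbar, MonoidHom.map_range]
    refine ⟨⟨?_⟩⟩
    rintro ⟨_, a, rfl⟩ ⟨_, b, rfl⟩
    exact Subtype.ext (by simp only [Subgroup.coe_mul, ← map_mul, mul_comm])
  · rw [hFbar, MonoidHom.map_range]
    have := isCyclic_ringAut (F := F)
    exact isCyclic_of_surjective _ (MonoidHom.rangeRestrict_surjective _)
  rw [h1, index_map_ker_piHom]
  have key : ∀ L, SymOK D L → L.length ≤ 2 →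
      Nat.card (piHom F h).range = 1 ∨ Nat.card (piHom F h).range = 2 := fun L hL h2 => by
    have h3 := card_range_piHom_le (F := F) h hL
    have h4 : 0 < Nat.card (piHom F h).range := Nat.card_pos
    omega
  simp only [List.mem_cons, List.not_mem_nil, or_false] at hD
  rw [← or_assoc]
  rcases hD with rfl | rfl | rfl | rfl | rfl | rfl | rfl
  · exact Or.inl (key _ symOK_G2 (by decide))
  · exact Or.inl (key _ symOK_B2 (by decide))
  · obtain ⟨π, h2, π', h3, h4⟩ := exists_noncomm_D4 (F := F) h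
    exact Or.inr ⟨card_range_D4 h, fun hc => h4 (commute_of_commutator_le h hc h2 h3)⟩
  · exact Or.inl (key _ symOK_F4 (by decide))
  · exact Or.inl (key _ symOK_E6 (by decide))
  · exact Or.inl (key _ symOK_E7 (by decide))
  · exact Or.inl (key _ symOK_E8 (by decide))

end Cfsg.Agent.S2159
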