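import Mathlib
import Cfsg.Statements.S2161
import Cfsg.Agent.Lib.ChevAut.Main
import Cfsg.Agent.Lib.Chev.Cert

set_option autoImplicit false
open Cfsg CfsgLib.ChevAut CfsgLib.Chev CfsgLib.Weyl CfsgLib.Stein

namespace Cfsg.Agent.S2161

theorem facts (D : Cfsg.Lie.ChevalleyDatum) (hD : D ∈ [Cfsg.Lie.chevD4, Cfsg.Lie.chevE6]) :
    (∀ r < D.nroots, ∀ k < D.rank, (D.coroot.getD r #[]).getD k 0 = rt D r k) ∧
    ∀ i < D.rank, ∀ j < D.rank, D.cartan i (D.simple j) = D.cartan j (D.simple i) ∧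
      (i = j ∨ D.cartan i (D.simple j) ≤ 0) := by
  simp only [List.mem_cons, List.not_mem_nil, or_false] at hD
  rcases hD with rfl | rfl <;> exact ⟨by decide +kernel, by decide +kernel⟩


/-- For the Chevalley groups of types D₄ and E₆ (one root length) over any field: if `π` is a symmetry of the Dynkin diagram and `φ` is an automorphism sending `x_{p_i}(t)` to `x_{p_{π i}}(t)` and `x_{-p_i}(t)` to `x_{-p_{π i}}(t)` for every fundamental root `p_i`, then for every root `r` there is a sign `ε = ±1` with `φ(x_r(t)) = x_{π·r}(ε t)` for all `t`, where `π·r` is the root whose coefficients are those of `r` permuted by `π`. -/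
theorem result {F : Type*} [Field F] (D : Cfsg.Lie.ChevalleyDatum) (hD : D ∈ [Cfsg.Lie.chevD4, Cfsg.Lie.chevE6])
    (π : Equiv.Perm (Fin D.rank)) (hπ : D.IsDiagramSymmetry π) (φ : ↥(D.group F) ≃* ↥(D.group F))
    (hφ : ∀ (g : ↥(D.group F)) (i : Fin D.rank) (t : F),
      (((g : GL D.Idx F) : Matrix D.Idx D.Idx F) = D.x F (D.simple i) t →
        ((φ g : GL D.Idx F) : Matrix D.Idx D.Idx F) = D.x F (D.simple (π i)) t) ∧
      (((g : GL D.Idx F) : Matrix D.Idx D.Idx F) = D.x F (D.neg (D.simple i)) t →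
        ((φ g : GL D.Idx F) : Matrix D.Idx D.Idx F) = D.x F (D.neg (D.simple (π i))) t))
    (r : ℕ) (hr : r < D.nroots) :
    ∃ ε : F, (ε = 1 ∨ ε = -1) ∧ ∀ (g : ↥(D.group F)) (t : F),
      ((g : GL D.Idx F) : Matrix D.Idx D.Idx F) = D.x F r t →
        ((φ g : GL D.Idx F) : Matrix D.Idx D.Idx F) = D.x F (D.permRoot π r) (ε * t) := by
  have hD' : D ∈ [Lie.chevG2, Lie.chevB2, Lie.chevD4, Lie.chevF4, Lie.chevE6, Lie.chevE7, Lie.chevE8] := by
    simp only [List.mem_cons, List.not_mem_nil, or_false] at hD ⊢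
    tauto
  have := good_of_mem hD'
  have h := rtOK_of_mem hD'
  obtain ⟨h1, h2⟩ := facts D hD
  have hP : Par φ π 1 fun _ => RingHom.id F := fun i t => by
    simpa using ⟨eq_xG_iff.mp ((hφ _ i t).1 rfl), eq_xG_iff.mp ((hφ _ i t).2 rfl)⟩
  have hA : ∀ i j : Fin D.rank, D.cartan (π i) (D.simple (π j)) = D.cartan i (D.simple j) := by
    intro i j
    by_cases e : i = j
    · subst e; rw [h.A_self _ (π i).2, h.A_self _ i.2]
    have h3 := hπ i j e
    rw [Lie.ChevalleyDatum.bonds, Lie.ChevalleyDatum.bonds, ← (h2 _ i.2 _ j.2).1,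
      ← (h2 _ (π i).2 _ (π j).2).1] at h3
    have h4 := (h2 _ i.2 _ j.2).2.resolve_left fun e' => e (Fin.ext e')
    have h5 := (h2 _ (π i).2 _ (π j).2).2.resolve_left fun e' => e (π.injective (Fin.ext e'))
    nlinarith
  have key : ∀ (L : List (Fin D.rank)) (j : Fin D.rank), ∃ s : Fin D.nroots,
      (∀ k, (rootSys h).rt s (π k) = (rootSys h).rt ((rootSys h).wprod L ((rootSys h).simple j)) k) ∧
      ∃ ε : F, (ε = 1 ∨ ε = -1) ∧ ∀ t,
        φ (xG D F ((rootSys h).wprod L ((rootSys h).simple j)) t) = xG D F s (ε * t) := by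
    intro L j
    induction L with
    | nil =>
      exact ⟨(rootSys h).simple (π j), fun k => by
        simp [(rootSys h).wprod_nil, (rootSys h).rt_simple], 1, Or.inl rfl, fun t => by
          simpa [(rootSys h).wprod_nil, rootSys_simple] using (hP j t).1⟩
    | cons i L ih =>
      obtain ⟨s, h3, ε, h4, h5⟩ := ih
      rw [(rootSys h).wprod_cons, Equiv.Perm.mul_apply]
      generalize (rootSys h).wprod L ((rootSys h).simple j) = r at h3 h5
      refine ⟨(rootSys h).s (π i) s, fun k => ?_,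
        (eta D (D.simple (π i)) s : ℤ) * (ε * (eta D (D.simple i) r : ℤ)), ?_, fun t => ?_⟩
      · rw [(rootSys h).rt_s, (rootSys h).rt_s, h3]
        simp only [EmbeddingLike.apply_eq_iff_eq, CfsgLib.RGD.RootSys.wt]
        rw [← Equiv.sum_comp π]
        simp only [rootSys_A, hA, h3]
      · have a := Int.eq_one_or_neg_one_of_mul_eq_one (eta_mul_self (simple_lt (π i).2) s.2)
        have b := Int.eq_one_or_neg_one_of_mul_eq_one (eta_mul_self (simple_lt i.2) r.2)
        rcases a with a | a <;> rcases b with b | b <;> rcases h4 with rfl | rfl <;> simp [a, b]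
      · rw [rootSys_s, rootSys_s, hP.refl_step i r.2 s.2 t (h5 _)]
        simp [mul_assoc]
  obtain ⟨w, hw, j, e⟩ := (rootSys h).exists_eq_apply_simple ⟨r, hr⟩
  obtain ⟨L, rfl⟩ := (rootSys h).mem_W_iff.mp hw
  obtain ⟨s, h3, ε, h4, h5⟩ := key L j
  rw [← e] at h3 h5
  have h6 : D.permRoot π r = s := by
    rw [Lie.ChevalleyDatum.permRoot]
    cases h7 : (List.range D.nroots).find? _ with
    | none =>
      rw [List.find?_eq_none] at h7
      refine absurd ?_ (h7 s (List.mem_range.mpr s.2))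
      rw [List.all_eq_true]
      intro k _
      rw [beq_iff_eq, h1 _ s.2 _ (π k).2, h1 _ hr _ k.2]
      exact h3 k
    | some s' =>
      have h8 := List.mem_range.mp (List.mem_of_find?_eq_some h7)
      have h9 := List.find?_some h7
      rw [List.all_eq_true] at h9
      refine h.rt_inj h8 s.2 fun k hk => ?_
      obtain ⟨k, rfl⟩ : ∃ m : Fin D.rank, k = π m := ⟨π.symm ⟨k, hk⟩, by simp⟩
      have h10 := h9 k (List.mem_finRange k)
      rw [beq_iff_eq, h1 _ h8 _ (π k).2, h1 _ hr _ k.2] at h10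
      exact h10.trans (h3 k).symm
  exact ⟨ε, h4, fun g t hg => by rw [eq_xG_iff.mp hg, h6]; exact congrArg (fun x : D.group F => x.1.1) (h5 t)⟩

end Cfsg.Agent.S2161
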