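import Mathlib
import Cfsg.Statements.S2298
import Cfsg.Agent.Lib.GL2.Table

set_option autoImplicit false
open Cfsg

namespace Cfsg.Agent.S2298

/-- Over a finite field F with q elements, every irreducible complex character of GL₂ has degree 1, q − 1, q or q + 1; and when q ≥ 3 (so that these four numbers are distinct) there are exactly q − 1 irreducible characters of degree 1, exactly q − 1 of degree q, exactly (q − 1)(q − 2)/2 of degree q + 1 and exactly q(q − 1)/2 of degree q − 1. -/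
theorem result {F : Type*} [Field F] [Fintype F] :
    (∀ χ : Matrix.GeneralLinearGroup (Fin 2) F → ℂ, Cfsg.IsIrrCharacter (Matrix.GeneralLinearGroup (Fin 2) F) χ →
      χ 1 = 1 ∨ χ 1 = (Fintype.card F : ℂ) - 1 ∨ χ 1 = (Fintype.card F : ℂ) ∨ χ 1 = (Fintype.card F : ℂ) + 1) ∧
    (3 ≤ Fintype.card F →
      Nat.card {χ : Cfsg.IrrCharacter (Matrix.GeneralLinearGroup (Fin 2) F) // (χ : Matrix.GeneralLinearGroup (Fin 2) F → ℂ) 1 = 1} = Fintype.card F - 1 ∧
      Nat.card {χ : Cfsg.IrrCharacter (Matrix.GeneralLinearGroup (Fin 2) F) // (χ : Matrix.GeneralLinearGroup (Fin 2) F → ℂ) 1 = (Fintype.card F : ℂ)} = Fintype.card F - 1 ∧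
      Nat.card {χ : Cfsg.IrrCharacter (Matrix.GeneralLinearGroup (Fin 2) F) // (χ : Matrix.GeneralLinearGroup (Fin 2) F → ℂ) 1 = (Fintype.card F : ℂ) + 1} = (Fintype.card F - 1) * (Fintype.card F - 2) / 2 ∧
      Nat.card {χ : Cfsg.IrrCharacter (Matrix.GeneralLinearGroup (Fin 2) F) // (χ : Matrix.GeneralLinearGroup (Fin 2) F → ℂ) 1 = (Fintype.card F : ℂ) - 1} = Fintype.card F * (Fintype.card F - 1) / 2) := by
  classical
  open CfsgLib.GL2 in
  refine ⟨fun χ hχ => ?_, fun hq => ?_⟩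
  · rcases CfsgLib.GL2.irr_cases hχ with ⟨α, rfl⟩ | ⟨α, rfl⟩ | ⟨α, β, -, rfl⟩ | h
    · exact Or.inl (CfsgLib.GL2.lin_one α)
    · exact Or.inr (Or.inr (Or.inl (CfsgLib.GL2.st_one α)))
    · exact Or.inr (Or.inr (Or.inr (CfsgLib.GL2.ps_one α β)))
    · exact Or.inr (Or.inl h.deg)
  obtain ⟨L, S, P, C, mL, mS, mP, mC, cL, cS, cP, cC, -⟩ := CfsgLib.GL2.exists_finsets (F := F)
  obtain ⟨n, hn⟩ : ∃ n, Fintype.card F = n + 3 := ⟨Fintype.card F - 3, by omega⟩
  have hn' : (Fintype.card F : ℂ) = n + 3 := by rw [hn]; push_cast; ring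
  have ne1 : ∀ k : ℕ, (n : ℂ) + (k + 1) ≠ 0 := fun k => by exact_mod_cast (by omega : n + (k + 1) ≠ 0)
  have key : ∀ χ : GL (Fin 2) F → ℂ, Cfsg.IsIrrCharacter _ χ →
      (χ ∈ L ∧ χ 1 = 1) ∨ (χ ∈ S ∧ χ 1 = n + 3) ∨ (χ ∈ P ∧ χ 1 = n + 3 + 1) ∨
        (χ ∈ C ∧ χ 1 = n + 3 - 1) := by
    intro χ hχ
    rw [← hn']
    rcases CfsgLib.GL2.irr_cases hχ with ⟨α, rfl⟩ | ⟨α, rfl⟩ | ⟨α, β, h, rfl⟩ | h
    · exact Or.inl ⟨(mL _).2 ⟨α, rfl⟩, CfsgLib.GL2.lin_one α⟩
    · exact Or.inr (Or.inl ⟨(mS _).2 ⟨α, rfl⟩, CfsgLib.GL2.st_one α⟩)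
    · exact Or.inr (Or.inr (Or.inl ⟨(mP _).2 ⟨α, β, h, rfl⟩, CfsgLib.GL2.ps_one α β⟩))
    · exact Or.inr (Or.inr (Or.inr ⟨(mC _).2 h, h.deg⟩))
  refine ⟨?_, ?_, ?_, ?_⟩
  · rw [CfsgLib.GL2.card_irr_of_finset (fun χ => χ 1 = 1) L, cL]
    intro χ
    constructor
    · intro h; obtain ⟨α, rfl⟩ := (mL _).1 h
      exact ⟨CfsgLib.GL2.lin_isIrr α, CfsgLib.GL2.lin_one α⟩
    · rintro ⟨h1, h2⟩
      rcases key χ h1 with ⟨h, e⟩ | ⟨h, e⟩ | ⟨h, e⟩ | ⟨h, e⟩
      · exact h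
      · exact absurd (by rw [h2] at e; push_cast; linear_combination -e) (ne1 1)
      · exact absurd (by rw [h2] at e; push_cast; linear_combination -e) (ne1 2)
      · exact absurd (by rw [h2] at e; push_cast; linear_combination -e) (ne1 0)
  · rw [CfsgLib.GL2.card_irr_of_finset (fun χ => χ 1 = (Fintype.card F : ℂ)) S, cS]
    intro χ
    constructor
    · intro h; obtain ⟨α, rfl⟩ := (mS _).1 h
      exact ⟨CfsgLib.GL2.st_isIrr α, CfsgLib.GL2.st_one α⟩
    · rintro ⟨h1, h2⟩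
      rw [hn'] at h2
      rcases key χ h1 with ⟨h, e⟩ | ⟨h, e⟩ | ⟨h, e⟩ | ⟨h, e⟩
      · exact absurd (by rw [h2] at e; push_cast; linear_combination e) (ne1 1)
      · exact h
      · exact absurd (by rw [h2] at e; linear_combination -e) (one_ne_zero (α := ℂ))
      · exact absurd (by rw [h2] at e; linear_combination e) (one_ne_zero (α := ℂ))
  · rw [CfsgLib.GL2.card_irr_of_finset (fun χ => χ 1 = (Fintype.card F : ℂ) + 1) P, ← cP,
      Nat.mul_div_cancel_left _ two_pos]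
    intro χ
    constructor
    · intro h; obtain ⟨α, β, hne, rfl⟩ := (mP _).1 h
      exact ⟨CfsgLib.GL2.ps_isIrr hne, CfsgLib.GL2.ps_one α β⟩
    · rintro ⟨h1, h2⟩
      rw [hn'] at h2
      rcases key χ h1 with ⟨h, e⟩ | ⟨h, e⟩ | ⟨h, e⟩ | ⟨h, e⟩
      · exact absurd (by rw [h2] at e; push_cast; linear_combination e) (ne1 2)
      · exact absurd (by rw [h2] at e; linear_combination e) (one_ne_zero (α := ℂ))
      · exact h
      · exact absurd (by rw [h2] at e; linear_combination e) (two_ne_zero (α := ℂ))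
  · rw [CfsgLib.GL2.card_irr_of_finset (fun χ => χ 1 = (Fintype.card F : ℂ) - 1) C, ← cC,
      Nat.mul_div_cancel_left _ two_pos]
    intro χ
    constructor
    · intro h; have h := (mC _).1 h
      exact ⟨h.1, h.deg⟩
    · rintro ⟨h1, h2⟩
      rw [hn'] at h2
      rcases key χ h1 with ⟨h, e⟩ | ⟨h, e⟩ | ⟨h, e⟩ | ⟨h, e⟩
      · exact absurd (by rw [h2] at e; push_cast; linear_combination e) (ne1 0)
      · exact absurd (by rw [h2] at e; linear_combination -e) (one_ne_zero (α := ℂ))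
      · exact absurd (by rw [h2] at e; linear_combination -e) (two_ne_zero (α := ℂ))
      · exact h

end Cfsg.Agent.S2298
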