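import Cfsg.Statements.S2301
import Cfsg.Agent.Lib.SL2.Unip

set_option autoImplicit false
open Cfsg

namespace Cfsg.Agent.S2301

open CfsgLib.SL2 CfsgLib.Char

/-- Over a finite field with q elements of odd characteristic p, the elements of order p of SL₂ (the non-identity unipotent elements) fall into exactly two conjugacy classes, each of size (q² − 1)/2; two upper unitriangular matrices with non-zero off-diagonal entries b and b′ are conjugate exactly when bb′ is a square. -/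
theorem result {F : Type*} [Field F] [Fintype F] (p : ℕ) [Fact p.Prime] [CharP F p] (hp : p ≠ 2) :
    Nat.card {C : ConjClasses (Matrix.SpecialLinearGroup (Fin 2) F) // ∃ g : Matrix.SpecialLinearGroup (Fin 2) F, orderOf g = p ∧ ConjClasses.mk g = C} = 2 ∧
    (∀ g : Matrix.SpecialLinearGroup (Fin 2) F, orderOf g = p → Nat.card (ConjClasses.mk g).carrier = (Fintype.card F ^ 2 - 1) / 2) ∧
    ∀ g h : Matrix.SpecialLinearGroup (Fin 2) F, (g : Matrix (Fin 2) (Fin 2) F) 0 0 = 1 → (g : Matrix (Fin 2) (Fin 2) F) 1 1 = 1 → (g : Matrix (Fin 2) (Fin 2) F) 1 0 = 0 → (g : Matrix (Fin 2) (Fin 2) F) 0 1 ≠ 0 →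
      (h : Matrix (Fin 2) (Fin 2) F) 0 0 = 1 → (h : Matrix (Fin 2) (Fin 2) F) 1 1 = 1 → (h : Matrix (Fin 2) (Fin 2) F) 1 0 = 0 → (h : Matrix (Fin 2) (Fin 2) F) 0 1 ≠ 0 →
      (IsConj g h ↔ IsSquare ((g : Matrix (Fin 2) (Fin 2) F) 0 1 * (h : Matrix (Fin 2) (Fin 2) F) 0 1)) := by
  have hr : ringChar F ≠ 2 := by rwa [ringChar.eq F p]
  have h2 : (2 : F) ≠ 0 := Ring.two_ne_zero hr
  refine ⟨?_, fun g hg => ?_, fun g h g1 g2 g3 g4 h1 h2 h3 h4 => ?_⟩
  · obtain ⟨ε, hε⟩ := FiniteField.exists_nonsquare hr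
    have hε0 : ε ≠ 0 := by rintro rfl; exact hε IsSquare.zero
    refine card_eq_two_of_pair (a := ConjClasses.mk (uu 1)) (b := ConjClasses.mk (uu ε)) ?_
      fun C => ⟨?_, ?_⟩
    · rw [Ne, ConjClasses.mk_eq_mk_iff_isConj, isConj_uu_iff one_ne_zero, one_mul]
      exact fun h => hε h.2
    · rintro ⟨g, hg, rfl⟩
      obtain ⟨b, hb, e⟩ := exists_isConj_uu_of_orderOf p hg
      rw [← ConjClasses.mk_eq_mk_iff_isConj.2 e, ConjClasses.mk_eq_mk_iff_isConj,
        ConjClasses.mk_eq_mk_iff_isConj, isConj_uu_iff hb, isConj_uu_iff hb, mul_one]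
      by_cases hs : IsSquare b
      · exact Or.inl ⟨one_ne_zero, hs⟩
      · refine Or.inr ⟨hε0, ?_⟩
        classical
        rw [← quadraticChar_one_iff_isSquare (mul_ne_zero hb hε0), map_mul,
          quadraticChar_neg_one_iff_not_isSquare.2 hs, quadraticChar_neg_one_iff_not_isSquare.2 hε]
        norm_num
    · rintro (rfl | rfl)
      exacts [⟨_, orderOf_uu p one_ne_zero, rfl⟩, ⟨_, orderOf_uu p hε0, rfl⟩]
  · obtain ⟨b, hb, e⟩ := exists_isConj_uu_of_orderOf p hg
    have := card_class_uu hb e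
    rw [card_center_odd h2] at this
    omega
  · have e1 : g = uu (g 0 1) := by apply ext2 <;> simp [g1, g2, g3]
    have e2 : h = uu (h 0 1) := by apply ext2 <;> simp [h1, h2, h3]
    conv_lhs => rw [e1, e2]
    rw [isConj_uu_iff g4]
    exact and_iff_right h4

end Cfsg.Agent.S2301
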