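import Cfsg.Statements.S2307
import Cfsg.Agent.Lib.SL2.Unip

set_option autoImplicit false
open Cfsg

namespace Cfsg.Agent.S2307

open CfsgLib.SL2 CfsgLib.Char

/-- Over a finite field F with q elements, q odd, let α be the multiplicative character of F of order 2. The character of SL₂ induced from the linear character b ↦ α(b₁₁) of the upper triangular subgroup is the sum of two distinct irreducible characters, each of degree (q + 1)/2, which are conjugate under GL₂: some fixed element of GL₂ conjugates the one into the other. -/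
theorem result {F : Type*} [Field F] [Fintype F] [DecidableEq F] (hodd : Odd (Fintype.card F)) (α : MulChar F ℂ)
    (hα : α ^ 2 = 1) (hα1 : α ≠ 1) :
    ∃ χ₁ χ₂ : Matrix.SpecialLinearGroup (Fin 2) F → ℂ, Cfsg.IsIrrCharacter (Matrix.SpecialLinearGroup (Fin 2) F) χ₁ ∧ Cfsg.IsIrrCharacter (Matrix.SpecialLinearGroup (Fin 2) F) χ₂ ∧ χ₁ ≠ χ₂ ∧
      Cfsg.indFun ((Cfsg.upperTriangularGL 2 F).comap Matrix.SpecialLinearGroup.toGL) (fun b => α (((b : Matrix.SpecialLinearGroup (Fin 2) F) : Matrix (Fin 2) (Fin 2) F) 0 0)) = χ₁ + χ₂ ∧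
      χ₁ 1 = (((Fintype.card F + 1) / 2 : ℕ) : ℂ) ∧ χ₂ 1 = (((Fintype.card F + 1) / 2 : ℕ) : ℂ) ∧
      ∃ x : Matrix.GeneralLinearGroup (Fin 2) F, ∀ g h : Matrix.SpecialLinearGroup (Fin 2) F,
        Matrix.SpecialLinearGroup.toGL h = x * Matrix.SpecialLinearGroup.toGL g * x⁻¹ → χ₂ h = χ₁ g := by
  obtain ⟨d, hd⟩ := exists_noEig (F := F)
  rw [prin_eq_mulChar]
  have e : α.toUnitHom = MulChar.mulEquivToUnitHom α := rfl
  have e1 : (1 : Fˣ →* ℂˣ) = MulChar.mulEquivToUnitHom (1 : MulChar F ℂ) :=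
    (map_one (MulChar.mulEquivToUnitHom (R := F) (R' := ℂ))).symm
  have a1 : α.toUnitHom ^ 2 = 1 := by rw [e, ← map_pow, hα, e1]
  have a2 : α.toUnitHom ≠ 1 := by rwa [e, e1, Ne, MulEquiv.apply_eq_iff_eq]
  generalize α.toUnitHom = β at a1 a2
  obtain ⟨χ, hχ, H⟩ := exists_halfP hd a1 a2
  obtain ⟨k1, k2, k3, -⟩ := H.compl hd hχ
  obtain ⟨ε', hε⟩ := FiniteField.exists_nonsquare (ringChar_ne_two_of_odd hodd)
  obtain ⟨ε, rfl⟩ : ∃ ε : Fˣ, (ε : F) = ε' :=
    ⟨Units.mk0 ε' (by rintro rfl; exact hε IsSquare.zero), rfl⟩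
  refine ⟨χ, prin β - χ, hχ, k2, k3, by ring, H.apply_one, k1.apply_one, twistGL ε,
    fun g h hh => ?_⟩
  rw [← toGL_twist] at hh
  obtain rfl := Matrix.SpecialLinearGroup.toGL_injective hh
  have i1 : IsIrrCharacter _ fun g => (prin β - χ) (twist ε g) := isIrr_comp_mulEquiv (twist ε) k2
  have i2 : classInner (fun g => (prin β - χ) (twist ε g)) (prin β) = 1 := by
    rw [inner_prin (isClassFunction_of_isIrr i1), hc_comp_twist,
      ← inner_prin (isClassFunction_of_isIrr k2), k1.inner k2]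
  have i3 : (fun g => (prin β - χ) (twist ε g)) = χ := by
    by_contra hne
    have hne' : (fun g => (prin β - χ) (twist ε g)) = prin β - χ := by
      by_contra hne'
      rw [show prin β = χ + (prin β - χ) by ring, classInner_add_right, add_sub_cancel_left,
        classInner_irr_of_ne i1 hχ hne, classInner_irr_of_ne i1 k2 hne'] at i2
      norm_num at i2
    obtain ⟨d1, d2⟩ := diff_unip hd a1 a2 hχ k2 k3 (H.2.2.1.trans k1.2.2.1.symm)
      (H.2.2.2.trans k1.2.2.2.symm)
    have d3 := d1 ε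
    have d4 := congrFun hne' (uu 1)
    simp only [twist_uu, mul_one, Pi.sub_apply, prin_uu β ε.ne_zero, prin_uu β one_ne_zero,
      (lin_order_two a1 a2 ε).2 hε] at d2 d3 d4
    have d5 : χ (uu 1) - (1 - χ (uu 1)) = 0 := by linear_combination d3 / 2 + d4
    rw [d5] at d2
    exact mul_ne_zero (pow_ne_zero _ (by norm_num)) cast_card_ne_zero
      (d2.symm.trans (by norm_num))
  exact congrFun i3 g

end Cfsg.Agent.S2307
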