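import Mathlib
import Cfsg.Statements.S2308
import Cfsg.Agent.Lib.GL2.Series

set_option autoImplicit false
open Cfsg

namespace Cfsg.Agent.S2308

open CfsgLib.GL2 CfsgLib.Char in
theorem fix_eq {F : Type*} [Field F] [Fintype F] [Fintype (GL (Fin 2) F)] :
    Cfsg.fixedPointCharacter (Cfsg.upperTriangularGL 2 F) = ps (1 : MulChar F ℂ) 1 := by
  have h := perm_char_eq_indFun (G := GL (Fin 2) F) (GL (Fin 2) F ⧸ Cfsg.upperTriangularGL 2 F)
    ((1 : GL (Fin 2) F) : GL (Fin 2) F ⧸ Cfsg.upperTriangularGL 2 F)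
  rw [MulAction.stabilizer_quotient] at h
  refine h.trans ?_
  unfold ps
  congr 1
  funext b
  obtain ⟨⟨⟨a, d⟩, x⟩, rfl⟩ := up_bijective.2 b
  simp [th, up_coe, MulChar.one_apply_coe]

/-- Values of the permutation character of GL₂ over a finite field F with q elements on the cosets of its upper triangular subgroup (equivalently, the number of lines of F² that an element maps to themselves): q + 1 at a scalar matrix, 2 at a diagonal matrix with two different diagonal entries, 0 at an element with no eigenvector in F², and 1 at an upper triangular matrix with equal diagonal entries and non-zero upper right entry. -/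
theorem result {F : Type*} [Field F] [Fintype F] (g : Matrix.GeneralLinearGroup (Fin 2) F) :
    ((∃ a : F, (g : Matrix (Fin 2) (Fin 2) F) = a • (1 : Matrix (Fin 2) (Fin 2) F)) → Cfsg.fixedPointCharacter (Cfsg.upperTriangularGL 2 F) g = Fintype.card F + 1) ∧
    ((g : Matrix (Fin 2) (Fin 2) F) 0 1 = 0 → (g : Matrix (Fin 2) (Fin 2) F) 1 0 = 0 → (g : Matrix (Fin 2) (Fin 2) F) 0 0 ≠ (g : Matrix (Fin 2) (Fin 2) F) 1 1 →
      Cfsg.fixedPointCharacter (Cfsg.upperTriangularGL 2 F) g = 2) ∧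
    ((∀ (c : F) (v : Fin 2 → F), v ≠ 0 → (g : Matrix (Fin 2) (Fin 2) F).mulVec v ≠ c • v) → Cfsg.fixedPointCharacter (Cfsg.upperTriangularGL 2 F) g = 0) ∧
    ((g : Matrix (Fin 2) (Fin 2) F) 1 0 = 0 → (g : Matrix (Fin 2) (Fin 2) F) 0 0 = (g : Matrix (Fin 2) (Fin 2) F) 1 1 → (g : Matrix (Fin 2) (Fin 2) F) 0 1 ≠ 0 →
      Cfsg.fixedPointCharacter (Cfsg.upperTriangularGL 2 F) g = 1) := by
  classical
  open CfsgLib.GL2 in
  rw [fix_eq]
  refine ⟨?_, ?_, ?_, ?_⟩
  · rintro ⟨a, ha⟩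
    obtain ⟨a', x, d, rfl⟩ := CfsgLib.GL2.exists_eq_up (g := g) (by rw [ha]; simp)
    have h1 := congrFun (congrFun ha 0) 0
    have h2 := congrFun (congrFun ha 0) 1
    have h3 := congrFun (congrFun ha 1) 1
    simp [CfsgLib.GL2.up_coe] at h1 h2 h3
    obtain rfl : a' = d := Units.ext (h1.trans h3.symm)
    subst h2
    rw [CfsgLib.GL2.ps_up_scal]; simp [MulChar.one_apply_coe]
  · intro _ h10 hne
    obtain ⟨a', x, d, rfl⟩ := CfsgLib.GL2.exists_eq_up (g := g) h10
    rw [CfsgLib.GL2.ps_up_of_ne _ _ (fun e => hne (by simp [CfsgLib.GL2.up_coe, e]))]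
    simp [MulChar.one_apply_coe]; norm_num
  · intro h; exact CfsgLib.GL2.ps_noEig _ _ h
  · intro h10 he hne
    obtain ⟨a', x, d, rfl⟩ := CfsgLib.GL2.exists_eq_up (g := g) h10
    simp [CfsgLib.GL2.up_coe] at he hne
    obtain rfl : a' = d := Units.ext he
    rw [CfsgLib.GL2.ps_up_unip _ _ _ hne]; simp [MulChar.one_apply_coe]

end Cfsg.Agent.S2308
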