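import Mathlib
import Cfsg.Statements.S2309
import Cfsg.Agent.Lib.GL2.Table

set_option autoImplicit false
open Cfsg

namespace Cfsg.Agent.S2309

/-- Over a finite field F with q elements: every irreducible complex character of GL₂ of degree q − 1 vanishes at every diagonal matrix with two distinct entries, and every irreducible complex character of degree q + 1 vanishes at every element with no eigenvector in F². -/
theorem result {F : Type*} [Field F] [Fintype F] (χ : Matrix.GeneralLinearGroup (Fin 2) F → ℂ) (hχ : Cfsg.IsIrrCharacter (Matrix.GeneralLinearGroup (Fin 2) F) χ) (g : Matrix.GeneralLinearGroup (Fin 2) F) :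
    (χ 1 = (Fintype.card F : ℂ) - 1 → (g : Matrix (Fin 2) (Fin 2) F) 0 1 = 0 → (g : Matrix (Fin 2) (Fin 2) F) 1 0 = 0 → (g : Matrix (Fin 2) (Fin 2) F) 0 0 ≠ (g : Matrix (Fin 2) (Fin 2) F) 1 1 → χ g = 0) ∧
    (χ 1 = (Fintype.card F : ℂ) + 1 → (∀ (c : F) (v : Fin 2 → F), v ≠ 0 → (g : Matrix (Fin 2) (Fin 2) F).mulVec v ≠ c • v) → χ g = 0) := by
  classical
  obtain ⟨n, hn⟩ : ∃ n, Fintype.card F = n + 2 := ⟨Fintype.card F - 2, by
    have : 1 < Fintype.card F := Fintype.one_lt_card; omega⟩
  have hn' : (Fintype.card F : ℂ) = n + 2 := by rw [hn]; push_cast; ring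
  have ne1 : (n : ℂ) + 2 ≠ 0 := by exact_mod_cast (by omega : n + 2 ≠ 0)
  refine ⟨fun h1 _ h10 hne => ?_, fun h1 hg => ?_⟩
  · obtain ⟨a, x, d, rfl⟩ := CfsgLib.GL2.exists_eq_up (g := g) h10
    have had : a ≠ d := fun e => hne (by simp [CfsgLib.GL2.up_coe, e])
    rcases CfsgLib.GL2.irr_cases hχ with ⟨α, rfl⟩ | ⟨α, rfl⟩ | ⟨α, β, -, rfl⟩ | h
    · exfalso
      rw [CfsgLib.GL2.lin_one, hn'] at h1
      have h2 : n = 0 := by
        have : (n : ℂ) = 0 := by linear_combination -h1
        exact_mod_cast this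
      have h3 : Nat.card Fˣ = 1 := by rw [CfsgLib.Classical.sl_card_units, hn, h2]
      exact had ((Nat.card_eq_one_iff_unique.1 h3).1.elim a d)
    · rw [CfsgLib.GL2.st_one] at h1
      exact absurd (by linear_combination h1) (one_ne_zero (α := ℂ))
    · rw [CfsgLib.GL2.ps_one] at h1
      exact absurd (by linear_combination h1) (two_ne_zero (α := ℂ))
    · exact h.up_of_ne had x
  · rcases CfsgLib.GL2.irr_cases hχ with ⟨α, rfl⟩ | ⟨α, rfl⟩ | ⟨α, β, -, rfl⟩ | h
    · rw [CfsgLib.GL2.lin_one, hn'] at h1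
      exact absurd (by linear_combination -h1) ne1
    · rw [CfsgLib.GL2.st_one] at h1
      exact absurd (by linear_combination -h1) (one_ne_zero (α := ℂ))
    · exact CfsgLib.GL2.ps_noEig α β hg
    · rw [h.deg] at h1
      exact absurd (by linear_combination -h1) (two_ne_zero (α := ℂ))

end Cfsg.Agent.S2309
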