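import Mathlib
import Cfsg.Statements.S2310
import Cfsg.Agent.Lib.GL2.Table

set_option autoImplicit false
open Cfsg

namespace Cfsg.Agent.S2310

/-- Over a finite field F with q ≥ 3 elements, let u be the upper unitriangular matrix of GL₂ with off-diagonal entry 1. An irreducible complex character χ of GL₂ takes at u the value 1 if χ has degree 1 or q + 1, the value −1 if χ has degree q − 1, and the value 0 if χ has degree q. -/
theorem result {F : Type*} [Field F] [Fintype F] (hq : 3 ≤ Fintype.card F) (χ : Matrix.GeneralLinearGroup (Fin 2) F → ℂ) (hχ : Cfsg.IsIrrCharacter (Matrix.GeneralLinearGroup (Fin 2) F) χ)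
    (u : Matrix.GeneralLinearGroup (Fin 2) F) (hu : (u : Matrix (Fin 2) (Fin 2) F) = !![1, 1; 0, 1]) :
    (χ 1 = 1 → χ u = 1) ∧ (χ 1 = (Fintype.card F : ℂ) + 1 → χ u = 1) ∧
    (χ 1 = (Fintype.card F : ℂ) - 1 → χ u = -1) ∧ (χ 1 = (Fintype.card F : ℂ) → χ u = 0) := by
  classical
  obtain ⟨n, hn⟩ : ∃ n, Fintype.card F = n + 3 := ⟨Fintype.card F - 3, by omega⟩
  have hn' : (Fintype.card F : ℂ) = n + 3 := by rw [hn]; push_cast; ring
  have ne1 : ∀ k : ℕ, (n : ℂ) + (k + 1) ≠ 0 := fun k => by exact_mod_cast (by omega : n + (k + 1) ≠ 0)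
  obtain rfl : u = CfsgLib.GL2.up 1 1 1 := Units.ext (by rw [hu, CfsgLib.GL2.up_coe]; simp)
  rcases CfsgLib.GL2.irr_cases hχ with ⟨α, rfl⟩ | ⟨α, rfl⟩ | ⟨α, β, -, rfl⟩ | h
  · rw [CfsgLib.GL2.lin_one, CfsgLib.GL2.lin_up, hn']
    refine ⟨fun _ => by simp, fun _ => by simp, fun e => ?_, fun e => ?_⟩
    · exact absurd (by push_cast; linear_combination -e) (ne1 0)
    · exact absurd (by push_cast; linear_combination -e) (ne1 1)
  · rw [CfsgLib.GL2.st_one, CfsgLib.GL2.st_up_unip α 1 one_ne_zero, hn']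
    refine ⟨fun e => ?_, fun e => ?_, fun e => ?_, fun _ => rfl⟩
    · exact absurd (by push_cast; linear_combination e) (ne1 1)
    · exact absurd (by linear_combination -e) (one_ne_zero (α := ℂ))
    · exact absurd (by linear_combination e) (one_ne_zero (α := ℂ))
  · rw [CfsgLib.GL2.ps_one, CfsgLib.GL2.ps_up_unip α β 1 one_ne_zero, hn']
    refine ⟨fun _ => by simp, fun _ => by simp, fun e => ?_, fun e => ?_⟩
    · exact absurd (by linear_combination e) (two_ne_zero (α := ℂ))
    · exact absurd (by linear_combination e) (one_ne_zero (α := ℂ))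
  · rw [h.deg, h.unip, hn']
    refine ⟨fun e => ?_, fun e => ?_, fun _ => rfl, fun e => ?_⟩
    · exact absurd (by push_cast; linear_combination e) (ne1 0)
    · exact absurd (by linear_combination -e) (two_ne_zero (α := ℂ))
    · exact absurd (by linear_combination -e) (one_ne_zero (α := ℂ))

end Cfsg.Agent.S2310
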