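import Mathlib
import Cfsg.Statements.S2313
import Cfsg.Agent.Lib.St.Chev

set_option autoImplicit false
open Cfsg

namespace Cfsg.Agent.S2313

/-- In a Chevalley group of type G₂, B₂, D₄, F₄, E₆, E₇ or E₈ over a finite field, the restriction of the Steinberg character to the subgroup B = UH is the permutation character of B on the cosets of the diagonal subgroup H: at b ∈ B its value is the number of cosets xH, x ∈ B, with bxH = xH. -/
theorem result {F : Type*} [Field F] [Fintype F] (D : Cfsg.Lie.ChevalleyDatum) (hD : D ∈ [Cfsg.Lie.chevG2, Cfsg.Lie.chevB2, Cfsg.Lie.chevD4, Cfsg.Lie.chevF4, Cfsg.Lie.chevE6, Cfsg.Lie.chevE7, Cfsg.Lie.chevE8]) (b : ↥((D.borelSubgroup F).subgroupOf (D.group F))) :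
    D.steinbergCharacter F ((((D.borelSubgroup F).subgroupOf (D.group F)).subtype) b) =
      Cfsg.fixedPointCharacter (((D.diagonalSubgroup F).subgroupOf (D.group F)).subgroupOf ((D.borelSubgroup F).subgroupOf (D.group F))) b := by
  haveI := CfsgLib.Chev.good_of_mem hD
  have h := CfsgLib.Weyl.rtOK_of_mem hD
  rw [CfsgLib.St.steinbergCharacter_eq h]
  revert b
  rw [← CfsgLib.St.chevSys_B h, ← CfsgLib.St.chevSys_H h]
  exact CfsgLib.St.st_restrict_B (CfsgLib.St.chevSys_nondeg h F) (CfsgLib.St.chevSys_grp h F)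

end Cfsg.Agent.S2313
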