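import Cfsg.Statements.S2315
import Cfsg.Agent.Lib.ClSys.SL
import Cfsg.Agent.Lib.ClSys.StApp

set_option autoImplicit false
open Cfsg

namespace Cfsg.Agent.S2315

/-- Steinberg's count of unipotent elements for the general linear group: over a finite field with q elements of characteristic p, the number of elements of GL_n of p-power order (the unipotent matrices) is q^(n(n−1)). -/
theorem result {F : Type*} [Field F] [Fintype F] (p : ℕ) [Fact p.Prime] [CharP F p] (n : ℕ) :
    Nat.card {g : Matrix.GeneralLinearGroup (Fin n) F // ∃ k : ℕ, orderOf g = p ^ k} = Fintype.card F ^ (n * (n - 1)) := by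
  have h := CfsgLib.ClSys.card_pElt_of_r3 (CfsgLib.ClSys.slSys_nondeg (n := n) (F := F))
    CfsgLib.ClSys.slSys_grp CfsgLib.ClSys.slSys_r3 p
  rw [CfsgLib.ClSys.rootA_ncard_pos, Nat.card_eq_fintype_card (α := F),
    Nat.mul_div_cancel' (Nat.even_mul_pred_self n).two_dvd] at h
  rw [← h]
  have hinj : Function.Injective (Matrix.SpecialLinearGroup.toGL :
      Matrix.SpecialLinearGroup (Fin n) F →* GL (Fin n) F) := Matrix.SpecialLinearGroup.toGL_injective
  symm
  refine Nat.card_congr (Equiv.ofBijective (fun g => ⟨Matrix.SpecialLinearGroup.toGL g.1, by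
    rw [orderOf_injective _ hinj]; exact g.2⟩) ⟨fun a b e => Subtype.ext (hinj (congrArg Subtype.val e)), ?_⟩)
  rintro ⟨g, k, hk⟩
  have h1 : g ∈ (Matrix.GeneralLinearGroup.det : GL (Fin n) F →* Fˣ).ker := by
    rw [MonoidHom.mem_ker, ← orderOf_eq_one_iff]
    have h2 : orderOf (Matrix.GeneralLinearGroup.det g) ∣ p ^ k := hk ▸ orderOf_map_dvd _ g
    obtain ⟨j, -, hj⟩ := (Nat.dvd_prime_pow Fact.out).1 h2
    rcases Nat.eq_zero_or_pos j with h0 | h0
    · rw [hj, h0, pow_zero]
    · exact absurd (((dvd_pow_self p h0.ne').trans hj.symm.dvd).trans (orderOf_dvd_natCard _))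
        (CfsgLib.ClSys.not_dvd_card_units p)
  rw [← CfsgLib.Classical.sl_range_toGL] at h1
  obtain ⟨a, rfl⟩ := h1
  exact ⟨⟨a, k, by rw [← hk, orderOf_injective _ hinj]⟩, rfl⟩

end Cfsg.Agent.S2315
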