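import Cfsg.Statements.S2317
import Cfsg.Agent.Lib.MatConj.UnipCount

set_option autoImplicit false
open Cfsg

namespace Cfsg.Agent.S2317

open CfsgLib.MatConj

/-- Over a finite field of characteristic p, the conjugacy classes of GL_n consisting of elements of p-power order (the unipotent classes) are as many as the partitions of n. -/
theorem result {F : Type*} [Field F] [Fintype F] (p : ℕ) [Fact p.Prime] [CharP F p] (n : ℕ) :
    Nat.card {C : ConjClasses (Matrix.GeneralLinearGroup (Fin n) F) //
      ∃ g : Matrix.GeneralLinearGroup (Fin n) F, (∃ k : ℕ, orderOf g = p ^ k) ∧ ConjClasses.mk g = C} =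
      Fintype.card (Nat.Partition n) := by
  have h := card_unipotent_classes (F := F) (Units.coeHom (Matrix (Fin n) (Fin n) F))
    (fun g g' _ h => (isConj_units_iff g g').2 h) (fun s h1 h2 => exists_GL_jt_eq h1 h2)
    fun _ => True
  rw [Fintype.card_fin] at h
  rw [← Nat.card_eq_fintype_card, ← Nat.card_subtype_true (α := Nat.Partition n), ← h]
  refine Nat.card_congr (Equiv.subtypeEquivRight fun C => exists_congr fun g => ?_)
  rw [and_true, isNilpotent_sub_one_iff_orderOf (F := F) p, and_comm,
    orderOf_injective _ Units.val_injective]

end Cfsg.Agent.S2317
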