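import Mathlib
import Cfsg.Statements.S2319
import Cfsg.Agent.Lib.St.HeckeG
import Cfsg.Agent.Lib.Weyl.Main

set_option autoImplicit false
open Cfsg

namespace Cfsg.Agent.S2319


theorem card_conjClasses_eq {G H : Type*} [Group G] [Group H] (e : G ≃* H) :
    Nat.card (ConjClasses G) = Nat.card (ConjClasses H) := by
  refine Nat.card_congr (Quotient.congr e.toEquiv fun a b => ⟨fun h => e.toMonoidHom.map_isConj h,
    fun h => ?_⟩)
  change IsConj a b
  simpa using e.symm.toMonoidHom.map_isConj h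

open CfsgLib.Weyl in
theorem key {F : Type*} [Field F] [Fintype F] (D : Cfsg.Lie.ChevalleyDatum)
    (hD : D ∈ [Cfsg.Lie.chevG2, Cfsg.Lie.chevB2, Cfsg.Lie.chevD4, Cfsg.Lie.chevF4, Cfsg.Lie.chevE6,
      Cfsg.Lie.chevE7, Cfsg.Lie.chevE8]) :
    Nat.card {χ : Cfsg.IrrCharacter ↥(D.group F) //
      ∃ φ : ↥(D.group F) → ℂ, Cfsg.IsCharacter ↥(D.group F) φ ∧
        Cfsg.fixedPointCharacter ((D.borelSubgroup F).subgroupOf (D.group F)) =
          (χ : ↥(D.group F) → ℂ) + φ} = Nat.card (ConjClasses (coxM D).Group) := by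
  haveI := CfsgLib.Chev.good_of_mem hD
  have h := rtOK_of_mem hD
  obtain ⟨ds, hc⟩ := exists_hasChain hD
  rw [← CfsgLib.St.chevSys_B h, CfsgLib.St.card_const_chev h F, rootSys_W, ← range_rootHom]
  exact (card_conjClasses_eq (MonoidHom.ofInjective hc.rootHom_injective)).symm

/-- In a Chevalley group of type G₂, B₂, D₄, F₄, E₆, E₇ or E₈ over a finite field, the number of distinct irreducible constituents of the permutation character on the cosets of B = UH equals the number of conjugacy classes (equivalently, of irreducible characters) of the Weyl group, the Coxeter group of the type with nodes numbered as the fundamental roots. -/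
theorem result {F : Type*} [Field F] [Fintype F]
    (dw : Cfsg.Lie.ChevalleyDatum × (Σ n : ℕ, CoxeterMatrix (Fin n)))
    (hdw : dw ∈ [(Cfsg.Lie.chevG2, ⟨2, CoxeterMatrix.G₂⟩), (Cfsg.Lie.chevB2, ⟨2, CoxeterMatrix.B 2⟩), (Cfsg.Lie.chevD4, ⟨4, Cfsg.Lie.coxeterD4⟩), (Cfsg.Lie.chevF4, ⟨4, CoxeterMatrix.F₄⟩),
      (Cfsg.Lie.chevE6, ⟨6, CoxeterMatrix.E₆⟩), (Cfsg.Lie.chevE7, ⟨7, CoxeterMatrix.E₇⟩), (Cfsg.Lie.chevE8, ⟨8, CoxeterMatrix.E₈⟩)]) :
    Nat.card {χ : Cfsg.IrrCharacter ↥(dw.1.group F) //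
      ∃ φ : ↥(dw.1.group F) → ℂ, Cfsg.IsCharacter ↥(dw.1.group F) φ ∧
        Cfsg.fixedPointCharacter ((dw.1.borelSubgroup F).subgroupOf (dw.1.group F)) = (χ : ↥(dw.1.group F) → ℂ) + φ} =
      Nat.card (ConjClasses dw.2.2.Group) := by
  simp only [List.mem_cons, List.not_mem_nil, or_false] at hdw
  rcases hdw with rfl | rfl | rfl | rfl | rfl | rfl | rfl
  · rw [← CfsgLib.Weyl.coxM_G2]; exact key _ (by simp)
  · rw [← CfsgLib.Weyl.coxM_B2]; exact key _ (by simp)
  · rw [← CfsgLib.Weyl.coxM_D4]; exact key _ (by simp)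
  · rw [← CfsgLib.Weyl.coxM_F4]; exact key _ (by simp)
  · rw [← CfsgLib.Weyl.coxM_E6]; exact key _ (by simp)
  · rw [← CfsgLib.Weyl.coxM_E7]; exact key _ (by simp)
  · rw [← CfsgLib.Weyl.coxM_E8]; exact key _ (by simp)

end Cfsg.Agent.S2319
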