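import Mathlib
import Cfsg.Statements.S2320
import Cfsg.Agent.Lib.GL2.Table

set_option autoImplicit false
open Cfsg

namespace Cfsg.Agent.S2320

/-- Over a finite field F with q elements, every irreducible complex character of GL₂ of degree q takes a value of absolute value 1 at every diagonal matrix with two different diagonal entries and at every element with no eigenvector in F². -/
theorem result {F : Type*} [Field F] [Fintype F] (χ : Matrix.GeneralLinearGroup (Fin 2) F → ℂ) (hχ : Cfsg.IsIrrCharacter (Matrix.GeneralLinearGroup (Fin 2) F) χ) (hdeg : χ 1 = (Fintype.card F : ℂ)) (g : Matrix.GeneralLinearGroup (Fin 2) F) :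
    ((g : Matrix (Fin 2) (Fin 2) F) 0 1 = 0 → (g : Matrix (Fin 2) (Fin 2) F) 1 0 = 0 → (g : Matrix (Fin 2) (Fin 2) F) 0 0 ≠ (g : Matrix (Fin 2) (Fin 2) F) 1 1 → ‖χ g‖ = 1) ∧
    ((∀ (c : F) (v : Fin 2 → F), v ≠ 0 → (g : Matrix (Fin 2) (Fin 2) F).mulVec v ≠ c • v) → ‖χ g‖ = 1) := by
  classical
  have hq : 1 < Fintype.card F := Fintype.one_lt_card
  obtain ⟨α, rfl⟩ : ∃ α, χ = CfsgLib.GL2.st α := by
    rcases CfsgLib.GL2.irr_cases hχ with ⟨α, rfl⟩ | h | ⟨α, β, -, rfl⟩ | h
    · rw [CfsgLib.GL2.lin_one] at hdeg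
      exact absurd (by exact_mod_cast hdeg) hq.ne
    · exact h
    · rw [CfsgLib.GL2.ps_one] at hdeg
      exact absurd (by linear_combination hdeg) (one_ne_zero (α := ℂ))
    · rw [h.deg] at hdeg
      exact absurd (by linear_combination -hdeg) (one_ne_zero (α := ℂ))
  refine ⟨fun _ h10 hne => ?_, fun hg => ?_⟩
  · obtain ⟨a, x, d, rfl⟩ := CfsgLib.GL2.exists_eq_up (g := g) h10
    have had : a ≠ d := fun e => hne (by simp [CfsgLib.GL2.up_coe, e])
    rw [CfsgLib.GL2.st_up_of_ne α had, norm_mul, CfsgLib.GL2.norm_mulChar,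
      CfsgLib.GL2.norm_mulChar, one_mul]
  · rw [CfsgLib.GL2.st_noEig α hg, norm_neg, CfsgLib.GL2.norm_lin]

end Cfsg.Agent.S2320
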