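import Cfsg.Statements.S2322
import Cfsg.Agent.Lib.SL2.Unip

set_option autoImplicit false
open Cfsg

namespace Cfsg.Agent.S2322

open CfsgLib.SL2 CfsgLib.Char

/-- Over a finite field F with q elements, q odd: every irreducible complex character of SL₂ of degree q − 1 or (q − 1)/2 vanishes at every diagonal matrix whose diagonal entry a has a² ≠ 1, and every irreducible complex character of degree q + 1 or (q + 1)/2 vanishes at every element with no eigenvector in F². -/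
theorem result {F : Type*} [Field F] [Fintype F] (hodd : Odd (Fintype.card F)) (χ : Matrix.SpecialLinearGroup (Fin 2) F → ℂ) (hχ : Cfsg.IsIrrCharacter (Matrix.SpecialLinearGroup (Fin 2) F) χ) (g : Matrix.SpecialLinearGroup (Fin 2) F) :
    ((χ 1 = (Fintype.card F : ℂ) - 1 ∨ χ 1 = (((Fintype.card F - 1) / 2 : ℕ) : ℂ)) →
      (g : Matrix (Fin 2) (Fin 2) F) 0 1 = 0 → (g : Matrix (Fin 2) (Fin 2) F) 1 0 = 0 → (g : Matrix (Fin 2) (Fin 2) F) 0 0 ^ 2 ≠ 1 → χ g = 0) ∧
    ((χ 1 = (Fintype.card F : ℂ) + 1 ∨ χ 1 = (((Fintype.card F + 1) / 2 : ℕ) : ℂ)) →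
      (∀ (c : F) (v : Fin 2 → F), v ≠ 0 → (g : Matrix (Fin 2) (Fin 2) F).mulVec v ≠ c • v) → χ g = 0) := by
  classical
  obtain ⟨d, hd⟩ := exists_noEig (F := F)
  have hcf := isClassFunction_of_isIrr hχ
  refine ⟨fun h h1 h2 h3 => ?_, fun h hg => ?_⟩
  · obtain ⟨a, rfl⟩ := eq_dg_of_diag h1 h2
    have hq := four_le_card_of_sq_ne h3
    rcases h with h | h
    · obtain ⟨θ, -, rfl⟩ := kind_of_deg hd hq hχ 3 (fun _ => hodd) h
      exact cusp_dg hd θ h3
    · obtain ⟨θ, H⟩ := kind_of_deg hd hq hχ 5 (fun _ => hodd) h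
      rw [← hc_split hcf h3, H.2.2.1, Pi.zero_apply]
  · obtain ⟨c, hc, e⟩ := hd.exists_isConj_tor hg
    have h1 : 1 < Fintype.card F := Fintype.one_lt_card
    have key : ∃ i, Kind d i χ ∧ (i = 2 ∨ i = 4 ∨ (i = 3 ∧ Fintype.card F = 3)) := by
      rw [Nat.odd_iff] at hodd
      rcases h with h | h
      · obtain ⟨i, hi, h2, -⟩ := exists_kind_of_deg hd hχ 2 h
        refine ⟨i, hi, ?_⟩
        fin_cases i <;> simp [kindDegNat] at h2 ⊢ <;> omega
      · obtain ⟨i, hi, h2, -⟩ := exists_kind_of_deg hd hχ 4 h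
        refine ⟨i, hi, ?_⟩
        fin_cases i <;> simp [kindDegNat] at h2 ⊢ <;> omega
    rw [← classFun_eq_of_isConj hcf e]
    obtain ⟨i, hi, rfl | rfl | ⟨rfl, hq⟩⟩ := key
    · obtain ⟨α, -, rfl⟩ := hi
      exact prin_noEig α (hd.tor c hc)
    · obtain ⟨α, H⟩ := hi
      have := congrFun H.2.2.2 c
      rwa [cr_of_not_scal _ hc, Pi.zero_apply, neg_eq_zero] at this
    · obtain ⟨θ, hθ, rfl⟩ := hi
      rw [cusp_tor hd θ hc, lin_add_inv_of_three hq hd hθ hc, neg_zero]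

end Cfsg.Agent.S2322
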