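import Mathlib
import Cfsg.Statements.S2329
import Cfsg.Agent.Lib.GL2.Basic

set_option autoImplicit false
open Cfsg

namespace Cfsg.Agent.S2329

open CfsgLib.GL2 in
theorem aux {F : Type*} [Field F] (p : ℕ) [Fact p.Prime] [CharP F p] (g : GL (Fin 2) F)
    (hg : orderOf g = p) : ¬ IsScal g ∧ (g : Matrix (Fin 2) (Fin 2) F).trace = 2 ∧
      (g : Matrix (Fin 2) (Fin 2) F).det = 1 := by
  have hp : p.Prime := Fact.out
  have h1 : g ^ p = 1 := hg ▸ pow_orderOf_eq_one g
  have h2 : ((g : Matrix (Fin 2) (Fin 2) F) - 1) ^ p = 0 := by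
    rw [sub_pow_char_of_commute p (Commute.one_right _), one_pow, ← Units.val_pow_eq_pow_val, h1,
      Units.val_one, sub_self]
  have hn : IsNilpotent ((g : Matrix (Fin 2) (Fin 2) F) - 1) := ⟨p, h2⟩
  have ht := (Matrix.isNilpotent_trace_of_isNilpotent hn).eq_zero
  have hd : ((g : Matrix (Fin 2) (Fin 2) F) - 1).det = 0 := by
    have := congrArg Matrix.det h2
    rw [Matrix.det_pow, Matrix.det_zero] at this
    exact pow_eq_zero_iff hp.ne_zero |>.mp this
  rw [Matrix.trace_fin_two] at ht
  rw [Matrix.det_fin_two] at hd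
  simp at ht hd
  refine ⟨?_, ?_, ?_⟩
  · rintro ⟨h01, h10, he⟩
    have : g = 1 := by
      rw [h01, he] at hd
      have h4 : (g : Matrix (Fin 2) (Fin 2) F) 1 1 = 1 := by
        have : ((g : Matrix (Fin 2) (Fin 2) F) 1 1 - 1) ^ 2 = 0 := by linear_combination hd
        exact sub_eq_zero.mp (pow_eq_zero_iff two_ne_zero |>.mp this)
      apply ext2 <;> simp [h01, h10, he, h4]
    rw [this, orderOf_one] at hg
    exact hp.one_lt.ne hg
  · rw [Matrix.trace_fin_two]; linear_combination ht
  · rw [Matrix.det_fin_two]; linear_combination hd + ht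

/-- Over a finite field of characteristic p, any two elements of order p of GL₂ are conjugate: there is a single conjugacy class of non-identity unipotent elements. -/
theorem result {F : Type*} [Field F] [Fintype F] (p : ℕ) [Fact p.Prime] [CharP F p] (g h : Matrix.GeneralLinearGroup (Fin 2) F)
    (hg : orderOf g = p) (hh : orderOf h = p) : IsConj g h := by
  obtain ⟨a1, a2, a3⟩ := aux p g hg
  obtain ⟨b1, b2, b3⟩ := aux p h hh
  exact CfsgLib.GL2.isConj_of_trace_det a1 b1 (a2.trans b2.symm) (a3.trans b3.symm)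

end Cfsg.Agent.S2329
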