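import Cfsg.Statements.S2364
import Cfsg.Agent.Lib.Spec.Adj
import Cfsg.Agent.Lib.Classical.SLCard

set_option autoImplicit false
open Cfsg

namespace Cfsg.Agent.S2364

open CfsgLib.Spec


/-- Let F be a finite field of characteristic p, n ≥ 4, and let a, b be commuting elements of PSL(n, F) with a of order p. Then every prime divisor of the order of b divides the order of SL(n − 2, F). -/
theorem result {F : Type*} [Field F] [Fintype F] (p : ℕ) [Fact p.Prime] [CharP F p] (n : ℕ) (hn : 4 ≤ n)
    (a b : Matrix.ProjectiveSpecialLinearGroup (Fin n) F) (ha : orderOf a = p) (hab : Commute a b) :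
    (orderOf b).primeFactors ⊆ (Nat.card (Matrix.SpecialLinearGroup (Fin (n - 2)) F)).primeFactors := by
  classical
  have hp : p.Prime := Fact.out
  let K := AlgebraicClosure F
  haveI : CharP K p := charP_of_injective_algebraMap (algebraMap F K).injective p
  have hpq := char_dvd_card F p
  have hq0 : Fintype.card F ≠ 0 := Fintype.card_ne_zero
  have hφ : Function.Injective fun a : K => a ^ ((Fintype.card F : ℕ) : ℤ) := zfrob_injective
  have hL := spectrum_psl_eq K p (F := F) n
  intro r hr
  have hr' := Nat.prime_of_mem_primeFactors hr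
  have hrb := Nat.dvd_of_mem_primeFactors hr
  refine Nat.mem_primeFactors.2 ⟨hr', ?_, Nat.card_pos.ne'⟩
  rw [CfsgLib.Classical.sl_card]
  by_cases hrp : r = p
  · subst hrp
    refine (dvd_pow hpq ?_).mul_right _
    obtain ⟨m, rfl⟩ : ∃ m, n = m + 4 := ⟨n - 4, by omega⟩
    have : 2 ≤ (m + 2) * (m + 1) := by nlinarith
    change (m + 2) * (m + 1) / 2 ≠ 0
    omega
  · have h1 : orderOf (b ^ (orderOf b / r)) = r := orderOf_pow_orderOf_div (orderOf_pos b).ne' hrb
    have h2 : orderOf (a * b ^ (orderOf b / r)) = p * r := by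
      rw [(hab.pow_right _).orderOf_mul_eq_mul_orderOf_of_coprime, ha, h1]
      rw [ha, h1]
      exact (Nat.coprime_primes hp hr').2 (Ne.symm hrp)
    have hmem : p * r ∈ omegaLU K p ((Fintype.card F : ℕ) : ℤ) n := by
      rw [← hL]
      exact ⟨_, h2⟩
    obtain ⟨d, hd, h3, h4⟩ := omegaLU_prime_char hφ hmem (mul_ne_zero hp.ne_zero hr'.ne_zero) hr' hrp
      (dvd_mul_left _ _) (dvd_mul_right _ _)
    rw [Int.natCast_dvd, natAbs_pow_sub_one Fintype.card_pos] at h4
    apply Dvd.dvd.mul_left
    by_cases h5 : d = 1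
    · subst h5
      refine (h4.trans ?_).trans (Finset.dvd_prod_of_mem _ (Finset.mem_range.2 (show 0 < n - 2 - 1 by omega)))
      simpa using Nat.sub_dvd_pow_sub_pow (Fintype.card F) 1 2
    · have h6 := Finset.dvd_prod_of_mem (fun i => Fintype.card F ^ (i + 2) - 1)
        (Finset.mem_range.2 (show d - 2 < n - 2 - 1 by omega))
      rw [show d - 2 + 2 = d by omega] at h6
      exact h4.trans h6

end Cfsg.Agent.S2364
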