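import Cfsg.Statements.S2365
import Cfsg.Agent.Lib.Spec.Adj
import Cfsg.Agent.Lib.Unitary.Order

set_option autoImplicit false
open Cfsg

namespace Cfsg.Agent.S2365

open CfsgLib.Spec


/-- Let q be a power of the prime p, F the field with q² elements, m ≥ 4, and let a, b be commuting elements of PSU(m, q) with a of order p. Then every prime divisor of the order of b divides the order of SU(m − 2, q). -/
theorem result {F : Type*} [Field F] [Fintype F] (p : ℕ) [Fact p.Prime] [CharP F p] (m q : ℕ) (hm : 4 ≤ m) (hF : Fintype.card F = q ^ 2)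
    (a b : Cfsg.PSU m F q) (ha : orderOf a = p) (hab : Commute a b) :
    (orderOf b).primeFactors ⊆ (Nat.card ↥(Cfsg.SU (m - 2) F q)).primeFactors := by
  classical
  have hp : p.Prime := Fact.out
  let K := AlgebraicClosure F
  haveI : CharP K p := charP_of_injective_algebraMap (algebraMap F K).injective p
  have hpq := char_dvd_card F p
  have hq0 : Fintype.card F ≠ 0 := Fintype.card_ne_zero
  have hφ : Function.Injective fun a : K => a ^ (-(q : ℤ)) := ufrob_injective hF
  have hL := spectrum_psu_eq hF K p (n := m) (by omega)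
  have hq2 := CfsgLib.Unitary.two_le_q hF
  intro r hr
  have hr' := Nat.prime_of_mem_primeFactors hr
  have hrb := Nat.dvd_of_mem_primeFactors hr
  refine Nat.mem_primeFactors.2 ⟨hr', ?_, Nat.card_pos.ne'⟩
  obtain ⟨n, rfl⟩ : ∃ n, m = n + 4 := ⟨m - 4, by omega⟩
  have hc := CfsgLib.Unitary.card_SU hF (n := n + 2) (by omega)
  rw [Finset.prod_range_succ', if_pos Even.zero, zero_add, pow_one, ← mul_assoc, mul_comm,
    Nat.mul_left_inj (by omega)] at hc
  change r ∣ Nat.card (Cfsg.SU (n + 2) F q)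
  rw [hc]
  by_cases hrp : r = p
  · subst hrp
    refine (dvd_pow (char_dvd_q hF r) ?_).mul_right _
    have : 2 ≤ (n + 2) * (n + 1) := by nlinarith
    change (n + 2) * (n + 1) / 2 ≠ 0
    omega
  · have h1 : orderOf (b ^ (orderOf b / r)) = r := orderOf_pow_orderOf_div (orderOf_pos b).ne' hrb
    have h2 : orderOf (a * b ^ (orderOf b / r)) = p * r := by
      rw [(hab.pow_right _).orderOf_mul_eq_mul_orderOf_of_coprime, ha, h1]
      rw [ha, h1]
      exact (Nat.coprime_primes hp hr').2 (Ne.symm hrp)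
    have hmem : p * r ∈ omegaLU K p (-(q : ℤ)) (n + 4) := by
      rw [← hL]
      exact ⟨_, h2⟩
    obtain ⟨d, hd, h3, h4⟩ := omegaLU_prime_char hφ hmem (mul_ne_zero hp.ne_zero hr'.ne_zero) hr' hrp
      (dvd_mul_left _ _) (dvd_mul_right _ _)
    obtain ⟨d, hd1, hd2, h4⟩ : ∃ d, 2 ≤ d ∧ d ≤ n + 2 ∧ (r : ℤ) ∣ (-(q : ℤ)) ^ d - 1 := by
      by_cases h5 : d = 1
      · subst h5
        exact ⟨2, le_rfl, by omega, h4.trans (by simpa using sub_dvd_pow_sub_pow (-(q : ℤ)) 1 2)⟩
      · exact ⟨d, by omega, by omega, h4⟩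
    obtain ⟨d, rfl⟩ : ∃ d', d = d' + 1 + 1 := ⟨d - 2, by omega⟩
    refine Dvd.dvd.mul_left (dvd_trans ?_ (Finset.dvd_prod_of_mem _
      (Finset.mem_range.2 (show d < n + 1 by omega)))) _
    split_ifs with h5
    · rw [h5.add_one.neg_pow, ← dvd_neg] at h4
      rw [← Int.natCast_dvd_natCast, show ((q ^ (d + 1 + 1) + 1 : ℕ) : ℤ) = -(-(q : ℤ) ^ (d + 1 + 1) - 1) by
        push_cast; ring]
      exact h4
    · rw [(Nat.not_even_iff_odd.1 h5).add_one.neg_pow, Int.natCast_dvd, natAbs_pow_sub_one (by omega)] at h4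
      exact h4

end Cfsg.Agent.S2365
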