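import Mathlib
import Cfsg.Statements.S2367


set_option autoImplicit false
open Cfsg

namespace Cfsg.Agent.S2367


theorem spor (N a : ℕ) (h1 : N ∣ (Nat.factorial 71) ^ 46) (h2 : 2 ^ a ∣ N) (hN : N ≠ 0)
    (h3 : ∀ p ∈ [3, 5, 7, 11, 13, 17, 19, 23, 29, 31, 37, 41, 43, 47, 53, 59, 61, 67, 71],
      p ^ 3 ∣ N → ¬ p ^ 4 ∣ N → p ^ 3 < 2 ^ a)
    (p : ℕ) (hp : p.Prime) (hodd : p ≠ 2) (h : N.factorization p = 3) :
    p ^ 3 < 2 ^ N.factorization 2 := by
  have e1 : p ^ 3 ∣ N := (hp.pow_dvd_iff_le_factorization hN).mpr h.ge
  have e2 : ¬ p ^ 4 ∣ N := fun h4 => by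
    have := (hp.pow_dvd_iff_le_factorization hN).mp h4; omega
  have e3 : p ≤ 71 := hp.dvd_factorial.mp
    (hp.dvd_of_dvd_pow (((dvd_pow_self p (by norm_num)).trans e1).trans h1))
  have e4 : p ∈ [3, 5, 7, 11, 13, 17, 19, 23, 29, 31, 37, 41, 43, 47, 53, 59, 61, 67, 71] := by
    interval_cases p <;> first | (exfalso; revert hp; norm_num; done) | (simp at hodd; done) | simp
  exact (h3 p e4 e1 e2).trans_le (Nat.pow_le_pow_right (by norm_num)
    ((Nat.prime_two.pow_dvd_iff_le_factorization hN).mp h2))

theorem cube_lt (p : ℕ) (hp : 5 ≤ p) : p ^ 3 < 2 ^ (2 * p - 1) := by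
  induction p, hp using Nat.le_induction with
  | base => norm_num
  | succ k hk ih =>
    have : 2 * (k + 1) - 1 = (2 * k - 1) + 2 := by omega
    rw [this, pow_add]
    have : (k + 1) ^ 3 ≤ k ^ 3 * 4 := by nlinarith [Nat.zero_le (k ^ 2), Nat.mul_le_mul hk hk, Nat.mul_le_mul hk (Nat.mul_le_mul hk hk)]
    omega

theorem fact_ge (p n : ℕ) (hp : p.Prime) : n / p + n / p ^ 2 ≤ (Nat.factorial n).factorization p := by
  rw [Nat.factorization_factorial hp (b := Nat.log p n + 3) (by omega)]
  have : ({1, 2} : Finset ℕ) ⊆ Finset.Ico 1 (Nat.log p n + 3) := by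
    intro x hx; simp at hx ⊢; omega
  refine le_trans ?_ (Finset.sum_le_sum_of_subset this)
  simp

theorem alt (n : ℕ) (M : ℕ) (hM : 2 * M = Nat.factorial n) (p : ℕ) (hp : p.Prime) (hodd : p ≠ 2)
    (h3 : M.factorization p = 3) : p ^ 3 < 2 ^ M.factorization 2 := by
  have hM0 : M ≠ 0 := by
    rintro rfl; exact Nat.factorial_ne_zero n hM.symm
  have e1 : (Nat.factorial n).factorization p = 3 := by
    rw [← hM, Nat.factorization_mul two_ne_zero hM0, Finsupp.add_apply, h3,
      Nat.prime_two.factorization, Finsupp.single_eq_of_ne hodd]
  have e2 : (Nat.factorial n).factorization 2 = 1 + M.factorization 2 := by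
    rw [← hM, Nat.factorization_mul two_ne_zero hM0, Finsupp.add_apply,
      Nat.prime_two.factorization, Finsupp.single_eq_same]
  have hp3 : 3 ≤ p := by have := hp.two_le; omega
  have e3 : 3 * p ≤ n := by
    by_contra hc
    have hlt : n < p ^ 2 := by nlinarith
    have hl : Nat.log p n < 2 := Nat.log_lt_of_lt_pow' two_ne_zero hlt
    rw [Nat.factorization_factorial hp hl] at e1
    simp at e1
    have := Nat.div_mul_le_self n p
    rw [e1] at this; omega
  have e4 : p ≠ 3 := by
    rintro rfl
    have := fact_ge 3 n hp
    omega
  have e5 : p ≠ 4 := by rintro rfl; norm_num at hp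
  have e6 := fact_ge 2 n Nat.prime_two
  refine (cube_lt p (by omega)).trans_le (Nat.pow_le_pow_right (by norm_num) ?_)
  omega

/-- Let G be an alternating group of degree at least 5 or a simple group with the order of one of the 26 sporadic groups, and let p be an odd prime such that p³ is the exact power of p dividing the order of G. Then p³ is less than the 2-part of the order of G. -/
theorem result {G : Type*} [Group G] [Finite G] (hG : Cfsg.IsAlternating G ∨ Cfsg.IsSporadic G)
    (p : ℕ) (hp : p.Prime) (hodd : p ≠ 2) (h3 : (Nat.card G).factorization p = 3) :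
    p ^ 3 < 2 ^ (Nat.card G).factorization 2 := by
  rcases hG with ⟨n, hn, ⟨e⟩⟩ | hG
  · refine alt n _ ?_ p hp hodd h3
    haveI : Nontrivial (Fin n) := Fin.nontrivial_iff_two_le.mpr (by omega)
    rw [Nat.card_congr e.toEquiv, two_mul_nat_card_alternatingGroup, Nat.card_eq_fintype_card,
      Fintype.card_perm, Fintype.card_fin]
  · rcases hG with h | h | h | h | h | h | h | h | h | h | h | h | h | h | h | h | h | h | h | h |
      h | h | h | h | h | h <;> rw [h.2] at h3 ⊢
    · exact spor _ 4 (by decide +kernel) (by decide +kernel) (by decide +kernel) (by decide +kernel) p hp hodd h3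
    · exact spor _ 6 (by decide +kernel) (by decide +kernel) (by decide +kernel) (by decide +kernel) p hp hodd h3
    · exact spor _ 7 (by decide +kernel) (by decide +kernel) (by decide +kernel) (by decide +kernel) p hp hodd h3
    · exact spor _ 7 (by decide +kernel) (by decide +kernel) (by decide +kernel) (by decide +kernel) p hp hodd h3
    · exact spor _ 10 (by decide +kernel) (by decide +kernel) (by decide +kernel) (by decide +kernel) p hp hodd h3
    · exact spor _ 3 (by decide +kernel) (by decide +kernel) (by decide +kernel) (by decide +kernel) p hp hodd h3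
    · exact spor _ 7 (by decide +kernel) (by decide +kernel) (by decide +kernel) (by decide +kernel) p hp hodd h3
    · exact spor _ 7 (by decide +kernel) (by decide +kernel) (by decide +kernel) (by decide +kernel) p hp hodd h3
    · exact spor _ 21 (by decide +kernel) (by decide +kernel) (by decide +kernel) (by decide +kernel) p hp hodd h3
    · exact spor _ 21 (by decide +kernel) (by decide +kernel) (by decide +kernel) (by decide +kernel) p hp hodd h3
    · exact spor _ 18 (by decide +kernel) (by decide +kernel) (by decide +kernel) (by decide +kernel) p hp hodd h3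
    · exact spor _ 10 (by decide +kernel) (by decide +kernel) (by decide +kernel) (by decide +kernel) p hp hodd h3
    · exact spor _ 17 (by decide +kernel) (by decide +kernel) (by decide +kernel) (by decide +kernel) p hp hodd h3
    · exact spor _ 18 (by decide +kernel) (by decide +kernel) (by decide +kernel) (by decide +kernel) p hp hodd h3
    · exact spor _ 21 (by decide +kernel) (by decide +kernel) (by decide +kernel) (by decide +kernel) p hp hodd h3
    · exact spor _ 9 (by decide +kernel) (by decide +kernel) (by decide +kernel) (by decide +kernel) p hp hodd h3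
    · exact spor _ 7 (by decide +kernel) (by decide +kernel) (by decide +kernel) (by decide +kernel) p hp hodd h3
    · exact spor _ 10 (by decide +kernel) (by decide +kernel) (by decide +kernel) (by decide +kernel) p hp hodd h3
    · exact spor _ 14 (by decide +kernel) (by decide +kernel) (by decide +kernel) (by decide +kernel) p hp hodd h3
    · exact spor _ 13 (by decide +kernel) (by decide +kernel) (by decide +kernel) (by decide +kernel) p hp hodd h3
    · exact spor _ 9 (by decide +kernel) (by decide +kernel) (by decide +kernel) (by decide +kernel) p hp hodd h3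
    · exact spor _ 14 (by decide +kernel) (by decide +kernel) (by decide +kernel) (by decide +kernel) p hp hodd h3
    · exact spor _ 8 (by decide +kernel) (by decide +kernel) (by decide +kernel) (by decide +kernel) p hp hodd h3
    · exact spor _ 15 (by decide +kernel) (by decide +kernel) (by decide +kernel) (by decide +kernel) p hp hodd h3
    · exact spor _ 41 (by decide +kernel) (by decide +kernel) (by decide +kernel) (by decide +kernel) p hp hodd h3
    · exact spor _ 46 (by decide +kernel) (by decide +kernel) (by decide +kernel) (by decide +kernel) p hp hodd h3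

end Cfsg.Agent.S2367
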