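import Mathlib
import Cfsg.Statements.S2368


set_option autoImplicit false
open Cfsg

namespace Cfsg.Agent.S2368


open Matrix

theorem nil_pow_card {F : Type*} [Field F] {m : ℕ} {N : Matrix (Fin m) (Fin m) F}
    (h : IsNilpotent N) : N ^ m = 0 := by
  have h1 := IsNilpotent.charpoly_eq_X_pow_finrank (h.map Matrix.toLinAlgEquiv')
  have h2 := LinearMap.aeval_self_charpoly (Matrix.toLinAlgEquiv' N)
  rw [h1] at h2
  simp only [map_pow, Polynomial.aeval_X, Module.finrank_fintype_fun_eq_card, Fintype.card_fin] at h2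
  rw [← map_pow] at h2
  exact (map_eq_zero_iff _ Matrix.toLinAlgEquiv'.injective).mp h2

theorem pow_iff {F : Type*} [Field F] (p : ℕ) [Fact p.Prime] [CharP F p] {m : ℕ} (hm : 1 ≤ m)
    (g : Matrix.GeneralLinearGroup (Fin m) F) (j : ℕ) :
    g ^ p ^ j = 1 ↔ ((g : Matrix (Fin m) (Fin m) F) - 1) ^ p ^ j = 0 := by
  haveI : Nonempty (Fin m) := ⟨⟨0, hm⟩⟩
  rw [sub_pow_char_pow_of_commute p j (Commute.one_right _), one_pow, sub_eq_zero,
    ← Units.val_pow_eq_pow_val, Units.val_eq_one]

theorem shift_pow {F : Type*} [Field F] (m k : ℕ) :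
    (Matrix.of fun i j : Fin m => if (j : ℕ) = i + 1 then (1 : F) else 0) ^ k =
      Matrix.of fun i j : Fin m => if (j : ℕ) = i + k then (1 : F) else 0 := by
  induction k with
  | zero => ext i j; simp [Matrix.one_apply, Fin.ext_iff, eq_comm]
  | succ k ih =>
    ext i j
    rw [pow_succ, ih, Matrix.mul_apply]
    simp only [of_apply]
    by_cases h : (j : ℕ) = i + (k + 1)
    · rw [if_pos h, Finset.sum_eq_single (⟨i + k, by omega⟩ : Fin m)]
      · simp [h, add_assoc]
      · intro b _ hb
        rw [if_neg, zero_mul]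
        exact fun h' => hb (Fin.ext h')
      · simp
    · rw [if_neg h]
      refine Finset.sum_eq_zero fun b _ => ?_
      split_ifs with h1 h2
      · omega
      all_goals simp

/-- Let F be a finite field of characteristic p and m ≥ 1. Every element of GL(m, F) of p-power order has order less than p·m, and GL(m, F) has an element of p-power order at least m; so the largest order of a p-element of GL(m, F) is the least power of p that is at least m. -/
theorem result {F : Type*} [Field F] [Fintype F] (p : ℕ) [Fact p.Prime] [CharP F p] (m : ℕ) (hm : 1 ≤ m) :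
    (∀ g : Matrix.GeneralLinearGroup (Fin m) F, (∃ j : ℕ, orderOf g = p ^ j) → orderOf g < p * m) ∧
      ∃ g : Matrix.GeneralLinearGroup (Fin m) F, (∃ j : ℕ, orderOf g = p ^ j) ∧ m ≤ orderOf g := by
  have hp : p.Prime := Fact.out
  constructor
  · rintro g ⟨j, hj⟩
    by_contra hc
    have h1 : g ^ p ^ j = 1 := hj ▸ pow_orderOf_eq_one g
    have h2 := nil_pow_card ⟨_, (pow_iff p hm g j).mp h1⟩
    rw [hj] at hc
    cases j with
    | zero =>
      have := hp.two_le
      simp only [pow_zero, not_lt] at hc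
      nlinarith
    | succ j =>
      have h3 : m ≤ p ^ j := by
        rw [pow_succ, mul_comm, not_lt] at hc
        exact Nat.le_of_mul_le_mul_left hc hp.pos
      have h4 : g ^ p ^ j = 1 := (pow_iff p hm g j).mpr (pow_eq_zero_of_le h3 h2)
      have h5 := orderOf_dvd_of_pow_eq_one h4
      rw [hj, Nat.pow_dvd_pow_iff_le_right hp.one_lt] at h5
      omega
  · set N : Matrix (Fin m) (Fin m) F := Matrix.of fun i j : Fin m => if (j : ℕ) = i + 1 then (1 : F) else 0
    have hN : N ^ m = 0 := by
      rw [shift_pow]; ext i j; simp only [of_apply, Matrix.zero_apply]; rw [if_neg]; omega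
    have hN' : N ^ (m - 1) ≠ 0 := by
      rw [shift_pow]; intro h
      have := congrFun (congrFun h ⟨0, hm⟩) ⟨m - 1, by omega⟩
      simp at this
    have hu : IsUnit (1 + N) := IsNilpotent.isUnit_one_add ⟨m, hN⟩
    have hg : ((hu.unit : Matrix.GeneralLinearGroup (Fin m) F) : Matrix (Fin m) (Fin m) F) - 1 = N := by
      simp
    have h1 : hu.unit ^ p ^ m = 1 := by
      rw [pow_iff p hm, hg]
      exact pow_eq_zero_of_le (Nat.lt_pow_self hp.one_lt).le hN
    obtain ⟨j, -, hj⟩ := (Nat.dvd_prime_pow hp).mp (orderOf_dvd_of_pow_eq_one h1)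
    refine ⟨hu.unit, ⟨j, hj⟩, ?_⟩
    by_contra hc
    have h2 : hu.unit ^ p ^ j = 1 := hj ▸ pow_orderOf_eq_one _
    rw [pow_iff p hm, hg] at h2
    exact hN' (pow_eq_zero_of_le (by omega) h2)

end Cfsg.Agent.S2368
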