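import Cfsg.Statements.S2370
import Cfsg.Agent.Lib.Twist.F4
import Cfsg.Agent.Lib.Twist.Sylow

set_option autoImplicit false
open Cfsg

namespace Cfsg.Agent.S2370

open CfsgLib.Weyl in
theorem htF4 : ∀ r, (rootSys rtOKF4).ht r < 2 ^ 4 := by decide +kernel


/-- Let q = 2^(2m+1) with m ≥ 1. Every element of 2-power order of the large Ree group ²F₄(q) has order at most 32. -/
theorem result {K : Type*} [Field K] [Fintype K] (m : ℕ) (hm : 1 ≤ m) (hK : Fintype.card K = 2 ^ (2 * m + 1))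
    (x : ↥(Cfsg.Lie.twistedF4 K (2 ^ m))) (hx : ∃ j : ℕ, orderOf x = 2 ^ j) : orderOf x ≤ 32 := by
  obtain ⟨_, θ, he, hθ⟩ := CfsgLib.Twist.exists_theta hK
  obtain ⟨j, hj⟩ := hx
  have hM := CfsgLib.Twist.isTwF4 he hθ
  obtain ⟨g, hg⟩ := hM.exists_conj_mem_U' 2 (X := Subgroup.zpowers x)
    (IsPGroup.of_card (by rw [Nat.card_zpowers, hj]))
  have h1 := CfsgLib.Twist.pow_pow_eq_one _ 2 (k := 4) htF4 (hg x (Subgroup.mem_zpowers x))
  have h2 : (g⁻¹ * x * g) ^ 16 = 1 := Subtype.ext h1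
  have h3 : x ^ 16 = 1 := by
    have : x = g * (g⁻¹ * x * g) * g⁻¹ := by group
    rw [this, conj_pow, h2]; simp
  exact (Nat.le_of_dvd (by norm_num) (orderOf_dvd_of_pow_eq_one h3)).trans (by norm_num)

end Cfsg.Agent.S2370
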