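import Mathlib
import Cfsg.Statements.S2371
import Cfsg.Agent.Lib.Lang.Cyclic

set_option autoImplicit false
open Cfsg

namespace Cfsg.Agent.S2371

open CfsgLib.Chev CfsgLib.Weyl CfsgLib.RGD CfsgLib.Lang CfsgLib.ChevAut Cfsg.Lie Cfsg.Lie.ChevalleyDatum

/-- the action of the Weyl group element on the roots -/
def tW : ℕ := 0x5000307020a010904080b06

/-- the fundamental roots in the cyclic basis -/
def tP : List (List ℤ) := [[-1, -1], [1, 2]]

/-- regularity certificates -/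
def tB0 : List (List ℤ) := [
  [2, 1], [1, -1], [3, 0], [3, 3],
  [0, -3], [1, 2], [-1, -2], [0, 3],
  [-3, -3], [-3, 0], [-1, 1], [-2, -1]]

/-- regularity certificates -/
def tB : List (List ℤ) := tB0

theorem c0 : wordChk 2 12 tTG2 tW [1, 0, 1, 0] = true := by decide +kernel

theorem c1 : eigChk 2 tRG2 tSG2 tW 1 tP [1, 1, 1] = true := by decide +kernel

theorem c2 : cycChk 2 tRG2 tW 2 1 tP [1, 1, 1] = true := by decide +kernel

theorem c3 : regChk 2 12 tRG2 tW 2 2 [3] [] tB = true := by decide +kernel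

/-- The group G₂(q), q ≥ 3, contains a cyclic subgroup of order q² + q + 1 which is its own centralizer. -/
theorem result {F : Type*} [Field F] [Fintype F] (q : ℕ) (hF : Fintype.card F = q) (hq : 3 ≤ q) :
    ∃ H : Subgroup ↥(Cfsg.Lie.chevG2.group F), IsCyclic ↥H ∧ Nat.card ↥H = q ^ 2 + q + 1 ∧
      Subgroup.centralizer (H : Set ↥(Cfsg.Lie.chevG2.group F)) = H := by
  have hm : chevG2 ∈ [chevG2, chevB2, chevD4, chevF4, chevE6, chevE7, chevE8] := by simp
  have := good_of_mem hm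
  have h := rtOK_of_mem hm
  subst hF
  set q := Fintype.card F
  have hN : pv (([1, 1, 1] : List ℤ).getD · 0) (1 + 2) q = (q ^ 2 + q + 1 : ℕ) := by
    simp [pv, Finset.sum_range_succ]; ring
  have h2 := not_dvd_pv (p := 2) two_ne_zero (by decide) hN
  have h9 := not_dvd_pv (p := 9) (by decide) (by decide) hN
  obtain ⟨N', e1, e2, e3⟩ : ∃ N', N' ∣ q ^ 2 + q + 1 ∧ ¬ 3 ∣ N' ∧ N' ≠ 1 := by
    have : 3 ≤ q ^ 2 := hq.trans (Nat.le_self_pow two_ne_zero q)
    by_cases h3 : 3 ∣ q ^ 2 + q + 1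
    · obtain ⟨m, e⟩ := h3
      exact ⟨m, ⟨3, by omega⟩, by omega, by omega⟩
    · exact ⟨_, dvd_rfl, h3, by omega⟩
  exact selfcent_one hm h tablesOKG2 rfl hasChainG2 smithG2 (by decide) [1, 0, 1, 0] c0 ⟨2, by decide⟩ c1 c2 (b := 3) c3
    (by decide) _ N' hN (coprime_pv rfl hN) e1 (coprime_of_primes [2, 3] 2 (by
      simpa [Nat.prime_two, Nat.prime_three, -Nat.not_even_iff_odd, -Nat.two_dvd_ne_zero] using ⟨fun e => h2 (e.trans e1), e2⟩) (by decide)) e3

end Cfsg.Agent.S2371
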