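import Mathlib
import Cfsg.Statements.S2372
import Cfsg.Agent.Lib.Lang.Cyclic

set_option autoImplicit false
open Cfsg

namespace Cfsg.Agent.S2372

open CfsgLib.Chev CfsgLib.Weyl CfsgLib.RGD CfsgLib.Lang CfsgLib.ChevAut Cfsg.Lie Cfsg.Lie.ChevalleyDatum

/-- the action of the Weyl group element on the roots -/
def tW : ℕ := 0x2d2a292216150f2c2625211b1312082f2e2b2824231f181e1117100c0b07040100271d1c140e0a0903201a190d060502

/-- the fundamental roots in the cyclic basis -/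
def tP : List (List ℤ) := [[-1, 0, 0, -1], [1, -1, 0, 1], [-1, 2, -1, 0], [0, -1, 2, -1]]

/-- regularity certificates -/
def tB0 : List (List ℤ) := [
  [1, 0, 1, 0], [1, 1, 0, 0], [0, 1, 0, -1], [2, 0, 0, 0],
  [2, 1, 0, -1], [1, 0, 0, -1], [1, 0, -1, 0], [0, 2, 0, 0],
  [1, 1, 1, 1], [1, 1, 1, -1], [1, 1, -1, -1], [2, 2, 2, 0],
  [2, 0, -2, -2], [0, 0, 0, -2], [1, -1, -1, -1], [0, 1, 0, 1],
  [0, 1, 1, 0], [1, 2, 1, 0], [0, 0, 2, 0], [0, 2, 2, 2],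
  [2, 2, 0, -2], [0, 0, 1, 1], [-1, 0, 1, 2], [0, 1, 2, 1]]

/-- regularity certificates -/
def tB1 : List (List ℤ) := [
  [0, -1, -2, -1], [1, 0, -1, -2], [0, 0, -1, -1], [-2, -2, 0, 2],
  [0, -2, -2, -2], [0, 0, -2, 0], [-1, -2, -1, 0], [0, -1, -1, 0],
  [0, -1, 0, -1], [-1, 1, 1, 1], [0, 0, 0, 2], [-2, 0, 2, 2],
  [-2, -2, -2, 0], [-1, -1, 1, 1], [-1, -1, -1, 1], [-1, -1, -1, -1],
  [0, -2, 0, 0], [-1, 0, 1, 0], [-1, 0, 0, 1], [-2, -1, 0, 1],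
  [-2, 0, 0, 0], [0, -1, 0, 1], [-1, -1, 0, 0], [-1, 0, -1, 0]]

/-- regularity certificates -/
def tB : List (List ℤ) := tB0 ++ tB1

theorem c0 : wordChk 4 48 tTF4 tW [2, 1, 3, 2, 1, 0] = true := by decide +kernel

theorem c1 : eigChk 4 tRF4 tSF4 tW 3 tP [1, 0, 0, 0, 1] = true := by decide +kernel

theorem c2 : cycChk 4 tRF4 tW 3 3 tP [1, 0, 0, 0, 1] = true := by decide +kernel

theorem c3 : regChk 4 48 tRF4 tW 3 4 [2] [] tB = true := by decide +kernel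

/-- The group F₄(q) contains a cyclic subgroup of order q⁴ + 1 which is its own centralizer. -/
theorem result {F : Type*} [Field F] [Fintype F] (q : ℕ) (hF : Fintype.card F = q) :
    ∃ H : Subgroup ↥(Cfsg.Lie.chevF4.group F), IsCyclic ↥H ∧ Nat.card ↥H = q ^ 4 + 1 ∧
      Subgroup.centralizer (H : Set ↥(Cfsg.Lie.chevF4.group F)) = H := by
  have hm : chevF4 ∈ [chevG2, chevB2, chevD4, chevF4, chevE6, chevE7, chevE8] := by simp
  have := good_of_mem hm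
  have h := rtOK_of_mem hm
  subst hF
  set q := Fintype.card F
  have hN : pv (([1, 0, 0, 0, 1] : List ℤ).getD · 0) (3 + 2) q = (q ^ 4 + 1 : ℕ) := by
    simp [pv, Finset.sum_range_succ]; ring
  have h3 := not_dvd_pv (p := 3) (by decide) (by decide) hN
  have h4 := not_dvd_pv (p := 4) (by decide) (by decide) hN
  obtain ⟨N', e1, e2, e3⟩ : ∃ N', N' ∣ q ^ 4 + 1 ∧ ¬ 2 ∣ N' ∧ N' ≠ 1 := by
    have : 2 ≤ q ^ 4 := Fintype.one_lt_card.succ_le.trans (Nat.le_self_pow four_ne_zero q)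
    by_cases h2 : 2 ∣ q ^ 4 + 1
    · obtain ⟨m, e⟩ := h2
      exact ⟨m, ⟨2, by omega⟩, by omega, by omega⟩
    · exact ⟨_, dvd_rfl, h2, by omega⟩
  exact selfcent_one hm h tablesOKF4 rfl hasChainF4 smithF4 (by decide) [2, 1, 3, 2, 1, 0] c0 ⟨3, by decide⟩ c1 c2 (b := 2) c3
    (by decide) _ N' hN (coprime_pv rfl hN) e1 (coprime_of_primes [2, 3] 7 (by
      simpa [Nat.prime_two, Nat.prime_three, -Nat.not_even_iff_odd, -Nat.two_dvd_ne_zero] using ⟨e2, fun e => h3 (e.trans e1)⟩) (by decide)) e3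

end Cfsg.Agent.S2372
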