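import Mathlib
import Cfsg.Statements.S2373
import Cfsg.Agent.Lib.Lang.Cover

set_option autoImplicit false
open Cfsg

namespace Cfsg.Agent.S2373

open CfsgLib.Chev CfsgLib.Weyl CfsgLib.RGD CfsgLib.Lang CfsgLib.ChevAut CfsgLib.Stein Cfsg.Lie Cfsg.Lie.ChevalleyDatum

/-- the action of the Weyl group element on the roots -/
def tW : ℕ := 0x45473337344346442c2a2d3532360f2b3e423f2520263b393c18302e310d403d41231e281f2924060a073a1619172f0b0e0c2127220805091c381115121a1d1b0301041310140002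

/-- the fundamental roots in the cyclic basis -/
def tP : List (List ℤ) := [[-1, 0, 0, 1, 0, -1], [0, 1, -1, 0, -1, 1], [0, 0, 0, -1, 0, 0], [1, 0, 0, 0, 1, 1], [0, -1, 0, 0, 0, -1], [-2, 0, 1, 1, -1, -1]]

/-- regularity certificates -/
def tB0 : List (List ℤ) := [
  [1, 2, 1, 0, -1, 0], [0, 1, 2, 1, 0, -1], [1, 1, 1, -1, -1, -1], [2, 2, 2, 0, 0, 0],
  [0, 2, 2, 0, -2, -2], [2, 2, 2, 0, 0, 0], [1, 1, 1, 1, 1, 1], [0, 2, 2, 2, 0, 0],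
  [2, 3, 2, -1, -2, -1], [2, 2, 0, -2, -2, 0], [2, 4, 4, 2, 0, 0], [1, 2, 3, 2, 1, 0],
  [2, 4, 4, 0, -2, -2], [0, 0, 2, 2, 2, 0], [2, 2, 0, -4, -4, -2], [0, 0, 2, 4, 4, 2],
  [0, 2, 2, 0, -2, -2], [0, 2, 2, 2, 0, 0], [1, 3, 3, 1, -1, -1], [2, 2, 0, -2, -2, 0],
  [0, 1, 0, -1, -2, -1], [2, 4, 2, -2, -4, -2], [2, 4, 4, 2, 0, 0], [2, 4, 2, -2, -4, -2]]

/-- regularity certificates -/
def tB1 : List (List ℤ) := [
  [0, 1, 2, 3, 2, 1], [1, 1, -1, -3, -3, -1], [2, 4, 4, 0, -2, -2], [1, 2, 1, -2, -3, -2],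
  [0, 2, 4, 4, 2, 0], [0, 0, 0, -2, -2, -2], [0, 0, 2, 2, 2, 0], [0, 2, 4, 4, 2, 0],
  [-1, 0, 1, 2, 1, 0], [2, 2, 0, -4, -4, -2], [0, 0, 0, -2, -2, -2], [0, 0, 2, 4, 4, 2],
  [0, 0, -2, -4, -4, -2], [0, 0, 0, 2, 2, 2], [-2, -2, 0, 4, 4, 2], [1, 0, -1, -2, -1, 0],
  [0, -2, -4, -4, -2, 0], [0, 0, -2, -2, -2, 0], [0, 0, 0, 2, 2, 2], [0, -2, -4, -4, -2, 0],
  [-1, -2, -1, 2, 3, 2], [-2, -4, -4, 0, 2, 2], [-1, -1, 1, 3, 3, 1], [0, -1, -2, -3, -2, -1]]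

/-- regularity certificates -/
def tB2 : List (List ℤ) := [
  [-2, -4, -2, 2, 4, 2], [-2, -4, -4, -2, 0, 0], [-2, -4, -2, 2, 4, 2], [0, -1, 0, 1, 2, 1],
  [-2, -2, 0, 2, 2, 0], [-1, -3, -3, -1, 1, 1], [0, -2, -2, -2, 0, 0], [0, -2, -2, 0, 2, 2],
  [0, 0, -2, -4, -4, -2], [-2, -2, 0, 4, 4, 2], [0, 0, -2, -2, -2, 0], [-2, -4, -4, 0, 2, 2],
  [-1, -2, -3, -2, -1, 0], [-2, -4, -4, -2, 0, 0], [-2, -2, 0, 2, 2, 0], [-2, -3, -2, 1, 2, 1],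
  [0, -2, -2, -2, 0, 0], [-1, -1, -1, -1, -1, -1], [-2, -2, -2, 0, 0, 0], [0, -2, -2, 0, 2, 2],
  [-2, -2, -2, 0, 0, 0], [-1, -1, -1, 1, 1, 1], [0, -1, -2, -1, 0, 1], [-1, -2, -1, 0, 1, 0]]

/-- regularity certificates -/
def tB : List (List ℤ) := tB0 ++ tB1 ++ tB2

/-- the cocharacter in the coroot basis -/
def tU : List (List ℤ) := [[-2, -1, -1, 1, 1, -1], [0, 0, -3, 0, 0, 3], [-1, -2, -2, -1, 2, 1], [0, -3, -3, 0, 3, 3], [-2, -4, -1, 1, 1, -1], [-4, -2, 1, 2, -1, -2]]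

/-- the adjugate of the Cartan matrix -/
def tM : List (List ℤ) := [[4, 3, 5, 6, 4, 2], [3, 6, 6, 9, 6, 3], [5, 6, 10, 12, 8, 4], [6, 9, 12, 18, 12, 6], [4, 6, 8, 12, 10, 5], [2, 3, 4, 6, 5, 4]]

theorem c0 : wordChk 6 72 tTE6 tW [5, 0, 3, 2, 1, 4] = true := by decide +kernel

theorem c1 : eigChk 6 tRE6 tSE6 tW 5 tP [1, 1, 0, -1, 0, 1, 1] = true := by decide +kernel

theorem c2 : cycChk 6 tRE6 tW 3 5 tP [1, 1, 0, -1, 0, 1, 1] = true := by decide +kernel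

theorem c3 : regChk 6 72 tRE6 tW 3 6 [2, 2, 2] [] tB = true := by decide +kernel

theorem c4 : covChk chevE6 chevE7 sub67 tW 63 3 5 (-4) tP tU [1, 1, 0, -1, 0, 1, 1] = true := by decide +kernel

/-- The group E₆(q) (the simple Chevalley group of type E₆) contains a cyclic subgroup of order (q⁴ − q² + 1)(q² + q + 1)/gcd(3, q − 1) which is its own centralizer. -/
theorem result {F : Type*} [Field F] [Fintype F] (q : ℕ) (hF : Fintype.card F = q) :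
    ∃ H : Subgroup ↥(Cfsg.Lie.chevE6.group F), IsCyclic ↥H ∧ Nat.card ↥H = (q ^ 4 - q ^ 2 + 1) * (q ^ 2 + q + 1) / Nat.gcd 3 (q - 1) ∧
      Subgroup.centralizer (H : Set ↥(Cfsg.Lie.chevE6.group F)) = H := by
  have hm : chevE6 ∈ [chevG2, chevB2, chevD4, chevF4, chevE6, chevE7, chevE8] := by simp
  have := good_of_mem hm
  have := good_of_mem (D := chevE7) (by simp)
  subst hF
  set q := Fintype.card F
  have hq : 2 ≤ q := Fintype.one_lt_card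
  have a1 : q ^ 2 * 4 ≤ q ^ 4 := by
    rw [show 4 = 2 + 2 from rfl, pow_add]; exact Nat.mul_le_mul_left _ (Nat.pow_le_pow_left hq 2)
  have a2 : 4 ≤ q ^ 2 := Nat.pow_le_pow_left hq 2
  have hN' : pv (([1, 0, -1, 0, 1] : List ℤ).getD · 0) 5 q = (q ^ 4 - q ^ 2 + 1 : ℕ) := by
    rw [Nat.cast_add, Nat.cast_sub (by omega)]
    simp [pv, Finset.sum_range_succ]; ring
  have a3 : ∀ p ∈ [2, 3, 5, 7], p.Prime ∧ ¬ p ∣ q ^ 4 - q ^ 2 + 1 := fun p hp => by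
    simp only [List.mem_cons, List.not_mem_nil, or_false] at hp
    rcases hp with rfl | rfl | rfl | rfl <;> exact ⟨by norm_num, not_dvd_pv (by decide) (by decide) hN'⟩
  have hN : pv (([1, 1, 0, -1, 0, 1, 1] : List ℤ).getD · 0) (5 + 2) q = ((q ^ 4 - q ^ 2 + 1) * (q ^ 2 + q + 1) : ℕ) := by
    rw [Nat.cast_mul, ← hN']
    simp [pv, Finset.sum_range_succ]; ring
  refine selfcent_cover hm rtOKE6 rtOKE7 matchE6 matchE7 mapOK67 neg67 Nat.prime_three (g2 tM) (by decide +kernel)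
    tablesOKE6 rfl hasChainE6 smithE6 (by decide) [5, 0, 3, 2, 1, 4] c0 ⟨3, by decide⟩ c1 c2 c3 (by decide) (by norm_num) c4 _ _ hN
    (coprime_pv rfl hN) (dvd_mul_right _ _) (coprime_of_primes _ 1 a3 (by decide)) (coprime_of_primes _ 7 a3 (by decide))
    (fun e => ?_) (fun _ h => absurd h List.not_mem_nil) fun ⟨m, e⟩ => Dvd.dvd.mul_left ⟨3 * m ^ 2 + 3 * m + 1, ?_⟩ _
  · have e1 : pv (([2, 2, 2] : List ℤ).getD · 0) 6 q = 2 * (q ^ 2 + q + 1) := by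
      simp [pv, Finset.sum_range_succ]; ring
    have e2 : ((q ^ 4 - q ^ 2 + 1 : ℕ) : ℤ) ∣ 4 := by
      have : (4 : ℤ) = -2 * q * (q ^ 4 - q ^ 2 + 1 : ℕ) + (2 - q - q ^ 2 + q ^ 3) * pv (([2, 2, 2] : List ℤ).getD · 0) 6 q := by
        rw [e1, ← hN']; simp [pv, Finset.sum_range_succ]; ring
      rw [this]; exact (dvd_mul_left _ _).add (e.mul_left _)
    have := Int.le_of_dvd four_pos e2
    omega
  · rw [show q = 3 * m + 1 by omega]; ring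

end Cfsg.Agent.S2373
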