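import Mathlib
import Cfsg.Statements.S2374
import Cfsg.Agent.Lib.Lang.Cover

set_option autoImplicit false
open Cfsg

namespace Cfsg.Agent.S2374

open CfsgLib.Chev CfsgLib.Weyl CfsgLib.RGD CfsgLib.Lang CfsgLib.ChevAut CfsgLib.Stein Cfsg.Lie Cfsg.Lie.ChevalleyDatum

/-- the action of the Weyl group element on the roots -/
def tW : ℕ := 0x7c727d70717a766e6f797549554c564d5c6d777378747b544b5a5b534a585920575e656166626c382e434464606a6b42372d404116635f6869352b3e362c4e2f51473f524814151e1a673c3d50463b12131d19393a4f45111b171c181f265d2425332a222332290209050a061021302731283408040e0f07030c0d000b01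

/-- the fundamental roots in the cyclic basis -/
def tP : List (List ℤ) := [[-1, 1, 1, -2, 1, 1, -1], [0, 0, -1, 0, 1, 0, -1], [0, -1, 0, 0, -1, 0, 0], [0, 0, 1, 1, -1, 0, 1], [1, 0, -1, 0, 1, 0, 0], [-1, 1, 0, -1, 0, 0, 0], [0, -1, 0, 1, 0, -1, 0]]

/-- regularity certificates -/
def tB0 : List (List ℤ) := [
  [0, 1, 1, -1, 1, 1, -1], [1, 1, -1, 1, 1, -1, 0], [1, 0, 0, 2, 0, 0, 1], [2, 0, 0, 2, 0, 0, 0],
  [2, 0, 0, 2, 0, 0, 0], [0, 2, 0, 0, 2, 0, 0], [0, 2, 0, 0, 2, 0, 0], [2, 0, 0, 2, 0, 0, 0],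
  [2, 0, 0, 2, 0, 0, 0], [0, 2, 0, 0, 2, 0, 0], [0, 2, 0, 0, 2, 0, 0], [1, 0, 0, 0, 0, 0, -1],
  [0, 2, 0, -2, 2, 0, -2], [0, 2, 0, -2, 2, 0, -2], [0, 2, 0, -2, 2, 0, -2], [0, 2, 0, -2, 2, 0, -2],
  [1, 2, 0, 0, 2, 0, -1], [1, 1, 1, 1, 1, 1, 0], [0, 0, 2, 0, 0, 2, 0], [0, 0, 2, 0, 0, 2, 0],
  [0, 0, 2, 0, 0, 2, 0], [0, 0, 2, 0, 0, 2, 0], [-1, 1, 1, -1, 1, 1, 0], [2, 2, 0, 0, 2, 0, -2]]

/-- regularity certificates -/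
def tB1 : List (List ℤ) := [
  [2, 2, 0, 0, 2, 0, -2], [0, 2, 2, 0, 2, 2, 0], [0, 2, 2, 0, 2, 2, 0], [2, 2, 0, 0, 2, 0, -2],
  [2, 2, 0, 0, 2, 0, -2], [0, 2, 2, 0, 2, 2, 0], [0, 2, 2, 0, 2, 2, 0], [1, 1, -1, -1, 1, -1, -2],
  [-1, 0, 2, 0, 0, 2, 1], [2, 1, -1, 1, 1, -1, -1], [2, 2, 0, 2, 2, 0, 0], [2, 2, 0, 2, 2, 0, 0],
  [2, 2, 0, 2, 2, 0, 0], [2, 2, 0, 2, 2, 0, 0], [0, 1, 1, 1, 1, 1, 1], [2, 0, -2, 2, 0, -2, 0],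
  [2, 0, -2, 2, 0, -2, 0], [2, 2, -2, 0, 2, -2, -2], [2, 2, -2, 0, 2, -2, -2], [0, 0, 2, 2, 0, 2, 2],
  [0, 0, 2, 2, 0, 2, 2], [0, 0, 0, 2, 0, 0, 2], [0, 0, 0, 2, 0, 0, 2], []]

/-- regularity certificates -/
def tB2 : List (List ℤ) := [
  [2, 0, -2, 2, 0, -2, 0], [2, 0, -2, 2, 0, -2, 0], [2, 2, -2, 0, 2, -2, -2], [2, 2, -2, 0, 2, -2, -2],
  [0, 1, -1, -1, 1, -1, -1], [0, 0, 2, 2, 0, 2, 2], [0, 0, 2, 2, 0, 2, 2], [0, 0, 0, 2, 0, 0, 2],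
  [0, 0, 0, 2, 0, 0, 2], [2, 0, -2, 0, 0, -2, -2], [2, 0, -2, 0, 0, -2, -2], [],
  [2, 0, -2, 0, 0, -2, -2], [2, 0, -2, 0, 0, -2, -2], [], [],
  [-2, 0, 2, 0, 0, 2, 2], [-2, 0, 2, 0, 0, 2, 2], [], [-2, 0, 2, 0, 0, 2, 2],
  [-2, 0, 2, 0, 0, 2, 2], [0, 0, 0, -2, 0, 0, -2], [0, 0, 0, -2, 0, 0, -2], [0, 0, -2, -2, 0, -2, -2]]

/-- regularity certificates -/
def tB3 : List (List ℤ) := [
  [0, 0, -2, -2, 0, -2, -2], [0, -1, 1, 1, -1, 1, 1], [-2, -2, 2, 0, -2, 2, 2], [-2, -2, 2, 0, -2, 2, 2],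
  [-2, 0, 2, -2, 0, 2, 0], [-2, 0, 2, -2, 0, 2, 0], [], [0, 0, 0, -2, 0, 0, -2],
  [0, 0, 0, -2, 0, 0, -2], [0, 0, -2, -2, 0, -2, -2], [0, 0, -2, -2, 0, -2, -2], [-2, -2, 2, 0, -2, 2, 2],
  [-2, -2, 2, 0, -2, 2, 2], [-2, 0, 2, -2, 0, 2, 0], [-2, 0, 2, -2, 0, 2, 0], [0, -1, -1, -1, -1, -1, -1],
  [-2, -2, 0, -2, -2, 0, 0], [-2, -2, 0, -2, -2, 0, 0], [-2, -2, 0, -2, -2, 0, 0], [-2, -2, 0, -2, -2, 0, 0],
  [-2, -1, 1, -1, -1, 1, 1], [1, 0, -2, 0, 0, -2, -1], [-1, -1, 1, 1, -1, 1, 2], [0, -2, -2, 0, -2, -2, 0]]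

/-- regularity certificates -/
def tB4 : List (List ℤ) := [
  [0, -2, -2, 0, -2, -2, 0], [-2, -2, 0, 0, -2, 0, 2], [-2, -2, 0, 0, -2, 0, 2], [0, -2, -2, 0, -2, -2, 0],
  [0, -2, -2, 0, -2, -2, 0], [-2, -2, 0, 0, -2, 0, 2], [-2, -2, 0, 0, -2, 0, 2], [1, -1, -1, 1, -1, -1, 0],
  [0, 0, -2, 0, 0, -2, 0], [0, 0, -2, 0, 0, -2, 0], [0, 0, -2, 0, 0, -2, 0], [0, 0, -2, 0, 0, -2, 0],
  [-1, -1, -1, -1, -1, -1, 0], [-1, -2, 0, 0, -2, 0, 1], [0, -2, 0, 2, -2, 0, 2], [0, -2, 0, 2, -2, 0, 2],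
  [0, -2, 0, 2, -2, 0, 2], [0, -2, 0, 2, -2, 0, 2], [-1, 0, 0, 0, 0, 0, 1], [0, -2, 0, 0, -2, 0, 0],
  [0, -2, 0, 0, -2, 0, 0], [-2, 0, 0, -2, 0, 0, 0], [-2, 0, 0, -2, 0, 0, 0], [0, -2, 0, 0, -2, 0, 0]]

/-- regularity certificates -/
def tB5 : List (List ℤ) := [
  [0, -2, 0, 0, -2, 0, 0], [-2, 0, 0, -2, 0, 0, 0], [-2, 0, 0, -2, 0, 0, 0], [-1, 0, 0, -2, 0, 0, -1],
  [-1, -1, 1, -1, -1, 1, 0], [0, -1, -1, 1, -1, -1, 1]]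

/-- regularity certificates -/
def tB : List (List ℤ) := tB0 ++ tB1 ++ tB2 ++ tB3 ++ tB4 ++ tB5

/-- the cocharacter in the coroot basis -/
def tU : List (List ℤ) := [[-2, 0, 2, -2, 0, 2, 0], [-1, -1, 0, 1, 0, 1, 1], [-2, -2, 2, 0, -2, 2, 2], [-2, -2, 2, 2, -2, 2, 4], [-1, -1, 0, 1, 0, 1, 3], [-2, 0, 0, 0, 0, 0, 2], [-1, -1, 0, 1, 0, -1, 1]]

/-- the adjugate of the Cartan matrix -/
def tM : List (List ℤ) := [[4, 4, 6, 8, 6, 4, 2], [4, 7, 8, 12, 9, 6, 3], [6, 8, 12, 16, 12, 8, 4], [8, 12, 16, 24, 18, 12, 6], [6, 9, 12, 18, 15, 10, 5], [4, 6, 8, 12, 10, 8, 4], [2, 3, 4, 6, 5, 4, 3]]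

theorem c0 : wordChk 7 126 tTE7 tW [3, 1, 4, 3, 5, 0, 6, 5, 2, 4, 5] = true := by decide +kernel

theorem c1 : eigChk 7 tRE7 tSE7 tW 6 tP [1, 0, -1, 1, 1, -1, 0, 1] = true := by decide +kernel

theorem c2 : cycChk 7 tRE7 tW 4 6 tP [1, 0, -1, 1, 1, -1, 0, 1] = true := by decide +kernel

theorem c3 : regChk 7 126 tRE7 tW 4 7 [2, 0, 0, 2] [47, 59, 62, 63, 66, 78] tB = true := by decide +kernel

theorem c4 : covChk chevE7 chevE8 sub78 tW 120 2 6 (-1) tP tU [1, 0, -1, 1, 1, -1, 0, 1] = true := by decide +kernel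

/-- the values of the cocharacter on the exceptional roots -/
def val (q : ℤ) (β : ℕ) : ℤ :=
  if β = 47 then q ^ 2 else if β = 59 then -1 else if β = 62 then q else if β = 63 then -q else if β = 66 then 1 else -q ^ 2

theorem c5 : ∀ p ∈ ([(47, [0, 0, 1, 0, -1, 0, 1]), (59, [-1, 0, 1, 0, -1, 0, 0]), (62, [0, 1, 0, -1, 0, 1, 0]),
    (63, [0, -1, 0, 1, 0, -1, 0]), (66, [1, 0, -1, 0, 1, 0, 0]), (78, [0, 0, -1, 0, 1, 0, -1])] : List (ℕ × List ℤ)),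
    ∀ e < 7, (sumLt 7 fun k => coT tRE7 p.1 k * g2 tP k e) = p.2.getD e 0 := by decide +kernel

theorem pv_eq (q : ℤ) : ∀ β ∈ [47, 59, 62, 63, 66, 78], pv (fun e => sumLt 7 fun k => coT tRE7 β k * g2 tP k e) 7 q =
    (q ^ 4 - q ^ 2 + 1) * val q β := by
  have := c5
  simp only [List.forall_mem_cons] at this ⊢
  obtain ⟨h1, h2, h3, h4, h5, h6, -⟩ := this
  rw [pv_congr h1, pv_congr h2, pv_congr h3, pv_congr h4, pv_congr h5, pv_congr h6]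
  simp [pv, Finset.sum_range_succ, val]
  refine ⟨?_, ?_, ?_, ?_, ?_, ?_⟩ <;> ring

theorem not_dvd {q : ℕ} (hq : 2 ≤ q) : ∀ β ∈ [47, 59, 62, 63, 66, 78], ∀ β' ∈ [47, 59, 62, 63, 66, 78], β ≠ β' →
    ¬ (q ^ 3 + 1 : ℤ) ∣ Nat.gcd 2 (q - 1) * (val q β - val q β') := by
  obtain rfl | rfl | h4 : q = 2 ∨ q = 3 ∨ 4 ≤ q := by omega
  · decide
  · decide
  intro β h β' h' e e'
  have a1 : (4 : ℤ) ≤ q := by exact_mod_cast h4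
  have a2 : (q : ℤ) * 4 ≤ q ^ 2 := by nlinarith
  have a3 : (q : ℤ) ^ 2 * 4 ≤ q ^ 3 := by nlinarith
  have := Int.eq_zero_of_abs_lt_dvd e'
  simp only [List.mem_cons, List.not_mem_nil, or_false] at h h'
  rcases (Nat.dvd_prime Nat.prime_two).1 (Nat.gcd_dvd_left 2 (q - 1)) with e1 | e1 <;> rw [e1, abs_lt] at this <;>
    rcases h with rfl | rfl | rfl | rfl | rfl | rfl <;> rcases h' with rfl | rfl | rfl | rfl | rfl | rfl <;>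
      simp only [val, Nat.reduceEqDiff, if_true, if_false, ne_eq, not_true] at this e <;> omega

/-- The group E₇(q) (the simple Chevalley group of type E₇) contains a cyclic subgroup of order (q⁴ − q² + 1)(q³ + 1)/gcd(2, q − 1) which is its own centralizer. -/
theorem result {F : Type*} [Field F] [Fintype F] (q : ℕ) (hF : Fintype.card F = q) :
    ∃ H : Subgroup ↥(Cfsg.Lie.chevE7.group F), IsCyclic ↥H ∧ Nat.card ↥H = (q ^ 4 - q ^ 2 + 1) * (q ^ 3 + 1) / Nat.gcd 2 (q - 1) ∧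
      Subgroup.centralizer (H : Set ↥(Cfsg.Lie.chevE7.group F)) = H := by
  have hm : chevE7 ∈ [chevG2, chevB2, chevD4, chevF4, chevE6, chevE7, chevE8] := by simp
  have := good_of_mem hm
  have := good_of_mem (D := chevE8) (by simp)
  subst hF
  set q := Fintype.card F
  have hq : 2 ≤ q := Fintype.one_lt_card
  have a1 : q ^ 2 * 4 ≤ q ^ 4 := by
    rw [show 4 = 2 + 2 from rfl, pow_add]; exact Nat.mul_le_mul_left _ (Nat.pow_le_pow_left hq 2)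
  have a2 : 4 ≤ q ^ 2 := Nat.pow_le_pow_left hq 2
  have hN' : pv (([1, 0, -1, 0, 1] : List ℤ).getD · 0) 5 q = (q ^ 4 - q ^ 2 + 1 : ℕ) := by
    rw [Nat.cast_add, Nat.cast_sub (by omega)]
    simp [pv, Finset.sum_range_succ]; ring
  have a3 : ∀ p ∈ [2, 3, 5, 7], p.Prime ∧ ¬ p ∣ q ^ 4 - q ^ 2 + 1 := fun p hp => by
    simp only [List.mem_cons, List.not_mem_nil, or_false] at hp
    rcases hp with rfl | rfl | rfl | rfl <;> exact ⟨by norm_num, not_dvd_pv (by decide) (by decide) hN'⟩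
  have hN : pv (([1, 0, -1, 1, 1, -1, 0, 1] : List ℤ).getD · 0) (6 + 2) q = ((q ^ 4 - q ^ 2 + 1) * (q ^ 3 + 1) : ℕ) := by
    rw [Nat.cast_mul, ← hN']
    simp [pv, Finset.sum_range_succ]; ring
  have e1 : ((q ^ 4 - q ^ 2 + 1 : ℕ) : ℤ) = q ^ 4 - q ^ 2 + 1 := by rw [Nat.cast_add, Nat.cast_sub (by omega)]; simp
  refine selfcent_cover hm rtOKE7 rtOKE8 matchE7 matchE8 mapOK78 neg78 Nat.prime_two (g2 tM) (by decide +kernel)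
    tablesOKE7 rfl hasChainE7 smithE7 (by decide) [3, 1, 4, 3, 5, 0, 6, 5, 2, 4, 5] c0 ⟨4, by decide⟩ c1 c2 c3 (by decide) (by norm_num) c4 _ _ hN
    (coprime_pv rfl hN) (dvd_mul_right _ _) (coprime_of_primes _ 1 a3 (by decide)) (coprime_of_primes _ 10 a3 (by decide))
    (fun e => ?_) (fun β a β' a' e e' => not_dvd hq β a β' a' e ?_)
    fun ⟨m, e⟩ => Dvd.dvd.mul_left ⟨4 * m ^ 3 + 6 * m ^ 2 + 3 * m + 1, ?_⟩ _
  · have e2 : ((q ^ 4 - q ^ 2 + 1 : ℕ) : ℤ) ∣ 4 := by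
      have : (4 : ℤ) = 2 * (1 + q ^ 2) * (q ^ 4 - q ^ 2 + 1 : ℕ) + (1 - q ^ 3) * pv (([2, 0, 0, 2] : List ℤ).getD · 0) 7 q := by
        rw [e1]; simp [pv, Finset.sum_range_succ]; ring
      rw [this]; exact (dvd_mul_left _ _).add (e.mul_left _)
    have := Int.le_of_dvd four_pos e2
    omega
  · erw [pv_eq _ β a, pv_eq _ β' a'] at e'
    rw [← mul_sub, mul_left_comm, Nat.cast_mul, ← e1, mul_dvd_mul_iff_left (by omega)] at e'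
    exact_mod_cast e'
  · rw [show q = 2 * m + 1 by omega]; ring

end Cfsg.Agent.S2374
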