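import Cfsg.Statements.S2376
import Cfsg.Agent.Lib.Fold.TwTor

set_option autoImplicit false
open Cfsg

namespace Cfsg.Agent.S2376

open CfsgLib.Fold CfsgLib.RGD CfsgLib.Twist CfsgLib.Weyl CfsgLib.St Cfsg.Lie

theorem eq_zero {q a b c d : ℤ} (hq : 3 ≤ q) (h : |a| ≤ 2 ∧ |b| ≤ 2 ∧ |c| ≤ 2 ∧ |d| ≤ 2)
    (e : (q ^ 3 - 1) * (q + 1) ∣ a * q ^ 3 + b * q ^ 2 + c * q + d) : a = 0 ∧ b = 0 ∧ c = 0 ∧ d = 0 := by
  simp only [abs_le] at h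
  have h1 : 0 ≤ q ^ 2 * (q - 3) ∧ 0 ≤ q ^ 3 * (q - 3) ∧ 0 ≤ q * (q - 3) := by
    refine ⟨?_, ?_, ?_⟩ <;> apply mul_nonneg <;> positivity
  have h0 : ∀ {x : ℤ} (k : ℕ), -2 ≤ x ∧ x ≤ 2 → -2 * q ^ k ≤ x * q ^ k ∧ x * q ^ k ≤ 2 * q ^ k := fun k h =>
    ⟨mul_le_mul_of_nonneg_right h.1 (by positivity), mul_le_mul_of_nonneg_right h.2 (by positivity)⟩
  have h2 := Int.eq_zero_of_abs_lt_dvd e (abs_lt.2 ⟨by linarith [h0 3 h.1, h0 2 h.2.1, h0 1 h.2.2.1], by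
    linarith [h0 3 h.1, h0 2 h.2.1, h0 1 h.2.2.1]⟩)
  have key : ∀ {x y : ℤ}, x * q + y = 0 → -2 ≤ y ∧ y ≤ 2 → x = 0 ∧ y = 0 := fun {x y} e h => by
    obtain rfl := Int.eq_zero_of_abs_lt_dvd (⟨-x, by linarith⟩ : q ∣ y) (abs_lt.2 ⟨by linarith, by linarith⟩)
    exact ⟨(mul_eq_zero.1 (by linarith : x * q = 0)).resolve_right (by linarith), rfl⟩
  obtain ⟨h3, h4⟩ := key (x := (a * q + b) * q + c) (by linarith) h.2.2.2
  obtain ⟨h5, h6⟩ := key h3 h.2.2.1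
  exact ⟨(key h5 h.2.1).1, (key h5 h.2.1).2, h6, h4⟩

theorem chr_eq {M : Type*} [CommGroup M] (c : Fin chevD4.rank → M) (r : Fin chevD4.nroots) :
    (rootSys rtOKD4).chr c r = c (ndD4 0) ^ rt chevD4 r 0 * c (ndD4 1) ^ rt chevD4 r 1 * c (ndD4 2) ^ rt chevD4 r 2 *
      c (ndD4 3) ^ rt chevD4 r 3 := Fin.prod_univ_four _

theorem ip_eq (y : Fin chevD4.rank → ℤ) (r : Fin chevD4.nroots) :
    (rootSys rtOKD4).ip y r = rt chevD4 r 0 * y (ndD4 0) + rt chevD4 r 1 * y (ndD4 1) + rt chevD4 r 2 * y (ndD4 2) +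
      rt chevD4 r 3 * y (ndD4 3) := Fin.sum_univ_four _

theorem inj {q : ℤ} (hq : 2 ≤ q) : (∀ r, ¬ (q ^ 3 - 1) * (q + 1) ∣
    (rootSys rtOKD4).ip (vecD4 ![1, q ^ 3 - 1, q - q ^ 3 + 1, q ^ 2]) r) ∧ ∀ r ∈ [rtD4 18, rtD4 13, rtD4 12, rtD4 19],
      ∀ s, (q ^ 3 - 1) * (q + 1) ∣ (rootSys rtOKD4).ip (vecD4 ![1, q ^ 3 - 1, q - q ^ 3 + 1, q ^ 2]) s -
        (rootSys rtOKD4).ip (vecD4 ![1, q ^ 3 - 1, q - q ^ 3 + 1, q ^ 2]) r → s = r := by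
  rcases hq.eq_or_lt with rfl | hq
  · decide +kernel
  have h1 : ∀ r : Fin chevD4.nroots, |rt chevD4 r 1 - rt chevD4 r 2| ≤ 1 ∧ |rt chevD4 r 3| ≤ 1 ∧ |rt chevD4 r 2| ≤ 1 ∧
    |rt chevD4 r 0 - rt chevD4 r 1 + rt chevD4 r 2| ≤ 1 := by decide +kernel
  have key : ∀ r s, (q ^ 3 - 1) * (q + 1) ∣ (rootSys rtOKD4).ip (vecD4 ![1, q ^ 3 - 1, q - q ^ 3 + 1, q ^ 2]) s -
      (rootSys rtOKD4).ip (vecD4 ![1, q ^ 3 - 1, q - q ^ 3 + 1, q ^ 2]) r → s = r := fun r s e => by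
    have := h1 r
    have := h1 s
    have := eq_zero (a := rt chevD4 s 1 - rt chevD4 s 2 - (rt chevD4 r 1 - rt chevD4 r 2))
      (b := rt chevD4 s 3 - rt chevD4 r 3) (c := rt chevD4 s 2 - rt chevD4 r 2)
      (d := rt chevD4 s 0 - rt chevD4 s 1 + rt chevD4 s 2 - (rt chevD4 r 0 - rt chevD4 r 1 + rt chevD4 r 2)) hq
      (by simp only [abs_le] at *; omega) (by convert e using 1; simp [ip_eq, vecD4_nd]; ring)
    exact (rootSys rtOKD4).rt_inj _ _ (funext (forall_ndD4.2 (by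
      change rt _ _ 0 = rt _ _ 0 ∧ rt _ _ 1 = rt _ _ 1 ∧ rt _ _ 2 = rt _ _ 2 ∧ rt _ _ 3 = rt _ _ 3; omega)))
  exact ⟨fun r e => (rootSys rtOKD4).neg_ne r (key _ _ (by
    rw [RootSys.ip_neg]; exact (dvd_neg.2 e).sub e)), fun r _ => key r⟩

/-- The group ³D₄(q) contains a cyclic subgroup of order (q³ − 1)(q + 1) which is its own centralizer. -/
theorem result {K : Type*} [Field K] [Fintype K] (q : ℕ) (hq : IsPrimePow q) (hK : Fintype.card K = q ^ 3) :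
    ∃ H : Subgroup ↥(Cfsg.Lie.twistedD4 K q), IsCyclic ↥H ∧ Nat.card ↥H = (q ^ 3 - 1) * (q + 1) ∧
      Subgroup.centralizer (H : Set ↥(Cfsg.Lie.twistedD4 K q)) = H := by
  obtain ⟨θ, φ, E, h1, h2, h3, h4, h5⟩ := exists_model_D4 (algebraMap K (AlgebraicClosure K)) hq hK
  have hq2 := hq.two_le
  have h6 : 1 ≤ q ^ 3 := Nat.one_le_pow _ _ (by omega)
  have hN : (((q ^ 3 - 1) * (q + 1) : ℕ) : ℤ) = (q ^ 3 - 1) * (q + 1) := by push_cast [h6]; rfl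
  obtain ⟨ζ, hζ⟩ := CfsgLib.Lang.exists_primitiveRoot_units (algebraMap K (AlgebraicClosure K))
    (N := (q ^ 3 - 1) * (q + 1)) (by
      rw [hK]
      exact Nat.Coprime.mul_left ((Nat.coprime_self_sub_left h6).2 (by simp)) (Nat.Coprime.pow_right 3 (by simp)))
  obtain ⟨h7, h8⟩ := inj (q := q) (by omega)
  have e : ∀ i : Fin 4, (List.range 4).map (rt chevD4 ((rootSys rtOKD4).wprod [ndD4 1]
      ((rootSys rtOKD4).simple (symD4.π (ndD4 i))))) = ![[0, 1, 1, 0], [0, -1, 0, 0], [0, 1, 0, 1], [1, 1, 0, 0]] i := by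
    decide +kernel
  have e0 := e 0
  have e1 := e 1
  have e2 := e 2
  have e3 := e 3
  simp [List.range_succ] at e0 e1 e2 e3
  refine h1.selfcent (chevSys_nondeg _ _) (chevSys_grp _ _) (isTor_tauG _ (by simp)) (tauG_le _ _) h2 h3 E h4 h5
    [ndD4 1] (vecD4 ![1, q ^ 3 - 1, q - q ^ 3 + 1, q ^ 2]) (mul_ne_zero (Nat.sub_ne_zero_of_lt (Nat.one_lt_pow (by simp) hq2)) (by simp)) hζ (ndD4 0)
    (forall_ndD4.2 ?_) rfl (fun c hc => ?_) (hN ▸ h7) fun v hv h => ?_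
  · simp only [hN, ip_eq, e0, e1, e2, e3, vecD4_nd]
    exact ⟨⟨0, by simp⟩, ⟨-1, by simp; ring⟩, ⟨1, by simp; ring⟩, 0, by simp; ring⟩
  · obtain ⟨c0, c1, c2, c3⟩ := forall_ndD4.1 hc
    simp only [chr_eq, e0, e1, e2, e3, zpow_zero, zpow_one, one_mul, mul_one, zpow_neg] at c0 c1 c2 c3
    have c4 : c (ndD4 3) = c (ndD4 0) ^ q ^ 2 := by
      rw [sq, pow_mul, ← c0, mul_pow, ← c1, ← c2, inv_mul_cancel_left]
    have c5 : c (ndD4 1) = c (ndD4 0) ^ (q ^ 3 - 1) := by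
      rw [← mul_right_inj (c (ndD4 0)), c3, c4, ← pow_mul, ← pow_succ', ← pow_succ, Nat.sub_add_cancel h6]
    refine ⟨by rw [pow_mul, ← c5, pow_succ, ← c1, inv_mul_cancel], forall_ndD4.2 ⟨by simp [vecD4_nd], ?_, ?_, ?_⟩⟩
    · rw [c5, ← zpow_natCast]; simp [vecD4_nd, h6]
    · rw [eq_inv_mul_of_mul_eq c0, c5, ← zpow_natCast, ← zpow_natCast, ← zpow_neg, ← zpow_add]
      congr 1; simp [vecD4_nd, h6]; ring
    · rw [c4, ← zpow_natCast]; simp [vecD4_nd]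
  · rw [hN] at h
    refine (rootSys rtOKD4).eq_one_of_pos_simple hv (forall_ndD4.2 ⟨?_, fun j => ?_, ?_, ?_⟩)
    · exact (h8 _ (by simp) _ (h (rtD4 18))).symm ▸ (by decide +kernel : (rootSys rtOKD4).Pos (rtD4 18))
    · have := (rootSys rtOKD4).rt_comb hv (c := 1) (a := 1) (b := -1) (k := (rootSys rtOKD4).simple (ndD4 1))
        (r := rtD4 19) (s := rtD4 18) (by decide +kernel) j
      rw [h8 _ (by simp) _ (h (rtD4 18)), h8 _ (by simp) _ (h (rtD4 19)), one_mul] at this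
      rw [this]; clear this; revert j; decide +kernel
    · exact (h8 _ (by simp) _ (h (rtD4 13))).symm ▸ (by decide +kernel : (rootSys rtOKD4).Pos (rtD4 13))
    · exact (h8 _ (by simp) _ (h (rtD4 12))).symm ▸ (by decide +kernel : (rootSys rtOKD4).Pos (rtD4 12))

end Cfsg.Agent.S2376
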