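import Mathlib
import Cfsg.Statements.S2382
import Cfsg.Agent.Lib.CR.Exist
import Cfsg.Agent.Lib.CR.ChevR3
import Cfsg.Agent.Lib.Chev.Smith

set_option autoImplicit false
open Cfsg

namespace Cfsg.Agent.S2382

/-- Steinberg's count of semisimple classes for the three types whose simply connected and adjoint groups coincide: in the Chevalley group of type G₂, F₄ or E₈ over a field with `q` elements of characteristic `p`, the conjugacy classes of elements of order prime to `p` number exactly `q^l`, `l = 2, 4, 8` the rank. -/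
theorem result {F : Type*} [Field F] [Fintype F] {q : ℕ} (hq : Fintype.card F = q) (p : ℕ) [Fact p.Prime] [CharP F p]
    (D : Cfsg.Lie.ChevalleyDatum) (hD : D ∈ [Cfsg.Lie.chevG2, Cfsg.Lie.chevF4, Cfsg.Lie.chevE8]) :
    Nat.card {c : ConjClasses ↥(D.group F) // ∃ g : ↥(D.group F), ConjClasses.mk g = c ∧ (orderOf g).Coprime p} = q ^ D.rank := by
  have hD' : D ∈ [Cfsg.Lie.chevG2, Cfsg.Lie.chevB2, Cfsg.Lie.chevD4, Cfsg.Lie.chevF4, Cfsg.Lie.chevE6,
      Cfsg.Lie.chevE7, Cfsg.Lie.chevE8] := by
    simp only [List.mem_cons, List.not_mem_nil, or_false] at hD ⊢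
    tauto
  have := CfsgLib.Chev.good_of_mem hD'
  have h := CfsgLib.Weyl.rtOK_of_mem hD'
  have hc : Nat.card (D.diagonalSubgroup F) = (Fintype.card F - 1) ^ D.rank := by
    simp only [List.mem_cons, List.not_mem_nil, or_false] at hD
    rcases hD with rfl | rfl | rfl
    · exact CfsgLib.Chev.card_diagonalSubgroup_G2 F
    · exact CfsgLib.Chev.card_diagonalSubgroup_F4 F
    · exact CfsgLib.Chev.card_diagonalSubgroup_E8 F
  rw [CfsgLib.CR.card_regular_classes (CfsgLib.St.chevSys_nondeg h F) (CfsgLib.St.chevSys_grp h F)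
    (CfsgLib.CR.chevSys_r3 h F) (CfsgLib.CR.chevSys_sc h F hc) p, hq, Fintype.card_fin]

end Cfsg.Agent.S2382
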