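import Mathlib
import Cfsg.Statements.S2383
import Cfsg.Agent.Lib.CR.Exist
import Cfsg.Agent.Lib.CR.ChevR3
import Cfsg.Agent.Lib.Chev.Smith

set_option autoImplicit false
open Cfsg

namespace Cfsg.Agent.S2383

/-- Steinberg's count of semisimple classes in characteristic 2 for the types B₂, D₄, E₇, where the finite simply connected group has trivial centre and so coincides with the Chevalley group: for the Chevalley group of type B₂, D₄ or E₇ over a field with `q` elements of characteristic 2, the conjugacy classes of elements of odd order number exactly `q^l`, `l` the rank. -/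
theorem result {F : Type*} [Field F] [Fintype F] {q : ℕ} (hq : Fintype.card F = q) [CharP F 2]
    (D : Cfsg.Lie.ChevalleyDatum) (hD : D ∈ [Cfsg.Lie.chevB2, Cfsg.Lie.chevD4, Cfsg.Lie.chevE7]) :
    Nat.card {c : ConjClasses ↥(D.group F) // ∃ g : ↥(D.group F), ConjClasses.mk g = c ∧ Odd (orderOf g)} = q ^ D.rank := by
  have hD' : D ∈ [Cfsg.Lie.chevG2, Cfsg.Lie.chevB2, Cfsg.Lie.chevD4, Cfsg.Lie.chevF4, Cfsg.Lie.chevE6,
      Cfsg.Lie.chevE7, Cfsg.Lie.chevE8] := by
    simp only [List.mem_cons, List.not_mem_nil, or_false] at hD ⊢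
    tauto
  have := CfsgLib.Chev.good_of_mem hD'
  have h := CfsgLib.Weyl.rtOK_of_mem hD'
  have hg : Nat.gcd 2 (Fintype.card F - 1) = 1 := by
    have := CfsgLib.ClSys.not_dvd_card_units (F := F) 2
    rw [Nat.card_units, Nat.card_eq_fintype_card] at this
    exact (Nat.Prime.coprime_iff_not_dvd Nat.prime_two).2 this
  have hc : Nat.card (D.diagonalSubgroup F) = (Fintype.card F - 1) ^ D.rank := by
    simp only [List.mem_cons, List.not_mem_nil, or_false] at hD
    rcases hD with rfl | rfl | rfl
    · have := CfsgLib.Chev.card_diagonalSubgroup_B2 F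
      rwa [hg, one_mul] at this
    · have := CfsgLib.Chev.card_diagonalSubgroup_D4 F
      rwa [hg, one_pow, one_mul] at this
    · have := CfsgLib.Chev.card_diagonalSubgroup_E7 F
      rwa [hg, one_mul] at this
  have := CfsgLib.CR.card_regular_classes (CfsgLib.St.chevSys_nondeg h F) (CfsgLib.St.chevSys_grp h F)
    (CfsgLib.CR.chevSys_r3 h F) (CfsgLib.CR.chevSys_sc h F hc) 2
  simp only [Nat.coprime_two_right] at this
  rw [this, hq, Fintype.card_fin]

end Cfsg.Agent.S2383
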