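import Cfsg.Statements.S2391

set_option autoImplicit false
open Cfsg

namespace Cfsg.Agent.S2391

open Matrix

variable {F : Type*} [Field F] {n : ℕ}

/-- The ascending chain of iterated fixed spaces of `U`. -/
def chain (U : Subgroup (Matrix.SpecialLinearGroup (Fin n) F)) : ℕ → Submodule F (Fin n → F) :=
  fun k => Nat.rec ⊥ (fun _ W => ⨅ u : U, W.comap
    (Matrix.mulVecLin ((u : Matrix.SpecialLinearGroup (Fin n) F) : Matrix (Fin n) (Fin n) F) - LinearMap.id)) k

theorem chain_zero (U : Subgroup (Matrix.SpecialLinearGroup (Fin n) F)) : chain U 0 = ⊥ := rfl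

theorem mem_chain_succ (U : Subgroup (Matrix.SpecialLinearGroup (Fin n) F)) (k : ℕ) (v : Fin n → F) :
    v ∈ chain U (k + 1) ↔ ∀ u ∈ U, (u : Matrix (Fin n) (Fin n) F).mulVec v - v ∈ chain U k := by
  change v ∈ (⨅ u : U, (chain U k).comap
    (Matrix.mulVecLin ((u : Matrix.SpecialLinearGroup (Fin n) F) : Matrix (Fin n) (Fin n) F) - LinearMap.id)) ↔ _
  simp [Submodule.mem_iInf]

theorem chain_norm (U : Subgroup (Matrix.SpecialLinearGroup (Fin n) F)) (k : ℕ) :
    ∀ g ∈ Subgroup.normalizer (U : Set (Matrix.SpecialLinearGroup (Fin n) F)), ∀ v ∈ chain U k,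
      (g : Matrix (Fin n) (Fin n) F).mulVec v ∈ chain U k := by
  induction k with
  | zero =>
    intro g _ v hv
    rw [chain_zero, Submodule.mem_bot] at hv ⊢
    simp [hv]
  | succ k ih =>
    intro g hg v hv
    rw [mem_chain_succ] at hv ⊢
    intro u hu
    have hu' : g⁻¹ * u * g ∈ U := by
      have := (Subgroup.mem_normalizer_iff.1 (inv_mem hg) u).1 hu
      simpa using this
    have h := ih g hg _ (hv _ hu')
    have e : (g : Matrix (Fin n) (Fin n) F) * ((g⁻¹ * u * g : Matrix.SpecialLinearGroup (Fin n) F) :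
        Matrix (Fin n) (Fin n) F) = (u : Matrix (Fin n) (Fin n) F) * (g : Matrix (Fin n) (Fin n) F) := by
      rw [← Matrix.SpecialLinearGroup.coe_mul, ← Matrix.SpecialLinearGroup.coe_mul]
      have : g * (g⁻¹ * u * g) = u * g := by group
      rw [this]
    rw [Matrix.mulVec_sub, Matrix.mulVec_mulVec, e, ← Matrix.mulVec_mulVec] at h
    exact h

theorem chain_mono (U : Subgroup (Matrix.SpecialLinearGroup (Fin n) F)) (k : ℕ) :
    chain U k ≤ chain U (k + 1) := by
  intro v hv
  rw [mem_chain_succ]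
  intro u hu
  exact Submodule.sub_mem _ (chain_norm U k u (Subgroup.le_normalizer hu) v hv) hv

theorem chain_lt [Fintype F] (p : ℕ) [Fact p.Prime] [CharP F p]
    (U : Subgroup (Matrix.SpecialLinearGroup (Fin n) F)) (hU : IsPGroup p ↥U) (k : ℕ)
    (hk : chain U k ≠ ⊤) : chain U k < chain U (k + 1) := by
  set W := chain U k with hW
  have hinv : ∀ u : U, W ≤ W.comap
      (Matrix.mulVecLin ((u : Matrix.SpecialLinearGroup (Fin n) F) : Matrix (Fin n) (Fin n) F)) := by
    intro u v hv
    exact chain_norm U k u (Subgroup.le_normalizer u.2) v hv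
  let act : MulAction U ((Fin n → F) ⧸ W) :=
    { smul := fun u x => W.mapQ W _ (hinv u) x
      one_smul := by
        intro x
        obtain ⟨v, rfl⟩ := W.mkQ_surjective x
        change W.mapQ W _ (hinv 1) (W.mkQ v) = W.mkQ v
        simp
      mul_smul := by
        intro a b x
        obtain ⟨v, rfl⟩ := W.mkQ_surjective x
        change W.mapQ W _ (hinv (a * b)) (W.mkQ v) =
          W.mapQ W _ (hinv a) (W.mapQ W _ (hinv b) (W.mkQ v))
        simp }
  have hsm : ∀ (u : U) (v : Fin n → F), u • (W.mkQ v) =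
      W.mkQ (((u : Matrix.SpecialLinearGroup (Fin n) F) : Matrix (Fin n) (Fin n) F).mulVec v) := by
    intro u v
    change W.mapQ W _ (hinv u) (W.mkQ v) = _
    simp
  have hfin : Finite ((Fin n → F) ⧸ W) := Finite.of_surjective _ W.mkQ_surjective
  have hnt : Nontrivial ((Fin n → F) ⧸ W) := Submodule.Quotient.nontrivial_iff.2 hk
  have hdvd : p ∣ Nat.card ((Fin n → F) ⧸ W) := by
    rw [Module.natCard_eq_pow_finrank (K := F)]
    have h1 : 0 < Module.finrank F ((Fin n → F) ⧸ W) := Module.finrank_pos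
    obtain ⟨m, -, hm⟩ := FiniteField.card F p
    rw [Nat.card_eq_fintype_card, hm, ← pow_mul]
    exact dvd_pow_self p (Nat.mul_pos m.2 h1).ne'
  have h0 : (0 : (Fin n → F) ⧸ W) ∈ MulAction.fixedPoints U ((Fin n → F) ⧸ W) := by
    intro u
    have := hsm u 0
    simpa using this
  obtain ⟨b, hb, hb0⟩ := hU.exists_fixed_point_of_prime_dvd_card_of_fixed_point _ hdvd h0
  obtain ⟨v, rfl⟩ := W.mkQ_surjective b
  refine lt_of_le_of_ne (chain_mono U k) ?_
  intro h
  apply hb0
  have hv : v ∈ chain U (k + 1) := by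
    rw [mem_chain_succ]
    intro u hu
    have := hb ⟨u, hu⟩
    rw [hsm] at this
    exact (Submodule.Quotient.eq W).1 this
  rw [← h] at hv
  exact ((Submodule.Quotient.mk_eq_zero W).2 hv).symm

theorem exists_top [Fintype F] (p : ℕ) [Fact p.Prime] [CharP F p]
    (U : Subgroup (Matrix.SpecialLinearGroup (Fin n) F)) (hU : IsPGroup p ↥U) : ∃ k, chain U k = ⊤ := by
  by_contra h
  push Not at h
  have hs : StrictMono (chain U) := strictMono_nat_of_lt_succ fun k => chain_lt p U hU k (h k)
  exact not_strictMono_of_wellFoundedGT _ hs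

/-- The Borel–Tits property of `SL_n(q)` in flag form. -/
theorem result {F : Type*} [Field F] [Fintype F] (p : ℕ) [Fact p.Prime] [CharP F p] (n : ℕ)
    (U : Subgroup (Matrix.SpecialLinearGroup (Fin n) F)) (hU : IsPGroup p ↥U) (hne : U ≠ ⊥) :
    ∃ (k : ℕ) (V : Fin (k + 2) → Submodule F (Fin n → F)), 1 ≤ k ∧ StrictMono V ∧ V 0 = ⊥ ∧ V (Fin.last (k + 1)) = ⊤ ∧
      (∀ g ∈ Subgroup.normalizer (U : Set (Matrix.SpecialLinearGroup (Fin n) F)), ∀ i, (V i).map (Matrix.mulVecLin (g : Matrix (Fin n) (Fin n) F)) = V i) ∧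
      (∀ u ∈ U, ∀ i : Fin (k + 1), ∀ v ∈ V i.succ, (u : Matrix (Fin n) (Fin n) F).mulVec v - v ∈ V (Fin.castSucc i)) := by
  classical
  have hex := exists_top p U hU
  have h1 : chain U 1 ≠ ⊤ := by
    intro h
    apply hne
    rw [eq_bot_iff]
    intro u hu
    rw [Subgroup.mem_bot]
    apply Subtype.ext
    have : ∀ v : Fin n → F, (u : Matrix (Fin n) (Fin n) F).mulVec v = v := by
      intro v
      have hv : v ∈ chain U (0 + 1) := by rw [zero_add, h]; trivial
      rw [mem_chain_succ] at hv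
      have := hv u hu
      rw [chain_zero, Submodule.mem_bot, sub_eq_zero] at this
      exact this
    apply Matrix.mulVec_injective
    funext v
    simpa using this v
  have h0 : chain U 0 ≠ ⊤ := fun h => h1 (top_le_iff.1 (h ▸ chain_mono U 0))
  have hm := Nat.find_spec hex
  have hm2 : 2 ≤ Nat.find hex := by
    rw [Nat.le_find_iff]
    intro m hm
    interval_cases m
    · exact h0
    · exact h1
  obtain ⟨k, hk⟩ : ∃ k, Nat.find hex = k + 1 := ⟨Nat.find hex - 1, by omega⟩
  refine ⟨k, fun i => chain U i.val, by omega, ?_, rfl, ?_, ?_, ?_⟩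
  · rw [Fin.strictMono_iff_lt_succ]
    intro i
    apply chain_lt p U hU
    apply Nat.find_min hex
    rw [hk]
    exact i.2
  · simpa [hk] using hm
  · intro g hg i
    apply le_antisymm
    · rintro _ ⟨v, hv, rfl⟩
      exact chain_norm U _ g hg v hv
    · intro v hv
      refine ⟨((g⁻¹ : Matrix.SpecialLinearGroup (Fin n) F) : Matrix (Fin n) (Fin n) F).mulVec v,
        chain_norm U _ g⁻¹ (inv_mem hg) v hv, ?_⟩
      rw [Matrix.mulVecLin_apply, Matrix.mulVec_mulVec, ← Matrix.SpecialLinearGroup.coe_mul]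
      simp
  · intro u hu i v hv
    exact (mem_chain_succ U i.val v).1 hv u hu

end Cfsg.Agent.S2391
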