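import Cfsg.Statements.S2392
import Cfsg.Agent.Lib.LS.SLSp
import Cfsg.Agent.Lib.Classical.SmallIso

set_option autoImplicit false
open scoped MatrixGroups
open Cfsg

namespace Cfsg.Agent.S2392

open CfsgLib.LS

/-- A lower bound for representations in cross characteristic: for `n ≥ 3` and a field `F` with `q` elements, every homomorphism from `SL_n(F)` to `GL_d(K)`, `K` a field of characteristic different from that of `F`, whose kernel is central has `d ≥ q^(n-1) - 1`. -/
theorem result {F : Type*} [Field F] [Fintype F] {q : ℕ} (hq : Fintype.card F = q) (n : ℕ) (hn : 3 ≤ n)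
    {K : Type*} [Field K] (hK : ringChar K ≠ ringChar F) {d : ℕ}
    (ρ : Matrix.SpecialLinearGroup (Fin n) F →* GL (Fin d) K) (hker : ρ.ker ≤ Subgroup.center (Matrix.SpecialLinearGroup (Fin n) F)) :
    q ^ (n - 1) - 1 ≤ d := by
  classical
  obtain ⟨k, rfl⟩ := Nat.exists_eq_add_of_le' (show 1 ≤ n by omega)
  obtain ⟨σ, hσ⟩ := exists_algClosed_rep ρ
  let e : Fin k ⊕ Unit ≃ Fin (k + 1) := Fintype.equivOfCardEq (by simp)
  let r := CfsgLib.Classical.slReindex (R := F) e
  have := sl_bound (K := AlgebraicClosure K) (by rwa [ringChar_algebraicClosure])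
    (l := Fin k) (by simp; omega) (σ.comp r.toMonoidHom) fun g hg => by
      have h1 := Subgroup.mem_center_iff.1 (hker (hσ _ hg))
      refine Subgroup.mem_center_iff.2 fun x => r.injective ?_
      rw [map_mul, map_mul]
      exact h1 _
  simpa [hq] using this

end Cfsg.Agent.S2392
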