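import Cfsg.Statements.S2393
import Cfsg.Agent.Lib.LS.SLSp

set_option autoImplicit false
open scoped MatrixGroups
open Cfsg

namespace Cfsg.Agent.S2393

open CfsgLib.LS

/-- A lower bound for representations in cross characteristic: for `n ≥ 2` and a field `F` with `q` elements, `q` odd, every homomorphism from the symplectic group `Sp_{2n}(F)` to `GL_d(K)`, `K` a field of characteristic different from that of `F`, whose kernel is central has `d ≥ q^(n-1)(q-1)/2`. -/
theorem result {F : Type*} [Field F] [Fintype F] {q : ℕ} (hq : Fintype.card F = q) (hodd : Odd q) (n : ℕ) (hn : 2 ≤ n)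
    {K : Type*} [Field K] (hK : ringChar K ≠ ringChar F) {d : ℕ}
    (ρ : ↥(Matrix.symplecticGroup (Fin n) F) →* GL (Fin d) K) (hker : ρ.ker ≤ Subgroup.center ↥(Matrix.symplecticGroup (Fin n) F)) :
    q ^ (n - 1) * (q - 1) / 2 ≤ d := by
  classical
  obtain ⟨σ, hσ⟩ := exists_algClosed_rep ρ
  have := sp_bound (K := AlgebraicClosure K) (by rwa [ringChar_algebraicClosure])
    (two_ne_zero_of_odd (hq ▸ hodd)) (show 1 ≤ n by omega) σ fun g hg => hker (hσ _ hg)
  rw [Nat.card_eq_fintype_card, hq, Module.finrank_fin_fun] at this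
  obtain ⟨k, rfl⟩ := Nat.exists_eq_add_of_le' (show 1 ≤ n by omega)
  have h1 : 1 ≤ q ^ k := Nat.one_le_pow _ _ hodd.pos
  rw [Nat.add_sub_cancel, Nat.mul_sub_one, ← pow_succ]
  omega

end Cfsg.Agent.S2393
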