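import Cfsg.Statements.S2394
import Cfsg.Agent.Lib.LS.Siegel

set_option autoImplicit false
open scoped MatrixGroups
open Cfsg

namespace Cfsg.Agent.S2394

open CfsgLib.LS

open Module Matrix

section

variable {K W E : Type*} [Field K] [AddCommGroup W] [Module K W] [FiniteDimensional K W]

theorem card_le_pow (π : E → End K W) (hπ : Function.Injective π) (htop : ⨆ l, wsp π l = ⊤)
    (R : Set (E → K)) (hR : R.Finite)
    (hsep : ∀ e e', (∀ l ∈ R, l e = l e') → ∀ l ∈ wts π 1, l e = l e') {N : ℕ} (hN : 0 < N)
    (hpow : ∀ l ∈ R, ∀ e, l e ^ N = 1) : Nat.card E ≤ N ^ R.ncard := by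
  classical
  have := hR.to_subtype
  let μ := (Polynomial.nthRoots N (1 : K)).toFinset
  have hμ : Nat.card μ ≤ N := by
    rw [Nat.card_eq_fintype_card, Fintype.card_coe]
    exact (Multiset.toFinset_card_le _).trans (Polynomial.card_nthRoots _ _)
  have h := Nat.card_le_card_of_injective (fun (e : E) (l : R) =>
    (⟨l.1 e, by simp [μ, Polynomial.mem_nthRoots hN, hpow l.1 l.2 e]⟩ : μ)) fun e e' h => by
      apply hπ
      have h1 := hsep e e' fun l hl => congrArg Subtype.val (congrFun h ⟨l, hl⟩)
      ext v
      have hv : v ∈ ⨆ l, wsp π l := htop ▸ Submodule.mem_top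
      induction hv using Submodule.iSup_induction' with
      | mem l x hx =>
        rcases eq_or_ne x 0 with rfl | hx0
        · simp
        · rw [hx e, hx e', h1 l (mem_wts_one.2 ⟨x, hx0, hx⟩)]
      | zero => simp
      | add x y _ _ hx hy => rw [map_add, hx, hy, map_add]
  rw [Nat.card_fun, Nat.card_coe_set_eq] at h
  exact h.trans (Nat.pow_le_pow_left hμ _)

variable {F l : Type*} [Field F] [Fintype l] [DecidableEq l]

/-- An explicit element of `SL₂`. -/
def m2 (a b c d : F) (h : a * d - b * c = 1) : SL(2, F) := ⟨!![a, b; c, d], by rwa [det_fin_two_of]⟩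

theorem coe_m2 (a b c d : F) (h : a * d - b * c = 1) :
    (m2 a b c d h : Matrix (Fin 2) (Fin 2) F) = !![a, b; c, d] := rfl

omit [DecidableEq l] in
theorem bound_odd [IsAlgClosed K] [Finite F] (hK : ringChar K = ringChar F) (h2 : (2 : F) ≠ 0)
    (ρ : (l → SL(2, F)) →* End K W) (hρ : Function.Injective ρ) :
    2 * Fintype.card l ≤ finrank K W := by
  have hp : (ringChar F).Prime := CharP.char_is_prime F _
  have h2K : ((2 : ℕ) : K) ≠ 0 := fun h => h2 (by
    have := (ringChar.spec K 2).1 h
    rw [hK] at this
    exact_mod_cast (ringChar.spec F 2).2 this)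
  let z : (l → Bool) → l → SL(2, F) := fun e i => if e i then -1 else 1
  let π : (l → Bool) → End K W := fun e => ρ (z e)
  have hz : ∀ e g, Commute (z e) g := fun e g => funext fun i => by
    simp only [z, Pi.mul_apply]; split_ifs <;> simp
  have hsq : ∀ e, π e ^ 2 = 1 := fun e => by
    rw [← map_pow, ← map_one ρ]; congr 1; funext i
    simp only [z, Pi.pow_apply]; split_ifs <;> simp
  let R := wts π 1 \ {1}
  have hR := card_le_pow π (fun e e' h => funext fun i => by
      have h1 := congrFun (hρ h) i
      have hne : (-1 : SL(2, F)) ≠ 1 := fun h => h2 (by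
        have := congrArg (fun A : SL(2, F) => A.1 0 0) h
        simp at this
        linear_combination -this)
      simp only [z] at h1
      split_ifs at h1 with a b b
      · rw [a, b]
      · exact absurd h1 hne
      · exact absurd h1.symm hne
      · rw [Bool.not_eq_true] at a b; rw [a, b])
    (iSup_wsp_eq_top π (fun a b => (hz a _).map ρ) h2K hsq) R
    ((wts_finite π le_rfl).subset Set.sdiff_subset) (fun e e' h l hl => by
      by_cases h1 : l = 1
      · rw [h1]; rfl
      · exact h l ⟨hl, h1⟩) two_pos fun l hl e => by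
      obtain ⟨v, hv0, hv⟩ := mem_wts_one.1 hl.1
      refine smul_left_injective K hv0 ?_
      have := LinearMap.congr_fun (hsq e) v
      rw [sq, End.mul_apply, hv, map_smul, hv, smul_smul] at this
      simpa [sq] using this
  have hfin := ((wts_finite π le_rfl).subset (Set.sdiff_subset (t := {1}))).to_subtype
  have h3 := card_mul_le π 2 (fun l : R => l.1) Subtype.val_injective fun L => by
    by_contra hlt
    obtain ⟨v, hv0, hv⟩ := mem_wts_one.1 L.2.1
    have h1 : finrank K (wsp π L) = 1 := le_antisymm (by simpa [wts, Nat.lt_succ_iff] using hlt)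
      L.2.1
    have hfix : ∀ g, g ^ ringChar F = 1 → ρ g v = v := fun g hg => by
      have hm : ρ g v ∈ wsp π L := fun e => by
        rw [← End.mul_apply, ← map_mul, (hz e g).eq, map_mul, End.mul_apply]
        exact (congrArg (ρ g) (hv e)).trans (map_smul _ _ _)
      obtain ⟨c, hc⟩ := (finrank_eq_one_iff_of_nonzero' (⟨v, hv⟩ : wsp π L)
        fun h => hv0 (congrArg Subtype.val h)).1 h1 ⟨_, hm⟩
      have hc' : ρ g v = c • v := (congrArg Subtype.val hc).symm
      have hk : ∀ k : ℕ, ρ (g ^ k) v = c ^ k • v := fun k => by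
        induction k with
        | zero => simp
        | succ k ih => rw [pow_succ, map_mul, End.mul_apply, hc', map_smul, ih, smul_smul, pow_succ']
      have h4 : c ^ ringChar F = 1 := smul_left_injective K hv0 (by
        simpa [hg] using (hk (ringChar F)).symm)
      have := Fact.mk hp
      have : CharP K (ringChar F) := hK ▸ ringChar.charP K
      have h5 : (c - 1) ^ ringChar F = 0 := by rw [sub_pow_char, h4, one_pow, sub_self]
      rw [hc', sub_eq_zero.1 (pow_eq_zero_iff hp.ne_zero |>.1 h5), one_smul]
    apply L.2.2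
    funext e
    let x : F → l → SL(2, F) := fun t i => m2 1 (if e i then t else 0) 0 1 (by simp)
    let y : F → l → SL(2, F) := fun t i => m2 1 0 (if e i then t else 0) 1 (by simp)
    have hx := hfix _ (pow_ringChar (F := F) (u := x) (fun s t => funext fun i => by
      ext a b
      fin_cases a <;> fin_cases b <;> simp [x, coe_m2] <;> split_ifs <;> simp [add_comm]) 1)
    have hy := hfix _ (pow_ringChar (F := F) (u := y) (fun s t => funext fun i => by
      ext a b
      fin_cases a <;> fin_cases b <;> simp [y, coe_m2] <;> split_ifs <;> simp [add_comm]) (-1))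
    have hzz : z e = x 1 * y (-1) * x 1 * (x 1 * y (-1) * x 1) := funext fun i => by
      ext a b
      by_cases h : e i <;> fin_cases a <;> fin_cases b <;> simp [x, y, z, h, coe_m2]
    refine weight_eq_of_mem hv0 hv ?_
    simp [π, hzz, hx, hy]
  rw [Nat.card_fun, Nat.card_eq_fintype_card, Fintype.card_bool, Nat.card_eq_fintype_card,
    Nat.pow_le_pow_iff_right one_lt_two] at hR
  rw [Nat.card_coe_set_eq] at h3
  omega

omit [DecidableEq l] in
theorem bound_even [IsAlgClosed K] (hK : ringChar K = ringChar F) (h2 : (2 : F) = 0)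
    (ρ : (l → SL(2, F)) →* End K W) (hρ : Function.Injective ρ) :
    2 * Fintype.card l ≤ finrank K W := by
  have hm : (-1 : F) = 1 := by linear_combination -h2
  have h11 : (1 + 1 : F) = 0 := by linear_combination h2
  have h3K : ((3 : ℕ) : K) ≠ 0 := fun h => by
    have h1 := (ringChar.spec K 3).1 h
    rw [hK] at h1
    have h4 : (3 : F) = 0 := by exact_mod_cast (ringChar.spec F 3).2 h1
    exact one_ne_zero (α := F) (by linear_combination h4 - h2)
  let T : Fin 3 → SL(2, F) := ![1, m2 0 1 1 1 (by simp [hm]), m2 1 1 1 0 (by simp [hm])]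
  let s : SL(2, F) := m2 0 1 1 0 (by simp [hm])
  have hT : ∀ a b, T (a + b) = T a * T b := fun a b => by
    ext i j
    fin_cases a <;> fin_cases b <;> fin_cases i <;> fin_cases j <;> simp [T, h11, coe_m2]
  have hs : ∀ a, s * T a = T (-a) * s := fun a => by
    ext i j
    fin_cases a <;> fin_cases i <;> fin_cases j <;> simp [T, s, coe_m2]
  have hTi : Function.Injective T := fun a b h => by
    have h0 := congrArg (fun A : SL(2, F) => A.1 0 0) h
    have h1 := congrArg (fun A : SL(2, F) => A.1 1 1) h
    revert h0 h1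
    fin_cases a <;> fin_cases b <;> simp [T, coe_m2]
  let z : (l → Fin 3) → l → SL(2, F) := fun e i => T (e i)
  have hz : ∀ e e', z (e + e') = z e * z e' := fun e e' => funext fun i => hT _ _
  have hz0 : z 0 = 1 := rfl
  let π : (l → Fin 3) → End K W := fun e => ρ (z e)
  have h3 : ∀ e : l → Fin 3, e + e + e = 0 := fun e => funext fun i => by
    have : ∀ a : Fin 3, a + a + a = 0 := by decide
    exact this _
  have hcube : ∀ e, π e ^ 3 = 1 := fun e => by
    rw [← map_pow, pow_three', ← hz, ← hz, h3, hz0, map_one]
  have hadd : ∀ l ∈ wts π 1, (∀ e e', l (e + e') = l e * l e') ∧ l 0 = 1 := fun l hl => by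
    obtain ⟨v, hv0, hv⟩ := mem_wts_one.1 hl
    exact ⟨fun e e' => weight_mul hv0 hv (by simp only [π]; rw [hz, map_mul]),
      weight_one hv0 hv (map_one ρ)⟩
  have hneg : ∀ l ∈ wts π 1, l ∘ Neg.neg ∈ wts π 1 := fun l hl =>
    mem_wts_conj ρ z hl (fun _ => s) Neg.neg fun e => by
      rw [mul_inv_eq_iff_eq_mul]
      exact funext fun i => hs _
  have hnn : ∀ l : (l → Fin 3) → K, (l ∘ Neg.neg) ∘ Neg.neg = l := fun l => funext fun e => by simp
  obtain ⟨ord, -⟩ := exists_wellFoundedLT ((l → Fin 3) → K)
  let R := {l ∈ wts π 1 | @LT.lt _ ord.toLT l (l ∘ Neg.neg)}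
  have hfin : R.Finite := (wts_finite π le_rfl).subset fun _ h => h.1
  have hR := card_le_pow π (fun e e' h => funext fun i => hTi (congrFun (hρ h) i))
    (iSup_wsp_eq_top π (fun a b => by
      rw [Commute, SemiconjBy, ← map_mul, ← map_mul, ← hz, ← hz, add_comm]) h3K hcube) R hfin
    (fun e e' h l hl => by
      have hinv : ∀ e, l e * l (-e) = 1 := fun e => by
        rw [← (hadd l hl).1, add_neg_cancel, (hadd l hl).2]
      rcases @lt_trichotomy _ ord l (l ∘ Neg.neg) with h1 | h1 | h1
      · exact h l ⟨hl, h1⟩
      · have : ∀ e, l e = 1 := fun e => by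
          have h4 : l (-e) = l e := (congrFun h1 e).symm
          have h5 := (hadd l hl).1 (e + e) e
          have h6 := hinv e
          rw [h4] at h6
          rw [h3, (hadd l hl).2, (hadd l hl).1, h6, one_mul] at h5
          exact h5.symm
        rw [this, this]
      · have h4 : l (-e) = l (-e') := h _ ⟨hneg l hl, by rwa [hnn]⟩
        rw [eq_inv_of_mul_eq_one_left (hinv e), h4, ← eq_inv_of_mul_eq_one_left (hinv e')])
    three_pos fun l hl e => by
      rw [pow_three', ← (hadd l hl.1).1, ← (hadd l hl.1).1, h3, (hadd l hl.1).2]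
  have := hfin.to_subtype
  have h4 := card_mul_le π 1 (fun p : R × Bool => if p.2 then p.1.1 else p.1.1 ∘ Neg.neg)
    (by
      rintro ⟨a, _ | _⟩ ⟨b, _ | _⟩ h <;> simp only [Bool.false_eq_true, if_true, if_false] at h
      · rw [Subtype.ext (show a.1 = b.1 by rw [← hnn a.1, h, hnn])]
      · have h1 := a.2.2
        have h2 := b.2.2
        rw [← h, hnn] at h2
        exact absurd h1 (@lt_asymm _ ord.toPreorder _ _ h2)
      · have h1 := a.2.2
        have h2 := b.2.2
        rw [h, hnn] at h1
        exact absurd h1 (@lt_asymm _ ord.toPreorder _ _ h2)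
      · rw [Subtype.ext h])
    (by
      rintro ⟨a, _ | _⟩
      · exact hneg _ a.2.1
      · exact a.2.1)
  rw [Nat.card_fun, Nat.card_eq_fintype_card, Fintype.card_fin, Nat.card_eq_fintype_card,
    Nat.pow_le_pow_iff_right (by norm_num)] at hR
  rw [Nat.card_prod, Nat.card_coe_set_eq, Nat.card_eq_fintype_card, Fintype.card_bool] at h4
  omega

/-- The product of the `SL₂` acting on the hyperbolic planes. -/
def emb : (l → SL(2, F)) →* symplecticGroup l F :=
  MonoidHom.mk' (fun g => ⟨fromBlocks (diagonal fun i => (g i).1 0 0) (diagonal fun i => (g i).1 0 1)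
      (diagonal fun i => (g i).1 1 0) (diagonal fun i => (g i).1 1 1), by
    rw [SymplecticGroup.fromBlocks_mem_iff]
    simp only [diagonal_transpose, diagonal_mul_diagonal, diagonal_sub]
    refine ⟨by simp [mul_comm], by simp [mul_comm], ?_⟩
    rw [← diagonal_one]
    congr 1; funext i
    have := (g i).2
    rw [det_fin_two] at this
    linear_combination this⟩) fun g h => Subtype.ext (by
      simp [fromBlocks_multiply, mul_apply, Fin.sum_univ_two])

theorem emb_injective : Function.Injective (emb : (l → SL(2, F)) →* symplecticGroup l F) := by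
  intro g h e
  have e' := fromBlocks_inj.1 (congrArg Subtype.val e)
  funext i
  ext a b
  fin_cases a <;> fin_cases b
  · exact congrFun (diagonal_injective e'.1) i
  · exact congrFun (diagonal_injective e'.2.1) i
  · exact congrFun (diagonal_injective e'.2.2.1) i
  · exact congrFun (diagonal_injective e'.2.2.2) i

end

/-- The smallest degree of a faithful representation of the symplectic group `Sp_{2n}(q)` over its own field `F_q` is `2n`: every injective homomorphism from `Sp_{2n}(F)` to `GL_d(F)`, `F` the field with `q` elements, has `d ≥ 2n`. -/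
theorem result {F : Type*} [Field F] [Fintype F] (n : ℕ) {d : ℕ}
    (ρ : ↥(Matrix.symplecticGroup (Fin n) F) →* GL (Fin d) F) (hρ : Function.Injective ρ) : 2 * n ≤ d := by
  obtain ⟨σ, hσ⟩ := exists_algClosed_rep ρ
  have hinj : Function.Injective (σ.comp emb) := by
    rw [MonoidHom.coe_comp]
    refine Function.Injective.comp ((injective_iff_map_eq_one σ).2 fun g hg => ?_) emb_injective
    exact (injective_iff_map_eq_one ρ).1 hρ g (hσ g hg)
  by_cases h2 : (2 : F) = 0
  · simpa using bound_even ringChar_algebraicClosure h2 _ hinj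
  · simpa using bound_odd ringChar_algebraicClosure h2 _ hinj

end Cfsg.Agent.S2394
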