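import Cfsg.Statements.S2399
import Cfsg.Agent.S2398

set_option autoImplicit false
open scoped MatrixGroups
open Cfsg

open Cfsg.Lie CfsgLib.Weyl CfsgLib.Chev CfsgLib.Stein CfsgLib.Schur

namespace Cfsg.Agent.S2399

/-- Projective representations in the natural characteristic lift: for each of the types G₂, B₂, D₄, F₄, E₆, E₇, E₈ over any field `K` (for types B₂ and G₂ the field must have more than two elements — the cases where the Chevalley group is not simple are set aside), every homomorphism from the Chevalley group to `PGL_n(L) = GL_n(L)/Z`, `L` a field of the same characteristic as `K`, lifts uniquely to a homomorphism from the group Δ presented by (R1), (R2) to `GL_n(L)`, compatibly with the projection Δ → Chevalley group sending x̄_r(t) to x_r(t). -/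
theorem result {K : Type*} [Field K] (D : Cfsg.Lie.ChevalleyDatum) (hD : D ∈ [Cfsg.Lie.chevG2, Cfsg.Lie.chevB2, Cfsg.Lie.chevD4, Cfsg.Lie.chevF4, Cfsg.Lie.chevE6, Cfsg.Lie.chevE7, Cfsg.Lie.chevE8]) (hK : D ∈ [Cfsg.Lie.chevB2, Cfsg.Lie.chevG2] → ∃ x : K, x ≠ 0 ∧ x ≠ 1)
    (θ : D.SteinbergCover K →* ↥(D.group K))
    (hθ : ∀ (r : ℕ) (t : K), r < D.nroots → ((θ (D.scGen K r t) : GL D.Idx K) : Matrix D.Idx D.Idx K) = D.x K r t)
    {L : Type*} [Field L] (hL : ringChar L = ringChar K) {n : ℕ}
    (φ : ↥(D.group K) →* GL (Fin n) L ⧸ Subgroup.center (GL (Fin n) L)) :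
    ∃! ψ : D.SteinbergCover K →* GL (Fin n) L, (QuotientGroup.mk' (Subgroup.center (GL (Fin n) L))).comp ψ = φ.comp θ := by
  have := good_of_mem hD
  have h := rtOK_of_mem hD
  have hg := genOK_of_mem hD
  have hπ : IsCentralExt (QuotientGroup.mk' (Subgroup.center (GL (Fin n) L))) :=
    ⟨QuotientGroup.mk'_surjective _, (QuotientGroup.ker_mk' _).le⟩
  rcases finite_or_infinite K with _ | _
  swap
  · obtain ⟨s, hs⟩ := Infinite.exists_subset_card_eq K 5
    exact S2398.result ⟨s, by omega⟩ D hD _ hπ.surj hπ.central _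
  obtain ⟨θ', C'⟩ := exists_cover_cover (K := K) h
  have C : Cover D (D.scGen K) θ := ⟨C'.rel, fun r hr t => eq_xG_iff.1 (hθ r t hr), C'.gen⟩
  have := C.perfect hD hK
  have := (cover_id (K := K) h).perfect hD hK
  have := (cover_id (K := K) h).finite h hg
  have h1 := isCentralExt_pbFst φ hπ
  have := h1.finite_commutator
  have := Fact.mk (CharP.char_is_prime K (ringChar K))
  have : CharP L (ringChar K) := hL ▸ ringChar.charP L
  obtain ⟨y, l, P⟩ := exists_lifts_of_coprime (gSys_nondeg (K := K) h hg) (isCentralExt_commutator h1) (ringChar K) (by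
    intro hd
    obtain ⟨z, hz⟩ := exists_prime_orderOf_dvd_card' _ hd
    have h2 : z.1.1.1.1 = 1 := z.2
    have h3 : z.1.1.1.2 ∈ Subgroup.center (GL (Fin n) L) := by
      rw [← QuotientGroup.eq_one_iff]
      exact z.1.1.2.symm.trans ((congrArg φ h2).trans (map_one φ))
    obtain ⟨c, hc⟩ := Matrix.GeneralLinearGroup.center_eq_range_scalar.le h3
    have h4 : z.1.1.1.2 ^ ringChar K = 1 := by
      have := pow_orderOf_eq_one z
      rw [hz] at this
      exact congrArg (fun z => z.1.1.1.2) this
    have h5 : z.1.1.1.2 = 1 := by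
      rw [← hc] at h4 ⊢
      ext i j
      have h6 := congrArg (fun g : GL (Fin n) L => g.1 i i) h4
      have h7 : ((c : L) - 1) ^ ringChar K = 0 := by
        rw [sub_pow_char, one_pow, sub_eq_zero]
        simpa [← map_pow] using h6
      simp [sub_eq_zero.1 (pow_eq_zero_iff (Nat.Prime.ne_zero Fact.out) |>.1 h7)]
    rw [show z = 1 from Subtype.ext (Subtype.ext (Subtype.ext (Prod.ext h2 h5))), orderOf_one] at hz
    exact (Fact.out : (ringChar K).Prime).one_lt.ne hz)
  obtain ⟨f, hf⟩ := exists_lift_of_lifts h hg l P C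
  have e : (QuotientGroup.mk' _).comp ((pbSnd φ _).comp ((commutator _).subtype.comp f)) = φ.comp θ := by
    rw [← MonoidHom.comp_assoc, pb_comm, ← hf]; rfl
  exact ⟨_, e, fun τ' h' => lift_unique_of_perfect hπ.central _ _ (h'.trans e.symm)⟩

end Cfsg.Agent.S2399
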