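import Cfsg.Statements.S2400
import Cfsg.Agent.Lib.Stein.B2

set_option autoImplicit false
open Cfsg

open Cfsg.Lie CfsgLib.Weyl CfsgLib.Chev CfsgLib.Stein CfsgLib.Schur

namespace Cfsg.Agent.S2400

/-- Over a finite field `K`, the group presented by Steinberg's relators (R1)–(R3) (the universal Chevalley group) of type E₆ or E₇, or of type B₂ or D₄ with `K` of more than two elements, has trivial Schur multiplier: every finite stem extension of it is an isomorphism (Schur multiplier described through stem extensions as in the definitions). Types G₂, F₄ and E₈ are not covered here. -/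
theorem result {K : Type*} [Field K] [Fintype K] (e : Cfsg.Lie.ChevalleyDatum × ℕ)
    (he : e ∈ [(Cfsg.Lie.chevE6, 0), (Cfsg.Lie.chevE7, 0), (Cfsg.Lie.chevB2, 2), (Cfsg.Lie.chevD4, 2)]) (hK : Fintype.card K ≠ e.2) :
    Cfsg.HasCyclicSchurMultiplier (e.1.SteinbergGroup K) 1 := by
  have hD : e.1 ∈ [chevG2, chevB2, chevD4, chevF4, chevE6, chevE7, chevE8] := by
    simp only [List.mem_cons, List.not_mem_nil, or_false] at he
    rcases he with rfl | rfl | rfl | rfl <;> simp
  have := good_of_mem hD
  have h := rtOK_of_mem hD
  have hg := genOK_of_mem hD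
  obtain ⟨θ, C⟩ := exists_cover_cover (K := K) h
  simp only [List.mem_cons, List.not_mem_nil, or_false] at he
  rcases he with rfl | rfl | rfl | rfl
  · have := C.perfect hD fun hm => absurd (List.mem_map_of_mem (f := ChevalleyDatum.rank) hm) (by decide)
    exact trivial_mult_steinberg h hg (hasLifts_E6 h hg)
  · have := C.perfect hD fun hm => absurd (List.mem_map_of_mem (f := ChevalleyDatum.rank) hm) (by decide)
    exact trivial_mult_steinberg h hg (hasLifts_E7 h hg)
  · have := C.perfect hD fun _ => exists_ne_of_card hK
    exact trivial_mult_steinberg h hg (hasLifts_B2 h hg (exists_ne_of_card hK))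
  · have := C.perfect hD fun _ => exists_ne_of_card hK
    exact trivial_mult_steinberg h hg (hasLifts_D4 h hg (exists_ne_of_card hK))

end Cfsg.Agent.S2400
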