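import Mathlib
import Cfsg.Statements.S2404
import Cfsg.Agent.Lib.CR.Exist
import Cfsg.Agent.Lib.CR.ChevR3
import Cfsg.Agent.Lib.Chev.Smith

set_option autoImplicit false
open Cfsg

namespace Cfsg.Agent.S2404

/-- Steinberg's count of semisimple classes for type E₆ when the finite simply connected group has trivial centre: over a field with `q` elements of characteristic `p` with `q ≢ 1 (mod 3)`, the simply connected group E₆(q) coincides with the Chevalley group, and the conjugacy classes of elements of order prime to `p` in the Chevalley group of type E₆ number exactly `q^6`. -/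
theorem result {F : Type*} [Field F] [Fintype F] {q : ℕ} (hq : Fintype.card F = q) (hq3 : q % 3 ≠ 1) (p : ℕ) [Fact p.Prime] [CharP F p] :
    Nat.card {c : ConjClasses ↥(Cfsg.Lie.chevE6.group F) // ∃ g : ↥(Cfsg.Lie.chevE6.group F), ConjClasses.mk g = c ∧ (orderOf g).Coprime p} = q ^ 6 := by
  have hD' : Cfsg.Lie.chevE6 ∈ [Cfsg.Lie.chevG2, Cfsg.Lie.chevB2, Cfsg.Lie.chevD4, Cfsg.Lie.chevF4,
      Cfsg.Lie.chevE6, Cfsg.Lie.chevE7, Cfsg.Lie.chevE8] := by simp
  have := CfsgLib.Chev.good_of_mem hD'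
  have h := CfsgLib.Weyl.rtOK_of_mem hD'
  have hg : Nat.gcd 3 (Fintype.card F - 1) = 1 := by
    have h1 : 0 < q := hq ▸ Fintype.card_pos
    rw [hq]
    exact (Nat.Prime.coprime_iff_not_dvd Nat.prime_three).2 (by omega)
  have hc := CfsgLib.Chev.card_diagonalSubgroup_E6 F
  rw [hg, one_mul] at hc
  rw [CfsgLib.CR.card_regular_classes (CfsgLib.St.chevSys_nondeg h F) (CfsgLib.St.chevSys_grp h F)
    (CfsgLib.CR.chevSys_r3 h F) (CfsgLib.CR.chevSys_sc h F hc) p, hq, Fintype.card_fin]
  rfl

end Cfsg.Agent.S2404
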