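import Cfsg.Statements.S2405
import Cfsg.Agent.Lib.TwoGen.Chev
import Cfsg.Agent.Lib.Chev.Cert

set_option autoImplicit false
open Cfsg

namespace Cfsg.Agent.S2405

/-- Each Chevalley group of type G₂, B₂, D₄, F₄, E₆, E₇ or E₈ over a finite field is generated by two of its elements (types B₂ and G₂ over the field with two elements, where the group is not simple, excepted). -/
theorem result {F : Type*} [Field F] [Finite F] (D : Cfsg.Lie.ChevalleyDatum) (hD : D ∈ [Cfsg.Lie.chevG2, Cfsg.Lie.chevB2, Cfsg.Lie.chevD4, Cfsg.Lie.chevF4, Cfsg.Lie.chevE6, Cfsg.Lie.chevE7, Cfsg.Lie.chevE8])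
    (hF : D ∈ [Cfsg.Lie.chevB2, Cfsg.Lie.chevG2] → ∃ x : F, x ≠ 0 ∧ x ≠ 1) :
    ∃ a b : ↥(D.group F), Subgroup.closure ({a, b} : Set ↥(D.group F)) = ⊤ := by
  have := Fintype.ofFinite F
  have := CfsgLib.Chev.good_of_mem hD
  refine CfsgLib.TwoGen.exists_pair_of_genBy' (CfsgLib.TwoGen.genBy_chev hD fun h => ?_)
  obtain ⟨x, h0, h1⟩ := hF (by simp [h])
  exact Fintype.two_lt_card_iff.2 ⟨x, 0, 1, h0, h1, zero_ne_one⟩

end Cfsg.Agent.S2405
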