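import Cfsg.Statements.S2408
import Cfsg.Agent.Lib.TwoGen.ReeF4

set_option autoImplicit false
open Cfsg

namespace Cfsg.Agent.S2408

/-- The large Ree group ²F₄(2^(2m+1)) with `m ≥ 1` is generated by two of its elements. -/
theorem result {K : Type*} [Field K] [Fintype K] {m : ℕ} (hm : 1 ≤ m) (hK : Fintype.card K = 2 ^ (2 * m + 1)) :
    ∃ a b : ↥(Cfsg.Lie.twistedF4 K (2 ^ m)), Subgroup.closure ({a, b} : Set ↥(Cfsg.Lie.twistedF4 K (2 ^ m))) = ⊤ := by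
  obtain ⟨_, θ, he, hθ⟩ := CfsgLib.Twist.exists_theta hK
  refine CfsgLib.TwoGen.exists_pair_of_genBy' (CfsgLib.TwoGen.genBy_F4 he hθ ?_)
  rw [hK]
  exact (Nat.pow_lt_pow_right one_lt_two (show 1 < 2 * m + 1 by omega) : 2 ^ 1 < _)

end Cfsg.Agent.S2408
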