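import Cfsg.Statements.S2410
import Cfsg.Agent.Lib.Sz.Models

set_option autoImplicit false
open Cfsg

namespace Cfsg.Agent.S2410

open CfsgLib.Sz Subgroup in
theorem gen {F : Type*} [Field F] [Finite F] (τ : Tits F) (h : ∃ t : F, t ≠ 0 ∧ t ≠ 1) :
    ∃ a b : τ.grp, closure {a, b} = ⊤ := by
  obtain ⟨k, hk⟩ := IsCyclic.exists_generator (α := Fˣ)
  obtain ⟨x, h0, h1⟩ := h
  refine ⟨τ.M k, τ.S 1 0 * τ.T, ?_⟩
  set K := closure {τ.M k, τ.S 1 0 * τ.T}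
  have hM : ∀ l, τ.M l ∈ K := fun l => by
    obtain ⟨i, rfl⟩ := hk l
    rw [← τ.Mhom_apply, map_zpow]
    exact zpow_mem (subset_closure (Set.mem_insert _ _)) i
  have hg : τ.S 1 0 * τ.T ∈ K := subset_closure (by simp)
  have h2 := mul_mem (mul_mem (mul_mem hg (hM (Units.mk0 x h0)⁻¹)) (inv_mem hg)) (inv_mem (hM (Units.mk0 x h0)))
  rw [show ∀ a b c d : τ.grp, a * b * c * (a * b)⁻¹ * d⁻¹ = a * (b * c * b⁻¹ * a⁻¹ * d⁻¹) by intros; group, τ.T_inv,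
    τ.T_M_T, inv_inv, τ.S_inv, τ.M_conj_S, τ.S_mul_S] at h2
  obtain ⟨a, b, ha, h3⟩ : ∃ a b, a ≠ 0 ∧ τ.S a b ∈ K :=
    ⟨_, _, fun e => h1 (τ.θ_inj (by simpa using (τ.eq_of_add_eq_zero e).symm)), h2⟩
  have h4 := fun {a b} (l) (h : τ.S a b ∈ K) => τ.M_conj_S l a b ▸ mul_mem (mul_mem (hM l) h) (inv_mem (hM l))
  have h5 : ∀ c, τ.S 0 c ∈ K := fun c => by
    obtain ⟨l, hl⟩ := Finite.surjective_of_injective (f := fun x => x ^ 2 * τ.θ x) (fun _ _ => τ.sq_mul_θ_inj)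
      (c / (a * τ.θ a))
    by_cases e : l = 0
    · simp_all [τ.S_zero, eq_comm (a := (0 : F))]
    · have := h4 (Units.mk0 l e) (τ.S_sq a b ▸ mul_mem h3 h3)
      rwa [mul_zero, Units.val_mk0, show l ^ 2 * τ.θ l = _ from hl, div_mul_cancel₀ _ (by simpa using ha)] at this
  have h6 : ∀ c d, τ.S c d ∈ K := fun c d => by
    obtain ⟨l, hl⟩ := Finite.surjective_of_injective τ.θ.injective (c / a)
    by_cases e : l = 0
    · simp_all [eq_comm (a := (0 : F))]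
    · have := mul_mem (h4 (Units.mk0 l e) h3) (h5 (d - l ^ 2 * (c / a) * b))
      simpa [τ.S_mul_S, hl, ha] using this
  exact Tits.eq_top_of_mem h6 hM ((K.mul_mem_cancel_left (h6 _ _)).1 hg)

/-- The Suzuki group over the field with `2^(2m+1)` elements, `m ≥ 1` (realised as the stabiliser in `SL₄` of the Suzuki–Tits ovoid), is generated by two of its elements. -/
theorem result {F : Type*} [Field F] [Fintype F] {m : ℕ} (hm : 1 ≤ m) (hF : Fintype.card F = 2 ^ (2 * m + 1)) :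
    ∃ a b : ↥(Cfsg.Sz F m), Subgroup.closure ({a, b} : Set ↥(Cfsg.Sz F m)) = ⊤ := by
  obtain ⟨a, b, h⟩ := gen (CfsgLib.Sz.tits hF) (CfsgLib.Sz.exists_ne_zero_one hm hF)
  let e := CfsgLib.Sz.szEquiv hm hF
  refine ⟨e a, e b, ?_⟩
  rw [← Subgroup.map_top_of_surjective e.toMonoidHom e.surjective, ← h, MonoidHom.map_closure, Set.image_pair]
  rfl

end Cfsg.Agent.S2410
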