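import Mathlib
import Cfsg.Statements.S2416
import Cfsg.Agent.Lib.RGD.ChevTools

set_option autoImplicit false
open scoped MatrixGroups
open Cfsg

namespace Cfsg.Agent.S2416

open CfsgLib.Chev CfsgLib.Weyl CfsgLib.RGD Cfsg.Lie

theorem cast_ne {K : Type*} [Field K] {p : ℕ} (hp : p.Prime) (h : ringChar K ≠ p) : ((p : ℤ) : K) ≠ 0 :=
  fun h' => h (CharP.ringChar_of_prime_eq_zero hp (by exact_mod_cast h'))

/-- A Chevalley group of type G₂, B₂, D₄, F₄, E₆, E₇ or E₈ over a finite field lies in (indeed equals) the subgroup generated by its monomial subgroup `N` and a single fundamental root subgroup `X_p`, where `p` is a short fundamental root if there are two root lengths (any fundamental root otherwise), provided the characteristic is not 2 for types B₂, F₄ and not 3 for type G₂ (and the field has more than two elements for B₂, G₂). -/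
theorem result {K : Type*} [Field K] [Finite K] (D : Cfsg.Lie.ChevalleyDatum) (hD : D ∈ [Cfsg.Lie.chevG2, Cfsg.Lie.chevB2, Cfsg.Lie.chevD4, Cfsg.Lie.chevF4, Cfsg.Lie.chevE6, Cfsg.Lie.chevE7, Cfsg.Lie.chevE8])
    (hK : D ∈ [Cfsg.Lie.chevB2, Cfsg.Lie.chevG2] → ∃ x : K, x ≠ 0 ∧ x ≠ 1)
    (h2 : D ∈ [Cfsg.Lie.chevB2, Cfsg.Lie.chevF4] → ringChar K ≠ 2) (h3 : D = Cfsg.Lie.chevG2 → ringChar K ≠ 3)
    (i : ℕ) (hi : i < D.rank) (hshort : D.isLong (D.simple i) = false) :
    D.group K ≤ D.monomialSubgroup K ⊔ D.rootSubgroup K (D.simple i) := by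
  have := good_of_mem hD; have h := rtOK_of_mem hD
  set M := D.monomialSubgroup K ⊔ D.rootSubgroup K (D.simple i) with hM
  have hN : D.monomialSubgroup K ≤ M := le_sup_left
  have h0 := xU_mem_of_reach hN D.rank (L := [i]) (by
    simpa using ⟨hi, fun t => Subgroup.mem_sup_right (mem_rootSubgroup_iff.2 ⟨t, rfl⟩)⟩)
  clear_value M
  refine group_le_of_simple h hN ?_
  simp only [List.mem_cons, List.not_mem_nil, or_false] at hD
  rcases hD with rfl | rfl | rfl | rfl | rfl | rfl | rfl
  · obtain rfl : i = 0 := by clear hM h0; revert i; decide +kernel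
    have h7 : ∀ t, xU chevG2 K 7 t ∈ M := (h0 0 (by decide +kernel)).2
    have h8 : ∀ t, xU chevG2 K 8 t ∈ M := xU_reflectRoot_mem hN (i := 1) (by decide) (by decide) h7
    have h9 : ∀ t, xU chevG2 K 9 t ∈ M := xU_reflectRoot_mem hN (i := 0) (by decide) (by decide) h8
    have h10 := xU_mem_of_commTerms (k := 10) (c := 3) (by decide) (by decide) (by decide)
      (by decide +kernel) (cast_ne Nat.prime_three (h3 rfl)) h7 h9
    have h6 : ∀ t, xU chevG2 K 6 t ∈ M := xU_reflectRoot_mem hN (i := 0) (by decide) (by decide) h10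
    intro j hj
    have hj' : j < 2 := hj
    interval_cases j
    exacts [h7, h6]
  · obtain rfl : i = 0 := by clear hM h0; revert i; decide +kernel
    have h5 : ∀ t, xU chevB2 K 5 t ∈ M := (h0 0 (by decide +kernel)).2
    have h6 : ∀ t, xU chevB2 K 6 t ∈ M := xU_reflectRoot_mem hN (i := 1) (by decide) (by decide) h5
    have h7 := xU_mem_of_commTerms (k := 7) (c := 2) (by decide) (by decide) (by decide)
      (by decide +kernel) (cast_ne Nat.prime_two (h2 (by simp))) h5 h6
    have h4 : ∀ t, xU chevB2 K 4 t ∈ M := xU_reflectRoot_mem hN (i := 0) (by decide) (by decide) h7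
    intro j hj
    have hj' : j < 2 := hj
    interval_cases j
    exacts [h5, h4]
  · exact fun j hj => (h0 j (by clear hM h0 hshort; revert i j; decide +kernel)).2
  · have h27 : ∀ t, xU chevF4 K 27 t ∈ M := (h0 1 (by clear hM h0; revert i; decide +kernel)).2
    have h33 : ∀ t, xU chevF4 K 33 t ∈ M := (h0 0 (by clear hM h0; revert i; decide +kernel)).2
    have h28 : ∀ t, xU chevF4 K 28 t ∈ M := xU_reflectRoot_mem hN (i := 2) (by decide) (by decide) h27
    have h30 := xU_mem_of_commTerms (k := 30) (c := 2) (by decide) (by decide) (by decide)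
      (by decide +kernel) (cast_ne Nat.prime_two (h2 (by simp))) h27 h28
    have h25 : ∀ t, xU chevF4 K 25 t ∈ M := xU_reflectRoot_mem hN (i := 1) (by decide) (by decide) h30
    have h24 : ∀ t, xU chevF4 K 24 t ∈ M :=
      (xU_mem_of_reach hN 1 (L := [2]) (by simpa using ⟨by decide, h25⟩) 3 (by decide +kernel)).2
    intro j hj
    have hj' : j < 4 := hj
    interval_cases j
    exacts [h33, h27, h25, h24]
  all_goals exact fun j hj => (h0 j (by clear hM h0 hshort; revert i j; decide +kernel)).2

end Cfsg.Agent.S2416
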