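import Mathlib
import Cfsg.Statements.S2417
import Cfsg.Agent.Lib.RGD.ChevTools

set_option autoImplicit false
open scoped MatrixGroups
open Cfsg

namespace Cfsg.Agent.S2417

open CfsgLib.Chev CfsgLib.Weyl CfsgLib.RGD Cfsg.Lie
set_option synthInstance.maxSize 2000

/-- In the characteristics with an exceptional graph symmetry — type B₂ or F₄ in characteristic 2 (field of more than two elements for B₂) and type G₂ in characteristic 3 — the Chevalley group lies in the subgroup generated by its monomial subgroup `N` and the two fundamental root subgroups `X_a`, `X_b` of a short root `a` and a long root `b` joined in the Dynkin diagram. -/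
theorem result {K : Type*} [Field K] [Finite K] (e : Cfsg.Lie.ChevalleyDatum × ℕ)
    (he : e ∈ [(Cfsg.Lie.chevB2, 2), (Cfsg.Lie.chevF4, 2), (Cfsg.Lie.chevG2, 3)]) [CharP K e.2]
    (hK : e.1 = Cfsg.Lie.chevB2 → ∃ x : K, x ≠ 0 ∧ x ≠ 1)
    (i j : ℕ) (hi : i < e.1.rank) (hj : j < e.1.rank) (hshort : e.1.isLong (e.1.simple i) = false)
    (hlong : e.1.isLong (e.1.simple j) = true) (hbond : e.1.bonds i j ≠ 0) :
    e.1.group K ≤ e.1.monomialSubgroup K ⊔ e.1.rootSubgroup K (e.1.simple i) ⊔ e.1.rootSubgroup K (e.1.simple j) := by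
  obtain ⟨D, c⟩ := e
  have hD : D ∈ [chevG2, chevB2, chevD4, chevF4, chevE6, chevE7, chevE8] := by
    simp only [List.mem_cons, List.not_mem_nil, or_false, Prod.mk.injEq] at he
    rcases he with ⟨rfl, -⟩ | ⟨rfl, -⟩ | ⟨rfl, -⟩ <;> simp
  have := good_of_mem hD; have h := rtOK_of_mem hD
  have hN : D.monomialSubgroup K ≤ D.monomialSubgroup K ⊔ D.rootSubgroup K (D.simple i) ⊔
    D.rootSubgroup K (D.simple j) := le_sup_left.trans le_sup_left
  have h0 := xU_mem_of_reach hN D.rank (L := [i, j]) (by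
    simpa using ⟨⟨hi, fun t => Subgroup.mem_sup_left
      (Subgroup.mem_sup_right (mem_rootSubgroup_iff.2 ⟨t, rfl⟩))⟩,
      hj, fun t => Subgroup.mem_sup_right (mem_rootSubgroup_iff.2 ⟨t, rfl⟩)⟩)
  refine group_le_of_simple h hN fun k hk => (h0 k ?_).2
  simp only [List.mem_cons, List.not_mem_nil, or_false, Prod.mk.injEq] at he
  dsimp only at hi hj hshort hlong
  have key : ∀ i < D.rank, ∀ j < D.rank, ∀ k < D.rank, D.isLong (D.simple i) = false →
      D.isLong (D.simple j) = true → k ∈ (reachStep D)^[D.rank] [i, j] := by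
    rcases he with ⟨rfl, -⟩ | ⟨rfl, -⟩ | ⟨rfl, -⟩ <;> decide +kernel
  exact key i hi j hj k hk hshort hlong

end Cfsg.Agent.S2417
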