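import Cfsg.Statements.S2418
import Cfsg.Agent.Lib.Weyl.Center

set_option autoImplicit false
open Cfsg

namespace Cfsg.Agent.S2418

open CfsgLib.Weyl
/-- For the Coxeter groups of types B₂, G₂, D₄, F₄, E₇, E₈ the centre has order 2 (the element acting as −1 on the root system) and is generated by a power of the Coxeter element `s₁ s₂ ⋯ s_l`; the Coxeter group of type E₆ has trivial centre. -/
theorem result (c : (Σ n : ℕ, CoxeterMatrix (Fin n)) × ℕ)
    (hc : c ∈ [(⟨2, CoxeterMatrix.B 2⟩, 2), (⟨2, CoxeterMatrix.G₂⟩, 2), (⟨4, Cfsg.Lie.coxeterD4⟩, 2), (⟨4, CoxeterMatrix.F₄⟩, 2),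
      (⟨6, CoxeterMatrix.E₆⟩, 1), (⟨7, CoxeterMatrix.E₇⟩, 2), (⟨8, CoxeterMatrix.E₈⟩, 2)]) :
    Nat.card (Subgroup.center c.1.2.Group) = c.2 ∧
      Subgroup.center c.1.2.Group ≤ Subgroup.zpowers ((List.finRange c.1.1).map c.1.2.simple).prod := by
  simp only [List.mem_cons, List.not_mem_nil, or_false] at hc
  rcases hc with rfl | rfl | rfl | rfl | rfl | rfl | rfl
  · exact coxM_B2 ▸ center_two hasChainB2 rtOKB2 tablesOKB2 (a := 0) (by decide) (by decide +kernel) 2
      (by decide +kernel)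
  · exact coxM_G2 ▸ center_two hasChainG2 rtOKG2 tablesOKG2 (a := 0) (by decide) (by decide +kernel) 3
      (by decide +kernel)
  · exact coxM_D4 ▸ center_two hasChainD4 rtOKD4 tablesOKD4 (a := 1) (by decide) (by decide +kernel) 3
      (by decide +kernel)
  · exact coxM_F4 ▸ center_two hasChainF4 rtOKF4 tablesOKF4 (a := 0) (by decide) (by decide +kernel) 6
      (by decide +kernel)
  · have := coxM_E6 ▸ center_one hasChainE6 rtOKE6 tablesOKE6 (a := 5) (by decide) (by decide +kernel)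
      [0, 1, 2, 0, 3, 1, 2, 0, 3, 2, 4, 3, 1, 2, 0, 3, 2, 4, 3, 1, 5, 4, 3, 1, 2, 0, 3, 2, 4, 3, 1, 5, 4, 3, 2, 0]
      (by decide) (by decide +kernel) (by decide +kernel)
    exact this.symm ▸ ⟨Subgroup.card_bot, bot_le⟩
  · exact coxM_E7 ▸ center_two hasChainE7 rtOKE7 tablesOKE7 (a := 6) (by decide) (by decide +kernel) 9
      (by decide +kernel)
  · exact coxM_E8 ▸ center_two hasChainE8 rtOKE8 tablesOKE8 (a := 7) (by decide) (by decide +kernel) 15
      (by decide +kernel)
end Cfsg.Agent.S2418
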