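import Cfsg.Statements.S2419
import Cfsg.Agent.Lib.Weyl.Center

set_option autoImplicit false
open Cfsg

namespace Cfsg.Agent.S2419

open CfsgLib.Weyl
/-- The Coxeter groups of types B₂, G₂, E₆, E₇, E₈ are generated by the Coxeter element `s₁ s₂ ⋯ s_l` together with one suitable reflection (a conjugate of a simple reflection); for types D₄ and F₄ the Coxeter element together with two suitable reflections suffices. -/
theorem result (c : (Σ n : ℕ, CoxeterMatrix (Fin n)) × ℕ)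
    (hc : c ∈ [(⟨2, CoxeterMatrix.B 2⟩, 1), (⟨2, CoxeterMatrix.G₂⟩, 1), (⟨4, Cfsg.Lie.coxeterD4⟩, 2), (⟨4, CoxeterMatrix.F₄⟩, 2),
      (⟨6, CoxeterMatrix.E₆⟩, 1), (⟨7, CoxeterMatrix.E₇⟩, 1), (⟨8, CoxeterMatrix.E₈⟩, 1)]) :
    ∃ T : Finset c.1.2.Group, T.card = c.2 ∧ (∀ t ∈ T, ∃ (g : c.1.2.Group) (i : Fin c.1.1), t = g * c.1.2.simple i * g⁻¹) ∧
      Subgroup.closure (({((List.finRange c.1.1).map c.1.2.simple).prod} : Set c.1.2.Group) ∪ ↑T) = ⊤ := by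
  simp only [List.mem_cons, List.not_mem_nil, or_false] at hc
  rcases hc with rfl | rfl | rfl | rfl | rfl | rfl | rfl
  · exact coxM_B2 ▸ gen_cox hasChainB2 rtOKB2 tablesOKB2 [0]
      [[2], [2, 0]]
      (by decide) (by decide +kernel) (by decide +kernel)
  · exact coxM_G2 ▸ gen_cox hasChainG2 rtOKG2 tablesOKG2 [0]
      [[2], [2, 0]]
      (by decide) (by decide +kernel) (by decide +kernel)
  · exact coxM_D4 ▸ gen_cox hasChainD4 rtOKD4 tablesOKD4 [1, 2]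
      [[1, 3, 0], [3], [4], [0, 4, 3, 4, 1]]
      (by decide) (by decide +kernel) (by decide +kernel)
  · exact coxM_F4 ▸ gen_cox hasChainF4 rtOKF4 tablesOKF4 [0, 2]
      [[2], [0, 2, 1], [4], [0, 4, 1]]
      (by decide) (by decide +kernel) (by decide +kernel)
  · exact coxM_E6 ▸ gen_cox hasChainE6 rtOKE6 tablesOKE6 [3]
      [[1, 1, 1, 1, 1, 5, 0, 0, 0, 0, 0], [5, 1, 1, 1, 5, 0, 0, 0, 5], [1, 1, 1, 1, 5, 0, 0, 0, 0], [5], [0, 5, 1], [0, 0, 5, 1, 1]]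
      (by decide) (by decide +kernel) (by decide +kernel)
  · exact coxM_E7 ▸ gen_cox hasChainE7 rtOKE7 tablesOKE7 [3]
      [[1, 5, 1, 1, 1, 1, 5, 0, 0, 0, 0, 5, 0], [5, 0, 5, 1, 1, 1, 1, 5, 0, 0, 0, 0, 5, 1, 5], [5, 1, 1, 1, 1, 5, 0, 0, 0, 0, 5], [5], [0, 5, 1], [0, 0, 5, 1, 1], [0, 0, 0, 5, 1, 1, 1]]
      (by decide) (by decide +kernel) (by decide +kernel)
  · exact coxM_E8 ▸ gen_cox hasChainE8 rtOKE8 tablesOKE8 [3]
      [[1, 5, 0, 0, 0, 0, 0, 0, 5, 1, 1, 1, 1, 1, 1, 5, 0], [5, 0, 5, 0, 0, 0, 0, 0, 0, 5, 1, 1, 1, 1, 1, 1, 5, 1, 5], [5, 0, 0, 0, 0, 0, 0, 5, 1, 1, 1, 1, 1, 1, 5], [5], [0, 5, 1], [0, 0, 5, 1, 1], [0, 0, 0, 5, 1, 1, 1], [0, 0, 0, 0, 5, 1, 1, 1, 1]]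
      (by decide) (by decide +kernel) (by decide +kernel)
end Cfsg.Agent.S2419
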