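import Cfsg.Statements.S2425
import Cfsg.Agent.Lib.GLFlag.Index

set_option autoImplicit false
open scoped MatrixGroups
open Cfsg

namespace Cfsg.Agent.S2425

set_option linter.unusedSectionVars false
set_option linter.style.haveILetI false

open Polynomial Finset Module UniqueFactorizationMonoid

section comb

/-- the alternating sum -/
noncomputable def SS (n k : ℕ) (Φ : (Fin n → ℕ) → ℂ) : ℂ :=
  ∑ κ : Equiv.Perm (Fin n), if ∀ i : Fin n, (κ i).val ≤ 1 + i.val then
    ((Equiv.Perm.sign κ : ℤ) : ℂ) * Φ (fun i => 1 + i.val - (κ i).val + if (κ i).val = 0 then k else 0)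
    else 0

theorem SS_sum {ι : Type*} (s : Finset ι) (n k : ℕ) (Φ : ι → (Fin n → ℕ) → ℂ) :
    SS n k (fun μ => ∑ a ∈ s, Φ a μ) = ∑ a ∈ s, SS n k (Φ a) := by
  unfold SS
  rw [Finset.sum_comm]
  refine Finset.sum_congr rfl fun κ _ => ?_
  split_ifs
  · rw [Finset.mul_sum]
  · simp

theorem SS_one (k : ℕ) (Φ : (Fin 1 → ℕ) → ℂ) : SS 1 k Φ = Φ (fun _ => 1 + k) := by
  unfold SS
  rw [Fintype.sum_unique, if_pos (by intro i; omega)]
  have : (default : Equiv.Perm (Fin 1)) = 1 := Subsingleton.elim _ _
  rw [this]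
  simp

theorem SS_succ (n k : ℕ) (Φ : (Fin (n + 2) → ℕ) → ℂ) :
    SS (n + 2) k Φ = SS (n + 1) 0 (fun μ => Φ (Fin.cons (1 + k) μ)) -
      SS (n + 1) (k + 1) (fun μ => Φ (Fin.cons 0 μ)) := by
  unfold SS
  rw [← Equiv.Perm.decomposeFin.symm.sum_comp, Fintype.sum_prod_type, Fin.sum_univ_succ,
    Fin.sum_univ_succ, Finset.sum_eq_zero (s := univ) (f := fun p : Fin n => _), add_zero,
    sub_eq_add_neg, ← Finset.sum_neg_distrib]
  · congr 1
    · refine Finset.sum_congr rfl fun e _ => ?_
      refine if_congr ?_ ?_ rfl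
      · rw [Fin.forall_fin_succ]
        simp only [Equiv.Perm.decomposeFin_symm_apply_zero,
          Equiv.Perm.decomposeFin_symm_apply_succ, Equiv.swap_self, Equiv.refl_apply, Fin.val_succ]
        exact ⟨fun h i => by have := h.2 i; omega, fun h => ⟨by simp, fun i => by have := h i; omega⟩⟩
      · rw [Equiv.Perm.decomposeFin.symm_sign]
        congr 1
        · simp
        · congr 1
          ext i
          refine Fin.cases ?_ (fun j => ?_) i
          · simp
          · simp only [Equiv.Perm.decomposeFin_symm_apply_succ, Equiv.swap_self, Equiv.refl_apply,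
              Fin.val_succ, Fin.cons_succ]
            simp
            omega
    · refine Finset.sum_congr rfl fun e _ => ?_
      have hsw : ∀ j : Fin (n + 1), ((Equiv.swap (0 : Fin (n + 2)) (Fin.succ 0) j.succ : Fin (n + 2)) : ℕ)
          = if (j : ℕ) = 0 then (0 : ℕ) else (j : ℕ) + 1 := by
        intro j
        refine Fin.cases ?_ (fun i => ?_) j
        · simp
        · rw [Equiv.swap_apply_of_ne_of_ne (Fin.succ_ne_zero _)
            (fun h => Fin.succ_ne_zero _ (Fin.succ_injective _ h))]
          simp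
      rw [neg_ite, neg_zero]
      refine if_congr ?_ ?_ rfl
      · rw [Fin.forall_fin_succ]
        simp only [Equiv.Perm.decomposeFin_symm_apply_zero,
          Equiv.Perm.decomposeFin_symm_apply_succ, hsw, Fin.val_succ]
        refine ⟨fun h i => ?_, fun h => ⟨by simp, fun i => ?_⟩⟩
        · have := h.2 i
          split_ifs at this <;> omega
        · have := h i
          split_ifs <;> omega
      · rw [Equiv.Perm.decomposeFin.symm_sign, if_neg (Fin.succ_ne_zero _), ← neg_mul]
        congr 1
        · simp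
        · congr 1
          ext i
          refine Fin.cases ?_ (fun j => ?_) i
          · simp
          · simp only [Equiv.Perm.decomposeFin_symm_apply_succ, hsw, Fin.val_succ, Fin.cons_succ]
            by_cases h : (e j : ℕ) = 0
            · simp only [h, if_true]
              omega
            · simp only [h, if_false, Nat.add_one_ne_zero]
              omega
  · intro p _
    refine Finset.sum_eq_zero fun e _ => if_neg fun h => ?_
    have := h 0
    simp at this

variable {L : Type*} [PartialOrder L] (dim : L → ℕ)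

/-- descending chains below `U` with prescribed dimension jumps -/
def IsCh {n : ℕ} (U : L) (μ : Fin n → ℕ) (Z : Fin n → L) : Prop :=
  ∀ i : Fin n, Z i ≤ (Fin.cons U Z : Fin (n + 1) → L) i.castSucc ∧
    dim (Z i) + μ i = dim ((Fin.cons U Z : Fin (n + 1) → L) i.castSucc)

theorem isCh_cons {n : ℕ} (U W : L) (a : ℕ) (μ : Fin n → ℕ) (Z : Fin n → L) :
    IsCh dim U (Fin.cons a μ : Fin (n + 1) → ℕ) (Fin.cons W Z) ↔
      (W ≤ U ∧ dim W + a = dim U) ∧ IsCh dim W μ Z := by
  unfold IsCh
  rw [Fin.forall_fin_succ]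
  rfl

theorem IsCh.le {n : ℕ} {U : L} {μ : Fin n → ℕ} {Z : Fin n → L} (h : IsCh dim U μ Z) (i : Fin n) :
    Z i ≤ U := by
  induction n generalizing U with
  | zero => exact i.elim0
  | succ n ih =>
    rw [← Fin.cons_self_tail μ, ← Fin.cons_self_tail Z, isCh_cons] at h
    refine Fin.cases h.1.1 (fun j => ?_) i
    exact (ih h.2 j).trans h.1.1

open Classical in
/-- number of chains -/
noncomputable def NC [Fintype L] {n : ℕ} (U : L) (μ : Fin n → ℕ) : ℂ :=
  ∑ Z : Fin n → L, if IsCh dim U μ Z then 1 else 0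

open Classical in
theorem NC_cons [Fintype L] {n : ℕ} (U : L) (a : ℕ) (μ : Fin n → ℕ) :
    NC dim U (Fin.cons a μ : Fin (n + 1) → ℕ) =
      ∑ W with (W ≤ U ∧ dim W + a = dim U), NC dim W μ := by
  unfold NC
  rw [← (Fin.consEquiv fun _ : Fin (n + 1) => L).sum_comp, Fintype.sum_prod_type, Finset.sum_filter]
  refine Finset.sum_congr rfl fun W _ => ?_
  split_ifs with h
  · refine Finset.sum_congr rfl fun Z _ => if_congr ?_ rfl rfl
    exact (isCh_cons dim U W a μ Z).trans (and_iff_right h)
  · exact Finset.sum_eq_zero fun Z _ => if_neg fun h' => h ((isCh_cons dim U W a μ Z).1 h').1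

theorem NC_zero [Fintype L] (U : L) (μ : Fin 0 → ℕ) : NC dim U μ = 1 := by
  unfold NC
  rw [Fintype.sum_unique]
  exact if_pos fun i => i.elim0

open Classical in
theorem SS_NC [Fintype L] (hdim : StrictMono dim) (m : L → ℂ)
    (hm : ∀ U, ∑ W with W ≤ U, m W = if dim U = 0 then 1 else 0) (n : ℕ) :
    ∀ (k : ℕ) (U : L), dim U = n + 1 + k →
      SS (n + 1) k (NC dim U) = (-1) ^ n * ∑ W with (W ≤ U ∧ dim W ≤ n), m W := by
  have hsplit : ∀ (U : L) (n : ℕ), dim U = n + 1 → ∑ W with (W ≤ U ∧ dim W ≤ n), m W = - m U := by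
    intro U n hU
    have h1 := hm U
    rw [if_neg (by omega), ← Finset.add_sum_erase _ _ (a := U) (by simp)] at h1
    rw [eq_neg_iff_add_eq_zero, add_comm, ← h1]
    congr 1
    refine Finset.sum_congr ?_ fun _ _ => rfl
    ext W
    simp only [mem_filter, mem_univ, true_and, mem_erase]
    constructor
    · rintro ⟨h2, h3⟩
      exact ⟨by rintro rfl; omega, h2⟩
    · rintro ⟨h2, h3⟩
      have := hdim (lt_of_le_of_ne h3 h2)
      exact ⟨h3, by omega⟩
  have hself : ∀ (U : L) (f : L → ℂ), ∑ W with (W ≤ U ∧ dim W + 0 = dim U), f W = f U := by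
    intro U f
    refine Finset.sum_eq_single_of_mem U (by simp) fun W hW hne => ?_
    rw [mem_filter] at hW
    have := hdim (lt_of_le_of_ne hW.2.1 hne)
    omega
  induction n with
  | zero =>
    intro k U hU
    have : (fun _ : Fin 1 => 1 + k) = Fin.cons (1 + k) Fin.elim0 := by
      ext i
      rw [Subsingleton.elim i 0]
      rfl
    rw [SS_one, this, NC_cons, pow_zero, one_mul]
    refine Finset.sum_congr ?_ fun W hW => ?_
    · ext W
      simp only [mem_filter, mem_univ, true_and]
      exact and_congr_right fun _ => by omega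
    · rw [mem_filter] at hW
      have h1 := hm W
      rw [if_pos (by omega)] at h1
      rw [NC_zero, ← h1, ← hself W m]
      refine Finset.sum_congr ?_ fun _ _ => rfl
      ext W'
      simp only [mem_filter, mem_univ, true_and]
      refine ⟨fun h => ⟨h, ?_⟩, fun h => h.1⟩
      have := hdim.monotone h
      omega
  | succ n ih =>
    intro k U hU
    rw [SS_succ]
    simp only [NC_cons]
    rw [SS_sum, SS_sum, hself U (fun W => SS (n + 1) (k + 1) (NC dim W)), ih (k + 1) U (by omega)]
    have h1 : ∑ W with (W ≤ U ∧ dim W + (1 + k) = dim U), SS (n + 1) 0 (NC dim W) =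
        (-1) ^ (n + 1) * ∑ W with (W ≤ U ∧ dim W = n + 1), m W := by
      rw [Finset.mul_sum]
      refine Finset.sum_congr ?_ fun W hW => ?_
      · ext W
        simp only [mem_filter, mem_univ, true_and]
        exact and_congr_right fun _ => by omega
      · rw [mem_filter] at hW
        rw [ih 0 W (by omega), hsplit W n hW.2.2]
        ring
    have h2 : ∑ W with (W ≤ U ∧ dim W ≤ n + 1), m W =
        ∑ W with (W ≤ U ∧ dim W = n + 1), m W + ∑ W with (W ≤ U ∧ dim W ≤ n), m W := by
      rw [← Finset.sum_union]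
      · refine Finset.sum_congr ?_ fun _ _ => rfl
        ext W
        simp only [mem_filter, mem_univ, true_and, mem_union]
        rw [← and_or_left]
        exact and_congr_right fun _ => by omega
      · rw [Finset.disjoint_filter]
        rintro W - h3 h4
        omega
    rw [h1, h2]
    ring

open Classical in
theorem SS_NC' [Fintype L] (hdim : StrictMono dim) (m : L → ℂ)
    (hm : ∀ U, ∑ W with W ≤ U, m W = if dim U = 0 then 1 else 0) (U : L) (n : ℕ) (hU : dim U = n) :
    SS n 0 (NC dim U) = (-1) ^ n * m U := by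
  have h1 := hm U
  rw [← Finset.add_sum_erase _ _ (a := U) (by simp)] at h1
  rcases n with _ | n
  · rw [if_pos hU, Finset.sum_eq_zero, add_zero] at h1
    · unfold SS
      rw [Fintype.sum_unique, if_pos fun i => i.elim0, NC_zero, h1]
      have : (default : Equiv.Perm (Fin 0)) = 1 := Subsingleton.elim _ _
      rw [this]
      simp
    · intro W hW
      simp only [mem_filter, mem_univ, true_and, mem_erase] at hW
      have := hdim (lt_of_le_of_ne hW.2 hW.1)
      omega
  · rw [SS_NC dim hdim m hm n 0 U hU]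
    rw [if_neg (by omega)] at h1
    have : ∑ W with (W ≤ U ∧ dim W ≤ n), m W = - m U := by
      rw [eq_neg_iff_add_eq_zero, add_comm, ← h1]
      congr 1
      refine Finset.sum_congr ?_ fun _ _ => rfl
      ext W
      simp only [mem_filter, mem_univ, true_and, mem_erase]
      constructor
      · rintro ⟨h2, h3⟩
        exact ⟨by rintro rfl; omega, h2⟩
      · rintro ⟨h2, h3⟩
        have := hdim (lt_of_le_of_ne h3 h2)
        exact ⟨h3, by omega⟩
    rw [this]
    ring

end comb

section mod
variable {F : Type*} [Field F]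

/-- characteristic polynomial of `X` on a module -/
noncomputable def cp (F : Type*) [Field F] (M : Type*) [AddCommGroup M] [Module F M]
    [Module F[X] M] [IsScalarTower F F[X] M] [Module.Finite F M] : F[X] :=
  LinearMap.charpoly (Algebra.lsmul F F M (X : F[X]))

variable {M N : Type*} [AddCommGroup M] [Module F M] [Module F[X] M] [IsScalarTower F F[X] M]
  [Module.Finite F M] [AddCommGroup N] [Module F N] [Module F[X] N] [IsScalarTower F F[X] N]
  [Module.Finite F N]

instance instFin (W : Submodule F[X] M) : Module.Finite F W :=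
  Module.Finite.of_injective (W.subtype.restrictScalars F) Subtype.val_injective

theorem cp_equiv (e : M ≃ₗ[F[X]] N) : cp F M = cp F N := by
  unfold cp
  rw [← LinearEquiv.charpoly_conj (e.restrictScalars F)]
  congr 1
  ext v
  simp [LinearEquiv.conj_apply]

theorem cp_prod : cp F (M × N) = cp F M * cp F N := by
  unfold cp
  rw [← LinearMap.charpoly_prodMap]
  rfl

theorem cp_monic : (cp F M).Monic := LinearMap.charpoly_monic _

theorem cp_natDegree : (cp F M).natDegree = finrank F M := LinearMap.charpoly_natDegree _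

theorem aeval_lsmul (p : F[X]) (v : M) : aeval (Algebra.lsmul F F M (X : F[X])) p v = p • v := by
  rw [aeval_algHom_apply, aeval_X_left_apply]
  rfl

theorem cp_smul (v : M) : cp F M • v = 0 := by
  rw [← aeval_lsmul, cp, LinearMap.aeval_self_charpoly]
  rfl

theorem cp_irreducible [IsSimpleModule F[X] M] : Irreducible (cp F M) := by
  classical
  obtain ⟨I, hI, ⟨e⟩⟩ := isSimpleModule_iff_quot_maximal.1 (inferInstance : IsSimpleModule F[X] M)
  have h0 : I ≠ ⊥ := Ring.ne_bot_of_isMaximal_of_not_isField hI (Polynomial.not_isField F)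
  obtain ⟨g, rfl⟩ := (IsPrincipalIdealRing.principal I).principal
  have hg0 : g ≠ 0 := fun h => h0 (by simp [h])
  have hg : Irreducible g := ((Ideal.span_singleton_prime hg0).1 hI.isPrime).irreducible
  have hf : Irreducible (normalize g) := (associated_normalize g).irreducible hg
  have hm : (normalize g).Monic := monic_normalize hg0
  have := IsSimpleModule.nontrivial F[X] M
  have h1 : normalize g = minpoly F (Algebra.lsmul F F M (X : F[X])) := by
    refine minpoly.eq_of_irreducible_of_monic hf ?_ hm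
    ext v
    rw [aeval_lsmul]
    refine e.injective ?_
    obtain ⟨w, hw⟩ := Submodule.Quotient.mk_surjective _ (e v)
    rw [map_smul, ← hw, LinearMap.zero_apply, map_zero, ← Submodule.Quotient.mk_smul,
      Submodule.Quotient.mk_eq_zero]
    exact Ideal.mem_span_singleton.2 ((associated_normalize g).dvd.mul_right w)
  have h2 : finrank F M = g.natDegree := by
    rw [(e.restrictScalars F).finrank_eq]
    exact (AdjoinRoot.powerBasis hg0).finrank
  have h3 : cp F M = normalize g := by
    refine Polynomial.eq_of_monic_of_dvd_of_natDegree_le hm cp_monic ?_ ?_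
    · rw [h1]; exact LinearMap.minpoly_dvd_charpoly _
    · rw [cp_natDegree, h2, natDegree_eq_of_degree_eq (degree_normalize (p := g))]
  rwa [h3]

theorem card_hom_simple [Finite F] [IsSimpleModule F[X] M] [IsSimpleModule F[X] N]
    [DecidableEq F] : Nat.card (M →ₗ[F[X]] N) =
      if cp F M = cp F N then Nat.card F ^ (cp F N).natDegree else 1 := by
  split_ifs with h
  · rw [cp_natDegree, ← Module.natCard_eq_pow_finrank]
    have := IsSimpleModule.nontrivial F[X] M
    obtain ⟨v, hv⟩ := exists_ne (0 : M)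
    have hs := IsSimpleModule.toSpanSingleton_surjective F[X] hv
    refine Nat.card_congr (Equiv.ofBijective (fun φ => φ v) ⟨fun φ ψ h1 => ?_, fun a => ?_⟩)
    · ext w
      obtain ⟨p, rfl⟩ := hs w
      have h2 : φ v = ψ v := h1
      simp [h2]
    · have hk : LinearMap.ker (LinearMap.toSpanSingleton F[X] M v) ≤
          LinearMap.ker (LinearMap.toSpanSingleton F[X] N a) := by
        have hmax : (Ideal.span {cp F M}).IsMaximal :=
          PrincipalIdealRing.isMaximal_of_irreducible cp_irreducible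
        rw [← hmax.eq_of_le (IsSimpleModule.ker_toSpanSingleton_isMaximal F[X] hv).ne_top
          ((Ideal.span_singleton_le_iff_mem _).2 (cp_smul v))]
        exact (Ideal.span_singleton_le_iff_mem _).2 (h ▸ cp_smul a)
      refine ⟨(Submodule.liftQ _ _ hk).comp (LinearMap.quotKerEquivOfSurjective _ hs).symm.toLinearMap,
        ?_⟩
      have : (LinearMap.quotKerEquivOfSurjective _ hs).symm v = Submodule.Quotient.mk 1 := by
        rw [LinearEquiv.symm_apply_eq]
        exact (one_smul _ v).symm
      change Submodule.liftQ _ _ hk ((LinearMap.quotKerEquivOfSurjective _ hs).symm v) = a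
      rw [this, Submodule.liftQ_apply]
      exact one_smul _ a
  · have : Subsingleton (M →ₗ[F[X]] N) := by
      refine subsingleton_of_forall_eq 0 fun φ => ?_
      exact (φ.bijective_or_eq_zero).resolve_left fun hb =>
        h (cp_equiv (LinearEquiv.ofBijective φ hb))
    exact Nat.card_unique

/-- internal direct sum -/
noncomputable def sumEquiv {R V : Type*} [Ring R] [AddCommGroup V] [Module R V]
    {A W U : Submodule R V} (h1 : A ⊓ W = ⊥) (h2 : A ⊔ W = U) : (A × W) ≃ₗ[R] U :=
  LinearEquiv.ofBijective ((Submodule.inclusion (h2 ▸ le_sup_left)).coprod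
    (Submodule.inclusion (h2 ▸ le_sup_right))) (by
      constructor
      · rw [injective_iff_map_eq_zero]
        rintro ⟨a, w⟩ h
        have h3 : (a : V) + w = 0 := congrArg Subtype.val h
        have h4 : (a : V) ∈ A ⊓ W :=
          ⟨a.2, by rw [eq_neg_of_add_eq_zero_left h3]; exact W.neg_mem w.2⟩
        rw [h1, Submodule.mem_bot] at h4
        rw [h4, zero_add] at h3
        exact Prod.ext (Subtype.ext h4) (Subtype.ext h3)
      · rintro ⟨u, hu⟩
        obtain ⟨a, ha, w, hw, rfl⟩ := Submodule.mem_sup.1 (h2 ▸ hu)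
        exact ⟨(⟨a, ha⟩, ⟨w, hw⟩), rfl⟩)

theorem sumEquiv_apply {R V : Type*} [Ring R] [AddCommGroup V] [Module R V]
    {A W U : Submodule R V} (h1 : A ⊓ W = ⊥) (h2 : A ⊔ W = U) (x : A × W) :
    (sumEquiv h1 h2 x : V) = x.1 + x.2 := rfl

theorem card_compl {R V : Type*} [Ring R] [AddCommGroup V] [Module R V]
    {A W₀ U : Submodule R V} (h1 : A ⊓ W₀ = ⊥) (h2 : A ⊔ W₀ = U) :
    Nat.card {W : Submodule R V // A ⊓ W = ⊥ ∧ A ⊔ W = U} = Nat.card (W₀ →ₗ[R] A) := by
  have hz : ∀ {W : Submodule R V}, A ⊓ W = ⊥ → ∀ v, v ∈ A → v ∈ W → v = 0 := fun h v ha hw =>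
    (Submodule.mem_bot R).1 (h ▸ ⟨ha, hw⟩)
  symm
  refine Nat.card_congr (Equiv.ofBijective
    (fun φ => ⟨LinearMap.range (W₀.subtype + A.subtype ∘ₗ φ), ?_, ?_⟩) ⟨?_, ?_⟩)
  · rw [eq_bot_iff]
    rintro _ ⟨ha, w, rfl⟩
    have h3 : (w : V) + φ w ∈ A := ha
    have h4 : w = 0 := Subtype.ext (hz h1 w (by simpa using A.sub_mem h3 (φ w).2) w.2)
    simp [h4]
  · rw [← h2]
    refine le_antisymm (sup_le le_sup_left ?_) (sup_le le_sup_left fun w hw => ?_)
    · rintro _ ⟨w, rfl⟩
      exact Submodule.add_mem _ (Submodule.mem_sup_right w.2) (Submodule.mem_sup_left (φ w).2)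
    · have : w = (W₀.subtype + A.subtype ∘ₗ φ) ⟨w, hw⟩ - φ ⟨w, hw⟩ := by simp
      rw [this]
      exact Submodule.sub_mem _ (Submodule.mem_sup_right ⟨_, rfl⟩)
        (Submodule.mem_sup_left (φ _).2)
  · intro φ ψ h
    have h3 : LinearMap.range (W₀.subtype + A.subtype ∘ₗ φ) =
      LinearMap.range (W₀.subtype + A.subtype ∘ₗ ψ) := congrArg Subtype.val h
    ext w
    obtain ⟨w', hw'⟩ : (W₀.subtype + A.subtype ∘ₗ φ) w ∈
      LinearMap.range (W₀.subtype + A.subtype ∘ₗ ψ) := h3 ▸ ⟨w, rfl⟩
    have h4 : (w' : V) + ψ w' = w + φ w := hw'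
    have h5 : (w' : V) - w = φ w - ψ w' := by
      rw [sub_eq_sub_iff_add_eq_add, h4, add_comm]
    have h6 : w' = w := Subtype.ext (sub_eq_zero.1
      (hz h1 _ (h5 ▸ A.sub_mem (φ w).2 (ψ w').2) (W₀.sub_mem w'.2 w.2)))
    rw [h6] at h4
    exact (add_left_cancel h4).symm
  · rintro ⟨W, h3, h4⟩
    let φ : W₀ →ₗ[R] A := -((LinearMap.fst R A W).comp ((sumEquiv h3 h4).symm.toLinearMap.comp
      (Submodule.inclusion (h2 ▸ le_sup_right))))
    have hφ : ∀ w : W₀, (w : V) + φ w ∈ W := by
      intro w
      set x := (sumEquiv h3 h4).symm (Submodule.inclusion (h2 ▸ le_sup_right) w) with hx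
      have h5 : (x.1 : V) + x.2 = w := by
        rw [← sumEquiv_apply h3 h4, hx, LinearEquiv.apply_symm_apply]
        rfl
      have h6 : (φ w : V) = -x.1 := rfl
      rw [h6, ← h5]
      simp
    refine ⟨φ, Subtype.ext (le_antisymm ?_ fun w hw => ?_)⟩
    · rintro _ ⟨w, rfl⟩
      exact hφ w
    · obtain ⟨a, ha, w₀, hw₀, rfl⟩ := Submodule.mem_sup.1
        (h2.symm ▸ h4 ▸ Submodule.mem_sup_right hw : w ∈ A ⊔ W₀)
      refine ⟨⟨w₀, hw₀⟩, ?_⟩
      have h5 := W.sub_mem hw (hφ ⟨w₀, hw₀⟩)
      have h6 : a + w₀ - (w₀ + φ ⟨w₀, hw₀⟩) = a - φ ⟨w₀, hw₀⟩ := by abel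
      rw [h6] at h5
      have h7 := sub_eq_zero.1 (hz h3 _ (A.sub_mem ha (φ _).2) h5)
      change w₀ + (φ ⟨w₀, hw₀⟩ : V) = a + w₀
      rw [← h7, add_comm]

theorem cp_sum {A W U : Submodule F[X] M} (h1 : A ⊓ W = ⊥) (h2 : A ⊔ W = U) :
    cp F U = cp F A * cp F W := by
  rw [← cp_prod, cp_equiv (sumEquiv h1 h2)]

theorem exists_split [IsSemisimpleModule F[X] M] {A U : Submodule F[X] M} (h : A ≤ U) :
    ∃ W, A ⊓ W = ⊥ ∧ A ⊔ W = U := by
  obtain ⟨W, h1, h2⟩ := IsModularLattice.exists_disjoint_and_sup_eq h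
  exact ⟨W, disjoint_iff.1 h1, h2⟩

theorem nf_mul [DecidableEq F] {f P : F[X]} (hf : Irreducible f) (hm : f.Monic) (hP : P ≠ 0) :
    normalizedFactors (f * P) = f ::ₘ normalizedFactors P := by
  rw [normalizedFactors_mul hf.ne_zero hP, normalizedFactors_irreducible hf, hm.normalize_eq_self,
    Multiset.singleton_add]

theorem card_hom [Finite F] [DecidableEq F] [IsSemisimpleModule F[X] M] [IsSimpleModule F[X] N]
    (W : Submodule F[X] M) : Nat.card (W →ₗ[F[X]] N) =
      Nat.card F ^ ((cp F N).natDegree * (normalizedFactors (cp F W)).count (cp F N)) := by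
  have : Finite M := Module.finite_of_finite F
  have : Finite (Submodule F[X] M) := Finite.of_injective _ SetLike.coe_injective
  induction W using WellFoundedLT.induction with
  | ind W ih =>
    rcases eq_bot_or_exists_atom_le W with rfl | ⟨S, hS, hSW⟩
    · have h1 : cp F (⊥ : Submodule F[X] M) = 1 :=
        cp_monic.natDegree_eq_zero.1 (by rw [cp_natDegree]; exact Module.finrank_zero_of_subsingleton)
      rw [h1]
      simp
    · obtain ⟨W', h1, h2⟩ := exists_split hSW
      have hlt : W' < W := lt_of_le_of_ne (h2 ▸ le_sup_right) fun h => hS.1 (by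
        rw [← h1, h, inf_eq_left.2 hSW])
      haveI := isSimpleModule_iff_isAtom.2 hS
      have h3 : Nat.card (W →ₗ[F[X]] N) = Nat.card (S →ₗ[F[X]] N) * Nat.card (W' →ₗ[F[X]] N) := by
        rw [← Nat.card_prod, Nat.card_congr (LinearMap.coprodEquiv ℕ).toEquiv]
        exact Nat.card_congr (LinearEquiv.arrowCongrAddEquiv (sumEquiv h1 h2).symm
          (LinearEquiv.refl _ _)).toEquiv
      rw [h3, ih W' hlt, card_hom_simple, cp_sum h1 h2, nf_mul cp_irreducible cp_monic
        cp_monic.ne_zero]
      split_ifs with h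
      · rw [h, Multiset.count_cons_self, ← pow_add]
        congr 1
        ring
      · rw [Multiset.count_cons_of_ne (Ne.symm h), one_mul]

/-- the value -/
noncomputable def GG [DecidableEq F] (q : ℕ) (s : Multiset F[X]) : ℂ :=
  ∏ f ∈ s.toFinset, (-1 : ℂ) ^ ((f.natDegree - 1) * s.count f) *
    (q : ℂ) ^ (f.natDegree * s.count f * (s.count f - 1) / 2)

theorem GG_cons [DecidableEq F] (q : ℕ) (s : Multiset F[X]) (f : F[X]) :
    GG q (f ::ₘ s) = (-1) ^ (f.natDegree - 1) * (q : ℂ) ^ (f.natDegree * s.count f) * GG q s := by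
  have h1 : GG q s = ∏ g ∈ insert f s.toFinset, (-1 : ℂ) ^ ((g.natDegree - 1) * s.count g) *
      (q : ℂ) ^ (g.natDegree * s.count g * (s.count g - 1) / 2) := by
    refine (Finset.prod_insert_of_eq_one_if_notMem fun h => ?_).symm
    rw [Multiset.count_eq_zero_of_notMem (by simpa using h)]
    simp
  rw [h1, GG, Multiset.toFinset_cons, ← Finset.mul_prod_erase _ _ (mem_insert_self f _),
    ← Finset.mul_prod_erase _ _ (mem_insert_self f _), ← mul_assoc]
  congr 1
  · rw [Multiset.count_cons_self]
    have : f.natDegree * (s.count f + 1) * (s.count f + 1 - 1) / 2 =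
        f.natDegree * s.count f * (s.count f - 1) / 2 + f.natDegree * s.count f := by
      rw [← Nat.add_mul_div_left _ _ two_pos]
      congr 1
      rcases s.count f with _ | c
      · simp
      · simp only [Nat.add_sub_cancel]
        ring
    rw [this]
    ring
  · refine Finset.prod_congr rfl fun g hg => ?_
    rw [Multiset.count_cons_of_ne (Finset.ne_of_mem_erase hg)]

open Classical in
theorem sum_mob [Finite F] [DecidableEq F] [IsSemisimpleModule F[X] M]
    [Fintype (Submodule F[X] M)] (U : Submodule F[X] M) :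
    ∑ W : Submodule F[X] M with W ≤ U,
      (-1 : ℂ) ^ finrank F W * GG (Nat.card F) (normalizedFactors (cp F W)) =
      if finrank F U = 0 then 1 else 0 := by
  rcases eq_bot_or_exists_atom_le U with rfl | ⟨A, hA, hAU⟩
  · have h0 : finrank F (⊥ : Submodule F[X] M) = 0 := Module.finrank_zero_of_subsingleton
    have h1 : cp F (⊥ : Submodule F[X] M) = 1 :=
      cp_monic.natDegree_eq_zero.1 (by rw [cp_natDegree, h0])
    rw [if_pos h0, Finset.sum_eq_single_of_mem ⊥ (by simp) (by simp), h0, h1]
    simp [GG]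
  haveI := isSimpleModule_iff_isAtom.2 hA
  have hdeg : 0 < (cp F A).natDegree := (cp_irreducible (F := F) (M := A)).natDegree_pos
  have hfin : ∀ {W U' : Submodule F[X] M}, A ⊓ W = ⊥ → A ⊔ W = U' →
      finrank F U' = (cp F A).natDegree + finrank F W := fun h1 h2 => by
    rw [← cp_natDegree, cp_sum h1 h2, cp_monic.natDegree_mul cp_monic, cp_natDegree (M := _)]
    rw [cp_natDegree]
  rw [if_neg (by
    obtain ⟨W, h1, h2⟩ := exists_split hAU
    rw [hfin h1 h2]
    omega)]
  rw [← Finset.sum_fiberwise_of_maps_to (t := univ.filter fun U' => A ≤ U' ∧ U' ≤ U)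
    (g := fun W => A ⊔ W) (fun W hW => by
      simp only [mem_filter, mem_univ, true_and] at hW ⊢
      exact ⟨le_sup_left, sup_le hAU hW⟩)]
  refine Finset.sum_eq_zero fun U' hU' => ?_
  simp only [mem_filter, mem_univ, true_and] at hU'
  obtain ⟨W₀, h1, h2⟩ := exists_split hU'.1
  rw [← Finset.add_sum_erase _ _ (a := U') (by simp [hU'.1, hU'.2])]
  have h3 : ((univ.filter fun W : Submodule F[X] M => W ≤ U).filter fun W => A ⊔ W = U').erase U' =
      univ.filter fun W => A ⊓ W = ⊥ ∧ A ⊔ W = U' := by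
    ext W
    simp only [mem_filter, mem_univ, true_and, mem_erase]
    constructor
    · rintro ⟨h4, -, h5⟩
      refine ⟨(hA.le_iff.1 inf_le_left).resolve_right fun h6 => h4 ?_, h5⟩
      rw [← h5, sup_eq_right.2 (inf_eq_left.1 h6)]
    · rintro ⟨h4, h5⟩
      refine ⟨?_, (h5 ▸ le_sup_right : W ≤ U').trans hU'.2, h5⟩
      rintro rfl
      exact hA.1 (by rw [← h4, inf_eq_left.2 hU'.1])
  rw [h3, Finset.sum_congr rfl (g := fun _ => (-1 : ℂ) ^ finrank F W₀ *
    GG (Nat.card F) (normalizedFactors (cp F W₀))), Finset.sum_const]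
  · have h4 := card_compl h1 h2
    rw [Nat.card_eq_fintype_card, Fintype.card_subtype, card_hom] at h4
    rw [h4, cp_sum h1 h2, nf_mul cp_irreducible cp_monic cp_monic.ne_zero, GG_cons, hfin h1 h2]
    obtain ⟨d, hd⟩ : ∃ d, (cp F A).natDegree = d + 1 := ⟨_, (Nat.sub_add_cancel hdeg).symm⟩
    rw [hd, Nat.add_sub_cancel, nsmul_eq_mul]
    push_cast
    have : ((-1 : ℂ)) ^ d * (-1) ^ d = 1 := by rw [← mul_pow]; simp
    linear_combination (-(-1 : ℂ) ^ finrank F W₀ * (Nat.card F : ℂ) ^ ((d + 1) *
      Multiset.count (cp F A) (normalizedFactors (cp F W₀))) *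
      GG (Nat.card F) (normalizedFactors (cp F W₀))) * this
  · intro W hW
    simp only [mem_filter, mem_univ, true_and] at hW
    have h4 : cp F W = cp F W₀ :=
      mul_left_cancel₀ cp_monic.ne_zero ((cp_sum hW.1 hW.2).symm.trans (cp_sum h1 h2))
    rw [← cp_natDegree, ← cp_natDegree, h4]

end mod

section flags
open Matrix CfsgLib.GLFlag
variable {F : Type*} [Field F]

theorem exists_fix {E : Type*} [AddCommGroup E] [Module F E] [FiniteDimensional F E]
    {A B C : Submodule F E} (hA : C ≤ A) (hB : C ≤ B) (h : finrank F A = finrank F B) :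
    ∃ g : E ≃ₗ[F] E, A.map g.toLinearMap = B ∧ ∀ v ∈ C, g v = v := by
  obtain ⟨f₀⟩ := FiniteDimensional.nonempty_linearEquiv_of_finrank_eq h
  let i : C →ₗ[F] B := f₀.toLinearMap ∘ₗ Submodule.inclusion hA
  have hi : Function.Injective i := f₀.injective.comp (Submodule.inclusion_injective hA)
  obtain ⟨g₁, hg₁⟩ := Submodule.exists_linearEquiv_restrict_eq
    ((LinearEquiv.ofInjective i hi).symm.trans
      (LinearEquiv.ofInjective _ (Submodule.inclusion_injective hB)))
  obtain ⟨g, hg⟩ := Submodule.exists_linearEquiv_restrict_eq (f₀.trans g₁)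
  refine ⟨g, le_antisymm ?_ fun b hb => ?_, fun v hv => ?_⟩
  · rintro _ ⟨a, ha, rfl⟩
    have := hg ⟨a, ha⟩
    change g a ∈ B
    rw [← this]
    exact Subtype.prop _
  · obtain ⟨a, ha⟩ := (f₀.trans g₁).surjective ⟨b, hb⟩
    exact ⟨a, a.2, (hg a).symm.trans (congrArg Subtype.val ha)⟩
  · have h1 := hg ⟨v, hA hv⟩
    have h2 := hg₁ (LinearEquiv.ofInjective i hi ⟨v, hv⟩)
    rw [LinearEquiv.trans_apply, LinearEquiv.symm_apply_apply] at h2
    exact h1.symm.trans (congrArg Subtype.val h2.symm)

theorem exists_map {E : Type*} [AddCommGroup E] [Module F E] [FiniteDimensional F E] {n : ℕ}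
    {U U' : Submodule F E} {μ : Fin n → ℕ} {Z Z' : Fin n → Submodule F E}
    (h : IsCh (fun W : Submodule F E => finrank F W) U μ Z)
    (h' : IsCh (fun W : Submodule F E => finrank F W) U' μ Z') (hU : finrank F U = finrank F U') :
    ∃ g : E ≃ₗ[F] E, U.map g.toLinearMap = U' ∧ ∀ i, (Z i).map g.toLinearMap = Z' i := by
  induction n generalizing U U' with
  | zero =>
    obtain ⟨g, hg, -⟩ := exists_fix (bot_le : ⊥ ≤ U) (bot_le : ⊥ ≤ U') hU
    exact ⟨g, hg, fun i => i.elim0⟩
  | succ n ih =>
    have hle := h'.le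
    rw [← Fin.cons_self_tail μ, ← Fin.cons_self_tail Z, isCh_cons] at h
    rw [← Fin.cons_self_tail μ, ← Fin.cons_self_tail Z', isCh_cons] at h'
    obtain ⟨g, hg, hg'⟩ := ih h.2 h'.2 (by have := h.1.2; have := h'.1.2; omega)
    obtain ⟨k, hk, hk'⟩ := exists_fix (A := U.map g.toLinearMap) (B := U') (C := Z' 0)
      (hg ▸ Submodule.map_mono h.1.1) h'.1.1 (by rw [LinearEquiv.finrank_map_eq, hU])
    have hfix : ∀ W : Submodule F E, W ≤ Z' 0 → W.map k.toLinearMap = W := by
      intro W hW
      refine le_antisymm ?_ fun v hv => ⟨v, hv, hk' v (hW hv)⟩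
      rintro _ ⟨v, hv, rfl⟩
      change k v ∈ W
      rwa [hk' v (hW hv)]
    refine ⟨g.trans k, by rw [← hk, ← Submodule.map_comp]; rfl, fun i => ?_⟩
    change (Z i).map (k.toLinearMap ∘ₗ g.toLinearMap) = _
    rw [Submodule.map_comp]
    refine Fin.cases ?_ (fun j => ?_) i
    · rw [hg, hfix _ le_rfl]
    · exact (congrArg _ (hg' j)).trans (hfix _ (h'.2.le _ j))

variable {n : ℕ}

/-- action on tuples of subspaces of the row space -/
@[reducible] def act (F : Type*) [Field F] (n : ℕ) :
    MulAction (GL (Fin n) F) (Fin n → Submodule F (Fin n → F)) where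
  smul g Z := fun i => (Z i).comap (g : Matrix (Fin n) (Fin n) F).vecMulLinear
  one_smul Z := by
    ext i v
    change v ᵥ* (1 : Matrix (Fin n) (Fin n) F) ∈ Z i ↔ _
    rw [vecMul_one]
  mul_smul g h Z := by
    ext i v
    change v ᵥ* ((g : Matrix (Fin n) (Fin n) F) * (h : Matrix (Fin n) (Fin n) F)) ∈ Z i ↔
      (v ᵥ* (g : Matrix (Fin n) (Fin n) F)) ᵥ* (h : Matrix (Fin n) (Fin n) F) ∈ Z i
    rw [vecMul_vecMul]

/-- standard subspaces -/
def YY (F : Type*) [Field F] (a : Fin n → Fin n) (s : ℕ) : Submodule F (Fin n → F) where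
  carrier := {v | ∀ j, ¬ s ≤ (a j : ℕ) → v j = 0}
  add_mem' := fun {v w} hv hw j hj => by simp [hv j hj, hw j hj]
  zero_mem' := fun _ _ => rfl
  smul_mem' := fun c v hv j hj => by simp [hv j hj]

theorem finrank_YY [Finite F] (a : Fin n → Fin n) (s : ℕ) :
    finrank F (YY F a s) = #{j | s ≤ (a j : ℕ)} := by
  refine Nat.pow_right_injective (a := Nat.card F) Finite.one_lt_card ?_
  exact (Module.natCard_eq_pow_finrank (K := F) (V := YY F a s)).symm.trans
    (card_supported (F := F) fun j => s ≤ (a j : ℕ))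

theorem isCh_YY [Finite F] {a : Fin n → Fin n} {μ : Fin n → ℕ} (ha : ∀ s, #{i | a i = s} = μ s) :
    IsCh (fun W : Submodule F (Fin n → F) => finrank F W) ⊤ μ (fun s => YY F a (s + 1)) := by
  have h0 : (Fin.cons ⊤ (fun s : Fin n => YY F a (s + 1)) : Fin (n + 1) → _) =
      fun s : Fin (n + 1) => YY F a s := by
    ext1 s
    refine Fin.cases ?_ (fun j => rfl) s
    exact (eq_top_iff.2 fun v _ j hj => (hj (Nat.zero_le _)).elim).symm
  intro s
  rw [h0]
  refine ⟨fun v hv j hj => hv j (by simp at hj ⊢; omega), ?_⟩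
  simp only [finrank_YY, Fin.val_castSucc]
  rw [← ha, ← Finset.card_union_of_disjoint]
  · congr 1
    ext j
    simp only [mem_union, mem_filter, mem_univ, true_and, Fin.ext_iff]
    omega
  · rw [Finset.disjoint_filter]
    intro j _ h1 h2
    rw [h2] at h1
    omega

theorem vecMul_mem_YY {a : Fin n → Fin n} {g : GL (Fin n) F} (hg : g ∈ Par F a) {s : ℕ}
    {v : Fin n → F} (hv : v ∈ YY F a s) : v ᵥ* (g : Matrix (Fin n) (Fin n) F) ∈ YY F a s := by
  intro j hj
  change ∑ i, v i * (g : Matrix (Fin n) (Fin n) F) i j = 0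
  refine Finset.sum_eq_zero fun i _ => ?_
  by_cases h : a j < a i
  · simp [mem_Par.1 hg i j h]
  · rw [hv i (by rw [Fin.lt_def] at h; omega), zero_mul]

theorem stab_eq (a : Fin n → Fin n) : letI := act F n
    MulAction.stabilizer (GL (Fin n) F) (fun s : Fin n => YY F a (s + 1)) = Par F a := by
  letI := act F n
  ext g
  rw [MulAction.mem_stabilizer_iff]
  constructor
  · intro h
    rw [mem_Par]
    intro i j hij
    have h1 : (Pi.single i 1 : Fin n → F) ∈ YY F a (a j + 1) := by
      intro k hk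
      refine Pi.single_eq_of_ne ?_ _
      rintro rfl
      exact hk hij
    rw [← congrFun h (a j)] at h1
    have h2 := h1 j (by omega)
    simpa using h2
  · intro h
    ext s v
    refine ⟨fun hv => ?_, fun hv => vecMul_mem_YY h hv⟩
    have := vecMul_mem_YY ((Par F a).inv_mem h) hv
    rw [vecMulLinear_apply, vecMul_vecMul, ← Units.val_mul, mul_inv_cancel, Units.val_one,
      vecMul_one] at this
    exact this

/-- right multiplication as an equivalence -/
noncomputable def rEquiv (g : GL (Fin n) F) : (Fin n → F) ≃ₗ[F] (Fin n → F) :=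
  LinearEquiv.ofLinear (g : Matrix (Fin n) (Fin n) F).vecMulLinear
    ((g⁻¹ : GL (Fin n) F) : Matrix (Fin n) (Fin n) F).vecMulLinear
    (LinearMap.ext fun v => by
      simp only [LinearMap.comp_apply, vecMulLinear_apply, vecMul_vecMul, ← Units.val_mul,
        inv_mul_cancel, Units.val_one, vecMul_one, LinearMap.id_apply])
    (LinearMap.ext fun v => by
      simp only [LinearMap.comp_apply, vecMulLinear_apply, vecMul_vecMul, ← Units.val_mul,
        mul_inv_cancel, Units.val_one, vecMul_one, LinearMap.id_apply])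

theorem finrank_comap (g : GL (Fin n) F) (W : Submodule F (Fin n → F)) :
    finrank F (W.comap (g : Matrix (Fin n) (Fin n) F).vecMulLinear) = finrank F W := by
  change finrank F (W.comap (rEquiv g).toLinearMap) = _
  rw [Submodule.comap_equiv_eq_map_symm, LinearEquiv.finrank_map_eq]

theorem isCh_comp {L L' : Type*} [PartialOrder L] [PartialOrder L'] {dim : L → ℕ} {dim' : L' → ℕ}
    (r : L → L') (h1 : ∀ x y, r x ≤ r y ↔ x ≤ y) (h2 : ∀ x, dim' (r x) = dim x)
    {U : L} {μ : Fin n → ℕ} {Z : Fin n → L} :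
    IsCh dim' (r U) μ (fun i => r (Z i)) ↔ IsCh dim U μ Z := by
  have h0 : (Fin.cons (r U) (fun i => r (Z i)) : Fin (n + 1) → L') =
      fun i => r ((Fin.cons U Z : Fin (n + 1) → L) i) := by
    ext1 s
    exact Fin.cases rfl (fun j => rfl) s
  unfold IsCh
  rw [h0]
  simp only [h1, h2]

theorem mem_orbit_iff [Finite F] {a : Fin n → Fin n} {μ : Fin n → ℕ}
    (ha : ∀ s, #{i | a i = s} = μ s) (Z : Fin n → Submodule F (Fin n → F)) : letI := act F n
    Z ∈ MulAction.orbit (GL (Fin n) F) (fun s : Fin n => YY F a (s + 1)) ↔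
      IsCh (fun W : Submodule F (Fin n → F) => finrank F W) ⊤ μ Z := by
  letI := act F n
  constructor
  · rintro ⟨g, rfl⟩
    refine (isCh_comp (U := ⊤) (Submodule.comap (g : Matrix (Fin n) (Fin n) F).vecMulLinear)
      (fun x y => Submodule.comap_le_comap_iff_of_surjective (rEquiv g).surjective)
      (finrank_comap g)).2 (isCh_YY ha)
  · intro h
    obtain ⟨e, -, he⟩ := exists_map h (isCh_YY ha) rfl
    refine ⟨Matrix.GeneralLinearGroup.mkOfDetNeZero (LinearMap.toMatrix' e.toLinearMap)ᵀ ?_, ?_⟩
    · rw [det_transpose, LinearMap.det_toMatrix']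
      exact (LinearEquiv.isUnit_det' e).ne_zero
    · ext i v
      change v ᵥ* (LinearMap.toMatrix' e.toLinearMap)ᵀ ∈ YY F a (i + 1) ↔ _
      rw [vecMul_transpose, LinearMap.toMatrix'_mulVec, ← he i]
      exact ⟨fun ⟨w, hw, h2⟩ => e.injective h2 ▸ hw, fun hv => ⟨v, hv, rfl⟩⟩

theorem fixed_eq [Finite F] {μ : Fin n → ℕ} (h : ∑ i, μ i = n) (x : GL (Fin n) F) :
    fixedPointCharacter (parabolicGL n F μ) x =
      Nat.card {Z : Fin n → Submodule F (Fin n → F) //
        IsCh (fun W : Submodule F (Fin n → F) => finrank F W) ⊤ μ Z ∧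
        ∀ i, (Z i).comap (x : Matrix (Fin n) (Fin n) F).vecMulLinear = Z i} := by
  letI := act F n
  rw [parabolicGL_eq μ h, ← stab_eq, fixedPointCharacter]
  congr 1
  refine Nat.card_congr (Equiv.ofBijective (fun c => ⟨MulAction.ofQuotientStabilizer _ _ c.1,
    (mem_orbit_iff (card_lab μ h) _).1 (MulAction.ofQuotientStabilizer_mem_orbit _ _ _),
    congrFun ((MulAction.ofQuotientStabilizer_smul _ _ x c.1).symm.trans
      (congrArg _ c.2))⟩) ⟨fun c c' hc => ?_, ?_⟩)
  · exact Subtype.ext (MulAction.injective_ofQuotientStabilizer _ _ (congrArg Subtype.val hc))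
  · rintro ⟨Z, h1, h2⟩
    obtain ⟨g, rfl⟩ := (mem_orbit_iff (card_lab μ h) _).2 h1
    refine ⟨⟨QuotientGroup.mk g, MulAction.injective_ofQuotientStabilizer _ _ ?_⟩, rfl⟩
    rw [MulAction.ofQuotientStabilizer_smul]
    exact funext h2

theorem fixed_eq_NC [Finite F] {μ : Fin n → ℕ} (h : ∑ i, μ i = n) (x : GL (Fin n) F)
    (T : (Fin n → F) →ₗ[F] (Fin n → F)) (hT : T = (x : Matrix (Fin n) (Fin n) F).vecMulLinear)
    [Fintype (Submodule F[X] (Module.AEval' T))] :
    fixedPointCharacter (parabolicGL n F μ) x =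
      NC (fun W : Submodule F[X] (Module.AEval' T) => finrank F W) ⊤ μ := by
  classical
  let r : Submodule F[X] (Module.AEval' T) → Submodule F (Fin n → F) := fun W =>
    (W.restrictScalars F).comap (Module.AEval'.of T).toLinearMap
  have h1 : ∀ W W', r W ≤ r W' ↔ W ≤ W' := fun W W' =>
    Submodule.comap_le_comap_iff_of_surjective (Module.AEval'.of T).surjective
  have h2 : ∀ W, finrank F (r W) = finrank F W := fun W => by
    change finrank F ((W.restrictScalars F).comap (Module.AEval'.of T).toLinearMap) = _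
    rw [Submodule.comap_equiv_eq_map_symm, LinearEquiv.finrank_map_eq]
    rfl
  have h3 : ∀ W, (r W).comap T = r W := fun W => by
    refine (Submodule.eq_of_le_of_finrank_eq (fun v hv => ?_) (hT ▸ (finrank_comap x _).symm)).symm
    change Module.AEval'.of T (T v) ∈ W
    rw [← Module.AEval'.X_smul_of]
    exact W.smul_mem _ hv
  have h4 : ∀ Z : Submodule F (Fin n → F), Z.comap T = Z → ∃ W, r W = Z := fun Z hZ =>
    ⟨Module.AEval.mapSubmodule F _ T ⟨Z, hZ.ge⟩, by
      ext v
      exact Module.AEval.mem_mapSubmodule_apply F _ T⟩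
  rw [fixed_eq h, ← hT, NC, Finset.sum_boole, ← Fintype.card_subtype, ← Nat.card_eq_fintype_card]
  congr 1
  symm
  refine Nat.card_congr (Equiv.ofBijective (fun Z => ⟨fun i => r (Z.1 i),
    (isCh_comp (U := ⊤) r h1 h2).2 Z.2, fun i => h3 _⟩) ⟨fun Z Z' hZ => ?_, ?_⟩)
  · ext1
    ext1 i
    have := congrFun (congrArg Subtype.val hZ) i
    exact le_antisymm ((h1 _ _).1 this.le) ((h1 _ _).1 this.ge)
  · rintro ⟨Z, h5, h6⟩
    choose W hW using fun i => h4 (Z i) (h6 i)
    obtain rfl : Z = fun i => r (W i) := (funext hW).symm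
    exact ⟨⟨W, (isCh_comp (U := ⊤) r h1 h2).1 h5⟩, rfl⟩

end flags

/-- Values of the Steinberg character of `GL_n(q)` (the partition-indexed character for `ν = (1,…,1)`, of degree `q^(n(n−1)/2)`) at elements of order prime to the characteristic: if the characteristic polynomial of such an element is `∏ f^(m_f)` over distinct monic irreducible `f`, the value is `∏_f (−1)^((deg f − 1) m_f) q^(deg f · m_f (m_f − 1)/2)`. (At elements of order divisible by the characteristic the value is 0; that is not part of this statement.) -/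
theorem result {F : Type*} [Field F] [Fintype F] [DecidableEq F] {q : ℕ} (hq : Fintype.card F = q) (p : ℕ) [Fact p.Prime] [CharP F p]
    {n : ℕ} (x : GL (Fin n) F) (hx : (orderOf x).Coprime p) :
    Cfsg.unipotentCharacterGL n F (fun _ => 1) x =
      ∏ f ∈ (UniqueFactorizationMonoid.normalizedFactors (x : Matrix (Fin n) (Fin n) F).charpoly).toFinset,
        (-1 : ℂ) ^ ((f.natDegree - 1) * (UniqueFactorizationMonoid.normalizedFactors (x : Matrix (Fin n) (Fin n) F).charpoly).count f) *
          (q : ℂ) ^ (f.natDegree * (UniqueFactorizationMonoid.normalizedFactors (x : Matrix (Fin n) (Fin n) F).charpoly).count f *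
            ((UniqueFactorizationMonoid.normalizedFactors (x : Matrix (Fin n) (Fin n) F).charpoly).count f - 1) / 2) := by
  set T := (x : Matrix (Fin n) (Fin n) F).vecMulLinear with hT
  have : Finite (Module.AEval' T) := Module.finite_of_finite F
  have : Finite (Submodule F[X] (Module.AEval' T)) := Finite.of_injective _ SetLike.coe_injective
  letI : Fintype (Submodule F[X] (Module.AEval' T)) := Fintype.ofFinite _
  have hss : IsSemisimpleModule F[X] (Module.AEval' T) := by
    refine Module.End.isSemisimple_of_squarefree_aeval_eq_zero (p := X ^ orderOf x - C 1)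
      (separable_X_pow_sub_C 1 ?_ one_ne_zero).squarefree ?_
    · rw [Ne, CharP.cast_eq_zero_iff F p]
      exact (Nat.Prime.coprime_iff_not_dvd Fact.out).1 hx.symm
    · have h1 : ∀ k : ℕ, T ^ k = ((x ^ k : GL (Fin n) F) : Matrix (Fin n) (Fin n) F).vecMulLinear := by
        intro k
        induction k with
        | zero => exact LinearMap.ext fun v => by simp
        | succ k ih =>
          refine LinearMap.ext fun v => ?_
          rw [pow_succ', Module.End.mul_apply, ih, pow_succ, Units.val_mul]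
          simp only [hT, Matrix.vecMulLinear_apply, Matrix.vecMul_vecMul]
      rw [map_sub, map_pow, aeval_X, h1, pow_orderOf_eq_one, C_1, map_one, sub_eq_zero]
      refine LinearMap.ext fun v => ?_
      simp
  have hdim : StrictMono fun W : Submodule F[X] (Module.AEval' T) => finrank F W := fun W W' h =>
    Submodule.finrank_lt_finrank_of_lt (s := W.restrictScalars F) (t := W'.restrictScalars F) h
  have htop : finrank F (⊤ : Submodule F[X] (Module.AEval' T)) = n := by
    rw [(Submodule.topEquiv.restrictScalars F).finrank_eq, ← (Module.AEval'.of T).finrank_eq]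
    simp
  have hcp : cp F (⊤ : Submodule F[X] (Module.AEval' T)) =
      (x : Matrix (Fin n) (Fin n) F).charpoly := by
    rw [cp_equiv Submodule.topEquiv, ← Matrix.charpoly_transpose, ← Matrix.charpoly_mulVecLin,
      ← LinearEquiv.charpoly_conj (Module.AEval'.of T), cp]
    congr 1
    refine LinearMap.ext fun v => ?_
    obtain ⟨w, rfl⟩ := (Module.AEval'.of T).surjective v
    rw [LinearEquiv.conj_apply_apply, LinearEquiv.symm_apply_apply, Matrix.mulVecLin_transpose]
    exact Module.AEval'.X_smul_of T w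
  have key := SS_NC' _ hdim _ (sum_mob (F := F) (M := Module.AEval' T)) ⊤ n htop
  rw [htop, hcp, ← mul_assoc, ← mul_pow, neg_mul_neg, one_mul, one_pow, one_mul,
    Nat.card_eq_fintype_card, hq] at key
  refine Eq.trans ?_ key
  refine Finset.sum_congr rfl fun κ _ => ?_
  refine if_ctx_congr Iff.rfl (fun h => ?_) fun _ => rfl
  rw [fixed_eq_NC (CfsgLib.GLFlag.sum_sub_perm (ν := fun _ => 1) (by simp) h) x T hT]
  simp

end Cfsg.Agent.S2425
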