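import Mathlib
import Cfsg.Statements.S2426
import Cfsg.Agent.Lib.Pres.Basic
import Cfsg.Agent.Lib.RootSub.SL2Pres

set_option autoImplicit false
open Cfsg

namespace Cfsg.Agent.S2426

open CfsgLib.Pres CfsgLib.SL2 CfsgLib.RootSub MatrixGroups

/-- The rank-one Steinberg presentation of `SL₂` over a finite field `K`: generators `x(t)`, `y(t)` (`t ∈ K`; the two opposite root subgroups) subject to additivity `x(t)x(u) = x(t+u)`, `y(t)y(u) = y(t+u)` and, with `w(t) = x(t) y(−t⁻¹) x(t)` and `w'(t) = y(t) x(−t⁻¹) y(t)` for `t ≠ 0`, the relations `w(t) x(u) w(t)⁻¹ = y(−t⁻² u)` and `w'(t) y(u) w'(t)⁻¹ = x(−t⁻² u)`, present `SL₂(K)`, with `x(t) ↦ (1 t; 0 1)` and `y(t) ↦ (1 0; t 1)`. -/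
theorem result {K : Type*} [Field K] [Finite K] :
    ∃ e : PresentedGroup
        ({g : FreeGroup (Bool × K) | ∃ (b : Bool) (t u : K), g = FreeGroup.of (b, t) * FreeGroup.of (b, u) * (FreeGroup.of (b, t + u))⁻¹} ∪
          {g | ∃ (b : Bool) (t u : K), t ≠ 0 ∧
            g = (FreeGroup.of (b, t) * FreeGroup.of (!b, -t⁻¹) * FreeGroup.of (b, t)) * FreeGroup.of (b, u) *
                  (FreeGroup.of (b, t) * FreeGroup.of (!b, -t⁻¹) * FreeGroup.of (b, t))⁻¹ * (FreeGroup.of (!b, -(t⁻¹ ^ 2 * u)))⁻¹})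
        ≃* Matrix.SpecialLinearGroup (Fin 2) K,
      (∀ t : K, ((e (PresentedGroup.of (true, t)) : Matrix (Fin 2) (Fin 2) K)) = !![1, t; 0, 1]) ∧
      (∀ t : K, ((e (PresentedGroup.of (false, t)) : Matrix (Fin 2) (Fin 2) K)) = !![1, 0; t, 1]) := by
  let g : Bool × K → SL(2, K) := fun p => if p.1 then uu p.2 else ll p.2
  have hgen : Subgroup.closure (Set.range g) = ⊤ := by
    rw [eq_top_iff, ← upper_sup_lower, sup_le_iff]
    refine ⟨fun x hx => ?_, fun x hx => ?_⟩
    · obtain ⟨t, rfl⟩ := mem_upper_iff.1 hx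
      exact Subgroup.subset_closure ⟨(true, t), rfl⟩
    · obtain ⟨t, rfl⟩ := mem_lower_iff.1 hx
      exact Subgroup.subset_closure ⟨(false, t), rfl⟩
  refine (PresBy.exists_equiv (presBy_of_univ hgen ?_ ?_)).imp fun e he =>
    ⟨fun t => by rw [he]; rfl, fun t => by rw [he]; rfl⟩
  · rintro _ (⟨b, t, u, rfl⟩ | ⟨b, t, u, ht, rfl⟩)
    · cases b <;> simp [g, uu_add, ll_add]
    · simp only [map_mul, map_inv, FreeGroup.lift_apply_of, mul_inv_eq_one, mul_inv_eq_iff_eq_mul]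
      cases b <;> apply ext2 <;> simp [g, mul_ap, ht] <;> field_simp <;> simp
  · intro Γ _ v π hπ hv hR
    have h1 : ∀ b t u, v (b, t + u) = v (b, t) * v (b, u) := fun b t u => by
      have := hR _ (Or.inl ⟨b, t, u, rfl⟩)
      simp only [map_mul, map_inv, FreeGroup.lift_apply_of, mul_inv_eq_one] at this
      exact this.symm
    have h2 : ∀ b t u, t ≠ 0 → v (b, t) * v (!b, -t⁻¹) * v (b, t) * v (b, u) *
        (v (b, t) * v (!b, -t⁻¹) * v (b, t))⁻¹ = v (!b, -(t⁻¹ ^ 2 * u)) := fun b t u ht => by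
      have := hR _ (Or.inr ⟨b, t, u, ht, rfl⟩)
      simpa only [map_mul, map_inv, FreeGroup.lift_apply_of, mul_inv_eq_one] using this
    have h : StRel (fun t => v (true, t)) (fun t => v (false, t)) := by
      refine ⟨h1 _, h1 _, fun t ht u => h2 true t u ht, fun t ht u => ?_⟩
      have h3 := h2 true t t ht
      have h4 := h2 false (-t⁻¹) u (by simpa using ht)
      rw [show t⁻¹ ^ 2 * t = t⁻¹ by field_simp, mul_inv_eq_iff_eq_mul, ← mul_assoc,
        mul_left_inj, ← mul_assoc] at h3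
      simp only [inv_neg, inv_inv, neg_neg, Bool.not_false, Bool.not_true, neg_sq] at h3 h4
      rw [stw, h3, h4]
    obtain ⟨φ, h3, h4⟩ := h.exists_hom_of_finite
    refine injective_of_section hv π φ ?_
    rintro ⟨b, t⟩
    rw [hπ]
    cases b
    · exact h4 t
    · exact h3 t

end Cfsg.Agent.S2426
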