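import Cfsg.Statements.S2428
import Cfsg.Agent.Lib.SL2.Normalizer

set_option autoImplicit false
open Cfsg

namespace Cfsg.Agent.S2428

open CfsgLib.SL2

theorem result {F : Type*} [Field F] [Fintype F] (hodd : Odd (Fintype.card F))
    (d : Matrix.SpecialLinearGroup (Fin 2) F) (hd01 : (d : Matrix (Fin 2) (Fin 2) F) 0 1 = 0) (hd10 : (d : Matrix (Fin 2) (Fin 2) F) 1 0 = 0) (hda : (d : Matrix (Fin 2) (Fin 2) F) 0 0 ^ 2 ≠ 1) :
    (∀ g : Matrix.SpecialLinearGroup (Fin 2) F, g ∈ Subgroup.centralizer ({d} : Set (Matrix.SpecialLinearGroup (Fin 2) F)) ↔ ((g : Matrix (Fin 2) (Fin 2) F) 0 1 = 0 ∧ (g : Matrix (Fin 2) (Fin 2) F) 1 0 = 0)) ∧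
    Nat.card (Subgroup.normalizer ((Subgroup.centralizer ({d} : Set (Matrix.SpecialLinearGroup (Fin 2) F))) : Set (Matrix.SpecialLinearGroup (Fin 2) F))) = 2 * (Fintype.card F - 1) ∧
    Nat.card (ConjClasses (Subgroup.normalizer ((Subgroup.centralizer ({d} : Set (Matrix.SpecialLinearGroup (Fin 2) F))) : Set (Matrix.SpecialLinearGroup (Fin 2) F)))) = (Fintype.card F + 5) / 2 ∧
    ∀ g : Matrix.SpecialLinearGroup (Fin 2) F, g ∈ Subgroup.normalizer ((Subgroup.centralizer ({d} : Set (Matrix.SpecialLinearGroup (Fin 2) F))) : Set (Matrix.SpecialLinearGroup (Fin 2) F)) →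
      g ∉ Subgroup.centralizer ({d} : Set (Matrix.SpecialLinearGroup (Fin 2) F)) → ((g * g) : Matrix (Fin 2) (Fin 2) F) = -1 := by
  obtain ⟨a, rfl⟩ := eq_dg_of_diag hd01 hd10
  have ht := tr_dg_sq_ne hda
  have hc := card_centralizer_split hda (IsConj.refl _)
  refine ⟨mem_centralizer_diag_iff hd01 hd10 hda, ?_, ?_, ?_⟩
  · rw [card_normalizer_torus ht, hc]
  · have := card_conjClasses_normalizer_torus_odd (two_ne_zero_of_odd hodd) ht
    rw [hc] at this
    have h1 : 0 < Fintype.card F := Fintype.card_pos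
    omega
  · intro g h1 h2
    have := (sq_eq_neg_one_of_inverts ht (conj_eq_inv_of_mem_normalizer ht h1 h2)).2
    exact congrArg Subtype.val this

end Cfsg.Agent.S2428
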