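import Cfsg.Statements.S2429
import Cfsg.Agent.Lib.SL2.Normalizer

set_option autoImplicit false
open Cfsg

namespace Cfsg.Agent.S2429

open CfsgLib.SL2

theorem result {F : Type*} [Field F] [Fintype F] (hodd : Odd (Fintype.card F)) :
    ∃ T' : Subgroup (Matrix.SpecialLinearGroup (Fin 2) F), IsCyclic T' ∧ Nat.card T' = Fintype.card F + 1 ∧
      Subgroup.centralizer ((T' : Set (Matrix.SpecialLinearGroup (Fin 2) F))) = T' ∧
      (∀ g : Matrix.SpecialLinearGroup (Fin 2) F, g ∈ T' → (g : Matrix (Fin 2) (Fin 2) F) ≠ 1 → (g : Matrix (Fin 2) (Fin 2) F) ≠ -1 → Subgroup.centralizer ({g} : Set (Matrix.SpecialLinearGroup (Fin 2) F)) = T') ∧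
      (∀ g : Matrix.SpecialLinearGroup (Fin 2) F, (∀ (c : F) (v : Fin 2 → F), v ≠ 0 → (g : Matrix (Fin 2) (Fin 2) F).mulVec v ≠ c • v) → ∃ h : Matrix.SpecialLinearGroup (Fin 2) F, h * g * h⁻¹ ∈ T') ∧
      Nat.card (Subgroup.normalizer (T' : Set (Matrix.SpecialLinearGroup (Fin 2) F))) = 2 * (Fintype.card F + 1) ∧
      Nat.card (ConjClasses (Subgroup.normalizer (T' : Set (Matrix.SpecialLinearGroup (Fin 2) F)))) = (Fintype.card F + 7) / 2 ∧
      ∀ g : Matrix.SpecialLinearGroup (Fin 2) F, g ∈ Subgroup.normalizer (T' : Set (Matrix.SpecialLinearGroup (Fin 2) F)) → g ∉ T' → ((g * g) : Matrix (Fin 2) (Fin 2) F) = -1 := by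
  obtain ⟨d, hd⟩ := exists_noEig (F := F)
  have ht := hd.tr_sq_ne
  have hc := hd.card_centralizer
  refine ⟨Subgroup.centralizer {d}, hd.isCyclic_centralizer, hc,
    centralizer_centralizer hd.not_isScal, ?_, ?_, ?_, ?_, ?_⟩
  · intro g hg h1 h2
    refine centralizer_eq_of_commute hd.not_isScal ?_ (Subgroup.mem_centralizer_singleton_iff.1 hg)
    rw [isScal_iff_coe]
    tauto
  · intro g hg
    exact NoEig.exists_conj_mem hd hg
  · rw [card_normalizer_torus ht, hc]
  · have := card_conjClasses_normalizer_torus_odd (two_ne_zero_of_odd hodd) ht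
    rw [hc] at this
    omega
  · intro g h1 h2
    have := (sq_eq_neg_one_of_inverts ht (conj_eq_inv_of_mem_normalizer ht h1 h2)).2
    exact congrArg Subtype.val this

end Cfsg.Agent.S2429
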