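import Cfsg.Statements.S2430
import Cfsg.Agent.Lib.SL2.Normalizer

set_option autoImplicit false
open Cfsg

namespace Cfsg.Agent.S2430

open CfsgLib.SL2

theorem exists_central {G : Type*} [Group G] [Finite G] (ℓ : ℕ) [Fact ℓ.Prime] (P : Sylow ℓ G)
    (h : ℓ ∣ Nat.card G) :
    ∃ z : G, z ∈ (P : Subgroup G) ∧ (P : Subgroup G) ≤ Subgroup.centralizer {z} ∧
      ∃ k, orderOf z = ℓ ^ (k + 1) := by
  have hP : (P : Subgroup G) ≠ ⊥ := P.ne_bot_of_dvd_card h
  have : Nontrivial (P : Subgroup G) := (Subgroup.nontrivial_iff_ne_bot _).2 hP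
  have := P.isPGroup'.center_nontrivial
  obtain ⟨z, hz⟩ := exists_ne (1 : Subgroup.center (P : Subgroup G))
  refine ⟨z.1.1, z.1.2, ?_, ?_⟩
  · intro x hx
    rw [Subgroup.mem_centralizer_singleton_iff]
    exact congrArg Subtype.val (Subgroup.mem_center_iff.1 z.2 ⟨x, hx⟩)
  · obtain ⟨k, hk⟩ := IsPGroup.iff_orderOf.1 P.isPGroup' z.1
    rw [Subgroup.orderOf_coe, hk]
    cases k with
    | zero =>
      exfalso
      apply hz
      rw [pow_zero, orderOf_eq_one_iff] at hk
      exact Subtype.ext hk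
    | succ k => exact ⟨k, rfl⟩

theorem result {F : Type*} [Field F] [Fintype F] (hodd : Odd (Fintype.card F)) (ℓ : ℕ) [Fact ℓ.Prime] (hℓ : ℓ ≠ 2)
    (P : Sylow ℓ (Matrix.SpecialLinearGroup (Fin 2) F)) :
    (ℓ ∣ Fintype.card F - 1 →
      Nat.card (Subgroup.centralizer ((P : Subgroup (Matrix.SpecialLinearGroup (Fin 2) F)) : Set (Matrix.SpecialLinearGroup (Fin 2) F))) = Fintype.card F - 1 ∧
      IsCyclic (Subgroup.centralizer ((P : Subgroup (Matrix.SpecialLinearGroup (Fin 2) F)) : Set (Matrix.SpecialLinearGroup (Fin 2) F))) ∧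
      Nat.card (Subgroup.normalizer ((P : Subgroup (Matrix.SpecialLinearGroup (Fin 2) F)) : Set (Matrix.SpecialLinearGroup (Fin 2) F))) = 2 * (Fintype.card F - 1)) ∧
    (ℓ ∣ Fintype.card F + 1 →
      Nat.card (Subgroup.centralizer ((P : Subgroup (Matrix.SpecialLinearGroup (Fin 2) F)) : Set (Matrix.SpecialLinearGroup (Fin 2) F))) = Fintype.card F + 1 ∧
      IsCyclic (Subgroup.centralizer ((P : Subgroup (Matrix.SpecialLinearGroup (Fin 2) F)) : Set (Matrix.SpecialLinearGroup (Fin 2) F))) ∧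
      Nat.card (Subgroup.normalizer ((P : Subgroup (Matrix.SpecialLinearGroup (Fin 2) F)) : Set (Matrix.SpecialLinearGroup (Fin 2) F))) = 2 * (Fintype.card F + 1)) := by
  have hl : ℓ.Prime := Fact.out
  have hq : 1 ≤ Fintype.card F := Fintype.card_pos
  have hl2 : ¬ ℓ ∣ 2 := fun h => hℓ ((Nat.prime_dvd_prime_iff_eq hl Nat.prime_two).1 h)
  have hboth : ℓ ∣ Fintype.card F - 1 → ℓ ∣ Fintype.card F + 1 → False := by
    intro h1 h2
    apply hl2
    have := Nat.dvd_sub h2 h1
    rwa [show Fintype.card F + 1 - (Fintype.card F - 1) = 2 by omega] at this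
  constructor
  · intro h
    obtain ⟨z, hz, hPz, k, hk⟩ := exists_central ℓ P (by
      rw [card_SL2']; exact (h.mul_left _).mul_right _)
    have hd : ℓ ∣ orderOf z := by rw [hk]; exact dvd_pow_self _ (Nat.succ_ne_zero k)
    obtain ⟨a, ha, e⟩ := split_of_orderOf (g := z) (fun h' => hl2 (hd.trans h'))
      (by rw [hk]
          exact Nat.Coprime.pow_left _
            (Nat.Coprime.coprime_dvd_left h coprime_ringChar_card_sub_one.symm))
      (fun h' => hboth h (hd.trans h'))
    have ht : tr z ^ 2 ≠ 4 := by rw [← tr_of_isConj e]; exact tr_dg_sq_ne ha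
    have hns := not_isScal_of_tr ht
    rw [centralizer_eq_of_le hns hPz hz hns, normalizer_eq_of_le ht hPz hz hns,
      card_normalizer_torus ht, card_centralizer_split ha e]
    exact ⟨rfl, isCyclic_centralizer_split ha e, rfl⟩
  · intro h
    obtain ⟨z, hz, hPz, k, hk⟩ := exists_central ℓ P (by
      rw [card_SL2']; exact h.mul_left _)
    have hd : ℓ ∣ orderOf z := by rw [hk]; exact dvd_pow_self _ (Nat.succ_ne_zero k)
    have hn : NoEig z := noEig_of_orderOf (g := z) (fun h' => hl2 (hd.trans h'))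
      (by rw [hk]
          exact Nat.Coprime.pow_left _
            (Nat.Coprime.coprime_dvd_left h coprime_ringChar_card_add_one.symm))
      (fun h' => hboth (hd.trans h') h)
    have ht : tr z ^ 2 ≠ 4 := hn.tr_sq_ne
    have hns := not_isScal_of_tr ht
    rw [centralizer_eq_of_le hns hPz hz hns, normalizer_eq_of_le ht hPz hz hns,
      card_normalizer_torus ht, hn.card_centralizer]
    exact ⟨rfl, hn.isCyclic_centralizer, rfl⟩

end Cfsg.Agent.S2430
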