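import Cfsg.Statements.S2431
import Cfsg.Agent.Lib.SL2.SylowTwo

set_option autoImplicit false
open Cfsg

namespace Cfsg.Agent.S2431

open CfsgLib.SL2

theorem result {F : Type*} [Field F] [Fintype F] (hodd : Odd (Fintype.card F)) (S : Sylow 2 (Matrix.SpecialLinearGroup (Fin 2) F)) :
    Subgroup.centralizer ((S : Subgroup (Matrix.SpecialLinearGroup (Fin 2) F)) : Set (Matrix.SpecialLinearGroup (Fin 2) F)) = Subgroup.center (Matrix.SpecialLinearGroup (Fin 2) F) ∧
    ((Fintype.card F % 8 = 1 ∨ Fintype.card F % 8 = 7) →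
      Subgroup.normalizer ((S : Subgroup (Matrix.SpecialLinearGroup (Fin 2) F)) : Set (Matrix.SpecialLinearGroup (Fin 2) F)) = (S : Subgroup (Matrix.SpecialLinearGroup (Fin 2) F))) ∧
    ((Fintype.card F % 8 = 3 ∨ Fintype.card F % 8 = 5) →
      Nat.card (Subgroup.normalizer ((S : Subgroup (Matrix.SpecialLinearGroup (Fin 2) F)) : Set (Matrix.SpecialLinearGroup (Fin 2) F))) = 3 * Nat.card S) := by
  refine ⟨centralizer_sylow_two hodd S, fun h => normalizer_sylow_two_eq hodd S ?_, fun h => ?_⟩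
  · rw [card_SL2]
    apply Dvd.dvd.mul_left
    have e := Nat.div_add_mod (Fintype.card F) 8
    set k := Fintype.card F / 8
    rcases h with h | h <;> rw [h] at e <;> rw [← e]
    · exact ⟨4 * k ^ 2 + k, by
        rw [show (8 * k + 1) ^ 2 = 16 * (4 * k ^ 2 + k) + 1 by ring]; simp⟩
    · exact ⟨4 * k ^ 2 + 7 * k + 3, by
        rw [show (8 * k + 7) ^ 2 = 16 * (4 * k ^ 2 + 7 * k + 3) + 1 by ring]; simp⟩
  · have h16 : ¬ 16 ∣ Nat.card (Matrix.SpecialLinearGroup (Fin 2) F) := by
      rw [card_SL2]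
      intro hd
      have hc : Nat.Coprime 16 (Fintype.card F) :=
        Nat.Coprime.pow_left 4 (Nat.coprime_two_left.2 hodd)
      have hd' := hc.dvd_of_dvd_mul_left hd
      have e := Nat.div_add_mod (Fintype.card F) 8
      set k := Fintype.card F / 8
      rcases h with h | h <;> rw [h] at e <;> rw [← e] at hd'
      · rw [show (8 * k + 3) ^ 2 = 16 * (4 * k ^ 2 + 3 * k) + 8 + 1 by ring] at hd'
        omega
      · rw [show (8 * k + 5) ^ 2 = 16 * (4 * k ^ 2 + 5 * k + 1) + 8 + 1 by ring] at hd'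
        omega
    obtain ⟨h1, h2⟩ := card_normalizer_sylow_two hodd S h16
    rw [h2]
    change 24 = 3 * Nat.card (S : Subgroup (Matrix.SpecialLinearGroup (Fin 2) F))
    rw [h1]

end Cfsg.Agent.S2431
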