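import Cfsg.Statements.S2432
import Cfsg.Agent.Lib.SL2.Principal

set_option autoImplicit false
open Cfsg

namespace Cfsg.Agent.S2432

open CfsgLib.SL2 CfsgLib.Char

/-- Let F be a finite field with q elements, q odd, and for a multiplicative character α of F let R(α) be the function on SL₂ induced from the linear character b ↦ α(b₁₁) of the upper triangular subgroup. For multiplicative characters α, β the inner product of R(α) and R(β) equals the number of true statements among 'α = β' and 'α = β⁻¹' (the Mackey formula for the upper triangular subgroup, whose intersection with a conjugate by the Weyl element is the diagonal subgroup). -/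
theorem result {F : Type*} [Field F] [Fintype F] [DecidableEq F] (hodd : Odd (Fintype.card F))
    (α β : MulChar F ℂ) [Decidable (α = β)] [Decidable (α = β⁻¹)] :
    Cfsg.classInner (Cfsg.indFun ((Cfsg.upperTriangularGL 2 F).comap Matrix.SpecialLinearGroup.toGL) (fun b => α (((b : Matrix.SpecialLinearGroup (Fin 2) F) : Matrix (Fin 2) (Fin 2) F) 0 0))) (Cfsg.indFun ((Cfsg.upperTriangularGL 2 F).comap Matrix.SpecialLinearGroup.toGL) (fun b => β (((b : Matrix.SpecialLinearGroup (Fin 2) F) : Matrix (Fin 2) (Fin 2) F) 0 0))) =
      (if α = β then 1 else 0) + (if α = β⁻¹ then 1 else 0) := by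
  classical
  rw [prin_eq_mulChar, prin_eq_mulChar, inner_prin_prin]
  have e : ∀ γ : MulChar F ℂ, γ.toUnitHom = MulChar.mulEquivToUnitHom γ := fun _ => rfl
  simp only [e]
  congr 1
  · exact if_congr (MulEquiv.apply_eq_iff_eq _) rfl rfl
  · refine if_congr ?_ rfl rfl
    have h : (MulChar.mulEquivToUnitHom α)⁻¹ = MulChar.mulEquivToUnitHom α⁻¹ :=
      (map_inv _ α).symm
    rw [h, MulEquiv.apply_eq_iff_eq, inv_eq_iff_eq_inv]

end Cfsg.Agent.S2432
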