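import Cfsg.Statements.S2434
import Cfsg.Agent.Lib.SL2.Unip

set_option autoImplicit false
open Cfsg

namespace Cfsg.Agent.S2434

open CfsgLib.SL2 CfsgLib.Char

/-- Let F be a finite field with q elements, q odd, and C a cyclic subgroup of order q + 1 of SL₂ over F (a non-split torus; it contains the centre). For every homomorphism θ from C to the non-zero complex numbers with θ² ≠ 1 there is an irreducible complex character χ of degree q − 1 such that χ(c) = −θ(c) − θ(c)⁻¹ for every non-central c in C, χ(zg) = θ(z)χ(g) for central z in C, χ vanishes at diagonal elements with entry a, a² ≠ 1, and χ takes the value −1 at every upper unitriangular element other than 1. Conversely every irreducible character of degree q − 1 has, for some such θ, the values −θ(c) − θ(c)⁻¹ at the non-central elements c of C (for q ≥ 5 these are exactly the cuspidal characters of degree q − 1). -/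
theorem result {F : Type*} [Field F] [Fintype F] (hodd : Odd (Fintype.card F))
    (C : Subgroup (Matrix.SpecialLinearGroup (Fin 2) F)) (hC : IsCyclic C) (hcard : Nat.card C = Fintype.card F + 1) :
    (∀ θ : C →* ℂˣ, (∃ c : C, θ c ^ 2 ≠ 1) →
      ∃ χ : Matrix.SpecialLinearGroup (Fin 2) F → ℂ, Cfsg.IsIrrCharacter (Matrix.SpecialLinearGroup (Fin 2) F) χ ∧ χ 1 = (Fintype.card F : ℂ) - 1 ∧
        (∀ c : C, (c : Matrix.SpecialLinearGroup (Fin 2) F) ∉ Subgroup.center (Matrix.SpecialLinearGroup (Fin 2) F) → χ c = -((θ c).val + (θ c)⁻¹.val)) ∧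
        (∀ c : C, (c : Matrix.SpecialLinearGroup (Fin 2) F) ∈ Subgroup.center (Matrix.SpecialLinearGroup (Fin 2) F) → ∀ g : Matrix.SpecialLinearGroup (Fin 2) F, χ ((c : Matrix.SpecialLinearGroup (Fin 2) F) * g) = (θ c).val * χ g) ∧
        (∀ g : Matrix.SpecialLinearGroup (Fin 2) F, (g : Matrix (Fin 2) (Fin 2) F) 0 1 = 0 → (g : Matrix (Fin 2) (Fin 2) F) 1 0 = 0 → (g : Matrix (Fin 2) (Fin 2) F) 0 0 ^ 2 ≠ 1 → χ g = 0) ∧
        (∀ g : Matrix.SpecialLinearGroup (Fin 2) F, (g : Matrix (Fin 2) (Fin 2) F) 1 0 = 0 → (g : Matrix (Fin 2) (Fin 2) F) 0 0 = 1 → (g : Matrix (Fin 2) (Fin 2) F) 1 1 = 1 → (g : Matrix (Fin 2) (Fin 2) F) 0 1 ≠ 0 → χ g = -1)) ∧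
    (∀ χ : Matrix.SpecialLinearGroup (Fin 2) F → ℂ, Cfsg.IsIrrCharacter (Matrix.SpecialLinearGroup (Fin 2) F) χ → χ 1 = (Fintype.card F : ℂ) - 1 →
      ∃ θ : C →* ℂˣ, (∃ c : C, θ c ^ 2 ≠ 1) ∧
        ∀ c : C, (c : Matrix.SpecialLinearGroup (Fin 2) F) ∉ Subgroup.center (Matrix.SpecialLinearGroup (Fin 2) F) → χ c = -((θ c).val + (θ c)⁻¹.val)) := by
  classical
  obtain ⟨d, hd, rfl⟩ := exists_noEig_of_isCyclic C hC hcard
  have e : ∀ (θ : Tor d →* ℂˣ) (c : Tor d), (θ c).val + (θ c)⁻¹.val = lin θ c + lin θ c⁻¹ :=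
    fun θ c => by rw [← map_inv]; rfl
  simp only [mem_center_iff_isScal, ← sq_ne_one_iff_exists, e]
  refine ⟨fun θ hθ => ⟨cusp θ, isIrr_cusp hd hθ, cusp_one hd θ, fun c hc => cusp_tor hd θ hc,
    fun c hc g => cusp_scal_mul hd θ hc g, fun g h1 h2 h3 => ?_, fun g h1 h2 h3 h4 => ?_⟩,
    fun χ hχ h => ?_⟩
  · obtain ⟨a, rfl⟩ := eq_dg_of_diag h1 h2
    exact cusp_dg hd θ h3
  · have : g = uu (g 0 1) := by apply ext2 <;> simp [h1, h2, h3]
    rw [this]
    exact cusp_uu hd θ h4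
  · have h1 : 1 < Fintype.card F := Fintype.one_lt_card
    obtain ⟨i, hi, h2, -⟩ := exists_kind_of_deg hd hχ 3 h
    have key : i = 3 ∨ (i = 4 ∧ Fintype.card F = 3) := by
      rw [Nat.odd_iff] at hodd
      fin_cases i <;> simp [kindDegNat] at h2 ⊢ <;> omega
    rcases key with rfl | ⟨rfl, hq⟩
    · obtain ⟨θ, hθ, rfl⟩ := hi
      exact ⟨θ, hθ, fun c hc => cusp_tor hd θ hc⟩
    · obtain ⟨α, H⟩ := hi
      obtain ⟨θ, hθ⟩ := exists_sq_ne_one_of_three hq hd
      refine ⟨θ, hθ, fun c hc => ?_⟩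
      have := congrFun H.2.2.2 c
      rw [cr_of_not_scal _ hc, Pi.zero_apply, neg_eq_zero] at this
      rw [this, lin_add_inv_of_three hq hd hθ hc, neg_zero]

end Cfsg.Agent.S2434
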