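import Cfsg.Statements.S2435
import Cfsg.Agent.Lib.SL2.Unip

set_option autoImplicit false
open Cfsg

namespace Cfsg.Agent.S2435

open CfsgLib.SL2 CfsgLib.Char

/-- Let F be a finite field with q elements, q odd and q ≥ 5, and χ an irreducible complex character of SL₂ over F. If χ has degree (q + 1)/2, then at a diagonal element with entry a, a² ≠ 1, χ takes the value 1 when a is a square in F and −1 otherwise. If χ has degree (q − 1)/2, then at an element g with no eigenvector in F² (so g has order dividing q + 1), χ takes the value −1 when g raised to the power (q + 1)/2 is the identity and the value 1 otherwise. -/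
theorem result {F : Type*} [Field F] [Fintype F] (hodd : Odd (Fintype.card F)) (hq : 5 ≤ Fintype.card F)
    (χ : Matrix.SpecialLinearGroup (Fin 2) F → ℂ) (hχ : Cfsg.IsIrrCharacter (Matrix.SpecialLinearGroup (Fin 2) F) χ) (g : Matrix.SpecialLinearGroup (Fin 2) F) :
    (χ 1 = (((Fintype.card F + 1) / 2 : ℕ) : ℂ) → (g : Matrix (Fin 2) (Fin 2) F) 0 1 = 0 → (g : Matrix (Fin 2) (Fin 2) F) 1 0 = 0 → (g : Matrix (Fin 2) (Fin 2) F) 0 0 ^ 2 ≠ 1 →
      (IsSquare ((g : Matrix (Fin 2) (Fin 2) F) 0 0) → χ g = 1) ∧ (¬ IsSquare ((g : Matrix (Fin 2) (Fin 2) F) 0 0) → χ g = -1)) ∧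
    (χ 1 = (((Fintype.card F - 1) / 2 : ℕ) : ℂ) → (∀ (c : F) (v : Fin 2 → F), v ≠ 0 → (g : Matrix (Fin 2) (Fin 2) F).mulVec v ≠ c • v) →
      (((g ^ ((Fintype.card F + 1) / 2)) : Matrix (Fin 2) (Fin 2) F) = 1 → χ g = -1) ∧ (((g ^ ((Fintype.card F + 1) / 2)) : Matrix (Fin 2) (Fin 2) F) ≠ 1 → χ g = 1)) := by
  classical
  obtain ⟨d, hd⟩ := exists_noEig (F := F)
  have hq' : 4 ≤ Fintype.card F := by omega
  have hcf := isClassFunction_of_isIrr hχ
  refine ⟨fun h h1 h2 h3 => ?_, fun h hg => ?_⟩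
  · obtain ⟨a, rfl⟩ := eq_dg_of_diag h1 h2
    obtain ⟨α, H⟩ := kind_of_deg hd hq' hχ 4 (fun _ => hodd) h
    rw [← hc_split hcf h3, H.2.2.1]
    exact lin_order_two H.1 H.2.1 a
  · obtain ⟨θ, H⟩ := kind_of_deg hd hq' hχ 5 (fun _ => hodd) h
    obtain ⟨c, hc, e⟩ := hd.exists_isConj_tor hg
    have h1 := congrFun H.2.2.2 c
    rw [cr_of_not_scal _ hc, classFun_eq_of_isConj hcf e, neg_eq_iff_eq_neg] at h1
    have := hd.isCyclic_centralizer
    have h2 := lin_of_sq_eq_one H.1 H.2.1 (k := (Fintype.card F + 1) / 2) (by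
      rw [hd.card_centralizer]; rw [Nat.odd_iff] at hodd; omega) c
    have h3 : ((g ^ ((Fintype.card F + 1) / 2)) : Matrix (Fin 2) (Fin 2) F) = 1 ↔
        c ^ ((Fintype.card F + 1) / 2) = 1 := by
      rw [← Matrix.SpecialLinearGroup.coe_pow, Subtype.ext_iff (a1 := c ^ _), Subgroup.coe_pow,
        Subgroup.coe_one]
      exact ⟨fun k => pow_eq_one_of_isConj e.symm (Subtype.ext k),
        fun k => congrArg Subtype.val (pow_eq_one_of_isConj e k)⟩
    rw [Ne, h3, h1]
    exact ⟨fun k => by rw [h2.1 k], fun k => by rw [h2.2 k, neg_neg]⟩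

end Cfsg.Agent.S2435
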