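import Cfsg.Statements.S2436
import Cfsg.Agent.Lib.SL2.CharCount
import Cfsg.Agent.Lib.SL2.SylowTwo
import Cfsg.Agent.Lib.Block.Omega
import Cfsg.Agent.Lib.Char.Monomial
import Cfsg.Agent.Lib.Char.ClassCount
import Cfsg.Agent.Lib.Push.SL2Facts
import Cfsg.Agent.Lib.LAE.Cores

set_option autoImplicit false
open Cfsg

namespace Cfsg.Agent.S2436


open CfsgLib.SL2 CfsgLib.Char CfsgLib.Block CfsgLib.Push CfsgLib.LAE Subgroup Finset
open scoped MatrixGroups

/-- The number of irreducible characters of degree prime to `ℓ`. -/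
noncomputable abbrev cnt (ℓ : ℕ) (N : Type*) [Group N] : ℕ :=
  Nat.card {χ : IrrCharacter N // ¬ ℓ ∣ charDegree (χ : N → ℂ)}

section
variable {N : Type*} [Group N] [Finite N] {ℓ : ℕ}

omit [Finite N] in
theorem cnt_congr {K : Type*} [Group K] (e : N ≃* K) : cnt ℓ K = cnt ℓ N :=
  Nat.card_congr (Equiv.subtypeEquiv ⟨fun χ => ⟨_, isIrr_comp_mulEquiv e χ.2⟩, fun χ => ⟨_, isIrr_comp_mulEquiv e.symm χ.2⟩,
    fun χ => Subtype.ext (by simp), fun χ => Subtype.ext (by simp)⟩ fun χ => by simp [charDegree])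

theorem sumsq : ∑ χ : IrrCharacter N, charDegree (χ : N → ℂ) ^ 2 = Nat.card N := by
  have := sum_irr_one_sq (G := N)
  simp only [← fun χ : IrrCharacter N => charDegree_eq (irr_isCharacter χ)] at this
  exact_mod_cast this

theorem ito (A : Subgroup N) [A.Normal] (hA : ∀ a ∈ A, ∀ b ∈ A, a * b = b * a) (χ : IrrCharacter N) :
    charDegree (χ : N → ℂ) ∣ A.index := ito_degree χ.2 A hA (charDegree_eq (irr_isCharacter χ)).symm

theorem cnt_all (A : Subgroup N) [A.Normal] (hA : ∀ a ∈ A, ∀ b ∈ A, a * b = b * a) (h : ¬ ℓ ∣ A.index) :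
    cnt ℓ N = Nat.card (ConjClasses N) :=
  (Nat.card_congr (Equiv.subtypeUnivEquiv fun χ e => h (e.trans (ito A hA χ)))).trans card_irr_eq_card_conjClasses

theorem cnt_two (T : Subgroup N) (hi : T.index = 2) (hc : ∀ a ∈ T, ∀ b ∈ T, a * b = b * a)
    (hinv : ∀ n, n ∉ T → ∀ t ∈ T, n * t * n⁻¹ = t⁻¹) (h2 : Nat.card {t : N // t ∈ T ∧ t * t = 1} = 2) : cnt 2 N = 4 := by
  have h1 := two_mul_card_conjClasses T hi hc hinv
  have h3 := T.card_mul_index
  have := normal_of_index_eq_two hi
  have h4 : ∑ χ : IrrCharacter N, (charDegree (χ : N → ℂ) ^ 2 + 3 * if ¬ 2 ∣ charDegree (χ : N → ℂ) then 1 else 0) =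
      ∑ _χ : IrrCharacter N, 4 := sum_congr rfl fun χ _ => by
    rcases (Nat.dvd_prime Nat.prime_two).1 (hi ▸ ito T hc χ) with e | e <;> simp [e]
  rw [sum_add_distrib, sumsq, ← mul_sum, sum_boole, sum_const, card_univ, ← Nat.card_eq_fintype_card,
    card_irr_eq_card_conjClasses, ← Fintype.card_subtype, ← Nat.card_eq_fintype_card, Nat.cast_id, smul_eq_mul] at h4
  rw [hi] at h3
  rw [cnt]
  omega

theorem cnt_24 (h : Nat.card N = 24) (h2 : ¬ 2 ∣ (commutator N).index) : cnt 2 N = 4 := by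
  have h1 := (commutator N).index_dvd_card
  have h4 : ∑ χ : IrrCharacter N, (charDegree (χ : N → ℂ) ^ 2 + 8 * if (χ : N → ℂ) 1 = 1 then 1 else 0) =
      ∑ χ : IrrCharacter N, ((9 * if ¬ 2 ∣ charDegree (χ : N → ℂ) then 1 else 0) + 4 *
        if 2 ∣ charDegree (χ : N → ℂ) then (charDegree (χ : N → ℂ) / 2) ^ 2 else 0) := sum_congr rfl fun χ _ => by
    have k1 : charDegree (χ : N → ℂ) ∣ 24 := by simpa [h] using ito ⊥ (by simp) χ
    have k2 := h ▸ sumsq (N := N) ▸ single_le_sum (f := fun χ : IrrCharacter N => charDegree (χ : N → ℂ) ^ 2)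
      (fun _ _ => Nat.zero_le _) (mem_univ χ)
    simp only [← charDegree_eq (irr_isCharacter χ), Nat.cast_eq_one]
    generalize charDegree (χ : N → ℂ) = d at *
    have : d ≤ 4 := by nlinarith
    interval_cases d <;> simp_all
  rw [sum_add_distrib, sumsq, sum_add_distrib, ← mul_sum, ← mul_sum, ← mul_sum, sum_boole, sum_boole,
    ← Fintype.card_subtype, ← Fintype.card_subtype, ← Nat.card_eq_fintype_card, ← Nat.card_eq_fintype_card, card_linear_irr,
    Nat.cast_id, Nat.cast_id, h] at h4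
  have h5 : 0 < cnt 2 N := Nat.card_pos_iff.2 ⟨⟨irrOne N, by simp [charDegree, irrOne]⟩, inferInstance⟩
  rw [h] at h1
  have := Nat.le_of_dvd (by norm_num) h1
  rw [cnt] at h5 ⊢
  generalize (commutator N).index = a at *
  interval_cases a <;> omega

end

variable {F : Type*} [Field F] [Fintype F]

theorem card_borel (ho : Odd (Fintype.card F)) : Nat.card (ConjClasses (borel F)) = Fintype.card F + 3 := by
  classical
  let e : Fˣ × F ≃ borel F := Equiv.ofBijective (fun x => ⟨dg x.1 * uu x.2, mul_mem (dg_mem_borel _) (upU_le_borel (uu_mem _))⟩)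
    ⟨fun x y h => by
      have h : dg x.1 * uu x.2 = dg y.1 * uu y.2 := congrArg Subtype.val h
      have h1 : x.1 = y.1 := Units.ext (by simpa [mul_ap] using congrArg (fun g : SL(2, F) => g 0 0) h)
      exact Prod.ext h1 (uu_injective (mul_left_cancel (h1 ▸ h :))),
    fun g => (borel_decomp g.2).elim fun a h => h.elim fun b h => ⟨(a, b), Subtype.ext h.symm⟩⟩
  have := Fintype.ofFinite (borel F)
  have h0 : Nat.card (borel F) = (Fintype.card F - 1) * Fintype.card F := by
    rw [← Nat.card_congr e, Nat.card_prod, card_units_eq, Nat.card_eq_fintype_card]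
  have h1 := sum_card_centralizer (G := borel F)
  have h2 : ∀ g : borel F, ¬ IsScal (g : SL(2, F)) →
      Nat.card (centralizer {g}) = Nat.card (centralizer {(g : SL(2, F))}) := fun g hg => by
    rw [← Nat.card_congr (subgroupOfEquivOfLe (H := centralizer {(g : SL(2, F))}) (K := borel F) fun x hx => by
      obtain ⟨a, b, -, -, k, -⟩ := (CfsgLib.SL2.mem_centralizer_iff hg).1 hx
      rw [mem_borel, k, mem_borel.1 g.2, mul_zero]).toEquiv]
    congr 2
    ext x
    simp [mem_subgroupOf, mem_centralizer_singleton_iff, Subtype.ext_iff]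
  have h3 : ∀ x : Fˣ × F, Nat.card (centralizer {e x}) = if (x.1 : F) ^ 2 = 1 then
      (if x.2 = 0 then (Fintype.card F - 1) * Fintype.card F else 2 * Fintype.card F) else Fintype.card F - 1 := fun x => by
    split_ifs with k k'
    · rw [← h0, (eq_top_iff (a := centralizer {e x})).2 fun y _ => mem_centralizer_iff_conj.2 (Subtype.ext (IsScal.conj (g := (e x : SL(2, F))) (show
        IsScal (dg x.1 * uu x.2) by rwa [k', uu_zero, mul_one, isScal_dg_iff]) y)), card_top]
    · rw [h2 _ (not_isScal_scal_mul_uu ((isScal_dg_iff _).2 k) k')]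
      exact (card_centralizer_unip ((isScal_dg_iff _).2 k) k' (IsConj.refl _)).trans
        (by rw [card_center_odd (two_ne_zero_of_odd ho)])
    · rw [h2 _ fun h => k ((isScal_dg_iff _).1 (isScal_of_isConj (isConj_dg_mul_uu k x.2).symm h))]
      exact card_centralizer_split k (isConj_dg_mul_uu k x.2)
  rw [← e.sum_comp, h0, Fintype.sum_prod_type] at h1
  simp only [h3] at h1
  obtain ⟨q, hq⟩ : ∃ q, Fintype.card F = q + 1 := ⟨_, (Nat.succ_pred_eq_of_pos Fintype.card_pos).symm⟩
  have h4 : ∀ a : Fˣ, (∑ b : F, if (a : F) ^ 2 = 1 then (if b = 0 then (Fintype.card F - 1) * Fintype.card F else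
      2 * Fintype.card F) else Fintype.card F - 1) = q * (q + 1) + 2 * (q * (q + 1)) * if a ∈ ({1, -1} : Finset Fˣ) then 1 else 0 :=
    fun a => by
      have : (a : F) ^ 2 = 1 ↔ a ∈ ({1, -1} : Finset Fˣ) := by
        rw [sq_eq_one_iff, mem_insert, mem_singleton, Units.ext_iff, Units.ext_iff]; rfl
      simp only [this]
      split_ifs
      · simp [sum_ite, Finset.filter_eq' univ (0 : F), filter_ne', hq]; ring
      · simp [hq, mul_comm]
  simp only [h4] at h1
  rw [sum_add_distrib, ← mul_sum _ _ (2 * _), sum_boole, filter_mem_eq_inter, univ_inter, card_pair fun k => two_ne_zero_of_odd ho (by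
    have : (1 : F) = -1 := Units.ext_iff.1 k
    linear_combination this), sum_const, card_univ, Fintype.card_units, hq] at h1
  have h5 : 1 < q + 1 := hq ▸ Fintype.one_lt_card
  exact Nat.eq_of_mul_eq_mul_right (m := q * (q + 1)) (Nat.mul_pos (by omega) (by omega)) (h1.symm.trans (by simp [hq]; ring))

/-- Let F be a finite field with q elements, q odd, ℓ any prime and S a Sylow ℓ-subgroup of SL₂ over F with normaliser N. Then SL₂ and N have the same number of irreducible complex characters of degree not divisible by ℓ (the McKay equality holds for SL₂ over F at every prime). -/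
theorem result {F : Type*} [Field F] [Fintype F] (hodd : Odd (Fintype.card F)) (ℓ : ℕ) [Fact ℓ.Prime] (S : Sylow ℓ (Matrix.SpecialLinearGroup (Fin 2) F)) :
    Nat.card {χ : Cfsg.IrrCharacter (Matrix.SpecialLinearGroup (Fin 2) F) // ¬ ℓ ∣ Cfsg.charDegree (χ : Matrix.SpecialLinearGroup (Fin 2) F → ℂ)} =
      Nat.card {ψ : Cfsg.IrrCharacter (Subgroup.normalizer ((S : Subgroup (Matrix.SpecialLinearGroup (Fin 2) F)) : Set (Matrix.SpecialLinearGroup (Fin 2) F))) //
        ¬ ℓ ∣ Cfsg.charDegree (ψ : Subgroup.normalizer ((S : Subgroup (Matrix.SpecialLinearGroup (Fin 2) F)) : Set (Matrix.SpecialLinearGroup (Fin 2) F)) → ℂ)} := by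
  classical
  show cnt ℓ SL(2, F) = cnt ℓ _
  have hp : ℓ.Prime := Fact.out
  have h2 := two_ne_zero_of_odd hodd
  obtain ⟨k, hk⟩ := id hodd
  have h0 : 1 < Fintype.card F := Fintype.one_lt_card
  have hG : cnt ℓ SL(2, F) = _ := card_irr_deg_odd hodd fun c => ¬ ℓ ∣ ⌊c.re⌋₊
  rw [show (Fintype.card F - 1 : ℂ) = (Fintype.card F - 1 : ℕ) by simp [h0.le], ← Nat.cast_add_one] at hG
  simp only [Complex.natCast_re, Nat.floor_natCast, Complex.one_re, Nat.floor_one, hp.not_dvd_one, not_false_eq_true,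
    if_true] at hG
  by_cases hS : (S : Subgroup SL(2, F)) = ⊥
  · exact cnt_congr ((MulEquiv.subgroupCongr (by rw [hS]; exact normalizer_eq_top _)).trans topEquiv)
  obtain rfl | hl := eq_or_ne ℓ 2
  · rw [hG, if_pos (by omega), if_neg (by omega), if_neg (by omega), show _ + _ = 4 by split_ifs <;> omega, eq_comm]
    obtain ⟨z, hz, ht, hN⟩ := exists_sylow_two_le_normalizer hodd S
    have h4 := tr_sq_ne_of_tr_zero h2 ht
    by_cases h16 : 16 ∣ Nat.card SL(2, F)
    · rw [← cnt_congr (MulEquiv.subgroupCongr (normalizer_sylow_two_eq hodd S h16))]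
      refine cnt_two ((centralizer {z}).subgroupOf S) ?_ (fun a ha b hb => Subtype.ext
        (commute_of_commute (not_isScal_of_tr h4) (mem_centralizer_singleton_iff.1 ha) (mem_centralizer_singleton_iff.1 hb)))
        (fun n hn t ht => Subtype.ext (conj_eq_inv_of_inverts (not_isScal_of_tr h4)
          (conj_eq_inv_of_mem_normalizer h4 (hN n.2) hn) (mem_centralizer_singleton_iff.1 ht))) ?_
      · have := card_mul_index ((centralizer {z}).subgroupOf (S : Subgroup SL(2, F)))
        rw [card_sylow_two_eq hodd S ht hN, ← inf_subgroupOf_left, Nat.card_congr (subgroupOfEquivOfLe inf_le_left).toEquiv,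
          mul_comm 2, Nat.mul_right_inj Nat.card_pos.ne'] at this
        rwa [← inf_subgroupOf_left]
      · have hm : (-1 : SL(2, F)) ∈ (S : Subgroup SL(2, F)) := by
          rw [← mul_inv_cancel z, inv_eq_neg_of_tr ht, mul_neg, neg_neg]
          exact mul_mem hz hz
        refine card_eq_two_of_pair (a := 1) (b := ⟨-1, hm⟩) (fun e => neg_one_ne_one h2 (congrArg Subtype.val e).symm) fun x => ?_
        rw [Subtype.ext_iff, Subtype.ext_iff, Subtype.ext_iff, Subgroup.coe_mul, Subgroup.coe_one, sq_eq_one_iff_isScal h2, ← isScal_iff]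
        exact and_iff_right_of_imp fun h => mem_centralizer_singleton_iff.2 (mul_inv_eq_iff_eq_mul.1 (h.conj z)).symm
    obtain ⟨h8, h24⟩ := card_normalizer_sylow_two hodd S h16
    refine cnt_24 h24 fun h => ?_
    have key : ∀ y, tr y = 0 → (S : Subgroup SL(2, F)) ≤ normalizer (centralizer {y} : Subgroup SL(2, F)) → ∀ w ∈ normalizer
        ((S : Subgroup SL(2, F)) : Set SL(2, F)), w * y * w⁻¹ * y = y * (w * y * w⁻¹) → w ∈ (S : Subgroup SL(2, F)) :=
      fun y hy hn w hw e => have := not_isScal_of_tr (tr_sq_ne_of_tr_zero h2 hy)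
        mem_sylow_of_mem_normalizers hodd S hy hn hw (mem_normalizer_of_conj_eq
          (centralizer_eq_of_commute this (mt (isScal_conj_iff _ _).1 this) e))
    obtain ⟨w, hw, hw'⟩ := SetLike.not_le_iff_exists.1 fun e : normalizer ((S : Subgroup SL(2, F)) : Set SL(2, F)) ≤ S => by
      have := card_le_of_le e
      omega
    let E := (commutator (normalizer ((S : Subgroup SL(2, F)) : Set SL(2, F)))).map (Subgroup.subtype _) ⊓ S
    have e1 : w * z * w⁻¹ * z⁻¹ ∈ E := mem_inf.2 ⟨(map_subtype_commutator _).ge (commutator_mem_commutator hw (le_normalizer hz)),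
      mul_mem (conj_mem_of_mem_normalizer hw hz) (inv_mem hz)⟩
    obtain ⟨e2, e3⟩ := sq_eq_neg_one_of_inverts h4 (conj_eq_inv_of_mem_normalizer h4 (hN e1.2) fun e =>
      hw' (key z ht hN w hw (mem_centralizer_singleton_iff.1 ((Subgroup.mul_mem_cancel_right _
        (inv_mem (mem_centralizer_singleton_iff.2 rfl))).1 e))))
    generalize w * z * w⁻¹ * z⁻¹ = y at *
    have e4 : Nat.card E = 2 ^ 2 := by
      have k1 := card_dvd_of_le (inf_le_left : E ≤ _)
      have k2 := card_dvd_of_le (inf_le_right : E ≤ _)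
      have k3 := card_mul_index (commutator (normalizer ((S : Subgroup SL(2, F)) : Set SL(2, F))))
      have k4 := E.orderOf_dvd_natCard e1
      rw [orderOf_eq_prime_pow (p := 2) (n := 1) (by rw [pow_one, sq, e3]; exact neg_one_ne_one h2)
        (by rw [pow_succ, pow_mul, pow_one, sq y, e3]; simp)] at k4
      rw [card_map_of_injective (Subgroup.subtype_injective _)] at k1
      obtain ⟨a, ha⟩ := h
      have k5 : Nat.card E ∣ 12 := k1.trans ⟨a, by rw [ha, h24] at k3; linarith⟩
      have := Nat.le_of_dvd (by norm_num) (Nat.dvd_gcd k5 (h8 ▸ k2))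
      have := Nat.le_of_dvd Nat.card_pos k4
      simp at *; omega
    have e5 : ∀ n ∈ normalizer ((S : Subgroup SL(2, F)) : Set SL(2, F)), n * y * n⁻¹ * y = y * (n * y * n⁻¹) := fun n hn =>
      congrArg Subtype.val ((IsPGroup.isMulCommutative_of_card_eq_prime_sq e4).1.1 ⟨n * y * n⁻¹, conj_mem_of_mem_normalizer
        (le_normalizer_map_subtype _ hn) e1.1, conj_mem_of_mem_normalizer hn e1.2⟩ ⟨y, e1⟩)
    have e6 := not_isScal_of_tr (tr_sq_ne_of_tr_zero h2 e2)
    exact hw' (key y e2 (fun n hn => mem_normalizer_of_conj_eq (centralizer_eq_of_commute e6 (mt (isScal_conj_iff _ _).1 e6)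
      (e5 n (le_normalizer hn)))) w hw (e5 w hw))
  by_cases hc : ℓ = ringChar F
  · have : CharP F ℓ := hc ▸ ringChar.charP F
    obtain ⟨n, -, hn⟩ := FiniteField.card F ℓ
    have hq : ℓ ∣ Fintype.card F := hn ▸ dvd_pow_self ℓ n.ne_zero
    have c1 : ¬ ℓ ∣ Fintype.card F + 1 := hp.coprime_iff_not_dvd.1 (hc ▸ coprime_ringChar_card_add_one)
    have c2 : ¬ ℓ ∣ Fintype.card F - 1 := hp.coprime_iff_not_dvd.1 (hc ▸ coprime_ringChar_card_sub_one)
    rw [if_neg (not_not.2 hq), if_pos c1, if_pos c2, if_pos fun e => c1 (e.trans (Nat.div_dvd_of_dvd (by omega))),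
      if_pos fun e => c2 (e.trans (Nat.div_dvd_of_dvd (by omega)))] at hG
    obtain ⟨g, -, hg⟩ := (isSylowIn_upU (F := F) (p := ℓ)).exists_conj (isSylowIn_top S)
    have := normal_subgroupOf_of_le (borel_le_normalizer (F := F))
    rw [← hg, ← conjS_normalizer, normalizer_upU, cnt_congr (conjSEquiv g _), cnt_all ((upU F).subgroupOf (borel F))
      (fun a ha b hb => Subtype.ext (upU_comm ha hb)) ((isSylowIn_upU.mono upU_le_borel le_top).not_dvd_relIndex), card_borel hodd]
    omega
  obtain ⟨⟨g, hg⟩, h1⟩ := ne_bot_iff_exists_ne_one.1 (omegaZ_ne_bot S.isPGroup' hS)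
  obtain ⟨g1, g2, g3⟩ := mem_omegaZ.1 hg
  have g4 := orderOf_eq_prime g3 fun e => h1 (Subtype.ext e)
  have g5 : ¬ IsScal g := fun e => hl ((Nat.prime_dvd_prime_iff_eq hp Nat.prime_two).1 (g4 ▸ orderOf_dvd_of_pow_eq_one (by
    rw [sq, (sq_eq_one_iff_isScal h2 g).2 e])))
  obtain ⟨n, hr, hn⟩ := FiniteField.card F (ringChar F)
  have g6 := tr_sq_ne_of_coprime g5 (g4 ▸ (Nat.coprime_primes hp hr).2 hc)
  have g7 := card_conjClasses_normalizer_torus_odd h2 g6
  have g8 : ℓ ∣ Nat.card (centralizer {g}) := g4 ▸ Subgroup.orderOf_dvd_natCard _ (mem_centralizer_singleton_iff.2 rfl)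
  have c0 : ¬ ℓ ∣ 2 := fun e => hl ((Nat.prime_dvd_prime_iff_eq hp Nat.prime_two).1 e)
  have := normal_subgroupOf_of_le (le_refl (normalizer ((centralizer {g} : Subgroup SL(2, F)) : Set SL(2, F))))
  rw [normalizer_eq_of_le g6 (fun x hx => mem_centralizer_singleton_iff.2 (g2 x hx)) g1 g5, cnt_all ((centralizer {g}).subgroupOf _)
    (fun a ha b hb => Subtype.ext (commute_of_commute g5 (mem_centralizer_singleton_iff.1 ha) (mem_centralizer_singleton_iff.1 hb)))
    (by rwa [index_torus g6])]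
  have c1 : ∀ m, ℓ ∣ 2 * m ↔ ℓ ∣ m := fun m => (hp.coprime_iff_not_dvd.2 c0).dvd_mul_left
  have c2 : ℓ ∣ k → ¬ ℓ ∣ k + 1 := fun e e' => hp.not_dvd_one ((Nat.dvd_add_right e).1 e')
  rw [if_pos fun e => hc ((Nat.prime_dvd_prime_iff_eq hp hr).1 (hp.dvd_of_dvd_pow (hn ▸ e))),
    show Fintype.card F + 1 = 2 * (k + 1) by omega, show Fintype.card F - 1 = 2 * k by omega] at hG
  simp only [c1, Nat.mul_div_cancel_left _ two_pos] at hG
  rcases card_centralizer_regular g6 with e | e <;> rw [e] at g7 g8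
  · have := (c1 k).1 (by rwa [hk] at g8)
    simp only [this, c2 this, not_true, not_false_eq_true, if_true, if_false] at hG
    omega
  · have := (c1 (k + 1)).1 (by rwa [hk] at g8)
    simp only [this, (imp_not_comm.1 c2 this : ¬ ℓ ∣ k), not_true, not_false_eq_true, if_true, if_false] at hG
    omega

end Cfsg.Agent.S2436
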