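import Mathlib
import Cfsg.Statements.S2437
-- import your own Cfsg.Agent.* helpers here

set_option autoImplicit false
open Cfsg

namespace Cfsg.Agent.S2437

/-- Over a finite field F with q elements, q odd, the upper triangular subgroup of SL₂ (a Borel subgroup, of order q(q − 1)) has exactly q + 3 conjugacy classes. -/
theorem result {F : Type*} [Field F] [Fintype F] (hodd : Odd (Fintype.card F)) :
    Nat.card (ConjClasses ((Cfsg.upperTriangularGL 2 F).comap Matrix.SpecialLinearGroup.toGL)) = Fintype.card F + 3 := by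
  classical
  set B := (Cfsg.upperTriangularGL 2 F).comap Matrix.SpecialLinearGroup.toGL
  have h2 : (2 : F) ≠ 0 := fun h => by
    have : CharP F 2 := (CharP.charP_iff_prime_eq_zero Nat.prime_two).2 h
    have := FiniteField.even_card_iff_char_two.1 (ringChar.eq F 2)
    obtain ⟨k, hk⟩ := hodd
    omega
  have hB : ∀ g : B, g.1 1 0 = 0 := fun g => g.2 (show (0 : Fin 2) < 1 by decide)
  have hd : ∀ g : B, g.1 0 0 * g.1 1 1 = 1 := fun g => by
    have := g.1.det_coe
    rwa [Matrix.det_fin_two, hB g, mul_zero, sub_zero] at this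
  let e : Fˣ × F ≃ B :=
    { toFun x := ⟨⟨!![x.1, x.2; 0, x.1⁻¹], by simp [Matrix.det_fin_two]⟩, fun i j h => by
        fin_cases i <;> fin_cases j <;> first | rfl | simp at h⟩
      invFun g := (Units.mkOfMulEqOne _ _ (hd g), g.1 0 1)
      left_inv x := Prod.ext (Units.ext rfl) rfl
      right_inv g := Subtype.ext (Subtype.ext (by
        ext i j
        fin_cases i <;> fin_cases j <;> simp [hB g, inv_eq_of_mul_eq_one_right (hd g)])) }
  have hc : ∀ x y : Fˣ × F, Commute (e x) (e y) ↔ y.2 * (x.1 - x.1⁻¹) = x.2 * (y.1 - y.1⁻¹) := fun x y => by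
    refine (Subtype.ext_iff.trans Subtype.ext_iff).trans ?_
    change !![x.1.1, x.2; 0, x.1.1⁻¹] * !![y.1.1, y.2; 0, y.1.1⁻¹] =
      !![y.1.1, y.2; 0, y.1.1⁻¹] * !![x.1.1, x.2; 0, x.1.1⁻¹] ↔ _
    simp [mul_comm]
    constructor <;> intro h <;> linear_combination h
  have h3 : ∀ a c : F, Fintype.card {x : F × F // x.2 * a = x.1 * c} =
      if a = 0 ∧ c = 0 then Fintype.card F ^ 2 else Fintype.card F := fun a c => by
    split_ifs with h
    · simp [h, sq]
    rcases not_and_or.1 h with h | h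
    · exact Fintype.card_congr ⟨fun x => x.1.1, fun b => ⟨(b, b * c / a), by simp [h]⟩,
        fun x => by simp [← x.2, h], fun _ => rfl⟩
    · exact Fintype.card_congr ⟨fun x => x.1.2, fun b => ⟨(b * a / c, b), by simp [h]⟩,
        fun x => by simp [x.2, h], fun _ => rfl⟩
  have h4 : (Finset.univ.filter fun a : Fˣ => (a - a⁻¹ : F) = 0).card = 2 := by
    refine Finset.card_eq_two.2 ⟨1, -1, fun h => h2 (by
      have h := congrArg Units.val h
      push_cast at h
      linear_combination h), ?_⟩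
    ext a
    rw [Finset.mem_filter, sub_eq_zero, ← Units.ext_iff, ← mul_eq_one_iff_eq_inv, Units.ext_iff]
    rw [Units.val_mul, Units.val_one, mul_self_eq_one_iff]
    simp only [Units.ext_iff, Finset.mem_univ, true_and, Finset.mem_insert, Finset.mem_singleton,
      Units.val_one, Units.val_neg]
  have h5 := card_comm_eq_card_conjClasses_mul_card B
  rw [← Nat.card_congr e, Nat.card_congr (β := Σ p : Fˣ × Fˣ, {x : F × F // x.2 * (p.1 - p.1⁻¹) =
      x.1 * (p.2 - p.2⁻¹)}) ⟨fun p => ⟨((e.symm p.1.1).1, (e.symm p.1.2).1), ((e.symm p.1.1).2,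
        (e.symm p.1.2).2), (hc _ _).1 (by simpa using p.2)⟩, fun p => ⟨(e (p.1.1, p.2.1.1),
        e (p.1.2, p.2.1.2)), (hc _ _).2 p.2.2⟩, fun p => by simp, fun p => by
        refine Sigma.subtype_ext ?_ ?_ <;> simp⟩] at h5
  simp only [Nat.card_eq_fintype_card (α := Σ _, _), Nat.card_eq_fintype_card (α := _ × _),
    Fintype.card_sigma, h3, Fintype.card_prod, Fintype.card_units] at h5
  rw [Finset.sum_ite, Finset.sum_const, Finset.sum_const, Finset.filter_not, Finset.card_univ_sdiff,
    ← Finset.univ_product_univ, Finset.filter_product (p := fun a : Fˣ => (a - a⁻¹ : F) = 0)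
    (q := fun a : Fˣ => (a - a⁻¹ : F) = 0), Finset.card_product, h4, Fintype.card_prod,
    Fintype.card_units] at h5
  have h6 : 2 ≤ Fintype.card Fˣ := h4 ▸ Finset.card_le_univ _
  rw [Fintype.card_units] at h6
  obtain ⟨n, hn⟩ : ∃ n, Fintype.card F = n + 3 := ⟨Fintype.card F - 3, by omega⟩
  rw [hn] at h5 ⊢
  simp only [smul_eq_mul, show n + 3 - 1 = n + 2 from rfl, show (n + 2) * (n + 2) - 2 * 2 = n * n + 4 * n by
    rw [Nat.sub_eq_iff_eq_add (by nlinarith)]; ring] at h5
  exact Nat.eq_of_mul_eq_mul_right (by positivity : 0 < (n + 2) * (n + 3)) (by rw [← h5]; ring)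

end Cfsg.Agent.S2437
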