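import Cfsg.Statements.S2439
import Cfsg.Agent.Lib.SL2.CharCount
import Cfsg.Agent.Lib.SL2.SylowTwo
import Cfsg.Agent.Lib.Block.Vanish

set_option autoImplicit false
open Cfsg

namespace Cfsg.Agent.S2439


open CfsgLib.SL2 CfsgLib.Char CfsgLib.Block
open CfsgLib.BrPair (Ce)
open scoped MatrixGroups

section
variable {G : Type*} [Group G] [Finite G] {p : ℕ} {M : Ideal AlgInt} (hM : IsPModular p M) {χ ψ : IrrCharacter G}
include hM

theorem li_of_dvd (h : ¬ p ∣ charDegree (χ : G → ℂ)) {g : G} (hg : p ∣ (Ce g).index) :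
    MemLocalIdeal M (centralChar (χ : G → ℂ) g) := by
  rw [centralChar_eq_div χ.2, div_eq_mul_inv]
  exact li_mul_left hM (lr_irr hM χ g) (li_mul_right hM ((li_natCast_iff hM _).2 hg) (lr_inv_nat hM h))

theorem same (h : ∀ g, ¬ p ∣ orderOf g → MemLocalIdeal M (centralChar (χ : G → ℂ) g - centralChar (ψ : G → ℂ) g)) :
    SameBlock M (χ : G → ℂ) (ψ : G → ℂ) := by
  have := Fintype.ofFinite (ConjClasses G)
  have hB := isPBlock_blockOf (M := M) χ
  refine (lam_eB_eq_one_iff hM hB).1 ((Eq.trans ?_ (lam_eB_of_mem hM hB (mem_blockOf_self hM χ))))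
  rw [lam_apply, lam_apply]
  refine Finset.sum_congr rfl fun C _ => ?_
  by_cases e : (eB hM (blockOf M (χ : G → ℂ))).coeff (crep C) = 0
  · rw [e, zero_mul, zero_mul]
  rw [(red_eq_iff hM (lr_centralChar hM χ.2 _) (lr_centralChar hM ψ.2 _)).2
    (h _ (not_dvd_orderOf_of_coeff_eB hM hB e))]

end

/-- Let F be a finite field with q elements of odd characteristic p, and M a maximal ideal of the algebraic integers containing p. Then SL₂ over F has exactly three p-blocks relative to M: the irreducible character of degree q (the Steinberg character) alone; the other irreducible characters taking the same value at −1 as at 1 (the principal block); and the irreducible characters χ with χ(−1) = −χ(1). Every Sylow p-subgroup is a defect group of each of the last two blocks. -/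
theorem result {F : Type*} [Field F] [Fintype F] (p : ℕ) [Fact p.Prime] [CharP F p] (hp : p ≠ 2)
    (M : Ideal Cfsg.AlgInt) (hM : Cfsg.IsPModular p M) :
    (∀ B : Set (Cfsg.IrrCharacter (Matrix.SpecialLinearGroup (Fin 2) F)), Cfsg.IsPBlock M B ↔
      (B = {χ : Cfsg.IrrCharacter (Matrix.SpecialLinearGroup (Fin 2) F) | (χ : Matrix.SpecialLinearGroup (Fin 2) F → ℂ) 1 = (Fintype.card F : ℂ)} ∨
       B = {χ : Cfsg.IrrCharacter (Matrix.SpecialLinearGroup (Fin 2) F) | (χ : Matrix.SpecialLinearGroup (Fin 2) F → ℂ) (-1) = (χ : Matrix.SpecialLinearGroup (Fin 2) F → ℂ) 1 ∧ (χ : Matrix.SpecialLinearGroup (Fin 2) F → ℂ) 1 ≠ (Fintype.card F : ℂ)} ∨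
       B = {χ : Cfsg.IrrCharacter (Matrix.SpecialLinearGroup (Fin 2) F) | (χ : Matrix.SpecialLinearGroup (Fin 2) F → ℂ) (-1) = -(χ : Matrix.SpecialLinearGroup (Fin 2) F → ℂ) 1})) ∧
    Nat.card {B : Set (Cfsg.IrrCharacter (Matrix.SpecialLinearGroup (Fin 2) F)) // Cfsg.IsPBlock M B} = 3 ∧
    ∀ P : Sylow p (Matrix.SpecialLinearGroup (Fin 2) F),
      Cfsg.IsDefectGroup p M {χ : Cfsg.IrrCharacter (Matrix.SpecialLinearGroup (Fin 2) F) | (χ : Matrix.SpecialLinearGroup (Fin 2) F → ℂ) (-1) = (χ : Matrix.SpecialLinearGroup (Fin 2) F → ℂ) 1 ∧ (χ : Matrix.SpecialLinearGroup (Fin 2) F → ℂ) 1 ≠ (Fintype.card F : ℂ)} (P : Subgroup (Matrix.SpecialLinearGroup (Fin 2) F)) ∧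
      Cfsg.IsDefectGroup p M {χ : Cfsg.IrrCharacter (Matrix.SpecialLinearGroup (Fin 2) F) | (χ : Matrix.SpecialLinearGroup (Fin 2) F → ℂ) (-1) = -(χ : Matrix.SpecialLinearGroup (Fin 2) F → ℂ) 1} (P : Subgroup (Matrix.SpecialLinearGroup (Fin 2) F)) := by
  classical
  have hp' : p.Prime := Fact.out
  have hr := ringChar.eq F p
  obtain ⟨n, -, hn⟩ := FiniteField.card F p
  have hq : p ∣ Fintype.card F := hn ▸ dvd_pow_self p n.ne_zero
  have ho : Odd (Fintype.card F) := hn ▸ (hp'.odd_of_ne_two hp).pow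
  have h0 := Fintype.card_pos (α := F)
  have c1 : ¬ p ∣ Fintype.card F + 1 := hp'.coprime_iff_not_dvd.1 (hr ▸ coprime_ringChar_card_add_one)
  have c2 : ¬ p ∣ Fintype.card F - 1 := hp'.coprime_iff_not_dvd.1 (hr ▸ coprime_ringChar_card_sub_one)
  have h1 : ∀ χ : IrrCharacter SL(2, F), (χ : SL(2, F) → ℂ) 1 ≠ Fintype.card F → ¬ p ∣ charDegree (χ : SL(2, F) → ℂ) :=
    fun χ h => by
      obtain ⟨d, hd⟩ := exists_noEig (F := F)
      obtain ⟨i, hi⟩ := exists_kind hd χ.2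
      have := (hi.deg hd).trans (kindDeg_eq h0 i)
      rw [charDegree_eq_of_eq this]
      obtain ⟨k, hk⟩ := ho
      fin_cases i
      exacts [hp'.not_dvd_one, (h this).elim, c1, c2, fun e => c1 (e.trans (Nat.div_dvd_of_dvd (by omega))),
        fun e => c2 (e.trans (Nat.div_dvd_of_dvd (by omega)))]
  have h2 : ∀ g : SL(2, F), ¬ p ∣ orderOf g → IsScal g ∨ p ∣ (Ce g).index := fun g hg => or_iff_not_imp_left.2 fun h =>
    (hp'.dvd_mul.1 ((Ce g).card_mul_index ▸ card_SL2 (F := F) ▸ hq.mul_right _)).resolve_left (by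
      rcases card_centralizer_regular (tr_sq_ne_of_coprime h (hr ▸ (hp'.coprime_iff_not_dvd.2 hg).symm)) with e | e <;>
      erw [e] <;> assumption)
  have h3 : ∀ g : SL(2, F), IsScal g → Ce g = ⊤ := fun g h =>
    eq_top_iff.2 fun x _ => mem_centralizer_iff_conj.2 (h.conj x)
  have h4 : ∀ χ : SL(2, F) → ℂ, centralChar χ (-1) = χ (-1) / χ 1 := fun χ => by
    rw [centralChar, show Subgroup.centralizer {(-1 : SL(2, F))} = ⊤ from h3 _ (isScal_neg isScal_one), Subgroup.index_top, Nat.cast_one,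
      one_mul]
  have h5 : ∀ χ : IrrCharacter SL(2, F), centralChar (χ : SL(2, F) → ℂ) (-1) = 1 ∨
      centralChar (χ : SL(2, F) → ℂ) (-1) = -1 := fun χ => h4 _ ▸ sq_eq_one_iff.1 (irr_sign_sq χ.2)
  have h6 : ∀ χ ψ : IrrCharacter SL(2, F), (χ : SL(2, F) → ℂ) 1 = Fintype.card F →
      (SameBlock M (χ : SL(2, F) → ℂ) ψ ↔ (ψ : SL(2, F) → ℂ) 1 = Fintype.card F) := fun χ ψ h => ⟨fun e => by
      rw [mem_of_blockIdem_mem_OG hM (A := {χ}) (fun g => ?_) rfl e, h]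
      rw [coeff_blockIdem, blockCoeff_singleton, h, card_SL2', ← mul_assoc, ← char_inv (irr_isCharacter χ), mul_assoc _ _ (_ + 1),
        Nat.cast_mul, mul_inv, mul_right_comm (_⁻¹), inv_mul_cancel₀ (Nat.cast_ne_zero.2 h0.ne'), one_mul]
      exact lr_mul hM (lr_inv_nat hM fun k => (hp'.dvd_mul.1 k).elim c2 c1) (lr_irr hM χ _), fun e => by
      rw [eq_stein_of_deg χ.2 h, eq_stein_of_deg ψ.2 e]; exact sameBlock_refl hM _⟩
  have c3 : ¬ MemLocalIdeal M 2 := fun e => hp ((Nat.prime_dvd_prime_iff_eq hp' Nat.prime_two).1 ((li_natCast_iff hM 2).1 e))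
  have h7 : ∀ χ ψ : IrrCharacter SL(2, F), (χ : SL(2, F) → ℂ) 1 ≠ Fintype.card F → (SameBlock M (χ : SL(2, F) → ℂ) ψ ↔
      centralChar (ψ : SL(2, F) → ℂ) (-1) = centralChar (χ : SL(2, F) → ℂ) (-1) ∧ (ψ : SL(2, F) → ℂ) 1 ≠ Fintype.card F) :=
    fun χ ψ h => ⟨fun e => ⟨by
      have := e (-1)
      rcases h5 χ with k | k <;> rcases h5 ψ with k' | k' <;> rw [k, k'] at this ⊢
      exacts [(c3 (by convert this; norm_num)).elim, (c3 (by convert li_neg this; norm_num)).elim],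
      fun e' => h ((h6 ψ χ e').1 (sameBlock_symm e))⟩, fun e => same hM fun g hg => by
      rcases h2 g hg with k | k
      · rcases (isScal_iff g).1 k with rfl | rfl
        · rw [centralChar_one (irr_one_ne_zero χ.2), centralChar_one (irr_one_ne_zero ψ.2), sub_self]; exact li_zero hM
        · rw [e.1, sub_self]; exact li_zero hM
      · exact li_sub hM (li_of_dvd hM (h1 χ h) k) (li_of_dvd hM (h1 ψ e.2) k)⟩
  have h8 : ∀ χ : IrrCharacter SL(2, F), (centralChar (χ : SL(2, F) → ℂ) (-1) = 1 ↔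
      (χ : SL(2, F) → ℂ) (-1) = (χ : SL(2, F) → ℂ) 1) ∧ (centralChar (χ : SL(2, F) → ℂ) (-1) = -1 ↔
      (χ : SL(2, F) → ℂ) (-1) = -(χ : SL(2, F) → ℂ) 1) := fun χ => by
    simp [h4, div_eq_iff (irr_one_ne_zero χ.2)]
  have h9 : ∀ χ : IrrCharacter SL(2, F), centralChar (χ : SL(2, F) → ℂ) (-1) = -1 →
      (χ : SL(2, F) → ℂ) 1 ≠ Fintype.card F := fun χ k e => by
    rw [((h8 χ).1).2 (by rw [eq_stein_of_deg χ.2 e, stein_neg])] at k
    norm_num at k
  have b1 : ∀ χ : IrrCharacter SL(2, F), (χ : SL(2, F) → ℂ) 1 = Fintype.card F → blockOf M (χ : SL(2, F) → ℂ) =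
      {χ : IrrCharacter SL(2, F) | (χ : SL(2, F) → ℂ) 1 = Fintype.card F} := fun χ h => Set.ext fun ψ => h6 χ ψ h
  have b2 : ∀ χ : IrrCharacter SL(2, F), centralChar (χ : SL(2, F) → ℂ) (-1) = 1 → (χ : SL(2, F) → ℂ) 1 ≠ Fintype.card F →
      blockOf M (χ : SL(2, F) → ℂ) = {χ : IrrCharacter SL(2, F) | (χ : SL(2, F) → ℂ) (-1) = (χ : SL(2, F) → ℂ) 1 ∧
        (χ : SL(2, F) → ℂ) 1 ≠ Fintype.card F} := fun χ k h => Set.ext fun ψ => (h7 χ ψ h).trans (k ▸ (h8 ψ).1.and Iff.rfl)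
  have b3 : ∀ χ : IrrCharacter SL(2, F), centralChar (χ : SL(2, F) → ℂ) (-1) = -1 → blockOf M (χ : SL(2, F) → ℂ) =
      {χ : IrrCharacter SL(2, F) | (χ : SL(2, F) → ℂ) (-1) = -(χ : SL(2, F) → ℂ) 1} := fun χ k => Set.ext fun ψ =>
    (h7 χ ψ (h9 χ k)).trans (k ▸ (and_iff_left_of_imp (h9 ψ)).trans (h8 ψ).2)
  let χ₁ : IrrCharacter SL(2, F) := ⟨stein, isIrr_stein⟩
  have k₁ : (χ₁ : SL(2, F) → ℂ) 1 = Fintype.card F := stein_one
  have k₂ : centralChar (irrOne SL(2, F) : SL(2, F) → ℂ) (-1) = 1 := (h8 _).1.2 rfl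
  have k₂' : (irrOne SL(2, F) : SL(2, F) → ℂ) 1 ≠ Fintype.card F := fun e =>
    Fintype.one_lt_card.ne (Nat.cast_eq_one.1 e.symm).symm
  obtain ⟨χ₃, k₃⟩ : ∃ χ : IrrCharacter SL(2, F), centralChar (χ : SL(2, F) → ℂ) (-1) = -1 := by_contra fun e =>
    neg_one_ne_one (two_ne_zero_of_odd ho) (eq_one_of_forall_irr_eq fun χ hχ =>
      (h8 ⟨χ, hχ⟩).1.1 ((h5 _).resolve_right fun k => e ⟨_, k⟩))
  have hd : ∀ χ : IrrCharacter SL(2, F), (χ : SL(2, F) → ℂ) 1 ≠ Fintype.card F → ∀ P : Sylow p SL(2, F),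
      IsDefectGroup p M (blockOf M (χ : SL(2, F) → ℂ)) P := fun χ h P => by
    obtain ⟨g, hg⟩ := exists_isDefectClass hM (isPBlock_blockOf χ)
    refine isDefectGroup_iff.2 ⟨g, hg, h3 g ((h2 g (not_dvd_orderOf_of_isDefectClass hM (isPBlock_blockOf χ) hg)).resolve_right
      fun k => hg.2.2 χ (mem_blockOf_self hM χ) (li_of_dvd hM (h1 χ h) k)) ▸ CfsgLib.Fusion.sylIn_top P⟩
  have key : ∀ B : Set (IrrCharacter SL(2, F)), IsPBlock M B ↔ B = blockOf M (χ₁ : SL(2, F) → ℂ) ∨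
      B = blockOf M (irrOne SL(2, F) : SL(2, F) → ℂ) ∨ B = blockOf M (χ₃ : SL(2, F) → ℂ) := fun B =>
    ⟨fun ⟨χ, e⟩ => by
      by_cases h : (χ : SL(2, F) → ℂ) 1 = Fintype.card F
      · exact .inl (by rw [e, b1 χ h, b1 _ k₁])
      exact .inr ((h5 χ).imp (fun k => by rw [e, b2 χ k h, b2 _ k₂ k₂']) fun k => by rw [e, b3 χ k, b3 _ k₃]),
    by rintro (e | e | e) <;> exact ⟨_, e⟩⟩
  rw [← b1 _ k₁, ← b2 _ k₂ k₂', ← b3 _ k₃]
  refine ⟨key, ?_, fun P => ⟨hd _ k₂' P, hd _ (h9 _ k₃) P⟩⟩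
  have n : ∀ χ ψ : IrrCharacter SL(2, F), blockOf M (χ : SL(2, F) → ℂ) = blockOf M (ψ : SL(2, F) → ℂ) →
      SameBlock M (χ : SL(2, F) → ℂ) ψ := fun χ ψ e => e.ge (mem_blockOf_self hM ψ)
  refine Set.ncard_eq_three.2 ⟨_, _, _, fun e => k₂' ((h6 _ _ k₁).1 (n _ _ e)), fun e => h9 _ k₃ ((h6 _ _ k₁).1 (n _ _ e)),
    fun e => ?_, Set.ext key⟩
  have := ((h7 _ _ k₂').1 (n _ _ e)).1
  rw [k₂, k₃] at this
  norm_num at this

end Cfsg.Agent.S2439
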