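import Cfsg.Statements.S2441
import Cfsg.Agent.Lib.DefBlk.Main
import Cfsg.Agent.Lib.CR.DefectZero
import Cfsg.Agent.Lib.CR.ChevR3
import Cfsg.Agent.Lib.RGD.Simple

set_option autoImplicit false
open Cfsg

namespace Cfsg.Agent.S2441

open CfsgLib

theorem aux (p : ℕ) [Fact p.Prime] (M : Ideal AlgInt) (hM : IsPModular p M) (D : Lie.ChevalleyDatum)
    (hD : D ∈ [Lie.chevG2, Lie.chevB2, Lie.chevD4, Lie.chevF4, Lie.chevE6, Lie.chevE7, Lie.chevE8])
    (h0 : 0 < D.rank) :
    Nat.card {B : Set (IrrCharacter (D.group (ZMod p))) // IsPBlock M B} = 2 := by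
  have := Chev.good_of_mem hD
  have h := Weyl.rtOK_of_mem hD
  have : Nonempty (Fin D.rank) := ⟨⟨0, h0⟩⟩
  rw [DefBlk.card_blocks (St.chevSys_nondeg h _) (St.chevSys_grp h _) (St.not_dvd_card_H h _ p)
    (RGD.connected_of_connChk h (RGD.connChk_of_mem hD)) (fun χ hχ d h1 h2 => CR.eq_st_of_dvd
      (St.chevSys_nondeg h _) (St.chevSys_grp h _) (CR.chevSys_r3 h _) p hχ ⟨d, h1, h2⟩) hM,
    RGD.center_eq_bot h, Subgroup.card_bot]

/-- For a prime p, the Chevalley groups of types G₂, F₄ and E₈ over the field with p elements (types for which the simply connected and adjoint groups coincide, so the group has trivial centre) each have exactly two p-blocks relative to any maximal ideal of the algebraic integers containing p (only the count is asserted; it arises as the defect-zero block of the Steinberg character plus a single block of maximal defect). -/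
theorem result (p : ℕ) [Fact p.Prime] (M : Ideal Cfsg.AlgInt) (hM : Cfsg.IsPModular p M) :
    Nat.card {B : Set (Cfsg.IrrCharacter (Cfsg.Lie.chevG2.group (ZMod p))) // Cfsg.IsPBlock M B} = 2 ∧
    Nat.card {B : Set (Cfsg.IrrCharacter (Cfsg.Lie.chevF4.group (ZMod p))) // Cfsg.IsPBlock M B} = 2 ∧
    Nat.card {B : Set (Cfsg.IrrCharacter (Cfsg.Lie.chevE8.group (ZMod p))) // Cfsg.IsPBlock M B} = 2 := 
  ⟨aux p M hM _ (by simp) (by decide), aux p M hM _ (by simp) (by decide),
    aux p M hM _ (by simp) (by decide)⟩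

end Cfsg.Agent.S2441
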