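import Mathlib
import Cfsg.Statements.S2531
-- import your own Cfsg.Agent.* helpers here

set_option autoImplicit false
open Cfsg

namespace Cfsg.Agent.S2531

/-- Let `F` be a finite field and `n ≥ 3`. No set of permutations of the points of the projective space of `Fⁿ`, each induced by an invertible semilinear transformation of `Fⁿ` (so a subset of the full projective semilinear group), is sharply 2-transitive on the points: it is impossible that for all pairs of distinct points `(a, b)` and `(c, d)` exactly one member of the set sends `a` to `c` and `b` to `d`. -/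
theorem result {F : Type*} [Field F] [Finite F]
    (n : ℕ) (hn : 3 ≤ n) (S : Set (Equiv.Perm (Projectivization F (Fin n → F))))
    (hS : ∀ s ∈ S, ∃ (σ : F ≃+* F) (f : (Fin n → F) →ₛₗ[(σ : F →+* F)] (Fin n → F)) (hf : Function.Injective f),
      ∀ x, s x = Projectivization.map f hf x) :
    ¬ (∀ a b c d : Projectivization F (Fin n → F), a ≠ b → c ≠ d →
        ∃! s, s ∈ S ∧ s a = c ∧ s b = d) := by
  open Projectivization in
  intro h
  have hq : 1 < Nat.card F := Finite.one_lt_card
  have hm : ∀ (W : Submodule F (Fin n → F)) v hv, (mk F v hv).rep ∈ W ↔ v ∈ W := fun W v hv => by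
    obtain ⟨a, ha⟩ := exists_smul_eq_mk_rep F v hv
    rw [← ha, Units.smul_def, W.smul_mem_iff a.ne_zero]
  have key : ∀ W : Submodule F (Fin n → F), W ≠ ⊥ →
      (Nat.card {x : Projectivization F (Fin n → F) // x.rep ∈ W} : ZMod (Nat.card F)) = 1 := by
    intro W hW
    have h1 := Nat.card_eq_of_bijective (fun x : Projectivization F W =>
      (⟨map W.subtype W.subtype_injective x, by
        induction x using Projectivization.ind with
        | h v hv => exact (hm W _ _).2 v.2⟩ :
          {x : Projectivization F (Fin n → F) // x.rep ∈ W}))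
      ⟨fun x y h => map_injective _ W.subtype_injective (congrArg Subtype.val h), fun x =>
        ⟨mk F ⟨_, x.2⟩ fun h => x.1.rep_nonzero (congrArg Subtype.val h), Subtype.ext x.1.mk_rep⟩⟩
    have h2 := congrArg (Nat.cast (R := ZMod (Nat.card F))) (card' F W)
    rw [Module.natCard_eq_pow_finrank (K := F) (V := W), h1, Nat.cast_add, Nat.cast_mul,
      Nat.cast_sub hq.le, Nat.cast_pow, ZMod.natCast_self,
      zero_pow (by rwa [Ne, Submodule.finrank_eq_zero])] at h2
    push_cast at h2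
    linear_combination h2
  have key2 : ∀ φ ψ : (Fin n → F) →ₗ[F] F, LinearMap.ker (φ.prod ψ) ≠ ⊥ := fun φ ψ =>
    LinearMap.ker_ne_bot_of_finrank_lt (by simp; omega)
  let φ : (Fin n → F) →ₗ[F] F := LinearMap.proj ⟨0, by omega⟩
  let a := mk F (Pi.single ⟨0, by omega⟩ 1 : Fin n → F) (by simp)
  let B := {x : Projectivization F (Fin n → F) // x.rep ∈ LinearMap.ker (φ.prod φ)}
  have hB : ∀ b : B, a ≠ b.1 := fun b h => by
    have : φ _ = 0 := congrArg Prod.fst (LinearMap.mem_ker.1 ((hm _ _ _).1 (h ▸ b.2)))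
    simp [φ] at this
  let T := {s // s ∈ S ∧ s a = a}
  have := Fintype.ofFinite T
  have h1 := Nat.card_eq_of_bijective (fun x : Σ s : T, {b : B // (s.1 b.1).rep ∈
    LinearMap.ker (φ.prod φ)} => ((x.2.1, ⟨_, x.2.2⟩) : B × B)) ⟨by
      rintro ⟨s, b, hb⟩ ⟨s', b', hb'⟩ h'
      obtain rfl : b = b' := congrArg Prod.fst h'
      obtain rfl : s = s' := Subtype.ext ((h a b.1 a _ (hB b) (hB ⟨_, hb⟩)).unique
        ⟨s.2.1, s.2.2, rfl⟩ ⟨s'.2.1, s'.2.2, (congrArg (·.2.1) h').symm⟩)
      rfl, fun ⟨b, c⟩ => by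
      obtain ⟨s, ⟨h1, h2, h3⟩, -⟩ := h a b.1 a c.1 (hB b) (hB c)
      exact ⟨⟨⟨s, h1, h2⟩, b, h3 ▸ c.2⟩, Prod.ext rfl (Subtype.ext h3)⟩⟩
  obtain ⟨v, hv, hv'⟩ := Submodule.exists_mem_ne_zero_of_ne_bot (key2 φ φ)
  let b : B := ⟨mk F v hv', (hm _ _ _).2 hv⟩
  have h2 := Nat.card_eq_of_bijective (fun x : Option T => (⟨x.elim a fun s => s.1 b.1, trivial⟩ :
    {x : Projectivization F (Fin n → F) // x.rep ∈ (⊤ : Submodule F _)})) ⟨by
      have h3 : ∀ s : T, a ≠ s.1 b.1 := fun s h => hB b (s.1.injective (s.2.2.trans h))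
      rintro (_ | s) (_ | s') h'
      exacts [rfl, (h3 _ (congrArg Subtype.val h')).elim, (h3 _ (congrArg Subtype.val h').symm).elim,
        congrArg _ (Subtype.ext ((h a b.1 a _ (hB b) (h3 s)).unique
          ⟨s.2.1, s.2.2, rfl⟩ ⟨s'.2.1, s'.2.2, (congrArg Subtype.val h').symm⟩))], fun ⟨c, _⟩ => by
      by_cases hc : a = c
      · exact ⟨none, Subtype.ext hc⟩
      · obtain ⟨s, ⟨h1, h2, h3⟩, -⟩ := h a b.1 a c (hB b) hc
        exact ⟨some ⟨s, h1, h2⟩, Subtype.ext h3⟩⟩
  have h3 := key ⊤ fun h => key2 φ φ (eq_bot_mono le_top h)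
  rw [← h2, Finite.card_option, Nat.cast_succ, add_eq_right] at h3
  have h4 := congrArg (Nat.cast (R := ZMod (Nat.card F))) h1
  rw [Nat.card_sigma, Nat.card_prod, Nat.cast_mul, key _ (key2 φ φ), Nat.cast_sum,
    Finset.sum_congr rfl (g := fun _ => 1) fun s _ => ?_, Finset.sum_const, Finset.card_univ,
    ← Nat.card_eq_fintype_card, nsmul_one, h3, mul_one] at h4
  · have := Fact.mk hq
    exact zero_ne_one h4
  obtain ⟨σ, f, hf, hs⟩ := hS s.1 s.2.1
  let ψ : (Fin n → F) →ₗ[F] F :=
    { toFun := fun v => σ.symm (φ (f v))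
      map_add' := by simp
      map_smul' := fun c v => by simp [f.map_smulₛₗ] }
  rw [← key _ (key2 φ ψ)]
  refine congrArg _ (Nat.card_congr ((Equiv.subtypeSubtypeEquivSubtypeInter _
    fun x => (s.1 x).rep ∈ LinearMap.ker (φ.prod φ)).trans (Equiv.subtypeEquivRight fun x => ?_)))
  induction x using Projectivization.ind with
  | h v hv => simp [hs, map_mk, hm, ψ, -LinearMap.mem_ker, LinearMap.ker_prod]; simp

end Cfsg.Agent.S2531
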