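import Mathlib
import Cfsg.Statements.S2532
-- import your own Cfsg.Agent.* helpers here

set_option autoImplicit false
open Cfsg

namespace Cfsg.Agent.S2532

/-- There is a function `f` of two natural-number arguments such that, whenever `m ≥ f(n, r)`, every subgroup of order `n` of the alternating group of degree `m` centralizes some subgroup of that alternating group isomorphic to the alternating group of degree `r`. -/
theorem result :
    ∃ f : ℕ → ℕ → ℕ, ∀ (m r : ℕ) (H : Subgroup ↥(alternatingGroup (Fin m))), f (Nat.card H) r ≤ m →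
      ∃ K : Subgroup ↥(alternatingGroup (Fin m)), Nonempty (↥K ≃* ↥(alternatingGroup (Fin r))) ∧
        K ≤ Subgroup.centralizer (H : Set ↥(alternatingGroup (Fin m))) := by
  open Equiv MulAction in
  refine ⟨fun n r => 2 ^ n * r * n + 1, fun m r H hm => ?_⟩
  classical
  have h1 : m ≤ Nat.card (MulAction.orbitRel.Quotient H (Fin m)) * Nat.card H := by
    rw [← Nat.card_prod]
    refine (Nat.card_fin m).ge.trans (Nat.card_le_card_of_surjective
      (fun x : MulAction.orbitRel.Quotient H (Fin m) × H => x.2 • x.1.out) fun y => ?_)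
    obtain ⟨h, hh⟩ : y ∈ MulAction.orbit H
        (Quotient.mk'' y : MulAction.orbitRel.Quotient H (Fin m)).out :=
      MulAction.orbitRel_apply.1 (Quotient.exact' (Quotient.out_eq' _).symm)
    exact ⟨(_, h), hh⟩
  have := Fintype.ofFinite (MulAction.orbitRel.Quotient H (Fin m))
  have := Fintype.ofFinite H
  obtain ⟨S, hS⟩ := Fintype.exists_lt_card_fiber_of_mul_lt_card
    (fun w : MulAction.orbitRel.Quotient H (Fin m) => MulAction.stabilizer H w.out) (n := r) (by
      have h2 : Fintype.card (Subgroup H) ≤ 2 ^ Nat.card H := by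
        rw [Nat.card_eq_fintype_card, ← Fintype.card_set]
        exact Fintype.card_le_of_injective _ SetLike.coe_injective
      rw [← Nat.card_eq_fintype_card (α := MulAction.orbitRel.Quotient _ _)]
      exact (Nat.mul_le_mul_right r h2).trans_lt (Nat.lt_of_mul_lt_mul_right (hm.trans h1)))
  obtain ⟨e, he⟩ := Function.Embedding.exists_of_card_le_finset (α := Fin r) (hS.le.trans' (by simp))
  have hx : ∀ i, MulAction.stabilizer H (e i).out = S := fun i => (Finset.mem_filter.1 (he ⟨i, rfl⟩)).2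
  let φ : Fin r × (H ⧸ S) → Fin m := fun x => x.2.out • (e x.1).out
  have h3 : ∀ i (g : H), φ (i, g) = g • (e i).out := fun i g => by
    obtain ⟨s, hs⟩ := QuotientGroup.mk_out_eq_mul S g
    simp only [φ, hs, mul_smul, MulAction.mem_stabilizer_iff.1 ((hx i).ge s.2)]
  have h4 : Function.Injective φ := by
    rintro ⟨i, c⟩ ⟨j, d⟩ h
    induction c using QuotientGroup.induction_on
    induction d using QuotientGroup.induction_on
    rw [h3, h3, ← inv_smul_eq_iff, ← mul_smul] at h
    obtain rfl : i = j :=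
      e.injective (Quotient.out_equiv_out.1 (MulAction.orbitRel_apply.2 ⟨_, h⟩)).symm
    exact Prod.ext rfl (QuotientGroup.eq.2 (hx i ▸ h)).symm
  let π : Equiv.Perm (Fin r) →* Equiv.Perm (Fin r × (H ⧸ S)) :=
    { toFun σ := Equiv.prodCongrLeft fun _ => σ, map_one' := rfl, map_mul' _ _ := rfl }
  let ψ := (Equiv.Perm.viaEmbeddingHom ⟨φ, h4⟩).comp (π.comp (alternatingGroup (Fin r)).subtype)
  have h5 : ∀ σ, ψ σ ∈ alternatingGroup (Fin m) := fun σ => by
    have := Fintype.ofFinite (H ⧸ S)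
    have h := Equiv.Perm.sign_prodCongrLeft fun _ : H ⧸ S => σ.1
    rw [Equiv.Perm.mem_alternatingGroup.1 σ.2, Finset.prod_const_one] at h
    exact Equiv.Perm.mem_alternatingGroup.2 ((@Equiv.Perm.sign_extendDomain _ _ _ _ _ _ (π σ.1) _
      (fun _ => Classical.propDecidable _) (Equiv.ofInjective φ h4)).trans h)
  have h6 : Function.Injective (ψ.codRestrict _ h5) := (MonoidHom.injective_codRestrict _ _ _).2
    ((Equiv.Perm.viaEmbeddingHom_injective _).comp fun σ τ h => Subtype.ext (Equiv.ext fun i =>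
      congrArg Prod.fst (Equiv.congr_fun h (i, (1 : H)))))
  refine ⟨_, ⟨(MonoidHom.ofInjective h6).symm⟩, ?_⟩
  rintro _ ⟨σ, rfl⟩ h hh
  refine Subtype.ext (Equiv.ext fun y => ?_)
  have h7 : ∀ (g : H) x, g • φ x = φ (x.1, g • x.2) := fun g ⟨i, c⟩ => by
    induction c using QuotientGroup.induction_on
    rw [h3, ← mul_smul, ← h3]; rfl
  change (⟨h, hh⟩ : H) • ψ σ y = ψ σ ((⟨h, hh⟩ : H) • y)
  have h8 : ∀ x, ψ σ (φ x) = φ (σ.1 x.1, x.2) := fun x =>
    Equiv.Perm.viaEmbedding_apply (π σ.1) ⟨φ, h4⟩ x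
  have h9 : ∀ y ∉ Set.range φ, ψ σ y = y := Equiv.Perm.viaEmbedding_apply_of_notMem (π σ.1) ⟨φ, h4⟩
  by_cases hy : y ∈ Set.range φ
  · obtain ⟨x, rfl⟩ := hy
    rw [h8, h7, h7, h8]
  · rw [h9 y hy, h9]
    rintro ⟨x, hx⟩
    exact hy ⟨_, (h7 _ x).symm.trans (inv_smul_eq_iff.2 hx)⟩

end Cfsg.Agent.S2532
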