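import Cfsg.Statements.S2533
import Mathlib

set_option autoImplicit false
open Cfsg

namespace Cfsg.Agent.S2533

open Matrix

variable {F : Type} [Field F]

/-- the three maps of the Kronecker module -/
def A (m : ℕ) (v : Fin 3 → F) : Matrix (Fin (m + 1)) (Fin m) F :=
  of fun i j => ∑ a : Fin 3, if (i : ℕ) = j + a then v a else 0

theorem A_add (m : ℕ) (v w : Fin 3 → F) : A m (v + w) = A m v + A m w := by
  ext i j
  simp only [A, of_apply, Matrix.add_apply, ← Finset.sum_add_distrib, Pi.add_apply]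
  exact Finset.sum_congr rfl fun a _ => by split_ifs <;> simp

theorem A_smul (m : ℕ) (c : F) (v : Fin 3 → F) : A m (c • v) = c • A m v := by
  ext i j
  simp [A, Finset.mul_sum]

theorem A_single (m : ℕ) (a : Fin 3) (i : Fin (m + 1)) (j : Fin m) :
    A m (Pi.single a (1 : F)) i j = if (i : ℕ) = j + a then 1 else 0 := by
  rw [A, of_apply, Finset.sum_eq_single a (fun b _ h => by simp [h]) (by simp), Pi.single_eq_same]

theorem brick {m : ℕ} {X : Matrix (Fin m) (Fin m) F} {Y : Matrix (Fin (m + 1)) (Fin (m + 1)) F}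
    (h : ∀ v : Fin 3 → F, A m v * X = Y * A m v) : X = Y 0 0 • 1 ∧ Y = Y 0 0 • 1 := by
  have hc : ∀ (i : Fin (m + 1)) (k : Fin m), (i : ℕ) = k ↔ i = k.castSucc := fun i k => by simp [Fin.ext_iff]
  have hs : ∀ (i : Fin (m + 1)) (k : Fin m), (i : ℕ) = k + 1 ↔ i = k.succ := fun i k => by simp [Fin.ext_iff]
  have e0 : ∀ (i : Fin (m + 1)) (k : Fin m), Y i k.castSucc = ∑ j : Fin m, if i = j.castSucc then X j k else 0 :=
    fun i k => by 
      have := (congrFun₂ (h (Pi.single 0 1)) i k).symm
      rw [Matrix.mul_apply, Matrix.mul_apply] at this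
      simpa [A_single, hc] using this
  have e1 : ∀ (i : Fin (m + 1)) (k : Fin m), Y i k.succ = ∑ j : Fin m, if i = j.succ then X j k else 0 :=
    fun i k => by 
      have := (congrFun₂ (h (Pi.single 1 1)) i k).symm
      rw [Matrix.mul_apply, Matrix.mul_apply] at this
      simpa [A_single, hs] using this
  have f0 : ∀ i k : Fin m, Y i.castSucc k.castSucc = X i k := fun i k => by simp [e0]
  have f1 : ∀ i k : Fin m, Y i.succ k.succ = X i k := fun i k => by simp [e1]
  have t : ∀ d i k (hi : i + d < m + 1) (hk : k + d < m + 1), Y ⟨i + d, hi⟩ ⟨k + d, hk⟩ = Y ⟨i, by omega⟩ ⟨k, by omega⟩ := by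
    intro d
    induction d with
    | zero => exact fun _ _ _ _ => rfl
    | succ d ih =>
      exact fun i k hi hk => ((f1 ⟨i + d, by omega⟩ ⟨k + d, by omega⟩).trans (f0 _ _).symm).trans
        (ih i k (by omega) (by omega))
  have hY : Y = Y 0 0 • 1 := by
    ext ⟨i, hi⟩ ⟨k, hk⟩
    rcases lt_trichotomy i k with h | rfl | h
    · obtain ⟨k, rfl⟩ := Nat.exists_eq_add_of_lt h
      have := (t i 0 (k + 1) (by omega) (by omega)).trans (e1 0 ⟨k, by omega⟩)
      simp only [(Fin.succ_ne_zero _).symm, if_false, Finset.sum_const_zero] at this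
      rw [Matrix.smul_apply, one_apply_ne (by simp [Fin.ext_iff]; omega), smul_zero, ← this]
      congr 2 <;> omega
    · simpa using t i 0 0 (by omega) (by omega)
    · have := (t (m - i) i k (by omega) (by omega)).symm
      have h2 := e0 (Fin.last m) ⟨k + (m - i), by omega⟩
      simp only [(Fin.castSucc_lt_last _).ne', if_false, Finset.sum_const_zero] at h2
      rw [Matrix.smul_apply, one_apply_ne (by simp [Fin.ext_iff]; omega), smul_zero, this, ← h2]
      exact congrArg₂ Y (Fin.ext (show i + (m - i) = m by omega)) rfl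
  refine ⟨?_, hY⟩
  ext i k
  rw [← f0, hY]
  simp [one_apply]

/-- the action by signs -/
def act (F : Type) [Field F] : ℤˣ →* MulAut (Multiplicative (Fin 3 → F)) where
  toFun := fun g => AddEquiv.toMultiplicative (DistribMulAction.toAddEquiv (Fin 3 → F) g)
  map_one' := by ext; simp
  map_mul' := fun g h => by ext; simp [mul_smul, smul_comm g h]

/-- the representation -/
noncomputable def rho (m : ℕ) : Multiplicative (Fin 3 → F) ⋊[act F] ℤˣ →* Matrix (Fin m ⊕ Fin (m + 1)) (Fin m ⊕ Fin (m + 1)) F where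
  toFun x := fromBlocks (((x.right : ℤ) : F) • 1) 0 (((x.right : ℤ) : F) • A m x.left.toAdd) 1
  map_one' := by simpa [← fromBlocks_one] using A_smul m (0 : F) 0
  map_mul' x y := by
    have h1 : ((act F) x.right y.left).toAdd = ((x.right : ℤ) : F) • y.left.toAdd := by
      rw [Int.cast_smul_eq_zsmul]; rfl
    have h2 : ((x.right : ℤ) : F) * ((x.right : ℤ) : F) = 1 := by rw [← Int.cast_mul, Int.units_coe_mul_self, Int.cast_one]
    simp [fromBlocks_multiply, A_add, h1, A_smul, smul_smul, mul_right_comm _ _ ((x.right : ℤ) : F), h2, mul_comm]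

theorem rho_apply (m : ℕ) (x : Multiplicative (Fin 3 → F) ⋊[act F] ℤˣ) : rho m x =
    fromBlocks (((x.right : ℤ) : F) • 1) 0 (((x.right : ℤ) : F) • A m x.left.toAdd) 1 := rfl

/-- the representation in the special linear group -/
noncomputable def sig (k : ℕ) : Multiplicative (Fin 3 → F) ⋊[act F] ℤˣ →* Matrix.SpecialLinearGroup (Fin (2 * k + (2 * k + 1))) F where
  toFun x := ⟨reindexAlgEquiv F F finSumFinEquiv (rho (2 * k) x), by
    simp [rho_apply, pow_mul, sq, ← Int.cast_mul]⟩
  map_one' := Subtype.ext (by simp)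
  map_mul' x y := Subtype.ext (by simp only [map_mul]; rfl)

theorem sig_coe (k : ℕ) (x : Multiplicative (Fin 3 → F) ⋊[act F] ℤˣ) :
    (sig k x).1 = reindexAlgEquiv F F finSumFinEquiv (rho (2 * k) x) := rfl


/-- For every odd prime `p` there is a finite group `H` of order `2p³` which, for infinitely many `n`, embeds in the projective special linear group `PSL(n, p)` as a subgroup with trivial centralizer. -/
theorem result
    (p : ℕ) [Fact p.Prime] (hp : p ≠ 2) :
    ∃ (H : Type) (_ : Group H) (_ : Finite H), Nat.card H = 2 * p ^ 3 ∧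
      ∀ N : ℕ, ∃ n, N ≤ n ∧ ∃ φ : H →* Matrix.ProjectiveSpecialLinearGroup (Fin n) (ZMod p),
        Function.Injective φ ∧ Subgroup.centralizer (φ.range : Set (Matrix.ProjectiveSpecialLinearGroup (Fin n) (ZMod p))) = ⊥ := by
  have h2 : (2 : ZMod p) ≠ 0 := fun e => hp ((Nat.prime_dvd_prime_iff_eq Fact.out Nat.prime_two).1
    ((ZMod.natCast_eq_zero_iff 2 p).1 e))
  refine ⟨Multiplicative (Fin 3 → ZMod p) ⋊[act (ZMod p)] ℤˣ, inferInstance,
    Finite.of_equiv _ SemidirectProduct.equivProd.symm, by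
      simp [Nat.card_congr SemidirectProduct.equivProd, mul_comm], fun N => ⟨2 * (N + 1) + (2 * (N + 1) + 1), by omega,
    (QuotientGroup.mk' _).comp (sig (N + 1)), (injective_iff_map_eq_one _).2 fun x hx => ?_,
    eq_bot_iff.2 fun g hg => ?_⟩⟩
  · obtain ⟨r, -, hr⟩ := Matrix.SpecialLinearGroup.mem_center_iff.1 ((QuotientGroup.eq_one_iff (sig _ x)).1 hx)
    have h1 : ∀ i j, rho (2 * (N + 1)) x i j = if i = j then r else 0 := fun i j => by
      simpa [sig_coe, diagonal_apply] using (congrFun₂ hr (finSumFinEquiv i) (finSumFinEquiv j)).symm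
    have h3 := h1 (.inr 0) (.inr 0)
    have h4 := h1 (.inl 0) (.inl 0)
    have h5 := fun a : Fin 3 => h1 (.inr ⟨a, by omega⟩) (.inl 0)
    simp [rho_apply] at h3 h4
    have h6 : x.right = 1 := (Int.units_eq_one_or x.right).resolve_right fun e => h2 (by
      rw [e, ← h3] at h4
      linear_combination (exp := 1) -(by simpa using h4 : (-1 : ZMod p) = 1))
    refine SemidirectProduct.ext (Multiplicative.toAdd.injective (funext fun a => ?_)) h6
    simpa [rho_apply, h6, A, ← Fin.ext_iff] using h5 a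
  · obtain ⟨g, rfl⟩ := QuotientGroup.mk_surjective g
    obtain ⟨X, hX⟩ := (reindexAlgEquiv (ZMod p) (ZMod p) finSumFinEquiv).surjective g.1
    have h1 : ∀ v, rho _ ⟨v, -1⟩ * X = X * rho _ ⟨v, -1⟩ := fun v => by
      have h3 := hg _ ⟨⟨v, -1⟩, rfl⟩
      obtain ⟨r, -, hr⟩ := Matrix.SpecialLinearGroup.mem_center_iff.1 ((QuotientGroup.eq (a := sig (N + 1) ⟨v, -1⟩ * g) (b := g * sig (N + 1) ⟨v, -1⟩)).1 h3)
      have h4 : (g * sig (N + 1) ⟨v, -1⟩).1 = r • (sig (N + 1) ⟨v, -1⟩ * g).1 := by
        rw [← mul_inv_cancel_left (sig (N + 1) ⟨v, -1⟩ * g) (g * _), Matrix.SpecialLinearGroup.coe_mul, ← hr, scalar_apply,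
          ← smul_eq_mul_diagonal]
      have h5 : (sig (F := ZMod p) (N + 1) ⟨v, -1⟩).1.trace = 1 := by
        rw [sig_coe, rho_apply]
        simp [trace, ← finSumFinEquiv.sum_comp]
      have h6 := congrArg (fun M => trace (M * (g⁻¹).1)) h4
      simp only [smul_mul_assoc, trace_smul, ← Matrix.SpecialLinearGroup.coe_mul, mul_inv_cancel_right, h5] at h6
      rw [Matrix.SpecialLinearGroup.coe_mul, trace_mul_comm, ← Matrix.SpecialLinearGroup.coe_mul, inv_mul_cancel_left, h5,
        smul_eq_mul, mul_one] at h6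
      rw [← h6, one_smul, Matrix.SpecialLinearGroup.coe_mul, Matrix.SpecialLinearGroup.coe_mul, ← hX] at h4
      exact (reindexAlgEquiv _ _ finSumFinEquiv).injective (by simpa only [map_mul, sig_coe] using h4.symm)
    rw [← fromBlocks_toBlocks X] at h1 hX
    generalize X.toBlocks₁₁ = a, X.toBlocks₁₂ = b, X.toBlocks₂₁ = c, X.toBlocks₂₂ = d at h1 hX
    have h3 := h1 1
    have h0 : A (2 * (N + 1)) (0 : Fin 3 → ZMod p) = 0 := by simpa using A_smul _ (0 : ZMod p) 0
    simp [rho_apply, fromBlocks_multiply, h0] at h3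
    obtain rfl : b = 0 := (smul_eq_zero_iff_right h2).1 (by rw [two_smul, ← eq_neg_iff_add_eq_zero, h3.1])
    obtain rfl : c = 0 := (smul_eq_zero_iff_right h2).1 (by rw [two_smul, ← eq_neg_iff_add_eq_zero, ← h3.2])
    obtain ⟨h4, h5⟩ := brick (X := a) (Y := d) fun v => by
      simpa [rho_apply, fromBlocks_multiply] using h1 (Multiplicative.ofAdd v)
    refine (QuotientGroup.eq_one_iff _).2 (Subgroup.mem_center_iff.2 fun y => Subtype.ext ?_)
    have h6 : fromBlocks a 0 0 d = d 0 0 • 1 := by rw [← fromBlocks_one, fromBlocks_smul, ← h4, ← h5, smul_zero, smul_zero]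
    rw [h6, map_smul, map_one] at hX
    simp [← hX]

end Cfsg.Agent.S2533
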