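import Mathlib
import Cfsg.Statements.S2537
import Cfsg.Agent.Lib.Dickson.MinSimple
import Cfsg.Agent.Lib.Coprime.HallAmbient
-- import your own Cfsg.Agent.* helpers here

set_option autoImplicit false
open Cfsg

namespace Cfsg.Agent.S2537

theorem not_dvd_iff {c i q n r : ℕ} (hr : r.Prime) (hq : ¬ r ∣ q) (hn : n ≠ 0) (h : c * i = q * n) :
    ¬ r ∣ i ↔ n.factorization r = c.factorization r := by
  have h0 : q ≠ 0 := by rintro rfl; simp at hq
  obtain ⟨h1, h2⟩ := mul_ne_zero_iff.1 (h ▸ mul_ne_zero h0 hn)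
  have := congrArg (·.factorization r) h
  simp only [Nat.factorization_mul h1 h2, Nat.factorization_mul h0 hn, Finsupp.add_apply,
    Nat.factorization_eq_zero_of_not_dvd hq] at this
  rw [hr.dvd_iff_one_le_factorization h2]
  omega

theorem part_iff {a b c d : ℕ} : 2 ^ a * 3 ^ b = 2 ^ c * 3 ^ d ↔ a = c ∧ b = d := by
  refine ⟨fun h => ?_, fun h => by rw [h.1, h.2]⟩
  have h2 := congrArg (·.factorization 2) h
  have h3 := congrArg (·.factorization 3) h
  simp [Nat.factorization_mul, Nat.prime_two.factorization, Nat.prime_three.factorization] at h2 h3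
  exact ⟨h2, h3⟩

theorem hall_iff {a b i q : ℕ} (h2 : ¬ 2 ∣ q) (h3 : ¬ 3 ∣ q) (hn : q ^ 2 - 1 ≠ 0)
    (h : 2 ^ a * 3 ^ b * i = q * (q ^ 2 - 1)) : ¬ 2 ∣ i ∧ ¬ 3 ∣ i ↔
    2 ^ (q ^ 2 - 1).factorization 2 * 3 ^ (q ^ 2 - 1).factorization 3 = 2 ^ a * 3 ^ b := by
  rw [not_dvd_iff Nat.prime_two h2 hn h, not_dvd_iff Nat.prime_three h3 hn h, part_iff]
  simp [Nat.factorization_mul, Nat.prime_two.factorization, Nat.prime_three.factorization]

/-- Let `F` be a finite field with `q` elements of characteristic `p ≥ 5`, and `ε = 1` if `q ≡ 1 (mod 4)`, `ε = -1` otherwise. Then `PSL(2, F)` has a Hall `{2, 3}`-subgroup if and only if `3` divides `q − ε`, or the `{2,3}`-part of `q² − 1` is 24, or the `{2,3}`-part of `q² − 1` is 48 (the `{2,3}`-part of `m` being the largest divisor of `m` with no prime factor other than 2 and 3). -/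
theorem result {F : Type*} [Field F] [Fintype F] {p : ℕ} [Fact p.Prime] [CharP F p]
    (hp : 5 ≤ p) (q : ℕ) (hq : Fintype.card F = q) :
    (∃ H : Subgroup (Matrix.ProjectiveSpecialLinearGroup (Fin 2) F), Cfsg.IsPiHall ({2, 3} : Set ℕ) H) ↔
      (3 ∣ q - 1 ∧ q % 4 = 1) ∨ (3 ∣ q + 1 ∧ q % 4 = 3) ∨
        2 ^ (q ^ 2 - 1).factorization 2 * 3 ^ (q ^ 2 - 1).factorization 3 = 24 ∨
        2 ^ (q ^ 2 - 1).factorization 2 * 3 ^ (q ^ 2 - 1).factorization 3 = 48 := by
  open CfsgLib.Dickson CfsgLib.Coprime in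
  rw [← Nat.card_eq_fintype_card] at hq
  subst hq
  have ho := odd_card_of_ne_two (F := F) p (by omega)
  have h2 : ¬ 2 ∣ Nat.card F := ho.not_two_dvd_nat
  have h3 : ¬ 3 ∣ Nat.card F := fun h => by
    obtain ⟨n, hp', hn⟩ := FiniteField.card F p
    rw [Nat.card_eq_fintype_card, hn] at h
    have := (Nat.prime_dvd_prime_iff_eq Nat.prime_three hp').1 (Nat.prime_three.dvd_of_dvd_pow h)
    omega
  have h5 : 5 ≤ Nat.card F := hp.trans (Nat.le_of_dvd Nat.card_pos (char_dvd_card p))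
  have h3' : Nat.card F % 3 = 1 ∨ Nat.card F % 3 = 2 := by omega
  have hL := index_psl_odd ho
  have hn : Nat.card F ^ 2 - 1 = (Nat.card F + 1) * (Nat.card F - 1) := Nat.sq_sub_sq _ 1
  have hn0 : Nat.card F ^ 2 - 1 ≠ 0 := hn ▸ mul_ne_zero (by omega) (by omega)
  have hH : ∀ H : Subgroup (Matrix.ProjectiveSpecialLinearGroup (Fin 2) F),
      2 * Nat.card (H.map (pslPGL F)) * H.index = Nat.card F * (Nat.card F ^ 2 - 1) := fun H => by
    rw [card_map_pslPGL, mul_assoc, H.card_mul_index, ← card_range_pslPGL, card_psl_odd ho]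
  constructor
  · rintro ⟨H, hH1, hH2⟩
    have i2 := hH2 2 Nat.prime_two (by simp)
    have i3 := hH2 3 Nat.prime_three (by simp)
    have hle := H.map_le_range (pslPGL F)
    have h0 : 0 < Nat.card (H.map (pslPGL F)) := Nat.card_pos
    rw [← card_map_pslPGL] at hH1
    have e := hH H
    rcases dickson_fin p (H.map (pslPGL F)) with ⟨x, h⟩ | ⟨x, y, hxy, h⟩ | ⟨x, y, hxy, h⟩ | ⟨-, -, h⟩ |
      ⟨-, -, h⟩ | ⟨-, -, h⟩ | ⟨K, k, -, h⟩
    · obtain ⟨j, hj⟩ := Subgroup.card_dvd_of_le (le_stab_of_le h hle)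
      have := card_stab_emb le_rfl x
      rw [hL, hj] at this
      rw [hn, mul_left_comm, ← this] at e
      refine absurd ?_ i2
      rw [show H.index = (Nat.card F + 1) * j from Nat.eq_of_mul_eq_mul_left (Nat.mul_pos two_pos h0)
        (by rw [e]; ring)]
      exact Dvd.dvd.mul_right (by omega) _
    · obtain ⟨j, hj⟩ := Subgroup.card_dvd_of_le (le_pairStab_of_le h hle)
      have := card_pairStab_emb le_rfl hxy
      rw [hL, hj, mul_comm _ 2, Nat.mul_right_inj two_ne_zero] at this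
      rw [hn, ← this] at e
      have e' : 2 * H.index = (Nat.card F + 1) * (Nat.card F * j) :=
        Nat.eq_of_mul_eq_mul_left h0 (by linear_combination e)
      have a1 := mt (fun h : 4 ∣ Nat.card F + 1 => h.mul_right (Nat.card F * j)) (by omega)
      have a2 := mt (fun h : 3 ∣ Nat.card F + 1 => h.mul_right (Nat.card F * j)) (by omega)
      exact .inl ⟨by rcases h3' with h | h <;> omega, by omega⟩
    · obtain ⟨j, hj⟩ := Subgroup.card_dvd_of_le (le_pairStab_of_le h hle)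
      have := hxy.card_pairStab le_rfl (by omega)
      rw [hL, hj, mul_comm _ 2, Nat.mul_right_inj two_ne_zero] at this
      rw [hn, ← this] at e
      have e' : 2 * H.index = (Nat.card F - 1) * (Nat.card F * j) :=
        Nat.eq_of_mul_eq_mul_left h0 (by linear_combination e)
      have a1 := mt (fun h : 4 ∣ Nat.card F - 1 => h.mul_right (Nat.card F * j)) (by omega)
      have a2 := mt (fun h : 3 ∣ Nat.card F - 1 => h.mul_right (Nat.card F * j)) (by omega)
      exact .inr (.inl ⟨by rcases h3' with h | h <;> omega, by omega⟩)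
    · rw [card_of_equiv h, card_A4] at e
      exact .inr (.inr (.inl ((hall_iff (a := 3) (b := 1) h2 h3 hn0 e).1 ⟨i2, i3⟩)))
    · rw [card_of_equiv h, card_S4] at e
      exact .inr (.inr (.inr ((hall_iff (a := 4) (b := 1) h2 h3 hn0 e).1 ⟨i2, i3⟩)))
    · simpa using hH1 5 Nat.prime_five (by rw [card_of_equiv h, card_A5]; norm_num)
    · have := hH1 p Fact.out (char_dvd_card_of_pslSub_le p (pslSub_le_of h))
      simp only [Set.mem_insert_iff, Set.mem_singleton_iff] at this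
      omega
  intro h
  suffices ∃ D ≤ (pslPGL F).range, Group.IsSolvable D ∧ ∀ i, 2 * Nat.card D * i =
      Nat.card F * (Nat.card F ^ 2 - 1) → ¬ 2 ∣ i ∧ ¬ 3 ∣ i by
    obtain ⟨D, h1, h4, h6⟩ := this
    obtain ⟨D, rfl⟩ : ∃ D', D = Subgroup.map (pslPGL F) D' := ⟨_, (Subgroup.map_comap_eq_self h1).symm⟩
    obtain ⟨H, a1, a2, a3⟩ := exists_isPiHallOf {2, 3}
      (isSolvable_of_equiv ⟨D.equivMapOfInjective _ pslPGL_injective⟩ h4)
    refine ⟨H, a2, fun r hr hr' h => ?_⟩
    rw [← Subgroup.relIndex_mul_index a1] at h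
    refine (hr.dvd_mul.1 h).elim (a3 r hr hr') ?_
    rcases hr' with rfl | rfl
    exacts [(h6 _ (hH D)).1, (h6 _ (hH D)).2]
  have key : ∀ a b i : ℕ, a % 4 = 2 → ¬ 3 ∣ a → 0 < b → 2 * b * i = Nat.card F * (a * b) →
      ¬ 2 ∣ i ∧ ¬ 3 ∣ i := fun a b i h4 h6 hb e => by
    have e' : 2 * i = Nat.card F * a := Nat.eq_of_mul_eq_mul_left hb (by linear_combination e)
    have a1 := mt ((Nat.Coprime.dvd_mul_left (k := 4) (n := a) ((Nat.coprime_pow_left_iff two_pos 2 _).2
      ((Nat.prime_two.coprime_iff_not_dvd).2 h2))).1) (by omega)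
    have a2 := mt (Nat.prime_three.dvd_mul (m := Nat.card F) (n := a)).1 (by omega)
    omega
  rcases h with h | h | h | h
  · obtain ⟨y, hxy⟩ := exists_ne_P1 (P1.inf : P1 F)
    have := card_pairStab_emb le_rfl hxy
    rw [hL, mul_comm _ 2, Nat.mul_right_inj two_ne_zero] at this
    exact ⟨_, pairStab_le _ _ _, isSolvable_of_le_pairStab (emb_injective.ne hxy) le_rfl, fun i e =>
      key (Nat.card F + 1) (Nat.card F - 1) i (by omega) (by omega) (by omega) (by rwa [this, hn] at e)⟩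
  · obtain ⟨x, y, hxy⟩ := exists_irrPair (F := F) (by omega)
    have := hxy.card_pairStab le_rfl (by omega)
    rw [hL, mul_comm _ 2, Nat.mul_right_inj two_ne_zero] at this
    exact ⟨_, pairStab_le _ _ _, isSolvable_of_le_pairStab hxy.2.1 le_rfl, fun i e =>
      key (Nat.card F - 1) (Nat.card F + 1) i (by omega) (by omega) (by omega)
        (by rwa [this, hn, mul_comm (_ + 1)] at e)⟩
  · obtain ⟨D, hD⟩ := exists_A4 (two_ne_zero_of_odd_card ho)
    have := (card_of_equiv hD).trans card_A4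
    exact ⟨D, A4_le_psl hD, isSolvable_of_card_dvd (by rw [this]; norm_num), fun i e =>
      (hall_iff (a := 3) (b := 1) h2 h3 hn0 (by rwa [this] at e)).2 h⟩
  · have h16 : 2 ^ 4 ∣ Nat.card F ^ 2 - 1 :=
      (part_iff (c := 4) (d := 1)).1 h |>.1 ▸ Nat.ordProj_dvd _ 2
    obtain ⟨D, h6, hD⟩ := exists_S4_le_psl (F := F) (by
      have h7 := (Nat.modEq_iff_dvd' (Nat.one_le_pow 2 _ Nat.card_pos)).2 h16
      rw [Nat.ModEq, Nat.pow_mod] at h7
      have h8 : Nat.card F % 16 < 16 := Nat.mod_lt _ (by norm_num)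
      rw [← Nat.mod_mod_of_dvd (Nat.card F) (by norm_num : 8 ∣ 16)]
      generalize Nat.card F % 16 = r at h7 h8
      interval_cases r <;> simp_all)
    have := (card_of_equiv hD).trans card_S4
    exact ⟨D, h6, isSolvable_of_card_dvd (by rw [this]), fun i e =>
      (hall_iff (a := 4) (b := 1) h2 h3 hn0 (by rwa [this] at e)).2 h⟩

end Cfsg.Agent.S2537
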