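import Mathlib
import Cfsg.Statements.S2540
import Cfsg.Agent.Lib.Classical.SLBasic
-- import your own Cfsg.Agent.* helpers here

set_option autoImplicit false
open Cfsg

namespace Cfsg.Agent.S2540

/-- Let F be a finite field and n ≥ 1, excluding the case n = 2 with #F ≤ 3. A subgroup of GL_n(F) that is normalized by every element of SL_n(F) either consists of scalar matrices or contains SL_n(F). -/
theorem result {F : Type*} [Field F] [Fintype F] (n : ℕ) (hn : 1 ≤ n) (hex : ¬ (n = 2 ∧ Fintype.card F ≤ 3)) (G : Subgroup (Matrix.GeneralLinearGroup (Fin n) F)) (hG : ∀ s : Matrix.SpecialLinearGroup (Fin n) F, ∀ g ∈ G, (Matrix.SpecialLinearGroup.toGL s) * g * (Matrix.SpecialLinearGroup.toGL s)⁻¹ ∈ G) : (∀ g ∈ G, ∃ c : F, (g : Matrix (Fin n) (Fin n) F) = c • (1 : Matrix (Fin n) (Fin n) F)) ∨ (Matrix.SpecialLinearGroup.toGL : Matrix.SpecialLinearGroup (Fin n) F →* _).range ≤ G := by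
  open Matrix Matrix.SpecialLinearGroup CfsgLib.Classical in
  by_cases h1 : n = 1
  · subst h1
    exact .inl fun g _ => ⟨g 0 0, by ext i j; simp [Subsingleton.elim i 0, Subsingleton.elim j 0]⟩
  have h2 : n = 2 → 4 ≤ Fintype.card F := fun h => by by_contra h'; exact hex ⟨h, by omega⟩
  have h3 := sl_fin_commutator_eq_top (F := F) n (by omega) h2
  have h4 := psl_fin_isSimpleGroup (F := F) n (by omega) h2
  have : (G.comap toGL).Normal := ⟨fun a ha s => by simpa using hG s _ ha⟩
  rcases (Subgroup.Normal.map this (QuotientGroup.mk' (Subgroup.center _))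
    (QuotientGroup.mk'_surjective _)).eq_bot_or_eq_top with h | h
  · rw [Subgroup.map_eq_bot_iff, QuotientGroup.ker_mk'] at h
    have h5 : ⁅(toGL : SpecialLinearGroup (Fin n) F →* _).range, G⁆ ≤ Subgroup.center _ := by
      rw [Subgroup.commutator_le]
      rintro _ ⟨s, rfl⟩ g hg
      obtain ⟨a, ha⟩ := sl_range_toGL.ge (show toGL s * g * (toGL s)⁻¹ * g⁻¹ ∈
        GeneralLinearGroup.det.ker by simp)
      obtain ⟨r, -, hr⟩ := mem_center_iff.1
        (h (show toGL a ∈ G from ha ▸ mul_mem (hG s g hg) (inv_mem hg)))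
      refine Subgroup.mem_center_iff.2 fun x => Units.ext ?_
      rw [commutatorElement_def, ← ha, Units.val_mul, Units.val_mul, coe_GL_coe_matrix, ← hr]
      exact (scalar_commute r (fun _ => Commute.all _ _) _).symm
    have h6 := Subgroup.commutator_commutator_eq_bot_of_rotate
      (Subgroup.commutator_eq_bot_iff_le_centralizer.2 (h5.trans (Subgroup.center_le_centralizer _)))
      (Subgroup.commutator_eq_bot_iff_le_centralizer.2 ((Subgroup.commutator_comm _ _).le.trans
        (h5.trans (Subgroup.center_le_centralizer _))))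
    rw [MonoidHom.range_eq_map, ← Subgroup.map_commutator, ← commutator_def, h3,
      Subgroup.commutator_eq_bot_iff_le_centralizer] at h6
    refine .inl fun g hg => ?_
    obtain ⟨c, hc⟩ := mem_range_scalar_iff_commute_transvectionStruct.2 fun t =>
      (congrArg Units.val (h6 ⟨⟨t.toMatrix, t.det⟩, trivial, rfl⟩ g hg)).symm
    exact ⟨c, by rw [smul_eq_diagonal_mul, mul_one]; exact hc.symm⟩
  · have h5 := congrArg (Subgroup.comap (QuotientGroup.mk' _)) h
    rw [Subgroup.comap_map_eq, QuotientGroup.ker_mk', Subgroup.comap_top] at h5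
    have := Subgroup.Normal.commutator_le_of_self_sup_commutative_eq_top h5 inferInstance
    exact .inr (by rintro _ ⟨s, rfl⟩; exact this (h3.ge trivial))

end Cfsg.Agent.S2540
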