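import Cfsg.Statements.S2541
import Cfsg.Agent.Lib.Recog.PGL2Spec

set_option autoImplicit false
open Cfsg

namespace Cfsg.Agent.S2541


/-- Let F be a field with 9 elements. The symmetric group S_6 is not isomorphic to PGL_2(F) (although both have index-2 subgroups isomorphic to A_6). -/
theorem result {F : Type*} [Field F] [Fintype F] (hF : Fintype.card F = 9) : ¬ Nonempty (Equiv.Perm (Fin 6) ≃* Matrix.ProjGenLinGroup (Fin 2) F) := by
  rintro ⟨e⟩
  obtain ⟨p, hp, -⟩ := FiniteField.card' F
  have : Fact p.Prime := ⟨CharP.char_is_prime F p⟩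
  obtain ⟨g, hg⟩ : 8 ∈ Set.range (orderOf : GL (Fin 2) F ⧸ Subgroup.center (GL (Fin 2) F) → ℕ) := by
    rw [CfsgLib.Recog.range_orderOf_pgl_two p, hF]
    exact Or.inr (Or.inl dvd_rfl)
  have h1 : orderOf (e.symm g) = 8 := (e.symm.orderOf_eq g).trans hg
  have h2 : orderOf (e.symm g) ∣ 60 := by
    rw [← Equiv.Perm.lcm_cycleType, Multiset.lcm_dvd]
    intro b hb
    have h3 := Equiv.Perm.two_le_of_mem_cycleType hb
    have h4 := (Equiv.Perm.le_card_support_of_mem_cycleType hb).trans (Finset.card_le_univ _)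
    rw [Fintype.card_fin] at h4
    interval_cases b <;> norm_num
  rw [h1] at h2
  norm_num at h2

end Cfsg.Agent.S2541
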