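import Mathlib
import Cfsg.Statements.S2542
import Cfsg.Agent.Lib.Dickson.MinSimple
import Cfsg.Agent.Lib.Perm.PrimeDegree
-- import your own Cfsg.Agent.* helpers here

set_option autoImplicit false
open Cfsg

namespace Cfsg.Agent.S2542

/-- Let F be a field with 11 elements. PSL_2(F) has a subgroup H of index 11 isomorphic to the alternating group A_5, and the action of PSL_2(F) on the cosets of H is 2-transitive (of degree 11). -/
theorem result {F : Type*} [Field F] [Fintype F] (hF : Fintype.card F = 11) : ∃ H : Subgroup (Matrix.ProjectiveSpecialLinearGroup (Fin 2) F), H.index = 11 ∧ Nonempty (H ≃* alternatingGroup (Fin 5)) ∧ MulAction.IsMultiplyPretransitive (Matrix.ProjectiveSpecialLinearGroup (Fin 2) F) ((Matrix.ProjectiveSpecialLinearGroup (Fin 2) F) ⧸ H) 2 := by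
  open CfsgLib.Dickson CfsgLib.Perm in
  have hq : Nat.card F = 11 := Nat.card_eq_fintype_card.trans hF
  have hs := psl_isSimpleGroup (F := F) (by omega)
  have hc := card_psl (K := F)
  obtain ⟨H₀, h₀⟩ := (exists_A5_iff (K := F)).2 (by rw [hq]; norm_num)
  obtain ⟨H, ⟨e⟩⟩ := exists_psl_subgroup_iff.2 ⟨H₀, A5_le_psl h₀, h₀⟩
  have h1 := H.card_mul_index
  rw [Nat.card_congr e.toEquiv, card_A5] at h1
  rw [hq] at hc
  norm_num at hc
  have hi : H.index = 11 := by omega
  refine ⟨H, hi, ⟨e⟩, ?_⟩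
  have : Fact (Nat.Prime 11) := ⟨by norm_num⟩
  have hk : (MulAction.toPermHom (Matrix.ProjectiveSpecialLinearGroup (Fin 2) F) (_ ⧸ H)).ker = ⊥ := by
    rw [← Subgroup.normalCore_eq_ker]
    refine (Subgroup.Normal.eq_bot_or_eq_top inferInstance).resolve_right fun h => ?_
    rw [show H = ⊤ from top_le_iff.1 (h ▸ H.normalCore_le), Subgroup.index_top] at hi
    omega
  have : FaithfulSMul (Matrix.ProjectiveSpecialLinearGroup (Fin 2) F) (_ ⧸ H) :=
    ⟨fun {a b} h => (MonoidHom.ker_eq_bot_iff _).1 hk (Equiv.ext h)⟩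
  refine two_transitive_of_not_isSolvable (p := 11) hi fun h => ?_
  have h2 := IsSimpleGroup.comm_iff_isSolvable.2 h
  have h3 : ∀ a b : alternatingGroup (Fin 5), a * b = b * a := fun a b => e.symm.injective (by
    rw [map_mul, map_mul]; exact Subtype.ext (h2 _ _))
  exact absurd (h3 a5a a5b) (by decide)

end Cfsg.Agent.S2542
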