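import Mathlib
import Cfsg.Statements.S2543
import Cfsg.Agent.Lib.Dickson.MinSimple
import Cfsg.Agent.Lib.Dickson.Klein
-- import your own Cfsg.Agent.* helpers here

set_option autoImplicit false
open scoped Pointwise
open Cfsg

namespace Cfsg.Agent.S2543

/-- Let F be a field with 11 elements. PSL_2(F) has exactly 22 subgroups isomorphic to the alternating group A_5, and they form two conjugacy classes: there are two such subgroups that are not conjugate, and every such subgroup is conjugate to one of these two. -/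
theorem result {F : Type*} [Field F] [Fintype F] (hF : Fintype.card F = 11) : Nat.card {H : Subgroup (Matrix.ProjectiveSpecialLinearGroup (Fin 2) F) // Nonempty (H ≃* alternatingGroup (Fin 5))} = 22 ∧ ∃ H K : Subgroup (Matrix.ProjectiveSpecialLinearGroup (Fin 2) F), Nonempty (H ≃* alternatingGroup (Fin 5)) ∧ Nonempty (K ≃* alternatingGroup (Fin 5)) ∧ (∀ g : Matrix.ProjectiveSpecialLinearGroup (Fin 2) F, MulAut.conj g • H ≠ K) ∧ ∀ L : Subgroup (Matrix.ProjectiveSpecialLinearGroup (Fin 2) F), Nonempty (L ≃* alternatingGroup (Fin 5)) → ∃ g : Matrix.ProjectiveSpecialLinearGroup (Fin 2) F, MulAut.conj g • L = H ∨ MulAut.conj g • L = K := by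
  open CfsgLib.Dickson MatrixGroups in
  have hq : Nat.card F = 11 := Nat.card_eq_fintype_card.trans hF
  have hs := psl_isSimpleGroup (F := F) (by omega)
  have hc := card_psl (K := F)
  have hc' := card_pgl (K := F)
  have ho : Odd (Nat.card F) := by rw [hq]; decide
  have hi := index_psl_odd ho
  rw [hq] at hc hc'
  norm_num at hc hc'
  obtain ⟨H₀, h₀⟩ := (exists_A5_iff (K := F)).2 (by rw [hq]; norm_num)
  have h60 : Nat.card H₀ = 60 := (card_of_equiv h₀).trans card_A5
  have hco : ∀ {W : Subgroup PGL(2, F)}, Nonempty (W ≃* alternatingGroup (Fin 5)) →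
      (W.comap (pslPGL F)).map (pslPGL F) = W := fun h => Subgroup.map_comap_eq_self (A5_le_psl h)
  have hmap : ∀ {W : Subgroup PSL(2, F)}, Nonempty (W ≃* alternatingGroup (Fin 5)) →
      Nonempty (W.map (pslPGL F) ≃* alternatingGroup (Fin 5)) := fun {W} h =>
    h.map fun e => (W.equivMapOfInjective _ pslPGL_injective).symm.trans e
  have hconj : ∀ k : PGL(2, F), Nonempty (H₀.map (MulAut.conj k).toMonoidHom ≃* alternatingGroup (Fin 5)) :=
    fun k => h₀.map fun e => (H₀.equivMapOfInjective _ (MulAut.conj k).injective).symm.trans e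
  have hN : Subgroup.normalizer (H₀ : Set PGL(2, F)) = H₀ := by
    obtain ⟨A, hA, hA'⟩ := exists_A4_le_A5 h₀
    have hle := Subgroup.card_le_of_le (Subgroup.le_normalizer (H := H₀))
    have : Fact (ringChar F).Prime := ⟨CharP.char_is_prime F _⟩
    rcases over_A4 (ringChar F) (two_ne_zero_of_odd_card ho) hA' (hA.trans Subgroup.le_normalizer) with
      h | h | h | ⟨K, k, -, h⟩
    · rw [card_of_equiv h, card_A4] at hle; omega
    · rw [card_of_equiv h, card_S4] at hle; omega
    · exact (Subgroup.eq_of_le_of_card_ge Subgroup.le_normalizer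
        (by rw [card_of_equiv h.2, card_A5, h60])).symm
    · obtain rfl := subfield_eq_top_of_prime (by rw [hq]; norm_num) K
      have h1 := psl_le_of_top h
      have h2 : (H₀.comap (pslPGL F)).Normal := ⟨fun n hn g => by
        simpa using (Subgroup.mem_normalizer_iff.1 (h1 ⟨g, rfl⟩) _).1 hn⟩
      have h3 := card_map_pslPGL (H₀.comap (pslPGL F))
      rw [hco h₀, h60] at h3
      rcases h2.eq_bot_or_eq_top with h | h <;> rw [h] at h3
      · simp at h3
      · rw [Subgroup.card_top] at h3; omega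
  refine ⟨?_, ?_⟩
  · have h1 := card_conjugates H₀
    have h2 := H₀.card_mul_index
    rw [h60, hc'] at h2
    rw [hN, show H₀.index = 22 by omega] at h1
    rw [← h1]
    exact Nat.card_congr ⟨fun W => ⟨W.1.map (pslPGL F), A5_conj h₀ (hmap W.2)⟩,
      fun W => ⟨W.1.comap (pslPGL F), equiv_of_map (by
        obtain ⟨_, k, rfl⟩ := W
        rw [hco (hconj k)]; exact hconj k)⟩,
      fun W => Subtype.ext (Subgroup.comap_map_eq_self_of_injective pslPGL_injective _),
      fun ⟨_, k, h⟩ => Subtype.ext (by subst h; exact hco (hconj k))⟩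
  obtain ⟨d, hd⟩ : ∃ d, d ∉ (pslPGL F).range := by
    by_contra! h
    rw [(Subgroup.eq_top_iff' _).2 h, Subgroup.index_top] at hi
    omega
  have hinj := Subgroup.map_injective (pslPGL_injective (K := F))
  have hsm : ∀ (g : PSL(2, F)) (W : Subgroup PSL(2, F)), (MulAut.conj g • W).map (pslPGL F) =
      (W.map (pslPGL F)).map (MulAut.conj (pslPGL F g)).toMonoidHom := fun g W => map_map_conj _ W g
  refine ⟨H₀.comap (pslPGL F), (H₀.map (MulAut.conj d).toMonoidHom).comap (pslPGL F),
    equiv_of_map (by rwa [hco h₀]), equiv_of_map (by rw [hco (hconj d)]; exact hconj d),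
    fun g h => hd ?_, fun L hL => ?_⟩
  · have h1 := congrArg (Subgroup.map (pslPGL F)) h
    rw [hsm, hco h₀, hco (hconj d), map_conj_eq_iff, hN] at h1
    simpa using mul_mem (MonoidHom.mem_range.2 ⟨g, rfl⟩) (A5_le_psl h₀ h1)
  obtain ⟨k, hk⟩ := A5_conj h₀ (hmap hL)
  by_cases h : k ∈ (pslPGL F).range
  · obtain ⟨g, rfl⟩ := h
    refine ⟨g⁻¹, Or.inl (hinj ?_)⟩
    rw [hsm, hk, hco h₀, map_conj_map_conj, map_inv, inv_mul_cancel, map_conj_one]
  · obtain ⟨g, hg⟩ : d * k⁻¹ ∈ (pslPGL F).range :=
      (Subgroup.mul_mem_iff_of_index_two hi).2 (by simp only [inv_mem_iff, h, hd])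
    refine ⟨g, Or.inr (hinj ?_)⟩
    rw [hsm, hk, hco (hconj d), map_conj_map_conj, hg, inv_mul_cancel_right]

end Cfsg.Agent.S2543
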