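import Cfsg.Statements.S2546
import Cfsg.Agent.Lib.LieAll.St

set_option autoImplicit false
open Cfsg

namespace Cfsg.Agent.S2546

/-- Let F be a finite field of characteristic p and consider the projective special unitary group PSU_n(q), n ≥ 2, realised over the field F with q² elements. This group has an irreducible complex character χ whose degree equals the order of a Sylow p-subgroup (namely q^(n(n−1)/2)) and whose restriction to any Sylow p-subgroup P is the regular character of P: χ vanishes on the non-identity elements of P. (This is the Steinberg character.) -/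
theorem result {F : Type*} [Field F] [Fintype F] (p : ℕ) [Fact p.Prime] [CharP F p] (n q : ℕ) (hn : 2 ≤ n) (hF : Fintype.card F = q ^ 2) : ∃ χ : Cfsg.PSU n F q → ℂ, Cfsg.IsIrrCharacter (Cfsg.PSU n F q) χ ∧ ∀ P : Sylow p (Cfsg.PSU n F q), χ 1 = Nat.card P ∧ ∀ x : Cfsg.PSU n F q, x ∈ P → x ≠ 1 → χ x = 0 := by
  obtain ⟨f⟩ := CfsgLib.LieAll.nonempty_psu_equiv (n := n) hF hn
  exact (CfsgLib.LieAll.hasSt_of_isTw (CfsgLib.LieAll.good_su (CfsgLib.Unitary.conj_conj hF)
    (CfsgLib.Unitary.exists_not_fixed hF) hn).tw p).of_equiv f

end Cfsg.Agent.S2546
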