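import Mathlib
import Cfsg.Statements.S2566
import Cfsg.Agent.S0287
-- import your own Cfsg.Agent.* helpers here

set_option autoImplicit false
open Cfsg

namespace Cfsg.Agent.S2566

/-- The non-zero vectors of an anisotropic plane. -/
def u : Fin 3 → Fin 2 ⊕ Fin 2 → ZMod 2 :=
  ![Sum.elim ![1, 0] ![1, 0], Sum.elim ![1, 1] ![0, 1], Sum.elim ![0, 1] ![1, 1]]

/-- The matrix permuting the vectors `u i` and fixing their orthogonal complement. -/
def M (σ : Equiv.Perm (Fin 3)) : Matrix (Fin 2 ⊕ Fin 2) (Fin 2 ⊕ Fin 2) (ZMod 2) := fun i j =>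
  (if i = j then 1 else 0) + (u (σ 0) i + u 0 i) * u 1 j.swap + (u (σ 1) i + u 1 i) * u 0 j.swap

/-- The matrix exchanging the two hyperbolic pairs. -/
def S : Matrix (Fin 2 ⊕ Fin 2) (Fin 2 ⊕ Fin 2) (ZMod 2) := fun i j =>
  if i = j.map Fin.rev Fin.rev then 1 else 0

theorem M_one : M 1 = 1 := by decide +kernel

theorem M_mul : ∀ σ τ, M (σ * τ) = M σ * M τ := by decide +kernel

theorem M_Q : ∀ σ x, quadFormPlus 2 (ZMod 2) ((M σ).mulVec x) = quadFormPlus 2 (ZMod 2) x := by
  decide +kernel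

theorem S_Q : ∀ x, quadFormPlus 2 (ZMod 2) (S.mulVec x) = quadFormPlus 2 (ZMod 2) x := by
  decide +kernel

theorem S_mul : S * S = 1 := by decide +kernel

theorem M_comm : ∀ σ τ, M σ * (S * M τ * S) = S * M τ * S * M σ := by decide +kernel

theorem M_disj : ∀ σ τ, S * M τ * S = M σ → M σ = 1 := by decide +kernel

theorem M_inj : ∀ σ τ, M σ = M τ → σ = τ := by decide +kernel

/-- The first factor. -/
def φ : Equiv.Perm (Fin 3) →* isometryGroup (ZMod 2) (quadFormPlus 2 (ZMod 2)) :=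
  (MonoidHom.toHomUnits ⟨⟨M, M_one⟩, M_mul⟩).codRestrict _ fun σ x _ => M_Q σ x

/-- The exchanging element. -/
def s : isometryGroup (ZMod 2) (quadFormPlus 2 (ZMod 2)) := ⟨⟨S, S, S_mul, S_mul⟩, fun x _ => S_Q x⟩

/-- The full orthogonal group of the plus-type form x₁y₁ + x₂y₂ in dimension 4 over the field of two elements has order 72 and is isomorphic to the wreath product of the symmetric group of degree 3 by a group of order 2: it has a normal subgroup isomorphic to the direct product of two symmetric groups of degree 3, of index 2, whose two direct factors are interchanged by conjugation by some element. -/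
theorem result :
    Nat.card ↥(Cfsg.isometryGroup (ZMod 2) (Cfsg.quadFormPlus 2 (ZMod 2))) = 72 ∧
    ∃ (A B : Subgroup ↥(Cfsg.isometryGroup (ZMod 2) (Cfsg.quadFormPlus 2 (ZMod 2)))),
      Nonempty (↥A ≃* Equiv.Perm (Fin 3)) ∧ Nonempty (↥B ≃* Equiv.Perm (Fin 3)) ∧ A ⊓ B = ⊥ ∧ (∀ a ∈ A, ∀ b ∈ B, a * b = b * a) ∧
      (A ⊔ B).index = 2 ∧ ∃ g : ↥(Cfsg.isometryGroup (ZMod 2) (Cfsg.quadFormPlus 2 (ZMod 2))), A.map (MulAut.conj g).toMonoidHom = B := by
  have hc : Nat.card ↥(Cfsg.isometryGroup (ZMod 2) (Cfsg.quadFormPlus 2 (ZMod 2))) = 72 :=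
    (Cfsg.Agent.S0287.result (ZMod.card 2) 2 (by norm_num)).trans rfl
  have h1 : Function.Injective φ := fun σ τ h => M_inj σ τ (congrArg (fun g => g.1.1) h)
  have h2 : Function.Injective ((MulAut.conj s).toMonoidHom.comp φ) :=
    (MulAut.conj s).injective.comp h1
  have h3 : ∀ σ τ, Commute (φ σ) ((MulAut.conj s).toMonoidHom.comp φ τ) := fun σ τ =>
    Subtype.ext (Units.ext (M_comm σ τ))
  have h4 : Disjoint φ.range ((MulAut.conj s).toMonoidHom.comp φ).range :=
    Subgroup.disjoint_def.2 (by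
      rintro _ ⟨σ, rfl⟩ ⟨τ, h⟩
      exact Subtype.ext (Units.ext (M_disj σ τ (congrArg (fun g => g.1.1) h))))
  refine ⟨hc, φ.range, ((MulAut.conj s).toMonoidHom.comp φ).range, ⟨(MonoidHom.ofInjective h1).symm⟩,
    ⟨(MonoidHom.ofInjective h2).symm⟩, h4.eq_bot, ?_, ?_, s, MonoidHom.map_range _ _⟩
  · rintro _ ⟨σ, rfl⟩ _ ⟨τ, rfl⟩
    exact h3 σ τ
  · have h5 := (φ.range ⊔ ((MulAut.conj s).toMonoidHom.comp φ).range).card_mul_index
    rw [hc, ← MonoidHom.noncommCoprod_range _ _ h3, ← Nat.card_congr (MonoidHom.ofInjective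
      ((MonoidHom.noncommCoprod_injective _ _ h3).2 ⟨h1, h2, h4⟩)).toEquiv, Nat.card_prod,
      Nat.card_perm, Nat.card_fin, MonoidHom.noncommCoprod_range, show Nat.factorial 3 = 6 from rfl]
      at h5
    omega

end Cfsg.Agent.S2566
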