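import Cfsg.Statements.S2548
import Cfsg.Agent.Lib.ClSys.Omega
import Cfsg.Agent.Lib.ClSys.StApp
import Cfsg.Agent.Lib.Classical.SmallIso3
import Cfsg.Agent.Lib.Char.Basic
import Cfsg.Agent.S0250
import Cfsg.Agent.S0305
import Cfsg.Agent.S2566

set_option autoImplicit false
open Cfsg

namespace Cfsg.Agent.S2548

/-- existence of a Steinberg character -/
def HasSt (p : ℕ) (G : Type*) [Group G] : Prop :=
  ∃ χ : G → ℂ, IsIrrCharacter G χ ∧ ∀ P : Sylow p G, χ 1 = Nat.card P ∧ ∀ x : G, x ∈ P → x ≠ 1 → χ x = 0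

theorem HasSt.comp {p : ℕ} [hp : Fact p.Prime] {G H : Type*} [Group G] [Group H] [Finite G] (h : HasSt p H) (f : G →* H)
    (hf : Function.Surjective f) {k : ℕ} (hk : p.Coprime k) (hk' : ∀ x, f x = 1 → x ^ k = 1) : HasSt p G := by
  obtain ⟨χ, h1, h2⟩ := h
  refine ⟨_, CfsgLib.Char.isIrr_comp_of_surjective f hf h1, fun P => ?_⟩
  have h3 : ∀ x ∈ P, f x = 1 → x = 1 := fun x hx e => by
    obtain ⟨n, hn⟩ := IsPGroup.iff_orderOf.1 P.isPGroup' ⟨x, hx⟩
    rw [Subgroup.orderOf_mk] at hn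
    rw [← orderOf_eq_one_iff]
    exact Nat.eq_one_of_dvd_coprimes (hk.pow_left n) hn.dvd (orderOf_dvd_of_pow_eq_one (hk' x e))
  obtain ⟨h4, h5⟩ := h2 (P.mapSurjective hf)
  refine ⟨?_, fun x hx e => h5 _ (Subgroup.mem_map_of_mem f hx) fun e' => e (h3 x hx e')⟩
  rw [map_one, h4]
  congr 1
  exact (Nat.card_congr (Equiv.ofBijective (f.subgroupMap P) ⟨(injective_iff_map_eq_one _).2 fun x e =>
    Subtype.ext (h3 _ x.2 (congrArg Subtype.val e)), f.subgroupMap_surjective _⟩)).symm

open S2566 in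
theorem two_two : HasSt 2 (POmega (ZMod 2) (quadFormPlus 2 (ZMod 2))) := by
  have h1 : Function.Injective φ := fun σ τ h => M_inj σ τ (congrArg (fun g => g.1.1) h)
  have h2 : Function.Injective ((MulAut.conj s).toMonoidHom.comp φ) := (MulAut.conj s).injective.comp h1
  have h3 : ∀ σ τ, Commute (φ σ) ((MulAut.conj s).toMonoidHom.comp φ τ) := fun σ τ =>
    Subtype.ext (Units.ext (M_comm σ τ))
  have h4 : Disjoint φ.range ((MulAut.conj s).toMonoidHom.comp φ).range :=
    Subgroup.disjoint_def.2 (by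
      rintro _ ⟨σ, rfl⟩ ⟨τ, h⟩
      exact Subtype.ext (Units.ext (M_disj σ τ (congrArg (fun g => g.1.1) h))))
  set Φ := φ.noncommCoprod _ h3
  have h5 : Function.Injective Φ := (MonoidHom.noncommCoprod_injective _ _ h3).2 ⟨h1, h2, h4⟩
  have hs : s * s = 1 := Subtype.ext (Units.ext S_mul)
  have h6 : ∀ w, s * Φ w * s⁻¹ = Φ w.swap := fun w => by
    have := (h3 w.2 w.1).eq
    simp only [Φ, MonoidHom.noncommCoprod_apply, Prod.fst_swap, Prod.snd_swap, this]
    simp [mul_assoc, inv_eq_of_mul_eq_one_right hs, ← mul_assoc s s, hs]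
  have h7 : Φ.range.index = 2 := by
    have h5 := Φ.range.card_mul_index
    rw [S2566.result.1, ← Nat.card_congr (MonoidHom.ofInjective ‹_›).toEquiv, Nat.card_prod,
      Nat.card_perm, Nat.card_fin, show Nat.factorial 3 = 6 from rfl] at h5
    omega
  have h8 : s ∉ Φ.range := by
    rintro ⟨w, e⟩
    have := h6 (w.1 * Equiv.swap 0 1 * w.1⁻¹, 1)
    rw [← e, ← map_mul, ← map_inv, ← map_mul] at this
    simpa [mul_inv_eq_one] using (congrArg Prod.snd (h5 this)).symm
  have h9 : ∀ g, ∃ w, g = Φ w ∨ g = Φ w * s := fun g => by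
    by_cases e : g ∈ Φ.range
    · exact e.imp fun w e => Or.inl e.symm
    · obtain ⟨w, e⟩ := (Subgroup.mul_mem_iff_of_index_two h7).2 (iff_of_false e h8)
      exact ⟨w, Or.inr (by rw [e, mul_assoc, hs, mul_one])⟩
  let D : Equiv.Perm (Fin 3) × Equiv.Perm (Fin 3) →* ℤˣ := Equiv.Perm.sign.coprod Equiv.Perm.sign
  have hD : ∀ w, D w.swap = D w := fun w => mul_comm _ _
  have h10 : commutator _ ≤ D.ker.map Φ := Subgroup.commutator_le.2 fun g _ h _ => by
    obtain ⟨w, rfl | rfl⟩ := h9 g <;> obtain ⟨v, rfl | rfl⟩ := h9 h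
    · exact ⟨w * v * w⁻¹ * v⁻¹, by simp [hD, mul_right_comm (D w)], by simp [commutatorElement_def]⟩
    · exact ⟨w * v * (w⁻¹).swap * v⁻¹, by simp [hD, mul_right_comm (D w)], by simp only [map_mul, ← h6, map_inv]; group⟩
    · exact ⟨w * v.swap * w⁻¹ * v⁻¹, by simp [hD, mul_right_comm (D w)], by simp only [map_mul, ← h6, map_inv]; group⟩
    · exact ⟨w * (v * w⁻¹).swap * v⁻¹, by simp [hD, -Int.units_inv_eq_self], by simp only [map_mul, ← h6, map_inv]; group⟩
  let ψ := (MonoidHom.fst _ _).comp ((MonoidHom.ofInjective h5).symm.toMonoidHom.comp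
    (Subgroup.inclusion (h10.trans (Subgroup.map_le_range _ _))))
  have hψ : ∀ w h, ψ ⟨Φ w, h⟩ = w.1 := fun w h => congrArg Prod.fst ((MonoidHom.ofInjective h5).symm_apply_apply w)
  have h11 : Function.Surjective ψ := fun σ => ⟨⟨Φ (σ, σ⁻¹), by
    have := Subgroup.commutator_mem_commutator (Subgroup.mem_top (Φ (σ, 1))) (Subgroup.mem_top s)
    rwa [commutatorElement_def, mul_assoc, mul_assoc, ← mul_assoc s, ← map_inv, h6, ← map_mul, Prod.inv_mk, inv_one,
      Prod.swap_prod_mk, Prod.mk_mul_mk, mul_one, one_mul] at this⟩, hψ _ _⟩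
  obtain ⟨e⟩ := S0250.result (F := ZMod 2) (ZMod.card 2)
  refine (HasSt.comp (CfsgLib.ClSys.exists_steinberg_character CfsgLib.ClSys.slSys_nondeg CfsgLib.ClSys.slSys_grp
    CfsgLib.ClSys.slSys_r3 2) e.symm.toMonoidHom e.symm.surjective (k := 1) (by simp) (by simp)).comp
    (QuotientGroup.lift _ ψ fun x hx => ?_) (QuotientGroup.lift_surjective_of_surjective _ _ h11 _) (k := 3) (by norm_num) ?_
  · exact (by decide : ∀ σ : Equiv.Perm (Fin 3), (∀ τ, τ * σ = σ * τ) → σ = 1) _ fun τ => by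
      obtain ⟨y, rfl⟩ := h11 τ
      rw [← map_mul, Subgroup.mem_center_iff.1 hx, map_mul]
  · rintro ⟨x, hx⟩ e
    obtain ⟨⟨σ, τ⟩, e1, rfl⟩ := h10 hx
    obtain rfl : σ = 1 := (hψ _ hx).symm.trans e
    have := (by decide : ∀ σ : Equiv.Perm (Fin 3), Equiv.Perm.sign σ = 1 → σ ^ 3 = 1) τ (by simpa [D] using e1)
    refine (QuotientGroup.mk_pow _ _ _).symm.trans (congrArg _ (Subtype.ext ?_))
    rw [Subgroup.coe_pow, ← map_pow, Prod.pow_mk, this, one_pow]; exact map_one Φ

/-- Let F be a finite field of characteristic p and consider the group PΩ⁺_{2m}(F) of the hyperbolic quadratic form Σ x_i y_i with m ≥ 1, where Ω denotes the commutator subgroup of the full isometry group. This group has an irreducible complex character χ whose degree equals the order of a Sylow p-subgroup (equal to q^(m(m−1)) when #F = q, except in the degenerate case m = 2, q = 2, where this commutator subgroup has order 18 and its Sylow 2-subgroups have order 2) and whose restriction to any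 Sylow p-subgroup P is the regular character of P: χ vanishes on the non-identity elements of P. (This is the Steinberg character.) -/
theorem result {F : Type*} [Field F] [Fintype F] (p : ℕ) [Fact p.Prime] [CharP F p] (m : ℕ) (hm : 1 ≤ m) : ∃ χ : Cfsg.POmega F (Cfsg.quadFormPlus m F) → ℂ, Cfsg.IsIrrCharacter (Cfsg.POmega F (Cfsg.quadFormPlus m F)) χ ∧ ∀ P : Sylow p (Cfsg.POmega F (Cfsg.quadFormPlus m F)), χ 1 = Nat.card P ∧ ∀ x : Cfsg.POmega F (Cfsg.quadFormPlus m F), x ∈ P → x ≠ 1 → χ x = 0 := by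
  rcases hm.eq_or_lt with rfl | hm
  · obtain ⟨e⟩ := S0305.result (F := F) rfl
    have h1 : ∀ x ∈ commutator _, ∃ i, e x = .r i := fun x hx => by
      rw [commutator_eq_closure] at hx
      induction hx using Subgroup.closure_induction with
      | mem x h =>
        obtain ⟨a, b, rfl⟩ := h
        rw [map_commutatorElement, commutatorElement_def]
        rcases e a with a | a <;> rcases e b with b | b <;> exact ⟨_, rfl⟩
      | one => exact ⟨0, map_one e⟩
      | mul x y _ _ h h' => obtain ⟨i, h⟩ := h; obtain ⟨k, h'⟩ := h'; exact ⟨_, by rw [map_mul, h, h']; rfl⟩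
      | inv x _ h => obtain ⟨i, h⟩ := h; exact ⟨_, by rw [map_inv, h]; rfl⟩
    have : Subsingleton (POmega F (quadFormPlus 1 F)) := by
      refine QuotientGroup.subsingleton_iff.2 (eq_top_iff.2 fun x _ => Subgroup.mem_center_iff.2 fun y => ?_)
      obtain ⟨i, h⟩ := h1 _ x.2
      obtain ⟨k, h'⟩ := h1 _ y.2
      exact Subtype.ext (e.injective (by simp [h, h', add_comm]))
    exact ⟨_, CfsgLib.Char.isIrr_one, fun P => ⟨by simp, fun x _ h => (h (Subsingleton.elim _ _)).elim⟩⟩
  · by_cases hF : m = 2 → ∃ a : F, a ≠ 0 ∧ a ≠ 1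
    · exact CfsgLib.ClSys.exists_steinberg_character (CfsgLib.ClSys.pomegaPlusSys_nondeg hm hF)
        (CfsgLib.ClSys.pomegaPlusSys_grp hm hF) (CfsgLib.ClSys.pomegaPlusSys_r3 hm hF) p
    · push Not at hF
      obtain ⟨rfl, hF⟩ := hF
      have h2 : Fintype.card F = 2 := by
        classical
        rw [← Finset.card_univ, ← Finset.card_pair (zero_ne_one' F)]
        exact congrArg _ (Finset.ext fun a => by simpa [or_iff_not_imp_left] using hF a)
      obtain rfl : p = 2 := (Nat.prime_dvd_prime_iff_eq Fact.out Nat.prime_two).1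
        ((CharP.cast_eq_zero_iff F p 2).1 (h2 ▸ FiniteField.cast_card_eq_zero F))
      let e := CfsgLib.Classical.pomegaMapEquiv (ZMod.ringEquivOfPrime F Nat.prime_two h2).symm _ _
        (CfsgLib.Classical.quadFormPlus_map _ 2)
      exact two_two.comp e.toMonoidHom e.surjective (k := 1) (by simp) (by simp)

end Cfsg.Agent.S2548
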