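import Cfsg.Statements.S2549
import Cfsg.Agent.Lib.LieAll.St
import Cfsg.Agent.S0300
import Cfsg.Agent.S0306
import Cfsg.Agent.S2544

set_option autoImplicit false
open Cfsg

namespace Cfsg.Agent.S2549

open CfsgLib CfsgLib.LieAll

universe u

theorem exists_quad {F : Type u} [Field F] [Finite F] {a b : F}
    (hab : ∀ z₁ z₂ : F, z₁ ^ 2 + a * z₁ * z₂ + b * z₂ ^ 2 = 0 → z₁ = 0 ∧ z₂ = 0) :
    ∃ (K : Type u) (_ : Field K) (_ : Finite K) (j : F →+* K) (φ : K →+* K) (θ : K), θ * φ θ = j b ∧
      θ + φ θ = -j a ∧ θ ≠ φ θ ∧ (∀ t, φ (φ t) = t) ∧ (∀ c, φ (j c) = j c) ∧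
      (∀ t, ∃ x y, t = j x - θ * j y) ∧ Nat.card K = Nat.card F ^ 2 := by
  have : Fact (∀ r : F, r ^ 2 ≠ -b + -a * r) :=
    ⟨fun r h => one_ne_zero (hab r 1 (by linear_combination h)).2⟩
  refine ⟨QuadraticAlgebra F (-b) (-a), inferInstance, Finite.of_equiv _ (QuadraticAlgebra.equivProd _ _).symm,
    algebraMap _ _, starRingEnd _, ⟨0, 1⟩, by ext <;> simp [starRingEnd_apply], by ext <;> simp [starRingEnd_apply],
    fun h => OrthE.disc_ne_zero hab ?_, star_star, fun c => by ext <;> simp [starRingEnd_apply],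
    fun t => ⟨t.re, -t.im, by ext <;> simp⟩, by rw [Nat.card_congr (QuadraticAlgebra.equivProd _ _), Nat.card_prod, sq]⟩
  have h1 := congrArg QuadraticAlgebra.re h
  have h2 := congrArg QuadraticAlgebra.im h
  simp only [starRingEnd_apply, QuadraticAlgebra.re_star, QuadraticAlgebra.im_star] at h1 h2
  linear_combination 2 * b * h2 - a * h1


/-- Let F be a finite field of characteristic p and consider the group PΩ⁻_{2m+2}(F) of the quadratic form Σ_{i<m} x_i y_i + (z₁² + a z₁ z₂ + b z₂²) with anisotropic binary part, m ≥ 0. This group has an irreducible complex character χ whose degree equals the order of a Sylow p-subgroup (namely q^(m(m+1)) when #F = q) and whose restriction to any Sylow p-subgroup P is the regular character of P: χ vanishes on the non-identity elements of P. (This is the Steinberg character.) -/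
theorem result {F : Type*} [Field F] [Fintype F] (p : ℕ) [Fact p.Prime] [CharP F p] (m : ℕ) (a b : F) (hab : ∀ z₁ z₂ : F, z₁ ^ 2 + a * z₁ * z₂ + b * z₂ ^ 2 = 0 → z₁ = 0 ∧ z₂ = 0) : ∃ χ : Cfsg.POmega F (Cfsg.quadFormMinus m F a b) → ℂ, Cfsg.IsIrrCharacter (Cfsg.POmega F (Cfsg.quadFormMinus m F a b)) χ ∧ ∀ P : Sylow p (Cfsg.POmega F (Cfsg.quadFormMinus m F a b)), χ 1 = Nat.card P ∧ ∀ x : Cfsg.POmega F (Cfsg.quadFormMinus m F a b), x ∈ P → x ≠ 1 → χ x = 0 := by
  obtain ⟨K, _, _, j, φ, θ, h1, h2, h3, hφ, hj, hs, hK⟩ := exists_quad hab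
  have := charP_of_injective_ringHom j.injective p
  rcases m with _ | _ | m
  · obtain ⟨e⟩ := S0306.result (F := F) rfl a b hab
    have h1 : ∀ x ∈ commutator _, ∃ i, e x = .r i := fun x hx => by
      rw [commutator_eq_closure] at hx
      induction hx using Subgroup.closure_induction with
      | mem x h =>
        obtain ⟨a, b, rfl⟩ := h
        rw [map_commutatorElement, commutatorElement_def]
        rcases e a with a | a <;> rcases e b with b | b <;> exact ⟨_, rfl⟩
      | one => exact ⟨0, map_one e⟩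
      | mul x y _ _ h h' => obtain ⟨i, h⟩ := h; obtain ⟨k, h'⟩ := h'; exact ⟨_, by rw [map_mul, h, h']; rfl⟩
      | inv x _ h => obtain ⟨i, h⟩ := h; exact ⟨_, by rw [map_inv, h]; rfl⟩
    have : Subsingleton (POmega F (quadFormMinus 0 F a b)) := by
      refine QuotientGroup.subsingleton_iff.2 (eq_top_iff.2 fun x _ => Subgroup.mem_center_iff.2 fun y => ?_)
      obtain ⟨i, h⟩ := h1 _ x.2
      obtain ⟨k, h'⟩ := h1 _ y.2
      exact Subtype.ext (e.injective (by simp [h, h', add_comm]))
    exact ⟨_, CfsgLib.Char.isIrr_one, fun P => ⟨by simp, fun x _ h => (h (Subsingleton.elim _ _)).elim⟩⟩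
  · have := Fintype.ofFinite K
    obtain ⟨e⟩ := S0300.result (F := F) (K := K) rfl (by rw [← Nat.card_eq_fintype_card, hK, Nat.card_eq_fintype_card])
      a b hab
    exact HasSt.of_equiv (S2544.result p 2 le_rfl) e
  · have h := good_om (m := m + 2) (by omega) (by omega) h1 h2 h3 hφ hj hs
      ((OrthE.hyp_qMinus a b ⟨0, by omega⟩).E_eq_commutator_of_five (OrthE.nondeg_qMinus _ hab) (by simp; omega))
      (by omega)
    obtain ⟨e⟩ := nonempty_quot_equiv (omHom_injective _ _ _) h
    exact (hasSt_of_isTw h.tw p).of_equiv e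

end Cfsg.Agent.S2549
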