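import Mathlib
import Cfsg.Statements.S2551
import Cfsg.Agent.Lib.InvChar.AutElem
import Cfsg.Agent.Lib.Classical.SLCard
-- import your own Cfsg.Agent.* helpers here

set_option autoImplicit false
open Cfsg

namespace Cfsg.Agent.S2551

/-- Let F be the field with 2 elements. GL_4(F) (≅ A_8) has a subgroup isomorphic to the alternating group A_7, and every such subgroup acts 2-transitively on the 15 non-zero vectors of F⁴: any ordered pair of distinct non-zero vectors is carried to any other by some element of the subgroup. -/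
theorem result {F : Type*} [Field F] [Fintype F] (hF : Fintype.card F = 2) : (∃ H : Subgroup (Matrix.GeneralLinearGroup (Fin 4) F), Nonempty (H ≃* alternatingGroup (Fin 7))) ∧ ∀ H : Subgroup (Matrix.GeneralLinearGroup (Fin 4) F), Nonempty (H ≃* alternatingGroup (Fin 7)) → ∀ v w v' w' : Fin 4 → F, v ≠ 0 → w ≠ 0 → v ≠ w → v' ≠ 0 → w' ≠ 0 → v' ≠ w' → ∃ g ∈ H, (g : Matrix (Fin 4) (Fin 4) F).mulVec v = v' ∧ (g : Matrix (Fin 4) (Fin 4) F).mulVec w = w' := by
  open Matrix MulAction in
  classical
  refine ⟨?_, fun H ⟨e⟩ v w v' w' hv hw hvw hv' hw' hvw' => ?_⟩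
  · obtain ⟨e⟩ := Cfsg.Agent.S0256.result (F := F) hF
    obtain ⟨e'⟩ := CfsgLib.InvChar.nonempty_GL_equiv_PSL_of_card_two hF 4
    let s : Finset (Fin 8) := Finset.univ.erase 0
    let f := (e'.trans e).symm.toMonoidHom.comp (alternatingGroup.ofSubtype s)
    exact ⟨f.range, ⟨(MonoidHom.ofInjective ((e'.trans e).symm.injective.comp
      alternatingGroup.ofSubtype_injective)).symm.trans
        (Finset.equivFinOfCardEq (by decide)).altCongrHom⟩⟩
  have h2 : ∀ c : F, c = 0 ∨ c = 1 := fun c => by
    by_contra h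
    push Not at h
    have := Finset.card_le_univ ({0, 1, c} : Finset F)
    rw [Finset.card_eq_three.2 ⟨_, _, _, zero_ne_one, h.1.symm, h.2.symm, rfl⟩] at this
    omega
  let X : Finset ((Fin 4 → F) × (Fin 4 → F)) := (Finset.univ.erase 0).offDiag
  have hX : X.card = 210 := by simp [X, Finset.offDiag_card, hF]
  have h3 : ∀ x ∈ X, LinearIndependent F ![x.1, x.2] := fun x hx => by
    simp only [X, Finset.mem_offDiag, Finset.mem_erase] at hx
    refine LinearIndependent.pair_iff.2 fun s t h => ?_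
    rcases h2 s with rfl | rfl <;> rcases h2 t with rfl | rfl
    · simp
    · exact (hx.2.1.1 (by simpa using h)).elim
    · exact (hx.1.1 (by simpa using h)).elim
    · refine (hx.2.2 ?_).elim
      rcases h2 (-1) with h' | h'
      · simp at h'
      · simpa [h'] using (eq_neg_of_add_eq_zero_left h).trans (neg_smul _ _).symm
  have h4 : ∀ x ∈ X, orbit (GL (Fin 4) F) x = X := fun x hx => by
    ext y
    constructor
    · rintro ⟨g, rfl⟩
      simpa [X, (MulAction.injective g).eq_iff, smul_eq_zero_iff_eq] using hx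
    · intro hy
      obtain ⟨g, hg⟩ := Submodule.exists_linearEquiv_restrict_eq
        ((h3 x hx).linearCombinationEquiv.symm ≪≫ₗ (h3 y hy).linearCombinationEquiv)
      have h5 : ∀ i, g (![x.1, x.2] i) = ![y.1, y.2] i := fun i => by
        simpa using (hg ((h3 x hx).linearCombinationEquiv (Finsupp.single i 1))).symm
      refine ⟨GeneralLinearGroup.toLin.symm (LinearMap.GeneralLinearGroup.ofLinearEquiv g), ?_⟩
      exact Prod.ext ((LinearMap.toMatrix'_mulVec _ _).trans (h5 0))
        ((LinearMap.toMatrix'_mulVec _ _).trans (h5 1))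
  have hH : Nat.card H = 2520 := by
    rw [Nat.card_congr e.toEquiv, nat_card_alternatingGroup]; simp [Nat.factorial]
  have h5 : ∀ x ∈ X, 105 ∣ (orbit H x).ncard := fun x hx => by
    have h5 := (stabilizer (GL (Fin 4) F) x).card_mul_index
    rw [index_stabilizer, h4 x hx, Set.ncard_coe_finset, hX, CfsgLib.Classical.gl_card, hF] at h5
    have h6 := (stabilizer H x).card_mul_index
    have h7 : Nat.card (stabilizer H x) ∣ 96 := by
      rw [show 96 = Nat.card (stabilizer (GL (Fin 4) F) x) by
        simp only [Finset.prod_range_succ, Finset.prod_range_zero] at h5; omega]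
      exact Subgroup.card_dvd_of_injective (H.subtype.subgroupComap (stabilizer (GL (Fin 4) F) x))
        fun _ _ h => Subtype.ext (Subtype.ext (congrArg (·.1) h :))
    rw [index_stabilizer, hH] at h6
    obtain ⟨k, hk⟩ := Nat.dvd_gcd h7 ⟨_, h6.symm⟩
    exact ⟨k, Nat.eq_of_mul_eq_mul_left (Nat.card_pos (α := stabilizer H x)) (by
      rw [h6, mul_left_comm, ← hk]; rfl)⟩
  have h6 : ∀ x ∈ X, orbit H x ⊆ X := fun x hx => h4 x hx ▸ orbit_subgroup_subset H x
  obtain ⟨t, ht⟩ := exists_prime_orderOf_dvd_card' (G := H) 2 (by rw [hH]; norm_num)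
  obtain ⟨a, ha⟩ : ∃ a : Fin 4 → F, t • a ≠ a := by
    by_contra h
    push Not at h
    rw [show t = 1 from Subtype.ext (Units.ext (mulVec_injective (funext fun a =>
      (h a).trans (one_mulVec a).symm)))] at ht
    simp at ht
  have h7 : (a, t • a) ∈ X := by
    have : a ≠ 0 := by rintro rfl; simp at ha
    simp [X, this, ha.symm, smul_eq_zero_iff_eq]
  have h8 : 2 ∣ (orbit H (a, t • a)).ncard := by
    rw [Set.ncard_eq_toFinset_card', ← ZMod.natCast_eq_zero_iff, Finset.card_eq_sum_ones,
      Nat.cast_sum]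
    refine Finset.sum_involution (fun x _ => x.swap) (fun _ _ => by decide) (fun x hx _ h => ?_)
      (fun x hx => ?_) fun _ _ => rfl
    · exact (Finset.mem_offDiag.1 (h6 _ h7 (Set.mem_toFinset.1 hx))).2.2 (congrArg Prod.snd h)
    · obtain ⟨g, rfl⟩ := Set.mem_toFinset.1 hx
      refine Set.mem_toFinset.2 ⟨g * t, Prod.ext (mul_smul _ _ _) ?_⟩
      change (g * t) • t • a = g • a
      rw [smul_smul, mul_assoc, ← pow_two, ← ht, pow_orderOf_eq_one, mul_one]
  have h9 := Set.eq_of_subset_of_ncard_le (h6 _ h7) (by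
    have := h5 _ h7
    have := (Set.ncard_pos (s := orbit H (a, t • a))).2 ⟨_, mem_orbit_self _⟩
    rw [Set.ncard_coe_finset]; omega)
  obtain ⟨g, hg⟩ := h9.ge (show (v, w) ∈ X by simp [X, hv, hw, hvw])
  obtain ⟨g', hg'⟩ := h9.ge (show (v', w') ∈ X by simp [X, hv', hw', hvw'])
  have h10 : (g' * g⁻¹) • (v, w) = (v', w') := by rw [← hg, ← hg', mul_smul, inv_smul_smul]
  exact ⟨_, (g' * g⁻¹).2, congrArg Prod.fst h10, congrArg Prod.snd h10⟩

end Cfsg.Agent.S2551
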