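import Cfsg.Statements.S2552

set_option autoImplicit false
open Cfsg

namespace Cfsg.Agent.S2552

theorem exists_det {F V : Type*} [Field F] [AddCommGroup V] [Module F V] [FiniteDimensional F V]
    [Nontrivial V] (U : Submodule F V) (a : Fˣ) :
    ∃ h : V ≃ₗ[F] V, LinearEquiv.det h = a ∧ U.map (h : V →ₗ[F] V) = U := by
  obtain ⟨v, hv0, hv⟩ : ∃ v : V, v ≠ 0 ∧ (v ∈ U ∨ U = ⊥) := by
    by_cases hU : U = ⊥
    · obtain ⟨v, hv⟩ := exists_ne (0 : V)
      exact ⟨v, hv, Or.inr hU⟩
    · obtain ⟨v, hv, hv0⟩ := Submodule.exists_mem_ne_zero_of_ne_bot hU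
      exact ⟨v, hv0, Or.inl hv⟩
  obtain ⟨f, hf⟩ : ∃ f : Module.Dual F V, f v = 1 := by
    obtain ⟨f, hf⟩ := Module.Projective.exists_dual_ne_zero F hv0
    exact ⟨(f v)⁻¹ • f, by simp [hf]⟩
  refine ⟨LinearEquiv.dilatransvection (f := f) (v := (a.val - 1) • v) (by simp [hf]), ?_, ?_⟩
  · simp [← Units.val_inj, LinearEquiv.coe_det, LinearMap.transvection.det, hf,
      LinearEquiv.dilatransvection.coe_toLinearMap]
  · apply Submodule.eq_of_le_of_finrank_eq
    · rintro _ ⟨x, hx, rfl⟩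
      rcases hv with hv | hv
      · rw [LinearEquiv.dilatransvection.coe_toLinearMap, LinearMap.transvection.apply]
        exact U.add_mem hx (U.smul_mem _ (U.smul_mem _ hv))
      · subst hv
        have hx0 : x = 0 := by simpa using hx
        simp [hx0]
    · exact LinearEquiv.finrank_map_eq _ _


/-- Let F be a finite field and n ≥ 1. For every k, the special linear group SL_n(F) acts transitively on the set of k-dimensional subspaces of F^n: any two subspaces of the same dimension are carried onto each other by some matrix of determinant 1. -/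
theorem result {F : Type*} [Field F] [Fintype F] (n : ℕ) (hn : 1 ≤ n) (U₁ U₂ : Submodule F (Fin n → F)) (h : Module.finrank F U₁ = Module.finrank F U₂) : ∃ g : Matrix.SpecialLinearGroup (Fin n) F, U₁.map ((Matrix.SpecialLinearGroup.toLin' g : (Fin n → F) ≃ₗ[F] (Fin n → F)) : (Fin n → F) →ₗ[F] (Fin n → F)) = U₂ := by
  have : Nonempty (Fin n) := ⟨⟨0, hn⟩⟩
  obtain ⟨f⟩ := FiniteDimensional.nonempty_linearEquiv_of_finrank_eq h
  obtain ⟨g, hg⟩ := Submodule.exists_linearEquiv_restrict_eq f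
  obtain ⟨k, hk, hkU⟩ := exists_det U₁ (LinearEquiv.det g)⁻¹
  have hgU : U₁.map (g : (Fin n → F) →ₗ[F] (Fin n → F)) = U₂ := by
    apply Submodule.eq_of_le_of_finrank_eq
    · rintro _ ⟨x, hx, rfl⟩
      have := hg ⟨x, hx⟩
      simp only [LinearEquiv.coe_coe]
      rw [← this]
      exact (f ⟨x, hx⟩).2
    · rw [LinearEquiv.finrank_map_eq, h]
  let s : SpecialLinearGroup F (Fin n → F) := ⟨g * k, by simp [hk]⟩
  refine ⟨Matrix.SpecialLinearGroup.toLin'_equiv.symm s, ?_⟩
  have : Matrix.SpecialLinearGroup.toLin' (Matrix.SpecialLinearGroup.toLin'_equiv.symm s)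
      = g * k := by
    have := congrArg Subtype.val (Matrix.SpecialLinearGroup.toLin'_equiv.apply_symm_apply s)
    exact this
  rw [this]
  have : ((g * k : (Fin n → F) ≃ₗ[F] (Fin n → F)) : (Fin n → F) →ₗ[F] (Fin n → F))
      = (g : (Fin n → F) →ₗ[F] (Fin n → F)).comp (k : (Fin n → F) →ₗ[F] (Fin n → F)) := rfl
  rw [this, Submodule.map_comp, hkU, hgU]

end Cfsg.Agent.S2552
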