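import Mathlib
import Cfsg.Statements.S2561
import Cfsg.Agent.Lib.OrthE.F2
-- import your own Cfsg.Agent.* helpers here

set_option autoImplicit false
open Cfsg

namespace Cfsg.Agent.S2561

/-- Fix the non-singular alternating form on the 2m-dimensional space over the field of two elements obtained by polarizing the plus-type form Σ xᵢyᵢ (m ≥ 1). The functions q on the space with q(u + v) = q(u) + q(v) + f(u, v) (the quadratic forms polarizing to f) number 2^(2m); each is equivalent under an invertible linear map either to the plus-type form or to the minus-type form Σ xᵢyᵢ + (z₁² + z₁z₂ + z₂²); and those of plus type number 2^(2m−1) + 2^(m−1), those of minus type 2^(2m−1) − 2^(m−1). -/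
theorem result (m : ℕ) (hm : 1 ≤ m) :
    Nat.card {q : (Fin m ⊕ Fin m → ZMod 2) → ZMod 2 // (∀ u v : (Fin m ⊕ Fin m → ZMod 2), q (u + v) = q u + q v + (Cfsg.quadFormPlus m (ZMod 2) (u + v) - Cfsg.quadFormPlus m (ZMod 2) u - Cfsg.quadFormPlus m (ZMod 2) v))} = 2 ^ (2 * m) ∧
    (∀ q : (Fin m ⊕ Fin m → ZMod 2) → ZMod 2, (∀ u v : (Fin m ⊕ Fin m → ZMod 2), q (u + v) = q u + q v + (Cfsg.quadFormPlus m (ZMod 2) (u + v) - Cfsg.quadFormPlus m (ZMod 2) u - Cfsg.quadFormPlus m (ZMod 2) v)) →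
      (∃ g : (Fin m ⊕ Fin m → ZMod 2) ≃ₗ[ZMod 2] (Fin m ⊕ Fin m → ZMod 2), ∀ v, q v = Cfsg.quadFormPlus m (ZMod 2) (g v)) ∨
      (∃ g : (Fin m ⊕ Fin m → ZMod 2) ≃ₗ[ZMod 2] ((Fin (m - 1) ⊕ Fin (m - 1)) ⊕ Fin 2 → ZMod 2), ∀ v, q v = Cfsg.quadFormMinus (m - 1) (ZMod 2) 1 1 (g v))) ∧
    Nat.card {q : (Fin m ⊕ Fin m → ZMod 2) → ZMod 2 // (∀ u v : (Fin m ⊕ Fin m → ZMod 2), q (u + v) = q u + q v + (Cfsg.quadFormPlus m (ZMod 2) (u + v) - Cfsg.quadFormPlus m (ZMod 2) u - Cfsg.quadFormPlus m (ZMod 2) v)) ∧ ∃ g : (Fin m ⊕ Fin m → ZMod 2) ≃ₗ[ZMod 2] (Fin m ⊕ Fin m → ZMod 2), ∀ v, q v = Cfsg.quadFormPlus m (ZMod 2) (g v)} = 2 ^ (2 * m - 1) + 2 ^ (m - 1) ∧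
    Nat.card {q : (Fin m ⊕ Fin m → ZMod 2) → ZMod 2 // (∀ u v : (Fin m ⊕ Fin m → ZMod 2), q (u + v) = q u + q v + (Cfsg.quadFormPlus m (ZMod 2) (u + v) - Cfsg.quadFormPlus m (ZMod 2) u - Cfsg.quadFormPlus m (ZMod 2) v)) ∧ ∃ g : (Fin m ⊕ Fin m → ZMod 2) ≃ₗ[ZMod 2] ((Fin (m - 1) ⊕ Fin (m - 1)) ⊕ Fin 2 → ZMod 2), ∀ v, q v = Cfsg.quadFormMinus (m - 1) (ZMod 2) 1 1 (g v)} = 2 ^ (2 * m - 1) - 2 ^ (m - 1) := by
  open CfsgLib.OrthE in
  obtain ⟨k, rfl⟩ : ∃ k, m = k + 1 := ⟨m - 1, by omega⟩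
  have h0 := card_zeros_qPlus (F := ZMod 2) k
  have h1 := Nat.card_congr (Equiv.sumCompl fun w => qPlus (ZMod 2) (k + 1) w = 0)
  have h2 : Nat.card (Fin (k + 1) ⊕ Fin (k + 1) → ZMod 2) = 2 ^ (2 * (k + 1)) := by simp [two_mul]
  rw [Nat.card_sum, h2] at h1
  rw [Nat.card_zmod] at h0
  have e1 : 2 * (k + 1) - 1 = 2 * k + 1 := by omega
  have h3 : Nat.card {w // qPlus (ZMod 2) (k + 1) w = 0} = 2 ^ (2 * k + 1) + 2 ^ k := by
    zify; rw [h0]; push_cast; ring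
  refine ⟨?_, fun q hq => ?_, ?_, ?_⟩
  · have := (card_polarizing (m := k + 1) (fun _ => True)).trans
      ((Nat.card_congr (Equiv.subtypeUnivEquiv fun _ => trivial)).trans h2)
    simpa only [and_true] using this
  · obtain ⟨w, rfl⟩ := exists_eq_shiftQ (nondeg_qPlus (k + 1)) (q := q)
      fun u v => by rw [hq, polar_quadFormPlus]
    exact (em _).imp (shiftQ_plus_iff k w).2 (shiftQ_minus_iff k w).2
  · rw [card_polarizing, Nat.card_congr (Equiv.subtypeEquivRight (shiftQ_plus_iff k)), h3, e1,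
      Nat.add_sub_cancel]
  · refine (card_polarizing _).trans
      ((Nat.card_congr (Equiv.subtypeEquivRight (shiftQ_minus_iff k))).trans ?_)
    rw [h3, show 2 * (k + 1) = 2 * k + 1 + 1 by ring, pow_succ] at h1
    rw [e1, Nat.add_sub_cancel]
    omega

end Cfsg.Agent.S2561
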