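import Mathlib
import Cfsg.Statements.S2563
import Cfsg.Agent.Lib.OrthE.F2
-- import your own Cfsg.Agent.* helpers here

set_option autoImplicit false
open Cfsg

namespace Cfsg.Agent.S2563

/-- For k ≥ 1 the symmetric group of degree 4k + 4 embeds in a full orthogonal group in dimension 4k + 2 over the field of two elements: in the isometry group of the plus-type form Σ xᵢyᵢ when k is odd, and in that of the minus-type form Σ xᵢyᵢ + (z₁² + z₁z₂ + z₂²) when k is even (through its action on even partitions of a (4k+4)-set, with the form 'half the size of a part, modulo 2'). -/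
theorem result (k : ℕ) (hk : 1 ≤ k) :
    (Odd k → ∃ φ : Equiv.Perm (Fin (4 * k + 4)) →* ↥(Cfsg.isometryGroup (ZMod 2) (Cfsg.quadFormPlus (2 * k + 1) (ZMod 2))), Function.Injective φ) ∧
    (Even k → ∃ φ : Equiv.Perm (Fin (4 * k + 4)) →* ↥(Cfsg.isometryGroup (ZMod 2) (Cfsg.quadFormMinus (2 * k) (ZMod 2) 1 1)), Function.Injective φ) := by
  open CfsgLib.OrthE in
  obtain ⟨ρ, h1, h2⟩ := exists_perm_hom_shiftQ (m := 2 * k + 1) ⟨k, rfl⟩ (by omega)
  have h3 : qPlus (ZMod 2) (2 * k + 1) (symmW (2 * k + 1)) = 0 ↔ Odd k := by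
    rw [qPlus_symmW, ZMod.natCast_eq_zero_iff_even, show (2 * k + 1 + 1) / 2 = k + 1 by omega,
      Nat.even_add_one, Nat.not_even_iff_odd]
  rw [show 4 * k + 4 = 2 * (2 * k + 1) + 2 by ring]
  refine ⟨fun h => ?_, fun h => ?_⟩
  · obtain ⟨g, hg⟩ := (shiftQ_plus_iff _ _).2 (h3.2 h)
    exact exists_inj_O (qPlus_eq _) g.symm
      (fun x => by rw [hg, g.apply_symm_apply, qPlus_eq]) ρ h1 h2
  · obtain ⟨g, hg⟩ := (shiftQ_minus_iff _ _).2 (mt h3.1 (Nat.not_odd_iff_even.2 h))
    exact exists_inj_O (qMinus_eq _ 1 1) g.symm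
      (fun x => by rw [hg, g.apply_symm_apply, qMinus_eq]) ρ h1 h2

end Cfsg.Agent.S2563
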