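import Cfsg.Statements.S2567

set_option autoImplicit false
open Cfsg

namespace Cfsg.Agent.S2567

theorem center_pow {F : Type*} [Field F] [Fintype F] {n : ℕ} (z : GL (Fin n) F)
    (hz : z ∈ Subgroup.center (GL (Fin n) F)) : z ^ (Fintype.card F - 1) = 1 := by
  classical
  rw [Matrix.GeneralLinearGroup.center_eq_range_scalar] at hz
  obtain ⟨a, rfl⟩ := hz
  rw [← map_pow, ← Fintype.card_units, pow_card_eq_one, map_one]

theorem aux {G : Type*} [Group G] {m r : ℕ} (hr : r.Prime) (hdiv : ¬ r ∣ m)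
    (hZ : ∀ z ∈ Subgroup.center G, z ^ m = 1) (x : G ⧸ Subgroup.center G) (hx : orderOf x = r) :
    ∃! g : G, (QuotientGroup.mk g : G ⧸ Subgroup.center G) = x ∧ orderOf g = r := by
  have := Fact.mk hr
  have hcop : Nat.Coprime m r := ((Nat.Prime.coprime_iff_not_dvd hr).2 hdiv).symm
  obtain ⟨g₀, rfl⟩ := QuotientGroup.mk_surjective x
  obtain ⟨k, -, hk⟩ := Nat.exists_mul_mod_eq_one_of_coprime hcop hr.one_lt
  have h0 : g₀ ^ r ∈ Subgroup.center G := by
    rw [← QuotientGroup.eq_one_iff, QuotientGroup.mk_pow, ← hx, pow_orderOf_eq_one]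
  have hne : (QuotientGroup.mk g₀ : G ⧸ Subgroup.center G) ≠ 1 := by
    intro h
    rw [h, orderOf_one] at hx
    exact hr.one_lt.ne hx
  have hmk : (QuotientGroup.mk (g₀ ^ (m * k)) : G ⧸ Subgroup.center G) = QuotientGroup.mk g₀ := by
    rw [QuotientGroup.mk_pow, ← pow_mod_orderOf, hx, hk, pow_one]
  refine ⟨g₀ ^ (m * k), ⟨hmk, ?_⟩, ?_⟩
  · apply orderOf_eq_prime
    · rw [← pow_mul, mul_comm, pow_mul, pow_mul, hZ _ h0, one_pow]
    · intro h
      rw [h] at hmk
      exact hne hmk.symm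
  · rintro g ⟨hg, hgr⟩
    rw [← hmk, QuotientGroup.eq] at hg
    set z := g⁻¹ * g₀ ^ (m * k) with hz
    have e : g₀ ^ (m * k) = g * z := by simp [hz]
    have hc : Commute g z := (Subgroup.mem_center_iff.1 hg g)
    have h1 : z ^ r = 1 := by
      have : (g₀ ^ (m * k)) ^ r = 1 := by
        rw [← pow_mul, mul_comm, pow_mul, pow_mul, hZ _ h0, one_pow]
      rwa [e, hc.mul_pow, ← hgr, pow_orderOf_eq_one, one_mul, hgr] at this
    have h2 : z = 1 := by
      have := Nat.dvd_gcd (orderOf_dvd_of_pow_eq_one (hZ z hg)) (orderOf_dvd_of_pow_eq_one h1)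
      rw [hcop, Nat.dvd_one] at this
      exact orderOf_eq_one_iff.1 this
    rw [e, h2, mul_one]


/-- Lifting elements of prime order from PGL to GL: let F be a finite field with q elements, r a prime not dividing q − 1, and x an element of order r in GL_n(F) modulo its centre (the scalar matrices). Then x has exactly one preimage in GL_n(F) of order r. -/
theorem result {F : Type*} [Field F] [Fintype F] {q n r : ℕ} (hF : Fintype.card F = q) (hr : r.Prime) (hdiv : ¬ r ∣ q - 1) (x : GL (Fin n) F ⧸ Subgroup.center (GL (Fin n) F)) (hx : orderOf x = r) : ∃! g : GL (Fin n) F, (QuotientGroup.mk g : GL (Fin n) F ⧸ Subgroup.center (GL (Fin n) F)) = x ∧ orderOf g = r := by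
  subst hF
  exact aux hr hdiv (fun z hz => center_pow z hz) x hx

end Cfsg.Agent.S2567
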