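import Cfsg.Statements.S2569
import Cfsg.Agent.Lib.MatConj.CentDet

set_option autoImplicit false
open Cfsg

namespace Cfsg.Agent.S2569

open CfsgLib.MatConj

/-- In GL_n over a finite field of characteristic p, the conjugacy class of a semisimple element (an element of order prime to p) under the special linear group is its whole GL-conjugacy class: for every such x and every invertible g there is h of determinant one with h x h⁻¹ = g x g⁻¹. -/
theorem result {F : Type*} [Field F] [Fintype F] {p : ℕ} [Fact p.Prime] [CharP F p] {n : ℕ} (x g : GL (Fin n) F) (hx : (orderOf x).Coprime p) : ∃ h : GL (Fin n) F, (h : Matrix (Fin n) (Fin n) F).det = 1 ∧ h * x * h⁻¹ = g * x * g⁻¹ := by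
  rcases Nat.eq_zero_or_pos n with rfl | hn
  · exact ⟨g, Matrix.det_isEmpty, rfl⟩
  have : Nonempty (Fin n) := ⟨⟨0, hn⟩⟩
  have h1 : IsConj (x : Matrix (Fin n) (Fin n) F) (g * x * g⁻¹ : GL (Fin n) F) :=
    (isConj_units_iff _ _).1 (isConj_iff.2 ⟨g, rfl⟩)
  obtain ⟨P, h2, h3⟩ := exists_det_one_conj h1 fun d _ =>
    det_surj_of_pow_eq_one (natCast_ne_zero_of_coprime hx)
      (by rw [← Units.val_pow_eq_pow_val, pow_orderOf_eq_one, Units.val_one]) d
  obtain ⟨h, rfl⟩ := (Matrix.isUnit_iff_isUnit_det P).2 (h2 ▸ isUnit_one)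
  exact ⟨h, h2, mul_inv_eq_iff_eq_mul.2 (Units.ext h3)⟩

end Cfsg.Agent.S2569
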