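import Cfsg.Statements.S2574
import Cfsg.Agent.Lib.MatConj.RegUnip
import Cfsg.Agent.Lib.Forms.Mat

set_option autoImplicit false
open Cfsg

namespace Cfsg.Agent.S2574

open CfsgLib.MatConj CfsgLib.Forms Matrix

theorem form_pow_eq_zero {F V : Type*} [Field F] [AddCommGroup V] [Module F V]
    (B : LinearMap.BilinForm F V) (u : Module.End F V) (hu : ∀ x y, B (u x) (u y) = B x y)
    (j : ℕ) (x w : V) (hw : ((u - 1) ^ j) w = 0) : B (((u - 1) ^ j) x) w = 0 := by
  induction j generalizing x w with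
  | zero => simp_all
  | succ j ih =>
    have h1 : ∀ y, B ((u - 1) y) w = -B (u y) ((u - 1) w) := by
      intro y
      simp [hu]
    have h2 : u * (u - 1) ^ j = (u - 1) ^ j * u :=
      (((Commute.refl u).sub_right (Commute.one_right u)).pow_right j).eq
    rw [pow_succ', Module.End.mul_apply, h1, ← Module.End.mul_apply, h2, Module.End.mul_apply,
      ih _ _ (by rwa [pow_succ, Module.End.mul_apply] at hw), neg_zero]

/-- A regular unipotent element of the symplectic group has totally isotropic small invariant subspaces: over a finite field, if u ∈ Sp_2m(F) satisfies (u − 1)^(2m) = 0 and rank(u − 1) = 2m − 1, and W is a u-invariant subspace with 2 dim W ≤ 2m, then the alternating form vanishes identically on W. -/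
theorem result {F : Type*} [Field F] [Finite F] {m : ℕ} (u : Matrix.symplecticGroup (Fin m) F) (hnil : ((u : Matrix (Fin m ⊕ Fin m) (Fin m ⊕ Fin m) F) - 1) ^ (2 * m) = 0) (hreg : ((u : Matrix (Fin m ⊕ Fin m) (Fin m ⊕ Fin m) F) - 1).rank = 2 * m - 1) (W : Submodule F (Fin m ⊕ Fin m → F)) (hW : ∀ v ∈ W, (u : Matrix (Fin m ⊕ Fin m) (Fin m ⊕ Fin m) F).mulVec v ∈ W) (hdim : 2 * Module.finrank F W ≤ 2 * m) : ∀ v ∈ W, ∀ w ∈ W, Cfsg.sympForm m F v w = 0 := by
  intro v hv w hw
  rcases Nat.eq_zero_or_pos m with rfl | hm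
  · simp [Cfsg.sympForm, dotProduct]
  set A : Matrix (Fin m ⊕ Fin m) (Fin m ⊕ Fin m) F := ↑u with hA
  have hc : Fintype.card (Fin m ⊕ Fin m) = 2 * m := by simp [two_mul]
  have hu : IsNilpotent (A - 1) := ⟨_, hnil⟩
  have hr : (A - 1).rank + 1 = Fintype.card (Fin m ⊕ Fin m) := by rw [hreg, hc]; omega
  have h1 := reg_invariant_eq_ker hu hr hW
  set k := Module.finrank F W
  have h2 := reg_range_eq_ker hu hr (j := 2 * m - k) (k := k) (by omega)
  rw [h1] at hv hw
  rw [← h2] at hv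
  obtain ⟨x, rfl⟩ := hv
  have h3 : toLin' ((A - 1) ^ (2 * m - k)) = (toLin' A - 1) ^ (2 * m - k) := by
    rw [toLin'_pow, map_sub, toLin'_one]
    rfl
  rw [← spB_eq_sympForm, h3]
  refine form_pow_eq_zero _ _ ((mem_sp_iff A).1 u.2) _ _ _ ?_
  obtain ⟨j, hj⟩ : ∃ j, 2 * m - k = j + k := ⟨2 * m - k - k, by omega⟩
  rw [← h3, hj, pow_add, toLin'_mul, LinearMap.comp_apply, LinearMap.mem_ker.1 hw, map_zero]

end Cfsg.Agent.S2574
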