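import Cfsg.Statements.S2575

set_option autoImplicit false
open Cfsg

namespace Cfsg.Agent.S2575

theorem two_ne {F : Type*} [Field F] [Fintype F] (hq : Odd (Fintype.card F)) : (-1 : F) ≠ 1 := by
  have h : ringChar F ≠ 2 := by
    intro h
    have := FiniteField.even_card_iff_char_two.1 h
    rw [Nat.odd_iff] at hq
    omega
  exact Ring.neg_one_ne_one_of_char_ne_two h

theorem neg_one_pow_iff {F : Type*} [Field F] [Fintype F] (hq : Odd (Fintype.card F)) {n : ℕ}
    (hn : 1 ≤ n) : (∃ c : F, c ≠ 0 ∧ c ^ n = -1) ↔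
      padicValNat 2 n < padicValNat 2 (Fintype.card F - 1) := by
  classical
  have h1 : 1 < Fintype.card F := Fintype.one_lt_card
  have hN : Fintype.card F - 1 ≠ 0 := by omega
  have hn0 : n ≠ 0 := by omega
  constructor
  · rintro ⟨c, hc, hcn⟩
    by_contra hlt
    push Not at hlt
    obtain ⟨a, N', hN', e⟩ := Nat.exists_eq_two_pow_mul_odd hN
    have ha : 2 ^ a ∣ n := by
      rw [padicValNat_dvd_iff_le hn0]
      refine le_trans ?_ hlt
      rw [← padicValNat_dvd_iff_le hN, e]
      exact Dvd.intro _ rfl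
    obtain ⟨k, rfl⟩ := ha
    have h2 : (c ^ (2 ^ a * k)) ^ N' = 1 := by
      rw [← pow_mul, show 2 ^ a * k * N' = (2 ^ a * N') * k by ring, ← e, pow_mul,
        FiniteField.pow_card_sub_one_eq_one c hc, one_pow]
    rw [hcn, hN'.neg_one_pow] at h2
    exact two_ne hq h2
  · intro hlt
    obtain ⟨b, n', hn', e⟩ := Nat.exists_eq_two_pow_mul_odd hn0
    have hb : 2 ^ (b + 1) ∣ Fintype.card F - 1 := by
      rw [padicValNat_dvd_iff_le hN]
      have : b ≤ padicValNat 2 n := by
        rw [← padicValNat_dvd_iff_le hn0, e]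
        exact Dvd.intro _ rfl
      omega
    obtain ⟨g, hg⟩ := IsCyclic.exists_ofOrder_eq_natCard (α := Fˣ)
    rw [Nat.card_eq_fintype_card, Fintype.card_units] at hg
    obtain ⟨M, hM⟩ := hb
    have hM0 : M ≠ 0 := by
      rintro rfl
      simp [hM] at hN
    have hz : ((g : F) ^ (M * 2 ^ b)) = -1 := by
      have h2 : ((g : F) ^ (M * 2 ^ b)) ^ 2 = 1 := by
        rw [← pow_mul, show M * 2 ^ b * 2 = 2 ^ (b + 1) * M by ring, ← hM]
        exact FiniteField.pow_card_sub_one_eq_one _ g.ne_zero
      rcases sq_eq_one_iff.1 h2 with h | h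
      · exfalso
        have h3 : g ^ (M * 2 ^ b) = 1 := by ext; simpa using h
        have h4 := orderOf_dvd_of_pow_eq_one h3
        rw [hg, hM] at h4
        have h5 := Nat.le_of_dvd (by positivity) h4
        have : 0 < M * 2 ^ b := by positivity
        rw [pow_succ] at h5
        nlinarith
      · exact h
    refine ⟨(g : F) ^ M, pow_ne_zero _ g.ne_zero, ?_⟩
    rw [e, ← pow_mul, ← mul_assoc, pow_mul, hz, hn'.neg_one_pow]


/-- Which diagonal involutions of PGL_n(q) lie in PSL_n(q), q odd: for the diagonal matrix t with i entries −1 and n − i entries 1, some non-zero scalar multiple of t has determinant one if and only if i is even or the 2-part of q − 1 exceeds the 2-part of n (that is, −1 is an n-th power in the field exactly in the latter case). -/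
theorem result {F : Type*} [Field F] [Fintype F] {q : ℕ} (hF : Fintype.card F = q) (hq : Odd q) {n : ℕ} (hn : 1 ≤ n) (i : ℕ) (hi : i ≤ n) : (∃ c : F, c ≠ 0 ∧ (c • Matrix.diagonal (fun j : Fin n => if (j : ℕ) < i then (-1 : F) else 1)).det = 1) ↔ (Even i ∨ padicValNat 2 n < padicValNat 2 (q - 1)) := by
  subst hF
  have hdet : (Matrix.diagonal (fun j : Fin n => if (j : ℕ) < i then (-1 : F) else 1)).det
      = (-1) ^ i := by
    rw [Matrix.det_diagonal, Finset.prod_ite, Finset.prod_const, Finset.prod_const_one, mul_one]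
    congr 1
    rw [Fin.card_filter_val_lt]
    omega
  simp only [Matrix.det_smul, hdet, Fintype.card_fin]
  rcases Nat.even_or_odd i with h | h
  · simp only [h, true_or, iff_true]
    exact ⟨1, one_ne_zero, by simp [h.neg_one_pow]⟩
  · rw [h.neg_one_pow, ← neg_one_pow_iff hq hn]
    simp only [Nat.not_even_iff_odd.2 h, false_or, mul_neg, mul_one, neg_eq_iff_eq_neg]

end Cfsg.Agent.S2575
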