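import Cfsg.Statements.S2576

set_option autoImplicit false
open Cfsg

namespace Cfsg.Agent.S2576


/-- Which involutions of PGL_2m(q) coming from a scalar of the quadratic extension field lie in PSL_2m(q), q odd: let μ generate the Sylow 2-subgroup of the multiplicative group of the field with q elements (μ has order the 2-part of q − 1) and let t be the block-diagonal matrix with m diagonal blocks [[0, 1], [μ, 0]] (so t² is the scalar μ and t is an involution modulo scalars). Then some non-zero scalar multiple of t has determinant one if and only if q ≡ 3 (mod 4) or the 2-part of q − 1 is less than the 2-part of 2m. -/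
theorem result {F : Type*} [Field F] [Fintype F] {q : ℕ} (hF : Fintype.card F = q) (hq : Odd q) {m : ℕ} (hm : 1 ≤ m) (μ : F) (hμ : orderOf μ = 2 ^ padicValNat 2 (q - 1)) : (∃ c : F, c ≠ 0 ∧ (c • Matrix.blockDiagonal (fun _ : Fin m => !![(0 : F), 1; μ, 0])).det = 1) ↔ (q % 4 = 3 ∨ padicValNat 2 (q - 1) < padicValNat 2 (2 * m)) := by
  classical
  subst hF
  have h1 : 1 < Fintype.card F := Fintype.one_lt_card
  have hN : Fintype.card F - 1 ≠ 0 := by omega
  have hm0 : m ≠ 0 := by omega
  have hdet : (Matrix.blockDiagonal (fun _ : Fin m => !![(0 : F), 1; μ, 0])).det = (-μ) ^ m := by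
    rw [Matrix.det_blockDiagonal]
    simp [Matrix.det_fin_two]
  have h2m : padicValNat 2 (2 * m) = padicValNat 2 m + 1 := by
    rw [padicValNat.mul (by norm_num) hm0, padicValNat_self, add_comm]
  simp only [Matrix.det_smul, hdet, Fintype.card_prod, Fintype.card_fin, h2m]
  set a := padicValNat 2 (Fintype.card F - 1) with ha
  have ha1 : 1 ≤ a := by
    rw [ha, ← padicValNat_dvd_iff_le hN]
    obtain ⟨k, hk⟩ := hq
    exact ⟨k, by omega⟩
  have h4 : Fintype.card F % 4 = 3 ↔ a = 1 := by
    have : 2 ≤ a ↔ 4 ∣ Fintype.card F - 1 := by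
      rw [ha, ← padicValNat_dvd_iff_le hN]
      norm_num
    obtain ⟨k, hk⟩ := hq
    omega
  rw [h4]
  constructor
  · rintro ⟨c, hc, hcn⟩
    by_contra hcon
    push Not at hcon
    obtain ⟨hne, hle⟩ := hcon
    obtain ⟨b, m', hm', e⟩ := Nat.exists_eq_two_pow_mul_odd hm0
    have hb : padicValNat 2 m = b := by
      rw [e, padicValNat.mul (by positivity) hm'.pos.ne', padicValNat.prime_pow,
        padicValNat.eq_zero_of_not_dvd hm'.not_two_dvd_nat, add_zero]
    obtain ⟨a', N', hN', e'⟩ := Nat.exists_eq_two_pow_mul_odd hN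
    have ha' : a = a' := by
      rw [ha, e', padicValNat.mul (by positivity) hN'.pos.ne', padicValNat.prime_pow,
        padicValNat.eq_zero_of_not_dvd hN'.not_two_dvd_nat, add_zero]
    subst ha'
    obtain ⟨d, hd⟩ : ∃ d, a = b + 1 + d := ⟨a - (b + 1), by omega⟩
    have h5 : (c ^ (2 * m) * (-μ) ^ m) ^ (2 ^ d * N') = 1 := by rw [hcn, one_pow]
    have h6 : (c ^ (2 * m)) ^ (2 ^ d * N') = 1 := by
      rw [← pow_mul, e, show 2 * (2 ^ b * m') * (2 ^ d * N') = (2 ^ (b + 1 + d) * N') * m' by ring,
        ← hd, ← e', pow_mul, FiniteField.pow_card_sub_one_eq_one c hc, one_pow]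
    rw [mul_pow, h6, one_mul, ← pow_mul] at h5
    have h7 : m * (2 ^ d * N') = 2 ^ (b + d) * (m' * N') := by rw [e]; ring
    have h8 : Even (m * (2 ^ d * N')) := by
      rw [h7]
      apply Even.mul_right
      exact (Nat.even_pow' (by omega)).2 even_two
    rw [h8.neg_pow] at h5
    have h9 := orderOf_dvd_of_pow_eq_one h5
    rw [hμ, h7, hd, show b + 1 + d = b + d + 1 by ring, pow_succ] at h9
    have h10 := Nat.dvd_of_mul_dvd_mul_left (by positivity) h9
    exact (hm'.mul hN').not_two_dvd_nat h10
  · rintro (h | h)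
    · refine ⟨1, one_ne_zero, ?_⟩
      rw [h, pow_one] at hμ
      have h2 : μ ^ 2 = 1 := by rw [← hμ, pow_orderOf_eq_one]
      rcases sq_eq_one_iff.1 h2 with h3 | h3
      · rw [h3, orderOf_one] at hμ
        omega
      · simp [h3]
    · refine ⟨1, one_ne_zero, ?_⟩
      have hd : 2 ^ a ∣ m := by
        rw [padicValNat_dvd_iff_le hm0]
        omega
      have he : Even m := by
        obtain ⟨k, rfl⟩ := hd
        apply Even.mul_right
        exact (Nat.even_pow' (by omega)).2 even_two
      rw [he.neg_pow, one_pow, one_mul]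
      apply orderOf_dvd_iff_pow_eq_one.1
      rwa [hμ]

end Cfsg.Agent.S2576
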