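import Cfsg.Statements.S2670
import Cfsg.Agent.Lib.MatConj.ProjPrime

set_option autoImplicit false
open Cfsg

namespace Cfsg.Agent.S2670

open CfsgLib.MatConj Matrix Polynomial

/-- Number of conjugacy classes of elements of prime order r in PGL_n(q) = GL_n(q)/scalars when r divides q − 1 (n ≥ 2): the classes of elements with a diagonalisable lift correspond to the orbits of the cyclic rotation on the r-tuples of eigenvalue multiplicities (a_0, …, a_(r−1)) summing to n with every a_j < n, and when r divides n there are r − 1 further classes (lifts acting irreducibly on blocks of size r); in all (C(n+r−1, r−1) − r − [r ∣ n])/r + r·[r ∣ n] classes. -/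
theorem result {F : Type*} [Field F] [Fintype F] {q : ℕ} (hF : Fintype.card F = q) {n r : ℕ} (hn : 2 ≤ n) (hr : r.Prime) (hrq : r ∣ q - 1) : Nat.card {C : ConjClasses (GL (Fin n) F ⧸ Subgroup.center (GL (Fin n) F)) // ∃ g : GL (Fin n) F ⧸ Subgroup.center (GL (Fin n) F), ConjClasses.mk g = C ∧ orderOf g = r} = (Nat.choose (n + r - 1) (r - 1) - r - (if r ∣ n then 1 else 0)) / r + r * (if r ∣ n then 1 else 0) := by
  have : Nonempty (Fin n) := ⟨⟨0, by omega⟩⟩
  have h := card_classes_proj (Units.coeHom (Matrix (Fin n) (Fin n) F)) Units.val_injective ⊤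
    ((GeneralLinearGroup.scalar (Fin n)).comp (Subgroup.subtype _))
    (fun μ => by simp [Matrix.smul_one_eq_diagonal])
    (fun g => by
      rw [show Subgroup.center (Matrix (Fin n) (Fin n) F)ˣ = _ from
        GeneralLinearGroup.center_eq_range_scalar]
      exact ⟨fun ⟨μ, h⟩ => ⟨⟨μ, trivial⟩, h⟩, fun ⟨μ, h⟩ => ⟨μ.1, h⟩⟩)
    (fun g g' => (isConj_units_iff g g').2) hr
    (by rwa [Subgroup.card_top, Nat.card_units, Nat.card_eq_fintype_card, hF])
    (fun μ b hb => ⟨⟨Units.mk0 b fun h => μ.1.ne_zero (by rw [← hb, h, zero_pow hr.ne_zero]),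
      trivial⟩, rfl⟩)
    (fun t ht h h' => exists_GL_edM_eq ht h' fun x hx h0 => by
      obtain ⟨k, hk, μ, h1⟩ := h x hx
      simpa [h1, coeff_X_pow, hk.ne] using congrArg (coeff · 0) h0)
  rw [Fintype.card_fin] at h
  exact proj_count_eq hr hn h

end Cfsg.Agent.S2670
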