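import Cfsg.Statements.S2578
import Cfsg.Agent.Lib.MatConj.RegUnip

set_option autoImplicit false
open Cfsg

namespace Cfsg.Agent.S2578

open CfsgLib.MatConj Matrix

/-- Regular unipotent classes of SL_n(q): for n ≥ 2 over the field with q elements, the matrices u of determinant one with (u − 1)^n = 0 and rank(u − 1) = n − 1 form a single GL_n(q)-class which splits into exactly gcd(n, q − 1) conjugacy classes of SL_n(q). -/
theorem result {F : Type*} [Field F] [Fintype F] {q : ℕ} (hF : Fintype.card F = q) {n : ℕ} (hn : 2 ≤ n) : Nat.card {C : ConjClasses (Matrix.SpecialLinearGroup (Fin n) F) // ∃ u : Matrix.SpecialLinearGroup (Fin n) F, ConjClasses.mk u = C ∧ ((u : Matrix (Fin n) (Fin n) F) - 1) ^ n = 0 ∧ ((u : Matrix (Fin n) (Fin n) F) - 1).rank = n - 1} = Nat.gcd n (q - 1) := by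
  obtain ⟨A, hA, hjt⟩ := exists_jt_eq (F := F) (n := Fin n) (s := {n})
    (fun e he => by rw [Multiset.mem_singleton.1 he]; omega) (by simp)
  have hr : (A - 1).rank + 1 = Fintype.card (Fin n) := by
    have := card_jt_add_rank hA
    rw [hjt, Multiset.card_singleton] at this
    omega
  let x : SpecialLinearGroup (Fin n) F := ⟨A, det_eq_one_of_isNilpotent_sub_one hA⟩
  have h := card_classes_split (SpecialLinearGroup.toGL (n := Fin n) (R := F))
    SpecialLinearGroup.toGL_injective GeneralLinearGroup.det
    (have : Nonempty (Fin n) := ⟨⟨0, by omega⟩⟩; GeneralLinearGroup.det_surjective)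
    (fun g => ⟨fun hg => ⟨⟨g, by simpa using congrArg Units.val hg⟩, Units.ext rfl⟩,
      by rintro ⟨h, rfl⟩; simp⟩) x
  have h2 : (Subgroup.centralizer {SpecialLinearGroup.toGL x}).map GeneralLinearGroup.det =
      (powMonoidHom n : Fˣ →* Fˣ).range := by
    ext d
    constructor
    · rintro ⟨c, hc, rfl⟩
      have hc' : Commute (c : Matrix (Fin n) (Fin n) F) A :=
        congrArg Units.val (Subgroup.mem_centralizer_singleton_iff.1 hc)
      obtain ⟨a, ha⟩ := reg_det_commute hA hr hc'
      rw [Fintype.card_fin] at ha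
      have ha0 : a ≠ 0 := by
        rintro rfl
        rw [zero_pow (by omega)] at ha
        exact ((isUnit_iff_isUnit_det _).1 c.isUnit).ne_zero ha
      exact ⟨Units.mk0 a ha0, Units.ext (by simp [ha])⟩
    · rintro ⟨a, rfl⟩
      refine ⟨GeneralLinearGroup.scalar (Fin n) a, ?_, Units.ext (by simp)⟩
      rw [SetLike.mem_coe, Subgroup.mem_centralizer_singleton_iff]
      exact GeneralLinearGroup.scalar_commute _ _
  rw [h2, IsCyclic.index_powMonoidHom_range, Nat.card_units, Nat.card_eq_fintype_card (α := F), hF,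
    Nat.gcd_comm] at h
  rw [← h]
  refine Nat.card_congr (Equiv.subtypeEquivRight fun C => exists_congr fun u =>
    and_congr_right fun _ => ?_)
  rw [isConj_units_iff]
  change _ ↔ IsConj A (u : Matrix (Fin n) (Fin n) F)
  constructor
  · rintro ⟨h3, h4⟩
    rw [isConj_iff_jt hA ⟨n, h3⟩, hjt, jt_eq_singleton_of_rank ⟨n, h3⟩
      (by rw [h4, Fintype.card_fin]; omega), Fintype.card_fin]
  · intro h3
    have h4 := isNilpotent_sub_one_of_isConj h3 hA
    have h5 := rank_sub_one_pow_eq_of_isConj h3 1
    rw [pow_one, pow_one] at h5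
    rw [h5] at hr
    refine ⟨by simpa using reg_pow_card h4 hr, ?_⟩
    rw [Fintype.card_fin] at hr
    omega

end Cfsg.Agent.S2578
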