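import Cfsg.Statements.S2582
import Cfsg.Agent.Lib.MatConj.FormUnip

set_option autoImplicit false
open Cfsg

namespace Cfsg.Agent.S2582

open CfsgLib.MatConj CfsgLib.Forms

/-- Which unipotent Jordan types occur in the finite symplectic group: over a finite field, a unipotent matrix with Jordan block sizes d_1, …, d_t (sum 2m, all at least 1) is similar to an element of Sp_2m(F) if and only if every odd block size occurs an even number of times. -/
theorem result {F : Type*} [Field F] [Fintype F] {m t : ℕ} (d : Fin t → ℕ) (hd : ∀ k, 1 ≤ d k) (hsum : ∑ k, d k = 2 * m) : (∃ e : ((k : Fin t) × Fin (d k)) ≃ (Fin m ⊕ Fin m), ∃ A : Matrix.symplecticGroup (Fin m) F, IsConj (Matrix.reindex e e (Cfsg.jordanTypeMatrix d F)) (A : Matrix (Fin m ⊕ Fin m) (Fin m ⊕ Fin m) F)) ↔ ∀ j : ℕ, Odd j → Even (Finset.univ.filter (fun k : Fin t => d k = j)).card := by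
  simp only [isConj_reindex_jordan_iff hd, ← count_map_univ]
  constructor
  · rintro ⟨-, A, hA⟩ j hj
    obtain ⟨h1, h2⟩ := jt_eq_of_edM_eq hA
    rw [← h2]
    exact even_count_jt_of_alt (spB_nondegenerate _ _) (spB_isAlt _ _) ((mem_sp_iff _).1 A.2) h1 hj
  · intro h
    refine ⟨Fintype.equivOfCardEq (by simp [hsum, two_mul]), ?_⟩
    refine (altReal_pm (Or.inl rfl) (fun e he => ?_) h).exists_sp ?_
    · obtain ⟨k, -, rfl⟩ := Multiset.mem_map.1 he
      exact hd k
    · rw [Multiset.map_map, Multiset.map_map, ← hsum]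
      simp [natDegree_X_sub_one, List.sum_ofFn]

end Cfsg.Agent.S2582
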