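import Cfsg.Statements.S2584
import Cfsg.Agent.Lib.MatConj.FormUnip

set_option autoImplicit false
open Cfsg

namespace Cfsg.Agent.S2584

open CfsgLib.MatConj CfsgLib.Forms

/-- Which unipotent Jordan types occur in a finite orthogonal group in characteristic two: over a finite field of characteristic 2 and in even dimension 2m, a unipotent matrix with Jordan block sizes d_1, …, d_t (sum 2m, all at least 1) is similar to an isometry of some quadratic form on F^(2m) with non-degenerate polar form if and only if every odd block size occurs an even number of times (the same condition as for the symplectic group, which contains these orthogonal groups). -/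
theorem result {F : Type*} [Field F] [Fintype F] [CharP F 2] {m t : ℕ} (d : Fin t → ℕ) (hd : ∀ k, 1 ≤ d k) (hsum : ∑ k, d k = 2 * m) : (∃ Q : QuadraticForm F (Fin (2 * m) → F), (QuadraticMap.polarBilin Q).Nondegenerate ∧ ∃ e : ((k : Fin t) × Fin (d k)) ≃ Fin (2 * m), ∃ A : ↥(Cfsg.isometryGroup F ⇑Q), IsConj (Matrix.reindex e e (Cfsg.jordanTypeMatrix d F)) ((A : Matrix.GeneralLinearGroup (Fin (2 * m)) F) : Matrix (Fin (2 * m)) (Fin (2 * m)) F)) ↔ ∀ j : ℕ, Odd j → Even (Finset.univ.filter (fun k : Fin t => d k = j)).card := by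
  simp only [isConj_reindex_jordan_iff hd, ← count_map_univ]
  have hpos : ∀ e ∈ Finset.univ.val.map d, 0 < e := fun e he => by
    obtain ⟨k, -, rfl⟩ := Multiset.mem_map.1 he
    exact hd k
  constructor
  · rintro ⟨Q, hQ, -, A, hA⟩ j hj
    obtain ⟨h1, h2'⟩ := jt_eq_of_edM_eq hA
    rw [← h2']
    refine even_count_jt_of_alt hQ (fun x => ?_) (polar_of_isometry fun v => A.2 v v) h1 hj
    rw [QuadraticMap.polarBilin_apply_apply, QuadraticMap.polar_self, two_nsmul,
      CharTwo.add_self_eq_zero]
  · intro h
    obtain ⟨Q, A, h3, h4, h5⟩ :=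
      (altReal_pm (F := F) (Or.inl rfl) hpos h).quadReal.exists_quadraticForm (n := Fin (2 * m)) (by
        rw [Multiset.map_map, Multiset.map_map, Fintype.card_fin, ← hsum]
        simp [natDegree_X_sub_one, List.sum_ofFn])
    exact ⟨Q, h3, Fintype.equivOfCardEq (by simp [hsum]), ⟨A, fun v _ => h4 v⟩, h5⟩

end Cfsg.Agent.S2584
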