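import Cfsg.Statements.S2586
import Cfsg.Agent.Lib.MatConj.Mat

set_option autoImplicit false
open Cfsg

namespace Cfsg.Agent.S2586


/-- Over a finite field, every element of the symplectic group Sp_2m(F) is conjugate by an invertible matrix to its inverse. -/
theorem result {F : Type*} [Field F] [Finite F] {m : ℕ} (A : Matrix.symplecticGroup (Fin m) F) : IsConj (A : Matrix (Fin m ⊕ Fin m) (Fin m ⊕ Fin m) F) ((A⁻¹ : Matrix.symplecticGroup (Fin m) F) : Matrix (Fin m ⊕ Fin m) (Fin m ⊕ Fin m) F) := by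
  refine (CfsgLib.MatConj.isConj_transpose _).trans ?_
  rw [CfsgLib.MatConj.isConj_iff_exists_unit]
  refine ⟨Matrix.J (Fin m) F, Matrix.isUnit_det_J _ _, ?_⟩
  have h1 : (A : Matrix (Fin m ⊕ Fin m) (Fin m ⊕ Fin m) F) * Matrix.J (Fin m) F *
      (A : Matrix (Fin m ⊕ Fin m) (Fin m ⊕ Fin m) F).transpose = Matrix.J (Fin m) F :=
    SymplecticGroup.mem_iff.1 A.2
  have h2 : ((A⁻¹ : Matrix.symplecticGroup (Fin m) F) : Matrix (Fin m ⊕ Fin m) (Fin m ⊕ Fin m) F) *
      (A : Matrix (Fin m ⊕ Fin m) (Fin m ⊕ Fin m) F) = 1 := by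
    rw [← Submonoid.coe_mul, inv_mul_cancel, Submonoid.coe_one]
  conv_rhs => rw [← h1]
  rw [← Matrix.mul_assoc, ← Matrix.mul_assoc, h2, Matrix.one_mul]

end Cfsg.Agent.S2586
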