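import Cfsg.Statements.S2588
import Cfsg.Agent.Lib.MatConj.Unitary

set_option autoImplicit false
open Cfsg

namespace Cfsg.Agent.S2588

open CfsgLib.MatConj Matrix

/-- An invertible matrix A over the field with q² elements is conjugate in GL_n(q²) to an element of the general unitary group GU_n(q) (isometries of the Hermitian form Σ u_i v_i^q) if and only if A is similar to the inverse transpose of its entrywise q-th power (A ~ A^(−qT), the image of A under the map sending a matrix to the inverse transpose of its entrywise q-th power — inverse transpose composed with the field automorphism — whose fixed points form GU_n(q)). -/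
theorem result {K : Type*} [Field K] [Fintype K] {q n : ℕ} (hK : Fintype.card K = q ^ 2) (A : GL (Fin n) K) : (∃ B : ↥(Cfsg.GU n K q), IsConj A (B : GL (Fin n) K)) ↔ IsConj (A : Matrix (Fin n) (Fin n) K) (((A : Matrix (Fin n) (Fin n) K).map (fun x : K => x ^ q)).transpose)⁻¹ := by
  let := unitaryStar hK
  change _ ↔ IsConj (A : Matrix (Fin n) (Fin n) K) (star (A : Matrix (Fin n) (Fin n) K))⁻¹
  have h1 : (star (A : Matrix (Fin n) (Fin n) K))⁻¹ * star (A : Matrix (Fin n) (Fin n) K) = 1 :=
    nonsing_inv_mul _ ((isUnit_iff_isUnit_det _).1 A.isUnit.star)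
  constructor
  · rintro ⟨B, hB⟩
    rw [isConj_units_iff, isConj_iff_edM] at hB
    rw [isConj_iff_edM, edM_star_inv h1, hB,
      edM_tilde_of_unitary ((mem_GU_iff_star hK _).1 B.2)]
  · intro h
    obtain ⟨B, h2, h3⟩ := exists_unitary_isConj (CfsgLib.Unitary.exists_not_fixed hK) h1 h
    obtain ⟨g, rfl⟩ := exists_GU_eq hK h2
    exact ⟨g, (isConj_units_iff _ _).2 h3⟩

end Cfsg.Agent.S2588
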