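import Cfsg.Statements.S2590
import Cfsg.Agent.Lib.MatConj.FormStar

set_option autoImplicit false
open Cfsg

namespace Cfsg.Agent.S2590

open CfsgLib.MatConj

/-- Two semisimple elements of odd order of a finite orthogonal group (isometry group of a quadratic form on F^n with non-degenerate polar form, F finite of characteristic p; the elements have odd order prime to p) are conjugate in the orthogonal group if and only if they are conjugate in GL_n(F). -/
theorem result {F : Type*} [Field F] [Fintype F] {p : ℕ} [Fact p.Prime] [CharP F p] {n : ℕ} (Q : QuadraticForm F (Fin n → F)) (hQ : (QuadraticMap.polarBilin Q).Nondegenerate) (A B : ↥(Cfsg.isometryGroup F ⇑Q)) (hodd : Odd (orderOf A)) (hA : (orderOf A).Coprime p) : IsConj A B ↔ IsConj ((A : Matrix.GeneralLinearGroup (Fin n) F) : Matrix (Fin n) (Fin n) F) ((B : Matrix.GeneralLinearGroup (Fin n) F) : Matrix (Fin n) (Fin n) F) := by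
  refine ⟨fun h => ((Units.coeHom _).comp (Cfsg.isometryGroup F ⇑Q).subtype).map_isConj h,
    fun h => ?_⟩
  obtain ⟨g, ⟨g, rfl⟩, h1, h2⟩ := quad_conj_of_pow_eq_one hQ (fun v => A.2 v v) (fun v => B.2 v v) h
    (natCast_ne_zero_of_coprime hA) hodd
    (by rw [← map_pow, ← SubmonoidClass.coe_pow, pow_orderOf_eq_one]; rfl)
  exact isConj_iff.2 ⟨⟨g, fun v _ => h1 v⟩, mul_inv_eq_iff_eq_mul.2 (Subtype.ext (Units.ext h2))⟩

end Cfsg.Agent.S2590
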