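import Cfsg.Statements.S2591
import Cfsg.Agent.Lib.MatConj.WallUnip

set_option autoImplicit false
open Cfsg

namespace Cfsg.Agent.S2591

open CfsgLib.MatConj

/-- Over a finite field of odd order and for m ≥ 1, the regular unipotent elements of Sp_2m(F) (u − 1 nilpotent of rank 2m − 1, a single Jordan block) form exactly two conjugacy classes of Sp_2m(F) (one class under the similarity group, which splits in two). -/
theorem result {F : Type*} [Field F] [Fintype F] {q : ℕ} (hF : Fintype.card F = q) (hq : Odd q) {m : ℕ} (hm : 1 ≤ m) : Nat.card {C : ConjClasses ↥(Matrix.symplecticGroup (Fin m) F) // ∃ u : Matrix.symplecticGroup (Fin m) F, ConjClasses.mk u = C ∧ ((u : Matrix (Fin m ⊕ Fin m) (Fin m ⊕ Fin m) F) - 1) ^ (2 * m) = 0 ∧ ((u : Matrix (Fin m ⊕ Fin m) (Fin m ⊕ Fin m) F) - 1).rank = 2 * m - 1} = 2 := by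
  subst hF
  have hc : Fintype.card (Fin m ⊕ Fin m) = 2 * m := by simp [two_mul]
  have h := (isoGrp_sp (F := F) (Fin m)).card_unipotent (CfsgLib.Orth.two_ne_zero_of_odd_card hq)
    (s := {2 * m}) (by simp; omega) (by simp [two_mul]) fun j hj => by
      rw [Multiset.count_singleton, if_neg fun h : j = 2 * m => Nat.not_even_iff_odd.2 hj
        (h ▸ even_two_mul m)]
      exact Even.zero
  rw [Multiset.toFinset_singleton, Finset.filter_singleton, if_pos (even_two_mul m)] at h
  refine (Nat.card_congr (Equiv.subtypeEquivRight fun C => exists_congr fun u =>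
    and_congr_right fun _ => ⟨fun h => ⟨⟨_, h.1⟩, hc ▸ jt_eq_singleton_of_rank ⟨_, h.1⟩ (by
      rw [hc]; exact (congrArg (· + 1) h.2).trans (by omega))⟩, fun h => ⟨?_, ?_⟩⟩)).trans h
  · exact (sub_one_pow_eq_zero_iff h.1 _).2 fun e he => (Multiset.mem_singleton.1 (h.2 ▸ he)).le
  · have := card_jt_add_rank h.1
    rw [h.2, hc, Multiset.card_singleton] at this
    exact Nat.eq_sub_of_add_eq' this

end Cfsg.Agent.S2591
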