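import Cfsg.Statements.S2592
import Cfsg.Agent.Lib.MatConj.WallCong

set_option autoImplicit false
open Cfsg

namespace Cfsg.Agent.S2592

open CfsgLib.MatConj Matrix Polynomial

section
variable {F : Type*} [Field F] {n : Type*} [Fintype n] [DecidableEq n] [Nonempty n]
  [StarRing (Matrix n n F)] (hsm : ∀ (r : F) (x : Matrix n n F), star (r • x) = r • star x)
  (h2 : (2 : F) ≠ 0) {u : Matrix n n F} (hu : IsNilpotent (u - 1))
  (hr : (u - 1).rank + 1 = Fintype.card n) (hs : star u * u = 1)

omit [Nonempty n] [StarRing (Matrix n n F)] in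
include hu hr in
theorem exists_res {c : Matrix n n F} (hc : Commute c u) : ∃ r : F, IsNilpotent (c - r • 1) := by
  obtain ⟨p, rfl⟩ := reg_exists_aeval hu hr hc
  obtain ⟨g, hg⟩ := X_sub_C_dvd_sub_C_eval (a := (1 : F)) (p := p)
  refine ⟨p.eval 1, ?_⟩
  have : aeval u p - p.eval 1 • (1 : Matrix n n F) = (u - 1) * aeval u g := by
    have := congrArg (aeval u) hg
    simpa [Algebra.algebraMap_eq_smul_one] using this
  rw [this]
  exact Commute.isNilpotent_mul_right
    ((aeval_commute ((Commute.refl u).sub_left (Commute.one_left u)) g)) hu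

omit [Nonempty n] [StarRing (Matrix n n F)] in
theorem isUnit_add_smul {x : Matrix n n F} (hx : IsNilpotent x) {r : F} (hr : r ≠ 0) :
    IsUnit (x + r • 1) :=
  hx.isUnit_add_right_of_commute (by
    rw [← Algebra.algebraMap_eq_smul_one]; exact (IsUnit.mk0 r hr).map _)
    ((Commute.one_right x).smul_right r)

omit [Nonempty n] in
include hs in
theorem commute_star {c : Matrix n n F} (hc : Commute c u) : Commute (star c) u := by
  have h1 : u * star u = 1 := mul_eq_one_comm.1 hs
  have h3 : Commute (star c) (star u) := hc.symm.star_star.symm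
  have : star c * u = u * (star u * star c) * u := by rw [← mul_assoc, h1, one_mul]
  rw [Commute, SemiconjBy, this, ← h3.eq, mul_assoc, mul_assoc, hs, mul_one]

include hsm h2 hu hr hs in
theorem nil_of_skew {a : Matrix n n F} (ha : Commute a u) (h : star a = -a) : IsNilpotent a := by
  obtain ⟨r, hr⟩ := exists_res hu hr ha
  by_cases h0 : r = 0
  · simpa [h0] using hr
  have h1 : IsNilpotent (a + r • 1) := by
    have := IsNilpotent.neg (x := star (a - r • 1))
      (hr.imp fun k hk => by rw [← star_pow, hk, star_zero])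
    rwa [star_sub, hsm, star_one, h, neg_sub, sub_neg_eq_add, add_comm] at this
  have h3 := isUnit_add_smul hr (mul_ne_zero h2 h0)
  rw [show a - r • 1 + (2 * r) • (1 : Matrix n n F) = a + r • 1 by module] at h3
  exact absurd h3 h1.not_isUnit

include hsm h2 hu hr hs in
theorem nil_or {c : Matrix n n F} (hc : Commute c u) (h : star c * c = 1) :
    ¬ IsNilpotent (c - 1) ↔ IsNilpotent (-c - 1) := by
  refine ⟨fun h1 => ?_, fun h1 h3 => ?_⟩
  · obtain ⟨r, hr'⟩ := exists_res hu hr hc
    have h4 : IsUnit (c - 1) := by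
      have := isUnit_add_smul hr' (r := r - 1) (sub_ne_zero.2 fun h0 => h1 (by simpa [h0] using hr'))
      rwa [show c - r • 1 + (r - 1) • (1 : Matrix n n F) = c - 1 by module] at this
    have h5 := nil_of_skew hsm h2 hu hr hs ((commute_star hs hc).sub_left hc) (by simp)
    have h6 : c * star c = 1 := mul_eq_one_comm.1 h
    have h7 : Commute c (star c - c) := (show Commute c (star c) from h6.trans h.symm).sub_right rfl
    have h8 := h7.isNilpotent_mul_left h5
    obtain ⟨v, hv⟩ := h4
    have h9 : -c - 1 = v⁻¹.1 * (c * (star c - c)) := by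
      rw [mul_sub, h6, Units.eq_inv_mul_iff_mul_eq, hv]; noncomm_ring
    rw [h9]
    refine Commute.isNilpotent_mul_left (Commute.units_inv_left ?_) h8
    rw [hv, mul_sub, h6]
    exact ((Commute.one_right c).sub_right ((Commute.refl c).mul_right rfl)).sub_left
      (Commute.one_left _)
  · have := isUnit_add_smul h3 h2
    rw [show c - 1 + (2 : F) • (1 : Matrix n n F) = -(-c - 1) by module] at this
    exact h1.neg.not_isUnit this

/-- The Cayley transform. -/
noncomputable def cay (a : Matrix n n F) : Matrix n n F := (1 - a) * (1 + a)⁻¹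

omit [Nonempty n] [StarRing (Matrix n n F)] in
theorem cay_mul {a : Matrix n n F} (h : IsUnit (1 + a)) : cay a * (1 + a) = 1 - a :=
  nonsing_inv_mul_cancel_right _ _ ((isUnit_iff_isUnit_det _).1 h)

omit [Nonempty n] [StarRing (Matrix n n F)] in
theorem commute_cay {a x : Matrix n n F} (h : IsUnit (1 + a)) (hx : Commute a x) :
    Commute (cay a) x := by
  obtain ⟨v, hv⟩ := h
  rw [cay, ← hv, ← coe_units_inv]
  exact ((Commute.one_left x).sub_left hx).mul_left
    (Commute.units_inv_left (hv ▸ (Commute.one_left x).add_left hx))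

omit [Nonempty n] [StarRing (Matrix n n F)] in
include h2 in
theorem cay_cay {a : Matrix n n F} (h : IsUnit (1 + a)) :
    IsUnit (1 + cay a) ∧ cay (cay a) = a := by
  have h1 : (1 + cay a) * (1 + a) = (2 : F) • 1 := by rw [add_mul, cay_mul h, one_mul]; module
  have h3 : IsUnit (1 + cay a) := by
    have := isUnit_add_smul (n := n) IsNilpotent.zero h2
    rw [zero_add, ← h1] at this
    exact isUnit_of_mul_isUnit_left this
  refine ⟨h3, h3.mul_right_cancel ?_⟩
  rw [cay_mul h3, mul_add, ← (commute_cay h (Commute.refl a)).eq, eq_comm, ← sub_eq_zero]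
  have := cay_mul h
  rw [mul_add, mul_one] at this
  rw [mul_one, eq_sub_of_add_eq' this]; abel

include hsm h2 hu hr hs in
theorem card_eq_skew : Nat.card {c // (Commute c u ∧ star c * c = 1) ∧ IsNilpotent (c - 1)} =
    Nat.card {a // Commute a u ∧ star a = -a} := by
  have hU : ∀ c : Matrix n n F, IsNilpotent (c - 1) → IsUnit (1 + c) := fun c hc => by
    have := isUnit_add_smul hc h2
    rwa [show c - 1 + (2 : F) • (1 : Matrix n n F) = 1 + c by module] at this
  have hV : ∀ a, Commute a u → star a = -a → IsUnit (1 + a) := fun a h h' =>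
    (nil_of_skew hsm h2 hu hr hs h h').isUnit_one_add
  refine Nat.card_congr ⟨fun c => ⟨cay c.1, commute_cay (hU _ c.2.2) c.2.1.1, ?_⟩,
    fun a => ⟨cay a.1, ⟨commute_cay (hV _ a.2.1 a.2.2) a.2.1, ?_⟩, ?_⟩,
    fun c => Subtype.ext (cay_cay h2 (hU _ c.2.2)).2,
    fun a => Subtype.ext (cay_cay h2 (hV _ a.2.1 a.2.2)).2⟩
  · obtain ⟨c, ⟨-, h⟩, hc⟩ := c
    have h1 := congrArg (fun x => c * star x) (cay_mul (hU c hc))
    have h6 : c * star c = 1 := mul_eq_one_comm.1 h
    simp only [star_mul, star_add, star_sub, star_one, ← mul_assoc, mul_add, mul_sub, h6] at h1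
    refine (hU c hc).mul_left_cancel ?_
    rw [mul_neg, ← (commute_cay (hU c hc) ((Commute.one_right c).add_right rfl)).eq,
      cay_mul (hU c hc), neg_sub, add_comm, add_mul]
    simpa using h1
  · obtain ⟨a, ha, h⟩ := a
    have h0 := hV a ha h
    have h1 := congrArg star (cay_mul h0)
    have h3 : IsUnit (1 - a) := (nil_of_skew hsm h2 hu hr hs ha h).isUnit_one_sub
    rw [star_mul, star_add, star_sub, star_one, h, sub_neg_eq_add, ← sub_eq_add_neg] at h1
    refine h3.mul_left_cancel ?_
    rw [← mul_assoc, h1, ← (commute_cay h0 ((Commute.one_right a).add_right rfl)).eq, cay_mul h0,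
      mul_one]
  · obtain ⟨a, ha, h⟩ := a
    have h0 := hV a ha h
    have h1 := cay_mul h0
    rw [mul_add, mul_one] at h1
    rw [show cay a - 1 = -((1 + cay a) * a) by rw [add_mul, eq_sub_of_add_eq' h1, one_mul]; abel]
    exact (Commute.isNilpotent_mul_left ((Commute.one_left a).add_left
      (commute_cay h0 (Commute.refl a))) (nil_of_skew hsm h2 hu hr hs ha h)).neg

include hsm h2 hu hr hs in
theorem card_skew [Finite F] {m : ℕ} (hn : Fintype.card n = 2 * m) :
    Nat.card {a // Commute a u ∧ star a = -a} = Nat.card F ^ m := by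
  set s := u - star u with hs0
  have h6 : u * star u = 1 := mul_eq_one_comm.1 hs
  have hsu : Commute s u := (Commute.refl u).sub_left (commute_star hs (Commute.refl u))
  have hss : star s = -s := by simp [hs0]
  have hsn := nil_of_skew hsm h2 hu hr hs hsu hss
  have hsr : (1 + s - 1).rank + 1 = Fintype.card n := by
    have h1 : IsUnit (star u * (u - 1 + (2 : F) • 1)) :=
      (IsUnit.of_mul_eq_one _ hs).mul (isUnit_add_smul hu h2)
    rw [add_sub_cancel_left, ← hr, ← rank_mul_eq_right_of_isUnit_det _ (u - 1)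
      ((isUnit_iff_isUnit_det _).1 h1), mul_assoc,
      show (u - 1 + (2 : F) • 1) * (u - 1) = u * u - 1 by rw [two_smul]; noncomm_ring, mul_sub,
      ← mul_assoc, hs, one_mul, mul_one]
  have hsn' : IsNilpotent (1 + s - 1) := by rwa [add_sub_cancel_left]
  have h0 : s ^ (2 * m) = 0 := by simpa [hn] using reg_pow_card hsn' hsr
  have hmin : (minpoly F s).natDegree = 2 * m := by
    obtain ⟨k, hk, h⟩ := (dvd_prime_pow (prime_X (R := F)) (2 * m)).1
      (minpoly.dvd F s (p := X ^ (2 * m)) (by simpa using h0))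
    rw [eq_of_monic_of_associated (minpoly.monic (Algebra.IsIntegral.isIntegral s))
      (monic_X_pow k) h, natDegree_X_pow]
    have h1 : s ^ k = 0 := by
      have := minpoly.aeval F s
      rwa [eq_of_monic_of_associated (minpoly.monic (Algebra.IsIntegral.isIntegral s))
        (monic_X_pow k) h, map_pow, aeval_X] at this
    have := reg_rank_pow hsn' hsr k
    rw [add_sub_cancel_left, h1, rank_zero] at this
    omega
  have hli : LinearIndependent F fun i : Fin m => s ^ (2 * i.1 + 1) :=
    (linearIndependent_pow (K := F) s).comp (fun i : Fin m => ⟨2 * i.1 + 1, by omega⟩)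
      fun i j h => Fin.ext (by simpa using h)
  rw [← Fintype.card_fin m, ← finrank_span_eq_card hli, ← Module.natCard_eq_pow_finrank]
  refine Nat.card_congr (Equiv.subtypeEquivRight fun a => ⟨fun ⟨ha, h⟩ => ?_, fun h => ?_⟩)
  · obtain ⟨p, hp⟩ := reg_exists_aeval hsn' hsr
      ((Commute.one_right a).add_right (ha.sub_right (by
        have := commute_star hs ha
        rw [h] at this
        simpa [h] using this.star_star)))
    rw [← show aeval s (p.comp (1 + X)) = aeval (1 + s) p by simp [aeval_comp],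
      aeval_eq_sum_range] at hp
    have h1 : a = (2 : F)⁻¹ • (a - star a) := by
      rw [h, sub_neg_eq_add, ← two_smul F, smul_smul, inv_mul_cancel₀ h2, one_smul]
    rw [h1, ← hp, star_sum, ← Finset.sum_sub_distrib]
    refine Submodule.smul_mem _ _ (Submodule.sum_mem _ fun i _ => ?_)
    rw [hsm, star_pow, hss, ← smul_sub]
    refine Submodule.smul_mem _ _ ?_
    obtain ⟨j, rfl | rfl⟩ := Nat.even_or_odd' i
    · simp
    · rw [Odd.neg_pow ⟨j, rfl⟩, sub_neg_eq_add, ← two_smul F]
      refine Submodule.smul_mem _ _ ?_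
      by_cases hj : j < m
      · exact Submodule.subset_span ⟨⟨j, hj⟩, rfl⟩
      · rw [pow_eq_zero_of_le (by omega) h0]; exact zero_mem _
  · induction h using Submodule.span_induction with
    | mem x h =>
      obtain ⟨i, rfl⟩ := h
      exact ⟨hsu.pow_left _, by rw [star_pow, hss, Odd.neg_pow ⟨i, rfl⟩]⟩
    | zero => simp
    | add x y _ _ hx hy => exact ⟨hx.1.add_left hy.1, by rw [star_add, hx.2, hy.2, neg_add]⟩
    | smul r x _ hx => exact ⟨hx.1.smul_left r, by rw [hsm, hx.2, smul_neg]⟩

include hsm h2 hu hr hs in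
theorem card_unitary [Finite F] {m : ℕ} (hn : Fintype.card n = 2 * m) :
    Nat.card {c // Commute c u ∧ star c * c = 1} = 2 * Nat.card F ^ m := by
  classical
  rw [← card_skew hsm h2 hu hr hs hn, ← card_eq_skew hsm h2 hu hr hs, two_mul, ← Nat.card_sum]
  refine Nat.card_congr ((Equiv.sumCompl fun c : {c // Commute c u ∧ star c * c = 1} =>
    IsNilpotent (c.1 - 1)).symm.trans (Equiv.sumCongr
      (Equiv.subtypeSubtypeEquivSubtypeInter _ fun c => IsNilpotent (c - 1))
      ((Equiv.subtypeSubtypeEquivSubtypeInter _ fun c => ¬ IsNilpotent (c - 1)).trans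
      ((Equiv.neg _).subtypeEquiv fun c => ?_))))
  simp only [Equiv.neg_apply, Commute.neg_left_iff, star_neg, neg_mul_neg]
  exact and_congr_right fun h => nil_or hsm h2 hu hr hs h.1 h.2

end

/-- Over a finite field with q elements, q odd, the centraliser in Sp_2m(F) (m ≥ 1) of a regular unipotent element (u − 1 nilpotent of rank 2m − 1) has order 2 q^m. -/
theorem result {F : Type*} [Field F] [Fintype F] {q : ℕ} (hF : Fintype.card F = q) (hq : Odd q) {m : ℕ} (hm : 1 ≤ m) (u : Matrix.symplecticGroup (Fin m) F) (hnil : ((u : Matrix (Fin m ⊕ Fin m) (Fin m ⊕ Fin m) F) - 1) ^ (2 * m) = 0) (hreg : ((u : Matrix (Fin m ⊕ Fin m) (Fin m ⊕ Fin m) F) - 1).rank = 2 * m - 1) : Nat.card ↥(Subgroup.centralizer ({u} : Set ↥(Matrix.symplecticGroup (Fin m) F))) = 2 * q ^ m := by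
  subst hF
  have h2 : (2 : F) ≠ 0 := Ring.two_ne_zero fun h => by
    have := FiniteField.even_card_of_char_two h
    obtain ⟨k, hk⟩ := hq
    omega
  have hJ := (isUnit_det_J (Fin m) F).ne_zero
  obtain ⟨_, hst⟩ := exists_gram_star hJ (c := -1) (by simp)
  have hJu : IsUnit (J (Fin m) F) := (isUnit_iff_isUnit_det _).2 (isUnit_det_J _ _)
  have hmem : ∀ c, c ∈ symplecticGroup (Fin m) F ↔ star c * c = 1 := fun c => by
    rw [SymplecticGroup.mem_iff', hst, mul_assoc, hJu.mul_eq_left]
  have : Nonempty (Fin m) := ⟨⟨0, hm⟩⟩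
  have hc : Fintype.card (Fin m ⊕ Fin m) = 2 * m := by simp [two_mul]
  rw [← Nat.card_eq_fintype_card, ← card_unitary (fun r x => hJu.mul_left_cancel (by
    rw [← hst, transpose_smul, smul_mul_assoc, hst, mul_smul_comm])) h2 ⟨_, hnil⟩
    (by rw [hreg, hc]; omega) ((hmem _).1 u.2) hc]
  exact Nat.card_congr ⟨fun c => ⟨c.1.1, (congrArg Subtype.val
    (Subgroup.mem_centralizer_singleton_iff.1 c.2) :), (hmem _).1 c.1.2⟩,
    fun c => ⟨⟨c.1, (hmem _).2 c.2.2⟩, Subgroup.mem_centralizer_singleton_iff.2
      (Subtype.ext c.2.1)⟩, fun _ => rfl, fun _ => rfl⟩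

end Cfsg.Agent.S2592
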