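import Mathlib
import Cfsg.Statements.S2594
import Cfsg.Agent.Lib.Inv2.Sp
-- import your own Cfsg.Agent.* helpers here

set_option autoImplicit false
open Cfsg

namespace Cfsg.Agent.S2594

/-- Over a finite field with q elements, q even, an element t of Sp_2m(F) with rank(t − 1) = 1 (a symplectic transvection) has centraliser in Sp_2m(F) of order q^(2m−1) · |Sp_(2m−2)(q)| = q^(2m−1) · q^((m−1)²) · Π_(i=1)^(m−1) (q^(2i) − 1). -/
theorem result {F : Type*} [Field F] [Fintype F] [CharP F 2] {q : ℕ} (hF : Fintype.card F = q) {m : ℕ} (hm : 1 ≤ m) (t : Matrix.symplecticGroup (Fin m) F) (ht : ((t : Matrix (Fin m ⊕ Fin m) (Fin m ⊕ Fin m) F) - 1).rank = 1) : Nat.card ↥(Subgroup.centralizer ({t} : Set ↥(Matrix.symplecticGroup (Fin m) F))) = q ^ (2 * m - 1) * (q ^ ((m - 1) ^ 2) * ∏ i : Fin (m - 1), (q ^ (2 * ((i : ℕ) + 1)) - 1)) := by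
  open CfsgLib.Inv2 CfsgLib.Forms in
  have h2 := sp_sq_of_rank_one ht
  obtain ⟨j, rfl⟩ : ∃ j, m = 1 + j := ⟨m - 1, by omega⟩
  rw [sp_card_centralizer h2 ht rfl, card_formIsom_wall_odd (spPQ_nondeg _ _)
    (spEquiv (Fin (1 + j)) F t).2 (congrArg Subtype.val (sp_mul_self h2)) (k := 0)
    ((sp_finrank_mov t).trans ht), ← spOrd_eq, Nat.card_eq_fintype_card, hF,
    show 2 * (1 + j) - 1 = 1 * (2 * j) + Nat.choose 1 2 + 1 by simp; omega, Nat.add_sub_cancel_left]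
  simp [spOrd]

end Cfsg.Agent.S2594
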