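import Mathlib
import Cfsg.Statements.S2596
import Cfsg.Agent.Lib.Inv2.OrthMat
-- import your own Cfsg.Agent.* helpers here

set_option autoImplicit false
open Cfsg

namespace Cfsg.Agent.S2596

/-- Number of conjugacy classes of involutions in the full orthogonal group O⁻_2m(F) of an elliptic quadratic form (Σ_(i<m−1) x_i y_i plus an anisotropic binary form) over a finite field of characteristic two (m ≥ 1): one class for each odd s ≤ m, two for each even s with 2 ≤ s < m and one for s = m when m is even, where s = rank(t − 1); in all m + ⌊(m − 1)/2⌋. -/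
theorem result {F : Type*} [Field F] [Fintype F] [CharP F 2] {m : ℕ} (hm : 1 ≤ m) (a b : F) (hab : ∀ z₁ z₂ : F, z₁ ^ 2 + a * z₁ * z₂ + b * z₂ ^ 2 = 0 → z₁ = 0 ∧ z₂ = 0) : Nat.card {C : ConjClasses ↥(Cfsg.isometryGroup F (Cfsg.quadFormMinus (m - 1) F a b)) // ∃ g : ↥(Cfsg.isometryGroup F (Cfsg.quadFormMinus (m - 1) F a b)), ConjClasses.mk g = C ∧ orderOf g = 2} = m + (m - 1) / 2 := by
  open CfsgLib.Inv2 CfsgLib.Forms CfsgLib.Orth in
  obtain ⟨M, h1, h2⟩ := exists_ts_minus (m - 1) a b
  exact (card_classes_congr (toOG (qMinus (m - 1) a b)) 2).trans (card_classes_OG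
    (qMinus_nondegenerate _ hab) (by rw [finrank_minus]; omega) (finrank_le_minus hab) h1 h2
    (by omega))

end Cfsg.Agent.S2596
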