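import Mathlib
import Cfsg.Statements.S2597
import Cfsg.Agent.Lib.Inv2.OrthMat
-- import your own Cfsg.Agent.* helpers here

set_option autoImplicit false
open Cfsg

namespace Cfsg.Agent.S2597

/-- Number of conjugacy classes of involutions in Ω⁺_2m(F) (the commutator subgroup of the orthogonal group of Σ x_i y_i) over a finite field F of characteristic two, m ≥ 1, excluding the case m = 2 over the field of two elements: the involutions of Ω are those with s = rank(t − 1) even, giving two O-classes for each even s with 2 ≤ s ≤ m, each of which is a single Ω-class except that for m even the class with s = m and v ↦ f(v, tv) identically zero splits in two; in all 2⌊m/2⌋ + 1 classes if m is even and 2⌊m/2⌋ if m is odd. -/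
theorem result {F : Type*} [Field F] [Fintype F] [CharP F 2] {m : ℕ} (hm : 1 ≤ m) (h : Fintype.card F ≠ 2 ∨ m ≠ 2) : Nat.card {C : ConjClasses ↥(Cfsg.Omega F (Cfsg.quadFormPlus m F)) // ∃ g : ↥(Cfsg.Omega F (Cfsg.quadFormPlus m F)), ConjClasses.mk g = C ∧ orderOf g = 2} = 2 * (m / 2) + (if Even m then 1 else 0) := by
  open CfsgLib.Inv2 CfsgLib.Forms CfsgLib.Orth in
  have hQ := qPlus_nondegenerate (F := F) m
  obtain ⟨M, h1, h2⟩ := exists_ts_plus (F := F) m
  refine (card_classes_congr (CfsgLib.OrthE.commutatorCongr (toOG (qPlus m F))) 2).trans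
    ((card_classes_commutator hQ (reflSubgroup_eq_top hQ (h24_plus h)) (finrank_plus m) hm
      finrank_le_plus h1 h2 (by omega)
      fun t g => mem_commutator_of_commute hQ (h24_plus h)).trans ?_)
  rw [two_mul (m / 2)]
  congr 1
  split_ifs with he
  · obtain ⟨r, hr⟩ := he
    exact Nat.card_eq_one_iff_exists.2 ⟨⟨⟨r - 1, by omega⟩, by simp only; omega⟩,
      fun i => Subtype.ext (Fin.ext (by have := i.2; simp only; omega))⟩
  · exact Nat.card_eq_zero.2 (Or.inl ⟨fun i => he ⟨i.1 + 1, by have := i.2; omega⟩⟩)

end Cfsg.Agent.S2597
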