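import Mathlib
import Cfsg.Statements.S2598
import Cfsg.Agent.Lib.Inv2.OrthMat
-- import your own Cfsg.Agent.* helpers here

set_option autoImplicit false
open Cfsg

namespace Cfsg.Agent.S2598

/-- Number of conjugacy classes of involutions in Ω⁻_2m(F) (the commutator subgroup of the orthogonal group of an elliptic quadratic form, Σ_(i<m−1) x_i y_i plus an anisotropic binary form) over a finite field F of characteristic two, m ≥ 1: the involutions of Ω are those with s = rank(t − 1) even, one O-class for each even s with 2 ≤ s ≤ m on which v ↦ f(v, tv) is not identically zero and one for each even s with 2 ≤ s < m on which it is zero (f the polar form; in characteristic 2, f(v, tv) = Q(v + tv)), none of which splits in Ω; in all ⌊m/2⌋ + ⌊(m − 1)/2⌋. -/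
theorem result {F : Type*} [Field F] [Fintype F] [CharP F 2] {m : ℕ} (hm : 1 ≤ m) (a b : F) (hab : ∀ z₁ z₂ : F, z₁ ^ 2 + a * z₁ * z₂ + b * z₂ ^ 2 = 0 → z₁ = 0 ∧ z₂ = 0) : Nat.card {C : ConjClasses ↥(Cfsg.Omega F (Cfsg.quadFormMinus (m - 1) F a b)) // ∃ g : ↥(Cfsg.Omega F (Cfsg.quadFormMinus (m - 1) F a b)), ConjClasses.mk g = C ∧ orderOf g = 2} = m / 2 + (m - 1) / 2 := by
  open CfsgLib.Inv2 CfsgLib.Forms CfsgLib.Orth in
  obtain ⟨M, h1, h2⟩ := exists_ts_minus (m - 1) a b
  refine (card_classes_congr (CfsgLib.OrthE.commutatorCongr (toOG (qMinus (m - 1) a b))) 2).trans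
    ((card_classes_commutator (m := m) (qMinus_nondegenerate _ hab) (reflSubgroup_minus _ hab)
      (by rw [finrank_minus]; omega) hm (finrank_le_minus hab) h1 h2 (by omega)
      fun t g h3 h4 => ?_).trans ?_)
  · have h5 := finrank_le_minus hab _ ((typeA_quad _).1 h3)
    rw [finrank_minus] at h4
    omega
  · rw [Nat.card_eq_zero.2 (Or.inl ⟨fun i => by have := i.2; have := i.1.2; omega⟩), add_zero]

end Cfsg.Agent.S2598
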