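import Cfsg.Statements.S2599
import Cfsg.Agent.Lib.Orth.Lagrangian

set_option autoImplicit false
open Cfsg

namespace Cfsg.Agent.S2599

open CfsgLib.Orth QuadraticMap Module

/-- An irreducible invariant subspace of a semisimple isometry is non-degenerate or totally singular: let Q be a quadratic form on F^n (F finite of characteristic p) with non-degenerate polar form f, x an isometry of Q of order prime to p, and U a non-zero x-invariant subspace containing no x-invariant subspace other than 0 and U. Then U meets its f-orthogonal trivially, or Q vanishes on U, or p = 2, U is a line spanned by a non-singular vector and x fixes U pointwise. -/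
theorem result {F : Type*} [Field F] [Fintype F] {p : ℕ} [Fact p.Prime] [CharP F p] {n : ℕ} (Q : QuadraticForm F (Fin n → F)) (hQ : (QuadraticMap.polarBilin Q).Nondegenerate) (x : ↥(Cfsg.isometryGroup F ⇑Q)) (hx : (orderOf x).Coprime p) (U : Submodule F (Fin n → F)) (hU0 : U ≠ ⊥) (hUx : ∀ u ∈ U, ((x : Matrix.GeneralLinearGroup (Fin n) F) : Matrix (Fin n) (Fin n) F).mulVec u ∈ U) (hirr : ∀ W : Submodule F (Fin n → F), W ≤ U → (∀ w ∈ W, ((x : Matrix.GeneralLinearGroup (Fin n) F) : Matrix (Fin n) (Fin n) F).mulVec w ∈ W) → W = ⊥ ∨ W = U) : U ⊓ LinearMap.BilinForm.orthogonal (QuadraticMap.polarBilin Q) U = ⊥ ∨ (∀ u ∈ U, Q u = 0) ∨ (p = 2 ∧ Module.finrank F U = 1 ∧ (∃ u ∈ U, Q u ≠ 0) ∧ ∀ u ∈ U, ((x : Matrix.GeneralLinearGroup (Fin n) F) : Matrix (Fin n) (Fin n) F).mulVec u = u) := by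
  have hxU : ∀ u ∈ U, (toOG Q x).1 u ∈ U := hUx
  have hact := act_eq_of_le hxU
  rcases hirr (U ⊓ LinearMap.BilinForm.orthogonal (polarBilin Q) U) inf_le_left (by
      rintro w ⟨hw, hw'⟩
      refine ⟨hxU w hw, mem_orth_iff.2 fun u hu => ?_⟩
      rw [← hact] at hu
      obtain ⟨u, hu', rfl⟩ := mem_act.1 hu
      exact (OG.map_polar (toOG Q x) u w).trans (hw' u hu')) with h | h
  · exact Or.inl h
  right
  have hpol : ∀ u ∈ U, ∀ w ∈ U, polar Q u w = 0 := fun u hu w hw => (inf_eq_left.1 h hw) u hu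
  let U₀ : Submodule F (Fin n → F) :=
    { carrier := {u | u ∈ U ∧ Q u = 0}
      add_mem' := fun {a b} ha hb => ⟨add_mem ha.1 hb.1, by
        rw [Q_add, ha.2, hb.2, hpol a ha.1 b hb.1]; simp⟩
      zero_mem' := ⟨U.zero_mem, map_zero Q⟩
      smul_mem' := fun c a ha => ⟨U.smul_mem c ha.1, by rw [Q_smul, ha.2, mul_zero]⟩ }
  rcases hirr U₀ (fun u hu => hu.1)
    (fun w hw => ⟨hxU w hw.1, (OG.map_Q (toOG Q x) w).trans hw.2⟩) with h0 | h0
  · right
    have hani : ∀ u ∈ U, Q u = 0 → u = 0 := fun u hu hq => by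
      have : u ∈ U₀ := ⟨hu, hq⟩
      rwa [h0] at this
    obtain ⟨u, hu, hu0⟩ := Submodule.exists_mem_ne_zero_of_ne_bot hU0
    have hqu : Q u ≠ 0 := fun h => hu0 (hani u hu h)
    have h2 : (2 : F) = 0 := by
      have := hpol u hu u hu
      rw [polar_self'] at this
      exact (mul_eq_zero.1 this).resolve_right hqu
    have hp : p = 2 := by
      have := (CharP.cast_eq_zero_iff F p 2).1 (by exact_mod_cast h2)
      exact (Nat.prime_dvd_prime_iff_eq Fact.out Nat.prime_two).1 this
    have heq : ∀ a ∈ U, ∀ b ∈ U, Q a = Q b → a = b := fun a ha b hb hab => by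
      rw [← sub_eq_zero]
      refine hani _ (sub_mem ha hb) ?_
      rw [Q_sub, hpol a ha b hb, hab]
      linear_combination Q b * h2
    refine ⟨hp, ?_, ⟨u, hu, hqu⟩, fun w hw => heq _ (hxU w hw) _ hw (OG.map_Q (toOG Q x) w)⟩
    have : U = Submodule.span F {u} := by
      refine le_antisymm (fun w hw => ?_) ((Submodule.span_singleton_le_iff_mem _ _).2 hu)
      obtain ⟨c, hc⟩ := isSquare_of_charTwo h2 (Q w / Q u)
      refine Submodule.mem_span_singleton.2 ⟨c, heq _ (U.smul_mem c hu) _ hw ?_⟩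
      rw [Q_smul, ← hc, div_mul_cancel₀ _ hqu]
    rw [this, finrank_span_singleton hu0]
  · left
    intro u hu
    rw [← h0] at hu
    exact hu.2

end Cfsg.Agent.S2599
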