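import Cfsg.Statements.S2612
import Cfsg.Agent.Lib.Orth.Lagrangian

set_option autoImplicit false
open Cfsg

namespace Cfsg.Agent.S2612

open CfsgLib.Orth QuadraticMap

/-- For the hyperbolic quadratic form Σ x_i y_i on F^(2m) (F finite, m ≥ 1, excluding m = 2 over the field of two elements), Ω⁺_2m(F) (the commutator subgroup of the orthogonal group) contains an element interchanging the two complementary maximal totally singular subspaces {y = 0} and {x = 0} if and only if m is even (dimension divisible by 4). -/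
theorem result {F : Type*} [Field F] [Fintype F] {m : ℕ} (hm : 1 ≤ m) (h : Fintype.card F ≠ 2 ∨ m ≠ 2) : (∃ g : ↥(Cfsg.isometryGroup F (Cfsg.quadFormPlus m F)), g ∈ Cfsg.Omega F (Cfsg.quadFormPlus m F) ∧ (∀ v : Fin m ⊕ Fin m → F, (∀ i, v (Sum.inr i) = 0) → ∀ i, (((g : Matrix.GeneralLinearGroup (Fin m ⊕ Fin m) F) : Matrix (Fin m ⊕ Fin m) (Fin m ⊕ Fin m) F).mulVec v) (Sum.inl i) = 0) ∧ (∀ v : Fin m ⊕ Fin m → F, (∀ i, v (Sum.inl i) = 0) → ∀ i, (((g : Matrix.GeneralLinearGroup (Fin m ⊕ Fin m) F) : Matrix (Fin m ⊕ Fin m) (Fin m ⊕ Fin m) F).mulVec v) (Sum.inr i) = 0)) ↔ Even m := by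
  have hQ := qPlus_nondegenerate (F := F) m
  have hdisj : LinearMap.ker (LinearMap.funLeft F F (Sum.inr : Fin m → Fin m ⊕ Fin m)) ⊓
      LinearMap.ker (LinearMap.funLeft F F (Sum.inl : Fin m → Fin m ⊕ Fin m)) = ⊥ := by
    rw [eq_bot_iff]
    rintro v ⟨h1, h2⟩
    funext i
    rcases i with i | i
    exacts [mem_ker_funLeft.1 h2 i, mem_ker_funLeft.1 h1 i]
  constructor
  · rintro ⟨g, hg, h1, -⟩
    have h24 := h24_plus h
    have h2 := (dickson_eq_one_iff_lag hQ h24 isLag_ker_inr (toOG (qPlus m F) g)).1
      ((mem_commutator_iff hQ h24 _).1 ((mem_Omega_iff (qPlus m F) g).1 hg)).1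
    have h3 : LinearMap.ker (LinearMap.funLeft F F (Sum.inr : Fin m → Fin m ⊕ Fin m)) ⊓
        act (toOG (qPlus m F) g)
          (LinearMap.ker (LinearMap.funLeft F F (Sum.inr : Fin m → Fin m ⊕ Fin m))) = ⊥ := by
      rw [eq_bot_iff, ← hdisj]
      refine inf_le_inf_left _ fun x hx => ?_
      obtain ⟨w, hw, rfl⟩ := mem_act.1 hx
      exact mem_ker_funLeft.2 (h1 w (mem_ker_funLeft.1 hw))
    rwa [h3, finrank_bot, finrank_ker_funLeft_inr, Fintype.card_fin, Nat.sub_zero] at h2
  · intro hm
    let r : Fin m → (Fin m ⊕ Fin m → F) := fun i => Pi.single (.inl i) 1 - Pi.single (.inr i) 1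
    have hr : ∀ i, qPlus m F (r i) = -1 := fun i => by
      have := Q_sub_smul_hyp (Q := qPlus m F) (qPlus_single_inl i 1) (qPlus_single_inr i 1)
        (by simp [polar_qPlus_single_inr]) 1
      rwa [one_smul] at this
    have hrefl : ∀ i v, (refl (qPlus m F) (r i)).1 v
        = fun k => v (Equiv.swap (.inl i) (.inr i) k) := by
      intro i v
      rw [refl_apply, hr, polar_sub_left, polar_qPlus_single_inl', polar_qPlus_single_inr']
      funext k
      by_cases h1 : k = .inl i
      · subst h1; simp [r]
      by_cases h2 : k = .inr i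
      · subst h2; simp [r]
      simp [r, Equiv.swap_apply_of_ne_of_ne h1 h2, h1, h2]
    have key : ∀ l : List (Fin m), l.Nodup → ∀ v k, (reflProd (qPlus m F) (l.map r)).1 v k
        = if Sum.elim id id k ∈ l then v k.swap else v k := by
      intro l hl
      induction l with
      | nil => intro v k; simp [reflProd_nil]
      | cons i l ih =>
        intro v k
        rw [List.nodup_cons] at hl
        rw [List.map_cons, reflProd_cons, OG.mul_apply, hrefl]
        simp only [ih hl.2]
        by_cases h1 : k = .inl i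
        · subst h1; simp [hl.1]
        by_cases h2 : k = .inr i
        · subst h2; simp [hl.1]
        have : Sum.elim id id k ≠ i := by
          rcases k with k | k
          · exact fun h => h1 (congrArg _ h)
          · exact fun h => h2 (congrArg _ h)
        simp [Equiv.swap_apply_of_ne_of_ne h1 h2, this]
    have hmem : reflProd (qPlus m F) ((List.finRange m).map r) ∈ commutator (OG (qPlus m F)) := by
      refine reflProd_mem_commutator hQ (fun v hv => ?_) (by simpa using hm) ?_
      · obtain ⟨i, -, rfl⟩ := List.mem_map.1 hv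
        rw [hr]; simp
      · have : ((List.finRange m).map r).map (qPlus m F) = List.replicate m (-1) := by
          rw [List.map_map, List.eq_replicate_iff]
          refine ⟨by simp, fun b hb => ?_⟩
          obtain ⟨i, -, rfl⟩ := List.mem_map.1 hb
          exact hr i
        rw [this, List.prod_replicate, hm.neg_one_pow]
        exact IsSquare.one
    obtain ⟨g, hg⟩ := (toOG (qPlus m F)).surjective (reflProd (qPlus m F) ((List.finRange m).map r))
    have hg' : ∀ v k, (((g : Matrix.GeneralLinearGroup (Fin m ⊕ Fin m) F) :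
        Matrix (Fin m ⊕ Fin m) (Fin m ⊕ Fin m) F).mulVec v) k = v k.swap := by
      intro v k
      rw [← toOG_apply, hg, key _ (List.nodup_finRange m)]
      simp
    exact ⟨g, (mem_Omega_iff (qPlus m F) g).2 (hg ▸ hmem), fun v hv i => by rw [hg']; exact hv i,
      fun v hv i => by rw [hg']; exact hv i⟩

end Cfsg.Agent.S2612
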