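import Cfsg.Statements.S2616
import Cfsg.Agent.Lib.Orth.Normal

set_option autoImplicit false
open Cfsg

namespace Cfsg.Agent.S2616

open CfsgLib.Orth QuadraticMap Module

/-- Standard bases of a non-degenerate quadratic space of even dimension 2m over a finite field: either there is a hyperbolic basis e_i, f_i (Q(e_i) = Q(f_i) = 0, B(e_i, f_j) = δ_ij, the e's pairwise orthogonal and the f's pairwise orthogonal, B the polar form), or there is an elliptic basis: hyperbolic pairs e_i, f_i for i < m − 1 together with x, y orthogonal to them with Q(x) = 1, B(x, y) = 1, Q(y) = ζ where t² + t + ζ has no root in the field. -/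
theorem result {F V : Type*} [Field F] [Finite F] [AddCommGroup V] [Module F V] [FiniteDimensional F V] {m : ℕ} (hm : 1 ≤ m) (hV : Module.finrank F V = 2 * m) (Q : QuadraticForm F V) (hQ : (QuadraticMap.polarBilin Q).Nondegenerate) : (∃ b : Module.Basis (Fin m ⊕ Fin m) F V, (∀ i, Q (b (Sum.inl i)) = 0 ∧ Q (b (Sum.inr i)) = 0) ∧ (∀ i j, QuadraticMap.polar ⇑Q (b (Sum.inl i)) (b (Sum.inr j)) = if i = j then 1 else 0) ∧ (∀ i j, QuadraticMap.polar ⇑Q (b (Sum.inl i)) (b (Sum.inl j)) = 0 ∧ QuadraticMap.polar ⇑Q (b (Sum.inr i)) (b (Sum.inr j)) = 0)) ∨ (∃ (b : Module.Basis ((Fin (m - 1) ⊕ Fin (m - 1)) ⊕ Fin 2) F V) (ζ : F), (∀ t : F, t ^ 2 + t + ζ ≠ 0) ∧ (∀ i, Q (b (Sum.inl (Sum.inl i))) = 0 ∧ Q (b (Sum.inl (Sum.inr i))) = 0) ∧ (∀ i j, QuadraticMap.polar ⇑Q (b (Sum.inl (Sum.inl i))) (b (Sum.inl (Sum.inr j))) = if i = j then 1 else 0) ∧ (∀ i j, QuadraticMap.polar ⇑Q (b (Sum.inl (Sum.inl i))) (b (Sum.inl (Sum.inl j)))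 = 0 ∧ QuadraticMap.polar ⇑Q (b (Sum.inl (Sum.inr i))) (b (Sum.inl (Sum.inr j))) = 0) ∧ (∀ i (k : Fin 2), QuadraticMap.polar ⇑Q (b (Sum.inl (Sum.inl i))) (b (Sum.inr k)) = 0 ∧ QuadraticMap.polar ⇑Q (b (Sum.inl (Sum.inr i))) (b (Sum.inr k)) = 0) ∧ Q (b (Sum.inr 0)) = 1 ∧ QuadraticMap.polar ⇑Q (b (Sum.inr 0)) (b (Sum.inr 1)) = 1 ∧ Q (b (Sum.inr 1)) = ζ) := by
  by_cases h : ∃ U, IsLag Q U
  · obtain ⟨U, hU⟩ := h
    obtain ⟨e, he, -⟩ := exists_equiv_qPlus hQ hU hV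
    have hp : ∀ x y, polar Q (e x) (e y) = polar (qPlus m F) x y :=
      fun x y => polar_map_of_map_Q e.toLinearMap he x y
    refine Or.inl ⟨(Pi.basisFun F _).map e, fun i => ?_, fun i j => ?_, fun i j => ?_⟩
    · simp [he, qPlus_single_inl, qPlus_single_inr]
    · simp [hp, polar_qPlus_single_inr, Pi.single_apply, eq_comm]
    · simp [hp, polar_qPlus_single_inr, polar_qPlus_single_inl]
  · obtain ⟨k, rfl⟩ : ∃ k, m = k + 1 := ⟨m - 1, by omega⟩
    obtain ⟨ζ, hζ⟩ := exists_aniso_one (F := F)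
    obtain ⟨e, he⟩ := exists_equiv_qMinus hQ (m := k) (by omega) h hζ
    have hp : ∀ x y, polar Q (e x) (e y) = polar (qMinus k 1 ζ) x y :=
      fun x y => polar_map_of_map_Q e.toLinearMap he x y
    refine Or.inr ⟨(Pi.basisFun F _).map e, ζ, fun t => by simpa using aniso_iff.1 hζ t,
      fun i => ?_, fun i j => ?_, fun i j => ?_, fun i j => ?_, ?_, ?_, ?_⟩
    all_goals
      simp [he, hp, qMinus_eq_qSum, qSum_apply, polar_qSum, qPlus_apply, polar_qPlus, qBin_apply,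
        polar_qBin, Pi.single_apply, eq_comm]

end Cfsg.Agent.S2616
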