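import Cfsg.Statements.S2617
import Cfsg.Agent.Lib.Orth.Lagrangian

set_option autoImplicit false
open Cfsg

namespace Cfsg.Agent.S2617

open CfsgLib.Orth QuadraticMap Module

/-- The two standard quadratic forms of even dimension 2m over a finite field are not isometric: there is no linear isomorphism carrying the elliptic form Σ_(i<m−1) x_i y_i + z₁² + z₁z₂ + ζ z₂² (t² + t + ζ without roots) to the hyperbolic form Σ_(i<m) x_i y_i (they have different Witt index). -/
theorem result {F : Type*} [Field F] [Finite F] {m : ℕ} (hm : 1 ≤ m) (ζ : F) (hζ : ∀ t : F, t ^ 2 + t + ζ ≠ 0) (g : (Fin m ⊕ Fin m → F) ≃ₗ[F] ((Fin (m - 1) ⊕ Fin (m - 1)) ⊕ Fin 2 → F)) : ¬ (∀ v : Fin m ⊕ Fin m → F, Cfsg.quadFormMinus (m - 1) F 1 ζ (g v) = Cfsg.quadFormPlus m F v) := by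
  intro hg
  have hab : ∀ z₁ z₂ : F, z₁ ^ 2 + 1 * z₁ * z₂ + ζ * z₂ ^ 2 = 0 → z₁ = 0 ∧ z₂ = 0 := by
    intro z₁ z₂ h
    by_cases h2 : z₂ = 0
    · subst h2
      exact ⟨by simpa using h, rfl⟩
    · exact (hζ (z₁ / z₂) (by field_simp; linear_combination h)).elim
  have hQ := qMinus_nondegenerate (m - 1) hab
  have hL := isLag_ker_inr (F := F) (m := m)
  have hL1 := (isLag_plus_iff.1 hL).1
  set X := (LinearMap.ker (LinearMap.funLeft F F (Sum.inr : Fin m → Fin m ⊕ Fin m))).map g.toLinearMap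
    with hX
  have hX1 : finrank F X = m := by rw [hX, LinearEquiv.finrank_map_eq, hL1]
  have hXL : IsLag (qMinus (m - 1) 1 ζ) X := by
    refine ⟨?_, by rw [hX1]; simp; omega⟩
    rintro _ ⟨u, hu, rfl⟩
    exact (hg u).trans (hL.1 u hu)
  -- `E` is spanned by the first `m - 1` coordinate vectors, `P` is its perp
  let E : Submodule F ((Fin (m - 1) ⊕ Fin (m - 1)) ⊕ Fin 2 → F) :=
    LinearMap.ker (LinearMap.funLeft F F (Sum.map Sum.inr id : Fin (m - 1) ⊕ Fin 2 → _))
  have hE : finrank F E = m - 1 := by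
    have h1 := LinearMap.finrank_range_add_finrank_ker
      (LinearMap.funLeft F F (Sum.map Sum.inr id : Fin (m - 1) ⊕ Fin 2 →
        (Fin (m - 1) ⊕ Fin (m - 1)) ⊕ Fin 2))
    rw [LinearMap.range_eq_top.2 (LinearMap.funLeft_surjective_of_injective F F _
      (Sum.map_injective.2 ⟨Sum.inr_injective, Function.injective_id⟩)), finrank_top] at h1
    simp only [finrank_fintype_fun_eq_card, Fintype.card_sum, Fintype.card_fin] at h1
    change _ + finrank F E = _ at h1
    omega
  have hle : X ⊓ LinearMap.BilinForm.orthogonal (polarBilin (qMinus (m - 1) 1 ζ)) E ≤ X ⊓ E := by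
    rintro x ⟨hx, hx'⟩
    refine ⟨hx, mem_ker_funLeft.2 ?_⟩
    have h1 : ∀ i, x (.inl (.inr i)) = 0 := by
      intro i
      have := mem_orth_iff.1 hx' (Pi.single (.inl (.inl i)) 1) (mem_ker_funLeft.2 (by
        rintro (j | j) <;> simp))
      rw [qMinus_eq_qSum, polar_qSum, polar_qPlus, polar_qBin] at this
      simpa [Pi.single_apply] using this
    have h2 := hXL.1 x hx
    simp only [coe_qMinus, Cfsg.quadFormMinus, h1, mul_zero, Finset.sum_const_zero, zero_add] at h2
    obtain ⟨h3, h4⟩ := hab _ _ h2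
    rintro (j | j)
    · exact h1 j
    · fin_cases j
      exacts [h3, h4]
  have h1 : X ⊓ LinearMap.BilinForm.orthogonal (polarBilin (qMinus (m - 1) 1 ζ)) E
      = LinearMap.BilinForm.orthogonal (polarBilin (qMinus (m - 1) 1 ζ)) (X ⊔ E) := by
    ext x
    rw [Submodule.mem_inf]
    conv_lhs => lhs; rw [← hXL.orthogonal_eq hQ]
    simp only [mem_orth_iff]
    constructor
    · rintro ⟨h1, h2⟩ w hw
      obtain ⟨a, ha, b, hb, rfl⟩ := Submodule.mem_sup.1 hw
      rw [polar_add_left, h1 a ha, h2 b hb, add_zero]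
    · exact fun h => ⟨fun w hw => h w (Submodule.mem_sup_left hw),
        fun w hw => h w (Submodule.mem_sup_right hw)⟩
  have h2 := Submodule.finrank_mono hle
  rw [h1, LinearMap.BilinForm.finrank_orthogonal hQ] at h2
  have h3 := Submodule.finrank_sup_add_finrank_inf_eq X E
  have h4 := hXL.2
  omega

end Cfsg.Agent.S2617
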