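import Cfsg.Statements.S2619
import Mathlib

set_option autoImplicit false
open Cfsg

namespace Cfsg.Agent.S2619

open QuadraticMap

/-- Over a finite field of characteristic two, given an alternating bilinear form B on a finite-dimensional space, a basis (v_i) and scalars (λ_i), there is exactly one quadratic form whose polar form is B and whose value at each v_i is λ_i. -/
theorem result {F V ι : Type*} [Field F] [Finite F] [CharP F 2] [AddCommGroup V] [Module F V] [Fintype ι] (b : Module.Basis ι F V) (B : LinearMap.BilinForm F V) (hB : B.IsAlt) (c : ι → F) : ∃! Q : QuadraticForm F V, QuadraticMap.polarBilin Q = B ∧ ∀ i, Q (b i) = c i := by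
  obtain ⟨_⟩ : Nonempty (LinearOrder ι) :=
    ⟨LinearOrder.lift' (Fintype.equivFin ι) (Fintype.equivFin ι).injective⟩
  let B' : LinearMap.BilinForm F V :=
    b.constr F fun i => b.constr F fun j => if i = j then c i else if i < j then B (b i) (b j) else 0
  have hB' : ∀ i j, B' (b i) (b j) = if i = j then c i else if i < j then B (b i) (b j) else 0 := by
    intro i j; simp only [B', Module.Basis.constr_basis]
  refine ⟨LinearMap.BilinMap.toQuadraticMap B', ⟨?_, fun i => by simp [hB']⟩, ?_⟩
  · rw [LinearMap.BilinMap.polarBilin_toQuadraticMap]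
    refine b.ext fun i => b.ext fun j => ?_
    simp only [LinearMap.add_apply, LinearMap.flip_apply, hB']
    rcases lt_trichotomy i j with h | rfl | h
    · simp [h, h.ne, h.ne', h.not_gt]
    · simp [hB (b i), CharTwo.add_self_eq_zero]
    · simp only [h, h.ne, h.ne', h.not_gt, if_true, if_false, zero_add]
      rw [← LinearMap.IsAlt.neg hB, CharTwo.neg_eq]
  · rintro Q ⟨h1, h2⟩
    rw [← QuadraticMap.toQuadraticMap_toBilin Q b]
    refine congrArg _ (b.ext fun i => b.ext fun j => ?_)
    rw [QuadraticMap.toBilin_apply, hB', h2, ← h1, polarBilin_apply_apply]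

end Cfsg.Agent.S2619
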