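import Cfsg.Statements.S2622
import Cfsg.Agent.Lib.Orth.Omega

set_option autoImplicit false
open Cfsg

namespace Cfsg.Agent.S2622

open Module

theorem aux {F V : Type*} [Field F] [Finite F] [CharP F 2] [AddCommGroup V] [Module F V]
    [FiniteDimensional F V] (B : LinearMap.BilinForm F V) (hS : ∀ x y, B x y = B y x) (n : ℕ) :
    ∀ W : Submodule F V, finrank F W = n + 1 → (∀ w ∈ W, (∀ u ∈ W, B w u = 0) → w = 0) →
      (∃ v ∈ W, B v v ≠ 0) →
      ∃ b : Fin (n + 1) → V, (∀ i, b i ∈ W) ∧ ∀ i j, B (b i) (b j) = if i = j then 1 else 0 := by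
  have h2 : (2 : F) = 0 := CharTwo.two_eq_zero
  have hnorm : ∀ v, B v v ≠ 0 → ∃ c : F, c ≠ 0 ∧ B (c • v) (c • v) = 1 := by
    intro v hv
    obtain ⟨c, hc⟩ := CfsgLib.Orth.isSquare_of_charTwo h2 (B v v)⁻¹
    refine ⟨c, fun h => inv_ne_zero hv (by rw [hc, h, mul_zero]), ?_⟩
    simp only [map_smul, LinearMap.smul_apply, smul_eq_mul]
    rw [← mul_assoc, ← hc, inv_mul_cancel₀ hv]
  have hadd : ∀ x y, B (x + y) (x + y) = B x x + B y y := fun x y => by
    simp only [map_add, LinearMap.add_apply, hS y x]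
    linear_combination B x y * h2
  induction n with
  | zero =>
    rintro W - - ⟨v, hv, hv'⟩
    obtain ⟨c, -, hc⟩ := hnorm v hv'
    exact ⟨fun _ => c • v, fun _ => W.smul_mem c hv, fun i j => by
      rw [hc, if_pos (Subsingleton.elim (α := Fin 1) i j)]⟩
  | succ n ih =>
    rintro W hW hnd ⟨v₀, hv₀, hv₀'⟩
    -- a unit vector `v` whose perp in `W` is not alternating
    obtain ⟨v, hvW, hv1, y, hyW, hvy, hy⟩ : ∃ v ∈ W, B v v = 1 ∧ ∃ y ∈ W, B v y = 0 ∧ B y y ≠ 0 := by
      obtain ⟨c, -, hc⟩ := hnorm v₀ hv₀'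
      set x := c • v₀
      have hxW : x ∈ W := W.smul_mem c hv₀
      by_cases hx : ∃ y ∈ W, B x y = 0 ∧ B y y ≠ 0
      · exact ⟨x, hxW, hc, hx⟩
      push Not at hx
      -- pick `z ≠ 0` in the perp of `x`, and `z'` in it with `B z z' = 1`
      obtain ⟨z, hzW, hxz, hz0⟩ : ∃ z ∈ W, B x z = 0 ∧ z ≠ 0 := by
        by_contra hc'
        push Not at hc'
        have : W ≤ Submodule.span F {x} := by
          intro w hw
          have := hc' (w - B x w • x) (sub_mem hw (W.smul_mem _ hxW)) (by simp [hc])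
          rw [sub_eq_zero] at this
          rw [this]
          exact Submodule.smul_mem _ _ (Submodule.mem_span_singleton_self x)
        have h1 := Submodule.finrank_mono this
        have h3 : finrank F (Submodule.span F {x}) ≤ 1 := by
          simpa using finrank_span_le_card (R := F) ({x} : Set V)
        omega
      obtain ⟨u, huW, hu⟩ : ∃ u ∈ W, B z u ≠ 0 := by
        by_contra hc'
        push Not at hc'
        exact hz0 (hnd z hzW hc')
      have hzx : B z x = 0 := by rw [hS, hxz]
      set z' := (B z u)⁻¹ • (u - B x u • x) with hz'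
      have hz'W : z' ∈ W := W.smul_mem _ (sub_mem huW (W.smul_mem _ hxW))
      have hxz' : B x z' = 0 := by simp [hz', hc]
      have hzz' : B z z' = 1 := by simp [hz', hzx, hu]
      refine ⟨x + z, add_mem hxW hzW, by rw [hadd, hc, hx z hzW hxz, add_zero], x + z',
        add_mem hxW hz'W, ?_, by rw [hadd, hc, hx z' hz'W hxz']; simp⟩
      simp only [map_add, LinearMap.add_apply, hc, hxz', hzx, hzz']
      linear_combination h2
    have hv0 : v ≠ 0 := fun h => by simp [h] at hv1
    set W' := W ⊓ LinearMap.ker (B v) with hW'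
    have hproj : ∀ w ∈ W, w - B v w • v ∈ W' := fun w hw =>
      ⟨sub_mem hw (W.smul_mem _ hvW), by simp [hv1]⟩
    have hfin : finrank F W' = n + 1 := by
      have h1 := Submodule.finrank_sup_add_finrank_inf_eq W' (Submodule.span F {v})
      have h3 : W' ⊓ Submodule.span F {v} = ⊥ := by
        refine ((Submodule.disjoint_span_singleton' hv0).2 fun h => ?_).eq_bot
        have : B v v = 0 := h.2
        rw [hv1] at this
        exact one_ne_zero this
      have h4 : W' ⊔ Submodule.span F {v} = W := by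
        refine le_antisymm (sup_le inf_le_left ((Submodule.span_singleton_le_iff_mem _ _).2 hvW))
          fun w hw => Submodule.mem_sup.2 ⟨_, hproj w hw, B v w • v,
            Submodule.smul_mem _ _ (Submodule.mem_span_singleton_self v), by simp⟩
      rw [h3, h4, finrank_span_singleton hv0, finrank_bot] at h1
      omega
    obtain ⟨b, hb, hb'⟩ := ih W' hfin (fun w hw h => hnd w hw.1 fun u hu => by
      have h1 := h _ (hproj u hu)
      have h3 : B w v = 0 := by rw [hS]; exact hw.2
      simpa [h3] using h1) ⟨y, ⟨hyW, hvy⟩, hy⟩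
    refine ⟨Fin.cons v b, fun i => Fin.cases hvW (fun i => (hb i).1) i, fun i j => ?_⟩
    have h5 : ∀ i, B v (b i) = 0 := fun i => (hb i).2
    refine Fin.cases (Fin.cases ?_ (fun j => ?_) j) (fun i => Fin.cases ?_ (fun j => ?_) j) i
    · simpa using hv1
    · simpa [(Fin.succ_ne_zero j).symm] using h5 j
    · simpa [hS (b i) v] using h5 i
    · simpa using hb' i j

/-- Over a finite field of characteristic two, a non-degenerate symmetric bilinear form that is not alternating (some vector v has B(v, v) ≠ 0) admits an orthonormal basis. -/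
theorem result {F V : Type*} [Field F] [Finite F] [CharP F 2] [AddCommGroup V] [Module F V] [FiniteDimensional F V] {n : ℕ} (hV : Module.finrank F V = n) (B : LinearMap.BilinForm F V) (hS : B.IsSymm) (hB : B.Nondegenerate) (hna : ∃ v : V, B v v ≠ 0) : ∃ b : Module.Basis (Fin n) F V, ∀ i j, B (b i) (b j) = if i = j then 1 else 0 := by
  obtain ⟨v, hv⟩ := hna
  have hv0 : v ≠ 0 := fun h => by simp [h] at hv
  have : Nontrivial V := ⟨⟨v, 0, hv0⟩⟩
  obtain ⟨k, rfl⟩ : ∃ k, n = k + 1 := ⟨n - 1, by have := Module.finrank_pos (R := F) (M := V); omega⟩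
  obtain ⟨b, -, hb⟩ := aux B (fun x y => hS.eq x y) k ⊤ (by rw [finrank_top, hV])
    (fun w _ h => hB.1 w fun y => h y trivial) ⟨v, trivial, hv⟩
  have hli : LinearIndependent F b := LinearMap.BilinForm.linearIndependent_of_iIsOrtho (B := B)
    (LinearMap.BilinForm.iIsOrtho_def.2 fun i j hij => by simp [hb, hij]) (fun i => by simp [hb])
  exact ⟨basisOfLinearIndependentOfCardEqFinrank hli (by simp [hV]), by simpa using hb⟩

end Cfsg.Agent.S2622
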