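import Cfsg.Statements.S2623
import Cfsg.Agent.Lib.Orth.Disc

set_option autoImplicit false
open Cfsg

namespace Cfsg.Agent.S2623

open CfsgLib.Orth

/-- Over a finite field of odd order, two quadratic forms on F^n with non-degenerate polar forms are isometric (related by an invertible linear change of variables) if and only if their discriminants (determinants of the Gram matrices of their polar forms) lie in the same square class. -/
theorem result {F : Type*} [Field F] [Fintype F] (h2 : (2 : F) ≠ 0) {n : ℕ} (Q₁ Q₂ : QuadraticForm F (Fin n → F)) (h₁ : (QuadraticMap.polarBilin Q₁).Nondegenerate) (h₂ : (QuadraticMap.polarBilin Q₂).Nondegenerate) : (∃ g : (Fin n → F) ≃ₗ[F] (Fin n → F), ∀ v, Q₂ (g v) = Q₁ v) ↔ IsSquare ((Matrix.of (fun i j : Fin n => QuadraticMap.polar ⇑Q₁ (Pi.single i 1) (Pi.single j 1))).det * (Matrix.of (fun i j : Fin n => QuadraticMap.polar ⇑Q₂ (Pi.single i 1) (Pi.single j 1))).det) := by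
  have e1 : (Matrix.of (fun i j : Fin n => QuadraticMap.polar ⇑Q₁ (Pi.single i 1) (Pi.single j 1))) = gram Q₁ (Pi.basisFun F (Fin n)) := by
    ext i j; simp [gram]
  have e2 : (Matrix.of (fun i j : Fin n => QuadraticMap.polar ⇑Q₂ (Pi.single i 1) (Pi.single j 1))) = gram Q₂ (Pi.basisFun F (Fin n)) := by
    ext i j; simp [gram]
  rw [e1, e2]
  refine ⟨?_, exists_equiv_of_isSquare_disc h2 h₁ h₂ _ _ rfl⟩
  rintro ⟨g, hg⟩
  have : gram Q₁ (Pi.basisFun F (Fin n)) = gram Q₂ ((Pi.basisFun F (Fin n)).map g) := by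
    ext i j
    exact (polar_map_of_map_Q g.toLinearMap hg _ _).symm
  obtain ⟨c, -, hc⟩ := exists_det_gram_eq Q₂ (Pi.basisFun F (Fin n)) ((Pi.basisFun F (Fin n)).map g)
  rw [this, hc]
  exact ⟨c * (gram Q₂ (Pi.basisFun F (Fin n))).det, by ring⟩

end Cfsg.Agent.S2623
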