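import Cfsg.Statements.S2624
import Cfsg.Agent.Lib.Orth.Disc

set_option autoImplicit false
open Cfsg

namespace Cfsg.Agent.S2624

open CfsgLib.Orth QuadraticMap

/-- For a quadratic form Q on F^n with non-degenerate polar form, F finite and n ≥ 2 even, every non-zero scalar c is the multiplier of some similarity: there is an invertible linear map g with Q(g v) = c·Q(v) for all v. -/
theorem result {F : Type*} [Field F] [Fintype F] {n : ℕ} (hn : 2 ≤ n) (he : Even n) (Q : QuadraticForm F (Fin n → F)) (hQ : (QuadraticMap.polarBilin Q).Nondegenerate) (c : F) (hc : c ≠ 0) : ∃ g : (Fin n → F) ≃ₗ[F] (Fin n → F), ∀ v, Q (g v) = c * Q v := by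
  by_cases h2 : (2 : F) = 0
  · obtain ⟨d, rfl⟩ := isSquare_of_charTwo h2 c
    have hd : d ≠ 0 := fun h => hc (by rw [h, mul_zero])
    exact ⟨LinearEquiv.smulOfNeZero F _ d hd, fun v => by simp [Units.smul_def, Q_smul]⟩
  have hp : ∀ x y, polar (⇑(c • Q)) x y = c * polar Q x y := fun x y => by
    simp only [polar, QuadraticMap.smul_apply, smul_eq_mul]; ring
  have hQ' : (polarBilin (c • Q)).Nondegenerate := nondegenerate_of_polar fun x hx =>
    eq_zero_of_polar hQ fun y => by
      have := hx y
      rw [hp] at this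
      exact (mul_eq_zero.1 this).resolve_left hc
  have h1 : gram (⇑(c • Q)) (Pi.basisFun F (Fin n)) = c • gram Q (Pi.basisFun F (Fin n)) := by
    ext i j; simp only [gram, Matrix.of_apply, hp, Matrix.smul_apply, smul_eq_mul]
  refine exists_equiv_of_isSquare_disc h2 hQ' hQ (Pi.basisFun F (Fin n)) (Pi.basisFun F (Fin n)) rfl ?_
  obtain ⟨k, rfl⟩ := he
  rw [h1, Matrix.det_smul, Fintype.card_fin]
  exact ⟨c ^ k * (gram Q (Pi.basisFun F (Fin (k + k)))).det, by ring⟩

end Cfsg.Agent.S2624
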