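import Cfsg.Statements.S2625
import Cfsg.Agent.Lib.Orth.Disc

set_option autoImplicit false
open Cfsg

namespace Cfsg.Agent.S2625

open CfsgLib.Orth

/-- For a quadratic form Q on F^n with non-degenerate polar form, F finite and n odd (so |F| is odd), the multiplier of any similarity is a square: if g is an invertible linear map with Q(g v) = c·Q(v) for all v then c is a square. -/
theorem result {F : Type*} [Field F] [Fintype F] {n : ℕ} (hn : Odd n) (Q : QuadraticForm F (Fin n → F)) (hQ : (QuadraticMap.polarBilin Q).Nondegenerate) (g : (Fin n → F) ≃ₗ[F] (Fin n → F)) (c : F) (hg : ∀ v, Q (g v) = c * Q v) : IsSquare c := by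
  by_cases hc : c = 0
  · rw [hc]; exact IsSquare.zero
  have h1 : gram Q ((Pi.basisFun F (Fin n)).map g) = c • gram Q (Pi.basisFun F (Fin n)) := by
    ext i j
    simp only [gram, Matrix.of_apply, Module.Basis.map_apply, QuadraticMap.polar, ← map_add, hg,
      Matrix.smul_apply, smul_eq_mul]
    ring
  obtain ⟨d, -, hd⟩ := exists_det_gram_eq Q (Pi.basisFun F (Fin n)) ((Pi.basisFun F (Fin n)).map g)
  rw [h1, Matrix.det_smul, Fintype.card_fin] at hd
  have h2 := mul_right_cancel₀ (det_gram_ne_zero hQ _) hd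
  obtain ⟨k, rfl⟩ := hn
  refine (isSquare_mul_self_mul_iff (pow_ne_zero k hc)).1 ⟨d, ?_⟩
  rw [← h2]; ring

end Cfsg.Agent.S2625
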