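import Cfsg.Statements.S2628
import Cfsg.Agent.Lib.Orth.Sum

set_option autoImplicit false
open Cfsg

namespace Cfsg.Agent.S2628

open CfsgLib.Orth

/-- For the orthogonal direct sum Q ⊕ Q of two copies of a quadratic form Q with non-degenerate polar form on F^k (F finite), every isometry g of Q acting diagonally, diag(g, g), lies in Ω(Q ⊕ Q), the commutator subgroup of the orthogonal group of Q ⊕ Q. (Excluded: k = 2 over the field of two elements, where Q ⊕ Q is the hyperbolic 4-space whose orthogonal group's commutator subgroup is smaller than the group usually called Ω.) -/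
theorem result {F : Type*} [Field F] [Fintype F] {k : ℕ} (h : Fintype.card F ≠ 2 ∨ k ≠ 2) (Q : QuadraticForm F (Fin k → F)) (hQ : (QuadraticMap.polarBilin Q).Nondegenerate) (g : ↥(Cfsg.isometryGroup F ⇑Q)) : ∃ x : ↥(Cfsg.isometryGroup F (fun v : Fin k ⊕ Fin k → F => Q (v ∘ Sum.inl) + Q (v ∘ Sum.inr))), x ∈ Cfsg.Omega F (fun v : Fin k ⊕ Fin k → F => Q (v ∘ Sum.inl) + Q (v ∘ Sum.inr)) ∧ ((x : Matrix.GeneralLinearGroup (Fin k ⊕ Fin k) F) : Matrix (Fin k ⊕ Fin k) (Fin k ⊕ Fin k) F) = Matrix.fromBlocks ((g : Matrix.GeneralLinearGroup (Fin k) F) : Matrix (Fin k) (Fin k) F) 0 0 ((g : Matrix.GeneralLinearGroup (Fin k) F) : Matrix (Fin k) (Fin k) F) := by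
  refine (exists_Omega_val_eq_iff (qSum Q Q) (h := sumOG Q Q (toOG Q g, toOG Q g))
    (sumOG_apply_eq_fromBlocks _ _ (toOG_apply Q g) (toOG_apply Q g))).2 ?_
  have hQ' := qSum_nondegenerate hQ hQ
  have h24 : Nat.card F ≠ 2 ∨ Module.finrank F (Fin k ⊕ Fin k → F) ≠ 4 :=
    h24_of_card (n := k + k) (h.imp_right (by omega)) (by simp)
  let s : OG (qSum Q Q) := OG.mk' _ (LinearMap.funLeft F F Sum.swap) (LinearMap.funLeft F F Sum.swap)
    (fun v => by rw [qSum_apply, qSum_apply, add_comm]; rfl)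
    (fun v => by funext i; simp [LinearMap.funLeft]) (fun v => by funext i; simp [LinearMap.funLeft])
  have hs : ∀ v, s.1 v = v ∘ Sum.swap := fun v => rfl
  have h1 : s * sumOG Q Q (toOG Q g, 1) = sumOG Q Q (1, toOG Q g) * s := by
    refine OG.ext fun v => ?_
    rw [OG.mul_apply, OG.mul_apply, hs, hs, sumOG_apply, sumOG_apply]
    funext i
    rcases i with i | i <;> rfl
  have h2 : sumOG Q Q (toOG Q g, toOG Q g)
      = sumOG Q Q (toOG Q g, 1) * (s * sumOG Q Q (toOG Q g, 1) * s⁻¹) := by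
    rw [h1, mul_inv_cancel_right, ← map_mul]; simp
  rw [h2, mem_commutator_iff hQ' h24]
  simp only [map_mul, map_inv, mul_inv_cancel_comm, Int.units_mul_self, and_self]

end Cfsg.Agent.S2628
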