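import Cfsg.Statements.S2634
import Cfsg.Agent.Lib.Orth.Matrix

set_option autoImplicit false
open Cfsg

namespace Cfsg.Agent.S2634

open CfsgLib.Orth

/-- Over a finite field of characteristic two, Ω (the commutator subgroup of the orthogonal group of a quadratic form Q on F^n with non-degenerate polar form; excluding dimension 4 over the field of two elements) acts transitively on the non-singular 1-spaces: for u, v with Q(u) ≠ 0 and Q(v) ≠ 0 some element of Ω carries the line through u to the line through v. -/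
theorem result {F : Type*} [Field F] [Fintype F] [CharP F 2] {n : ℕ} (h : Fintype.card F ≠ 2 ∨ n ≠ 4) (Q : QuadraticForm F (Fin n → F)) (hQ : (QuadraticMap.polarBilin Q).Nondegenerate) (u v : Fin n → F) (hu : Q u ≠ 0) (hv : Q v ≠ 0) : ∃ g : ↥(Cfsg.isometryGroup F ⇑Q), g ∈ Cfsg.Omega F ⇑Q ∧ (F ∙ ((g : Matrix.GeneralLinearGroup (Fin n) F) : Matrix (Fin n) (Fin n) F).mulVec u) = F ∙ v := by
  have h24 := h24_of_card (ι := Fin n) h (Fintype.card_fin n)
  have h2 : (2 : F) = 0 := CharTwo.two_eq_zero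
  obtain ⟨c, hc⟩ := isSquare_of_charTwo h2 (Q v / Q u)
  have hcu : Q (c • u) = Q v := by rw [Q_smul, ← hc, div_mul_cancel₀ _ hu]
  have hc0 : c ≠ 0 := by
    rintro rfl
    exact hv (by rw [← hcu, zero_smul, map_zero])
  obtain ⟨g, hg⟩ := exists_OG_apply_eq hQ hcu (hcu ▸ hv)
  obtain ⟨g', hg', hg''⟩ : ∃ g' : OG Q, g' ∈ commutator (OG Q) ∧ (F ∙ g'.1 (c • u)) = F ∙ v := by
    rcases Int.units_eq_one_or (dickson hQ h24 g) with h1 | h1
    · exact ⟨g, (mem_commutator_iff_of_charTwo hQ h24 h2 g).2 h1, by rw [hg]⟩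
    · refine ⟨refl Q v * g, (mem_commutator_iff_of_charTwo hQ h24 h2 _).2 ?_, ?_⟩
      · rw [map_mul, h1, dickson_refl hQ h24 hv]; simp
      · rw [OG.mul_apply, hg, refl_apply_self hv, ← neg_one_smul F v,
          Submodule.span_singleton_smul_eq (IsUnit.neg isUnit_one)]
  refine ⟨(toOG Q).symm g', by rwa [mem_Omega_iff, MulEquiv.apply_symm_apply], ?_⟩
  rw [toOG_symm_mulVec, ← hg'', map_smul, Submodule.span_singleton_smul_eq (IsUnit.mk0 c hc0)]

end Cfsg.Agent.S2634
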