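import Cfsg.Statements.S2635
import Cfsg.Agent.Lib.Orth.Pairs

set_option autoImplicit false
open Cfsg

namespace Cfsg.Agent.S2635

open CfsgLib.Orth

/-- Over a finite field of characteristic two, for a quadratic form Q on F^n with non-degenerate polar form, n ≥ 2, other than dimension 4 over the field of two elements, Ω (the commutator subgroup of the orthogonal group) is exactly the subgroup generated by the products of two reflections (orthogonal transvections) x ↦ x − Q(v)⁻¹ f(x, v) v, Q(v) ≠ 0: the products of an even number of reflections. -/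
theorem result {F : Type*} [Field F] [Fintype F] [CharP F 2] {n : ℕ} (hn : 2 ≤ n) (h : Fintype.card F ≠ 2 ∨ n ≠ 4) (Q : QuadraticForm F (Fin n → F)) (hQ : (QuadraticMap.polarBilin Q).Nondegenerate) : Cfsg.Omega F ⇑Q = Subgroup.closure {g : ↥(Cfsg.isometryGroup F ⇑Q) | ∃ u v : Fin n → F, Q u ≠ 0 ∧ Q v ≠ 0 ∧ ((g : Matrix.GeneralLinearGroup (Fin n) F) : Matrix (Fin n) (Fin n) F) = Cfsg.reflectionMatrix ⇑Q u * Cfsg.reflectionMatrix ⇑Q v} := by
  have h24 := h24_of_card (ι := Fin n) h (Fintype.card_fin n)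
  simp only [val_eq_reflectionMatrix_mul_iff]
  rw [Omega_eq_comap]
  refine Eq.trans ?_ (image_toOG_symm Q
    {g | ∃ u v, Q u ≠ 0 ∧ Q v ≠ 0 ∧ g = refl Q u * refl Q v}).symm
  rw [← ker_dickson_eq_closure hQ h24]
  congr 1
  ext g
  rw [mem_commutator_iff_of_charTwo hQ h24 CharTwo.two_eq_zero, MonoidHom.mem_ker]

end Cfsg.Agent.S2635
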