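import Cfsg.Statements.S2636
import Cfsg.Agent.Lib.ClAut.Desc1

set_option autoImplicit false
open Cfsg

namespace Cfsg.Agent.S2636

open CfsgLib.ClAut Matrix

/-- Centraliser of a field automorphism in PGL_n: let F be the field with q = q₀^r elements, σ a field automorphism of F of prime order r (so its fixed field has q₀ elements) and n ≥ 1. The invertible matrices g whose entrywise image under σ is a scalar multiple of g — those whose coset modulo scalars is fixed by σ — number (q − 1)/(q₀ − 1) · |GL_n(q₀)|; equivalently the centraliser in PGL_n(q) of the induced automorphism has the order of PGL_n(q₀). -/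
theorem result {F : Type*} [Field F] [Fintype F] {q₀ r n : ℕ} (hr : r.Prime) (hn : 1 ≤ n) (hF : Fintype.card F = q₀ ^ r) (σ : F ≃+* F) (hσ : orderOf σ = r) : Nat.card {g : GL (Fin n) F // ∃ c : F, c ≠ 0 ∧ (g : Matrix (Fin n) (Fin n) F).map σ = c • (g : Matrix (Fin n) (Fin n) F)} = (q₀ ^ r - 1) / (q₀ - 1) * ∏ i : Fin n, (q₀ ^ n - q₀ ^ (i : ℕ)) := by
  classical
  have : Nonempty (Fin n) := ⟨⟨0, hn⟩⟩
  have : Fintype (fixField σ) := Fintype.ofFinite _
  have hE : Fintype.card (fixField σ) = q₀ := by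
    have h := card_eq_card_fixField_pow σ
    rw [hσ, Nat.card_eq_fintype_card, hF, Nat.card_eq_fintype_card] at h
    exact (Nat.pow_left_injective hr.ne_zero h).symm
  let j := (fixField σ).subtype
  have hj : Function.Injective (GeneralLinearGroup.map (n := Fin n) j) := fun a b h =>
    Units.ext (Matrix.map_injective j.injective (congrArg Units.val h))
  have hjs : ∀ c : (fixField σ)ˣ, GeneralLinearGroup.map j (glScalar (Fin n) _ c) =
      glScalar (Fin n) F (Units.map (j : _ →* F) c) := fun c => by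
    ext a b
    simp [coe_glScalar, Matrix.one_apply, j, apply_ite ((↑) : fixField σ → F)]
  let Ψ : Fˣ × GL (Fin n) (fixField σ) →* GL (Fin n) F :=
    MonoidHom.noncommCoprod (glScalar (Fin n) F) (GeneralLinearGroup.map j)
      fun c g => glScalar_comm c _
  have hΨ : ∀ μ h, Ψ (μ, h) = glScalar (Fin n) F μ * GeneralLinearGroup.map j h := fun _ _ => rfl
  have h1 : Nat.card {g : GL (Fin n) F // ∃ c : F, c ≠ 0 ∧ (g : Matrix (Fin n) (Fin n) F).map σ =
      c • (g : Matrix (Fin n) (Fin n) F)} = Nat.card Ψ.range := by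
    refine Nat.card_congr (Equiv.subtypeEquivRight fun g => ⟨?_, ?_⟩)
    · rintro ⟨c, hc, h⟩
      obtain ⟨μ, hμ⟩ := exists_fixed_of_glField_eq σ (hσ ▸ hr.pos) (g := g) (c := Units.mk0 c hc)
        (Units.ext (by simp [coe_glScalar, h]))
      generalize hk : glScalar (Fin n) F μ * g = k at hμ
      let A : Matrix (Fin n) (Fin n) (fixField σ) := Matrix.of fun a b =>
        ⟨k.1 a b, mem_fixField.2 (congrArg (fun x : GL (Fin n) F => x.1 a b) hμ)⟩
      have hA : A.map j = k.1 := rfl
      have hA' : A.det ≠ 0 := fun h0 => k.det_ne_zero (by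
        rw [← hA, ← RingHom.mapMatrix_apply, ← RingHom.map_det, h0, map_zero])
      refine ⟨(μ⁻¹, GeneralLinearGroup.mkOfDetNeZero A hA'), ?_⟩
      rw [hΨ, map_inv, inv_mul_eq_iff_eq_mul, hk]
      exact Units.ext hA
    · rintro ⟨⟨μ, h⟩, rfl⟩
      refine ⟨σ μ / μ, div_ne_zero (by simp) μ.ne_zero, ?_⟩
      ext a b
      have := mem_fixField.1 (h.1 a b).2
      simp [hΨ, coe_glScalar, j, this, ← mul_assoc]
  have h2 : Nat.card Ψ.ker = q₀ - 1 := by
    rw [← hE, ← Fintype.card_units, ← Nat.card_eq_fintype_card]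
    refine (Nat.card_congr (Equiv.ofBijective (fun c : (fixField σ)ˣ => (⟨(Units.map (j : _ →* F) c⁻¹,
      glScalar (Fin n) _ c), ?_⟩ : Ψ.ker)) ⟨fun a b h => ?_, ?_⟩)).symm
    · rw [MonoidHom.mem_ker, hΨ, hjs, ← map_mul, ← map_mul,
        inv_mul_cancel, map_one, map_one]
    · exact glScalar_injective (congrArg (fun x : Ψ.ker => x.1.2) h)
    · rintro ⟨⟨μ, h⟩, hh⟩
      rw [MonoidHom.mem_ker, hΨ, mul_eq_one_iff_inv_eq, ← map_inv] at hh
      obtain ⟨i⟩ := ‹Nonempty (Fin n)›
      have h3 : j (h.1 i i) = μ⁻¹.1 := by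
        have := congrArg (fun x : GL (Fin n) F => x.1 i i) hh.symm
        simp only [coe_glScalar] at this
        simpa using this
      have h4 : h.1 i i ≠ 0 := fun h0 => μ⁻¹.ne_zero (by rw [← h3, h0, map_zero])
      have h5 : Units.map (j : _ →* F) (Units.mk0 _ h4) = μ⁻¹ := Units.ext h3
      refine ⟨Units.mk0 _ h4, Subtype.ext (Prod.ext ?_ (hj ?_))⟩
      · simp only [map_inv, h5, inv_inv]
      · simp only [hjs, h5, hh]
  have h3 := Subgroup.card_mul_index Ψ.ker
  rw [Subgroup.index_ker, h2, Nat.card_prod, Matrix.card_GL_field, hE, Nat.card_units,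
    Nat.card_eq_fintype_card (α := F), hF] at h3
  have h4 : 0 < q₀ - 1 := by have := hE ▸ Fintype.one_lt_card (α := fixField σ); omega
  obtain ⟨c, hc⟩ : q₀ - 1 ∣ q₀ ^ r - 1 := by simpa using Nat.sub_dvd_pow_sub_pow q₀ 1 r
  rw [h1, hc, Nat.mul_div_cancel_left _ h4]
  rw [hc, mul_assoc] at h3
  exact Nat.eq_of_mul_eq_mul_left h4 h3

end Cfsg.Agent.S2636
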