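import Cfsg.Statements.S2637
import Cfsg.Agent.Lib.MatConj.CentOrder
import Cfsg.Agent.Lib.Forms.Herm

set_option autoImplicit false
open Cfsg

namespace Cfsg.Agent.S2637

open CfsgLib CfsgLib.Unitary Matrix Polynomial Module

theorem card_iso {F K V : Type*} [Field F] [Field K] [Fintype K] [Algebra F K] {q : ℕ}
    (hK : Fintype.card K = q ^ 2) [AddCommGroup V] [Module F V] [Module K V] [IsScalarTower F K V]
    [FiniteDimensional K V] {B : LinearMap.BilinForm F V} (hB : ∀ u v, B u v = -B v u)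
    (hB0 : ∀ v, (∀ u, B u v = 0) → v = 0) {z : K} (hz : z ^ 2 + z + 1 = 0) (hzq : z ^ q = z ^ 2)
    (hz1 : z ≠ 1) (hi : ∀ c, algebraMap F K c ^ q = algebraMap F K c)
    (hg : ∀ k : K, ∃ a b : F, k = algebraMap F K a * z + algebraMap F K b)
    (hBz : ∀ u v, B (z • u) (z • v) = B u v) :
    Nat.card {g : V →ₗ[F] V // (∀ v, g (z • v) = z • g v) ∧ ∀ u v, B (g u) (g v) = B u v} =
      Nat.card (GU (finrank K V) K q) := by
  let h : V → V → K := fun u v => z ^ 2 * algebraMap F K (B u v) - algebraMap F K (B (z • u) v)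
  have hzz : ∀ u : V, z • z • u = -(z • u) - u := fun u => by
    rw [smul_smul, show z * z = -z - 1 by linear_combination hz, sub_smul, neg_smul, one_smul]
  have h1 : ∀ x y v, h (x + y) v = h x v + h y v := fun x y v => by simp [h]; ring
  have h2 : ∀ (c : K) x v, h (c • x) v = c * h x v := fun c x v => by
    obtain ⟨a, b, rfl⟩ := hg c
    simp only [h, add_smul, mul_smul, algebraMap_smul, smul_add, smul_comm z a, smul_comm z b, hzz,
      map_add, map_smul, map_sub, map_neg, LinearMap.add_apply, LinearMap.smul_apply,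
      LinearMap.sub_apply, LinearMap.neg_apply, smul_eq_mul, map_mul]
    linear_combination (algebraMap F K a * (algebraMap F K (B (z • x) v) -
      (z - 1) * algebraMap F K (B x v))) * hz
  have h3 : ∀ v w, h v w = h w v ^ q := fun v w => by
    have : B (z • w) v = B (z • v) w + B v w := by
      rw [← hBz (z • w), hzz, map_sub, map_neg, LinearMap.sub_apply, LinearMap.neg_apply, hBz,
        hB w v, hB w (z • v)]
      ring
    simp only [h, sub_pow_q hK, mul_pow, hi, pow_right_comm z 2, hzq, this, hB w v, map_neg,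
      map_add, neg_pow_q hK, add_pow_q hK]
    linear_combination (algebraMap F K (B v w) * (z ^ 2 - z + 1)) * hz
  have h5 : ∀ a b : F, z ^ 2 * algebraMap F K a - algebraMap F K b = 0 → a = 0 := fun a b hab => by
    have h6 := congrArg (· ^ q) hab
    simp only [sub_pow_q hK, mul_pow, hi, pow_right_comm z 2, hzq, zero_pow_q hK] at h6
    have h7 : z * (z - 1) * algebraMap F K a = 0 := by
      linear_combination hab - h6 + algebraMap F K a * z * (z - 1) * hz
    have hz0 : z ≠ 0 := by rintro rfl; simp at hz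
    simpa [hz0, sub_eq_zero, hz1] using h7
  let H : V →ₛₗ[conj hK] V →ₗ[K] K := LinearMap.mk₂'ₛₗ (conj hK) (RingHom.id K) (fun u v => h v u)
    (fun x y v => by rw [h3, h1, add_pow_q hK, ← h3, ← h3])
    (fun c x v => by rw [h3, h2, mul_pow, ← h3]; rfl) (fun v x y => h1 x y v)
    (fun c v x => h2 c x v)
  obtain ⟨b, hb⟩ := (Forms.ofHerm_isHerm_of_finite (conj_ne_id hK) (conj_conj hK) H
    ⟨fun x y => (h3 x y).symm⟩).exists_orthonormal_basis
      (fun v hv => hB0 v fun u => h5 _ _ (hv u))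
  have h8 : ∀ u v, h u v = hermForm _ K q (b.equivFun u) (b.equivFun v) := fun u v => by
    change H v u = _
    conv_lhs => rw [← b.sum_equivFun u, ← b.sum_equivFun v]
    have hb' : ∀ i j, H (b i) (b j) = if i = j then 1 else 0 := hb
    simp [-Basis.equivFun_apply, herm_def, map_smulₛₗ, hb', conj_apply]
  have h9 : ∀ (g : V →ₗ[K] V) v, b.equivFun (g v) = LinearMap.toMatrix b b g *ᵥ b.equivFun v :=
    fun g v => (LinearMap.toMatrix_mulVec_repr b b g v).symm
  have h10 : ∀ (M : GU (finrank K V) K q) u v,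
      B (toLin b b M.1.1 u) (toLin b b M.1.1 v) = B u v := fun M u v => by
    have := h8 (toLin b b M.1.1 u) (toLin b b M.1.1 v)
    rw [h9, h9, LinearMap.toMatrix_toLin, (mem_GU_iff' _).1 M.2, ← h8] at this
    refine sub_eq_zero.1 (h5 _ (B (z • toLin b b M.1.1 u) (toLin b b M.1.1 v) - B (z • u) v) ?_)
    simp only [h] at this
    rw [map_sub, map_sub]
    linear_combination this
  refine (Nat.card_congr (Equiv.ofBijective (fun M : GU (finrank K V) K q =>
    ⟨(toLin b b M.1.1).restrictScalars F, (toLin b b M.1.1).map_smul z, h10 M⟩)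
    ⟨fun M N hMN => ?_, fun ⟨g, hg1, hg2⟩ => ?_⟩)).symm
  · exact Subtype.ext (Units.ext ((toLin b b).injective (LinearMap.ext fun v =>
      LinearMap.congr_fun (congrArg Subtype.val hMN) v)))
  · let g' : V →ₗ[K] V := ⟨⟨g, g.map_add⟩, fun c v => by
      obtain ⟨a, b, rfl⟩ := hg c
      simp [add_smul, mul_smul, hg1]⟩
    refine ⟨mkGU hK (LinearMap.toMatrix b b g') fun u v => ?_, Subtype.ext (LinearMap.ext fun v => ?_)⟩
    · obtain ⟨u, rfl⟩ := b.equivFun.surjective u
      obtain ⟨v, rfl⟩ := b.equivFun.surjective v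
      rw [← h9, ← h9, ← h8, ← h8]
      simp only [h]
      exact congrArg₂ _ (congrArg _ (congrArg _ (hg2 u v))) (congrArg _ (hg1 u ▸ hg2 _ v))
    · simp [coe_mkGU, g']

/-- Centraliser of a fixed-point-free element of order three in Sp_2m(q) when q ≡ 2 (mod 3): if x ∈ Sp_2m(F) (|F| = q, m ≥ 1) satisfies x³ = 1 and x − 1 is invertible, then its centraliser in Sp_2m(F) has the order of the unitary group GU_m(q), namely q^(m(m−1)/2) Π_(i=1)^m (q^i − (−1)^i) (x lies in the centre of a subgroup GU_m(q) of Sp_2m(q)). -/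
theorem result {F : Type*} [Field F] [Fintype F] {q : ℕ} (hF : Fintype.card F = q) (hq : q % 3 = 2) {m : ℕ} (hm : 1 ≤ m) (x : Matrix.symplecticGroup (Fin m) F) (hx3 : x ^ 3 = 1) (hfpf : IsUnit ((x : Matrix (Fin m ⊕ Fin m) (Fin m ⊕ Fin m) F) - 1)) : (Nat.card ↥(Subgroup.centralizer ({x} : Set ↥(Matrix.symplecticGroup (Fin m) F))) : ℤ) = (q : ℤ) ^ (m * (m - 1) / 2) * ∏ i : Fin m, ((q : ℤ) ^ ((i : ℕ) + 1) - (-1) ^ ((i : ℕ) + 1)) := by
  subst hF
  classical
  have h3 : ∀ {K : Type _} [Field K] [Algebra F K] {z : K}, z ^ 2 + z + 1 = 0 →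
      z ^ Fintype.card F = z ^ 2 ∧ z ≠ 1 := fun {K _ _ z} hz => by
    have h1 : z ^ 3 = 1 := by linear_combination (z - 1) * hz
    refine ⟨by rw [← Nat.div_add_mod (Fintype.card F) 3, pow_add, pow_mul, h1, one_pow, one_mul, hq],
      ?_⟩
    rintro rfl
    have h2 : ((Fintype.card F : ℕ) : K) = 0 := by
      rw [← map_natCast (algebraMap F K), FiniteField.cast_card_eq_zero, map_zero]
    rw [← Nat.div_add_mod (Fintype.card F) 3, hq] at h2
    push_cast at h2
    exact one_ne_zero (α := K) (by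
      linear_combination (1 + ((Fintype.card F / 3 : ℕ) : K)) * hz - h2)
  have hd : (X ^ 2 + X + 1 : F[X]).natDegree = 2 := by compute_degree!
  have hm' : (X ^ 2 + X + 1 : F[X]).Monic := by monicity!
  have : Fact (Irreducible (X ^ 2 + X + 1 : F[X])) := ⟨irreducible_of_degree_le_three_of_not_isRoot
    (by simp [hd]) fun z hz => by
      have hz' : z ^ 2 + z + 1 = 0 := by simpa using hz
      obtain ⟨h1, h2⟩ := h3 hz'
      rw [FiniteField.pow_card] at h1
      have hz0 : z ≠ 0 := by rintro rfl; simp at hz'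
      exact h2 (mul_left_cancel₀ hz0 (by linear_combination -h1))⟩
  let pb := AdjoinRoot.powerBasis' hm'
  have hpb : minpoly F pb.gen = X ^ 2 + X + 1 := by
    simpa [pb, hm'.leadingCoeff] using AdjoinRoot.minpoly_root hm'.ne_zero
  have hpd : pb.dim = 2 := hd
  let K := AdjoinRoot (X ^ 2 + X + 1 : F[X])
  have := pb.finite
  have : Finite K := Module.finite_of_finite F
  let := Fintype.ofFinite K
  have hK : Fintype.card K = Fintype.card F ^ 2 := by
    rw [Module.card_eq_pow_finrank (K := F), pb.finrank, hpd]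
  have hz : pb.gen ^ 2 + pb.gen + 1 = 0 := by simpa [hpb] using minpoly.aeval F pb.gen
  have hx : x.1 ^ 2 + x.1 + 1 = 0 := hfpf.mul_right_cancel (by
    have : x.1 ^ 3 = 1 := congrArg Subtype.val hx3
    rw [zero_mul, ← sub_eq_zero.2 this]; noncomm_ring)
  let φ : K →ₐ[F] End F (Fin m ⊕ Fin m → F) := pb.lift (toLin' x.1) (by
    rw [hpb, MatConj.aeval_toLin']; simp [hx])
  let : Module K (Fin m ⊕ Fin m → F) := Module.compHom _ φ.toRingHom
  have hs : ∀ (c : K) (v : Fin m ⊕ Fin m → F), c • v = φ c v := fun _ _ => rfl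
  have : IsScalarTower F K (Fin m ⊕ Fin m → F) := ⟨fun a c v => by simp [hs]⟩
  have : FiniteDimensional K (Fin m ⊕ Fin m → F) := Module.Finite.of_finite
  have hsz : ∀ v : Fin m ⊕ Fin m → F, pb.gen • v = x.1 *ᵥ v := fun v => by
    rw [hs, pb.lift_gen, toLin'_apply]
  have hr : finrank K (Fin m ⊕ Fin m → F) = m := by
    have := Module.finrank_mul_finrank F K (Fin m ⊕ Fin m → F)
    rw [pb.finrank, hpd] at this
    simp at this
    omega
  have := card_iso hK (B := Forms.spB (Fin m) F) (fun u v => ((Forms.spB_isAlt _ _).neg_eq _ _).symm)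
    (Forms.spB_nondegenerate _ _).2 hz (h3 hz).1 (h3 hz).2
    (fun c => by rw [← map_pow, FiniteField.pow_card]) (fun k => by
      obtain ⟨f, h1, rfl⟩ := pb.exists_eq_aeval k
      refine ⟨f.coeff 1, f.coeff 0, ?_⟩
      conv_lhs => rw [eq_X_add_C_of_natDegree_le_one (p := f) (by omega)]
      simp only [map_add, map_mul, aeval_C, aeval_X]
      rfl)
    fun u v => by rw [hsz, hsz, (Forms.mem_sp_iff _).1 x.2]
  rw [hr] at this
  rw [← MatConj.card_GU_int hK, ← this, Nat.cast_inj]
  refine Nat.card_congr ⟨fun c => ⟨toLin' c.1.1, fun v => ?_, (Forms.mem_sp_iff _).1 c.1.2⟩,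
    fun g => ⟨⟨LinearMap.toMatrix' g.1, (Forms.mem_sp_iff _).2 fun u v => by simpa using g.2.2 u v⟩,
      Subgroup.mem_centralizer_singleton_iff.2 (Subtype.ext (toLin'.injective
        (LinearMap.ext fun v => by simpa [hsz] using g.2.1 v)))⟩, fun _ => by simp, fun _ => by simp⟩
  have : c.1.1 * x.1 = x.1 * c.1.1 :=
    congrArg Subtype.val (Subgroup.mem_centralizer_singleton_iff.1 c.2)
  simp [hsz, this]

end Cfsg.Agent.S2637
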