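import Cfsg.Statements.S2638
import Cfsg.Agent.Lib.MatConj.PrimeForm
import Cfsg.Agent.Lib.MatConj.RegUnip

set_option autoImplicit false
open Cfsg

namespace Cfsg.Agent.S2638

open CfsgLib.MatConj Polynomial

/-- If an element x of GL_n(q), n ≥ 1, has prime order r and the multiplicative order of q modulo r is n (r is a primitive prime divisor of q^n − 1, so x acts irreducibly), then the centraliser of x in GL_n(q) is cyclic of order q^n − 1 (the multiplicative group of the field with q^n elements, a Singer cycle). -/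
theorem result {F : Type*} [Field F] [Fintype F] {p q : ℕ} [Fact p.Prime] [CharP F p] (hF : Fintype.card F = q) {n r : ℕ} (hn : 1 ≤ n) (hr : r.Prime) (hrp : r ≠ p) (hi : orderOf (q : ZMod r) = n) (x : GL (Fin n) F) (hx : orderOf x = r) : IsCyclic ↥(Subgroup.centralizer ({x} : Set (GL (Fin n) F))) ∧ Nat.card ↥(Subgroup.centralizer ({x} : Set (GL (Fin n) F))) = q ^ n - 1 := by
  subst hF
  have h1 : x.val ^ r = 1 := by rw [← Units.val_pow_eq_pow_val, ← hx, pow_orderOf_eq_one]; rfl
  obtain ⟨h2, h3, h4⟩ := ntp_of_pow_eq_one hr hrp h1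
  have h5 : ntp x.val ≠ 0 := fun h => by
    rw [← eq_one_iff_ntp hr hrp h1, Units.val_eq_one] at h
    rw [h, orderOf_one] at hx
    exact hr.one_lt.ne hx
  rw [hi, Fintype.card_fin] at h3 h4
  obtain ⟨π, hπ⟩ := Multiset.card_eq_one.1 (le_antisymm (le_of_mul_le_mul_left
    (h3.trans (mul_one n).ge) hn) (Multiset.card_pos.2 h5))
  rw [hπ] at h2 h4
  have h6 := h2 π (by simp)
  have h7 : edM x.val = {(π, 1)} := by simpa [edOf] using h4
  have := Fact.mk (mem_cycFac.1 h6).1
  let φ : AdjoinRoot π →+* Matrix (Fin n) (Fin n) F :=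
    Ideal.Quotient.lift _ (aeval x.val : F[X] →ₐ[F] _).toRingHom fun a ha =>
      (aeval_eq_zero_iff_edM _ _).2 (by simpa [h7, Ideal.mem_span_singleton] using ha)
  have hφ : ∀ a, φ (AdjoinRoot.mk π a) = aeval x.val a := fun _ => rfl
  have : Nonempty (Fin n) := ⟨⟨0, hn⟩⟩
  have h8 : Function.Injective (Units.map φ.toMonoidHom) := Units.map_injective φ.injective
  have h9 : (Units.map φ.toMonoidHom).range = Subgroup.centralizer {x} := by
    ext c
    rw [Subgroup.mem_centralizer_singleton_iff]
    constructor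
    · rintro ⟨u, rfl⟩
      obtain ⟨a, ha⟩ := AdjoinRoot.mk_surjective u.val
      refine Units.ext ?_
      change φ u * x = x * φ u
      rw [← ha, hφ]
      exact (aeval_commute (Commute.refl _) a).symm
    · intro h
      obtain ⟨a, ha⟩ := exists_aeval_eq_of_commute (c := c.val) (by rw [h7]; rfl)
        (congrArg Units.val h)
      refine ⟨Units.mk0 (AdjoinRoot.mk π a) fun h => c.ne_zero ?_, Units.ext ha⟩
      rw [← ha, ← hφ, h, map_zero]
  have := (AdjoinRoot.powerBasis (mem_cycFac.1 h6).1.ne_zero).finite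
  have : Finite (AdjoinRoot π) := Module.finite_of_finite F
  have e := MonoidHom.ofInjective h8
  rw [h9] at e
  refine ⟨isCyclic_of_surjective e e.surjective, ?_⟩
  rw [← Nat.card_congr e.toEquiv, Nat.card_units, Module.natCard_eq_pow_finrank (K := F),
    finrank_adjoinRoot, natDegree_of_mem_cycFac hr hrp h6, hi, Nat.card_eq_fintype_card]

end Cfsg.Agent.S2638
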