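import Mathlib
import Cfsg.Statements.S2639
import Cfsg.Agent.Lib.OrthE.Embed
-- import your own Cfsg.Agent.* helpers here

set_option autoImplicit false
open Cfsg

namespace Cfsg.Agent.S2639

/-- The unitary group embeds in the symplectic group of twice the dimension over the subfield: for a field K with q² elements and a field F with q elements (isomorphic to the subfield of K of order q), there is an injective homomorphism GU_m(q) → Sp_2m(F). -/
theorem result {K F : Type*} [Field K] [Fintype K] [Field F] [Fintype F] {q : ℕ} (hK : Fintype.card K = q ^ 2) (hF : Fintype.card F = q) (m : ℕ) : ∃ φ : ↥(Cfsg.GU m K q) →* ↥(Matrix.symplecticGroup (Fin m) F), Function.Injective φ := by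
  open CfsgLib.OrthE in
  obtain ⟨i, h1, h2⟩ := exists_ringHom_fixed hK hF
  let _ := i.toAlgebra
  exact exists_inj_GU_sp hK hF h1 h2 m

end Cfsg.Agent.S2639
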