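import Mathlib
import Cfsg.Statements.S2640
import Cfsg.Agent.Lib.OrthE.Embed
-- import your own Cfsg.Agent.* helpers here

set_option autoImplicit false
open Cfsg

namespace Cfsg.Agent.S2640

/-- For m even, the unitary group GU_m(q) (over the field with q² elements) embeds in the orthogonal group O⁺_2m(q) of the hyperbolic form Σ x_i y_i over the field with q elements (there is an injective homomorphism). -/
theorem result {K F : Type*} [Field K] [Fintype K] [Field F] [Fintype F] {q : ℕ} (hK : Fintype.card K = q ^ 2) (hF : Fintype.card F = q) (m : ℕ) (hm : Even m) : ∃ φ : ↥(Cfsg.GU m K q) →* ↥(Cfsg.isometryGroup F (Cfsg.quadFormPlus m F)), Function.Injective φ := by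
  open CfsgLib.OrthE in
  obtain ⟨i, h1, h2⟩ := exists_ringHom_fixed hK hF
  let _ := i.toAlgebra
  obtain _ | k := m
  · exact ⟨1, fun a b _ => Subsingleton.elim _ _⟩
  obtain ⟨Q, h3, h4⟩ := exists_hermQ (F := F) hK h1 h2 (k + 1)
  obtain ⟨e, he⟩ := exists_equiv_qPlus_of_card h3 (m := k)
    (by rw [finrank_pi_eq hK hF, Fintype.card_fin]) (by
      have := pow_lt_pow_succ_card (F := F) k
      rw [card_zeros_hermQ hK h4, (Nat.not_even_iff_odd.1 (Nat.even_add_one.1 hm)).neg_one_pow]
      rw [Nat.card_eq_fintype_card, hF] at this ⊢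
      linarith)
  exact exists_inj_GU_O h4 (qPlus_eq _) e he

end Cfsg.Agent.S2640
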