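import Cfsg.Statements.S2642
import Cfsg.Agent.Lib.MatConj.Unitary
import Cfsg.Agent.Lib.MatConj.UnipCount

set_option autoImplicit false
open Cfsg

namespace Cfsg.Agent.S2642

open CfsgLib.MatConj

/-- Number of conjugacy classes of elements of order p in the general unitary group GU_n(q), q a power of p: every unipotent Jordan type occurs and the classes correspond to the partitions of n with all parts at most p other than the all-ones partition, exactly as in GL_n; so there are (number of partitions of n with parts ≤ p) − 1 classes. -/
theorem result {K : Type*} [Field K] [Fintype K] {p q n : ℕ} [Fact p.Prime] [CharP K p] (hK : Fintype.card K = q ^ 2) : Nat.card {C : ConjClasses ↥(Cfsg.GU n K q) // ∃ g : ↥(Cfsg.GU n K q), ConjClasses.mk g = C ∧ orderOf g = p} = (Finset.univ.filter (fun μ : Nat.Partition n => ∀ a ∈ μ.parts, a ≤ p)).card - 1 := by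
  let := unitaryStar hK
  refine card_classes_order_char p ((Units.coeHom _).comp (Cfsg.GU n K q).subtype)
    (Units.val_injective.comp Subtype.val_injective)
    (fun g g' _ h => isConj_GU_of_isConj hK g g' h) fun s h1 h2 => ?_
  obtain ⟨B, h3, h4⟩ := exists_unitary_jt_eq (n := Fin n) (CfsgLib.Unitary.exists_not_fixed hK) h1
    (by rw [h2, Fintype.card_fin])
  obtain ⟨g, rfl⟩ := exists_GU_eq hK h3
  exact ⟨g, h4⟩

end Cfsg.Agent.S2642
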