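import Cfsg.Statements.S2643
import Cfsg.Agent.Lib.MatConj.Unitary

set_option autoImplicit false
open Cfsg

namespace Cfsg.Agent.S2643

open CfsgLib.MatConj CfsgLib.Unitary Matrix Polynomial

theorem det_of_commute {K : Type*} [Field K] [StarRing K] {n : Type*} [Fintype n] [DecidableEq n]
    {u c : Matrix n n K} (hu : IsNilpotent (u - 1)) (hr : (u - 1).rank + 1 = Fintype.card n)
    (hc : Commute c u) (h : star c * c = 1) :
    ∃ d : K, d * star d = 1 ∧ c.det = d ^ Fintype.card n := by
  obtain ⟨a, rfl⟩ := reg_exists_aeval hu hr hc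
  refine ⟨a.eval 1, ?_, reg_det_aeval hu hr a⟩
  set d := a.eval 1
  set c := aeval u a
  have h1 : IsNilpotent (c - d • 1) := by
    obtain ⟨b, hb⟩ := X_sub_C_dvd_sub_C_eval (p := a) (a := (1 : K))
    have := congrArg (aeval u) hb
    simp only [map_sub, map_mul, aeval_X, aeval_C, map_one, Algebra.algebraMap_eq_smul_one] at this
    rw [this]
    exact (aeval_commute ((Commute.refl u).sub_left (Commute.one_left u)) b).isNilpotent_mul_right hu
  have h2 : IsNilpotent (1 - star d • c) := by
    have h3 : IsNilpotent (star c - star d • 1) := by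
      obtain ⟨k, hk⟩ := h1
      exact ⟨k, by simpa using congrArg star hk⟩
    have h4 : Commute (star c - star d • 1) c := by
      refine Commute.sub_left ?_ ((Commute.one_left c).smul_left _)
      rw [Commute, SemiconjBy, h, mul_eq_one_comm.1 h]
    simpa [sub_mul, h] using h4.isNilpotent_mul_right h3
  have h3 : IsNilpotent ((1 - d * star d) • (1 : Matrix n n K)) := by
    have h4 : Commute (1 - star d • c) (star d • (c - d • 1)) :=
      (Commute.one_left _).sub_left
        ((((Commute.refl c).sub_right ((Commute.one_right c).smul_right _)).smul_left _).smul_right _)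
    have := h4.isNilpotent_add h2 (h1.smul (star d))
    rwa [smul_sub, sub_add_sub_cancel, smul_smul, mul_comm, ← one_smul K (1 : Matrix n n K),
      smul_smul, mul_one, ← sub_smul] at this
  obtain ⟨k, hk⟩ := h3
  have : Nonempty n := Fintype.card_pos_iff.1 (by omega)
  rw [_root_.smul_pow, one_pow, smul_eq_zero_iff_left one_ne_zero] at hk
  exact (sub_eq_zero.1 (eq_zero_of_pow_eq_zero hk)).symm

/-- Regular unipotent classes of SU_n(q), n ≥ 2: the elements u of the special unitary group (isometries of Σ u_i v_i^q of determinant one over the field with q² elements) with (u − 1)^n = 0 and rank(u − 1) = n − 1 form exactly gcd(n, q + 1) conjugacy classes of SU_n(q). -/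
theorem result {K : Type*} [Field K] [Fintype K] {q n : ℕ} (hK : Fintype.card K = q ^ 2) (hn : 2 ≤ n) : Nat.card {C : ConjClasses ↥(Cfsg.SU n K q) // ∃ u : ↥(Cfsg.SU n K q), ConjClasses.mk u = C ∧ (((u : GL (Fin n) K) : Matrix (Fin n) (Fin n) K) - 1) ^ n = 0 ∧ (((u : GL (Fin n) K) : Matrix (Fin n) (Fin n) K) - 1).rank = n - 1} = Nat.gcd n (q + 1) := by
  let := unitaryStar hK
  have hK' := exists_not_fixed hK
  obtain ⟨A, hU, hA, hjt⟩ := exists_unitary_jt_eq (n := Fin n) hK' (s := {n})
    (fun e he => by rw [Multiset.mem_singleton.1 he]; omega) (by simp)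
  have hr : (A - 1).rank + 1 = Fintype.card (Fin n) := by
    have := card_jt_add_rank hA
    rw [hjt, Multiset.card_singleton] at this
    omega
  let x₀ : SpecialLinearGroup (Fin n) K := ⟨A, det_eq_one_of_isNilpotent_sub_one hA⟩
  let x : Cfsg.SU n K q := ⟨x₀, (mem_SU_iff_star hK x₀).2 hU⟩
  let φ : Cfsg.SU n K q →* Cfsg.GU n K q :=
    (SpecialLinearGroup.toGL.comp (Cfsg.SU n K q).subtype).codRestrict _ fun g => g.2
  let M : Subgroup Kˣ := (powMonoidHom (q + 1)).ker
  have hM : ∀ ν : Kˣ, ν ∈ M ↔ (ν : K) * star (ν : K) = 1 := fun ν => by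
    rw [MonoidHom.mem_ker, powMonoidHom_apply, Units.ext_iff, Units.val_pow_eq_pow_val, pow_succ']
    rfl
  let δ : Cfsg.GU n K q →* M :=
    (GeneralLinearGroup.det.comp (Cfsg.GU n K q).subtype).codRestrict _ fun g => by
      rw [hM]
      have := congrArg det ((mem_GU_iff_star hK _).1 g.2)
      rwa [det_mul, det_star, det_one, mul_comm] at this
  have hδ : ∀ g, ((δ g : Kˣ) : K) = ((g : GL (Fin n) K) : Matrix (Fin n) (Fin n) K).det :=
    fun _ => rfl
  have hsurj : Function.Surjective δ := by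
    intro ν
    have : Nonempty (Fin n) := ⟨⟨0, by omega⟩⟩
    obtain ⟨y, hy⟩ := Multiset.exists_mem_of_ne_zero (edM_ne_zero (1 : Matrix (Fin n) (Fin n) K))
    have h1 : y.2 = 1 := (eq_one_iff_jt (by simp)).1 rfl _ (Multiset.mem_map_of_mem _ hy)
    obtain ⟨u, h2, -, h3⟩ := exists_unitary_commute_det hK' (by simp) hy ((hM ν).1 ν.2)
    obtain ⟨g, rfl⟩ := exists_GU_eq hK h2
    exact ⟨g, Subtype.ext (Units.ext (by rw [hδ, h3, h1, pow_one]))⟩
  have h := card_classes_split φ
    (fun a b h => Subtype.ext (SpecialLinearGroup.toGL_injective (congrArg Subtype.val h))) δ hsurj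
    (fun g => ⟨fun hg => ⟨⟨⟨g.1, by rw [← hδ, hg]; rfl⟩, g.2⟩, Subtype.ext (Units.ext rfl)⟩,
      by rintro ⟨h, rfl⟩; exact Subtype.ext (Units.ext h.1.2)⟩) x
  have h2 : (Subgroup.centralizer {φ x}).map δ = (powMonoidHom n : M →* M).range := by
    ext d
    constructor
    · rintro ⟨c, hc, rfl⟩
      have hc' : Commute ((c : GL (Fin n) K) : Matrix (Fin n) (Fin n) K) A :=
        congrArg (fun g : Cfsg.GU n K q => ((g : GL (Fin n) K) : Matrix (Fin n) (Fin n) K))
          (Subgroup.mem_centralizer_singleton_iff.1 hc)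
      obtain ⟨a, ha, ha'⟩ := det_of_commute hA hr hc' ((mem_GU_iff_star hK _).1 c.2)
      rw [Fintype.card_fin] at ha'
      exact ⟨⟨Units.mk0 a (left_ne_zero_of_mul_eq_one ha), (hM _).2 ha⟩,
        Subtype.ext (Units.ext (by rw [hδ, ha']; simp))⟩
    · rintro ⟨a, rfl⟩
      have h3 : (X - 1, n) ∈ edM A := by
        rw [reg_edM hA hr, Fintype.card_fin]
        exact Multiset.mem_singleton_self _
      obtain ⟨u, h4, h5, h6⟩ := exists_unitary_commute_det hK' hU h3 ((hM a).1 a.2)
      obtain ⟨g, rfl⟩ := exists_GU_eq hK h4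
      refine ⟨g, ?_, Subtype.ext (Units.ext (by rw [hδ, h6]; simp))⟩
      rw [SetLike.mem_coe, Subgroup.mem_centralizer_singleton_iff]
      exact Subtype.ext (Units.ext h5.eq)
  have h3 : Nat.card M = q + 1 := by
    rw [IsCyclic.card_powMonoidHom_ker, Nat.card_units, Nat.card_eq_fintype_card, hK,
      sq_sub_one_eq q (by have := two_le_q hK; omega), Nat.gcd_mul_right_left]
  rw [h2, IsCyclic.index_powMonoidHom_range, h3, Nat.gcd_comm] at h
  rw [← h]
  refine Nat.card_congr (Equiv.subtypeEquivRight fun C => exists_congr fun u =>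
    and_congr_right fun _ => ?_)
  change ((u.1 : Matrix (Fin n) (Fin n) K) - 1) ^ n = 0 ∧
    ((u.1 : Matrix (Fin n) (Fin n) K) - 1).rank = n - 1 ↔ _
  constructor
  · rintro ⟨h3, h4⟩
    apply isConj_GU_of_isConj hK
    change IsConj A (u.1 : Matrix (Fin n) (Fin n) K)
    rw [isConj_iff_jt hA ⟨n, h3⟩, hjt, jt_eq_singleton_of_rank ⟨n, h3⟩
      (by rw [h4, Fintype.card_fin]; omega), Fintype.card_fin]
  · intro h3'
    have h3 : IsConj A (u.1 : Matrix (Fin n) (Fin n) K) :=
      ((Units.coeHom _).comp (Cfsg.GU n K q).subtype).map_isConj h3'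
    have h4 := isNilpotent_sub_one_of_isConj h3 hA
    have h5 := rank_sub_one_pow_eq_of_isConj h3 1
    rw [pow_one, pow_one] at h5
    rw [h5] at hr
    refine ⟨by simpa using reg_pow_card h4 hr, ?_⟩
    rw [Fintype.card_fin] at hr
    omega

end Cfsg.Agent.S2643
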