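import Cfsg.Statements.S2644
import Cfsg.Agent.Lib.MatConj.Unitary
import Cfsg.Agent.S2579

set_option autoImplicit false
open Cfsg

namespace Cfsg.Agent.S2644

open CfsgLib.MatConj

/-- In the special unitary group SU_n(q) with n ≥ 3 (isometries of Σ u_i v_i^q of determinant one over the field with q² elements), any two transvections (elements t with t − 1 of rank one and square zero) are conjugate. -/
theorem result {K : Type*} [Field K] [Fintype K] {q n : ℕ} (hK : Fintype.card K = q ^ 2) (hn : 3 ≤ n) (s t : ↥(Cfsg.SU n K q)) (hs : Cfsg.IsTransvection (((s : GL (Fin n) K) : Matrix (Fin n) (Fin n) K))) (ht : Cfsg.IsTransvection (((t : GL (Fin n) K) : Matrix (Fin n) (Fin n) K))) : IsConj s t := by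
  have hs1 : IsNilpotent (((s : GL (Fin n) K) : Matrix (Fin n) (Fin n) K) - 1) :=
    ⟨2, by rw [pow_two, hs.2]⟩
  have ht1 : IsNilpotent (((t : GL (Fin n) K) : Matrix (Fin n) (Fin n) K) - 1) :=
    ⟨2, by rw [pow_two, ht.2]⟩
  refine isConj_SU_of_isConj hK s t
    ((isConj_iff_jt hs1 ht1).2 (Cfsg.Agent.S2579.jt_eq hs ht)) fun ν hν => ?_
  have h1 := count_jt_add hs1 0
  simp only [Cfsg.Agent.S2579.jt_transvection hs] at h1
  have h2 : 1 ∈ jt ((s : GL (Fin n) K) : Matrix (Fin n) (Fin n) K) := by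
    rw [← Multiset.count_pos]
    simp only [Nat.reduceAdd, ↓reduceIte, one_ne_zero, OfNat.ofNat_ne_zero,
      OfNat.ofNat_ne_one] at h1
    omega
  obtain ⟨x, hx, h3⟩ := Multiset.mem_map.1 h2
  exact ⟨x, hx, ν, hν, by rw [h3, pow_one]⟩

end Cfsg.Agent.S2644
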