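import Cfsg.Statements.S2645
import Cfsg.Agent.Lib.MatConj.PrimeForm
import Cfsg.Agent.S2589

set_option autoImplicit false
open Cfsg

namespace Cfsg.Agent.S2645

open CfsgLib.MatConj CfsgLib.Forms

/-- Number of conjugacy classes of elements of odd prime order r, r different from the characteristic, in the symplectic group Sp_2m(q): let i be the multiplicative order of q modulo r and t = (r − 1)/i. If i is odd the eigenvalue orbits pair off (Λ ≠ Λ⁻¹) and the classes correspond to the non-zero (t/2)-tuples (a_j) with 2i Σ a_j ≤ 2m, giving C(⌊m/i⌋ + t/2, t/2) − 1 classes; if i is even (Λ = Λ⁻¹) they correspond to the non-zero t-tuples with i Σ a_j ≤ 2m, giving C(⌊2m/i⌋ + t, t) − 1 classes. -/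
theorem result {F : Type*} [Field F] [Fintype F] {p q : ℕ} [Fact p.Prime] [CharP F p] (hF : Fintype.card F = q) (m r i t : ℕ) (hr : r.Prime) (hr2 : r ≠ 2) (hrp : r ≠ p) (hi : i = orderOf (q : ZMod r)) (ht : t * i = r - 1) : Nat.card {C : ConjClasses ↥(Matrix.symplecticGroup (Fin m) F) // ∃ g : Matrix.symplecticGroup (Fin m) F, ConjClasses.mk g = C ∧ orderOf g = r} = if Odd i then Nat.choose (m / i + t / 2) (t / 2) - 1 else Nat.choose (2 * m / i + t) t - 1 := by
  subst hF hi
  rw [card_classes_order_prime hr hrp (Matrix.symplecticGroup (Fin m) F).subtype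
    Subtype.val_injective (fun g g' hg h => (Cfsg.Agent.S2589.result (p := p) g g'
      (hg ▸ (Nat.coprime_primes hr Fact.out).2 hrp)).2 h)
    (fun M => M.map (tilde (RingHom.id F)) = M), card_mult_recip hr hrp hr2 ht,
    Fintype.card_sum, Fintype.card_fin, ← two_mul, Nat.div_div_eq_div_mul, mul_comm _ 2,
    Nat.mul_div_mul_left _ _ two_pos]
  · split_ifs <;> rfl
  · intro M hM k hk
    rw [Fintype.card_sum, Fintype.card_fin] at hk
    constructor
    · intro h
      obtain ⟨j, hj⟩ := even_mul_card hr hrp hr2 hM h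
      obtain ⟨l, rfl⟩ : ∃ l, k = 2 * l := ⟨m - j, by omega⟩
      exact (altReal_edOf hr hrp hr2 hM h l).exists_sp (by rw [deg_edOf hr hrp _ hM]; omega)
    · rintro ⟨g, hg⟩
      exact map_tilde_of_edOf (hg ▸ edM_recip_of_isometry (spB_nondegenerate (Fin m) F)
        ((mem_sp_iff _).1 g.2))

end Cfsg.Agent.S2645
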