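import Cfsg.Statements.S2646
import Cfsg.Agent.Lib.MatConj.CentOrder

set_option autoImplicit false
open Cfsg

namespace Cfsg.Agent.S2646

open CfsgLib.MatConj

/-- Order of the centraliser in the general unitary group GU_n(q) of a unipotent element of given Jordan type: if u ∈ GU_n(q) (isometries of Σ u_i v_i^q over the field with q² elements) is similar to the unipotent matrix with a_i Jordan blocks of size i (all sizes at least 1), then its centraliser in GU_n(q) has order q^γ · Π_i |GU_(a_i)(q)| with γ = 2 Σ_(i<j) i a_i a_j + Σ_i (i − 1) a_i², the same exponent as in GL_n(q), where |GU_a(q)| = q^(a(a−1)/2) Π_(k=1)^a (q^k − (−1)^k). -/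
theorem result {K : Type*} [Field K] [Fintype K] {q n t : ℕ} (hK : Fintype.card K = q ^ 2) (d : Fin t → ℕ) (hd : ∀ k, 1 ≤ d k) (e : ((k : Fin t) × Fin (d k)) ≃ Fin n) (u : ↥(Cfsg.GU n K q)) (hu : IsConj (Matrix.reindex e e (Cfsg.jordanTypeMatrix d K)) ((u : GL (Fin n) K) : Matrix (Fin n) (Fin n) K)) : (Nat.card ↥(Subgroup.centralizer ({u} : Set ↥(Cfsg.GU n K q))) : ℤ) = (q : ℤ) ^ (2 * (∑ i ∈ Finset.range (Finset.univ.sup d + 1), ∑ j ∈ Finset.range (Finset.univ.sup d + 1), if i < j then i * (Finset.univ.filter (fun k : Fin t => d k = i)).card * (Finset.univ.filter (fun k : Fin t => d k = j)).card else 0) + ∑ i ∈ Finset.range (Finset.univ.sup d + 1), (i - 1) * (Finset.univ.filter (fun k : Fin t => d k = i)).card ^ 2) * ∏ i ∈ Finset.range (Finset.univ.sup d + 1), ((q : ℤ) ^ ((Finset.univ.filter (fun k : Fin t => d k = i)).card * ((Finset.univ.filter (fun k : Fin t => d k = i)).card - 1) / 2) * ∏ j : Fin (Finset.univ.filter (fun k : Fin t => d k = i)).card,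 ((q : ℤ) ^ ((j : ℕ) + 1) - (-1) ^ ((j : ℕ) + 1))) := by
  obtain ⟨d, rfl⟩ : ∃ d' : Fin t → ℕ, d = fun k => d' k + 1 :=
    ⟨fun k => d k - 1, funext fun k => (Nat.sub_add_cancel (hd k)).symm⟩
  let := unitaryStar hK
  obtain ⟨c, h1, h2⟩ := card_unitary_commute (CfsgLib.Unitary.exists_not_fixed hK)
    ((mem_GU_iff_star hK _).1 u.2) (d := d) ((isConj_iff_edM.1 hu).symm.trans (edM_reindex _ _))
    fun k => Finset.le_sup (f := fun k => d k + 1) (Finset.mem_univ k)
  rw [Nat.card_eq_fintype_card, hK, ← pow_mul, mul_comm, pow_mul] at h1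
  obtain rfl := Nat.pow_left_injective two_ne_zero h1
  rw [← prod_fin_eq_prod_range_succ d _ (fun a => (q : ℤ) ^ (a * (a - 1) / 2) *
    ∏ j : Fin a, ((q : ℤ) ^ (j.1 + 1) - (-1) ^ (j.1 + 1))) (by simp),
    ← Finset.prod_congr rfl fun i _ => card_GU_int hK _]
  norm_cast
  refine (Nat.card_congr ?_).trans (h2.trans (congrArg _ (Finset.prod_congr rfl fun i _ =>
    Nat.card_congr (Equiv.subtypeEquivRight fun g => (mem_GU_iff_star hK g).symm))))
  exact ⟨fun c => ⟨c.1.1, (congrArg (fun g : Cfsg.GU n K q => g.1.1)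
    (Subgroup.mem_centralizer_singleton_iff.1 c.2) :), (mem_GU_iff_star hK _).1 c.1.2⟩,
    fun c => ⟨⟨c.1, (mem_GU_iff_star hK _).2 c.2.2⟩, Subgroup.mem_centralizer_singleton_iff.2
      (Subtype.ext (Units.ext c.2.1))⟩, fun _ => rfl, fun _ => rfl⟩

end Cfsg.Agent.S2646
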