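import Cfsg.Statements.S2665
import Cfsg.Agent.Lib.Lang.Field

set_option autoImplicit false
open scoped MatrixGroups
open Cfsg

namespace Cfsg.Agent.S2665

open CfsgLib.Lang Matrix

theorem exists_ext.{u} (K : Type u) [Field K] (I : Type) : ∃ (Ω : Type u) (_ : Field Ω)
    (_ : Algebra K Ω) (_ : IsAlgClosed Ω) (b : I → Ω), IsTranscendenceBasis K b :=
  have := IsLocalization.isAlgebraic (FractionRing (MvPolynomial I K))
    (nonZeroDivisors (MvPolynomial I K))
  ⟨AlgebraicClosure (FractionRing (MvPolynomial I K)), inferInstance, inferInstance, inferInstance, _,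
    ((IsTranscendenceBasis.mvPolynomial I K).algebraMap_comp
      (A := FractionRing (MvPolynomial I K))).algebraMap_comp⟩

open Classical in
/-- The invertible matrix with the given entries, if there is one. -/
noncomputable def par {Ω : Type*} [Field Ω] {n : ℕ} (t : Fin n × Fin n → Ω) : GL (Fin n) Ω :=
  if h : (Matrix.of fun i j => t (i, j)).det ≠ 0 then GeneralLinearGroup.mkOfDetNeZero _ h else 1

theorem par_val {Ω : Type*} [Field Ω] {n : ℕ} {t : Fin n × Fin n → Ω}
    (h : (Matrix.of fun i j => t (i, j)).det ≠ 0) : (par t).1 = Matrix.of fun i j => t (i, j) := by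
  rw [par, dif_pos h]
  rfl

theorem det_comp {Ω Ω' : Type*} [CommRing Ω] [CommRing Ω'] {n : ℕ} (σ : Ω →+* Ω')
    (t : Fin n × Fin n → Ω) :
    (Matrix.of fun i j => (σ ∘ t) (i, j)).det = σ (Matrix.of fun i j => t (i, j)).det := by
  rw [RingHom.map_det]
  rfl

/-- The Lang–Steinberg Theorem for the general linear group. Let `K` be an algebraically closed field of prime characteristic `p`, let `q = p^f` with `f ≥ 1`, and let `σ` be the endomorphism of GL_n(K) raising every matrix entry to the `q`-th power. Then every element `g` of GL_n(K) can be written `g = x · σ(x)⁻¹` for some `x` in GL_n(K): the map `x ↦ x σ(x)⁻¹` is surjective. -/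
theorem result {K : Type*} [Field K] [IsAlgClosed K] (p : ℕ) [Fact p.Prime] [CharP K p]
    (f : ℕ) (hf : 1 ≤ f) (n : ℕ) (g : GL (Fin n) K) :
    ∃ x : GL (Fin n) K, g = x * (Matrix.GeneralLinearGroup.map (iterateFrobenius K p f) x)⁻¹ := by
  obtain ⟨Ω, _, _, _, b, hb⟩ := exists_ext K (Fin n × Fin n)
  have : CharP Ω p := charP_of_injective_algebraMap (algebraMap K Ω).injective p
  have hQ : 1 < p ^ f := Nat.one_lt_pow (by omega) (Fact.out : p.Prime).one_lt
  let ι := algebraMap K Ω
  have h1 : (Matrix.of fun i j => b (i, j)).det ≠ 0 := by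
    have h := det_comp (MvPolynomial.aeval (R := K) b).toRingHom MvPolynomial.X
    have h2 : (MvPolynomial.aeval (R := K) b).toRingHom ∘ MvPolynomial.X = b := by ext; simp
    rw [h2] at h
    rw [h]
    exact fun h0 => Matrix.det_mvPolynomialX_ne_zero (Fin n) K (hb.1 (h0.trans (map_zero _).symm))
  have h2 : ∀ σ : Ω ≃ₐ[K] Ω, (Matrix.of fun i j => (σ ∘ b) (i, j)).det ≠ 0 := fun σ =>
    (det_comp (σ : Ω →+* Ω) b).trans_ne ((map_ne_zero _).2 h1)
  obtain ⟨z, -, hz⟩ := lang_abstract hb (Units.coeHom (Matrix (Fin n) (Fin n) Ω))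
    Units.val_injective (fun σ => GeneralLinearGroup.map (σ : Ω →+* Ω)) (fun _ _ => rfl)
    (GeneralLinearGroup.map (iterateFrobenius Ω p f))
    (fun σ x => by ext; simp [iterateFrobenius_def]) (m := 1) hQ
    (fun x i j => iterateFrobenius_def ..) ⊤ (fun _ _ => trivial) (fun _ _ _ => trivial) par
    (fun σ t => by
      by_cases h : (Matrix.of fun i j => t (i, j)).det ≠ 0
      · have h' := (det_comp (σ : Ω →+* Ω) t).trans_ne ((map_ne_zero _).2 h)
        ext i j
        exact (congrArg σ (congrFun (congrFun (par_val h) i) j)).trans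
          (congrFun (congrFun (par_val h') i) j).symm
      · have h' : ¬ (Matrix.of fun i j => (σ ∘ t) (i, j)).det ≠ 0 := fun h' =>
          h' ((det_comp (σ : Ω →+* Ω) t).trans (by rw [not_not.1 h, map_zero]))
        rw [par, par, dif_neg h, dif_neg h', map_one]) trivial
    (fun σ h => by
      have h3 := congrArg Units.val h
      rw [par_val h1, par_val (h2 σ)] at h3
      exact funext fun x => congrFun (congrFun h3 x.1) x.2)
    (fun y _ => ⟨fun x => y.1 x.1 x.2, Or.inl (Units.ext (par_val (t := fun x => y.1 x.1 x.2)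
      (GeneralLinearGroup.det_ne_zero y)).symm)⟩)
    (a := GeneralLinearGroup.map ι g) trivial (fun σ => by ext; simp [ι])
  have e7 : ∀ i j, Alg K ∅ (z.1 i j) := fun i j => by
    refine alg_of_pow_eq (x := fun j => z.1 i j) (c := fun j k => ι (g.1 k j)) hQ
      (fun j k => alg_of_fix fun σ _ => σ.commutes _) (fun j => ?_) j
    have := congrArg (fun x : GL (Fin n) Ω => x.1 i j) (eq_inv_mul_iff_mul_eq.1 hz)
    simp only [Units.val_mul, Matrix.mul_apply] at this
    rw [← iterateFrobenius_def]
    exact this.symm.trans (Finset.sum_congr rfl fun k _ => mul_comm _ _)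
  have e8 : ∀ x : Ω, Alg K ∅ x → ∃ y, ι y = x := fun x hx => by
    rw [Alg, Algebra.adjoin_empty] at hx
    have h4 : IsIntegral K x := (Subalgebra.isAlgebraic_of_isAlgebraic_bot hx).isIntegral
    exact minpoly.mem_range_of_degree_eq_one K x
      (IsAlgClosed.degree_eq_one_of_irreducible K (minpoly.irreducible h4))
  choose w hw using fun i j => e8 _ (e7 i j)
  have h3 : (Matrix.of w).map ι = z.1 := by ext; exact hw _ _
  have h4 : (Matrix.of w).det ≠ 0 := fun h0 => GeneralLinearGroup.det_ne_zero z (by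
    rw [← h3, ← RingHom.mapMatrix_apply, ← RingHom.map_det, h0, map_zero])
  obtain ⟨z₀, rfl⟩ : ∃ z₀, GeneralLinearGroup.map ι z₀ = z :=
    ⟨GeneralLinearGroup.mkOfDetNeZero _ h4, Units.ext h3⟩
  have hj : Function.Injective (GeneralLinearGroup.map (n := Fin n) ι) := fun a b h =>
    Units.ext (Matrix.map_injective ι.injective (congrArg Units.val h))
  refine ⟨z₀⁻¹, hj ?_⟩
  rw [hz, map_inv, inv_inv, map_mul, map_inv]
  congr 1
  ext
  simp [iterateFrobenius_def]

end Cfsg.Agent.S2665
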