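import Cfsg.Statements.S2669
import Cfsg.Agent.Lib.Shintani.Basic

set_option autoImplicit false
open Cfsg

namespace Cfsg.Agent.S2669

theorem card_of_fibers {T A C : Type*} (f : T → A) (h : ∀ a : A, Nonempty ({t // f t = a} ≃ C)) :
    Nat.card T = Nat.card A * Nat.card C := by
  rw [← Nat.card_prod]
  exact Nat.card_congr ((Equiv.sigmaFiberEquiv f).symm.trans
    (Equiv.sigmaEquivProdOfEquiv fun a => (h a).some))

theorem fix_rep {X : Type*} [Group X] (τ : MulAut X) (Y : Subgroup X)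
    (hYL : ∀ y ∈ Y, ∃ a ∈ Y, y = a * (τ a)⁻¹) (u : X) (hu : u⁻¹ * τ u ∈ Y) :
    ∃ c ∈ Y, τ (u * c) = u * c := by
  obtain ⟨c, hc, h⟩ := hYL _ hu
  refine ⟨c, hc, ?_⟩
  have h2 : τ u = u * (c * (τ c)⁻¹) := by rw [← h]; group
  rw [map_mul, h2]; group


/-- Shintani descent preserves numbers of fixed points on coset spaces (abstract form). Let `σ` be an automorphism of a group `X` and `e ≥ 1`; write `G` for the fixed points of `σᵉ` and `H` for the fixed points of `σ`, and assume `G` is finite. Let `Y` be a `σ`-stable subgroup of `X` on which the maps `a ↦ a σ(a)⁻¹` and `a ↦ a σᵉ(a)⁻¹` are surjective (as for a closed connected `σ`-stable subgroup of an algebraic group). Let `g ∈ G`, let `a ∈ X` satisfy `g = a σ(a)⁻¹` and put `x = σᵉ(a)⁻¹ a` (the Shintani image, an element of `H`). The element `g σ` of the semidirect product acts on the cosets of `Y ∩ G` in `G` by `k (Y ∩ G) ↦ g σ(k)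 (Y ∩ G)`, fixing that coset exactly when `k⁻¹ g σ(k) ∈ Y`; and `x` fixes the coset `h (Y ∩ H)` of `H` exactly when `h⁻¹ x h ∈ Y`. Then the two numbers of fixed cosets agree; in cross-multiplied form, `#{k ∈ G : k⁻¹ g σ(k) ∈ Y} · |Y ∩ H| = #{h ∈ H : h⁻¹ x h ∈ Y} · |Y ∩ G|`. -/
theorem result {X : Type*} [Group X] (σ : MulAut X) (e : ℕ) (he : 1 ≤ e)
    [Finite ↥((MulEquiv.toMonoidHom (σ ^ e)).eqLocus (MonoidHom.id X))]
    (Y : Subgroup X) (hY : ∀ y : X, y ∈ Y ↔ σ y ∈ Y)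
    (hYL : ∀ y ∈ Y, ∃ a ∈ Y, y = a * (σ a)⁻¹) (hYLe : ∀ y ∈ Y, ∃ a ∈ Y, y = a * ((σ ^ e) a)⁻¹)
    (g : X) (hg : g ∈ (MulEquiv.toMonoidHom (σ ^ e)).eqLocus (MonoidHom.id X)) (a : X) (ha : g = a * (σ a)⁻¹) :
    Nat.card {k : ↥((MulEquiv.toMonoidHom (σ ^ e)).eqLocus (MonoidHom.id X)) // (k : X)⁻¹ * g * σ k ∈ Y} *
        Nat.card ↥(Y ⊓ (MulEquiv.toMonoidHom σ).eqLocus (MonoidHom.id X)) =
      Nat.card {h : ↥((MulEquiv.toMonoidHom σ).eqLocus (MonoidHom.id X)) // (h : X)⁻¹ * (((σ ^ e) a)⁻¹ * a) * h ∈ Y} *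
        Nat.card ↥(Y ⊓ (MulEquiv.toMonoidHom (σ ^ e)).eqLocus (MonoidHom.id X)) := by
  subst ha
  have hYe : ∀ (n : ℕ) (y : X), y ∈ Y → (σ ^ n) y ∈ Y := by
    intro n
    induction n with
    | zero => intro y hy; simpa using hy
    | succ n ih => intro y hy; rw [pow_succ, MulAut.mul_apply]; exact ih _ ((hY y).1 hy)
  set G := (MulEquiv.toMonoidHom (σ ^ e)).eqLocus (MonoidHom.id X) with hG
  set H := (MulEquiv.toMonoidHom σ).eqLocus (MonoidHom.id X) with hH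
  have mG : ∀ x : X, x ∈ G ↔ (σ ^ e) x = x := fun x => Iff.rfl
  have mH : ∀ x : X, x ∈ H ↔ σ x = x := fun x => Iff.rfl
  let T := {p : G × H // (a * (p.2 : X))⁻¹ * (p.1 : X) ∈ Y}
  have h1 : ∀ t : T, ((t.1.1 : X))⁻¹ * (a * (σ a)⁻¹) * σ t.1.1 ∈ Y := by
    rintro ⟨⟨⟨k, hk⟩, ⟨h, hh⟩⟩, ht⟩
    have ht' : (a * h)⁻¹ * k ∈ Y := ht
    have h2 := (hY _).1 ht'
    have hh' := (mH h).1 hh
    simp only [map_mul, map_inv, hh'] at h2
    have := Y.mul_mem (Y.inv_mem ht') h2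
    convert this using 1
    show k⁻¹ * (a * (σ a)⁻¹) * σ k = _
    group
  have h2 : ∀ t : T, ((t.1.2 : X))⁻¹ * (((σ ^ e) a)⁻¹ * a) * t.1.2 ∈ Y := by
    rintro ⟨⟨⟨k, hk⟩, ⟨h, hh⟩⟩, ht⟩
    have ht' : (a * h)⁻¹ * k ∈ Y := ht
    have h2 := hYe e _ ht'
    have hh' := CfsgLib.Shintani.pow_fix σ h ((mH h).1 hh) e
    have hk' := (mG k).1 hk
    simp only [map_mul, map_inv, hh', hk'] at h2
    have := Y.mul_mem h2 (Y.inv_mem ht')
    convert this using 1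
    show h⁻¹ * (((σ ^ e) a)⁻¹ * a) * h = _
    group
  have e1 := card_of_fibers (C := ↥(Y ⊓ H))
    (fun t : T => (⟨t.1.1, h1 t⟩ : {k : G // (k : X)⁻¹ * (a * (σ a)⁻¹) * σ k ∈ Y})) (by
      rintro ⟨⟨k, hk⟩, hk2⟩
      have hk2' : k⁻¹ * (a * (σ a)⁻¹) * σ k ∈ Y := hk2
      obtain ⟨c, hc, hc2⟩ := fix_rep σ Y hYL (a⁻¹ * k) (by
        convert hk2' using 1
        simp only [map_mul, map_inv]; group)
      refine ⟨⟨fun t => ⟨(a⁻¹ * k * c)⁻¹ * (t.1.1.2 : X), ?_, ?_⟩,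
        fun y => ⟨⟨⟨⟨k, hk⟩, ⟨a⁻¹ * k * c * y, ?_⟩⟩, ?_⟩, rfl⟩, ?_, ?_⟩⟩
      · obtain ⟨⟨⟨⟨k', hk'⟩, ⟨h, hh⟩⟩, ht⟩, hkk⟩ := t
        have hkk' : k' = k := congrArg (fun z => ((z.1 : G) : X)) hkk
        subst hkk'
        have ht' : (a * h)⁻¹ * k' ∈ Y := ht
        have := Y.mul_mem (Y.inv_mem hc) (Y.inv_mem ht')
        show (a⁻¹ * k' * c)⁻¹ * h ∈ Y
        convert this using 1
        group
      · exact H.mul_mem (H.inv_mem ((mH _).2 hc2)) t.1.1.2.2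
      · exact H.mul_mem ((mH _).2 hc2) y.2.2
      · have := Y.mul_mem (Y.inv_mem y.2.1) (Y.inv_mem hc)
        convert this using 1
        show (a * (a⁻¹ * k * c * y))⁻¹ * k = _
        group
      · rintro ⟨⟨⟨⟨k', hk'⟩, ⟨h, hh⟩⟩, ht⟩, hkk⟩
        have hkk' : k' = k := congrArg (fun z => ((z.1 : G) : X)) hkk
        subst hkk'
        simp only [Subtype.mk.injEq, Prod.mk.injEq, true_and]
        group
      · rintro ⟨y, hy⟩
        simp only [Subtype.mk.injEq]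
        group)
  have e2 := card_of_fibers (C := ↥(Y ⊓ G))
    (fun t : T => (⟨t.1.2, h2 t⟩ : {h : H // (h : X)⁻¹ * (((σ ^ e) a)⁻¹ * a) * h ∈ Y})) (by
      rintro ⟨⟨h, hh⟩, hh2⟩
      have hh2' : h⁻¹ * (((σ ^ e) a)⁻¹ * a) * h ∈ Y := hh2
      have hh' := CfsgLib.Shintani.pow_fix σ h ((mH h).1 hh) e
      obtain ⟨c, hc, hc2⟩ := fix_rep (σ ^ e) Y hYLe (a * h) (by
        convert Y.inv_mem hh2' using 1
        simp only [map_mul, hh']; group)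
      refine ⟨⟨fun t => ⟨(a * h * c)⁻¹ * (t.1.1.1 : X), ?_, ?_⟩,
        fun y => ⟨⟨⟨⟨a * h * c * y, ?_⟩, ⟨h, hh⟩⟩, ?_⟩, rfl⟩, ?_, ?_⟩⟩
      · obtain ⟨⟨⟨⟨k', hk'⟩, ⟨h', hh''⟩⟩, ht⟩, hkk⟩ := t
        have hkk' : h' = h := congrArg (fun z => ((z.1 : H) : X)) hkk
        subst hkk'
        have ht' : (a * h')⁻¹ * k' ∈ Y := ht
        have := Y.mul_mem (Y.inv_mem hc) ht'
        show (a * h' * c)⁻¹ * k' ∈ Y
        convert this using 1
        group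
      · exact G.mul_mem (G.inv_mem ((mG _).2 hc2)) t.1.1.1.2
      · exact G.mul_mem ((mG _).2 hc2) y.2.2
      · have := Y.mul_mem hc y.2.1
        convert this using 1
        show (a * h)⁻¹ * (a * h * c * y) = _
        group
      · rintro ⟨⟨⟨⟨k', hk'⟩, ⟨h', hh''⟩⟩, ht⟩, hkk⟩
        have hkk' : h' = h := congrArg (fun z => ((z.1 : H) : X)) hkk
        subst hkk'
        simp only [Subtype.mk.injEq, Prod.mk.injEq, and_true]
        group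
      · rintro ⟨y, hy⟩
        simp only [Subtype.mk.injEq]
        group)
  rw [← e1, ← e2]

end Cfsg.Agent.S2669
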