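import Cfsg.Statements.S2671
import Cfsg.Agent.Lib.MatConj.PrimeForm
import Cfsg.Agent.Lib.MatConj.Unitary

set_option autoImplicit false
open Cfsg

namespace Cfsg.Agent.S2671

open CfsgLib.MatConj CfsgLib.Unitary

/-- Number of conjugacy classes of elements of odd prime order r in the general unitary group GU_n(q), for r not dividing q(q + 1): let i be the multiplicative order of q modulo r, b = i if i is odd and b = i/2 if i is even, and s = (r − 1)/b. If i ≢ 2 (mod 4) the eigenvalue orbits pair off into dual pairs of totally isotropic blocks and there are C(⌊n/(2b)⌋ + s/2, s/2) − 1 classes; if i ≡ 2 (mod 4) each orbit gives a non-degenerate block of dimension i/2 and there are C(⌊2n/i⌋ + s, s) − 1 classes. -/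
theorem result {K : Type*} [Field K] [Fintype K] {p q n r i b s : ℕ} [Fact p.Prime] [CharP K p] (hK : Fintype.card K = q ^ 2) (hr : r.Prime) (hr2 : r ≠ 2) (hrp : r ≠ p) (hi : i = orderOf (q : ZMod r)) (hi2 : i ≠ 2) (hb : b = if Odd i then i else i / 2) (hs : s * b = r - 1) : Nat.card {C : ConjClasses ↥(Cfsg.GU n K q) // ∃ g : ↥(Cfsg.GU n K q), ConjClasses.mk g = C ∧ orderOf g = r} = if i % 4 = 2 then Nat.choose (2 * n / i + s) s - 1 else Nat.choose (n / (2 * b) + s / 2) (s / 2) - 1 := by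
  let _ := unitaryStar hK
  obtain ⟨k, hk⟩ : ∃ k, q = p ^ k := by
    obtain ⟨f, -, hf⟩ := FiniteField.card K p
    obtain ⟨k, -, hk⟩ := (Nat.dvd_prime_pow (Fact.out : p.Prime)).1
      ((dvd_pow_self q two_ne_zero).trans (hK.symm.trans hf).dvd)
    exact ⟨k, hk⟩
  have h0 := orderOf_card_pos (F := K) hr hrp
  have h1 : orderOf (Fintype.card K : ZMod r) = b := by
    rw [hK, Nat.cast_pow, orderOf_pow' _ two_ne_zero, ← hi, hb]
    split_ifs with h
    · rw [Nat.Coprime.gcd_eq_one (Nat.coprime_two_right.2 h), Nat.div_one]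
    · rw [Nat.gcd_eq_right (Nat.not_odd_iff_even.1 h).two_dvd]
  have h2 : 0 < i := by
    rw [h1, hb] at h0
    split_ifs at h0 <;> omega
  have hσ : ∀ x : K, starRingEnd K (starRingEnd K x) = x := star_star
  have h3 : ∀ π ∈ cycFac K r, tilde (starRingEnd K) π = π ↔ i % 4 = 2 := by
    intro π hπ
    have := Fact.mk hr
    have h4 : (q : ZMod r) ≠ 0 := fun h => by
      rw [h, orderOf_zero] at hi
      omega
    rw [tilde_eq_self_iff hr hrp hσ (k := k) (fun x => by rw [← hk]; rfl) hπ, ← Nat.cast_pow, ← hk,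
      hK, Nat.cast_pow]
    refine Iff.trans ?_ ((exists_pow_eq_neg_one_iff hr hr2 (hi ▸ h2) Odd
      fun _ _ h h' => h'.of_dvd_nat h).trans ⟨?_, fun h => ⟨i / 2, Nat.odd_iff.2 (by omega), by omega⟩⟩)
    · constructor
      · rintro ⟨j, hj⟩
        refine ⟨2 * j + (2 * i - 1), ⟨j + i - 1, by omega⟩, mul_right_cancel₀ h4 ?_⟩
        rw [← pow_succ, show 2 * j + (2 * i - 1) + 1 = 2 * j + i * 2 by omega, pow_add, pow_mul, hj,
          pow_mul, hi, pow_orderOf_eq_one, one_pow, mul_one, neg_one_mul]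
      · rintro ⟨_, ⟨j, rfl⟩, hj⟩
        exact ⟨j + 1, by rw [← pow_mul, mul_add, mul_one, pow_succ, hj, neg_one_mul]⟩
    · rintro ⟨j, ⟨l, rfl⟩, hj⟩
      omega
  rw [card_classes_order_prime hr hrp ((Units.coeHom _).comp (Cfsg.GU n K q).subtype)
    (Units.val_injective.comp Subtype.val_injective)
    (fun g g' _ h => isConj_GU_of_isConj hK g g' h)
    (fun M => M.map (tilde (starRingEnd K)) = M), Fintype.card_fin]
  · rw [← h1] at hs
    split_ifs with h4
    · rw [card_mult_fixed hr hrp hs _ fun π h => (h3 π h).2 h4, h1, hb,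
        if_neg (Nat.not_odd_iff_even.2 (Nat.even_iff.2 (by omega)))]
      obtain ⟨l, rfl⟩ : ∃ l, i = 2 * l := ⟨i / 2, by omega⟩
      rw [Nat.mul_div_cancel_left _ two_pos, Nat.mul_div_mul_left _ _ two_pos]
    · rw [card_mult_free hr hrp hs _ (fun _ => tilde_mem_cycFac hr hrp hσ)
        (fun _ => tilde_tilde_of_mem_cycFac hr hrp hσ) fun π h h' => h4 ((h3 π h).1 h'), h1,
        Nat.div_div_eq_div_mul, mul_comm b]
  · intro M hM k hk
    constructor
    · intro h
      obtain ⟨B, h4, h5⟩ := exists_unitary_edM_eq (n := Fin n) (exists_not_fixed hK)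
        (valid_edOf' k hM) (edOf_ne_X hr hrp k hM) (by rw [deg_edOf hr hrp k hM, hk])
        (by rw [map_tilde_edOf, h])
      obtain ⟨g, rfl⟩ := exists_GU_eq hK h4
      exact ⟨g, h5⟩
    · rintro ⟨g, hg⟩
      exact map_tilde_of_edOf (hg ▸ edM_tilde_of_unitary ((mem_GU_iff_star hK _).1 g.2))

end Cfsg.Agent.S2671
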