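import Cfsg.Statements.S2672
import Cfsg.Agent.Lib.MatConj.ProjPrime
import Cfsg.Agent.Lib.Unitary.Center

set_option autoImplicit false
open Cfsg

namespace Cfsg.Agent.S2672

open CfsgLib.MatConj CfsgLib.Unitary Matrix Polynomial

/-- Number of conjugacy classes of elements of odd prime order r in PGU_n(q) = GU_n(q)/scalars (n ≥ 3) when r divides q + 1: as in the linear case with q − 1 replaced by q + 1, the classes correspond to the rotation orbits on r-tuples of eigenvalue multiplicities summing to n with every entry < n, plus r − 1 further classes when r divides n; in all (C(n+r−1, r−1) − r − [r ∣ n])/r + r·[r ∣ n]. -/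
theorem result {K : Type*} [Field K] [Fintype K] {q n r : ℕ} (hK : Fintype.card K = q ^ 2) (hn : 3 ≤ n) (hr : r.Prime) (hr2 : r ≠ 2) (hrq : r ∣ q + 1) : Nat.card {C : ConjClasses (↥(Cfsg.GU n K q) ⧸ Subgroup.center ↥(Cfsg.GU n K q)) // ∃ g : ↥(Cfsg.GU n K q) ⧸ Subgroup.center ↥(Cfsg.GU n K q), ConjClasses.mk g = C ∧ orderOf g = r} = (Nat.choose (n + r - 1) (r - 1) - r - (if r ∣ n then 1 else 0)) / r + r * (if r ∣ n then 1 else 0) := by
  let _ := unitaryStar hK
  have : Nonempty (Fin n) := ⟨⟨0, by omega⟩⟩
  have h1 : 1 ≤ n := by omega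
  have h0 : ∀ ν : (detGU n K q).range, star (ν.1 : K) * (ν.1 : K) = 1 := fun ν => by
    rw [← (mem_range_detGU hK h1).1 ν.2, pow_succ]; rfl
  have hq : 1 ≤ q := by
    have := Fintype.one_lt_card (α := K)
    rcases q with _ | q <;> omega
  have h := card_classes_proj ((Units.coeHom _).comp (Cfsg.GU n K q).subtype)
    (Units.val_injective.comp Subtype.val_injective) (detGU n K q).range
    (((GeneralLinearGroup.scalar (Fin n)).comp (Subgroup.subtype _)).codRestrict _ fun μ =>
      (mem_GU_iff_star hK _).2 (by simp [Matrix.star_eq_conjTranspose, h0 μ]))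
    (fun μ => by simp [Matrix.smul_one_eq_diagonal])
    (fun g => by
      rw [mem_center_GU_iff hK (by omega)]
      constructor
      · rintro ⟨a, ha⟩
        have h2 := norm_of_smul_one_pres hK h1 (a := a) (by rw [← ha]; exact g.2)
        refine ⟨⟨Units.mk0 a fun h => by simp [h] at h2, (mem_range_detGU hK h1).2 h2⟩,
          Subtype.ext (Units.ext ?_)⟩
        simp [ha, Matrix.smul_one_eq_diagonal]
      · rintro ⟨μ, rfl⟩
        exact ⟨μ.1, by simp [Matrix.smul_one_eq_diagonal]⟩)
    (isConj_GU_of_isConj hK) hr (by rwa [card_range_detGU hK h1])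
    (fun μ b hb => by
      have h2 : b ≠ 0 := fun h => μ.1.ne_zero (by rw [← hb, h, zero_pow hr.ne_zero])
      refine ⟨⟨Units.mk0 b h2, (mem_range_detGU hK h1).2 ?_⟩, rfl⟩
      have h3 : r.Coprime (q - 1) := hr.coprime_iff_not_dvd.2 fun h => hr2
        ((Nat.prime_dvd_prime_iff_eq hr Nat.prime_two).1
          (by simpa [show q + 1 - (q - 1) = 2 by omega] using Nat.dvd_sub hrq h))
      refine (pow_eq_one_iff_of_coprime h3).1 ⟨?_, ?_⟩
      · rw [← pow_mul, mul_comm, pow_mul, Units.val_mk0, hb, (mem_range_detGU hK h1).1 μ.2]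
      · rw [← pow_mul, ← Nat.sq_sub_sq, one_pow, ← hK]
        exact FiniteField.pow_card_sub_one_eq_one b h2)
    (fun t ht h h' => by
      obtain ⟨B, h4, h5⟩ := exists_unitary_edM_eq (n := Fin n) (exists_not_fixed hK) ht
        (fun x hx h0 => by
          obtain ⟨k, hk, μ, h1⟩ := h x hx
          simpa [h1, coeff_X_pow, hk.ne] using congrArg (coeff · 0) h0) h'
        ((Multiset.map_congr rfl fun x hx => by
          obtain ⟨k, hk, μ, h1⟩ := h x hx
          refine Prod.ext ?_ rfl
          simp only [h1, id]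
          rw [tilde_eq_self_iff_coeff (by simp [coeff_X_pow, hk.ne]), natDegree_X_pow_sub_C]
          intro i hi
          simp only [coeff_sub, coeff_X_pow, coeff_C]
          split_ifs <;> first | omega | simp [starRingEnd_apply, h0 μ]).trans (Multiset.map_id _))
      obtain ⟨g, rfl⟩ := exists_GU_eq hK h4
      exact ⟨g, h5⟩)
  rw [Fintype.card_fin] at h
  exact proj_count_eq hr (by omega) h

end Cfsg.Agent.S2672
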