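import Cfsg.Statements.S2673
import Cfsg.Agent.Lib.MatConj.PrimeForm

set_option autoImplicit false
open Cfsg

namespace Cfsg.Agent.S2673

open CfsgLib.MatConj CfsgLib.Orth

/-- Number of conjugacy classes of elements of odd prime order r ≠ p in the orthogonal group O_(2m+1)(q) of x_0² + Σ x_j y_j, q odd: with i the multiplicative order of q mod r and t = (r − 1)/i, there are C(⌊m/i⌋ + t/2, t/2) − 1 classes if i is odd (dual pairs of totally singular i-blocks) and C(⌊(2m+1)/i⌋ + t, t) − 1 if i is even (elliptic i-blocks). -/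
theorem result {F : Type*} [Field F] [Fintype F] {p q : ℕ} [Fact p.Prime] [CharP F p] (hF : Fintype.card F = q) (hq : Odd q) (m r i t : ℕ) (hr : r.Prime) (hr2 : r ≠ 2) (hrp : r ≠ p) (hi : i = orderOf (q : ZMod r)) (ht : t * i = r - 1) : Nat.card {C : ConjClasses ↥(Cfsg.isometryGroup F (Cfsg.quadFormOdd m F)) // ∃ g : ↥(Cfsg.isometryGroup F (Cfsg.quadFormOdd m F)), ConjClasses.mk g = C ∧ orderOf g = r} = if Odd i then Nat.choose (m / i + t / 2) (t / 2) - 1 else Nat.choose ((2 * m + 1) / i + t) t - 1 := by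
  subst hF hi
  have h2 : (2 : F) ≠ 0 := Ring.two_ne_zero fun h => by
    have := FiniteField.even_card_of_char_two h
    rw [Nat.odd_iff] at hq
    omega
  have hQ := qOdd_nondegenerate h2 m
  have hc : Fintype.card (Unit ⊕ Fin m ⊕ Fin m) = 2 * m + 1 := by simp; ring
  rw [← coe_qOdd, card_classes_order_prime hr hrp
    ((Units.coeHom _).comp (Cfsg.isometryGroup F ⇑(qOdd m F)).subtype)
    (Units.val_injective.comp Subtype.val_injective) ?_
    (fun M => M.map (tilde (RingHom.id F)) = M) ?_, card_mult_recip hr hrp hr2 ht, hc,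
    Nat.div_div_eq_div_mul, mul_comm _ 2, ← Nat.div_div_eq_div_mul,
    show (2 * m + 1) / 2 = m by omega]
  · split_ifs <;> rfl
  · intro A B hA h
    obtain ⟨g, ⟨g, rfl⟩, h1, h2⟩ := quad_conj_of_pow_eq_one hQ (mem_isometryGroup.1 A.2)
      (mem_isometryGroup.1 B.2) h (natCast_prime_ne_zero hr hrp) (hr.odd_of_ne_two hr2)
      (by rw [← Units.val_pow_eq_pow_val, ← Subgroup.coe_pow, ← hA, pow_orderOf_eq_one]; rfl)
    exact isConj_iff.2 ⟨⟨g, mem_isometryGroup.2 h1⟩,
      mul_inv_eq_iff_eq_mul.2 (Subtype.ext (Units.ext h2))⟩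
  · intro M hM k hk
    constructor
    · intro h
      obtain ⟨Q, A, h3, h4, h5⟩ := (quadReal_edOf_odd hr hrp hr2 h2 hM h k).exists_quadraticForm
        (n := Unit ⊕ Fin m ⊕ Fin m) (by rw [deg_edOf hr hrp _ hM, hk])
      obtain ⟨-, e, c, h6, h7⟩ := exists_equiv_qOdd h3 (m := m) (by simp; ring)
      obtain ⟨B, h8, h9⟩ := exists_matrix_of_equiv e A.val
      have h10 : ∀ v, qOdd m F (B.mulVec v) = qOdd m F v := fun v =>
        mul_left_cancel₀ h6 (by rw [← h7, ← h7, h8, h4])
      obtain ⟨g, rfl⟩ := isUnit_of_isometry hQ h10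
      exact ⟨⟨g, mem_isometryGroup.2 h10⟩, h9.trans h5⟩
    · rintro ⟨g, hg⟩
      exact map_tilde_of_edOf (hg ▸ edM_recip_of_isometry hQ
        (polar_of_isometry (mem_isometryGroup.1 g.2)))

end Cfsg.Agent.S2673
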