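import Cfsg.Statements.S2674
import Cfsg.Agent.Lib.MatConj.PrimeForm

set_option autoImplicit false
open Cfsg

namespace Cfsg.Agent.S2674

open CfsgLib.MatConj CfsgLib.Orth

/-- Number of conjugacy classes of elements of odd prime order r ≠ p in the orthogonal group O⁺_2m(q) of Σ x_j y_j (m ≥ 1): with i the multiplicative order of q mod r and t = (r − 1)/i — if i is odd, C(⌊m/i⌋ + t/2, t/2) − 1; if i is even, C(⌊2m/i⌋ + t, t) − 1 minus, when i divides 2m with odd quotient, the C(2m/i + t − 1, t − 1) tuples using the whole space (an odd number of elliptic i-blocks fills an elliptic, not a hyperbolic, space). -/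
theorem result {F : Type*} [Field F] [Fintype F] {p q : ℕ} [Fact p.Prime] [CharP F p] (hF : Fintype.card F = q) (m r i t : ℕ) (hm : 1 ≤ m) (hr : r.Prime) (hr2 : r ≠ 2) (hrp : r ≠ p) (hi : i = orderOf (q : ZMod r)) (ht : t * i = r - 1) : Nat.card {C : ConjClasses ↥(Cfsg.isometryGroup F (Cfsg.quadFormPlus m F)) // ∃ g : ↥(Cfsg.isometryGroup F (Cfsg.quadFormPlus m F)), ConjClasses.mk g = C ∧ orderOf g = r} = if Odd i then Nat.choose (m / i + t / 2) (t / 2) - 1 else Nat.choose (2 * m / i + t) t - 1 - (if i ∣ 2 * m ∧ Odd (2 * m / i) then Nat.choose (2 * m / i + t - 1) (t - 1) else 0) := by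
  subst hF hi
  obtain ⟨m, rfl⟩ : ∃ k, m = k + 1 := ⟨m - 1, by omega⟩
  have hi := orderOf_card_pos (F := F) hr hrp
  rw [← coe_qPlus, card_classes_orth_even hr hrp hr2 (qPlus_nondegenerate _) (m := m)
    (by simp; ring) ht]
  simp only [isPlus_qPlus, true_iff, Nat.not_even_iff_odd]
  split_ifs with h1 h2
  · rw [Nat.card_eq_zero.2 (Or.inl ⟨fun M => ?_⟩), Nat.sub_zero]
    obtain ⟨M, h2, h3, -, h4⟩ := M
    obtain ⟨M', rfl⟩ := even_card_of_odd hr hrp hr2 h1 h2 h3
    exact Nat.not_even_iff_odd.2 h4 (by simp)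
  · rw [← card_mult_fixed_eq hr hrp ht _ fun _ h =>
      (tilde_id_eq_self_iff hr hrp hr2 h).2 (Nat.not_odd_iff_even.1 h1)]
    obtain ⟨⟨c, hc⟩, h2⟩ := h2
    rw [hc, Nat.mul_div_cancel_left _ hi] at h2 ⊢
    congr 1
    exact Nat.card_congr (Equiv.subtypeEquivRight fun M => and_congr_right fun _ =>
      and_congr_right fun _ => ⟨fun h => Nat.eq_of_mul_eq_mul_left hi h.1,
        fun h => by rw [h]; exact ⟨rfl, h2⟩⟩)
  · rw [Nat.card_eq_zero.2 (Or.inl ⟨fun M => h2 ?_⟩)]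
    obtain ⟨M, -, -, h3, h4⟩ := M
    rw [← h3, Nat.mul_div_cancel_left _ hi]
    exact ⟨dvd_mul_right _ _, h4⟩

end Cfsg.Agent.S2674
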