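import Cfsg.Statements.S2675
import Cfsg.Agent.Lib.MatConj.PrimeForm

set_option autoImplicit false
open Cfsg

namespace Cfsg.Agent.S2675

open CfsgLib.MatConj CfsgLib.Orth

/-- Number of conjugacy classes of elements of odd prime order r ≠ p in the orthogonal group O⁻_2m(q) of an elliptic form Σ_(j<m−1) x_j y_j + z₁² + a z₁z₂ + c z₂² (binary part anisotropic, m ≥ 1): with i the multiplicative order of q mod r and t = (r − 1)/i — if i is odd, C(⌊m/i⌋ + t/2, t/2) − 1 minus, when i divides m, the C(m/i + t/2 − 1, t/2 − 1) tuples filling the whole space (dual pairs of totally singular blocks fill a hyperbolic space); if i is even, C(⌊2m/i⌋ + t, t) − 1 minus, when i divides 2m with even quotient, the C(2m/i + t − 1, t − 1) tuples filling the whole space with an even number of elliptic blocks. -/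
theorem result {F : Type*} [Field F] [Fintype F] {p q : ℕ} [Fact p.Prime] [CharP F p] (hF : Fintype.card F = q) (m r i t : ℕ) (hm : 1 ≤ m) (a c : F) (hac : ∀ z₁ z₂ : F, z₁ ^ 2 + a * z₁ * z₂ + c * z₂ ^ 2 = 0 → z₁ = 0 ∧ z₂ = 0) (hr : r.Prime) (hr2 : r ≠ 2) (hrp : r ≠ p) (hi : i = orderOf (q : ZMod r)) (ht : t * i = r - 1) : Nat.card {C : ConjClasses ↥(Cfsg.isometryGroup F (Cfsg.quadFormMinus (m - 1) F a c)) // ∃ g : ↥(Cfsg.isometryGroup F (Cfsg.quadFormMinus (m - 1) F a c)), ConjClasses.mk g = C ∧ orderOf g = r} = if Odd i then Nat.choose (m / i + t / 2) (t / 2) - 1 - (if i ∣ m then Nat.choose (m / i + t / 2 - 1) (t / 2 - 1) else 0) else Nat.choose (2 * m / i + t) t - 1 - (if i ∣ 2 * m ∧ Even (2 * m / i) then Nat.choose (2 * m / i + t - 1) (t - 1) else 0) := by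
  subst hF hi
  obtain ⟨m, rfl⟩ : ∃ k, m = k + 1 := ⟨m - 1, by omega⟩
  have hi := orderOf_card_pos (F := F) hr hrp
  have h0 : ¬ IsPlus (qMinus (m + 1 - 1) a c) := not_isLag_qMinus hac
  rw [← coe_qMinus, card_classes_orth_even hr hrp hr2 (qMinus_nondegenerate _ hac) (m := m)
    (by simp; ring) ht]
  simp only [h0, false_iff, not_not]
  split_ifs with h1 h2 h2
  · rw [← card_mult_free_eq hr hrp ht _ (fun _ => tilde_mem_cycFac hr hrp fun _ => rfl)
      (fun _ => tilde_tilde_of_mem_cycFac hr hrp fun _ => rfl)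
      fun _ h h' => Nat.not_even_iff_odd.2 h1 ((tilde_id_eq_self_iff hr hrp hr2 h).1 h')]
    obtain ⟨c, hc⟩ := h2
    rw [hc, Nat.mul_div_cancel_left _ hi, mul_left_comm]
    congr 1
    exact Nat.card_congr (Equiv.subtypeEquivRight fun M => and_congr_right fun _ =>
      and_congr_right fun _ => ⟨fun h => Nat.eq_of_mul_eq_mul_left hi h.1,
        fun h => by rw [h]; exact ⟨rfl, even_two_mul _⟩⟩)
  · rw [Nat.card_eq_zero.2 (Or.inl ⟨fun M => h2 ?_⟩)]
    obtain ⟨M, -, -, h3, k, h4⟩ := M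
    exact ⟨k, by rw [h4, mul_add] at h3; omega⟩
  · rw [← card_mult_fixed_eq hr hrp ht _ fun _ h =>
      (tilde_id_eq_self_iff hr hrp hr2 h).2 (Nat.not_odd_iff_even.1 h1)]
    obtain ⟨⟨c, hc⟩, h2⟩ := h2
    rw [hc, Nat.mul_div_cancel_left _ hi] at h2 ⊢
    congr 1
    exact Nat.card_congr (Equiv.subtypeEquivRight fun M => and_congr_right fun _ =>
      and_congr_right fun _ => ⟨fun h => Nat.eq_of_mul_eq_mul_left hi h.1,
        fun h => by rw [h]; exact ⟨rfl, h2⟩⟩)
  · rw [Nat.card_eq_zero.2 (Or.inl ⟨fun M => h2 ?_⟩)]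
    obtain ⟨M, -, -, h3, h4⟩ := M
    rw [← h3, Nat.mul_div_cancel_left _ hi]
    exact ⟨dvd_mul_right _ _, h4⟩

end Cfsg.Agent.S2675
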