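import Cfsg.Statements.S2676
import Cfsg.Agent.Lib.MatConj.WallUnip
import Cfsg.Agent.Lib.MatConj.ProjPrime

set_option autoImplicit false
open Classical
open Cfsg

namespace Cfsg.Agent.S2676

open CfsgLib.MatConj

/-- Number of conjugacy classes of elements of order p in Sp_2m(q), q a power of the odd prime p: the classes correspond to the signed partitions of 2m — partitions with all parts at most p in which every odd part has even multiplicity, each even part size that occurs carrying a sign — other than the all-ones partition; so the count is the sum over such partitions of 2^(number of distinct even parts), minus one. -/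
theorem result {F : Type*} [Field F] [Fintype F] {p : ℕ} [Fact p.Prime] [CharP F p] (hp : p ≠ 2) (m : ℕ) : Nat.card {C : ConjClasses ↥(Matrix.symplecticGroup (Fin m) F) // ∃ g : Matrix.symplecticGroup (Fin m) F, ConjClasses.mk g = C ∧ orderOf g = p} = (∑ μ ∈ Finset.univ.filter (fun μ : Nat.Partition (2 * m) => (∀ a ∈ μ.parts, a ≤ p) ∧ ∀ j : ℕ, Odd j → Even (μ.parts.count j)), 2 ^ ((μ.parts.toFinset.filter (fun j : ℕ => Even j)).card)) - 1 := by
  have h2 : (2 : F) ≠ 0 := fun h => hp ((Nat.prime_dvd_prime_iff_eq Fact.out Nat.prime_two).1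
    ((CharP.cast_eq_zero_iff F p 2).1 h))
  have hΓ := isoGrp_sp (F := F) (Fin m)
  have hc : Fintype.card (Fin m ⊕ Fin m) = 2 * m := by simp [two_mul]
  rw [← Nat.add_sub_cancel (n := Nat.card _) (m := 1), card_classes_order_prime_add_one Fact.out]
  congr 1
  have h3 : ∀ g : Matrix.symplecticGroup (Fin m) F, g ^ p = 1 ↔ (g.1 - 1) ^ p = 0 := fun g => by
    rw [← pow_one p, sub_one_pow_char_pow (F := F), sub_eq_zero, Subtype.ext_iff]
    rfl
  rw [natCard_eq_sum (Finset.univ.filter fun μ : Nat.Partition (2 * m) => (∀ a ∈ μ.parts, a ≤ p) ∧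
    ∀ j : ℕ, Odd j → Even (μ.parts.count j)) (fun C μ => ∃ g, ConjClasses.mk g = C.1 ∧
      IsNilpotent (g.1 - 1) ∧ jt g.1 = μ.parts)]
  · refine Finset.sum_congr rfl fun μ hμ => ?_
    obtain ⟨-, h4, h5⟩ := Finset.mem_filter.1 hμ
    refine (Nat.card_congr (Equiv.subtypeSubtypeEquivSubtype ?_)).trans
      (hΓ.card_unipotent h2 (fun _ => μ.parts_pos) (μ.parts_sum.trans hc.symm) h5)
    rintro _ ⟨g, rfl, h6, h7⟩
    exact ⟨g, rfl, (h3 g).2 ((sub_one_pow_eq_zero_iff h6 p).2 (h7 ▸ h4))⟩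
  · rintro ⟨_, g, rfl, hg⟩
    have h4 : IsNilpotent (g.1 - 1) := ⟨_, (h3 g).1 hg⟩
    exact ⟨⟨jt g.1, fun h => jt_pos _ h, (jt_sum h4).trans hc⟩, Finset.mem_filter.2 ⟨Finset.mem_univ _,
      (sub_one_pow_eq_zero_iff h4 p).1 ((h3 g).1 hg), fun j => hΓ.even_count h2 h4⟩, g, rfl, h4, rfl⟩
  · rintro C μ μ' ⟨g, h4, -, h5⟩ ⟨g', h6, -, h7⟩
    exact Nat.Partition.ext (h5.symm.trans ((jt_eq_of_isConj ((Matrix.symplecticGroup _ F).subtype.map_isConj
      (ConjClasses.mk_eq_mk_iff_isConj.1 (h4.trans h6.symm)))).trans h7))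

end Cfsg.Agent.S2676
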