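import Cfsg.Statements.S2677
import Cfsg.Agent.Lib.ClAut.FieldU
import Cfsg.Agent.Lib.Core.Basic

set_option autoImplicit false
open Cfsg

namespace Cfsg.Agent.S2677

open CfsgLib.ClAut CfsgLib.Unitary Matrix

/-- Centraliser of a field automorphism of odd prime order in PGU_n(q): let q = q₀^r with r an odd prime, K the field with q² elements and σ a field automorphism of K of order r (fixed field of order q₀²). The elements g of GU_n(q) whose entrywise image under σ is a scalar multiple of g — those whose coset modulo the q + 1 unitary scalars is fixed by σ — number (q + 1)/(q₀ + 1) · |GU_n(q₀)|; equivalently the centraliser in PGU_n(q) of the induced automorphism has the order of PGU_n(q₀). -/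
theorem result {K : Type*} [Field K] [Fintype K] {q₀ q r n : ℕ} (hr : r.Prime) (hr2 : r ≠ 2) (hn : 1 ≤ n) (hq : q = q₀ ^ r) (hK : Fintype.card K = q ^ 2) (σ : K ≃+* K) (hσ : orderOf σ = r) : (Nat.card {g : ↥(Cfsg.GU n K q) // ∃ c : K, c ≠ 0 ∧ ((g : GL (Fin n) K) : Matrix (Fin n) (Fin n) K).map σ = c • ((g : GL (Fin n) K) : Matrix (Fin n) (Fin n) K)} : ℤ) = ((q + 1) / (q₀ + 1) : ℕ) * ((q₀ : ℤ) ^ (n * (n - 1) / 2) * ∏ i : Fin n, ((q₀ : ℤ) ^ ((i : ℕ) + 1) - (-1) ^ ((i : ℕ) + 1))) := by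
  have : NeZero n := ⟨by omega⟩
  have ho : Odd r := hr.odd_of_ne_two hr2
  obtain ⟨q₁, h1, h2⟩ := exists_subfield_sq hK (σ := σ) (hσ ▸ ho)
  rw [hσ, hq] at h1
  obtain rfl : q₀ = q₁ := Nat.pow_left_injective hr.ne_zero h1
  have := Fintype.ofFinite (fixField σ)
  rw [Nat.card_eq_fintype_card] at h2
  let j := (fixField σ).subtype
  have hj : ∀ x, σ x = x ↔ x ∈ j.range := fun x =>
    ⟨fun h => ⟨⟨x, h⟩, rfl⟩, by rintro ⟨y, rfl⟩; exact y.2⟩
  have hθ := conj_map_of_odd hK h2 ho hq j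
  have hθ' : ∀ c, Units.map (j : fixField σ →* K) (c * Units.map (conj h2 : _ →* _) c) =
      Units.map (j : fixField σ →* K) c *
        Units.map (conj hK : K →* K) (Units.map (j : fixField σ →* K) c) := fun c => by
    rw [map_mul]; exact congrArg _ (Units.ext (hθ _).symm)
  have hinj : Function.Injective (GeneralLinearGroup.map j : GL (Fin n) _ → GL (Fin n) K) :=
    fun a b h => by
      ext x y
      exact congrArg (fun g : GL (Fin n) K => (g : Matrix _ _ K) x y) h
  have hU : ∀ c : Kˣ, c ∈ (detGU n K q).range ↔ c * Units.map (conj hK : K →* K) c = 1 := fun c => by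
    rw [mem_range_detGU hK hn, ← coe_mul_conj hK, Units.val_eq_one]
  have hU₀ : ∀ c, c ∈ (detGU n _ q₀).range ↔ c * Units.map (conj h2 : _ →* _) c = 1 := fun c => by
    rw [mem_range_detGU h2 hn, ← coe_mul_conj h2, Units.val_eq_one]
  have hM : ∀ g, gram (conj hK) 1 (GeneralLinearGroup.map j g) =
      GeneralLinearGroup.map j (gram (conj h2) (1 : GL (Fin n) _) g) := fun g => by
    rw [map_gram hθ, map_one]
  let D := (detGU n K q).range.map (glScalar (Fin n) K)
  let M := (GU n _ q₀).map (GeneralLinearGroup.map j)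
  have : D.Normal := ⟨by
    rintro _ ⟨a, ha, rfl⟩ g
    exact ⟨a, ha, by rw [← glScalar_comm, mul_inv_cancel_right]⟩⟩
  have h3 := CfsgLib.Core.card_sup_mul_card_inf_of_normal M D
  have h4 : M ⊓ D = ((detGU n _ q₀).range.map (glScalar (Fin n) _)).map
      (GeneralLinearGroup.map j) := by
    ext g
    constructor
    · rintro ⟨⟨g, hg, rfl⟩, a, -, ha⟩
      obtain ⟨c, rfl⟩ := (glMap_eq_glScalar_iff j).1 ⟨a, ha.symm⟩
      refine ⟨_, ⟨c, (hU₀ c).2 (glScalar_injective (ι := Fin n) ?_), rfl⟩, rfl⟩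
      rw [map_one, ← (mem_GU_iff_gram h2).1 hg, gram_glScalar, mul_one]
    · rintro ⟨_, ⟨c, hc, rfl⟩, rfl⟩
      replace hc := (hU₀ c).1 hc
      refine ⟨⟨_, (mem_GU_iff_gram h2).2 ?_, rfl⟩, _, (hU _).2 ?_, (glMap_glScalar j c).symm⟩
      · rw [gram_glScalar, hc, map_one, one_mul]
      · rw [← hθ', hc, map_one]
  have h5 : ∀ g : GL (Fin n) K, g ∈ M ⊔ D ↔ g ∈ GU n K q ∧ ∃ c : K, c ≠ 0 ∧
      (g : Matrix (Fin n) (Fin n) K).map σ = c • (g : Matrix (Fin n) (Fin n) K) := fun g => by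
    rw [← SetLike.mem_coe, Subgroup.mul_normal]
    constructor
    · rintro ⟨_, ⟨g, hg, rfl⟩, _, ⟨a, ha, rfl⟩, rfl⟩
      simp only [← glScalar_comm]
      refine ⟨(mem_GU_iff_gram hK).2 ?_, σ a / a, by simp, ?_⟩
      · rw [gram_glScalar_mul, hM, (mem_GU_iff_gram h2).1 hg, (hU a).1 ha, map_one, map_one, one_mul]
      · rw [← coe_glField, map_mul, (mem_range_glMap_iff hj).1 ⟨g, rfl⟩, glField_glScalar]
        simp [coe_glScalar, smul_smul]
    · rintro ⟨hg, c, hc0, hc⟩
      obtain ⟨μ, hμ⟩ := exists_fixed_of_glField_eq σ (orderOf_pos σ) (g := g) (c := Units.mk0 c hc0)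
        (Units.ext (by simpa [coe_glScalar] using hc))
      obtain ⟨g₀, h0⟩ := (mem_range_glMap_iff hj).2 hμ
      obtain ⟨b, hb⟩ := exists_smul_mem_GU h2 ((comap_simM hθ (map_one' _)).le (show
        glConjMap 1 j g₀ ∈ simM (conj hK) 1 by
          rw [glConjMap_apply, one_mul, inv_one, mul_one, h0]
          exact mul_mem (glScalar_mem_simM μ) (GU_le_simM hK hg)))
      have h6 := hM (glScalar (Fin n) _ b * g₀)
      rw [(mem_GU_iff_gram h2).1 hb, map_mul, glMap_glScalar, h0, ← mul_assoc, ← map_mul,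
        gram_glScalar_mul, (mem_GU_iff_gram hK).1 hg, mul_one, map_one,
        ← map_one (glScalar (Fin n) K)] at h6
      refine ⟨_, ⟨_, hb, rfl⟩, _, ⟨_, inv_mem ((hU _).2 (glScalar_injective h6)), rfl⟩, ?_⟩
      simp only
      rw [map_mul, glMap_glScalar, h0, ← mul_assoc, ← map_mul, glScalar_comm, map_inv,
        mul_inv_cancel_right]
  rw [h4, Subgroup.card_map_of_injective hinj, Subgroup.card_map_of_injective hinj,
    Subgroup.card_map_of_injective glScalar_injective,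
    Subgroup.card_map_of_injective glScalar_injective, card_range_detGU hK hn,
    card_range_detGU h2 hn] at h3
  have h6 : q₀ + 1 ∣ q + 1 := by
    simpa [hq] using ho.nat_add_dvd_pow_add_pow q₀ 1
  have h7 : ((q₀ : ℤ) ^ (n * (n - 1) / 2) * ∏ i : Fin n, ((q₀ : ℤ) ^ ((i : ℕ) + 1) -
      (-1) ^ ((i : ℕ) + 1))) = Nat.card (GU n (fixField σ) q₀) := by
    rw [card_GU h2, Nat.cast_mul, Nat.cast_pow, Nat.cast_prod, Finset.prod_range]
    refine congrArg _ (Finset.prod_congr rfl fun i _ => ?_)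
    split_ifs with h
    · simp [h.add_one.neg_one_pow]
    · rw [Nat.cast_sub (Nat.one_le_pow _ _ (by have := two_le_q h2; omega)),
        (Nat.not_even_iff_odd.1 h).add_one.neg_one_pow]
      simp
  rw [Nat.card_congr ((Equiv.subtypeSubtypeEquivSubtypeInter _ _).trans
    (Equiv.subtypeEquivRight fun g => (h5 g).symm)), h7]
  obtain ⟨t, ht⟩ := h6
  rw [ht, Nat.mul_div_cancel_left _ (Nat.succ_pos _)]
  rw [ht, mul_comm _ t, ← mul_assoc, Nat.mul_left_inj (Nat.succ_ne_zero _)] at h3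
  rw [← Nat.cast_mul, mul_comm t, ← h3]

end Cfsg.Agent.S2677
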