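import Mathlib
import Cfsg.Statements.S2679
import Cfsg.Agent.Lib.OrthE.Embed
-- import your own Cfsg.Agent.* helpers here

set_option autoImplicit false
open Cfsg

namespace Cfsg.Agent.S2679

/-- An elliptic orthogonal group embeds in the hyperbolic orthogonal group of the same dimension over the quadratic extension: for a field F with q elements and a field K with q² elements there is an injective homomorphism from O⁻_2m(F) (isometries of Σ_(j<m−1) x_j y_j + z₁² + a z₁z₂ + c z₂², binary part anisotropic) to O⁺_2m(K) (isometries of Σ_(j<m) x_j y_j over K). -/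
theorem result {F K : Type*} [Field F] [Fintype F] [Field K] [Fintype K] {q : ℕ} (hF : Fintype.card F = q) (hK : Fintype.card K = q ^ 2) {m : ℕ} (hm : 1 ≤ m) (a c : F) (hac : ∀ z₁ z₂ : F, z₁ ^ 2 + a * z₁ * z₂ + c * z₂ ^ 2 = 0 → z₁ = 0 ∧ z₂ = 0) : ∃ φ : ↥(Cfsg.isometryGroup F (Cfsg.quadFormMinus (m - 1) F a c)) →* ↥(Cfsg.isometryGroup K (Cfsg.quadFormPlus m K)), Function.Injective φ := by
  open CfsgLib.OrthE in
  obtain ⟨k, rfl⟩ : ∃ k, m = k + 1 := ⟨m - 1, by omega⟩
  have := fact_QA hac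
  obtain ⟨e⟩ := nonempty_ringEquiv_QA (a := a) (b := c) (K := K) (by rw [hK, hF])
  let i : F →+* K := e.toRingHom.comp (algebraMap F (QA a c))
  obtain ⟨M, h1, h2⟩ := exists_ts_qMinus_of_root k (a := i a) (b := i c) (z := e ⟨0, -1⟩) (by
    change e _ ^ 2 + e _ * e _ + e _ = 0
    rw [← map_pow, ← map_mul, ← map_add, ← map_add, map_eq_zero_iff _ e.injective]
    ext <;> simp [pow_two])
  have h3 : Nondeg (qMinus K k (i a) (i c)) := by
    have h4 := CfsgLib.Orth.qSum_nondegenerate (CfsgLib.Orth.qPlus_nondegenerate (F := K) k)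
      (CfsgLib.Orth.qBin_nondegenerate (a := i a) (b := i c) (by
        have := (map_ne_zero i).2 (CfsgLib.Orth.discr_ne_zero_of_anisotropic hac)
        simpa [map_ofNat] using this))
    rw [← CfsgLib.Orth.qMinus_eq_qSum, ← nondeg_iff] at h4
    rwa [show qMinus K k (i a) (i c) = CfsgLib.Orth.qMinus k (i a) (i c) from
      QuadraticMap.ext fun x => (qMinus_eq _ _ _ x).symm]
  obtain ⟨f, hf⟩ := exists_equiv_qPlus h3 (by simp; ring) h1 h2
  obtain ⟨ρ, h4, h5⟩ := exists_inj_map i (f := Cfsg.quadFormMinus k F a c)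
    (Q := qMinus K k (i a) (i c)) fun v => by simp [qMinus_apply, Cfsg.quadFormMinus]
  exact exists_inj_O (qPlus_eq _) f hf ρ h4 h5

end Cfsg.Agent.S2679
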