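import Mathlib
import Cfsg.Statements.S2680
import Cfsg.Agent.Lib.Inv2.Sp
-- import your own Cfsg.Agent.* helpers here

set_option autoImplicit false
open Cfsg

namespace Cfsg.Agent.S2680

/-- Centraliser order of an involution t of Sp_2m(q), q even, with s = rank(t − 1) odd (type b_s): |C(t)| = q^(2ms − (3s² − s)/2) · |Sp_(s−1)(q)| · |Sp_(2m−2s)(q)|, where |Sp_2k(q)| = q^(k²) Π_(i=1)^k (q^(2i) − 1). -/
theorem result {F : Type*} [Field F] [Fintype F] [CharP F 2] {q : ℕ} (hF : Fintype.card F = q) {m s : ℕ} (t : Matrix.symplecticGroup (Fin m) F) (ht : t ^ 2 = 1) (hs : ((t : Matrix (Fin m ⊕ Fin m) (Fin m ⊕ Fin m) F) - 1).rank = s) (hodd : Odd s) : Nat.card ↥(Subgroup.centralizer ({t} : Set ↥(Matrix.symplecticGroup (Fin m) F))) = q ^ (2 * m * s - (3 * s ^ 2 - s) / 2) * ((q : ℕ) ^ (((s - 1) / 2) ^ 2) * ∏ i : Fin ((s - 1) / 2), (q ^ (2 * ((i : ℕ) + 1)) - 1)) * ((q : ℕ) ^ ((m - s) ^ 2) * ∏ i : Fin (m -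 s), (q ^ (2 * ((i : ℕ) + 1)) - 1)) := by
  open CfsgLib.Inv2 CfsgLib.Forms in
  obtain ⟨j, rfl⟩ : ∃ j, m = s + j := ⟨m - s, by have := sp_rank_le ht; omega⟩
  obtain ⟨k, hk⟩ := hodd
  have h1 := two_mul_choose_two_add s
  rw [sp_card_centralizer ht hs rfl, card_formIsom_wall_odd (spPQ_nondeg _ _)
    (spEquiv (Fin (s + j)) F t).2 (congrArg Subtype.val (sp_mul_self ht)) (k := k)
    ((sp_finrank_mov t).trans (hs.trans hk)), ← spOrd_eq, ← spOrd_eq, Nat.card_eq_fintype_card, hF,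
    show 2 * (s + j) * s - (3 * s ^ 2 - s) / 2 = s * (2 * j) + s.choose 2 + s by
      have : 2 * (s + j) * s = 2 * s ^ 2 + s * (2 * j) := by ring
      omega, Nat.add_sub_cancel_left, show (s - 1) / 2 = k by omega]
  ring

end Cfsg.Agent.S2680
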