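import Mathlib
import Cfsg.Statements.S2681
import Cfsg.Agent.Lib.Inv2.Sp
-- import your own Cfsg.Agent.* helpers here

set_option autoImplicit false
open Cfsg

namespace Cfsg.Agent.S2681

/-- Centraliser order of an involution t of Sp_2m(q), q even, with s = rank(t − 1) even and f(v, tv) = 0 for every v, f the symplectic form (type a_s): |C(t)| = q^(2ms − (3s² − s)/2) · |Sp_s(q)| · |Sp_(2m−2s)(q)|. -/
theorem result {F : Type*} [Field F] [Fintype F] [CharP F 2] {q : ℕ} (hF : Fintype.card F = q) {m s : ℕ} (t : Matrix.symplecticGroup (Fin m) F) (ht : t ^ 2 = 1) (ht1 : t ≠ 1) (hs : ((t : Matrix (Fin m ⊕ Fin m) (Fin m ⊕ Fin m) F) - 1).rank = s) (heven : Even s) (halt : ∀ v : Fin m ⊕ Fin m → F, Cfsg.sympForm m F v ((t : Matrix (Fin m ⊕ Fin m) (Fin m ⊕ Fin m) F).mulVec v) = 0) : Nat.card ↥(Subgroup.centralizer ({t} : Set ↥(Matrix.symplecticGroup (Fin m) F))) = q ^ (2 * m * s - (3 * s ^ 2 - s) / 2) * ((q : ℕ) ^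 ((s / 2) ^ 2) * ∏ i : Fin (s / 2), (q ^ (2 * ((i : ℕ) + 1)) - 1)) * ((q : ℕ) ^ ((m - s) ^ 2) * ∏ i : Fin (m - s), (q ^ (2 * ((i : ℕ) + 1)) - 1)) := by
  open CfsgLib.Inv2 CfsgLib.Forms in
  obtain ⟨j, rfl⟩ : ∃ j, m = s + j := ⟨m - s, by have := sp_rank_le ht; omega⟩
  obtain ⟨k, hk⟩ := heven
  have h1 := two_mul_choose_two_add s
  rw [sp_card_centralizer ht hs rfl, card_formIsom_wall_typeA (spPQ_nondeg _ _)
    (spEquiv (Fin (s + j)) F t).2 ((sp_typeA_iff t).2 halt) (k := k)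
    ((sp_finrank_mov t).trans (hs.trans (by omega))), ← spOrd_eq, ← spOrd_eq,
    Nat.card_eq_fintype_card, hF,
    show 2 * (s + j) * s - (3 * s ^ 2 - s) / 2 = s * (2 * j) + s.choose 2 + s by
      have : 2 * (s + j) * s = 2 * s ^ 2 + s * (2 * j) := by ring
      omega, Nat.add_sub_cancel_left, show s / 2 = k by omega]
  ring

end Cfsg.Agent.S2681
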