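import Mathlib
import Cfsg.Statements.S2684
import Cfsg.Agent.Lib.Inv2.OrthMat
-- import your own Cfsg.Agent.* helpers here

set_option autoImplicit false
open Cfsg

namespace Cfsg.Agent.S2684

/-- For the hyperbolic form Q = Σ x_j y_j on F^(2m) over a finite field with q elements, q even (excluding m = 2 over the field of two elements), and an involution x ≠ 1 of the orthogonal group with s = rank(x − 1) even and Q vanishing on the image of x − 1 (equivalently f(v, xv) = 0 for all v, where f(u, w) = Q(u + w) − Q(u) − Q(w) is the bilinear form of Q; type a_s, which lies in Ω): its centraliser in Ω (the commutator subgroup of the orthogonal group) has order q^(2ms − (3s² + s)/2) · |Sp_s(q)| · |Ω⁺_(2m−2s)(q)|, where |Ω⁺_2k(q)| = q^(k(k−1)) (q^k − 1) Π_(i=1)^(k−1) (q^(2i) − 1) for k ≥ 1 and the last factor is 1 when s = m. -/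
theorem result {F : Type*} [Field F] [Fintype F] [CharP F 2] {q : ℕ} (hF : Fintype.card F = q) {m s : ℕ} (h : Fintype.card F ≠ 2 ∨ m ≠ 2) (x : ↥(Cfsg.isometryGroup F (Cfsg.quadFormPlus m F))) (hx : x ^ 2 = 1) (hx1 : x ≠ 1) (hs : (((x : Matrix.GeneralLinearGroup (Fin m ⊕ Fin m) F) : Matrix (Fin m ⊕ Fin m) (Fin m ⊕ Fin m) F) - 1).rank = s) (heven : Even s) (halt : ∀ v : Fin m ⊕ Fin m → F, Cfsg.quadFormPlus m F ((((x : Matrix.GeneralLinearGroup (Fin m ⊕ Fin m) F) : Matrix (Fin m ⊕ Fin m) (Fin m ⊕ Fin m) F) - 1).mulVec v) = 0) : Nat.card {g : ↥(Cfsg.Omega F (Cfsg.quadFormPlus m F)) // (g : ↥(Cfsg.isometryGroup F (Cfsg.quadFormPlus m F))) * x = x * (g : ↥(Cfsg.isometryGroup F (Cfsg.quadFormPlus m F)))} = q ^ (2 * m * s - (3 * s ^ 2 + s) / 2) * ((q : ℕ) ^ ((s / 2) ^ 2) * ∏ i : Fin (s / 2), (q ^ (2 * ((i : ℕ) + 1)) - 1)) * (if s = m then 1 else q ^ ((m - s) * (m - s - 1)) * (q ^ (m - s) - 1) * ∏ i : Fin (m - s - 1), (q ^ (2 * ((i : ℕ) + 1)) - 1)) := by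
  open CfsgLib.Inv2 CfsgLib.Forms CfsgLib.Orth in
  have hQ := qPlus_nondegenerate (F := F) m
  have h1 := toOG_rank_le (Q := qPlus m F) hQ hx
  have h2 := (toOG_finrank_mov (Q := qPlus m F) x).trans hs
  rw [finrank_plus, hs] at h1
  have hA := (toOG_typeA_iff (Q := qPlus m F) x).2 halt
  obtain ⟨k, hk⟩ := heven
  have h3 := toOG_mul_self (Q := qPlus m F) hx
  have h4 := two_mul_choose_two_add s
  have h5 := card_centralizer_OG hQ (toOG (qPlus m F) x)
  rw [card_formIsom_wall_typeA (ofQuad_nondeg _ hQ) (isIso_OG _) hA (k := k) (by omega)] at h5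
  refine (card_commute_commutator (toOG (qPlus m F)) x).trans ?_
  rw [← spOrd_eq, show s / 2 = k by omega]
  split_ifs with hsm
  · subst hsm
    rw [card_commutator_inf_of_lag hQ (h24_plus h) hA (by rw [finrank_plus, h2]), h5,
      card_fix_of_lag hQ ((typeA_quad _).1 hA) h2 (finrank_plus _), Nat.card_eq_fintype_card, hF,
      show 2 * s * s - (3 * s ^ 2 + s) / 2 = s.choose 2 by
        have : 2 * s * s = 2 * s ^ 2 := by ring
        omega]
    ring
  · obtain ⟨j, hj⟩ : ∃ j, m = s + (j + 1) := ⟨m - (s + 1), by omega⟩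
    obtain ⟨M, h6, h7⟩ := exists_ts_plus (F := F) m
    have h8 := card_commutator_inf_mul_two hQ (reflSubgroup_eq_top hQ (h24_plus h)) h3
      fun h' => hsm (by have := h'.2; rw [finrank_plus, h2] at this; omega)
    rw [h5, card_fix_of_ts hQ h6 ((typeA_quad _).1 hA) h2 (h7.trans hj)
      (by rw [finrank_plus, hj]), Nat.card_eq_fintype_card (α := F), hF] at h8
    refine Nat.eq_of_mul_eq_mul_right two_pos (h8.trans ?_)
    rw [show m - s = j + 1 by omega, Nat.add_sub_cancel, Finset.prod_range,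
      show 2 * m * s - (3 * s ^ 2 + s) / 2 = s * (2 * (j + 1)) + s.choose 2 by
        have : 2 * m * s = 2 * s ^ 2 + s * (2 * (j + 1)) := by rw [hj]; ring
        omega]
    ring

end Cfsg.Agent.S2684
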