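import Mathlib
import Cfsg.Statements.S2685
import Cfsg.Agent.Lib.Inv2.OrthMat
-- import your own Cfsg.Agent.* helpers here

set_option autoImplicit false
open Cfsg

namespace Cfsg.Agent.S2685

/-- For the hyperbolic form Q = Σ x_j y_j on F^(2m) over a finite field with q elements, q even (excluding m = 2 over the field of two elements), and an involution x of the orthogonal group with s = rank(x − 1) even and Q not vanishing on the image of x − 1 (f(v, xv) ≠ 0 for some v, where f(u, w) = Q(u + w) − Q(u) − Q(w) is the bilinear form of Q; type c_s, which lies in Ω): its centraliser in Ω (the commutator subgroup of the orthogonal group) has order q^(2m(s−1) − (3s² − 5s)/2 − 1) · |Sp_(s−2)(q)| · |Sp_(2m−2s)(q)|. -/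
theorem result {F : Type*} [Field F] [Fintype F] [CharP F 2] {q : ℕ} (hF : Fintype.card F = q) {m s : ℕ} (h : Fintype.card F ≠ 2 ∨ m ≠ 2) (x : ↥(Cfsg.isometryGroup F (Cfsg.quadFormPlus m F))) (hx : x ^ 2 = 1) (hs : (((x : Matrix.GeneralLinearGroup (Fin m ⊕ Fin m) F) : Matrix (Fin m ⊕ Fin m) (Fin m ⊕ Fin m) F) - 1).rank = s) (heven : Even s) (hna : ∃ v : Fin m ⊕ Fin m → F, Cfsg.quadFormPlus m F ((((x : Matrix.GeneralLinearGroup (Fin m ⊕ Fin m) F) : Matrix (Fin m ⊕ Fin m) (Fin m ⊕ Fin m) F) - 1).mulVec v) ≠ 0) : Nat.card {g : ↥(Cfsg.Omega F (Cfsg.quadFormPlus m F)) // (g : ↥(Cfsg.isometryGroup F (Cfsg.quadFormPlus m F))) * x = x * (g : ↥(Cfsg.isometryGroup F (Cfsg.quadFormPlus m F)))} = q ^ (2 * m * (s - 1) - (3 * s ^ 2 - 5 * s) / 2 - 1) * ((q : ℕ) ^ (((s - 2) / 2) ^ 2) * ∏ i : Fin ((s - 2) / 2), (q ^ (2 * ((i : ℕ) + 1)) - 1)) * ((q : ℕ) ^ ((m - s) ^ 2) * ∏ i : Fin (m - s), (q ^ (2 * ((i : ℕ) + 1)) - 1)) := by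
  open CfsgLib.Inv2 CfsgLib.Forms CfsgLib.Orth in
  have hQ := qPlus_nondegenerate (F := F) m
  have h1 := toOG_rank_le (Q := qPlus m F) hQ hx
  have h2 := (toOG_finrank_mov (Q := qPlus m F) x).trans hs
  rw [finrank_plus, hs] at h1
  have hA : ¬ TypeA (ofQuad (qPlus m F)) (toOG (qPlus m F) x).1 := by
    rw [toOG_typeA_iff (Q := qPlus m F) x]; push Not; exact hna
  have hs0 : s ≠ 0 := by
    rintro rfl
    rw [Submodule.finrank_eq_zero] at h2
    exact hA ((typeA_quad _).2 (by simp [h2]))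
  obtain ⟨k, rfl⟩ : ∃ k, s = 2 * k + 2 := ⟨s / 2 - 1, by obtain ⟨r, hr⟩ := heven; omega⟩
  obtain ⟨j, hj⟩ : ∃ j, m = 2 * k + 1 + (j + 1) := ⟨m - (2 * k + 2), by omega⟩
  have h3 := toOG_mul_self (Q := qPlus m F) hx
  have h4 := two_mul_choose_two_add (2 * k + 1)
  refine (card_commute_commutator (toOG (qPlus m F)) x).trans ?_
  rw [card_plus_not_typeA (h24_plus h) h3 hA h2 hj,
    card_formIsom_wall_even (ofQuad_nondeg _ hQ) (isIso_OG _) (congrArg Subtype.val h3) hA h2,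
    ← spOrd_eq, ← spOrd_eq, Nat.card_eq_fintype_card, hF,
    show 2 * m * (2 * k + 2 - 1) - (3 * (2 * k + 2) ^ 2 - 5 * (2 * k + 2)) / 2 - 1
      = 2 * k + 1 + ((2 * k + 1) * (2 * j + 1) + (2 * k + 1).choose 2) by
      have e1 : 2 * m * (2 * k + 2 - 1)
          = 2 * (2 * k + 1) ^ 2 + (2 * k + 1) * (2 * j + 1) + (2 * k + 1) := by
        rw [hj, show 2 * k + 2 - 1 = 2 * k + 1 from rfl]; ring
      have e2 : (2 * k + 2) ^ 2 = (2 * k + 1) ^ 2 + 4 * k + 3 := by ring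
      have e3 : (2 * k + 1) ^ 2 = 4 * k ^ 2 + 4 * k + 1 := by ring
      omega,
    show (2 * k + 2 - 2) / 2 = k by omega, show m - (2 * k + 2) = j by omega]
  ring

end Cfsg.Agent.S2685
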