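import Cfsg.Statements.S2700
import Cfsg.Agent.Lib.ClAut.Graph2

set_option autoImplicit false
open Cfsg

namespace Cfsg.Agent.S2700

open CfsgLib CfsgLib.ClAut

/-- Let T = PSL_n(F) over a finite field of odd order with n = 2m ≥ 4 even, and G = Inndiag(T) the image of PGL_n(F). The involutory graph automorphisms of T fall into exactly three G-classes, with representatives γ₁, γ₂, γ₃ whose centralizers in G are isomorphic respectively to the projective conformal symplectic group PGSp_n(F), the projective conformal orthogonal group of the plus-type form Σ xᵢ yᵢ, and that of a minus-type form Σ xᵢ yᵢ + z₁² + a z₁ z₂ + b z₂² (anisotropic binary part) in dimension n. -/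
theorem result {F : Type*} [Field F] [Fintype F] (hodd : Odd (Fintype.card F)) {n m : ℕ} (hm : 2 ≤ m) (hnm : n = 2 * m) :
    ∃ (γ₁ γ₂ γ₃ : MulAut (Matrix.ProjectiveSpecialLinearGroup (Fin n) F)) (a b : F), (∀ z₁ z₂ : F, z₁ ^ 2 + a * z₁ * z₂ + b * z₂ ^ 2 = 0 → z₁ = 0 ∧ z₂ = 0) ∧ Cfsg.IsGraphAutClassPSL γ₁ ∧ orderOf γ₁ = 2 ∧ Cfsg.IsGraphAutClassPSL γ₂ ∧ orderOf γ₂ = 2 ∧ Cfsg.IsGraphAutClassPSL γ₃ ∧ orderOf γ₃ = 2 ∧ ¬ Cfsg.IsConjUnder (Cfsg.inndiagPSL n F) γ₁ γ₂ ∧ ¬ Cfsg.IsConjUnder (Cfsg.inndiagPSL n F) γ₁ γ₃ ∧ ¬ Cfsg.IsConjUnder (Cfsg.inndiagPSL n F) γ₂ γ₃ ∧ (∀ γ : MulAut (Matrix.ProjectiveSpecialLinearGroup (Fin n) F), Cfsg.IsGraphAutClassPSL γ → orderOf γ = 2 → Cfsg.IsConjUnder (Cfsg.inndiagPSL n F) γ₁ γ ∨ Cfsg.IsConjUnder (Cfsg.inndiagPSL n F) γ₂ γ ∨ Cfsg.IsConjUnder (Cfsg.inndiagPSL n F) γ₃ γ) ∧ Nonempty (↥(Cfsg.inndiagPSL n F ⊓ Subgroup.centralizer {γ₁})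 ≃* Cfsg.PGSp m F) ∧ Nonempty (↥(Cfsg.inndiagPSL n F ⊓ Subgroup.centralizer {γ₂}) ≃* Cfsg.PGO F (Cfsg.quadFormPlus m F)) ∧ Nonempty (↥(Cfsg.inndiagPSL n F ⊓ Subgroup.centralizer {γ₃}) ≃* Cfsg.PGO F (Cfsg.quadFormMinus (m - 1) F a b)) := by
  have h2 : (2 : F) ≠ 0 := OrthE.two_ne_zero_of_odd hodd
  obtain ⟨k, rfl⟩ : ∃ k, m = k + 1 := ⟨m - 1, by omega⟩
  have hn : 3 ≤ n := by omega
  have h3 : 3 ≤ Fintype.card (Fin n) := by simpa using hn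
  haveI := nontrivial_fin (by omega : 2 ≤ n)
  have hc : Fintype.card (Fin n) = 2 * (k + 1) := by simpa using hnm
  obtain ⟨b, hb⟩ := Orth.exists_aniso_one (F := F)
  obtain ⟨A₁, s₁⟩ := exists_gl_alt (F := F) hc
  obtain ⟨A₂, hA₂, s₂⟩ := exists_gl_polar (ι := Fin n) (Orth.qPlus (k + 1) F)
    (Orth.qPlus_nondegenerate _) (by simp; omega)
  obtain ⟨A₃, hA₃, s₃⟩ := exists_gl_polar (ι := Fin n) (Orth.qMinus k 1 b)
    (Orth.qMinus_nondegenerate _ hb) (by simp; omega)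
  have hA₁ := s₁.alt_of (sympForm_self _)
  rw [inndiagPSL_eq]
  refine ⟨gr A₁, gr A₂, gr A₃, 1, b, hb, (isGraphAutClassPSL_iff hn).2 ⟨_, rfl⟩,
    (orderOf_gr_eq_two_iff h3).2 (.inr (skew_of_alt hA₁)), (isGraphAutClassPSL_iff hn).2 ⟨_, rfl⟩,
    (orderOf_gr_eq_two_iff h3).2 (.inl hA₂), (isGraphAutClassPSL_iff hn).2 ⟨_, rfl⟩,
    (orderOf_gr_eq_two_iff h3).2 (.inl hA₃), fun h => ?_, fun h => ?_, fun h => ?_,
    fun γ hγ hγ2 => ?_, nonempty_centralizer_gr s₁, ?_, ?_⟩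
  · exact not_alt_of_symm h2 A₂ hA₂ ((isConjUnder_gr_iff.1 h).symm.alt_of hA₁)
  · exact not_alt_of_symm h2 A₃ hA₃ ((isConjUnder_gr_iff.1 h).symm.alt_of hA₁)
  · exact (formSim_qMinus_iff h2 A₂ hA₂ hc hb).1 ((isConjUnder_gr_iff.1 h).trans s₃)
      ((formSim_qPlus_iff h2 A₂ hA₂ hc).1 s₂)
  · obtain ⟨A, rfl⟩ := (isGraphAutClassPSL_iff hn).1 hγ
    rcases (orderOf_gr_eq_two_iff h3).1 hγ2 with hA | hA
    · by_cases hs : IsSquare ((A : Matrix (Fin n) (Fin n) F).det * (-1) ^ (k + 1))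
      · exact .inr (.inl (isConjUnder_gr_iff.2
          (s₂.trans ((formSim_qPlus_iff h2 A hA hc).2 hs).symm)))
      · exact .inr (.inr (isConjUnder_gr_iff.2
          (s₃.trans ((formSim_qMinus_iff h2 A hA hc hb).2 hs).symm)))
    · exact .inl (isConjUnder_gr_iff.2
        (s₁.trans (formSim_sympForm A (mform_self_of_skew h2 hA) hc).symm))
  · rw [← Orth.coe_qPlus]
    exact nonempty_centralizer_gr_PGO h2 s₂
  · rw [Nat.add_sub_cancel, ← Orth.coe_qMinus]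
    exact nonempty_centralizer_gr_PGO h2 s₃

end Cfsg.Agent.S2700
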