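import Cfsg.Statements.S2701
import Cfsg.Agent.Lib.ClAut.Graph2

set_option autoImplicit false
open Cfsg

namespace Cfsg.Agent.S2701

open CfsgLib CfsgLib.ClAut Matrix

/-- Let T = PSL_n(F) over a finite field of characteristic 2 with n = 2m ≥ 4 even, and G = Inndiag(T) the image of PGL_n(F). The involutory graph automorphisms of T fall into exactly two G-classes, with representatives γ₁ and γ₃ whose centralizers in G are isomorphic respectively to the symplectic group Sp_n(F) and to the centralizer in Sp_n(F) of a symplectic transvection. -/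
theorem result {F : Type*} [Field F] [Fintype F] [CharP F 2] {n m : ℕ} (hm : 2 ≤ m) (hnm : n = 2 * m) :
    ∃ (γ₁ γ₃ : MulAut (Matrix.ProjectiveSpecialLinearGroup (Fin n) F)) (t : ↥(Matrix.symplecticGroup (Fin m) F)), Cfsg.IsTransvection (t : Matrix (Fin m ⊕ Fin m) (Fin m ⊕ Fin m) F) ∧ Cfsg.IsGraphAutClassPSL γ₁ ∧ orderOf γ₁ = 2 ∧ Cfsg.IsGraphAutClassPSL γ₃ ∧ orderOf γ₃ = 2 ∧ ¬ Cfsg.IsConjUnder (Cfsg.inndiagPSL n F) γ₁ γ₃ ∧ (∀ γ : MulAut (Matrix.ProjectiveSpecialLinearGroup (Fin n) F), Cfsg.IsGraphAutClassPSL γ → orderOf γ = 2 → Cfsg.IsConjUnder (Cfsg.inndiagPSL n F) γ₁ γ ∨ Cfsg.IsConjUnder (Cfsg.inndiagPSL n F) γ₃ γ) ∧ Nonempty (↥(Cfsg.inndiagPSL n F ⊓ Subgroup.centralizer {γ₁}) ≃* ↥(Matrix.symplecticGroup (Fin m) F)) ∧ Nonempty (↥(Cfsg.inndiagPSL n F ⊓ Subgroup.centralizer {γ₃}) ≃* ↥(Subgroup.centralizer ({t} : Set ↥(Matrix.symplecticGroup (Fin m) F)))) := by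
  have h2 : (2 : F) = 0 := CharTwo.two_eq_zero
  have hn : 3 ≤ n := by omega
  have h3 : 3 ≤ Fintype.card (Fin n) := by simpa using hn
  haveI := nontrivial_fin (by omega : 2 ≤ n)
  have hc : Fintype.card (Fin n) = 2 * m := by simpa using hnm
  obtain ⟨A₁, s₁⟩ := exists_gl_alt (F := F) hc
  have hA₁ := s₁.alt_of (sympForm_self _)
  let w : Fin m ⊕ Fin m → F := Pi.single (Sum.inl ⟨0, by omega⟩) 1
  have hw : w ≠ 0 := by simp [w]
  have hA₃ : ((1 : GL (Fin n) F) : Matrix (Fin n) (Fin n) F)ᵀ =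
    ((1 : GL (Fin n) F) : Matrix (Fin n) (Fin n) F) := Matrix.transpose_one
  have hA₃' : ¬ ∀ v, mform ((1 : GL (Fin n) F) : Matrix (Fin n) (Fin n) F) v v = 0 := fun h => by
    have := h (Pi.single ⟨0, by omega⟩ 1)
    rw [mform_single] at this
    simp at this
  have s₃ := formSim_evenF h2 1 hA₃ hc hA₃' hw
  rw [inndiagPSL_eq]
  refine ⟨gr A₁, gr 1, Symp.spT w 1, ?_, (isGraphAutClassPSL_iff hn).2 ⟨_, rfl⟩,
    (orderOf_gr_eq_two_iff h3).2 (.inr (skew_of_alt hA₁)), (isGraphAutClassPSL_iff hn).2 ⟨_, rfl⟩,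
    (orderOf_gr_eq_two_iff h3).2 (.inl hA₃), fun h => ?_, fun γ hγ hγ2 => ?_, ?_, ?_⟩
  · have hJ : J (Fin m) F *ᵥ w ≠ 0 := fun h => by
      obtain ⟨u, hu⟩ := Symp.exists_spB_eq_one hw
      rw [Forms.spB_apply, h] at hu
      simp at hu
    rw [Cfsg.IsTransvection, Symp.coe_spT, Cfsg.sympTransvection, add_sub_cancel_left, one_smul]
    refine ⟨le_antisymm (rank_vecMulVec_le _ _) (Nat.pos_iff_ne_zero.2 fun h => ?_), ?_⟩
    · rw [Matrix.rank, Submodule.finrank_eq_zero, LinearMap.range_eq_bot, ← toLin'_apply',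
        LinearEquiv.map_eq_zero_iff, vecMulVec_eq_zero] at h
      exact h.elim hw hJ
    rw [vecMulVec_mul_vecMulVec, dotProduct_comm, ← Forms.spB_apply, Symp.spB_self, zero_smul,
      vecMulVec_zero]
  · exact hA₃' ((isConjUnder_gr_iff.1 h).symm.alt_of hA₁)
  · obtain ⟨A, rfl⟩ := (isGraphAutClassPSL_iff hn).1 hγ
    have hA := symm_of_two h2 ((orderOf_gr_eq_two_iff h3).1 hγ2)
    by_cases hs : ∀ v, mform (A : Matrix (Fin n) (Fin n) F) v v = 0
    · exact .inl (isConjUnder_gr_iff.2 (s₁.trans (formSim_sympForm A hs hc).symm))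
    · exact .inr (isConjUnder_gr_iff.2 (s₃.trans (formSim_evenF h2 A hA hc hs hw).symm))
  · obtain ⟨e1⟩ := nonempty_centralizer_gr s₁
    obtain ⟨e2⟩ := nonempty_PGSp_equiv_of_two h2 (by omega : 1 ≤ m)
    exact ⟨e1.trans e2⟩
  · obtain ⟨e1⟩ := nonempty_centralizer_gr s₃
    obtain ⟨e2⟩ := nonempty_evenF_equiv h2 hw
    exact ⟨e1.trans e2⟩

end Cfsg.Agent.S2701
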