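import Cfsg.Statements.S2702
import Cfsg.Agent.Lib.ClAut.Graph2

set_option autoImplicit false
open Cfsg

namespace Cfsg.Agent.S2702

open CfsgLib CfsgLib.ClAut Matrix

/-- Let T = PSL_n(F) over the field with q = p^f elements, n ≥ 3, G = Inndiag(T) the image of PGL_n(F), and γ an involutory graph automorphism of T. The G-class of γ is the union of exactly c T-classes, where: if n is even and q is odd, c = gcd(n/2, q − 1) when C_G(γ) is isomorphic to the projective conformal symplectic group PGSp_n(F) (symplectic type) and c = gcd(n, q − 1)/2 otherwise; and c = gcd(n, q − 1) when n is odd or q is even. -/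
theorem result {F : Type*} [Field F] [Fintype F] {p f : ℕ} [Fact p.Prime] (hF : Fintype.card F = p ^ f) (hf : 1 ≤ f) {n : ℕ} (hn : 3 ≤ n) (γ : MulAut (Matrix.ProjectiveSpecialLinearGroup (Fin n) F)) (hγ : Cfsg.IsGraphAutClassPSL γ) (hγ2 : orderOf γ = 2) :
    ((Even n ∧ Odd p ∧ Nonempty (↥(Cfsg.inndiagPSL n F ⊓ Subgroup.centralizer {γ}) ≃* Cfsg.PGSp (n / 2) F)) → Cfsg.splitClassCount (Cfsg.inndiagPSL n F) (Cfsg.Inn (Matrix.ProjectiveSpecialLinearGroup (Fin n) F)) γ = Nat.gcd (n / 2) (p ^ f - 1)) ∧ ((Even n ∧ Odd p ∧ ¬ Nonempty (↥(Cfsg.inndiagPSL n F ⊓ Subgroup.centralizer {γ}) ≃* Cfsg.PGSp (n / 2) F)) → Cfsg.splitClassCount (Cfsg.inndiagPSL n F) (Cfsg.Inn (Matrix.ProjectiveSpecialLinearGroup (Fin n) F)) γ = Nat.gcd n (p ^ f - 1) / 2) ∧ (¬ (Even n ∧ Odd p) → Cfsg.splitClassCount (Cfsg.inndiagPSL n F) (Cfsg.Inn (Matrix.ProjectiveSpecialLinearGroup (Fin n) F)) γ = Nat.gcd n (p ^ f - 1)) := by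
  obtain ⟨A, rfl⟩ := (isGraphAutClassPSL_iff hn).1 hγ
  have h3 : 3 ≤ Fintype.card (Fin n) := by simpa using hn
  haveI := nontrivial_fin (by omega : 2 ≤ n)
  have hA := (orderOf_gr_eq_two_iff h3).1 hγ2
  have hq : Nat.card Fˣ = p ^ f - 1 := by rw [Nat.card_units, Nat.card_eq_fintype_card, hF]
  have hp : Odd p ↔ (2 : F) ≠ 0 := by
    have h1 : (p : F) = 0 := pow_eq_zero_iff (n := f) (by omega) |>.1 (by
      exact_mod_cast hF ▸ FiniteField.cast_card_eq_zero F)
    constructor
    · rintro ⟨k, rfl⟩ h2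
      push_cast at h1
      rw [h2] at h1
      simp at h1
    · intro h2
      refine (Fact.out : p.Prime).odd_of_ne_two ?_
      rintro rfl
      exact h2 (by exact_mod_cast h1)
  rw [inndiagPSL_eq, splitClassCount_psl (centralizer_gr A), hq, Fintype.card_fin, hp]
  refine ⟨?_, ?_, fun h => ?_⟩
  · rintro ⟨⟨m, hm⟩, h2, ⟨e⟩⟩
    have hc : Fintype.card (Fin n) = 2 * m := by simp; omega
    obtain rfl : m = n / 2 := by omega
    rcases hA with hA | hA
    · refine absurd ?_ (card_symm_ne h2 hA A.det_ne_zero (by omega) hc)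
      rw [centralizer_gr] at e
      exact Nat.card_congr ((projQuotEquiv _).trans e).toEquiv
    · rw [(formSim_sympForm A (mform_self_of_skew h2 hA) hc).map_det, ← Cfsg.GSp, gsp_det,
        IsCyclic.index_powMonoidHom_range, hq, Nat.gcd_comm (n / 2)]
      refine Nat.gcd_eq_right (Nat.dvd_gcd (Nat.gcd_dvd_left _ _) ?_)
      exact (Nat.gcd_dvd_right _ _).trans ⟨2, by omega⟩
  · rintro ⟨⟨m, hm⟩, h2, he⟩
    have hc : Fintype.card (Fin n) = 2 * m := by simp; omega
    obtain rfl : m = n / 2 := by omega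
    rcases hA with hA | hA
    · have h4 : (Subgroup.zpowers (-1 : Fˣ)).index * 2 = p ^ f - 1 := by
        have h5 : orderOf (-1 : Fˣ) = 2 := orderOf_eq_two (fun h => h2 (by
          have := congrArg Units.val h
          simp only [Units.val_neg, Units.val_one] at this
          linear_combination -this)) (by simp)
        rw [← hq, ← (Subgroup.zpowers (-1 : Fˣ)).index_mul_card, Nat.card_zpowers, h5]
      rw [symm_sim_det h2 hA A.det_ne_zero hc, cyclic_index_sup,
        IsCyclic.index_powMonoidHom_range, hq, ← h4]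
      set t := (Subgroup.zpowers (-1 : Fˣ)).index
      set m := n / 2
      rw [show n = m * 2 by omega, Nat.gcd_mul_right, Nat.gcd_mul_right,
        Nat.mul_div_cancel _ two_pos, ← Nat.gcd_assoc t, Nat.gcd_eq_left (Nat.dvd_mul_right t 2),
        Nat.gcd_comm m]
      exact Nat.gcd_eq_right (Nat.dvd_mul_right _ _)
    · exact absurd (nonempty_centralizer_gr (formSim_sympForm A (mform_self_of_skew h2 hA) hc)) he
  · have h4 : (Cfsg.Geo.similarityGroup (mform (A : Matrix (Fin n) (Fin n) F))).map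
        GeneralLinearGroup.det ≤ (powMonoidHom (Fintype.card (Fin n)) : Fˣ →* Fˣ).range := by
      by_cases h2 : (2 : F) = 0
      · exact sim_det_le_of_two h2 A.det_ne_zero
      · exact sim_det_le_of_odd A.det_ne_zero (by
          simpa using Nat.not_even_iff_odd.1 fun he => h ⟨he, h2⟩)
    have h5 := Subgroup.index_dvd_of_le h4
    rw [IsCyclic.index_powMonoidHom_range, hq, Fintype.card_fin] at h5
    rw [Nat.gcd_eq_left h5, Nat.gcd_comm]

end Cfsg.Agent.S2702
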