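import Cfsg.Statements.S2703
import Cfsg.Agent.Lib.ClAut.Graph2

set_option autoImplicit false
open Cfsg

namespace Cfsg.Agent.S2703

open CfsgLib CfsgLib.ClAut

/-- Let T = PSL_n(F) over the field with q elements, q odd, n = 2m ≥ 4 even, and ι the inverse-transpose automorphism. Its centralizer in G = Inndiag(T) (the image of PGL_n(F)) is isomorphic to the projective conformal orthogonal group of the plus-type form Σ xᵢ yᵢ in dimension n when n(q − 1)/4 is even, and to that of a minus-type form (Σ xᵢ yᵢ + z₁² + a z₁ z₂ + b z₂² with anisotropic binary part) when n(q − 1)/4 is odd. -/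
theorem result {F : Type*} [Field F] [Fintype F] (hodd : Odd (Fintype.card F)) {n m : ℕ} (hm : 2 ≤ m) (hnm : n = 2 * m) (ι : MulAut (Matrix.ProjectiveSpecialLinearGroup (Fin n) F)) (hι : Cfsg.IsInverseTransposeAutPSL ι) :
    (Even (n * (Fintype.card F - 1) / 4) → Nonempty (↥(Cfsg.inndiagPSL n F ⊓ Subgroup.centralizer {ι}) ≃* Cfsg.PGO F (Cfsg.quadFormPlus m F))) ∧ (¬ Even (n * (Fintype.card F - 1) / 4) → ∃ a b : F, (∀ z₁ z₂ : F, z₁ ^ 2 + a * z₁ * z₂ + b * z₂ ^ 2 = 0 → z₁ = 0 ∧ z₂ = 0) ∧ Nonempty (↥(Cfsg.inndiagPSL n F ⊓ Subgroup.centralizer {ι}) ≃* Cfsg.PGO F (Cfsg.quadFormMinus (m - 1) F a b))) := by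
  have h2 : (2 : F) ≠ 0 := OrthE.two_ne_zero_of_odd hodd
  obtain ⟨k, rfl⟩ : ∃ k, m = k + 1 := ⟨m - 1, by omega⟩
  haveI := nontrivial_fin (by omega : 2 ≤ n)
  have hc : Fintype.card (Fin n) = 2 * (k + 1) := by simpa using hnm
  obtain ⟨b, hb⟩ := Orth.exists_aniso_one (F := F)
  rw [inndiagPSL_eq, isInverseTransposeAutPSL_iff.1 hι, ← gr_one]
  have hA : ((1 : GL (Fin n) F) : Matrix (Fin n) (Fin n) F).transpose =
    ((1 : GL (Fin n) F) : Matrix (Fin n) (Fin n) F) := Matrix.transpose_one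
  have key : Even (n * (Fintype.card F - 1) / 4) ↔
      IsSquare (((1 : GL (Fin n) F) : Matrix (Fin n) (Fin n) F).det * (-1) ^ (k + 1)) := by
    rw [Units.val_one, Matrix.det_one, one_mul, hnm, mul_assoc,
      show 4 = 2 * 2 from rfl, Nat.mul_div_mul_left _ _ two_pos,
      ← Orth.pow_mod_four_eq_one_iff hodd]
    have h4 := FiniteField.isSquare_neg_one_iff (F := F)
    obtain ⟨t, ht⟩ := hodd
    rcases Nat.even_or_odd (k + 1) with he | he
    · rw [he.neg_one_pow]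
      obtain ⟨j, hj⟩ := he
      refine iff_of_true ?_ IsSquare.one
      rw [hj, ← two_mul, pow_mul, Nat.pow_mod, show Fintype.card F ^ 2 % 4 = 1 by
        rw [ht, show (2 * t + 1) ^ 2 = 1 + 4 * (t ^ 2 + t) by ring, Nat.add_mul_mod_self_left],
        one_pow, Nat.one_mod]
    · rw [he.neg_one_pow, h4]
      obtain ⟨j, hj⟩ := he
      rw [hj, pow_succ, pow_mul, Nat.mul_mod, Nat.pow_mod, show Fintype.card F ^ 2 % 4 = 1 by
        rw [ht, show (2 * t + 1) ^ 2 = 1 + 4 * (t ^ 2 + t) by ring, Nat.add_mul_mod_self_left],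
        one_pow]
      omega
  rw [key]
  refine ⟨fun h => ?_, fun h => ⟨1, b, hb, ?_⟩⟩
  · rw [← Orth.coe_qPlus]
    exact nonempty_centralizer_gr_PGO h2 ((formSim_qPlus_iff h2 1 hA hc).2 h)
  · rw [Nat.add_sub_cancel, ← Orth.coe_qMinus]
    exact nonempty_centralizer_gr_PGO h2 ((formSim_qMinus_iff h2 1 hA hc hb).2 h)

end Cfsg.Agent.S2703
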