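import Cfsg.Statements.S2705
import Cfsg.Agent.Lib.ClAut.FieldU

set_option autoImplicit false
open Cfsg

namespace Cfsg.Agent.S2705

open CfsgLib.ClAut

/-- Let T = PSU_n(q) be simple (n ≥ 3, (n, q) ≠ (3, 2), q = p^f), realised over the field F with q² elements, G = Inndiag(T) the image of PGU_n(q) in Aut(T), and x a field automorphism of T (conjugate to a standard field automorphism of odd order) of odd prime order r. Then r divides f; C_G(x) is isomorphic to PGU_n(q₀) with q₀ = p^(f/r), realised over a field F₀ with q₀² elements; and the G-class of x is the union of exactly gcd(n, (q + 1)/(q₀ + 1)) T-classes. -/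
theorem result {F : Type*} [Field F] [Fintype F] {p f q : ℕ} [Fact p.Prime] (hq : q = p ^ f) (hf : 1 ≤ f) (hF : Fintype.card F = q ^ 2) {n : ℕ} (hn : 3 ≤ n) (hs : ¬ (n = 3 ∧ q = 2)) (x : MulAut (Cfsg.PSU n F q)) (hx : Cfsg.IsFieldAutClassPSU x) {r : ℕ} (hr : r.Prime) (hro : Odd r) (hxr : orderOf x = r) (F₀ : Type*) [Field F₀] [Fintype F₀] (hF₀ : Fintype.card F₀ = p ^ (2 * (f / r))) :
    r ∣ f ∧ Nonempty (↥(Cfsg.inndiagPSU n F q ⊓ Subgroup.centralizer {x}) ≃* Cfsg.PGU n F₀ (p ^ (f / r))) ∧ Cfsg.splitClassCount (Cfsg.inndiagPSU n F q) (Cfsg.Inn (Cfsg.PSU n F q)) x = Nat.gcd n ((q + 1) / (p ^ (f / r) + 1)) := by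
  have : NeZero n := ⟨by omega⟩
  rw [inndiagPSU_eq' hF]
  obtain ⟨a, σ, ho, h2, rfl⟩ := IsFieldAutClassPSU.exists hF hn hx
  have := (projAct_su hF hn).normal (psuIndC_surjective hF hn hs)
  obtain ⟨h5, h6⟩ := card_fixField_odd (hq ▸ hF) ho
  rw [h2, hxr] at h5 h6
  have hK : Fintype.card F₀ = (p ^ (f / r)) ^ 2 := by rw [hF₀, ← pow_mul, mul_comm]
  obtain ⟨j, hj⟩ := exists_ringHom_fixField σ F₀ (hK.trans h6.symm)
  have hθ := conj_map_of_odd hF hK hro (by rw [hq, ← pow_mul, Nat.div_mul_cancel h5]) j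
  obtain ⟨e1⟩ := nonempty_centralizer_conj (linInd (psuIndC hF n)).range a
    (psuIndC hF n ⟨_, inr_mem_gamCU hF σ⟩)
  have e2 := (projAct_su hF hn).nonempty_centralizer_equiv ⟨_, inr_mem_gamCU hF σ⟩ (μ := 1) (k := 1)
    (by simp) hj
  rw [show (glPart (gamCU hF n)).comap (glConjMap 1 j) = _ from comap_simM hθ (map_one' _)] at e2
  refine ⟨h5, ⟨e1.trans (e2.some.trans (nonempty_pgu_equiv hK).some.symm)⟩, ?_⟩
  rw [splitClassCount_conj, splitClassCount_su_field hF hK hn hj hθ]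

end Cfsg.Agent.S2705
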