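import Cfsg.Statements.S2707
import Cfsg.Agent.Lib.ClAut.GraphU

set_option autoImplicit false
open Cfsg

namespace Cfsg.Agent.S2707

open CfsgLib CfsgLib.ClAut Matrix

/-- Let T = PSU_n(q) with n = 2m ≥ 4 even and q odd, realised over the field F with q² elements, and G = Inndiag(T) the image of PGU_n(q). The involutory graph automorphisms of T fall into exactly three G-classes, with representatives whose centralizers in G are isomorphic respectively to the projective conformal symplectic group PGSp_n(F₀), the projective conformal orthogonal group of the plus-type form Σ xᵢ yᵢ, and that of a minus-type form Σ xᵢ yᵢ + z₁² + a z₁ z₂ + b z₂² (anisotropic binary part) in dimension n, all over a field F₀ with q elements. -/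
theorem result {F : Type*} [Field F] [Fintype F] {q : ℕ} (hodd : Odd q) (hF : Fintype.card F = q ^ 2) {n m : ℕ} (hm : 2 ≤ m) (hnm : n = 2 * m) (F₀ : Type*) [Field F₀] [Fintype F₀] (hF₀ : Fintype.card F₀ = q) :
    ∃ (γ₁ γ₂ γ₃ : MulAut (Cfsg.PSU n F q)) (a b : F₀), (∀ z₁ z₂ : F₀, z₁ ^ 2 + a * z₁ * z₂ + b * z₂ ^ 2 = 0 → z₁ = 0 ∧ z₂ = 0) ∧ Cfsg.IsGraphAutClassPSU γ₁ ∧ orderOf γ₁ = 2 ∧ Cfsg.IsGraphAutClassPSU γ₂ ∧ orderOf γ₂ = 2 ∧ Cfsg.IsGraphAutClassPSU γ₃ ∧ orderOf γ₃ = 2 ∧ ¬ Cfsg.IsConjUnder (Cfsg.inndiagPSU n F q) γ₁ γ₂ ∧ ¬ Cfsg.IsConjUnder (Cfsg.inndiagPSU n F q) γ₁ γ₃ ∧ ¬ Cfsg.IsConjUnder (Cfsg.inndiagPSU n F q) γ₂ γ₃ ∧ (∀ γ : MulAut (Cfsg.PSU n F q), Cfsg.IsGraphAutClassPSU γ → orderOf γ = 2 → Cfsg.IsConjUnder (Cfsg.inndiagPSU n F q) γ₁ γ ∨ Cfsg.IsConjUnder (Cfsg.inndiagPSU n F q) γ₂ γ ∨ Cfsg.IsConjUnder (Cfsg.inndiagPSU n F q) γ₃ γ) ∧ Nonempty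 (↥(Cfsg.inndiagPSU n F q ⊓ Subgroup.centralizer {γ₁}) ≃* Cfsg.PGSp m F₀) ∧ Nonempty (↥(Cfsg.inndiagPSU n F q ⊓ Subgroup.centralizer {γ₂}) ≃* Cfsg.PGO F₀ (Cfsg.quadFormPlus m F₀)) ∧ Nonempty (↥(Cfsg.inndiagPSU n F q ⊓ Subgroup.centralizer {γ₃}) ≃* Cfsg.PGO F₀ (Cfsg.quadFormMinus (m - 1) F₀ a b)) := by
  obtain ⟨j, hj⟩ := exists_ringHom_conjE hF F₀ hF₀
  have h2 : (2 : F₀) ≠ 0 := OrthE.two_ne_zero_of_odd (hF₀ ▸ hodd)
  obtain ⟨k, rfl⟩ : ∃ k, m = k + 1 := ⟨m - 1, by omega⟩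
  have hn : 3 ≤ n := by omega
  have : NeZero n := ⟨by omega⟩
  have hc : Fintype.card (Fin n) = 2 * (k + 1) := by simpa using hnm
  obtain ⟨b, hb⟩ := Orth.exists_aniso_one (F := F₀)
  obtain ⟨A₁, s₁⟩ := exists_gl_alt (F := F₀) hc
  obtain ⟨A₂, hA₂, s₂⟩ := exists_gl_polar (ι := Fin n) (Orth.qPlus (k + 1) F₀)
    (Orth.qPlus_nondegenerate _) (by simp; omega)
  obtain ⟨A₃, hA₃, s₃⟩ := exists_gl_polar (ι := Fin n) (Orth.qMinus k 1 b)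
    (Orth.qMinus_nondegenerate _ hb) (by simp; omega)
  have hA₁ := s₁.alt_of (sympForm_self _)
  obtain ⟨γ₁, g₁, c₁, o₁⟩ := exists_grU_of hj hn (.inr (skew_of_alt hA₁))
  obtain ⟨γ₂, g₂, c₂, o₂⟩ := exists_grU_of hj hn (.inl hA₂)
  obtain ⟨γ₃, g₃, c₃, o₃⟩ := exists_grU_of hj hn (.inl hA₃)
  rw [inndiagPSU_eq' hF]
  refine ⟨γ₁, γ₂, γ₃, 1, b, hb, c₁, o₁, c₂, o₂, c₃, o₃, fun h => ?_, fun h => ?_, fun h => ?_,
    fun γ hγ hγ2 => ?_, g₁.nonempty_centralizer hj hn s₁, ?_, ?_⟩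
  · exact not_alt_of_symm h2 A₂ hA₂ (((g₁.isConjUnder_iff hj hn g₂).1 h).symm.alt_of hA₁)
  · exact not_alt_of_symm h2 A₃ hA₃ (((g₁.isConjUnder_iff hj hn g₃).1 h).symm.alt_of hA₁)
  · exact (formSim_qMinus_iff h2 A₂ hA₂ hc hb).1 (((g₂.isConjUnder_iff hj hn g₃).1 h).trans s₃)
      ((formSim_qPlus_iff h2 A₂ hA₂ hc).1 s₂)
  · obtain ⟨A, g, hA⟩ := exists_grU hj hn hγ hγ2
    rw [g₁.isConjUnder_iff hj hn g, g₂.isConjUnder_iff hj hn g, g₃.isConjUnder_iff hj hn g]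
    rcases hA with hA | hA
    · by_cases hs : IsSquare ((A : Matrix (Fin n) (Fin n) F₀).det * (-1) ^ (k + 1))
      · exact .inr (.inl (s₂.trans ((formSim_qPlus_iff h2 A hA hc).2 hs).symm))
      · exact .inr (.inr (s₃.trans ((formSim_qMinus_iff h2 A hA hc hb).2 hs).symm))
    · exact .inl (s₁.trans (formSim_sympForm A (mform_self_of_skew h2 hA) hc).symm)
  · rw [← Orth.coe_qPlus]
    exact g₂.nonempty_centralizer_PGO hj hn h2 s₂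
  · rw [Nat.add_sub_cancel, ← Orth.coe_qMinus]
    exact g₃.nonempty_centralizer_PGO hj hn h2 s₃

end Cfsg.Agent.S2707
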