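import Cfsg.Statements.S2708
import Cfsg.Agent.Lib.ClAut.GraphU

set_option autoImplicit false
open Cfsg

namespace Cfsg.Agent.S2708

open CfsgLib CfsgLib.ClAut Matrix

/-- Let T = PSU_n(q) with n = 2m ≥ 4 even and q even, realised over the field F (of characteristic 2) with q² elements, and G = Inndiag(T) the image of PGU_n(q). The involutory graph automorphisms of T fall into exactly two G-classes, with representatives whose centralizers in G are isomorphic respectively to the symplectic group Sp_n(F₀) and to the centralizer in Sp_n(F₀) of a symplectic transvection, F₀ a field with q elements. -/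
theorem result {F : Type*} [Field F] [Fintype F] [CharP F 2] {q : ℕ} (hF : Fintype.card F = q ^ 2) {n m : ℕ} (hm : 2 ≤ m) (hnm : n = 2 * m) (F₀ : Type*) [Field F₀] [Fintype F₀] (hF₀ : Fintype.card F₀ = q) :
    ∃ (γ₁ γ₃ : MulAut (Cfsg.PSU n F q)) (t : ↥(Matrix.symplecticGroup (Fin m) F₀)), Cfsg.IsTransvection (t : Matrix (Fin m ⊕ Fin m) (Fin m ⊕ Fin m) F₀) ∧ Cfsg.IsGraphAutClassPSU γ₁ ∧ orderOf γ₁ = 2 ∧ Cfsg.IsGraphAutClassPSU γ₃ ∧ orderOf γ₃ = 2 ∧ ¬ Cfsg.IsConjUnder (Cfsg.inndiagPSU n F q) γ₁ γ₃ ∧ (∀ γ : MulAut (Cfsg.PSU n F q), Cfsg.IsGraphAutClassPSU γ → orderOf γ = 2 → Cfsg.IsConjUnder (Cfsg.inndiagPSU n F q) γ₁ γ ∨ Cfsg.IsConjUnder (Cfsg.inndiagPSU n F q) γ₃ γ) ∧ Nonempty (↥(Cfsg.inndiagPSU n F q ⊓ Subgroup.centralizer {γ₁}) ≃* ↥(Matrix.symplecticGroup (Fin m) F₀)) ∧ Nonempty (↥(Cfsg.inndiagPSU n F q ⊓ Subgroup.centralizer {γ₃}) ≃* ↥(Subgroup.centralizer ({t} : Set ↥(Matrix.symplecticGroup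 (Fin m) F₀)))) := by
  obtain ⟨j, hj⟩ := exists_ringHom_conjE hF F₀ hF₀
  have h2 : (2 : F₀) = 0 := j.injective (by rw [map_ofNat, map_zero]; exact CharTwo.two_eq_zero)
  have hn : 3 ≤ n := by omega
  have hc : Fintype.card (Fin n) = 2 * m := by simpa using hnm
  obtain ⟨A₁, s₁⟩ := exists_gl_alt (F := F₀) hc
  have hA₁ := s₁.alt_of (sympForm_self _)
  let w : Fin m ⊕ Fin m → F₀ := Pi.single (Sum.inl ⟨0, by omega⟩) 1
  have hw : w ≠ 0 := by simp [w]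
  have hA₃ : ((1 : GL (Fin n) F₀) : Matrix (Fin n) (Fin n) F₀)ᵀ =
    ((1 : GL (Fin n) F₀) : Matrix (Fin n) (Fin n) F₀) := Matrix.transpose_one
  have hA₃' : ¬ ∀ v, mform ((1 : GL (Fin n) F₀) : Matrix (Fin n) (Fin n) F₀) v v = 0 := fun h => by
    have := h (Pi.single ⟨0, by omega⟩ 1)
    rw [mform_single] at this
    simp at this
  have s₃ := formSim_evenF h2 1 hA₃ hc hA₃' hw
  obtain ⟨γ₁, g₁, c₁, o₁⟩ := exists_grU_of hj hn (.inr (skew_of_alt hA₁))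
  obtain ⟨γ₃, g₃, c₃, o₃⟩ := exists_grU_of hj hn (.inl hA₃)
  rw [inndiagPSU_eq' hF]
  refine ⟨γ₁, γ₃, Symp.spT w 1, ?_, c₁, o₁, c₃, o₃, fun h => ?_, fun γ hγ hγ2 => ?_, ?_, ?_⟩
  · have hJ : J (Fin m) F₀ *ᵥ w ≠ 0 := fun h => by
      obtain ⟨u, hu⟩ := Symp.exists_spB_eq_one hw
      rw [Forms.spB_apply, h] at hu
      simp at hu
    rw [Cfsg.IsTransvection, Symp.coe_spT, Cfsg.sympTransvection, add_sub_cancel_left, one_smul]
    refine ⟨le_antisymm (rank_vecMulVec_le _ _) (Nat.pos_iff_ne_zero.2 fun h => ?_), ?_⟩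
    · rw [Matrix.rank, Submodule.finrank_eq_zero, LinearMap.range_eq_bot, ← toLin'_apply',
        LinearEquiv.map_eq_zero_iff, vecMulVec_eq_zero] at h
      exact h.elim hw hJ
    rw [vecMulVec_mul_vecMulVec, dotProduct_comm, ← Forms.spB_apply, Symp.spB_self, zero_smul,
      vecMulVec_zero]
  · exact hA₃' (((g₁.isConjUnder_iff hj hn g₃).1 h).symm.alt_of hA₁)
  · obtain ⟨A, g, hA⟩ := exists_grU hj hn hγ hγ2
    rw [g₁.isConjUnder_iff hj hn g, g₃.isConjUnder_iff hj hn g]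
    replace hA := symm_of_two h2 hA
    by_cases hs : ∀ v, mform (A : Matrix (Fin n) (Fin n) F₀) v v = 0
    · exact .inl (s₁.trans (formSim_sympForm A hs hc).symm)
    · exact .inr (s₃.trans (formSim_evenF h2 A hA hc hs hw).symm)
  · obtain ⟨e1⟩ := g₁.nonempty_centralizer hj hn s₁
    obtain ⟨e2⟩ := nonempty_PGSp_equiv_of_two h2 (by omega : 1 ≤ m)
    exact ⟨e1.trans e2⟩
  · obtain ⟨e1⟩ := g₃.nonempty_centralizer hj hn s₃
    obtain ⟨e2⟩ := nonempty_evenF_equiv h2 hw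
    exact ⟨e1.trans e2⟩

end Cfsg.Agent.S2708
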