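import Cfsg.Statements.S2709
import Cfsg.Agent.Lib.ClAut.GraphU

set_option autoImplicit false
open Cfsg

namespace Cfsg.Agent.S2709

open CfsgLib CfsgLib.ClAut Matrix

/-- Let T = PSU_n(q) be simple (n ≥ 3, (n,q) ≠ (3,2), q = p^f), realised over the field F with q² elements, G = Inndiag(T) the image of PGU_n(q), and γ an involutory graph automorphism of T. The G-class of γ is the union of exactly c T-classes, where: if n is even and q is odd, c = gcd(n/2, q + 1) when C_G(γ) is isomorphic to PGSp_n(F₀) for a field F₀ with q elements (symplectic type) and c = gcd(n, q + 1)/2 otherwise; and c = gcd(n, q + 1) when n is odd or q is even. -/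
theorem result {F : Type*} [Field F] [Fintype F] {p f q : ℕ} [Fact p.Prime] (hq : q = p ^ f) (hf : 1 ≤ f) (hF : Fintype.card F = q ^ 2) {n : ℕ} (hn : 3 ≤ n) (hs : ¬ (n = 3 ∧ q = 2)) (F₀ : Type*) [Field F₀] [Fintype F₀] (hF₀ : Fintype.card F₀ = q) (γ : MulAut (Cfsg.PSU n F q)) (hγ : Cfsg.IsGraphAutClassPSU γ) (hγ2 : orderOf γ = 2) :
    ((Even n ∧ Odd q ∧ Nonempty (↥(Cfsg.inndiagPSU n F q ⊓ Subgroup.centralizer {γ}) ≃* Cfsg.PGSp (n / 2) F₀)) → Cfsg.splitClassCount (Cfsg.inndiagPSU n F q) (Cfsg.Inn (Cfsg.PSU n F q)) γ = Nat.gcd (n / 2) (q + 1)) ∧ ((Even n ∧ Odd q ∧ ¬ Nonempty (↥(Cfsg.inndiagPSU n F q ⊓ Subgroup.centralizer {γ}) ≃* Cfsg.PGSp (n / 2) F₀)) → Cfsg.splitClassCount (Cfsg.inndiagPSU n F q) (Cfsg.Inn (Cfsg.PSU n F q)) γ = Nat.gcd n (q + 1) / 2) ∧ (¬ (Even n ∧ Odd q) → Cfsg.splitClassCount (Cfsg.inndiagPSU n F q) (Cfsg.Inn (Cfsg.PSU n F q)) γ = Nat.gcd n (q + 1)) := by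
  obtain ⟨j, hj⟩ := exists_ringHom_conjE hF F₀ hF₀
  obtain ⟨A, g, hA⟩ := exists_grU hj hn hγ hγ2
  have hp : Odd q ↔ (2 : F₀) ≠ 0 := by
    refine ⟨fun h => OrthE.two_ne_zero_of_odd (hF₀ ▸ h), fun h => ?_⟩
    rw [← hF₀, Nat.odd_iff]
    exact FiniteField.odd_card_of_char_ne_two fun h2 => h (by
      have := ringChar.spec F₀ 2
      rw [h2] at this
      exact_mod_cast this.2 dvd_rfl)
  rw [inndiagPSU_eq' hF, hp]
  refine ⟨?_, ?_, fun h => ?_⟩
  · rintro ⟨⟨m, hm⟩, h2, ⟨e⟩⟩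
    have hc : Fintype.card (Fin n) = 2 * m := by simp; omega
    obtain rfl : m = n / 2 := by omega
    rcases hA with hA | hA
    · exact absurd (Nat.card_congr ((g.nonempty_centralizer hj hn (FormSim.refl _)).some.symm.trans
        e).toEquiv) (card_symm_ne h2 hA A.det_ne_zero (by omega) hc)
    · exact g.count_alt hj hn (mform_self_of_skew h2 hA) (by omega)
  · rintro ⟨⟨m, hm⟩, h2, he⟩
    have hc : Fintype.card (Fin n) = 2 * m := by simp; omega
    obtain rfl : m = n / 2 := by omega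
    rcases hA with hA | hA
    · exact g.count_symm hj hn h2 hA (m := n / 2) (by omega)
    · exact absurd (g.nonempty_centralizer hj hn
        (formSim_sympForm A (mform_self_of_skew h2 hA) hc)) he
  · exact g.count_odd hj hn (by
      by_contra h1
      rw [not_or, Nat.not_odd_iff_even] at h1
      exact h ⟨h1.2, h1.1⟩)

end Cfsg.Agent.S2709
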