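import Cfsg.Statements.S2712
import Cfsg.Agent.Lib.ClAut.FieldSp

set_option autoImplicit false
open Cfsg

namespace Cfsg.Agent.S2712

open CfsgLib.ClAut

/-- Let T = PSp_{2m}(F) be simple over the field F with p^f elements (m ≥ 2, (2m, |F|) ≠ (4, 2)), G = Inndiag(T) the image of the projective conformal symplectic group PGSp_{2m}(F), and x a field automorphism of T of prime order r. Then r divides f; C_G(x) is isomorphic to PGSp_{2m}(F₀) for a field F₀ with p^(f/r) elements; and the G-class of x is the union of exactly gcd(gcd(2, p^f − 1), r) T-classes. -/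
theorem result {F : Type*} [Field F] [Fintype F] {p f : ℕ} [Fact p.Prime] (hF : Fintype.card F = p ^ f) (hf : 1 ≤ f) {m : ℕ} (hm : 2 ≤ m) (hs : m = 2 → 3 ≤ Fintype.card F) (x : MulAut (Cfsg.PSp m F)) (hx : Cfsg.IsFieldAutClassPSp x) {r : ℕ} (hr : r.Prime) (hxr : orderOf x = r) (F₀ : Type*) [Field F₀] [Fintype F₀] (hF₀ : Fintype.card F₀ = p ^ (f / r)) :
    r ∣ f ∧ Nonempty (↥(Cfsg.inndiagPSp m F ⊓ Subgroup.centralizer {x}) ≃* Cfsg.PGSp m F₀) ∧ Cfsg.splitClassCount (Cfsg.inndiagPSp m F) (Cfsg.Inn (Cfsg.PSp m F)) x = Nat.gcd (Nat.gcd 2 (p ^ f - 1)) r := by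
  have : NeZero m := ⟨by omega⟩
  rw [inndiagPSp_eq']
  obtain ⟨a, σ, h2, rfl⟩ := IsFieldAutClassPSp.exists hm hx
  have := normal_linInd_sp (F := F) hm
  obtain ⟨h5, h6⟩ := card_fixField hF σ
  rw [h2, hxr] at h5 h6
  obtain ⟨j, hj⟩ := exists_ringHom_fixField σ F₀ (hF₀.trans h6.symm)
  obtain ⟨e1⟩ := nonempty_centralizer_conj (linInd (pspInd m F)).range a
    (pspInd m F ⟨_, inr_mem_gamSp σ⟩)
  have e2 := (projAct_sp hm).nonempty_centralizer_equiv ⟨_, inr_mem_gamSp σ⟩ (μ := 1) (k := 1)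
    (by simp) hj
  rw [comap_glPart_sp, ← GSp_eq] at e2
  refine ⟨h5, ⟨e1.trans e2.some⟩, ?_⟩
  rw [splitClassCount_conj, splitClassCount_sp hm hj, Nat.card_eq_fintype_card,
    Nat.card_eq_fintype_card, hF, hF₀, Nat.gcd_comm, Nat.gcd_comm _ r]
  have h7 : p ^ f = (p ^ (f / r)) ^ r := by rw [← pow_mul, Nat.div_mul_cancel h5]
  have h8 : 2 ≤ p ^ (f / r) := hF₀ ▸ Fintype.one_lt_card
  apply Nat.ModEq.gcd_eq
  conv_lhs => rw [h7]
  refine geom_modEq h8 ?_ r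
  rcases Nat.even_or_odd (p ^ (f / r)) with h | h
  · have h9 : Even (p ^ f) := by rw [h7]; exact h.pow_of_ne_zero hr.ne_zero
    have h10 : 0 < p ^ f := hF ▸ Fintype.card_pos
    rw [Nat.gcd_rec, show (p ^ f - 1) % 2 = 1 by obtain ⟨t, ht⟩ := h9; omega, Nat.gcd_one_left]
    exact Nat.modEq_one
  · exact Nat.ModEq.of_dvd (Nat.gcd_dvd_left _ _) (Nat.odd_iff.1 h)

end Cfsg.Agent.S2712
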