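import Cfsg.Statements.S2713
import Cfsg.Agent.Lib.ClAut.FieldSp

set_option autoImplicit false
open Cfsg

namespace Cfsg.Agent.S2713

open CfsgLib.ClAut

/-- Let T = PSp_{2m}(F) be simple over a finite field (m ≥ 2, (2m, |F|) ≠ (4, 2)) and let x be a field automorphism of T of prime order r. Then an element y of the coset Inndiag(T)·x (y = δ x with δ in the image of the projective conformal symplectic group) has order r if and only if y is conjugate to x by an element of Inndiag(T). -/
theorem result {F : Type*} [Field F] [Fintype F] {m : ℕ} (hm : 2 ≤ m) (hs : m = 2 → 3 ≤ Fintype.card F) (x δ : MulAut (Cfsg.PSp m F)) (hx : Cfsg.IsFieldAutClassPSp x) {r : ℕ} (hr : r.Prime) (hxr : orderOf x = r) (hδ : δ ∈ Cfsg.inndiagPSp m F) :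
    orderOf (δ * x) = r ↔ Cfsg.IsConjUnder (Cfsg.inndiagPSp m F) x (δ * x) := by
  refine ⟨fun h => ?_, fun h => (orderOf_eq_of_isConjUnder h).trans hxr⟩
  have h1 : (δ * x) ^ r = 1 := h ▸ pow_orderOf_eq_one _
  rw [inndiagPSp_eq'] at hδ ⊢
  obtain ⟨a, σ, h2, rfl⟩ := IsFieldAutClassPSp.exists hm hx
  have := normal_linInd_sp (F := F) hm
  exact lang_conj a (lang_sp hm σ) hδ (by rw [h2, hxr]; exact h1)

end Cfsg.Agent.S2713
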