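import Cfsg.Statements.S2714
import Cfsg.Agent.Lib.Orth.OLang

set_option autoImplicit false
open Cfsg

namespace Cfsg.Agent.S2714

open CfsgLib.Orth CfsgLib.ClAut QuadraticMap Module

/-- Let T = Ω_{2m+1}(F) (m ≥ 3, |F| = p^f odd; realised as PΩ of the form x₀² + Σ xᵢ yᵢ), G = Inndiag(T) the image of the conformal orthogonal group in Aut(T), and x a field automorphism of T of prime order r. Then r divides f; C_G(x) is isomorphic to Inndiag(Ω_{2m+1}(F₀)) for a field F₀ with p^(f/r) elements; and the G-class of x is a single T-class when r is odd and the union of exactly two T-classes when r = 2. -/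
theorem result {F : Type*} [Field F] [Fintype F] {p f : ℕ} [Fact p.Prime] (hF : Fintype.card F = p ^ f) (hf : 1 ≤ f) (hodd : Odd (Fintype.card F)) {m : ℕ} (hm : 3 ≤ m) (x : MulAut (Cfsg.POmega F (Cfsg.quadFormOdd m F))) (hx : Cfsg.IsFieldAutClassPOmega (Cfsg.quadFormOdd m F) x) {r : ℕ} (hr : r.Prime) (hxr : orderOf x = r) (F₀ : Type*) [Field F₀] [Fintype F₀] (hF₀ : Fintype.card F₀ = p ^ (f / r)) :
    r ∣ f ∧ Nonempty (↥(Cfsg.inndiagPOmegaOdd m F ⊓ Subgroup.centralizer {x}) ≃* ↥(Cfsg.inndiagPOmegaOdd m F₀)) ∧ (Odd r → Cfsg.splitClassCount (Cfsg.inndiagPOmegaOdd m F) (Cfsg.Inn (Cfsg.POmega F (Cfsg.quadFormOdd m F))) x = 1) ∧ (r = 2 → Cfsg.splitClassCount (Cfsg.inndiagPOmegaOdd m F) (Cfsg.Inn (Cfsg.POmega F (Cfsg.quadFormOdd m F))) x = 2) := by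
  have h2 := two_ne_zero_of_odd_card hodd
  obtain ⟨y, h1, rfl⟩ := exists_of_fieldClass (Q := qOdd m F) (pomInd_surjective_odd h2 hm)
    (fun σ => inr_mem_gamO (quadFormOdd_map m σ)) hx
  have hQ := qOdd_nondegenerate h2 m
  have h5 : 5 ≤ Fintype.card (Unit ⊕ (Fin m ⊕ Fin m)) := by simp; omega
  obtain ⟨ho, c, hc⟩ := order_data hQ h5 h1 hr hxr
  obtain ⟨hd, hcard⟩ := card_fixField hF y.1.right
  rw [ho] at hd hcard
  obtain ⟨j, hj⟩ := exists_ringHom_fixField y.1.right F₀ (hF₀.trans hcard.symm)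
  replace hj : IsFix j y.1.right := hj
  obtain ⟨E, hE⟩ := exists_desc_odd hQ y.2 hj hc (m := m) (by simp; omega)
  rw [inndiagPOmegaOdd_eq, inndiagPOmegaOdd_eq]
  have h3 := hE.splitClassCount_eq hQ h5 y.2 hj
  refine ⟨hd, hE.centralizer_equiv hQ h5 y.2 hj, fun h => h3.trans ?_, fun h => h3.trans ?_⟩
  · exact E.count_odd hQ h5 (hj.isSquare_of_odd (ho ▸ h))
  · exact E.count_two_of_odd hQ h5 (hj.isSquare_of_two (ho.trans h)) h2 ⟨m, by simp; omega⟩

end Cfsg.Agent.S2714
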