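import Cfsg.Statements.S2716
import Cfsg.Agent.Lib.Orth.OLang

set_option autoImplicit false
open Cfsg

namespace Cfsg.Agent.S2716

open CfsgLib.Orth CfsgLib.ClAut QuadraticMap Module

/-- Let T = PΩ⁻_{2m+2}(F) (m ≥ 3, |F| = p^f; the form Σ xᵢ yᵢ + z₁² + a z₁ z₂ + b z₂² with anisotropic binary part), G = Inndiag(T), and x a field automorphism of T of prime order r. Then r is odd and divides f; C_G(x) is isomorphic to Inndiag(PΩ⁻_{2m+2}(F₀)) for a field F₀ with p^(f/r) elements and some anisotropic binary part over F₀; and the G-class of x is a single T-class. -/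
theorem result {F : Type*} [Field F] [Fintype F] {p f : ℕ} [Fact p.Prime] (hF : Fintype.card F = p ^ f) (hf : 1 ≤ f) {m : ℕ} (hm : 3 ≤ m) (a b : F) (hab : (∀ z₁ z₂ : F, z₁ ^ 2 + a * z₁ * z₂ + b * z₂ ^ 2 = 0 → z₁ = 0 ∧ z₂ = 0)) (x : MulAut (Cfsg.POmega F (Cfsg.quadFormMinus m F a b))) (hx : Cfsg.IsFieldAutClassPOmegaMinus m x) {r : ℕ} (hr : r.Prime) (hxr : orderOf x = r) (F₀ : Type*) [Field F₀] [Fintype F₀] (hF₀ : Fintype.card F₀ = p ^ (f / r)) :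
    Odd r ∧ r ∣ f ∧ (∃ a₀ b₀ : F₀, (∀ z₁ z₂ : F₀, z₁ ^ 2 + a₀ * z₁ * z₂ + b₀ * z₂ ^ 2 = 0 → z₁ = 0 ∧ z₂ = 0) ∧ Nonempty (↥(Cfsg.inndiagPOmegaMinus m F a b ⊓ Subgroup.centralizer {x}) ≃* ↥(Cfsg.inndiagPOmegaMinus m F₀ a₀ b₀))) ∧ Cfsg.splitClassCount (Cfsg.inndiagPOmegaMinus m F a b) (Cfsg.Inn (Cfsg.POmega F (Cfsg.quadFormMinus m F a b))) x = 1 := by
  obtain ⟨y, h1, h2, rfl⟩ := exists_of_fieldClassMinus hm hab hx
  have hQ := qMinus_nondegenerate m hab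
  have h5 : 5 ≤ Fintype.card ((Fin m ⊕ Fin m) ⊕ Fin 2) := by simp; omega
  obtain ⟨ho, c, hc⟩ := order_data hQ h5 h1 hr hxr
  obtain ⟨hd, hcard⟩ := card_fixField hF y.1.right
  rw [ho] at hd hcard h2
  have hodd := hr.odd_of_ne_two h2
  obtain ⟨j, hj⟩ := exists_ringHom_fixField y.1.right F₀ (hF₀.trans hcard.symm)
  replace hj : IsFix j y.1.right := hj
  obtain ⟨ζ, hζ⟩ := exists_aniso_one (F := F₀)
  obtain ⟨E, hE⟩ := exists_desc_minus hQ y.2 hj hc (m := m) (by simp; omega) hζ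
    (Or.inl (not_isLag_qMinus hab))
  rw [inndiagPOmegaMinus_eq (by omega) hab]
  refine ⟨hodd, hd, ⟨1, ζ, hζ, ?_⟩, (hE.splitClassCount_eq hQ h5 y.2 hj).trans
    (E.count_odd hQ h5 (hj.isSquare_of_odd (ho ▸ hodd)))⟩
  rw [inndiagPOmegaMinus_eq (by omega) hζ]
  exact hE.centralizer_equiv hQ h5 y.2 hj

end Cfsg.Agent.S2716
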