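import Cfsg.Statements.S2717
import Cfsg.Agent.Lib.Orth.OLang

set_option autoImplicit false
open Cfsg

namespace Cfsg.Agent.S2717

open CfsgLib.Orth CfsgLib.ClAut QuadraticMap Module

/-- Let T = PΩ⁺_{2m}(F) with m ≥ 5 (dimension 2m ≠ 8) and |F| = p^f, G = Inndiag(T), and x an involutory graph-field automorphism of T. Then f is even; any two involutory graph-field automorphisms of T are G-conjugate; C_G(x) is isomorphic to Inndiag(PΩ⁻_{2m}(F₀)) for a field F₀ with p^(f/2) elements (some anisotropic binary part over F₀); and the G-class of x is the union of exactly c T-classes with c = 1 if p = 2, c = 4 if p is odd, m is odd and p^(f/2) ≡ 1 (mod 4), and c = 2 otherwise. -/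
theorem result {F : Type*} [Field F] [Fintype F] {p f : ℕ} [Fact p.Prime] (hF : Fintype.card F = p ^ f) (hf : 1 ≤ f) {m : ℕ} (hm : 5 ≤ m) (x : MulAut (Cfsg.POmega F (Cfsg.quadFormPlus m F))) (hx : Cfsg.IsGraphFieldAutClassPOmegaPlus m x) (hx2 : orderOf x = 2) (F₀ : Type*) [Field F₀] [Fintype F₀] (hF₀ : Fintype.card F₀ = p ^ (f / 2)) :
    Even f ∧ (∀ y : MulAut (Cfsg.POmega F (Cfsg.quadFormPlus m F)), Cfsg.IsGraphFieldAutClassPOmegaPlus m y → orderOf y = 2 → Cfsg.IsConjUnder (Cfsg.inndiagPOmegaPlus m F) x y) ∧ (∃ a₀ b₀ : F₀, (∀ z₁ z₂ : F₀, z₁ ^ 2 + a₀ * z₁ * z₂ + b₀ * z₂ ^ 2 = 0 → z₁ = 0 ∧ z₂ = 0) ∧ Nonempty (↥(Cfsg.inndiagPOmegaPlus m F ⊓ Subgroup.centralizer {x}) ≃* ↥(Cfsg.inndiagPOmegaMinus (m - 1) F₀ a₀ b₀))) ∧ (p = 2 → Cfsg.splitClassCount (Cfsg.inndiagPOmegaPlus m F) (Cfsg.Inn (Cfsg.POmega F (Cfsg.quadFormPlus m F))) x = 1) ∧ ((p ≠ 2 ∧ Odd m ∧ p ^ (f / 2) % 4 = 1) →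 Cfsg.splitClassCount (Cfsg.inndiagPOmegaPlus m F) (Cfsg.Inn (Cfsg.POmega F (Cfsg.quadFormPlus m F))) x = 4) ∧ ((p ≠ 2 ∧ ¬ (Odd m ∧ p ^ (f / 2) % 4 = 1)) → Cfsg.splitClassCount (Cfsg.inndiagPOmegaPlus m F) (Cfsg.Inn (Cfsg.POmega F (Cfsg.quadFormPlus m F))) x = 2) := by
  obtain ⟨y, h1, hP, rfl⟩ := exists_of_graphFieldClass hm hx
  obtain ⟨k, rfl⟩ : ∃ k, m = k + 1 := ⟨m - 1, by omega⟩
  have hQ := qPlus_nondegenerate (F := F) (k + 1)
  have h5 : 5 ≤ Fintype.card (Fin (k + 1) ⊕ Fin (k + 1)) := by simp; omega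
  have hinv : ∀ σ : F ≃+* F, orderOf σ = 2 → Even f ∧ ∀ x, σ x = x ^ p ^ (f / 2) := fun σ h =>
    fieldAut_involution hF (by rintro rfl; simp at h) (by rw [← pow_two, ← h, pow_orderOf_eq_one])
  obtain ⟨ho, c, hc⟩ := order_data hQ h5 h1 Nat.prime_two hx2
  obtain ⟨hd, hcard⟩ := card_fixField hF y.1.right
  rw [ho] at hd hcard
  obtain ⟨j, hj⟩ := exists_ringHom_fixField y.1.right F₀ (hF₀.trans hcard.symm)
  replace hj : IsFix j y.1.right := hj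
  obtain ⟨ζ, hζ⟩ := exists_aniso_one (F := F₀)
  obtain ⟨E, hE⟩ := exists_desc_minus hQ y.2 hj hc (m := k) (by simp; omega) hζ (Or.inr hP)
  have hp : (2 : F) = 0 ↔ p = 2 := two_eq_zero_iff_of_card hF hf
  rw [inndiagPOmegaPlus_eq (by omega)]
  have h3 := hE.splitClassCount_eq hQ h5 y.2 hj
  have h4 := fun h : p ≠ 2 => E.count_minus hQ h5 hζ hj ho (mt hp.1 h)
  rw [Nat.card_eq_fintype_card, hF₀, ← Nat.not_odd_iff_even, ← Nat.odd_add_one] at h4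
  refine ⟨(hinv _ ho).1, fun z hz hz2 => ?_, ⟨1, ζ, hζ, ?_⟩,
    fun h => h3.trans (E.count_charTwo hQ h5 (hp.2 h)), fun h => h3.trans ((h4 h.1).1 h.2),
    fun h => h3.trans ((h4 h.1).2 h.2)⟩
  · obtain ⟨y', h1', hP', rfl⟩ := exists_of_graphFieldClass hm hz
    have ho' := (order_data hQ h5 h1' Nat.prime_two hz2).1
    exact isConjUnder_of_order hQ h5 h1
      (RingEquiv.ext fun t => ((hinv _ ho).2 t).trans ((hinv _ ho').2 t).symm) Nat.prime_two hx2 hz2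
      (iff_of_false hP hP')
  · show Nonempty (_ ≃* inndiagPOmegaMinus k F₀ 1 ζ)
    rw [inndiagPOmegaMinus_eq (by omega) hζ]
    exact hE.centralizer_equiv hQ h5 y.2 hj

end Cfsg.Agent.S2717
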