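import Mathlib
import Cfsg.Statements.S2718
import Cfsg.Agent.Lib.Inv2.Split
-- import your own Cfsg.Agent.* helpers here

set_option autoImplicit false
open Cfsg

namespace Cfsg.Agent.S2718

/-- Let T = PΩ⁺_{2m}(F) with m ≥ 4 and |F| = q odd, G = Inndiag(T), and γ an involutory graph automorphism of T induced by a similarity (one interchanging the two classes of maximal totally singular subspaces). Then the G-class of γ is either a single T-class or the union of exactly two T-classes, and it is the union of two unless m is odd and q ≡ 3 (mod 4). -/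
theorem result {F : Type*} [Field F] [Fintype F] (hodd : Odd (Fintype.card F)) {m : ℕ} (hm : 4 ≤ m) (γ : MulAut (Cfsg.POmega F (Cfsg.quadFormPlus m F))) (hγ : Cfsg.IsSimilarityGraphAutPOmegaPlus m γ) (hγ2 : orderOf γ = 2) :
    (Cfsg.splitClassCount (Cfsg.inndiagPOmegaPlus m F) (Cfsg.Inn (Cfsg.POmega F (Cfsg.quadFormPlus m F))) γ = 1 ∨ Cfsg.splitClassCount (Cfsg.inndiagPOmegaPlus m F) (Cfsg.Inn (Cfsg.POmega F (Cfsg.quadFormPlus m F))) γ = 2) ∧ (¬ (Odd m ∧ Fintype.card F % 4 = 3) → Cfsg.splitClassCount (Cfsg.inndiagPOmegaPlus m F) (Cfsg.Inn (Cfsg.POmega F (Cfsg.quadFormPlus m F))) γ = 2) := by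
  open CfsgLib.Inv2 CfsgLib.Orth CfsgLib.ClAut in
  have h2 : (2 : F) ≠ 0 := two_ne_zero_of_odd_card hodd
  have hQ := qPlus_nondegenerate (F := F) m
  have h5 : 5 ≤ Fintype.card (Fin m ⊕ Fin m) := by simp; omega
  obtain ⟨g, hg, h3, h4⟩ := hγ
  obtain rfl : γ = simInd (qPlus m F) ⟨g, hg⟩ := (isInducedBySemilinearPOmega_refl_iff hg).1 h4
  have : Nonempty (Fin m) := ⟨⟨0, by omega⟩⟩
  have := graph_split hQ h2 h5 (m := m) (by simp [two_mul]) hg
    (mt (preservesSingularClasses_iff hQ (h24_five h5) ⟨_, isLag_ker_inr⟩ hg).2 h3) hγ2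
  rw [inndiagPOmegaPlus_eq (by omega)]
  refine ⟨this.1, fun h => this.2 (.inl ?_)⟩
  rw [negOG_mem_commutator_iff hQ h2 (by simp) (Pi.basisFun F _), det_gram_qPlus]
  rcases Nat.even_or_odd m with he | he
  · simp [he.neg_one_pow]
  · rw [he.neg_one_pow, FiniteField.isSquare_neg_one_iff]; tauto

end Cfsg.Agent.S2718
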