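import Mathlib
import Cfsg.Statements.S2719
import Cfsg.Agent.Lib.Inv2.Split
-- import your own Cfsg.Agent.* helpers here

set_option autoImplicit false
open Cfsg

namespace Cfsg.Agent.S2719

/-- Let T = PΩ⁻_{2m+2}(F) with m ≥ 3 and |F| = q odd (form with anisotropic binary part z₁² + a z₁ z₂ + b z₂²), G = Inndiag(T), and γ an involutory graph automorphism of T (an automorphism in the image of the semisimilarity group, not inner-diagonal, of order 2). Then the G-class of γ is either a single T-class or the union of exactly two T-classes, and it is the union of two unless m is even and q ≡ 1 (mod 4). -/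
theorem result {F : Type*} [Field F] [Fintype F] (hodd : Odd (Fintype.card F)) {m : ℕ} (hm : 3 ≤ m) (a b : F) (hab : (∀ z₁ z₂ : F, z₁ ^ 2 + a * z₁ * z₂ + b * z₂ ^ 2 = 0 → z₁ = 0 ∧ z₂ = 0)) (γ : MulAut (Cfsg.POmega F (Cfsg.quadFormMinus m F a b))) (hγ : Cfsg.IsGraphAutClassPOmegaMinus m a b γ) (hγ2 : orderOf γ = 2) :
    (Cfsg.splitClassCount (Cfsg.inndiagPOmegaMinus m F a b) (Cfsg.Inn (Cfsg.POmega F (Cfsg.quadFormMinus m F a b))) γ = 1 ∨ Cfsg.splitClassCount (Cfsg.inndiagPOmegaMinus m F a b) (Cfsg.Inn (Cfsg.POmega F (Cfsg.quadFormMinus m F a b))) γ = 2) ∧ (¬ (Even m ∧ Fintype.card F % 4 = 1) → Cfsg.splitClassCount (Cfsg.inndiagPOmegaMinus m F a b) (Cfsg.Inn (Cfsg.POmega F (Cfsg.quadFormMinus m F a b))) γ = 2) := by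
  open CfsgLib.Inv2 CfsgLib.Orth CfsgLib.ClAut in
  have h2 : (2 : F) ≠ 0 := two_ne_zero_of_odd_card hodd
  have hQ := qMinus_nondegenerate m hab
  have h5 : 5 ≤ Fintype.card ((Fin m ⊕ Fin m) ⊕ Fin 2) := by simp; omega
  have hm' : Fintype.card ((Fin m ⊕ Fin m) ⊕ Fin 2) = 2 * m + 2 := by simp; omega
  obtain ⟨h3, h4, -⟩ := hγ
  rw [inndiagPOmegaMinus_eq (by omega) hab] at h4 ⊢
  obtain ⟨y, rfl⟩ := (gammaPOmega_eq (Q := ⇑(qMinus m a b))).le h3
  have h6 : y.1.right = 1 := by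
    by_contra h6
    obtain ⟨h7, c, hc⟩ := order_data hQ h5 h6 Nat.prime_two hγ2
    obtain ⟨b', h8⟩ := exists_aniso_one (F := fixField y.1.right)
    obtain ⟨E, -⟩ := exists_desc_minus hQ y.2 (isFix_fixField _) hc hm' h8
      (.inl (not_isLag_qMinus hab))
    obtain ⟨U, hU⟩ := exists_isLag_qMinus (m := m) ((isFix_fixField _).not_aniso h7 1 b')
    exact not_isLag_qMinus hab ⟨_, (E.toStd (qMinus_map _ m 1 b')).isLag_map hU⟩
  obtain ⟨⟨g, σ⟩, hg⟩ := y
  obtain rfl : σ = 1 := h6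
  replace hg' : g ∈ SimG (qMinus m a b) := inl_mem_gamO.1 hg
  have := graph_split hQ h2 h5 (m := m + 1) hm' hg'
    (fun h => h4 (mem_imG.2 ⟨g, hg', h, rfl⟩)) hγ2
  refine ⟨this.1, fun h => this.2 ?_⟩
  rw [negOG_mem_commutator_iff hQ h2 ⟨m + 1, by simp; omega⟩ (Pi.basisFun F _),
    isSquare_det_gram_qMinus_iff h2 m hab]
  rcases Nat.even_or_odd m with he | he
  · rw [he.add_one.neg_one_pow, FiniteField.isSquare_neg_one_iff]
    have := Nat.odd_iff.1 hodd
    exact .inl fun h' => h ⟨he, by omega⟩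
  · exact .inr he.add_one

end Cfsg.Agent.S2719
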