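import Mathlib
import Cfsg.Statements.S2723
import Cfsg.Agent.Lib.Inv2.OutQ
-- import your own Cfsg.Agent.* helpers here

set_option autoImplicit false
open Cfsg

namespace Cfsg.Agent.S2723

/-- Let T = PΩ⁺_{2m}(F) with m ≥ 4 and |F| = q odd. The image of the special orthogonal group in Aut(T) contains the inner automorphism group T with index 1 (they coincide) when m is odd and q ≡ 3 (mod 4), and with index 2 otherwise (the index is 2 exactly when the discriminant of the form is a square). -/
theorem result {F : Type*} [Field F] [Fintype F] (hodd : Odd (Fintype.card F)) {m : ℕ} (hm : 4 ≤ m) :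
    ((Odd m ∧ Fintype.card F % 4 = 3) → (Cfsg.Inn (Cfsg.POmega F (Cfsg.quadFormPlus m F))).relIndex (Cfsg.psoAut F (Cfsg.quadFormPlus m F)) = 1) ∧ (¬ (Odd m ∧ Fintype.card F % 4 = 3) → (Cfsg.Inn (Cfsg.POmega F (Cfsg.quadFormPlus m F))).relIndex (Cfsg.psoAut F (Cfsg.quadFormPlus m F)) = 2) := by
  open CfsgLib.Inv2 CfsgLib.Orth in
  have h2 := two_ne_zero_of_odd hodd
  have hQ := qPlus_nondegenerate (F := F) m
  have h5 : 5 ≤ Fintype.card (Fin m ⊕ Fin m) := by simp; omega
  have he : Even (Fintype.card (Fin m ⊕ Fin m)) := by simp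
  have hn := negOG_mem_plus_iff hodd m
  have a1 := inn_pso_of_not_mem hQ h2 h5 he
  have a2 := inn_pso_of_mem hQ h2 h5
  rw [← coe_qPlus]
  exact ⟨fun h => a1 fun h' => hn.1 h' h.symm, fun h => a2 (hn.2 fun h' => h h'.symm)⟩

end Cfsg.Agent.S2723
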