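import Mathlib
import Cfsg.Statements.S2724
import Cfsg.Agent.Lib.Inv2.OutQ
-- import your own Cfsg.Agent.* helpers here

set_option autoImplicit false
open Cfsg

namespace Cfsg.Agent.S2724

/-- Let T = PΩ⁺_{2m}(F) with m ≥ 4 and |F| = q odd. The image G̃ of the conformal orthogonal group in Aut(T), taken modulo the inner automorphism group T, is elementary abelian of order 4 when m is odd and q ≡ 3 (mod 4), and dihedral of order 8 otherwise. -/
theorem result {F : Type*} [Field F] [Fintype F] (hodd : Odd (Fintype.card F)) {m : ℕ} (hm : 4 ≤ m) :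
    ((Odd m ∧ Fintype.card F % 4 = 3) → (∃ φ : ↥(Cfsg.pgoAut F (Cfsg.quadFormPlus m F)) →* Multiplicative (ZMod 2 × ZMod 2), Function.Surjective φ ∧ φ.ker = (Cfsg.Inn (Cfsg.POmega F (Cfsg.quadFormPlus m F))).subgroupOf (Cfsg.pgoAut F (Cfsg.quadFormPlus m F)))) ∧ (¬ (Odd m ∧ Fintype.card F % 4 = 3) → (∃ φ : ↥(Cfsg.pgoAut F (Cfsg.quadFormPlus m F)) →* DihedralGroup 4, Function.Surjective φ ∧ φ.ker = (Cfsg.Inn (Cfsg.POmega F (Cfsg.quadFormPlus m F))).subgroupOf (Cfsg.pgoAut F (Cfsg.quadFormPlus m F)))) := by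
  open CfsgLib.Inv2 CfsgLib.Orth in
  have h2 := two_ne_zero_of_odd hodd
  have hQ := qPlus_nondegenerate (F := F) m
  have h5 : 5 ≤ Fintype.card (Fin m ⊕ Fin m) := by simp; omega
  have he : Even (Fintype.card (Fin m ⊕ Fin m)) := by simp
  have hn := negOG_mem_plus_iff hodd m
  exact ⟨fun h => pgo_inn_of_not_mem hQ h2 h5 he fun h' => hn.1 h' h.symm,
    fun h => pgo_inn_of_mem hQ h2 h5 he (hn.2 fun h' => h h'.symm)⟩

end Cfsg.Agent.S2724
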