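import Mathlib
import Cfsg.Statements.S2725
import Cfsg.Agent.Lib.Inv2.OutQ
-- import your own Cfsg.Agent.* helpers here

set_option autoImplicit false
open Cfsg

namespace Cfsg.Agent.S2725

/-- Let T = PΩ⁺_{2m}(F) with m ≥ 4 and |F| = q odd. The inner-diagonal group G = Inndiag(T) (image of the class-preserving similarities) taken modulo the inner automorphism group T is cyclic of order 2 when m is odd and q ≡ 3 (mod 4), cyclic of order 4 when m is odd and q ≡ 1 (mod 4), and elementary abelian of order 4 when m is even. -/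
theorem result {F : Type*} [Field F] [Fintype F] (hodd : Odd (Fintype.card F)) {m : ℕ} (hm : 4 ≤ m) :
    ((Odd m ∧ Fintype.card F % 4 = 3) → (∃ φ : ↥(Cfsg.inndiagPOmegaPlus m F) →* Multiplicative (ZMod 2), Function.Surjective φ ∧ φ.ker = (Cfsg.Inn (Cfsg.POmega F (Cfsg.quadFormPlus m F))).subgroupOf (Cfsg.inndiagPOmegaPlus m F))) ∧ ((Odd m ∧ Fintype.card F % 4 = 1) → (∃ φ : ↥(Cfsg.inndiagPOmegaPlus m F) →* Multiplicative (ZMod 4), Function.Surjective φ ∧ φ.ker = (Cfsg.Inn (Cfsg.POmega F (Cfsg.quadFormPlus m F))).subgroupOf (Cfsg.inndiagPOmegaPlus m F))) ∧ (Even m → (∃ φ : ↥(Cfsg.inndiagPOmegaPlus m F) →* Multiplicative (ZMod 2 × ZMod 2), Function.Surjective φ ∧ φ.ker = (Cfsg.Inn (Cfsg.POmega F (Cfsg.quadFormPlus m F))).subgroupOf (Cfsg.inndiagPOmegaPlus m F))) := by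
  open CfsgLib.Inv2 CfsgLib.Orth in
  have h2 := two_ne_zero_of_odd hodd
  have hQ := qPlus_nondegenerate (F := F) m
  have h5 : 5 ≤ Fintype.card (Fin m ⊕ Fin m) := by simp; omega
  have he : Even (Fintype.card (Fin m ⊕ Fin m)) := by simp
  have hn := negOG_mem_plus_iff hodd m
  obtain ⟨c, hc⟩ := exists_unit_not_isSquare h2
  obtain ⟨s, hs, hs2⟩ := exists_sq_plus m c
  rw [inndiagPOmegaPlus_eq (by omega)]
  exact ⟨fun h => idg_inn_of_not_mem hQ h2 h5 he fun h' => hn.1 h' h.symm,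
    fun h => idg_inn_of_odd hQ h2 h5 (m := m) (by simp [two_mul]) hc hs hs2
      (hn.2 fun h' => by omega) h.1,
    fun h => idg_inn_of_even hQ h2 h5 (m := m) (by simp [two_mul]) hc hs hs2
      (hn.2 fun h' => Nat.not_odd_iff_even.2 h h'.2) h⟩

end Cfsg.Agent.S2725
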