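import Mathlib
import Cfsg.Statements.S2727
import Cfsg.Agent.Lib.Inv2.OutQ
-- import your own Cfsg.Agent.* helpers here

set_option autoImplicit false
open Cfsg

namespace Cfsg.Agent.S2727

/-- Let T = PΩ⁻_{2m+2}(F) with m ≥ 3 and |F| = q odd (form with anisotropic binary part). The image of the special orthogonal group in Aut(T) contains the inner automorphism group T with index 2 when m is even and q ≡ 3 (mod 4), and coincides with it otherwise (the index is 2 exactly when the discriminant of the form is a square). -/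
theorem result {F : Type*} [Field F] [Fintype F] (hodd : Odd (Fintype.card F)) {m : ℕ} (hm : 3 ≤ m) (a b : F) (hab : (∀ z₁ z₂ : F, z₁ ^ 2 + a * z₁ * z₂ + b * z₂ ^ 2 = 0 → z₁ = 0 ∧ z₂ = 0)) :
    ((Even m ∧ Fintype.card F % 4 = 3) → (Cfsg.Inn (Cfsg.POmega F (Cfsg.quadFormMinus m F a b))).relIndex (Cfsg.psoAut F (Cfsg.quadFormMinus m F a b)) = 2) ∧ (¬ (Even m ∧ Fintype.card F % 4 = 3) → (Cfsg.Inn (Cfsg.POmega F (Cfsg.quadFormMinus m F a b))).relIndex (Cfsg.psoAut F (Cfsg.quadFormMinus m F a b)) = 1) := by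
  open CfsgLib.Inv2 CfsgLib.Orth in
  have h2 := two_ne_zero_of_odd hodd
  have hQ := qMinus_nondegenerate m hab
  have h5 : 5 ≤ Fintype.card ((Fin m ⊕ Fin m) ⊕ Fin 2) := by simp; omega
  have hc : Fintype.card ((Fin m ⊕ Fin m) ⊕ Fin 2) = 2 * (m + 1) := by simp; omega
  have he : Even (Fintype.card ((Fin m ⊕ Fin m) ⊕ Fin 2)) := hc ▸ even_two_mul _
  have hn := negOG_mem_minus_iff hodd m hab
  have a1 := inn_pso_of_not_mem hQ h2 h5 he
  have a2 := inn_pso_of_mem hQ h2 h5
  rw [← coe_qMinus]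
  exact ⟨fun h => a2 (hn.2 h.symm), fun h => a1 fun h' => h (hn.1 h').symm⟩

end Cfsg.Agent.S2727
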