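import Cfsg.Statements.S2734
import Cfsg.Agent.Lib.RepChk.G2
import Cfsg.Agent.Lib.ChevAut.Main

set_option autoImplicit false
open Cfsg

namespace Cfsg.Agent.S2734

open Cfsg.Lie CfsgLib.RepChk CfsgLib.Twist CfsgLib.ChevAut CfsgLib.Stein CfsgLib.Weyl CfsgLib.Chev

theorem sym3 : ∀ π : Equiv.Perm (Fin 4), (∀ i j : Fin 4, i ≠ j → chevD4.bonds (π i) (π j) = chevD4.bonds i j) →
    (∀ i, π (π (π i)) = i) → (∀ i, π i = i) ∨ (∀ i, ndD4 (π i) = symD4.π (ndD4 i)) ∨
      ∀ i, ndD4 (π (symD4.π (ndD4 i))) = ndD4 i := by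
  decide +kernel

theorem graphExp_one (c : ℕ) (i j : Fin chevD4.rank) : chevD4.graphExp c i j = 1 :=
  if_neg (by revert i j; decide +kernel)

/-- In the Chevalley group of type D₄ over a finite field F (the matrix group generated by the root elements), a graph automorphism attached to a symmetry π of the Dynkin diagram (sending each fundamental root element x_p(t) to x_{π(p)}(t) and each x_{−p}(t) to x_{−π(p)}(t)) that has order 3 — a standard triality graph automorphism, π being a 3-cycle of the three outer nodes — has fixed-point subgroup isomorphic to the Chevalley group of type G₂ over F. -/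
theorem result {F : Type*} [Field F] [Fintype F] (τ : MulAut ↥(Cfsg.Lie.chevD4.group F)) (hτ : Cfsg.Lie.chevD4.IsGraphAut τ) (hτ3 : orderOf τ = 3) :
    Nonempty (↥(MonoidHom.eqLocus τ.toMonoidHom (MonoidHom.id ↥(Cfsg.Lie.chevD4.group F))) ≃* ↥(Cfsg.Lie.chevG2.group F)) := by
  obtain ⟨π, hπ, h⟩ := isGraphAut_iff.1 hτ
  simp only [graphExp_one, pow_one] at h
  have hα : ∀ (i : Fin chevD4.rank) (t : F),
      endD4 (RingHom.id F) (xG chevD4 F (chevD4.simple i) t) = xG chevD4 F (chevD4.simple (symD4.π i)) t ∧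
      endD4 (RingHom.id F) (xG chevD4 F (chevD4.neg (chevD4.simple i)) t) =
        xG chevD4 F (chevD4.neg (chevD4.simple (symD4.π i))) t := fun i t => by
    rw [endD4_xG _ (simple_lt i.2), endD4_xG _ (neg_lt (simple_lt i.2)), (rhoD4_simple i).1,
      (rhoD4_simple i).2.1, (rhoD4_simple i).2.2.1, (rhoD4_simple i).2.2.2]
    simp
  have h3 : ∀ i, π (π (π i)) = i := fun i => by
    have e := DFunLike.congr_fun (hτ3 ▸ pow_orderOf_eq_one τ) (xG chevD4 F (chevD4.simple i) 1)
    rw [pow_three, MulAut.mul_apply, MulAut.mul_apply, (h _ _).1, (h _ _).1, (h _ _).1] at e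
    exact (rootSys rtOKD4).simple_injective
      (Fin.ext (xG_root_eq rtOKD4 (simple_lt (π (π (π i))).2) (simple_lt i.2) one_ne_zero e))
  have key : ∀ g, τ g = g ↔ endD4 (RingHom.id F) g = g := fun g => by
    rcases sym3 π hπ h3 with e | e | e
    · have : τ = 1 := MulEquiv.toMonoidHom_injective (hom_ext_simple rtOKD4
        (fun i t => (h i t).1.trans (by rw [show π i = i from e i]; rfl))
        fun i t => (h i t).2.trans (by rw [show π i = i from e i]; rfl))
      rw [this, orderOf_one] at hτ3
      omega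
    · have : τ.toMonoidHom = endD4 (RingHom.id F) := hom_ext_simple rtOKD4
        (fun i t => (h i t).1.trans (by rw [(hα i t).1, show π i = symD4.π i from e i]))
        fun i t => (h i t).2.trans (by rw [(hα i t).2, show π i = symD4.π i from e i])
      rw [← this]; rfl
    · have : τ.toMonoidHom.comp (endD4 (RingHom.id F)) = MonoidHom.id _ := hom_ext_simple rtOKD4
        (fun i t => (congrArg τ (hα i t).1).trans ((h _ t).1.trans (by rw [show π (symD4.π i) = i from e i]; rfl)))
        fun i t => (congrArg τ (hα i t).2).trans ((h _ t).2.trans (by rw [show π (symD4.π i) = i from e i]; rfl))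
      have e : τ (endD4 (RingHom.id F) g) = g := DFunLike.congr_fun this g
      exact ⟨fun h => τ.injective (e.trans h.symm), fun h => by rwa [h] at e⟩
  obtain ⟨φ, h1, h2, -⟩ := exists_g2Hom (F := F)
  have e : (MonoidHom.eqLocus τ.toMonoidHom (MonoidHom.id _)).map (chevD4.group F).subtype = φ.range := by
    rw [h2, eq_FixD4 (φ := RingHom.id F) (fun t => (pow_one t).symm) fun _ => rfl]
    ext g
    rw [Tw.mem_Fix, stSys_grp]
    exact ⟨by rintro ⟨g, hg, rfl⟩; exact ⟨g.2, (extend_apply _ g.2).trans (congrArg Subtype.val ((key g).1 hg))⟩,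
      fun ⟨hg, e⟩ => ⟨⟨g, hg⟩, (key _).2 (Subtype.ext ((extend_apply _ hg).symm.trans e)), rfl⟩⟩
  exact ⟨((Subgroup.equivMapOfInjective _ _ Subtype.val_injective).trans (MulEquiv.subgroupCongr e)).trans
    (MonoidHom.ofInjective h1).symm⟩

end Cfsg.Agent.S2734
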