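import Cfsg.Statements.S2736
import Cfsg.Agent.Lib.Orth.OLang

set_option autoImplicit false
open Cfsg

namespace Cfsg.Agent.S2736

open CfsgLib.Orth CfsgLib.ClAut QuadraticMap Module

/-- Let T = PΩ⁺_{2m}(F) with m ≥ 5 (dimension ≠ 8) and x a field automorphism or a graph-field automorphism of T of prime order r. Then an element y of the coset Inndiag(T)·x (y = δ x with δ induced by a class-preserving similarity) has order r if and only if y is conjugate to x by an element of Inndiag(T). -/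
theorem result {F : Type*} [Field F] [Fintype F] {m : ℕ} (hm : 5 ≤ m) (x δ : MulAut (Cfsg.POmega F (Cfsg.quadFormPlus m F))) (hx : Cfsg.IsFieldAutClassPOmega (Cfsg.quadFormPlus m F) x ∨ Cfsg.IsGraphFieldAutClassPOmegaPlus m x) {r : ℕ} (hr : r.Prime) (hxr : orderOf x = r) (hδ : δ ∈ Cfsg.inndiagPOmegaPlus m F) :
    orderOf (δ * x) = r ↔ Cfsg.IsConjUnder (Cfsg.inndiagPOmegaPlus m F) x (δ * x) := by
  obtain ⟨y, h1, rfl⟩ : ∃ y : gamO ⇑(qPlus m F), y.1.right ≠ 1 ∧ x = pomInd ⇑(qPlus m F) y := by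
    rcases hx with hx | hx
    · exact exists_of_fieldClass (Q := qPlus m F) (pomInd_surjective_plus hm)
        (fun σ => inr_mem_gamO (quadFormPlus_map m σ)) hx
    · obtain ⟨y, h1, -, h2⟩ := exists_of_graphFieldClass hm hx
      exact ⟨y, h1, h2⟩
  rw [inndiagPOmegaPlus_eq (by omega)] at hδ ⊢
  exact orderOf_mul_eq_iff (qPlus_nondegenerate m) (by simp; omega) h1 hr hxr hδ

end Cfsg.Agent.S2736
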