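import Cfsg.Statements.S2738
import Cfsg.Agent.Lib.Classical.SLCard
import Cfsg.Agent.Lib.Classical.SLBasic

set_option autoImplicit false
open Cfsg

namespace Cfsg.Agent.S2738

/-- The special linear group SL(3, 4) has centre of order 3 and does not split over it: no subgroup is a complement to the centre (so SL(3, 4) is a non-split central extension of PSL(3, 4) by a group of order 3). -/
theorem result (F : Type*) [Field F] [Fintype F] (hF : Fintype.card F = 4) : Nat.card ↥(Subgroup.center (Matrix.SpecialLinearGroup (Fin 3) F)) = 3 ∧ ¬ ∃ K : Subgroup (Matrix.SpecialLinearGroup (Fin 3) F), Subgroup.IsComplement' (Subgroup.center (Matrix.SpecialLinearGroup (Fin 3) F)) K := by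
  have hc : Nat.card ↥(Subgroup.center (Matrix.SpecialLinearGroup (Fin 3) F)) = 3 := by
    rw [CfsgLib.Classical.sl_card_center, hF]; simp
  refine ⟨hc, ?_⟩
  rintro ⟨K, hK⟩
  have hperf : commutator (Matrix.SpecialLinearGroup (Fin 3) F) = ⊤ :=
    CfsgLib.Classical.sl_commutator_eq_top (by simp)
  have hle : commutator (Matrix.SpecialLinearGroup (Fin 3) F) ≤ K := by
    rw [commutator_def, Subgroup.commutator_le]
    intro a _ b _
    obtain ⟨⟨⟨z, hz⟩, ⟨k, hk⟩⟩, rfl⟩ := (Subgroup.isComplement'_def.1 hK).2 a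
    obtain ⟨⟨⟨w, hw⟩, ⟨l, hl⟩⟩, rfl⟩ := (Subgroup.isComplement'_def.1 hK).2 b
    have hz' := Subgroup.mem_center_iff.1 hz
    have hw' := Subgroup.mem_center_iff.1 hw
    have : z * k * (w * l) * (z * k)⁻¹ * (w * l)⁻¹ = k * l * k⁻¹ * l⁻¹ := by
      simp only [mul_inv_rev]
      calc z * k * (w * l) * (k⁻¹ * z⁻¹) * (l⁻¹ * w⁻¹)
          = z * (k * w * l * k⁻¹) * z⁻¹ * (l⁻¹ * w⁻¹) := by group
        _ = (k * w * l * k⁻¹) * (l⁻¹ * w⁻¹) := by rw [← hz' (k * w * l * k⁻¹)]; group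
        _ = k * (w * (l * k⁻¹ * l⁻¹)) * w⁻¹ := by group
        _ = k * l * k⁻¹ * l⁻¹ := by rw [← hw' (l * k⁻¹ * l⁻¹)]; group
    show z * k * (w * l) * (z * k)⁻¹ * (w * l)⁻¹ ∈ K
    rw [this]
    exact K.mul_mem (K.mul_mem (K.mul_mem hk hl) (K.inv_mem hk)) (K.inv_mem hl)
  rw [hperf, top_le_iff] at hle
  subst hle
  have := hK.disjoint
  rw [disjoint_top] at this
  rw [this] at hc
  simp at hc

end Cfsg.Agent.S2738
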