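import Cfsg.Statements.S2751
import Cfsg.Agent.Lib.Gam.Main

set_option autoImplicit false
open Cfsg

namespace Cfsg.Agent.S2751

open Subgroup CfsgLib.LAE CfsgLib.Gam

theorem aux {G : Type*} [Group G] {M T H : Subgroup G} [Finite M] (hM : M ≤ H) (hT : T ≤ M)
    (ha : ∃ P : Sylow 2 M, (P : Subgroup M) = T.subgroupOf M)
    (hb : Nonempty (M ⧸ Cfsg.pCore 2 M ≃* Equiv.Perm (Fin 3))) :
    SLoc (M.subgroupOf H) (T.subgroupOf H) := by
  obtain ⟨P, hP⟩ := ha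
  have h := sLoc_of_quotient (isSylowIn_of_eq_subgroupOf hT hP) hb
  exact ⟨Finite.of_equiv _ (subgroupOfEquivOfLe hM).symm.toEquiv, h.syl.subgroupOf hM,
    by rw [pCoreOf_subgroupOf_of_le hM, relIndex_subgroupOf (hT.trans hM), h.idx2],
    by rw [relIndex_subgroupOf hM, h.idx3]⟩


/-- Goldschmidt's bound for amalgams of index (3, 3): let M₁ and M₂ be finite subgroups of a group G such that M₁ ⊓ M₂ is a Sylow 2-subgroup of both M₁ and M₂, each quotient Mᵢ / O₂(Mᵢ) is isomorphic to the symmetric group of degree 3, and no nontrivial subgroup of M₁ ⊓ M₂ is normal in both M₁ and M₂. Then M₁ ⊓ M₂ has order at most 2^7. -/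
theorem result {G : Type*} [Group G] (M₁ M₂ : Subgroup G) [Finite M₁] [Finite M₂] (ha₁ : ∃ P : Sylow 2 M₁, (P : Subgroup M₁) = (M₁ ⊓ M₂).subgroupOf M₁) (ha₂ : ∃ P : Sylow 2 M₂, (P : Subgroup M₂) = (M₁ ⊓ M₂).subgroupOf M₂) (hb₁ : Nonempty (M₁ ⧸ Cfsg.pCore 2 M₁ ≃* Equiv.Perm (Fin 3))) (hb₂ : Nonempty (M₂ ⧸ Cfsg.pCore 2 M₂ ≃* Equiv.Perm (Fin 3))) (hc : ∀ N : Subgroup G, N ≤ M₁ ⊓ M₂ → (N.subgroupOf M₁).Normal → (N.subgroupOf M₂).Normal → N = ⊥) : Nat.card ↥(M₁ ⊓ M₂) ≤ 2 ^ 7 := by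
  have h1 := aux (H := M₁ ⊔ M₂) le_sup_left inf_le_left ha₁ hb₁
  have h2 := aux (H := M₁ ⊔ M₂) le_sup_right inf_le_right ha₂ hb₂
  have h3 := Edge.bound (A := M₁.subgroupOf (M₁ ⊔ M₂)) (B := M₂.subgroupOf (M₁ ⊔ M₂))
    ⟨⟨by rw [← subgroupOf_sup le_sup_left le_sup_right, subgroupOf_self], fun N hN hn => by
      have h4 := le_normalizer_map_subtype N
      rw [← Subgroup.map_eq_bot_iff_of_injective _ (M₁ ⊔ M₂).subtype_injective]
      exact hc _ (map_le_iff_le_comap.2 hN) (normal_subgroupOf_of_le (le_sup_left.trans h4))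
        (normal_subgroupOf_of_le (le_sup_right.trans h4))⟩, h1, h2⟩
  rwa [← Nat.card_congr (subgroupOfEquivOfLe
    (inf_le_left.trans le_sup_left : M₁ ⊓ M₂ ≤ M₁ ⊔ M₂)).toEquiv]

end Cfsg.Agent.S2751
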