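import Cfsg.Statements.S2758
import Cfsg.Agent.Lib.CFun.DihInv

set_option autoImplicit false
open Cfsg

namespace Cfsg.Agent.S2758

open CfsgLib CfsgLib.CFun CfsgLib.Tech Subgroup

theorem ord_iff {G : Type*} [Group G] [Finite G] {q : ℕ} [Fact q.Prime] {x : G} :
    (∃ k : ℕ, orderOf x = q ^ k) ↔ ∃ k : ℕ, x ^ q ^ k = 1 :=
  ⟨fun ⟨k, hk⟩ => ⟨k, hk ▸ pow_orderOf_eq_one x⟩,
    fun ⟨_, hk⟩ => isPGroup_zpowers_iff.1 (isPGroup_zpowers_of_pow hk)⟩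


/-- For an odd prime p and a finite group G the following are equivalent: the dihedral group of order 2p is involved in G; some element of 2-power order normalizes but does not centralize some p-subgroup of G; some element of 2-power order inverts some nonidentity element of p-power order. -/
theorem result {G : Type*} [Group G] [Finite G] {p : ℕ} [Fact p.Prime] (hp : p ≠ 2) : (Cfsg.Involves (DihedralGroup p) G ↔ ∃ (x : G) (P : Subgroup G), (∃ k : ℕ, orderOf x = 2 ^ k) ∧ IsPGroup p ↥P ∧ x ∈ Subgroup.normalizer (P : Set G) ∧ x ∉ Subgroup.centralizer (P : Set G)) ∧ (Cfsg.Involves (DihedralGroup p) G ↔ ∃ x y : G, (∃ k : ℕ, orderOf x = 2 ^ k) ∧ (∃ k : ℕ, orderOf y = p ^ k) ∧ y ≠ 1 ∧ x * y * x⁻¹ = y⁻¹) := by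
  have : Fact (Nat.Prime 2) := ⟨Nat.prime_two⟩
  simp only [ord_iff, ← sec_iff_involves]
  have hca : (∃ x y : G, (∃ k : ℕ, x ^ 2 ^ k = 1) ∧ (∃ k : ℕ, y ^ p ^ k = 1) ∧ y ≠ 1 ∧
      x * y * x⁻¹ = y⁻¹) → Sec (DihedralGroup p) G :=
    fun ⟨_, _, ⟨_, hk⟩, ⟨_, hl⟩, hy, hxy⟩ => sec_dihedral_of_inverts hp hk hl hy hxy
  refine ⟨⟨exists_norm_of_sec_dihedral hp, fun ⟨x, P, ⟨k, hk⟩, hP, hN, hC⟩ =>
    hca (exists_inverts_of_norm hk hP hN hC)⟩, fun h => ?_, hca⟩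
  obtain ⟨x, P, ⟨k, hk⟩, hP, hN, hC⟩ := exists_norm_of_sec_dihedral hp h
  exact exists_inverts_of_norm hk hP hN hC

end Cfsg.Agent.S2758
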