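import Cfsg.Statements.S2762
import Cfsg.Agent.Lib.Push.QdF

set_option autoImplicit false
open Cfsg

namespace Cfsg.Agent.S2762

open CfsgLib.Push CfsgLib.SL2 MatrixGroups

/-- The block diagonal embedding. -/
def blk (F : Type*) [Field F] : SL(2, F) →* Cfsg.qdOver F :=
  MonoidHom.mk' (fun A => qdF A 0) fun A B => by rw [qdF_mul, act_zero, add_zero]

theorem mem_blk {F : Type*} [Field F] {A : SL(2, F)} {e : Fin 2 → F} :
    qdF A e ∈ (blk F).range ↔ e = 0 :=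
  ⟨fun ⟨_, h⟩ => (qdF_inj h).2.symm, fun h => ⟨A, h ▸ rfl⟩⟩

theorem mem_ker {F : Type*} [Field F] {A : SL(2, F)} {e : Fin 2 → F} :
    qdF A e ∈ (qdLh F).ker ↔ A = 1 := by rw [MonoidHom.mem_ker, qdLh_qdF]

/-- Structure of Qd over a finite field F of characteristic p (the affine subgroup of SL₃(F)): its largest normal p-subgroup is the group of translations (matrices with upper-left block the identity), the block-diagonal matrices form a complement isomorphic to SL₂(F), and the translation subgroup is a natural SL₂(F)-module for that complement. -/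
theorem result {F : Type*} [Field F] [Fintype F] {p : ℕ} [Fact p.Prime] [CharP F p] : (∀ M : ↥(Cfsg.qdOver F), M ∈ Cfsg.pCore p ↥(Cfsg.qdOver F) ↔ ((M : Matrix.SpecialLinearGroup (Fin 3) F) : Matrix (Fin 3) (Fin 3) F) 0 0 = 1 ∧ ((M : Matrix.SpecialLinearGroup (Fin 3) F) : Matrix (Fin 3) (Fin 3) F) 0 1 = 0 ∧ ((M : Matrix.SpecialLinearGroup (Fin 3) F) : Matrix (Fin 3) (Fin 3) F) 1 0 = 0 ∧ ((M : Matrix.SpecialLinearGroup (Fin 3) F) : Matrix (Fin 3) (Fin 3) F) 1 1 = 1) ∧ ∃ K : Subgroup ↥(Cfsg.qdOver F), (∀ M : ↥(Cfsg.qdOver F), M ∈ K ↔ ((M : Matrix.SpecialLinearGroup (Fin 3) F) : Matrix (Fin 3) (Fin 3) F) 0 2 = 0 ∧ ((M : Matrix.SpecialLinearGroup (Fin 3) F) : Matrix (Fin 3) (Fin 3) F) 1 2 = 0) ∧ K ⊓ Cfsg.pCore p ↥(Cfsg.qdOver F) = ⊥ ∧ K ⊔ Cfsg.pCore p ↥(Cfsg.qdOver F) = ⊤ ∧ Nonempty (↥K ≃* Matrix.SpecialLinearGroup (Fin 2) F) ∧ Cfsg.IsNaturalSL2Module F (Cfsg.pCore p ↥(Cfsg.qdOver F)) K :=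 by
  rw [pCore_qdOver]
  refine ⟨fun M => ?_, (blk F).range, fun M => ?_, ?_, ?_, ?_, ?_⟩
  · obtain ⟨A, e, rfl⟩ := exists_qdF M
    rw [mem_ker, coe_qdF]
    refine ⟨by rintro rfl; simp, fun ⟨h1, h2, h3, h4⟩ => ext2 ?_ ?_ ?_ ?_⟩
    · simpa using h1
    · simpa using h2
    · simpa using h3
    · simpa using h4
  · obtain ⟨A, e, rfl⟩ := exists_qdF M
    rw [mem_blk, coe_qdF]
    refine ⟨by rintro rfl; simp, fun ⟨h1, h2⟩ => vec2_ext ?_ ?_⟩
    · simpa using h1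
    · simpa using h2
  · refine eq_bot_iff.2 fun M hM => ?_
    obtain ⟨A, e, rfl⟩ := exists_qdF M
    rw [mem_blk.1 hM.1, mem_ker.1 hM.2, qdF_one]
    exact Subgroup.one_mem _
  · refine eq_top_iff.2 fun M _ => ?_
    obtain ⟨A, e, rfl⟩ := exists_qdF M
    have : qdF A e = qdF 1 e * qdF A 0 := by rw [qdF_mul, act_zero, add_zero, one_mul]
    rw [this]
    exact Subgroup.mul_mem _ (Subgroup.mem_sup_right (mem_ker.2 rfl))
      (Subgroup.mem_sup_left (mem_blk.2 rfl))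
  · exact ⟨(MonoidHom.ofInjective fun A B h => (qdF_inj h).1).symm⟩
  · refine isNaturalSL2Module_iff.2 ⟨⟨⟨qdV, bot_le, ?_, ?_, ?_⟩, qdL, Subgroup.le_normalizer_of_normal,
      fun _ _ => trivial, fun g _ => ⟨qdF g 0, mem_blk.2 rfl, qdL_qdF _ _⟩, ?_⟩⟩
    · intro x hx y _
      obtain ⟨A, e, rfl⟩ := exists_qdF x
      obtain ⟨B, f, rfl⟩ := exists_qdF y
      rw [mem_ker.1 hx, qdF_mul, qdV_qdF, qdV_qdF, qdV_qdF, act_one]
    · intro x hx
      obtain ⟨A, e, rfl⟩ := exists_qdF x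
      rw [mem_ker.1 hx, qdV_qdF, Subgroup.mem_bot, ← qdF_one]
      exact ⟨fun h => by rw [h], fun h => (qdF_inj h).2⟩
    · exact fun m => ⟨qdF 1 m, mem_ker.2 rfl, qdV_qdF _ _⟩
    · intro g hg x hx
      obtain ⟨A, e, rfl⟩ := exists_qdF g
      obtain ⟨B, f, rfl⟩ := exists_qdF x
      change qdV _ = act _ (qdV _)
      rw [mem_ker.1 hx, mem_blk.1 hg, qdF_inv, qdF_mul, qdF_mul, qdV_qdF, qdV_qdF, qdL_qdF]
      simp [act_zero]

end Cfsg.Agent.S2762
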