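import Cfsg.Statements.S2764
import Cfsg.Agent.Lib.Push.Chief

set_option autoImplicit false
open Cfsg

namespace Cfsg.Agent.S2764

open Subgroup CfsgLib.Push CfsgLib.LAE CfsgLib.PLocal

/-- Pushing up for a rank-one quotient: let G be a finite group and p a prime with C_G(O_p(G)) ≤ O_p(G), suppose G/K ≅ PSL₂(p^n) for some normal subgroup K and some n ≥ 1, that a Sylow p-subgroup S of G lies in exactly one maximal subgroup of G, and that no nontrivial characteristic subgroup of S is normal in G. Then G/O_p(G) ≅ SL₂(p^n), and every noncentral chief factor U/W of G inside O_p(G) is a natural SL₂-module over the field with p^n elements for the action of G/W. -/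
theorem result {G : Type*} [Group G] [Finite G] {p : ℕ} [Fact p.Prime] (S : Sylow p G) (hE₁ : Subgroup.centralizer (Cfsg.pCore p G : Set G) ≤ Cfsg.pCore p G) (hE₂ : ∃! M : Subgroup G, IsCoatom M ∧ (S : Subgroup G) ≤ M) (K : Subgroup G) [K.Normal] (F : Type) [Field F] [Fintype F] (n : ℕ) (hn : 1 ≤ n) (hF : Fintype.card F = p ^ n) (hE₃ : Nonempty (G ⧸ K ≃* Matrix.ProjectiveSpecialLinearGroup (Fin 2) F)) (hd : ∀ T : Subgroup ↥(S : Subgroup G), T ≠ ⊥ → T.Characteristic → ¬ (T.map (S : Subgroup G).subtype).Normal) : Nonempty (G ⧸ Cfsg.pCore p G ≃* Matrix.SpecialLinearGroup (Fin 2) F) ∧ ∀ (U W : Subgroup G) [W.Normal], U ≤ Cfsg.pCore p G → Cfsg.IsChiefFactor U W → ¬ ⁅U, (⊤ : Subgroup G)⁆ ≤ W → Cfsg.IsNaturalSL2Module F (U.map (QuotientGroup.mk' W)) (⊤ : Subgroup (G ⧸ W)) := by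
  obtain ⟨M, H, hq⟩ := exists_PU_of_psl (isSylowIn_top S) hE₁ hE₂ K hF hE₃
  have hH := hChar_of_normal hd
  obtain ⟨h1, h2⟩ := H.ker_le_and_quadratic hH
  obtain ⟨θ, hθ, hk⟩ := hH.exists_hom H h1 (F := F) (by rw [pCoreOf_top]; exact hq)
  haveI := charP_of_card hF
  refine ⟨?_, fun U W _ hU hch hnc => ?_⟩
  · let θ' := θ.comp Subgroup.topEquiv.symm.toMonoidHom
    have h3 : Function.Surjective θ' := hθ.comp Subgroup.topEquiv.symm.surjective
    have h4 : Cfsg.pCore p G = θ'.ker := by
      ext x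
      rw [← pCoreOf_top]
      exact (SetLike.ext_iff.1 hk ⟨x, trivial⟩).symm
    exact ⟨(QuotientGroup.quotientMulEquivOfEq h4).trans
      (QuotientGroup.quotientKerEquivOfSurjective θ' h3)⟩
  · haveI := hch.2.1
    have hUp : IsPGroup p U := CfsgLib.LAE.isPGroup_pCore.to_le hU
    have hQ := chief_commutator_le hch hUp (CfsgLib.LAE.isPGroup_pCore (p := p))
    obtain ⟨D, -⟩ := exists_natData_of_hom hUp hch.1.le ((commutator_mono le_rfl hU).trans hQ)
      le_normalizer_of_normal le_normalizer_of_normal θ hθ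
      (by rw [hk]; exact (isPGroup_subgroupOf_iff le_top).2 (isPGroup_pCoreOf ⊤))
      (fun e he x hx => by
        have : (e : G) ∈ pCoreOf p ⊤ := hk.le he
        rw [pCoreOf_top] at this
        rw [← commutatorElement_inv]
        exact inv_mem (hQ (commutator_mem_commutator hx this))) H.syl
      (fun Y h3 h4 h5 => hch.2.2.2 Y (normal_of_top_le h5) h3 h4) hnc
      (Or.inl (h2 U W (by rwa [pCoreOf_top]) hch hnc))
    obtain ⟨D', -⟩ := D.exists_map (QuotientGroup.mk' W) (by rw [QuotientGroup.ker_mk']; exact inf_le_right)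
    rw [isNaturalSL2Module_iff]
    rw [map_top_of_surjective _ (QuotientGroup.mk'_surjective W),
      (Subgroup.map_eq_bot_iff W).2 (QuotientGroup.ker_mk' W).ge] at D'
    exact ⟨D'⟩

end Cfsg.Agent.S2764
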