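import Cfsg.Statements.S2765
import Cfsg.Agent.Lib.Push.Chief

set_option autoImplicit false
open Cfsg

namespace Cfsg.Agent.S2765

open Subgroup CfsgLib.Push CfsgLib.LAE CfsgLib.PLocal

/-- In the same pushing-up situation (G finite, C_G(O_p(G)) ≤ O_p(G), G/K ≅ PSL₂(p^n) with n ≥ 1, a Sylow p-subgroup S in exactly one maximal subgroup, no nontrivial characteristic subgroup of S normal in G), one of the following holds: (I) S has nilpotency class 2, exponent 4 if p = 2 and exponent p otherwise, and G has exactly one noncentral chief factor inside O_p(G); or (II) p = 3, S has class 3 and exponent 9, and G has exactly two noncentral chief factors inside O_p(G). 'Exactly one' is phrased as: some noncentral chief factor U/W inside O_p(G) with G acting hypercentrally on W and on O_p(G)/U; 'exactly two' analogously with a chain. -/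
theorem result {G : Type*} [Group G] [Finite G] {p : ℕ} [Fact p.Prime] (S : Sylow p G) (hE₁ : Subgroup.centralizer (Cfsg.pCore p G : Set G) ≤ Cfsg.pCore p G) (hE₂ : ∃! M : Subgroup G, IsCoatom M ∧ (S : Subgroup G) ≤ M) (K : Subgroup G) [K.Normal] (F : Type) [Field F] [Fintype F] (n : ℕ) (hn : 1 ≤ n) (hF : Fintype.card F = p ^ n) (hE₃ : Nonempty (G ⧸ K ≃* Matrix.ProjectiveSpecialLinearGroup (Fin 2) F)) (hd : ∀ T : Subgroup ↥(S : Subgroup G), T ≠ ⊥ → T.Characteristic → ¬ (T.map (S : Subgroup G).subtype).Normal) : ((S : Subgroup G).lowerCentralSeries 2 = ⊥ ∧ (S : Subgroup G).lowerCentralSeries 1 ≠ ⊥ ∧ (p = 2 → Monoid.exponent ↥(S : Subgroup G) = 4) ∧ (p ≠ 2 → Monoid.exponent ↥(S : Subgroup G) = p) ∧ (∃ U W : Subgroup G, W ≤ U ∧ U ≤ (Cfsg.pCore p G) ∧ Cfsg.IsChiefFactor U W ∧ ¬ ⁅U, (⊤ : Subgroup G)⁆ ≤ W ∧ (∃ k : ℕ, Cfsg.iterCommutator W ⊤ k = ⊥) ∧ (∃ k : ℕ, Cfsg.iterCommutator (Cfsg.pCore p G) ⊤ k ≤ U)))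 ∨ (p = 3 ∧ (S : Subgroup G).lowerCentralSeries 3 = ⊥ ∧ (S : Subgroup G).lowerCentralSeries 2 ≠ ⊥ ∧ Monoid.exponent ↥(S : Subgroup G) = 9 ∧ (∃ U₁ W₁ U₂ W₂ : Subgroup G, W₁ ≤ U₁ ∧ U₁ ≤ W₂ ∧ W₂ ≤ U₂ ∧ U₂ ≤ (Cfsg.pCore p G) ∧ Cfsg.IsChiefFactor U₁ W₁ ∧ Cfsg.IsChiefFactor U₂ W₂ ∧ ¬ ⁅U₁, (⊤ : Subgroup G)⁆ ≤ W₁ ∧ ¬ ⁅U₂, (⊤ : Subgroup G)⁆ ≤ W₂ ∧ (∃ k : ℕ, Cfsg.iterCommutator W₁ ⊤ k = ⊥) ∧ (∃ k : ℕ, Cfsg.iterCommutator W₂ ⊤ k ≤ U₁) ∧ (∃ k : ℕ, Cfsg.iterCommutator (Cfsg.pCore p G) ⊤ k ≤ U₂))) := by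
  obtain ⟨M, H, -⟩ := exists_PU_of_psl (isSylowIn_top S) hE₁ hE₂ K hF hE₃
  have hH := hChar_of_normal hd
  obtain ⟨F', _, _, N, -⟩ := hH.exists_natData H
  haveI : (VV p (⊤ : Subgroup G)).Normal := normal_of_top_le le_normalizer_VV
  have hexp : ∀ m : ℕ, Monoid.exponent ↥(S : Subgroup G) ∣ m ↔ ∀ s ∈ (S : Subgroup G), s ^ m = 1 :=
    fun m => Monoid.exponent_dvd_iff_forall_pow_eq_one.trans
      ⟨fun h s hs => congrArg Subtype.val (h ⟨s, hs⟩), fun h s => Subtype.ext (h s s.2)⟩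
  have hZ : ∃ k, Cfsg.iterCommutator (cen (VV p (⊤ : Subgroup G)) ⊤) ⊤ k = ⊥ :=
    ⟨1, commutator_eq_bot_iff_le_centralizer.2 inf_le_right⟩
  have hVQ : VV p (⊤ : Subgroup G) ≤ Cfsg.pCore p G := pCoreOf_top (p := p) (G := G) ▸ H.VQ
  rcases H.pushing_up hH with ⟨A, hc⟩ | ⟨D, E, hc⟩
  · refine Or.inl ⟨hc.lcs_eq_bot H hH, H.commutator_ne_bot, ?_, fun hp => ?_, _, _, inf_le_left, hVQ,
      N.isChiefFactor, N.not_commutator_le, hZ, exists_iterCommutator_le hVQ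
        CfsgLib.LAE.isPGroup_pCore (pCoreOf_top (p := p) (G := G) ▸ hc.comm_res H)⟩
    · rintro rfl
      have h1 := (hexp (2 ^ 2)).2 fun s hs => hc.pow_eq_one_of_dvd H hH (by norm_num) (by decide) hs
      have h2 : ¬ Monoid.exponent ↥(S : Subgroup G) ∣ 2 ^ 1 := fun h2 => by
        refine H.commutator_ne_bot (commutator_eq_bot_iff_le_centralizer.2 fun a ha b hb => ?_)
        have e := (hexp _).1 h2
        have e1 := e a ha
        have e2 := e b hb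
        have e3 := e _ (mul_mem hb ha)
        rw [pow_one, pow_two] at e1 e2 e3
        rw [← inv_eq_of_mul_eq_one_right e3, _root_.mul_inv_rev, inv_eq_of_mul_eq_one_right e1,
          inv_eq_of_mul_eq_one_right e2]
      exact Nat.eq_prime_pow_of_dvd_least_prime_pow Nat.prime_two h2 h1
    · have h1 := (hexp p).2 fun s hs => hc.pow_eq_one_of_dvd H hH dvd_rfl
        (Nat.Prime.dvd_choose_self Fact.out two_ne_zero
          (lt_of_le_of_ne (Nat.Prime.two_le Fact.out) (Ne.symm hp))) hs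
      refine ((Nat.dvd_prime Fact.out).1 h1).resolve_left fun h2 => H.nn fun s hs => ?_
      rw [← pow_one s, (hexp 1).1 h2.dvd s hs]
      exact one_mem _
  · obtain ⟨F₂, _, _, N₂, -⟩ := hc.nat
    haveI := normal_of_top_le hc.norm
    rw [pCoreOf_top] at N₂
    obtain ⟨a, ha, u, hu, hau⟩ := hc.cubic
    refine Or.inr ⟨hc.three, hH.lcs_eq_bot H ((commutator_mono (commutator_mono hc.der le_rfl)
      le_rfl).trans hc.commE), fun h1 => hau ?_, ?_, _, _, _, _, inf_le_left, hc.VD, N₂.le, le_rfl,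
      N.isChiefFactor, N₂.isChiefFactor, N.not_commutator_le, N₂.not_commutator_le, hZ,
      exists_iterCommutator_le hc.VD (CfsgLib.LAE.isPGroup_pCore.to_le N₂.le) hc.res, 0, le_rfl⟩
    · rw [← commutatorElement_inv, inv_eq_one, ← mem_bot, ← h1]
      exact commutator_mem_commutator (commutator_mem_commutator ha hu) ha
    · obtain rfl := hc.three
      have h1 := (hexp (3 ^ 2)).2 fun s hs => hH.pow_eq_one' H (fun s hs => by
        rw [pow_two, pow_mul]; exact hc.powE _ (hc.pow s hs)) hs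
      have h2 : ¬ Monoid.exponent ↥(S : Subgroup G) ∣ 3 ^ 1 := fun h2 =>
        hau (commutator_commutator_eq_one_of_cube ((hexp _).1 h2) ha hu)
      exact Nat.eq_prime_pow_of_dvd_least_prime_pow Nat.prime_three h2 h1

end Cfsg.Agent.S2765
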