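import Cfsg.Statements.S2768
import Cfsg.Agent.Lib.Push.Baumann

set_option autoImplicit false
open Cfsg

namespace Cfsg.Agent.S2768

open Subgroup CfsgLib.Push CfsgLib.LAE CfsgLib.PLocal CfsgLib.ZJ

/-- Let G be a finite group and p a prime with C_G(O_p(G)) ≤ O_p(G), such that a Sylow p-subgroup S lies in exactly one maximal subgroup of G and G/K ≅ PSL₂(p^n) for some normal K and n ≥ 1. Put J̃(S) = C_S(Z(J(S))), where J(S) is generated by the abelian subgroups of S of largest order. If Z(S) is not normal in G, then J̃(S) is a Sylow p-subgroup of its normal closure ⟨J̃(S)^G⟩. -/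
theorem result {G : Type*} [Group G] [Finite G] {p : ℕ} [Fact p.Prime] (S : Sylow p G) (hE₁ : Subgroup.centralizer (Cfsg.pCore p G : Set G) ≤ Cfsg.pCore p G) (hE₂ : ∃! M : Subgroup G, IsCoatom M ∧ (S : Subgroup G) ≤ M) (K : Subgroup G) [K.Normal] (F : Type) [Field F] [Fintype F] (n : ℕ) (hn : 1 ≤ n) (hF : Fintype.card F = p ^ n) (hE₃ : Nonempty (G ⧸ K ≃* Matrix.ProjectiveSpecialLinearGroup (Fin 2) F)) (hZ : ¬ ((S : Subgroup G) ⊓ Subgroup.centralizer ((S : Subgroup G) : Set G)).Normal) : ∃ P : Sylow p ↥(Subgroup.normalClosure (((S : Subgroup G) ⊓ Subgroup.centralizer (Cfsg.centerThompsonAOf (S : Subgroup G) : Set G)) : Set G)), (P : Subgroup ↥(Subgroup.normalClosure (((S : Subgroup G) ⊓ Subgroup.centralizer (Cfsg.centerThompsonAOf (S : Subgroup G) : Set G)) : Set G))) = (((S : Subgroup G) ⊓ Subgroup.centralizer (Cfsg.centerThompsonAOf (S : Subgroup G) : Set G))).subgroupOf (Subgroup.normalClosure (((S : Subgroup G) ⊓ Subgroup.centralizer (Cfsg.centerThompsonAOf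 (S : Subgroup G) : Set G)) : Set G)) := by
  obtain ⟨M, H, -⟩ := exists_PU_of_psl (isSylowIn_top S) hE₁ hE₂ K hF hE₃
  have hz : ¬ ⊤ ≤ normalizer (cen (S : Subgroup G) S : Set G) := fun h => hZ (normal_of_top_le h)
  rw [← zj_zero]
  have key : IsSylowIn p (cen (S : Subgroup G) (zj 0 (S : Subgroup G)))
      (nclIn (cen (S : Subgroup G) (zj 0 (S : Subgroup G))) ⊤) := by
    by_cases hJ : Cfsg.thompsonSubgroupOf 0 (S : Subgroup G) ≤ pCoreOf p ⊤
    · rw [le_antisymm (nclIn_le le_rfl (H.baumann_normal hJ (H.not_pResOf_le_zj hz))) (le_nclIn _ _)]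
      exact isSylowIn_self (H.pS.to_le inf_le_left)
    · have := H.syl.inf_of_normal le_top
        (le_normalizer_nclIn (cen (S : Subgroup G) (zj 0 (S : Subgroup G))) ⊤)
      rwa [H.baumann_sylow H.VQ le_normalizer_VV Q_le_centralizer_VV (H.not_pResOf_le hz)
        (elemAb_zero_iff.2 (VV_comm H.charP)) hJ] at this
  rw [nclIn_top] at key
  exact ⟨key.toSylow, key.coe_toSylow⟩

end Cfsg.Agent.S2768
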