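import Cfsg.Statements.S2769
import Cfsg.Agent.Lib.Push.Baumann

set_option autoImplicit false
open Cfsg

namespace Cfsg.Agent.S2769

open Subgroup CfsgLib.Push CfsgLib.LAE CfsgLib.PLocal CfsgLib.ZJ

/-- Let G be a finite group and p a prime with C_G(O_p(G)) ≤ O_p(G), S a Sylow p-subgroup lying in exactly one maximal subgroup of G, and G/K ≅ PSL₂(p^n) for some normal K and n ≥ 1. Let J(S) be generated by the abelian subgroups of S of largest order. If [Z(J(S)), S] ≠ 1, then either [Z(J(S)), S] ∩ Z(S) is normal in G or C_S(Z(J(S))) is normal in G. -/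
theorem result {G : Type*} [Group G] [Finite G] {p : ℕ} [Fact p.Prime] (S : Sylow p G) (hE₁ : Subgroup.centralizer (Cfsg.pCore p G : Set G) ≤ Cfsg.pCore p G) (hE₂ : ∃! M : Subgroup G, IsCoatom M ∧ (S : Subgroup G) ≤ M) (K : Subgroup G) [K.Normal] (F : Type) [Field F] [Fintype F] (n : ℕ) (hn : 1 ≤ n) (hF : Fintype.card F = p ^ n) (hE₃ : Nonempty (G ⧸ K ≃* Matrix.ProjectiveSpecialLinearGroup (Fin 2) F)) (h : ⁅(Cfsg.centerThompsonAOf (S : Subgroup G)), (S : Subgroup G)⁆ ≠ ⊥) : (⁅(Cfsg.centerThompsonAOf (S : Subgroup G)), (S : Subgroup G)⁆ ⊓ ((S : Subgroup G) ⊓ Subgroup.centralizer ((S : Subgroup G) : Set G))).Normal ∨ (((S : Subgroup G) ⊓ Subgroup.centralizer (Cfsg.centerThompsonAOf (S : Subgroup G) : Set G))).Normal := by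
  obtain ⟨M, H, -⟩ := exists_PU_of_psl (isSylowIn_top S) hE₁ hE₂ K hF hE₃
  rw [← zj_zero]
  have hn : (S : Subgroup G) ≤ normalizer ((⁅zj 0 (S : Subgroup G), (S : Subgroup G)⁆ ⊓
      cen (S : Subgroup G) S : Subgroup G) : Set G) :=
    le_normalizer_of_le_centralizer (le_centralizer_iff.1 (inf_le_right.trans inf_le_right))
  by_cases hJ : Cfsg.thompsonSubgroupOf 0 (S : Subgroup G) ≤ pCoreOf p ⊤
  · by_cases hc : pResOf p ⊤ ≤ centralizer (zj 0 (S : Subgroup G) : Set G)
    · left
      exact normal_of_top_le (H.le_normalizer_of_centralizer (hc.trans (centralizer_anti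
        (inf_le_left.trans (commutator_le_left_of_le_normalizer
          (le_normalizer.trans (normalizer_le_normalizer_zj _)))))) hn)
    · exact Or.inr (normal_of_top_le (H.baumann_normal hJ hc))
  · left
    by_cases hc : pResOf p ⊤ ≤ centralizer (VV p (⊤ : Subgroup G) : Set G)
    · exact normal_of_top_le (H.le_normalizer_of_centralizer (hc.trans (centralizer_anti
        (inf_le_right.trans (cen_le_VV H.syl)))) hn)
    · exact normal_of_top_le (H.le_normalizer_of_centralizer ((le_centralizer_iff.1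
        (H.baumann_commutator H.VQ le_normalizer_VV Q_le_centralizer_VV hc
          (elemAb_zero_iff.2 (VV_comm H.charP)) hJ)).trans (centralizer_anti inf_le_left)) hn)

end Cfsg.Agent.S2769
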