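import Mathlib
import Cfsg.Statements.S2772
import Cfsg.Agent.Lib.Sims.Prim

set_option autoImplicit false
open Cfsg

namespace Cfsg.Agent.S2772

open CfsgLib.BG CfsgLib.Sims

/-- Sims' Theorem in local form: let H be a finite non-abelian simple group and G a maximal subgroup of H with C_G(O₂(G)) ≤ O₂(G), such that N_H(S) is not contained in G for a Sylow 2-subgroup S of G and G/O₂(G) is dihedral of order 2q for a prime q. Then G is isomorphic to the symmetric group of degree 4 or to its direct product with a group of order 2. -/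
theorem result {H : Type*} [Group H] [Finite H] [IsSimpleGroup H] (hna : ¬ IsMulCommutative H) (G : Subgroup H) (hG : IsCoatom G) (hchar : Subgroup.centralizer (Cfsg.pCore 2 ↥G : Set ↥G) ≤ Cfsg.pCore 2 ↥G) (S : Sylow 2 ↥G) (hN : ¬ Subgroup.normalizer (((S : Subgroup ↥G).map G.subtype : Subgroup H) : Set H) ≤ G) (q : ℕ) (hq : q.Prime) (hD : Nonempty (↥G ⧸ Cfsg.pCore 2 ↥G ≃* DihedralGroup q)) : Nonempty (↥G ≃* Equiv.Perm (Fin 4)) ∨ Nonempty (↥G ≃* Equiv.Perm (Fin 4) × Multiplicative (ZMod 2)) := by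
  obtain ⟨e⟩ := hD
  have : Fact (Nat.Prime 2) := ⟨Nat.prime_two⟩
  have hP : IsPGroup 2 ((S : Subgroup G).map G.subtype) := S.isPGroup'.map _
  have hodd : ¬ 2 ∣ ((S : Subgroup G).map G.subtype).relIndex G := by
    rw [Subgroup.relIndex, Subgroup.subgroupOf, Subgroup.comap_map_eq_self_of_injective G.subtype_injective]
    exact S.not_dvd_index
  obtain ⟨h1, c, hc, h2, h3⟩ := exists_gen_of_dihedral hq.two_le e hP (Subgroup.map_subtype_le _) hodd
  obtain ⟨y, hy, hyG⟩ := SetLike.not_le_iff_exists.1 hN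
  have hbot : ∀ {L Q : Subgroup H}, ¬ L ≤ G → Q ≤ G → G ≤ 𝒩(Q) → L ≤ 𝒩(Q) → Q = ⊥ := fun h4 h5 h6 h7 =>
    ((Subgroup.normalizer_eq_top_iff.1 ((hG.le_iff.1 h6).resolve_right fun e => h4 (h7.trans e.le))).eq_bot_or_eq_top).resolve_right
      fun e => hG.1 (top_le_iff.1 (e.ge.trans h5))
  have hnt : pCore 2 G ≠ ⊤ := fun h => by
    have h4 := Nat.card_congr e.toEquiv
    rw [DihedralGroup.nat_card, ← Subgroup.index_eq_card, h, Subgroup.index_top] at h4
    omega
  have hO : oddCore G = ⊥ := by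
    have h4 : oddCore G ≤ Subgroup.centralizer (pCore 2 G : Set G) := by
      rw [← Subgroup.commutator_eq_bot_iff_le_centralizer, eq_bot_iff, ← CfsgLib.Core.pCore_inf_pPrimeCore (p := 2),
        inf_comm]
      exact Subgroup.commutator_le_inf _ _
    rw [← inf_eq_right.2 (h4.trans hchar)]
    exact CfsgLib.Core.pCore_inf_pPrimeCore
  have e' : G ≃* G ⧸ oddCore G := ((QuotientGroup.quotientMulEquivOfEq hO).trans QuotientGroup.quotientBot).symm
  have hy' : ¬ cj y⁻¹ G ≤ G := fun h => by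
    have h7 := hbot (Q := G) (fun h' => hyG (by simpa using inv_mem (Subgroup.zpowers_le.1 h'))) le_rfl
      Subgroup.le_normalizer (Subgroup.zpowers_le.2 (mem_norm_of_cj_le h))
    refine hnt (eq_top_iff.2 fun x _ => ?_)
    rw [show x = 1 from Subtype.ext (Subgroup.mem_bot.1 (h7.le x.2))]
    exact one_mem _
  rcases two_local hP (Subgroup.map_subtype_le _) hodd hc h2 h3 hy
    (fun Q h4 h5 h6 => hbot (fun h => hyG (Subgroup.zpowers_le.1 h)) (h4.trans (Subgroup.map_subtype_le _)) h5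
      (Subgroup.zpowers_le.2 h6))
    (fun Q h4 h5 h6 => hbot hy' (h4.trans (Subgroup.map_subtype_le _)) h5 h6) with
    ⟨h4 | ⟨-, ⟨f⟩⟩, -⟩ | ⟨-, ⟨f⟩⟩ | ⟨-, ⟨f⟩⟩
  · refine absurd h4 (h1 fun h => hnt (top_le_iff.1 (le_trans (fun x _ => ?_) hchar)))
    rw [h]
    exact fun z hz => by rw [Subgroup.mem_bot.1 hz, one_mul, mul_one]
  · refine absurd (CfsgLib.Core.pCore_eq_top_iff.2 (IsPGroup.of_card (n := 2) ?_)) hnt
    rw [Nat.card_congr (e'.trans f).toEquiv]
    simp
  · exact Or.inl ⟨e'.trans f⟩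
  · exact Or.inr ⟨e'.trans f⟩

end Cfsg.Agent.S2772
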