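import Cfsg.Statements.S2779
import Cfsg.Agent.Lib.Push.NatSylow

set_option autoImplicit false
open Cfsg

namespace Cfsg.Agent.S2779

open Subgroup CfsgLib.LAE CfsgLib.Push
open scoped commutatorElement

/-- Let L act on the elementary abelian p-group V (inside a finite group, by conjugation, faithfully) as SL₂(F) on its natural module, F a field with p^n elements, and let S be a Sylow p-subgroup of L. Then [V, S, S] = 1; |V| = p^(2n) and |C_V(S)| = p^n; and for every nonidentity s ∈ S and every v ∈ V outside C_V(S): C_V(s) = C_V(S) = [V, S] = [V, s] = the subgroup generated by the commutators [v, t], t ∈ S. -/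
theorem result {G : Type*} [Group G] [Finite G] {p : ℕ} [Fact p.Prime] {F : Type*} [Field F] [Fintype F] (n : ℕ) (hF : Fintype.card F = p ^ n) (V L : Subgroup G) (hnat : Cfsg.IsNaturalSL2Module F V L) (hf : L ⊓ Subgroup.centralizer (V : Set G) = ⊥) (S : Sylow p ↥L) (T : Subgroup G) (hT : T = ((S : Subgroup ↥L).map L.subtype)) : ⁅⁅V, T⁆, T⁆ = ⊥ ∧ Nat.card V = p ^ (2 * n) ∧ Nat.card ↥(V ⊓ Subgroup.centralizer ((T : Subgroup G) : Set G)) = p ^ n ∧ ∀ s ∈ T, s ≠ 1 → (V ⊓ Subgroup.centralizer ({s} : Set G)) = (V ⊓ Subgroup.centralizer ((T : Subgroup G) : Set G)) ∧ ⁅V, T⁆ = (V ⊓ Subgroup.centralizer ((T : Subgroup G) : Set G)) ∧ ⁅V, Subgroup.zpowers s⁆ = (V ⊓ Subgroup.centralizer ((T : Subgroup G) : Set G)) ∧ ∀ v ∈ V, v ∉ Subgroup.centralizer (T : Set G) → Subgroup.closure {x : G | ∃ t ∈ T, x = v * t * v⁻¹ * t⁻¹} = (V ⊓ Subgroup.centralizer ((T : Subgroup G) : Set G)) := by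
  obtain ⟨D₀⟩ := isNaturalSL2Module_iff.1 hnat
  haveI : CharP F p := charP_of_card hF
  have hS : IsSylowIn p T L := hT ▸ isSylowIn_map_subtype S
  obtain ⟨D, hD⟩ := D₀.exists_upper_sylow hS
  have hfix := D.fix_eq hS.le hD.le (hD ▸ upU_ne_bot)
  have hk : D.ker = ⊥ := D.ker_eq.trans hf
  rw [← hfix]
  have hc : ⁅V, T⁆ = D.fix := by
    simpa using D.commutator_sup_eq_fix hS.le hD.le (hD ▸ upU_ne_bot)
  refine ⟨?_, ?_, ?_, fun s hs h1 => ?_⟩
  · rw [hc, eq_bot_iff]; exact D.commutator_fix_le hS.le hD.le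
  · have := D.relIndex_eq
    rwa [relIndex_bot_left, hF, ← pow_mul, mul_comm] at this
  · have := D.relIndex_fix
    rwa [relIndex_bot_left, Nat.card_eq_fintype_card (α := F), hF] at this
  have hu := D.φ_mem_of_img_le hS.le hD.le hs
  have hne : D.φ s ≠ 1 := fun h => h1 (by simpa [hk] using D.mem_ker.2 ⟨hS.le hs, h⟩)
  refine ⟨(D.fix_eq_centralizer (hS.le hs) hu hne).symm, hc, ?_, fun v hv hv' => ?_⟩
  · refine le_antisymm (hc ▸ commutator_mono le_rfl (zpowers_le.2 hs)) ?_
    simpa using D.fix_le_commutator_sup (hS.le hs) (mem_zpowers s) hu hne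
  · refine le_antisymm ?_ fun y hy => ?_
    · rw [closure_le]
      rintro _ ⟨t, ht, rfl⟩
      rw [← hc]; exact commutator_mem_commutator hv ht
    · obtain ⟨t, ht, ht', -, h⟩ := D.exists_commutator_eq' hD.ge hv
        (fun h => hv' (hfix ▸ h).2) (inv_mem hy)
      have := D.π_inj (D.commutator_mem_U ht hv) (inv_mem hy.1) h
      refine subset_closure ⟨t, ht', ?_⟩
      rw [← inv_inv y, ← this, commutatorElement_inv, commutatorElement_def]

end Cfsg.Agent.S2779
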