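import Cfsg.Statements.S2780
import Cfsg.Agent.Lib.Push.NatSylow

set_option autoImplicit false
open Cfsg

namespace Cfsg.Agent.S2780

open Subgroup CfsgLib.LAE CfsgLib.Push
open scoped commutatorElement

/-- Let L act on the elementary abelian p-group V (inside a finite group, faithfully) as SL₂(F) on its natural module, F a field with p^n elements, S a Sylow p-subgroup of L. Then: for every g ∈ L not normalizing S, V is the internal direct product of C_V(S) and C_V(gSg⁻¹); every nonidentity element of L of order prime to p acts on V without nonidentity fixed points; and C_V(S) and V/C_V(S) are irreducible for N_L(S): the only N_L(S)-invariant subgroups of C_V(S) are 1 and C_V(S), and the only N_L(S)-invariant subgroups between C_V(S) and V are those two. -/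
theorem result {G : Type*} [Group G] [Finite G] {p : ℕ} [Fact p.Prime] {F : Type*} [Field F] [Fintype F] (n : ℕ) (hF : Fintype.card F = p ^ n) (V L : Subgroup G) (hnat : Cfsg.IsNaturalSL2Module F V L) (hf : L ⊓ Subgroup.centralizer (V : Set G) = ⊥) (S : Sylow p ↥L) (T : Subgroup G) (hT : T = ((S : Subgroup ↥L).map L.subtype)) : (∀ g ∈ L, g ∉ Subgroup.normalizer (T : Set G) → Cfsg.IsInternalDirectProduct (V ⊓ Subgroup.centralizer ((T : Subgroup G) : Set G)) (V ⊓ Subgroup.centralizer ((T.map (MulAut.conj g).toMonoidHom : Subgroup G) : Set G)) V) ∧ (∀ x ∈ L, x ≠ 1 → (orderOf x).Coprime p → (V ⊓ Subgroup.centralizer ({x} : Set G)) = ⊥) ∧ (∀ U : Subgroup G, U ≤ (V ⊓ Subgroup.centralizer ((T : Subgroup G) : Set G)) → L ⊓ Subgroup.normalizer (T : Set G) ≤ Subgroup.normalizer (U : Set G) → U = ⊥ ∨ U = (V ⊓ Subgroup.centralizer ((T : Subgroup G) : Set G))) ∧ (∀ U : Subgroup G, (V ⊓ Subgroup.centralizer ((T : Subgroup G) : Set G)) ≤ U → U ≤ V → L ⊓ Subgroup.normalizer (T :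 Set G) ≤ Subgroup.normalizer (U : Set G) → U = (V ⊓ Subgroup.centralizer ((T : Subgroup G) : Set G)) ∨ U = V) := by
  obtain ⟨D₀⟩ := isNaturalSL2Module_iff.1 hnat
  haveI : CharP F p := charP_of_card hF
  have hS : IsSylowIn p T L := hT ▸ isSylowIn_map_subtype S
  obtain ⟨D, hD⟩ := D₀.exists_upper_sylow hS
  have hfix := D.fix_eq hS.le hD.le (hD ▸ upU_ne_bot)
  have hk : D.ker = ⊥ := D.ker_eq.trans hf
  have hb : ∀ e ∈ L, D.φ e ∈ borel F → e ∈ normalizer (T : Set G) := fun e he h =>
    D.mem_normalizer_of_borel hS.le (hk.le.trans bot_le) hD he h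
  have hB : borel F ≤ D.img (L ⊓ normalizer (T : Set G)) := fun g hg => by
    obtain ⟨e, he, rfl⟩ := D.φ_surj g trivial
    exact D.φ_mem_img he ⟨he, hb e he hg⟩
  obtain ⟨x₀, hx₀, hx₁⟩ := D.exists_not_mem_fix
  obtain ⟨y₀, hy₀, hy₁⟩ := D.exists_mem_fix
  refine ⟨fun g hg hn => ?_, fun x hx h1 hc => ?_, fun U hU hn => ?_, fun U h1 h2 hn => ?_⟩
  · have hg' : D.φ g ∉ borel F := fun h => hn (hb g hg h)
    have e : V ⊓ centralizer ((T.map (MulAut.conj g).toMonoidHom : Subgroup G) : Set G) =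
        conjS g D.fix := by
      rw [hfix, conjS_inf, conjS_centralizer, mem_normalizer_iff_conjS.1 (D.norm hg)]; rfl
    rw [e, ← hfix]
    refine ⟨D.fix_le, D.conjS_fix_le hg, fun a ha b hb => ?_, D.fix_inf_conjS hg hg',
      D.fix_sup_conjS hg hg'⟩
    have := D.commutator_mem (D.fix_le ha) (D.conjS_fix_le hg hb)
    rwa [mem_bot, commutatorElement_eq_one_iff_mul_comm] at this
  · rw [eq_bot_iff]
    rintro v ⟨hv, hvc⟩
    by_contra hv1
    have h2 : act (D.φ x) (D.π v) = D.π v := (D.act_eq_iff hx hv).2 (by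
      rw [mem_bot, commutatorElement_eq_one_iff_mul_comm]
      exact (mem_centralizer_singleton_iff.1 hvc).symm)
    have h3 := pow_eq_one_of_act_eq (p := p) (fun h0 => hv1 ((D.π_eq_zero v hv).1 h0)) h2
    rw [← D.φ_pow hx] at h3
    have h4 : x ^ p = 1 := by simpa [hk] using D.mem_ker.2 ⟨pow_mem hx p, h3⟩
    exact h1 (orderOf_eq_one_iff.1 (Nat.Coprime.eq_one_of_dvd hc (orderOf_dvd_of_pow_eq_one h4)))
  · rw [← hfix] at hU ⊢
    rcases D.borel_cases hB bot_le (hU.trans D.fix_le) hn with h | h | h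
    exacts [Or.inl h, Or.inr h, absurd (hU (h ▸ hx₀)) hx₁]
  · rw [← hfix] at h1 ⊢
    rcases D.borel_cases hB bot_le h2 hn with h | h | h
    exacts [absurd (h ▸ h1 hy₀) hy₁, Or.inl h, Or.inr h]

end Cfsg.Agent.S2780
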