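import Cfsg.Statements.S2787
import Cfsg.Agent.Lib.Ree.Local
import Cfsg.Agent.Lib.Ree.Twisted
import Cfsg.Agent.Lib.SL2.PSL
import Cfsg.Agent.Lib.PStab.Stable
import Cfsg.Agent.Lib.PLocal.QuadSep

set_option autoImplicit false
open Cfsg

namespace Cfsg.Agent.S2787

open CfsgLib CfsgLib.SL2 Matrix MatrixGroups Subgroup
open scoped commutatorElement

theorem psl {F : Type*} [Field F] [Fintype F] {p n : ℕ} (hp : p.Prime) (hF : Fintype.card F = p ^ n)
    {x : PSL(2, F)} (h1 : x ≠ 1) (hx : x ^ p = 1) :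
    ∃ c : PSL(2, F), x * (c * x * c⁻¹) * x ≠ 1 ∧ (x * (c * x * c⁻¹) * x) ^ 2 = 1 := by
  obtain ⟨g, rfl⟩ := pm_surjective x
  have hn : n ≠ 0 := by rintro rfl; exact Fintype.one_lt_card.ne' (hF.trans (pow_zero p))
  have hd : p ∣ Fintype.card F := hF ▸ dvd_pow_self p hn
  have key : ∀ k, ¬ p ∣ k → g ^ k ≠ 1 := fun k hk e => h1
    ((pow_eq_one_iff_of_coprime ((Nat.Prime.coprime_iff_not_dvd hp).2 hk)).1 ⟨hx, by rw [← map_pow, e, map_one]⟩)
  rcases types g with h | ⟨z, b, hz, hb, h⟩ | ⟨a, -, h⟩ | h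
  · exact absurd (pm_eq_one_iff.2 h) h1
  · obtain ⟨k, rfl⟩ := isConj_iff.1 h
    let w : SL(2, F) := mk2 0 b (-b⁻¹) 0 (by field_simp; ring)
    have e : uu b * (w * uu b * w⁻¹) * uu b = w := by
      apply ext2 <;> simp [w, mul_ap, inv_00, inv_01, inv_10, inv_11, hb]
    have e' : pm (k * (z * uu b) * k⁻¹) * (pm (k * w * k⁻¹) * pm (k * (z * uu b) * k⁻¹) * (pm (k * w * k⁻¹))⁻¹) *
        pm (k * (z * uu b) * k⁻¹) = pm k * pm w * (pm k)⁻¹ := by
      conv_rhs => rw [← e]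
      simp only [map_mul, map_inv, pm_eq_one_iff.2 hz]
      group
    refine ⟨pm (k * w * k⁻¹), ?_, ?_⟩
    · rw [e']
      exact Ree.conj_ne_one fun h => hb (pm_eq_one_iff.1 h).1
    · rw [e', conj_pow, ← map_pow, pm_eq_one_iff.2 (show IsScal (w ^ 2) by
        refine ⟨?_, ?_, ?_⟩ <;> simp [w, pow_two, mul_ap, hb])]
      simp
  · exact absurd (split_pow_card h) (key _ fun e => hp.one_lt.ne' (Nat.dvd_one.1
      ((Nat.dvd_add_right e).1 (by rwa [Nat.sub_add_cancel Fintype.card_pos]))))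
  · exact absurd h.pow_card (key _ fun e => hp.one_lt.ne' (Nat.dvd_one.1 ((Nat.dvd_add_right hd).1 e)))

variable {G : Type*} [Group G] [Finite G] {p : ℕ} [hp : Fact p.Prime] {V H : Subgroup G}
  {Q : Type*} [Group Q] (f : H →* Q)

theorem of_invol (hp2 : p ≠ 2) (hV : IsElementaryAbelian p V) (hH : H ≤ normalizer (V : Set G))
    (hk : ∀ x : H, f x = 1 ↔ (x : G) ∈ centralizer (V : Set G)) {a b : H}
    (hqa : ⁅⁅V, zpowers (a : G)⁆, zpowers (a : G)⁆ = ⊥) (hqb : ⁅⁅V, zpowers (b : G)⁆, zpowers (b : G)⁆ = ⊥)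
    (h1 : f a * f b * f a ≠ 1) (h2 : (f a * f b * f a) ^ 2 = 1) : False := by
  have ha : (a : G) ∈ closure ({(a : G), (b : G)} : Set G) := subset_closure (Set.mem_insert _ _)
  have hb : (b : G) ∈ closure ({(a : G), (b : G)} : Set G) := subset_closure (Set.mem_insert_of_mem _ rfl)
  rw [← map_mul, ← map_mul] at h1 h2
  obtain ⟨μ, -, φ, e1, e2, -, e3⟩ := PLocal.exists_hom_SL2_of_quadratic hV (hH a.2) (hH b.2) hqa hqb
    (mul_mem (mul_mem ha hb) ha) fun k h => h1 ((pow_eq_one_iff_of_coprime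
      (((Nat.coprime_primes Nat.prime_two hp.out).2 hp2.symm).pow_right k)).1
      ⟨h2, by rw [← map_pow]; exact (hk _).2 h⟩)
  have e4 := e3 ((⟨a, ha⟩ * ⟨b, hb⟩ * ⟨a, ha⟩) ^ 2) ((hk ((a * b * a) ^ 2)).1 (by rwa [map_pow]))
  rw [map_pow, map_mul, map_mul, e1, e2, pow_two, sq_eq_one_iff_isScal] at e4
  · have := e4.2.1
    simp [mul_ap, PLocal.coe_upperSL, PLocal.coe_lowerSL] at this
  · intro h
    exact hp2 ((Nat.prime_dvd_prime_iff_eq hp.out Nat.prime_two).1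
      ((CharP.cast_eq_zero_iff (AlgebraicClosure (ZMod p)) p 2).1 h))

theorem mem_pCore (hp2 : p ≠ 2) (hV : IsElementaryAbelian p V) (hH : H ≤ normalizer (V : Set G))
    (hf : Function.Surjective f) (hk : ∀ x : H, f x = 1 ↔ (x : G) ∈ centralizer (V : Set G))
    (hS : ∀ T : Sylow 2 Q, IsMulCommutative T) {a : H}
    (hq : ⁅⁅V, zpowers (a : G)⁆, zpowers (a : G)⁆ = ⊥) : f a ∈ pCore p Q := by
  have : Finite Q := Finite.of_surjective f hf
  apply PStab.mem_pCore_of_forall_conj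
  intro g
  obtain ⟨g, rfl⟩ := hf g
  have hle : closure ({(a : G), (g : G) * a * (g : G)⁻¹} : Set G) ≤ H := by
    rw [closure_le]
    rintro x (rfl | rfl)
    exacts [a.2, (g * a * g⁻¹).2]
  rw [Core.isPGroup_subgroup_iff]
  intro y hy
  have e : closure ({f a, f g * f a * (f g)⁻¹} : Set Q) = (closure ({a, g * a * g⁻¹} : Set H)).map f := by
    rw [MonoidHom.map_closure, Set.image_pair, map_mul, map_mul, map_inv]
  rw [e] at hy
  obtain ⟨x, hx, rfl⟩ := hy
  have hx' : (x : G) ∈ closure ({(a : G), (g : G) * a * (g : G)⁻¹} : Set G) := by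
    have := mem_map_of_mem H.subtype hx
    rwa [MonoidHom.map_closure, Set.image_pair] at this
  by_contra hcon
  push Not at hcon
  obtain ⟨j, hj⟩ := PStab.exists_coprime_orderOf_pow (p := p) (x : G)
  have hh' := pow_mem hx' (p ^ j)
  obtain ⟨μ, -, φ, h1, h2, h3, h4⟩ := PLocal.exists_hom_SL2_of_quadratic hV (hH a.2) (hH (g * a * g⁻¹).2) hq
    (PStab.quad_conj (hH g.2) hq) hh' fun k h => hcon (j + k) (by
      rw [← map_pow, hk, pow_add, pow_mul]; exact h)
  let f' := (f.comp (inclusion hle)).rangeRestrict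
  have hf' : Function.Surjective f' := MonoidHom.rangeRestrict_surjective _
  let ψ := MonoidHom.liftOfSurjective f' hf' ⟨φ, fun y hy => h4 y ((hk _).1 (congrArg Subtype.val hy))⟩
  have hψ : ∀ y, ψ (f' y) = φ y := fun y => MonoidHom.liftOfRightInverse_comp_apply _ _ _ _ _
  obtain ⟨k, hk'⟩ := PStab.rep2_pow_eq_one_of_unipotent_gens p hp2
    ((Matrix.SpecialLinearGroup.coeMonoidHom).comp ψ) (PStab.sylow_comm_of_injective (subtype_injective _) hS)
    (s := f' '' _) (by rw [← MonoidHom.map_closure, PLocal.closure_pair_subtype_eq_top, map_top_of_surjective _ hf'])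
    (by
      rintro _ ⟨x, rfl | rfl, rfl⟩
      · rw [MonoidHom.comp_apply, hψ, h1]
        ext i j
        fin_cases i <;> fin_cases j <;> simp [Matrix.mul_apply, Fin.sum_univ_two, PLocal.coe_upperSL]
      · rw [MonoidHom.comp_apply, hψ]
        erw [h2]
        ext i j
        fin_cases i <;> fin_cases j <;> simp [Matrix.mul_apply, Fin.sum_univ_two, PLocal.coe_lowerSL])
    (f' ⟨_, hh'⟩)
  apply h3
  rw [MonoidHom.comp_apply, hψ] at hk'
  have hk' : φ ⟨_, hh'⟩ ^ p ^ k = 1 := Subtype.ext (by simpa using hk')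
  have ho : φ ⟨_, hh'⟩ ^ orderOf ((x : G) ^ p ^ j) = 1 := by
    rw [← map_pow, ← map_one φ]
    congr 1
    exact Subtype.ext (pow_orderOf_eq_one _)
  exact (pow_eq_one_iff_of_coprime (hj.pow_right k)).mp ⟨ho, hk'⟩

theorem exists_hom [((centralizer (V : Set G)).subgroupOf H).Normal]
    (e : ↥H ⧸ (centralizer (V : Set G)).subgroupOf H ≃* Q) : ∃ f : H →* Q, Function.Surjective f ∧
      ∀ x : H, f x = 1 ↔ (x : G) ∈ centralizer (V : Set G) :=
  ⟨e.toMonoidHom.comp (QuotientGroup.mk' _), e.surjective.comp (QuotientGroup.mk'_surjective _),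
    fun x => (map_eq_one_iff _ e.injective).trans (QuotientGroup.eq_one_iff x)⟩

/-- Let p be a prime and let H act by conjugation on the elementary abelian p-subgroup V of a finite group, irreducibly (no H-invariant subgroups of V other than 1 and V) and nontrivially, and suppose H/C_H(V) is isomorphic to PSL₂(F) for a field F with p^n elements, p^n odd, or p = 3 and H/C_H(V) is isomorphic to a Ree group ²G₂(3^(2m+1)), m ≥ 1. Then no subgroup A of H acting nontrivially on V acts quadratically: [V, A, A] = 1 forces [V, A] = 1. -/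
theorem result {G : Type*} [Group G] [Finite G] {p : ℕ} [Fact p.Prime] (V H : Subgroup G) (hV : Cfsg.IsElementaryAbelian p V) (hHV : H ≤ Subgroup.normalizer (V : Set G)) (hirr : ∀ U : Subgroup G, U ≤ V → H ≤ Subgroup.normalizer (U : Set G) → U = ⊥ ∨ U = V) (hnt : ¬ H ≤ Subgroup.centralizer (V : Set G)) [hn : ((Subgroup.centralizer (V : Set G)).subgroupOf H).Normal] (hq : (∃ (F : Type) (_ : Field F) (_ : Fintype F) (n : ℕ), Fintype.card F = p ^ n ∧ Odd (Fintype.card F) ∧ Nonempty (↥H ⧸ (Subgroup.centralizer (V : Set G)).subgroupOf H ≃* Matrix.ProjectiveSpecialLinearGroup (Fin 2) F)) ∨ (p = 3 ∧ Cfsg.Lie.IsoRee (↥H ⧸ (Subgroup.centralizer (V : Set G)).subgroupOf H))) (A : Subgroup G) (hA : A ≤ H) (hquad : ⁅⁅V, A⁆, A⁆ = ⊥) : ⁅V, A⁆ = ⊥ := by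
  rw [commutator_comm, commutator_eq_bot_iff_le_centralizer]
  intro a ha
  have hqa : ⁅⁅V, zpowers a⁆, zpowers a⁆ = ⊥ :=
    le_bot_iff.1 (hquad ▸ commutator_mono (commutator_mono le_rfl (zpowers_le.2 ha)) (zpowers_le.2 ha))
  by_contra hc
  rcases hq with ⟨F, _, _, n, hF, ho, ⟨e⟩⟩ | ⟨rfl, K, _, _, m, hm, hK, ⟨e⟩⟩
  all_goals
    obtain ⟨f, hf, hk⟩ := exists_hom e
  · obtain ⟨c, h1, h2⟩ := psl (Fact.out : p.Prime) hF (x := f ⟨a, hA ha⟩) (fun h => hc ((hk _).1 h))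
      (by rw [← map_pow, hk]; exact PLocal.pow_mem_centralizer_of_quadratic hV (hHV (hA ha)) hqa)
    obtain ⟨c, rfl⟩ := hf c
    rw [← map_inv, ← map_mul f c, ← map_mul f (c * _)] at h1 h2
    have hqb : ⁅⁅V, zpowers ((c * ⟨a, hA ha⟩ * c⁻¹ : H) : G)⁆, zpowers ((c * ⟨a, hA ha⟩ * c⁻¹ : H) : G)⁆ = ⊥ :=
      PStab.quad_conj (hHV c.2) hqa
    refine of_invol f ?_ hV hHV hk (a := ⟨a, hA ha⟩) hqa hqb h1 h2
    rintro rfl
    rw [hF] at ho
    rcases n with _ | n
    · exact Fintype.one_lt_card.ne' hF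
    · exact absurd ((Nat.odd_pow_iff n.succ_ne_zero).1 ho) (by decide)
  · have := Ree.charP_three hK
    have hφ := Ree.isTits_tits hK
    have M := Ree.reeModel hK
    have := M.isSimpleGroup hφ hφ.sq (by
      rw [Ree.natCard_eq hK]
      exact lt_of_lt_of_le (by norm_num) (Nat.pow_le_pow_right three_pos (show 2 ≤ 2 * m + 1 by omega)))
    have h := mem_pCore f (by norm_num) hV hHV hf hk
      (fun T => ⟨⟨fun x y => Subtype.ext (M.comm_of_isPGroup_two hφ T.isPGroup' x.2 y.2)⟩⟩) (a := ⟨a, hA ha⟩) hqa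
    rcases (Cfsg.pCore_normal 3 ↥(Cfsg.Lie.twistedG2 K (3 ^ m))).eq_bot_or_eq_top with h' | h'
    · rw [h', mem_bot, hk] at h
      exact hc h
    · obtain ⟨k, hk⟩ := Core.isPGroup_pCore 3 _ ⟨M.z, h' ▸ mem_top _⟩
      exact M.z_ne_one ((pow_eq_one_iff_of_coprime ((show Nat.Coprime 2 3 by norm_num).pow_right k)).1
        ⟨by rw [pow_two, M.z_mul_z], congrArg Subtype.val hk⟩)

end Cfsg.Agent.S2787
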