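import Mathlib
import Cfsg.Statements.S2794
import Cfsg.Agent.Lib.ZJ.QdInvolve
import Cfsg.Agent.Lib.ZJ.QdChar

set_option autoImplicit false
open Cfsg

namespace Cfsg.Agent.S2794

/-- For an odd prime p and a finite group G, the group Qd(p) is not involved in G if and only if in every section K/R of G, for every Sylow p-subgroup S* of K/R, the centre of J(S*) (J generated by the abelian subgroups of largest order) controls strong fusion in K/R. -/
theorem result {G : Type*} [Group G] [Finite G] {p : ℕ} [Fact p.Prime] (hp : p ≠ 2) : ¬ Cfsg.Involves ↥(Cfsg.qd p) G ↔ ∀ (K R : Subgroup G) [hR : (R.subgroupOf K).Normal], ∀ T : Sylow p (K ⧸ R.subgroupOf K), Cfsg.ControlsStrongFusion p (Cfsg.centerThompsonAOf (T : Subgroup (K ⧸ R.subgroupOf K))) := by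
  open CfsgLib.ZJ CfsgLib.CFun CfsgLib.Tech in
  refine ⟨fun h K R _ T => ⟨T, zj_zero T.1 ▸ zj_le _, ?_⟩, fun h =>
    (isSubFunctor_zj (p := p) (Or.inl rfl)).not_involves_qd fun K R _ T => zj_zero T.1 ▸ h K R T⟩
  rw [← zj_zero]
  exact FusGen.controlsStrongFusionOf (fusGen_zj hp (Or.inl rfl) (fun X _ _ hX =>
    quadStable_of_not_involves_qd hp fun h' => h (involves_trans h' (involves_trans hX (involves_section K R))))
    (IsSylowIn.of_sylow_top T) (isStronglyClosed_self _))

end Cfsg.Agent.S2794
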