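import Cfsg.Statements.S2799
import Cfsg.Agent.Lib.Fusion.Agemo

set_option autoImplicit false
open Cfsg

namespace Cfsg.Agent.S2799

open CfsgLib.Fusion

/-- Let S be a Sylow p-subgroup of the finite group G, J(S) the subgroup generated by the abelian subgroups of S of largest order, and x an element of S lying in the centre of N_G(J(S)). Assume that p is odd, or that x is a p-th power of an element of Z(S), or that the symmetric group of degree 4 is not involved in G. Then x is weakly closed in S with respect to G: every G-conjugate of x that lies in S equals x. -/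
theorem result {G : Type*} [Group G] [Finite G] {p : ℕ} [Fact p.Prime] (S : Sylow p G) (x : G) (hxS : x ∈ (S : Subgroup G)) (hxZ : x ∈ (Subgroup.center ↥(Subgroup.normalizer ((Cfsg.thompsonSubgroupAOf (S : Subgroup G)) : Set G))).map (Subgroup.normalizer ((Cfsg.thompsonSubgroupAOf (S : Subgroup G)) : Set G)).subtype) (h : p ≠ 2 ∨ (∃ z ∈ (S : Subgroup G) ⊓ Subgroup.centralizer ((S : Subgroup G) : Set G), z ^ p = x) ∨ ¬ Cfsg.Involves (Equiv.Perm (Fin 4)) G) : ∀ g : G, g * x * g⁻¹ ∈ (S : Subgroup G) → g * x * g⁻¹ = x := by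
  intro g hg
  have hS := S.isPGroup'
  have hF := groupFusion_saturated S
  have hW := fFunctor_thompsonA (p := p)
  obtain ⟨⟨x, hxN⟩, hx, rfl⟩ := hxZ
  have hn : (S : Subgroup G) ≤ Subgroup.normalizer (thompsonSubgroupAOf (S : Subgroup G) : Set G) :=
    Subgroup.le_normalizer.trans (hW.le_normalizer hS)
  have := finite_normalizerIn (S : Subgroup G) (thompsonSubgroupAOf (S : Subgroup G))
  have h1 : x ∈ (normSys (groupFusionSystem (S : Subgroup G)) _ (hW.le (S : Subgroup G))).center := by
    refine le_center (isCentral_of_fixed (hS.to_le inf_le_left) (normSys_saturated hS hF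
      (fullyNormalized_of_le_normalizer (hW.le _) hn)) (Subgroup.zpowers_le.2 ⟨hxS, hxN⟩)
      fun P f hf y hy hyx => ?_) (Subgroup.mem_zpowers x)
    obtain ⟨-, f', hf', e, e'⟩ := (mor_normSys _).1 hf
    obtain ⟨-, -, k, hk⟩ := mor_group_iff.1 hf'
    have hkN : k ∈ Subgroup.normalizer (thompsonSubgroupAOf (S : Subgroup G) : Set G) :=
      mem_normalizer_of_img_conj ((img_congr fun a ha => (hk a (Subgroup.mem_sup_right ha)).symm).trans e')
    obtain ⟨j, rfl⟩ := hyx
    have h2 : Commute k x := congrArg Subtype.val (Subgroup.mem_center_iff.1 hx ⟨k, hkN⟩)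
    rw [← e _ hy, hk _ (Subgroup.mem_sup_left hy)]
    exact mul_inv_eq_iff_eq_mul.2 (h2.zpow_right j).eq
  have h2 : x ∈ (groupFusionSystem (S : Subgroup G)).center := by
    rcases h with h | ⟨z, hz, e⟩ | h
    · exact center_normSys_thompsonA_le hS hF (.inl h) h1
    · exact hW.agZ_inf_center_le quad_thompsonA hS hF
        ⟨closure_pow_eq_agZ (p := p) (S : Subgroup G) ▸ Subgroup.subset_closure ⟨z, hz, e⟩, h1⟩
    · by_cases hp : p = 2
      · subst hp
        exact center_normSys_thompsonA_le hS hF (.inr fun h' => h (involves_perm_iff.2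
          (((affType_qd 2).involves_iff_fSec (groupFusion_isRealizedBy _)
            (sylIn_range_subtype (sylIn_top S))).2 h'))) h1
      · exact center_normSys_thompsonA_le hS hF (.inl hp) h1
  refine Mor.eq_of_isCentral (P := Subgroup.zpowers x) (f := fun y => g * y * g⁻¹) (mor_group_iff.2
    ⟨Subgroup.zpowers_le.2 hxS, ?_, g, fun _ _ => rfl⟩) (isCentral_center _) (Subgroup.mem_zpowers x) h2
  rintro _ ⟨j, rfl⟩
  have h3 := Subgroup.zpow_mem _ hg j
  rwa [conj_zpow] at h3

end Cfsg.Agent.S2799
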