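import Cfsg.Statements.S2808
import Cfsg.Agent.Lib.GN.Main

set_option autoImplicit false
universe u
open Cfsg

namespace Cfsg.Agent.S2808

open CfsgLib CfsgLib.GN

/-- Let p be a prime and S a finite p-group with J(S) generated by the abelian subgroups of largest order, Z(J(S)) its centre and J̃(S) = C_S(Z(J(S))). Put S₀ = [Φ(S), S]·Φ(Φ(S)) if p = 2, S₀ = [[Φ(S), S], S]·Φ(Φ(S)) if p = 3, and S₀ = [Φ(S), S]·℧¹(S) if p > 3. If [Z(J(S)), S] ≠ 1 or S₀ ≠ 1, then S has nontrivial characteristic subgroups S₁ ≤ Z(S) and S₂ ≤ J̃(S), with S₂ characteristic in J̃(S), such that in every finite group G containing S as a Sylow p-subgroup with C_G(O_p(G)) ≤ O_p(G), S in exactly one maximal subgroup of G, and G/K ≅ PSL₂(p^n) for some normal K and n ≥ 1, at least one of S₁, S₂ is normal. -/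
theorem result {S : Type u} [Group S] [Finite S] {p : ℕ} [Fact p.Prime] (hS : IsPGroup p S) (S₀ : Subgroup S) (hS₀ : S₀ = if p = 2 then ⁅frattini S, (⊤ : Subgroup S)⁆ ⊔ (frattini ↥(frattini S)).map (frattini S).subtype else if p = 3 then ⁅⁅frattini S, (⊤ : Subgroup S)⁆, (⊤ : Subgroup S)⁆ ⊔ (frattini ↥(frattini S)).map (frattini S).subtype else ⁅frattini S, (⊤ : Subgroup S)⁆ ⊔ Cfsg.powerClosure p 1 (⊤ : Subgroup S)) (h : ⁅Cfsg.thompsonSubgroupA S ⊓ Subgroup.centralizer (Cfsg.thompsonSubgroupA S : Set S), (⊤ : Subgroup S)⁆ ≠ ⊥ ∨ S₀ ≠ ⊥) : ∃ S₁ S₂ : Subgroup S, S₁ ≠ ⊥ ∧ S₂ ≠ ⊥ ∧ S₁.Characteristic ∧ S₂.Characteristic ∧ S₁ ≤ Subgroup.center S ∧ S₂ ≤ Subgroup.centralizer ((Cfsg.thompsonSubgroupA S ⊓ Subgroup.centralizer (Cfsg.thompsonSubgroupA S : Set S) : Subgroup S) : Set S) ∧ (S₂.subgroupOf (Subgroup.centralizer ((Cfsg.thompsonSubgroupA S ⊓ Subgroup.centralizer (Cfsg.thompsonSubgroupA S : Set S)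 : Subgroup S) : Set S))).Characteristic ∧ ∀ (G : Type u) [Group G] [Finite G] (τ : S →* G), Function.Injective τ → (∃ P : Sylow p G, (P : Subgroup G) = τ.range) → Subgroup.centralizer (Cfsg.pCore p G : Set G) ≤ Cfsg.pCore p G → (∃! M : Subgroup G, IsCoatom M ∧ τ.range ≤ M) → (∃ (K : Subgroup G) (_ : K.Normal) (F : Type) (_ : Field F) (_ : Fintype F) (n : ℕ), 1 ≤ n ∧ Fintype.card F = p ^ n ∧ Nonempty (G ⧸ K ≃* Matrix.ProjectiveSpecialLinearGroup (Fin 2) F)) → (S₁.map τ).Normal ∨ (S₂.map τ).Normal := by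
  haveI : Nontrivial S := by
    by_contra hn
    haveI := not_nontrivial_iff_subsingleton.1 hn
    exact h.elim (fun h => h (Subsingleton.elim _ _)) fun h => h (Subsingleton.elim _ _)
  obtain ⟨S₁, S₂, hp, -⟩ := exists_pair hS fun he => by
    refine h.elim (fun h => h ?_) fun h => h ?_
    · rw [he.2.1, Subgroup.commutator_eq_bot_iff_le_centralizer]
      exact inf_le_right
    · rw [hS₀, ← (sZero_eq_bot_iff hS).2 he.2.2.2.1, sZero, phi_top]
  refine ⟨S₁, S₂, hp.ne₁, hp.ne₂, hp.ch₁, hp.ch₂, hp.le₁, hp.le₂, hp.ch₃, ?_⟩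
  rintro G _ _ τ hτ ⟨P, hP⟩ h1 h2 ⟨K, _, F, _, _, n, -, hF, h3⟩
  rw [← hP] at h2
  obtain ⟨M, H, -⟩ := Push.exists_PU_of_psl (LAE.isSylowIn_top P) h1 h2 K hF h3
  rw [hP, MonoidHom.range_eq_map] at H
  exact (hp.good G τ M hτ H).imp LAE.normal_of_top_le LAE.normal_of_top_le

end Cfsg.Agent.S2808
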