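import Cfsg.Statements.S2856
import Cfsg.Agent.Lib.LocStr.VIter

set_option autoImplicit false
open Cfsg

namespace Cfsg.Agent.S2856

open CfsgLib.LAE CfsgLib.LocStr Subgroup MulAction

/-- Let (M₁, M₂) be an amalgam pair in X satisfying the rank-two standing hypothesis (characteristic p, the normalizers in M₁ and in M₂ of a Sylow p-subgroup of M₁ ∩ M₂ equal and contained in M₁ ∩ M₂, and strongly p-embedded residues), λ a vertex of the coset graph, L_λ the subgroup of its stabilizer generated by the p-elements, Q_λ = O_p of the stabilizer, O^p(L_λ) the subgroup of L_λ generated by its elements of order prime to p, and V_λ^{(k)} the subgroup generated by the Z_μ over the vertices μ at distance at most k from λ (Z_μ being generated by the Ω₁(Z(S)), S a Sylow p-subgroup of the stabilizer of μ). If n ≥ 1 and V_λ^{(n)} ≤ Q_λ, then O^p(L_λ) does not centralize V_λ^{(n)}/[V_λ^{(n)}, Q_λ], that is, [V_λ^{(n)}, O^p(L_λ)] is not contained in [V_λ^{(n)}, Q_λ]. -/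
theorem result {X : Type*} [Group X] {p : ℕ} [Fact p.Prime] (M₁ M₂ : Subgroup X) (h : Cfsg.IsSpeAmalgamPair p M₁ M₂) (lam : Cfsg.CosetVertex M₁ M₂) (n : ℕ) (hn : 1 ≤ n) (V : Subgroup X) (hV : V = Cfsg.vertexVIter p M₁ M₂ n lam) (hVQ : V ≤ Cfsg.vertexQ p lam) : ¬ ⁅V, ((Cfsg.pResidual p ↥(Cfsg.pElementClosure p (MulAction.stabilizer X lam))).map (Cfsg.pElementClosure p (MulAction.stabilizer X lam)).subtype)⁆ ≤ ⁅V, Cfsg.vertexQ p lam⁆ := by
  intro hle
  obtain ⟨m, rfl⟩ := Nat.exists_eq_add_of_le' hn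
  obtain ⟨μ, hμ⟩ := exists_adj lam
  have hgen := h.1.1.1
  have hP := IsCharPAmalgamPair.charPPair h.1 hμ
  have := hP.finite_left
  have := finite_of_le (pCoreOf_le (p := p) (stabilizer X lam))
  have hZ : vertexZ p lam ≤ V := hV ▸ vertexZ_le_vIter (by simp)
  have hW : vertexVIter p M₁ M₂ m μ ≤ V := hV ▸ vIter_le_succ hgen hμ
  have hnV : stabilizer X lam ≤ normalizer (V : Set X) := hV ▸ le_normalizer_vIter hgen _ _
  have hnC : stabilizer X lam ≤ normalizer ((⁅V, vertexQ p lam⁆ : Subgroup X) : Set X) :=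
    le_normalizer_commutator hnV (le_normalizer_pCoreOf _)
  have hCV : ⁅V, vertexQ p lam⁆ ≤ V :=
    commutator_le_left_of_le_normalizer ((pCoreOf_le _).trans hnV)
  have hn1 : stabilizer X lam ≤
      normalizer ((vertexVIter p M₁ M₂ m μ ⊔ ⁅V, vertexQ p lam⁆ : Subgroup X) : Set X) :=
    speAmal_stabilizer_le h hμ (le_normalizer_iff_commutator_le_left.2
      ((commutator_mono (sup_le hW hCV) le_rfl).trans (hle.trans le_sup_right)))
      (le_normalizer_sup (inf_le_right.trans (le_normalizer_vIter hgen m μ)) (inf_le_left.trans hnC))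
  have hQμ : vertexQ p lam ≤ normalizer (vertexVIter p M₁ M₂ m μ : Set X) :=
    hP.pCoreOf_le.trans (le_normalizer_vIter hgen m μ)
  have hQZ : vertexZ p lam ≤ centralizer (vertexQ p lam : Set X) :=
    hP.charP_left.pRedIn_sylowCenterClosure.le_omegaZ_pCoreOf.trans (omegaZ_le_centralizer _)
  have h1 : V ≤ vertexVIter p M₁ M₂ m μ ⊔ vertexZ p lam := by
    refine le_of_le_sup_commutator (isPGroup_pCoreOf _) hVQ ((pCoreOf_le _).trans hnV)
      (le_normalizer_sup hQμ ((pCoreOf_le _).trans (le_normalizer_sylowCenterClosure _))) ?_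
    nth_rewrite 1 [hV]
    refine vIter_succ_le hgen (le_sup_right.trans le_sup_left) fun ν hν => ?_
    obtain ⟨g, hg, rfl⟩ := exists_smul_eq_of_adj hμ hν
    rw [← conjS_vIter hgen]
    refine (conjS_mono le_sup_left).trans ((mem_normalizer_iff_conjS.1 (hn1 hg)).le.trans ?_)
    exact sup_le_sup_right le_sup_left _
  have h2 : ⁅V, vertexQ p lam⁆ ≤ vertexVIter p M₁ M₂ m μ :=
    (commutator_mono h1 le_rfl).trans (CfsgLib.LAE.commutator_sup_le le_normalizer
      ((hZ.trans hVQ).trans hQμ) (commutator_le_left_of_le_normalizer hQμ)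
      (by rw [commutator_eq_bot_iff_le_centralizer.2 hQZ]; exact bot_le))
  exact not_le_normalizer_vIter h hμ (n := m) (hV ▸ hVQ)
    ((commutator_mono hW le_rfl).trans (hle.trans h2))

end Cfsg.Agent.S2856
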