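import Cfsg.Statements.S2943
import Cfsg.Agent.Lib.ZN.Amb

set_option autoImplicit false
open Cfsg CfsgLib.ZN CfsgLib.LAE

namespace Cfsg.Agent.S2943

/-- Let G be a finite group of characteristic 2 type in which every 2-local subgroup is solvable and the centralizer of Ω₁(Z(S)) lies in N_G(S) for every Sylow 2-subgroup S, and let T be a nontrivial 2-subgroup (below, J is the Thompson subgroup generated by the elementary abelian 2-subgroups of largest order), L a subgroup in which T is a Sylow 2-subgroup with J(T) not contained in O₂(L) and C_G(O₂(L)) ≤ O₂(L), and K a J(T)-component contained in L. If Z(T) meets W_K = [Ω₁(Z(O₂(K))), K] nontrivially, then T normalizes K. -/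
theorem result {G : Type*} [Group G] [Finite G] (hL : Cfsg.IsCharacteristicTwoType G) (hN : ∀ N : Subgroup G, Cfsg.IsTwoLocal N → Group.IsSolvable ↥N)
    (hZ : ∀ S : Sylow 2 G, Subgroup.centralizer (Cfsg.omegaCenterOf (S : Subgroup G) : Set G) ≤ Subgroup.normalizer ((S : Subgroup G) : Set G)) (T : Subgroup G) (hT : IsPGroup 2 ↥T) (hT1 : T ≠ ⊥) (L : Subgroup G) (hLT : L ∈ Cfsg.jOvergroups T)
    (K : Subgroup G) (hK : Cfsg.IsJComponent T K) (hKL : K ≤ L)
    (hZW : T ⊓ Subgroup.centralizer (T : Set G) ⊓ Cfsg.wOf K ≠ ⊥) : T ≤ Subgroup.normalizer (K : Set G) := by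
  have h := (⟨hL, hN, hZ⟩ : Hyp G).loc_of_mem hLT
  intro t ht
  refine h.mem_normalizer_of_inf ((isJComponent_iff hT).mp hK) hKL (h.syl.le ht) fun e => hZW ?_
  rw [eq_bot_iff, ← e]
  intro z hz
  obtain ⟨hz1, hz2⟩ := Subgroup.mem_inf.mp hz
  refine Subgroup.mem_inf.mpr ⟨hz2, mem_conjS.mpr ?_⟩
  rw [mul_assoc, ← Subgroup.mem_centralizer_iff.mp (Subgroup.mem_inf.mp hz1).2 t ht,
    inv_mul_cancel_left]
  exact hz2

end Cfsg.Agent.S2943
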