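import Cfsg.Statements.S2950
import Cfsg.Agent.Lib.ZN.Max

set_option autoImplicit false
open Cfsg CfsgLib.ZN CfsgLib.LAE

namespace Cfsg.Agent.S2950

/-- Uniqueness of the maximal 2-local overgroup. Let G be a finite group of characteristic 2 type in which every 2-local subgroup is solvable and the centralizer of Ω₁(Z(S)) lies in N_G(S) for every Sylow 2-subgroup S; suppose O₂(G) = 1, fix a Sylow 2-subgroup S and a 2-local subgroup M containing N_G(J(S)) (J the Thompson subgroup generated by the elementary abelian 2-subgroups of largest order). Let T be maximal (for the order of a largest elementary abelian subgroup, then the order of J(T), then the order of T) among the nontrivial 2-subgroups of M lying in a 2-local subgroup not inside M, and let K be a J(T)-component not contained in M with J(T) the Thompson subgroup of every Sylow 2-subgroup of N_G(W_K) containing J(T), and O₂(⟨K, T⟩) ≠ 1. Then there is exactly one maximal 2-local subgroup L of G containing ⟨K, J(T)⟩; moreover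 K is subnormal in L and T is a Sylow 2-subgroup of L. -/
theorem result {G : Type*} [Group G] [Finite G] (hL : Cfsg.IsCharacteristicTwoType G) (hN : ∀ N : Subgroup G, Cfsg.IsTwoLocal N → Group.IsSolvable ↥N)
    (hZ : ∀ S : Sylow 2 G, Subgroup.centralizer (Cfsg.omegaCenterOf (S : Subgroup G) : Set G) ≤ Subgroup.normalizer ((S : Subgroup G) : Set G)) (hO : Cfsg.pCore 2 G = ⊥) (S : Sylow 2 G) (M : Subgroup G) (hM : Cfsg.IsTwoLocal M)
    (hMJ : Subgroup.normalizer (Cfsg.thompsonSubgroupOf 2 (S : Subgroup G) : Set G) ≤ M) (T : Subgroup G) (hT : T ∈ Cfsg.maxStraddlingTwoSubgroups M)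
    (K : Subgroup G) (hK : K ∈ Cfsg.jComponentsOutside M T) :
    ∃ L : Subgroup G, Cfsg.IsMaximalTwoLocal L ∧ K ⊔ Cfsg.thompsonSubgroupOf 2 T ≤ L ∧
      (∀ L' : Subgroup G, Cfsg.IsMaximalTwoLocal L' → K ⊔ Cfsg.thompsonSubgroupOf 2 T ≤ L' → L' = L) ∧
      (K.subgroupOf L).IsSubnormal ∧ Cfsg.IsSylowTwoIn T L := by
  have h : Str (S : Subgroup G) M T := ⟨⟨hL, hN, hZ⟩, isSylowIn_top S, hMJ, hT⟩
  obtain ⟨hK0, hKM, hKO⟩ := hK
  have hK := ((mem_jComponentsZero_iff h.isPGroup).mp hK0).toJC
  obtain ⟨L, h1, h2, h3⟩ := h.exists_greatest hK hKM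
  have hLM : ¬ L ≤ M := fun e => hKM ((le_sup_left.trans h2).trans e)
  refine ⟨L, ⟨h1, fun N h4 h5 => le_antisymm (h3 N h4 (h2.trans h5)) h5⟩, h2,
    fun L' h4 h5 => (h4.2 L h1 (h3 L' h4.1 h5)).symm,
    (h.subnormalIn hK h1 hLM (le_sup_left.trans h2) (le_sup_right.trans h2)).isSubnormal,
    isSylowTwoIn_iff.mpr (h.isSylowIn h1 hLM ?_)⟩
  have h4 := le_normalizer_pCoreOf (p := 2) (K ⊔ T)
  exact (le_sup_right.trans h4).trans (h3 _ (isTwoLocal_normalizer (isPGroup_pCoreOf _) hKO)
    ((sup_le_sup_left (CfsgLib.PLocal.thompsonSubgroupOf_le T) K).trans h4))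

end Cfsg.Agent.S2950
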