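import Mathlib
import Cfsg.Statements.S3084
import Cfsg.Agent.Lib.ExtraTwo.Classify

set_option autoImplicit false
open Cfsg

namespace Cfsg.Agent.S3084

open Subgroup CfsgLib CfsgLib.ExtraTwo CfsgLib.OrthE

section Rep

variable {E ι : Type} [Group E] [Fintype E] [Fintype ι] [DecidableEq ι] [Nonempty ι] {z : E}
  (h : ES (⊤ : Subgroup E) z) (φ : E →* Matrix ι ι ℝ) (hz : φ z = -1) (hs : ∀ x, star (φ x) = φ x⁻¹)
include h hz

omit [Nonempty ι] in
theorem avg_zero {y : E} (h1 : y ≠ 1) (h2 : y ≠ z) : ∑ x, φ (x * y * x⁻¹) = 0 := by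
  obtain ⟨q, -, e⟩ := h.exists_conj (mem_top y) h1 h2
  have e1 : ∑ x, φ (x * y * x⁻¹) = -∑ x, φ (x * y * x⁻¹) := by
    rw [← Finset.sum_neg_distrib, ← Equiv.sum_comp (Equiv.mulRight q)]
    refine Finset.sum_congr rfl fun x _ => ?_
    rw [Equiv.coe_mulRight, show x * q * y * (x * q)⁻¹ = x * (q * y * q⁻¹) * x⁻¹ by group, e, mul_assoc,
      mul_assoc, ← h.comm_z _ (mem_top _), ← mul_assoc, ← mul_assoc, map_mul, hz, mul_neg_one]
  rw [eq_neg_iff_add_eq_zero, ← two_smul ℝ] at e1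
  exact (smul_eq_zero.1 e1).resolve_left two_ne_zero

omit [Nonempty ι] in
theorem scalar {a : Matrix ι ι ℝ} (ha : a ∈ Submodule.span ℝ (Set.range φ)) (hc : ∀ x, φ x * a = a * φ x) :
    ∃ r : ℝ, a = r • 1 := by
  obtain ⟨r, e⟩ : ∃ r : ℝ, ∑ x, φ x * a * φ x⁻¹ = r • 1 := by
    clear hc
    induction ha using Submodule.span_induction with
    | mem a ha =>
      obtain ⟨y, rfl⟩ := ha
      simp only [← map_mul]
      by_cases h1 : y = 1
      · exact ⟨Fintype.card E, by simp [h1, Nat.cast_smul_eq_nsmul]⟩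
      by_cases h2 : y = z
      · exact ⟨-Fintype.card E, by simp [h2, h.comm_z _ (mem_top _), mul_assoc, hz, Nat.cast_smul_eq_nsmul]⟩
      · exact ⟨0, by rw [avg_zero h φ hz h1 h2, zero_smul]⟩
    | zero => exact ⟨0, by simp⟩
    | add a b _ _ ha hb =>
      obtain ⟨r, e⟩ := ha
      obtain ⟨s, e'⟩ := hb
      exact ⟨r + s, by simp only [mul_add, add_mul, Finset.sum_add_distrib, e, e', add_smul]⟩
    | smul c a _ ha =>
      obtain ⟨r, e⟩ := ha
      exact ⟨c * r, by simp only [mul_smul_comm, smul_mul_assoc, ← Finset.smul_sum, e, mul_smul]⟩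
  simp only [hc, mul_assoc, ← map_mul, mul_inv_cancel, map_one, mul_one, Finset.sum_const, Finset.card_univ] at e
  refine ⟨(Fintype.card E : ℝ)⁻¹ * r, ?_⟩
  rw [mul_smul, ← e, ← Nat.cast_smul_eq_nsmul ℝ, inv_smul_smul₀ (by simp)]

omit [Fintype E] [Nonempty ι] h hz in
theorem span_mul {a b : Matrix ι ι ℝ} (ha : a ∈ Submodule.span ℝ (Set.range φ))
    (hb : b ∈ Submodule.span ℝ (Set.range φ)) : a * b ∈ Submodule.span ℝ (Set.range φ) := by
  have := Submodule.mul_mem_mul ha hb
  rw [Submodule.span_mul_span] at this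
  refine Submodule.span_mono ?_ this
  rintro _ ⟨_, ⟨x, rfl⟩, _, ⟨y, rfl⟩, rfl⟩
  exact ⟨x * y, map_mul φ x y⟩

include hs

omit [Fintype E] [Nonempty ι] h hz in
theorem span_star {a : Matrix ι ι ℝ} (ha : a ∈ Submodule.span ℝ (Set.range φ)) :
    star a ∈ Submodule.span ℝ (Set.range φ) := by
  induction ha using Submodule.span_induction with
  | mem a ha =>
    obtain ⟨y, rfl⟩ := ha
    exact Submodule.subset_span ⟨_, (hs y).symm⟩
  | zero => simp
  | add a b _ _ ha hb => rw [star_add]; exact add_mem ha hb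
  | smul c a _ ha => rw [star_smul]; exact Submodule.smul_mem _ _ ha

theorem intertwine (α : E ≃* E) : ∃ g ∈ Matrix.unitaryGroup ι ℝ, g ∈ Submodule.span ℝ (Set.range φ) ∧
    ∀ w, φ (α w) * g = g * φ w := by
  obtain ⟨x, hx⟩ : ∃ x, ∑ y, φ (α y * x⁻¹ * y⁻¹) ≠ 0 := by
    by_contra hc
    push Not at hc
    have e : ∑ y, (∑ x, φ (x * α y * x⁻¹)) * φ y⁻¹ = 0 := by
      simp only [Finset.sum_mul]
      rw [Finset.sum_comm]
      refine Finset.sum_eq_zero fun x _ => ?_
      rw [← mul_zero (φ x), ← hc x, Finset.mul_sum]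
      simp only [← map_mul, mul_assoc]
    rw [Finset.sum_eq_add_of_mem 1 z (Finset.mem_univ _) (Finset.mem_univ _) h.ne_one.symm fun y _ hy => by
      rw [avg_zero h φ hz (by simpa using hy.1) fun e => hy.2 (α.injective (e.trans (h.mulEquiv_apply α).symm)),
        zero_mul]] at e
    simp only [h.mulEquiv_apply α, h.comm_z _ (mem_top _), h.inv_eq, map_one, mul_one, inv_one, mul_inv_cancel,
      mul_inv_cancel_right, hz, Finset.sum_const, Finset.card_univ, mul_neg, smul_neg, neg_neg] at e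
    have := congrFun (congrFun e (Classical.arbitrary ι)) (Classical.arbitrary ι)
    simp [Matrix.natCast_apply] at this
  generalize hu : ∑ y, φ (α y * x⁻¹ * y⁻¹) = u at hx
  have h1 : u ∈ Submodule.span ℝ (Set.range φ) := hu ▸ sum_mem fun y _ => Submodule.subset_span ⟨_, rfl⟩
  have h2 : ∀ w, φ (α w) * u = u * φ w := fun w => by
    rw [← hu, Finset.mul_sum, Finset.sum_mul, ← Equiv.sum_comp (Equiv.mulLeft w) fun y => φ _ * φ w]
    refine Finset.sum_congr rfl fun y _ => ?_
    rw [← map_mul, ← map_mul, Equiv.coe_mulLeft, map_mul α]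
    congr 1; group
  obtain ⟨r, e⟩ := scalar h φ hz (span_mul φ (span_star φ hs h1) h1) fun w => by
    have := congrArg star (h2 w⁻¹)
    rw [star_mul, star_mul, hs, hs, map_inv α, inv_inv, inv_inv] at this
    rw [← mul_assoc, ← this, mul_assoc, h2, mul_assoc]
  have hr : 0 < r := by
    obtain ⟨i, hi⟩ := Function.ne_iff.1 hx
    obtain ⟨j, hj⟩ := Function.ne_iff.1 hi
    have := congrFun (congrFun e j) j
    simp only [Matrix.mul_apply, Matrix.star_apply, star_trivial, Matrix.smul_apply, Matrix.one_apply_eq,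
      smul_eq_mul, mul_one] at this
    rw [← this]
    exact Finset.sum_pos' (fun k _ => mul_self_nonneg _) ⟨i, Finset.mem_univ _, mul_self_pos.2 hj⟩
  refine ⟨(√r)⁻¹ • u, Matrix.mem_unitaryGroup_iff'.2 ?_, Submodule.smul_mem _ _ h1, fun w => by
    rw [mul_smul_comm, smul_mul_assoc, h2]⟩
  rw [star_smul, smul_mul_assoc, mul_smul_comm, e, smul_smul, smul_smul, star_trivial, ← mul_inv,
    Real.mul_self_sqrt hr.le, inv_mul_cancel₀ hr.ne', one_smul]

theorem exists_over : ∃ (Γ : Type) (_ : Group Γ) (Φ : E →* Γ), Function.Injective Φ ∧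
    (∀ g, (∀ x, Φ x * g = g * Φ x) → g = 1 ∨ g = Φ z) ∧ ∀ α : E ≃* E, ∃ g, ∀ x, g * Φ x * g⁻¹ = Φ (α x) := by
  let Γ : Subgroup (Matrix.unitaryGroup ι ℝ) :=
    { carrier := {g | g.1 ∈ Submodule.span ℝ (Set.range φ)}
      one_mem' := Submodule.subset_span ⟨1, map_one φ⟩
      mul_mem' := span_mul φ
      inv_mem' := span_star φ hs }
  let Φ : E →* Γ := MonoidHom.mk' (fun x => ⟨⟨φ x, Matrix.mem_unitaryGroup_iff'.2 (by
    rw [hs, ← map_mul, inv_mul_cancel, map_one])⟩, Submodule.subset_span ⟨x, rfl⟩⟩)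
    fun a b => Subtype.ext (Subtype.ext (map_mul φ a b))
  have ne : φ z ≠ 1 := fun e => by
    have := congrFun (congrFun (hz.symm.trans e) (Classical.arbitrary ι)) (Classical.arbitrary ι)
    simp only [Matrix.neg_apply, Matrix.one_apply_eq] at this
    norm_num at this
  refine ⟨Γ, inferInstance, Φ, (injective_iff_map_eq_one _).2 fun x e => ?_, fun g hg => ?_, fun α => ?_⟩
  · replace e : φ x = 1 := congrArg (·.1.1) e
    by_contra h1
    obtain ⟨q, -, e1⟩ := h.exists_conj (mem_top x) h1 fun e1 => ne (e1 ▸ e)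
    have := congrArg φ e1
    rw [map_mul, map_mul, map_mul, e, mul_one, one_mul, ← map_mul, mul_inv_cancel, map_one] at this
    exact ne this.symm
  · obtain ⟨r, e⟩ := scalar h φ hz g.2 fun x => congrArg (·.1.1) (hg x)
    have e1 := Matrix.mem_unitaryGroup_iff'.1 g.1.2
    rw [e, star_smul, star_one, smul_mul_assoc, one_mul, smul_smul, star_trivial] at e1
    have e2 : r * r = 1 := by simpa using congrFun (congrFun e1 (Classical.arbitrary ι)) (Classical.arbitrary ι)
    refine (mul_self_eq_one_iff.1 e2).imp (fun e3 => Subtype.ext (Subtype.ext ?_)) fun e3 =>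
      Subtype.ext (Subtype.ext (e.trans ?_))
    · rw [e, e3, one_smul]; rfl
    · rw [e3, neg_smul, one_smul, ← hz]; rfl
  · obtain ⟨g, h1, h2, h3⟩ := intertwine h φ hz hs α
    exact ⟨⟨⟨g, h1⟩, h2⟩, fun x => mul_inv_eq_iff_eq_mul.2 (Subtype.ext (Subtype.ext (h3 x).symm))⟩

end Rep

/-- the sign character -/
noncomputable def sg (a : ZMod 2) : ℝ := if a = 0 then 1 else -1

theorem sg_add (a b : ZMod 2) : sg (a + b) = sg a * sg b := by
  rcases zmod2_cases a with rfl | rfl <;> rcases zmod2_cases b with rfl | rfl <;> simp [sg]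
  exact fun h => absurd rfl h

theorem exists_rep {V : Type} [AddCommGroup V] [Module (ZMod 2) V] [Fintype V] [DecidableEq V]
    (B : LinearMap.BilinForm (ZMod 2) V) : ∃ φ : Ext B →* Matrix V V ℝ, φ ⟨0, 1⟩ = -1 ∧ ∀ x, star (φ x) = φ x⁻¹ := by
  refine ⟨⟨⟨fun x => Matrix.of fun w v => if w = x.v + v then sg (x.a + B x.v v) else 0, ?_⟩, fun x y => ?_⟩, ?_,
    fun x => ?_⟩
  · ext w v
    simp [Matrix.one_apply, sg]
  · ext w v
    simp only [Matrix.mul_apply, Matrix.of_apply, mul_ite, mul_zero, Finset.sum_ite_eq', Finset.mem_univ, if_true,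
      Ext.mul_v, Ext.mul_a, add_assoc, ite_mul, zero_mul, ← sg_add, map_add, LinearMap.add_apply]
    congr 2
    ring
  · ext w v
    simp only [MonoidHom.coe_mk, OneHom.coe_mk, Matrix.of_apply, Matrix.neg_apply, Matrix.one_apply, zero_add,
      map_zero, LinearMap.zero_apply, add_zero]
    split_ifs <;> simp [sg]
  · ext w v
    simp only [MonoidHom.coe_mk, OneHom.coe_mk, Matrix.star_apply, Matrix.of_apply, star_trivial, Ext.inv_v,
      Ext.inv_a]
    by_cases e : w = x.v + v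
    · rw [if_pos e, e, ← add_assoc, add_self_zmod2, zero_add, if_pos rfl, map_add, add_assoc]
    · rw [if_neg e, if_neg fun e1 => e (by rw [e1, ← add_assoc, add_self_zmod2, zero_add])]

/-- Let K be a group acting faithfully and linearly on a finite-dimensional vector space U of dimension 2n ≥ 2 over the field with two elements, preserving a quadratic form q whose polar bilinear form is non-degenerate and which vanishes on some n-dimensional subspace (a non-singular form of plus type). Then there is a finite group R with a normal extraspecial 2-subgroup Q of order 2^(2n+1), an isomorphism of R/Q with K, and a surjective homomorphism χ from Q onto (the additive group of) U with kernel the centre of Q, such that χ carries conjugation by any r in R to the action of the image of r in K, and an element a of Q squares to the identity exactly when q vanishes at χ(a). -/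
theorem result {K : Type*} [Group K] {U : Type*} [AddCommGroup U] [Module (ZMod 2) U] [Module.Finite (ZMod 2) U] (n : ℕ) (hn1 : 1 ≤ n) (hn : Module.finrank (ZMod 2) U = 2 * n) (ρ : Representation (ZMod 2) K U) (hρ : Function.Injective ρ) (q : QuadraticForm (ZMod 2) U) (hq : ∀ (k : K) (u : U), q (ρ k u) = q u) (hnd : (QuadraticMap.polarBilin q).Nondegenerate) (hplus : ∃ W : Submodule (ZMod 2) U, Module.finrank (ZMod 2) ↥W = n ∧ ∀ w ∈ W, q w = 0) : ∃ (R : Type) (_ : Group R) (_ : Finite R) (Q : Subgroup R) (hN : Q.Normal) (e : R ⧸ Q ≃* K) (χ : ↥Q →* Multiplicative U), Cfsg.IsExtraspecial 2 ↥Q ∧ Nat.card ↥Q = 2 ^ (2 * n + 1) ∧ Function.Surjective χ ∧ χ.ker = Subgroup.center ↥Q ∧ (∀ (r : R) (a : ↥Q), χ ⟨r * a * r⁻¹, hN.conj_mem (a : R) a.2 r⟩ = Multiplicative.ofAdd (ρ (e (r : R ⧸ Q)) (Multiplicative.toAdd (χ a)))) ∧ ∀ a : ↥Q, a * a = 1 ↔ q (Multiplicative.toAdd (χ a)) = 0 := by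
  classical
  let ε := (Module.finBasisOfFinrankEq (ZMod 2) U hn).equivFun
  have : Nonempty (Fin (2 * n)) := ⟨⟨0, by omega⟩⟩
  have hq' : Nondeg (q.comp ε.symm.toLinearMap) := fun x hx => by
    have := (nondeg_iff q).2 hnd (ε.symm x) fun y => by
      simpa [QuadraticMap.polar] using hx (ε y)
    simpa using this
  obtain ⟨B, hB⟩ := LinearMap.BilinMap.toQuadraticMap_surjective (q.comp ε.symm.toLinearMap)
  obtain ⟨π, c⟩ : ∃ π, Coord (⊤ : Subgroup (Ext B)) ⟨0, 1⟩ q π := ⟨_, (Ext.coord hB hq').congr ε.symm fun _ => rfl⟩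
  obtain ⟨φ, hz, hs⟩ := exists_rep B
  have := Fintype.ofFinite (Ext B)
  obtain ⟨Γ, _, Φ, hΦ, cen, sur⟩ := exists_over c.es φ hz hs
  generalize (⟨0, 1⟩ : Ext B) = z at c cen
  have fU : Finite U := c.finite
  let P : Γ → K → Prop := fun g k => ∃ α : Ext B ≃* Ext B, (∀ x, g * Φ x * g⁻¹ = Φ (α x)) ∧ ∀ x, π (α x) = ρ k (π x)
  have Pmul : ∀ {g g' k k'}, P g k → P g' k' → P (g * g') (k * k') := fun ⟨α, h1, h2⟩ ⟨β, h3, h4⟩ =>
    ⟨β.trans α, fun x => by rw [MulEquiv.trans_apply, ← h1, ← h3]; group,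
      fun x => by rw [MulEquiv.trans_apply, h2, h4, map_mul]; rfl⟩
  have Puniq : ∀ {g k k'}, P g k → P g k' → k = k' := fun ⟨α, h1, h2⟩ ⟨β, h3, h4⟩ => hρ (LinearMap.ext fun v => by
    obtain ⟨x, -, rfl⟩ := c.surj v
    rw [← h2, ← h4, hΦ ((h1 x).symm.trans (h3 x))])
  have PΦ : ∀ x, P (Φ x) 1 := fun x => ⟨MulAut.conj x, fun y => by simp, fun y => by
    rw [MulAut.conj_apply, c.map_mul _ (mem_top _) _ (mem_top _), c.map_mul _ (mem_top _) _ (mem_top _),
      c.map_inv (mem_top _), add_right_comm, add_self_zmod2, zero_add, map_one]; rfl⟩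
  let R : Subgroup Γ :=
    { carrier := {g | ∃ k, P g k}
      one_mem' := ⟨1, map_one Φ ▸ PΦ 1⟩
      mul_mem' := fun ⟨_, h1⟩ ⟨_, h2⟩ => ⟨_, Pmul h1 h2⟩
      inv_mem' := fun {g} ⟨k, α, h1, h2⟩ => ⟨k⁻¹, α.symm, fun x => by
        rw [← α.apply_symm_apply x, ← h1, α.symm_apply_apply]; group, fun x => by
        rw [← α.apply_symm_apply x, h2, α.symm_apply_apply, ← Module.End.mul_apply, ← map_mul, inv_mul_cancel,
          map_one]; rfl⟩ }
  let κ : R →* K := MonoidHom.mk' (fun g => g.2.choose) fun a b =>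
    Puniq (a * b).2.choose_spec (Pmul a.2.choose_spec b.2.choose_spec)
  have hκ : ∀ g : R, P g (κ g) := fun g => g.2.choose_spec
  have κs : Function.Surjective κ := fun k => by
    obtain ⟨α, e⟩ := (c.congr (LinearMap.GeneralLinearGroup.toLinearEquiv (ρ.asGroupHom k))
      (hq k)).nonempty_mulEquiv c
    obtain ⟨g, hg⟩ := sur α
    exact ⟨⟨g, k, α, hg, e⟩, Puniq (hκ _) ⟨α, hg, e⟩⟩
  let Ψ : Ext B →* κ.ker := (Φ.codRestrict R fun x => (⟨1, PΦ x⟩ : ∃ k, P (Φ x) k)).codRestrict _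
    fun x => Puniq (hκ _) (PΦ x)
  have hΨ : Function.Bijective Ψ := by
    refine ⟨fun a b e => hΦ (congrArg (·.1.1) e), fun g => ?_⟩
    obtain ⟨α, h1, h2⟩ := hκ g
    obtain ⟨u, -, hu⟩ := c.es.inner α (fun x _ y _ => map_mul α x y) fun x _ =>
      (c.eq_iff (mem_top _) (mem_top _)).1 (by rw [h2, MonoidHom.mem_ker.1 g.2, map_one]; rfl)
    rcases cen ((Φ u)⁻¹ * g.1.1) (fun x => by
      have := h1 x
      rw [hu x (mem_top x), map_mul, map_mul, map_inv] at this
      calc _ = (Φ u)⁻¹ * (Φ u * Φ x * (Φ u)⁻¹) * g.1.1 := by group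
        _ = _ := by rw [← this]; group) with e | e
    · exact ⟨u, Subtype.ext (Subtype.ext (inv_mul_eq_one.1 e))⟩
    · exact ⟨u * z, Subtype.ext (Subtype.ext ((map_mul Φ u z).trans (inv_mul_eq_iff_eq_mul.1 e).symm))⟩
  let e := MulEquiv.ofBijective Ψ hΨ
  have fK : Finite K := Finite.of_injective (fun k => (ρ k : U → U)) fun a b h => hρ (DFunLike.coe_injective h)
  have fQ : Finite κ.ker := Finite.of_surjective _ hΨ.2
  have es : ES (⊤ : Subgroup κ.ker) (e z) := by
    simpa using c.es.map_of_injective e.toMonoidHom e.injective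
  refine ⟨R, inferInstance, (MonoidHom.finite_iff_finite_ker_range κ).2 ⟨fQ, inferInstance⟩, κ.ker, inferInstance,
    QuotientGroup.quotientKerEquivOfSurjective κ κs, MonoidHom.mk' (fun x => Multiplicative.ofAdd (π (e.symm x)))
      fun a b => by rw [map_mul, c.map_mul _ (mem_top _) _ (mem_top _), ofAdd_add], isExtraspecial_of_top es, ?_,
    fun v => ?_, ?_, fun r a => ?_, fun a => ?_⟩
  · rw [← Nat.card_congr e.toEquiv, ← card_top, c.card_eq, Nat.card_congr ε.toEquiv, pow_succ']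
    simp
  · obtain ⟨x, -, hx⟩ := c.surj v.toAdd
    exact ⟨e x, show Multiplicative.ofAdd (π (e.symm (e x))) = v by rw [e.symm_apply_apply, hx]; rfl⟩
  · ext x
    refine (show _ ↔ π (e.symm x) = 0 from Iff.rfl).trans ?_
    rw [c.ker _ (mem_top _), e.symm_apply_eq, e.symm_apply_eq, map_one, ← es.center_iff, mem_center_iff]
    simp
  · obtain ⟨α, h1, h2⟩ := hκ r
    obtain ⟨x, rfl⟩ := e.surjective a
    refine congrArg Multiplicative.ofAdd (show π (e.symm _) = ρ (κ r) (π (e.symm (e x))) from ?_)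
    rw [e.symm_apply_apply, ← h2, ← e.symm_apply_apply (α x)]
    congr 2
    exact Subtype.ext (Subtype.ext (h1 x))
  · refine Iff.trans ?_ (c.sq (e.symm a) (mem_top _)).symm
    rw [← map_mul, map_eq_one_iff _ e.symm.injective]

end Cfsg.Agent.S3084
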