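import Mathlib
import Cfsg.Statements.S3085

set_option autoImplicit false
open Cfsg

namespace Cfsg.Agent.S3085

section
variable {Q : Type*} [Group Q]

open Classical in
/-- The automorphism `x ↦ x` (if `x` commutes with `v`), `x ↦ v x` (otherwise). -/
noncomputable def sig (z v : Q) (hz : z ∈ Subgroup.center Q) (hzz : z * z = 1) (hz1 : z ≠ 1)
    (hc : ∀ x y : Q, x * y = y * x ∨ x * y = z * (y * x)) (hv : v * v = z) : MulAut Q where
  toFun x := if x * v = v * x then x else v * x
  invFun x := if x * v = v * x then x else v⁻¹ * x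
  left_inv x := by
    by_cases h : x * v = v * x
    · simp [h]
    · have h2 : ¬ (v * x * v = v * (v * x)) := by
        intro h3; apply h; rw [mul_assoc] at h3; exact mul_left_cancel h3
      simp [h, h2]
  right_inv x := by
    by_cases h : x * v = v * x
    · simp [h]
    · have h2 : ¬ (v⁻¹ * x * v = v * (v⁻¹ * x)) := by
        intro h3; apply h
        have : v * (v⁻¹ * x * v) = v * (v * (v⁻¹ * x)) := by rw [h3]
        simpa [mul_assoc] using this
      simp only [h, h2, if_false]
      rw [mul_inv_cancel_left]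
  map_mul' x y := by
    have hzc : ∀ g : Q, g * z = z * g := fun g => Subgroup.mem_center_iff.1 hz g
    by_cases hx : x * v = v * x <;> by_cases hy : y * v = v * y
    · have : x * y * v = v * (x * y) := by rw [mul_assoc, hy, ← mul_assoc, hx, mul_assoc]
      simp [hx, hy, this]
    · have : ¬ (x * y * v = v * (x * y)) := by
        intro h; apply hy
        rw [← mul_assoc, ← hx, mul_assoc, mul_assoc] at h
        exact mul_left_cancel h
      simp only [hx, hy, this, if_true, if_false]
      rw [← mul_assoc, ← mul_assoc, hx]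
    · have : ¬ (x * y * v = v * (x * y)) := by
        intro h; apply hx
        rw [mul_assoc, hy, ← mul_assoc, ← mul_assoc] at h
        exact mul_right_cancel h
      simp only [hx, hy, this, if_true, if_false]
      rw [mul_assoc]
    · have hx' : x * v = z * (v * x) := (hc x v).resolve_left hx
      have hy' : y * v = z * (v * y) := (hc y v).resolve_left hy
      have : x * y * v = v * (x * y) := by
        calc x * y * v = x * (z * (v * y)) := by rw [mul_assoc, hy']
          _ = z * (x * v) * y := by rw [← mul_assoc, hzc x]; simp only [mul_assoc]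
          _ = z * z * (v * (x * y)) := by rw [hx']; simp only [mul_assoc]
          _ = v * (x * y) := by rw [hzz, one_mul]
      simp only [hx, hy, this, if_true, if_false]
      calc x * y = (z * z) * (x * y) := by rw [hzz, one_mul]
        _ = z * (v * v) * (x * y) := by rw [hv]
        _ = v * (z * (v * x)) * y := by rw [← mul_assoc v z, hzc v]; simp only [mul_assoc]
        _ = v * x * (v * y) := by rw [← hx']; simp only [mul_assoc]

theorem sig_of_comm {z v : Q} {hz : z ∈ Subgroup.center Q} {hzz : z * z = 1} {hz1 : z ≠ 1}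
    {hc : ∀ x y : Q, x * y = y * x ∨ x * y = z * (y * x)} {hv : v * v = z} {x : Q}
    (h : x * v = v * x) : sig z v hz hzz hz1 hc hv x = x := by
  classical
  show (if x * v = v * x then x else v * x) = x
  rw [if_pos h]

theorem sig_of_not_comm {z v : Q} {hz : z ∈ Subgroup.center Q} {hzz : z * z = 1} {hz1 : z ≠ 1}
    {hc : ∀ x y : Q, x * y = y * x ∨ x * y = z * (y * x)} {hv : v * v = z} {x : Q}
    (h : ¬ x * v = v * x) : sig z v hz hzz hz1 hc hv x = v * x := by
  classical
  show (if x * v = v * x then x else v * x) = v * x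
  rw [if_neg h]

end

/-- Let Q be an extraspecial 2-group of order 2^(2n+1) with n ≥ 3 that is of plus type (it contains an elementary abelian subgroup of order 2^(n+1)). Then the group of inner automorphisms of Q has no complement in the full automorphism group of Q: the extension of the inner automorphism group (elementary abelian of order 2^(2n)) by the outer automorphism group (the orthogonal group of plus type) does not split. -/
theorem result {Q : Type*} [Group Q] [Finite Q] (n : ℕ) (hn : 3 ≤ n) (hQ : Cfsg.IsExtraspecial 2 Q) (hcard : Nat.card Q = 2 ^ (2 * n + 1)) (hplus : ∃ E : Subgroup Q, Cfsg.IsElementaryAbelian 2 E ∧ Nat.card ↥E = 2 ^ (n + 1)) (L : Subgroup (MulAut Q)) : ¬ (Cfsg.Inn Q).IsComplement' L := by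
  classical
  intro hL
  obtain ⟨⟨-, -, hcomm⟩, hZ⟩ := hQ
  obtain ⟨z', hz'1, hz'u⟩ := (Nat.card_eq_two_iff' (1 : Subgroup.center Q)).1 hZ
  set z : Q := z'.1 with hzdef
  have hz : z ∈ Subgroup.center Q := z'.2
  have hz1 : z ≠ 1 := fun h => hz'1 (Subtype.ext h)
  have hZel : ∀ c ∈ Subgroup.center Q, c = 1 ∨ c = z := by
    intro c hc
    by_cases h : c = 1
    · exact Or.inl h
    · right
      have := hz'u ⟨c, hc⟩ (fun h2 => h (congrArg Subtype.val h2))
      exact congrArg Subtype.val this
  have hzc : ∀ g : Q, g * z = z * g := fun g => Subgroup.mem_center_iff.1 hz g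
  have hzz : z * z = 1 := by
    rcases hZel (z * z) (mul_mem hz hz) with h | h
    · exact h
    · exact absurd (mul_left_cancel (h.trans (mul_one z).symm)) hz1
  have hcm : ∀ x y : Q, x * y * x⁻¹ * y⁻¹ ∈ Subgroup.center Q := by
    intro x y
    rw [← hcomm]
    exact Subgroup.commutator_mem_commutator (Subgroup.mem_top x) (Subgroup.mem_top y)
  have hc : ∀ x y : Q, x * y = y * x ∨ x * y = z * (y * x) := by
    intro x y
    rcases hZel _ (hcm x y) with h | h
    · left
      calc x * y = (x * y * x⁻¹ * y⁻¹) * (y * x) := by group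
        _ = y * x := by rw [h, one_mul]
    · right
      calc x * y = (x * y * x⁻¹ * y⁻¹) * (y * x) := by group
        _ = z * (y * x) := by rw [h]
  have hsq : ∀ x : Q, x * x ∈ Subgroup.center Q := by
    intro x
    rw [Subgroup.mem_center_iff]
    intro y
    rcases hc y x with h | h
    · rw [← mul_assoc, h, mul_assoc, h, mul_assoc]
    · calc y * (x * x) = (y * x) * x := by rw [mul_assoc]
        _ = (z * (x * y)) * x := by rw [← h]
        _ = z * (x * (y * x)) := by simp only [mul_assoc]
        _ = z * z * (x * x * y) := by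
            rw [h, ← mul_assoc x z, hzc x]; simp only [mul_assoc]
        _ = x * x * y := by rw [hzz, one_mul]
  have hnc : ∀ v : Q, v * v = z → v ∉ Subgroup.center Q := by
    intro v hv h
    rcases hZel v h with h | h
    · rw [h, one_mul] at hv; exact hz1 hv.symm
    · rw [h, hzz] at hv; exact hz1 hv.symm
  -- an element of order four
  obtain ⟨v, hv⟩ : ∃ v : Q, v * v = z := by
    by_contra hno
    push Not at hno
    have h1 : ∀ x : Q, x * x = 1 := fun x => (hZel _ (hsq x)).resolve_right (hno x)
    have hinv : ∀ x : Q, x⁻¹ = x := fun x => inv_eq_of_mul_eq_one_right (h1 x)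
    have hab : ∀ x y : Q, x * y = y * x := by
      intro x y
      rw [← hinv (x * y), mul_inv_rev, hinv, hinv]
    have : commutator Q = ⊥ := by
      rw [commutator, Subgroup.commutator_eq_bot_iff_le_centralizer]
      intro x _
      rw [Subgroup.mem_centralizer_iff]
      intro y _
      exact hab y x
    rw [this] at hcomm
    rw [← hcomm] at hz
    exact hz1 (Subgroup.mem_bot.1 hz)
  have hinner : ∀ g : Q, MulAut.conj g ∈ L → g ∈ Subgroup.center Q := by
    intro g hg
    have h1 : MulAut.conj g ∈ (Cfsg.Inn Q) ⊓ L := ⟨⟨g, rfl⟩, hg⟩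
    rw [hL.disjoint.eq_bot, Subgroup.mem_bot] at h1
    rw [Subgroup.mem_center_iff]
    intro y
    have := congrArg (fun φ : MulAut Q => φ y) h1
    simp only [MulAut.conj_apply, MulAut.one_apply] at this
    calc y * g = (g * y * g⁻¹) * g := by rw [this]
      _ = g * y := by group
  have hlift : ∀ φ : MulAut Q, ∃ w : Q, MulAut.conj w * φ ∈ L := by
    intro φ
    obtain ⟨⟨⟨_, ⟨u, rfl⟩⟩, l⟩, h⟩ := (hL.existsUnique φ).exists
    refine ⟨u⁻¹, ?_⟩
    have h' : MulAut.conj u * (l : MulAut Q) = φ := h
    rw [← h', ← mul_assoc, ← map_mul, inv_mul_cancel, map_one, one_mul]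
    exact l.2
  have hconj : ∀ (φ : MulAut Q) (w : Q), φ * MulAut.conj w = MulAut.conj (φ w) * φ := by
    intro φ w
    ext x
    simp [MulAut.conj_apply]
  obtain ⟨w, hw⟩ := hlift (sig z v hz hzz hz1 hc hv)
  set σ := sig z v hz hzz hz1 hc hv with hσ
  have hσσ : σ * σ = MulAut.conj v := by
    ext x
    by_cases h : x * v = v * x
    · rw [MulAut.mul_apply, sig_of_comm h, sig_of_comm h, MulAut.conj_apply, ← h]; group
    · have h2 : ¬ (v * x * v = v * (v * x)) := by
        intro h3; apply h; rw [mul_assoc] at h3; exact mul_left_cancel h3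
      rw [MulAut.mul_apply, sig_of_not_comm h, sig_of_not_comm h2, MulAut.conj_apply]
      have h4 : v * x = z * (x * v) := (hc v x).resolve_left (fun h5 => h h5.symm)
      rw [← mul_assoc, hv, h4]; group
  have hwv : ¬ w * v = v * w := by
    intro h
    have h1 := mul_mem hw hw
    rw [mul_assoc, ← mul_assoc σ, hconj, sig_of_comm h, mul_assoc, hσσ, ← map_mul, ← map_mul] at h1
    have h2 := hinner _ h1
    rw [← mul_assoc] at h2
    exact hnc v hv ((Subgroup.mul_mem_cancel_left _ (hsq w)).1 h2)
  have hkey : ∀ v' : Q, v' * v' = z → v' * v = v * v' → v⁻¹ * v' ∉ Subgroup.center Q →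
      w * v' = v' * w := by
    intro v' hv' hvv' hnot
    by_contra hwv'
    obtain ⟨w', hw'⟩ := hlift (sig z v' hz hzz hz1 hc hv')
    set σ' := sig z v' hz hzz hz1 hc hv' with hσ'
    have hcomm2 : σ * σ' = σ' * σ := by
      ext x
      rw [MulAut.mul_apply, MulAut.mul_apply]
      by_cases h : x * v = v * x <;> by_cases h' : x * v' = v' * x
      · rw [sig_of_comm h, sig_of_comm h', sig_of_comm h]
      · rw [sig_of_comm h, sig_of_not_comm h', map_mul, sig_of_comm h, sig_of_comm hvv']
      · rw [sig_of_comm h', sig_of_not_comm h, map_mul, sig_of_comm h', sig_of_comm hvv'.symm]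
      · rw [sig_of_not_comm h, sig_of_not_comm h', map_mul, map_mul, sig_of_comm hvv',
          sig_of_comm hvv'.symm, sig_of_not_comm h, sig_of_not_comm h', ← mul_assoc, ← mul_assoc,
          hvv']
    have h1 := mul_mem (mul_mem hw hw') (inv_mem (mul_mem hw' hw))
    have h2 : MulAut.conj w * σ * (MulAut.conj w' * σ') * (MulAut.conj w' * σ' * (MulAut.conj w * σ))⁻¹
        = MulAut.conj (w * σ w' * (w' * σ' w)⁻¹) := by
      rw [mul_assoc (MulAut.conj w), ← mul_assoc σ, hconj, mul_assoc (MulAut.conj w'),
        ← mul_assoc σ', hconj, mul_assoc _ σ σ', mul_assoc _ σ' σ, hcomm2]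
      simp only [map_mul, map_inv]
      group
    rw [h2] at h1
    have h3 := hinner _ h1
    let π := QuotientGroup.mk' (Subgroup.center Q)
    have hπ : ∀ a b : Q, π a * π b = π b * π a := by
      intro a b
      have : π (a * b * a⁻¹ * b⁻¹) = 1 := (QuotientGroup.eq_one_iff _).2 (hcm a b)
      simp only [map_mul, map_inv] at this
      calc π a * π b = (π a * π b * (π a)⁻¹ * (π b)⁻¹) * (π b * π a) := by group
        _ = π b * π a := by rw [this, one_mul]
    have h4 : π (w * σ w' * (w' * σ' w)⁻¹) = 1 := (QuotientGroup.eq_one_iff _).2 h3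
    rw [sig_of_not_comm hwv'] at h4
    simp only [map_mul, map_inv] at h4
    have h5 : π w * π (σ w') = π w' * (π v' * π w) := mul_inv_eq_one.1 h4
    rw [← mul_assoc, hπ w, hπ w'] at h5
    have h6 := mul_right_cancel h5
    by_cases h : w' * v = v * w'
    · rw [sig_of_comm h] at h6
      have h7 : π v' = 1 := by
        have : π v' * π w' = 1 * π w' := by rw [one_mul]; exact h6.symm
        exact mul_right_cancel this
      exact hnc v' hv' ((QuotientGroup.eq_one_iff _).1 h7)
    · rw [sig_of_not_comm h, map_mul] at h6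
      have h7 := mul_right_cancel h6
      apply hnot
      apply (QuotientGroup.eq_one_iff _).1
      show π (v⁻¹ * v') = 1
      rw [map_mul, map_inv, h7, inv_mul_cancel]
  -- the common centralizer of v and w
  let f : Q → Q →* Subgroup.center Q := fun a =>
    { toFun := fun x => ⟨x * a * x⁻¹ * a⁻¹, hcm x a⟩
      map_one' := by ext; simp
      map_mul' := by
        intro x y
        ext
        show x * y * a * (x * y)⁻¹ * a⁻¹ = (x * a * x⁻¹ * a⁻¹) * (y * a * y⁻¹ * a⁻¹)
        have := Subgroup.mem_center_iff.1 (hcm y a)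
        calc x * y * a * (x * y)⁻¹ * a⁻¹ = x * (y * a * y⁻¹ * a⁻¹) * (a * x⁻¹ * a⁻¹) := by group
          _ = x * (a * x⁻¹ * a⁻¹) * (y * a * y⁻¹ * a⁻¹) := by
            rw [mul_assoc x, ← this, ← mul_assoc x]
          _ = _ := by group }
  let C : Subgroup Q := ((f v).prod (f w)).ker
  have hC : ∀ x ∈ C, x * v = v * x ∧ x * w = w * x := by
    intro x hx
    have h1 : ((f v).prod (f w)) x = 1 := hx
    have h2 : x * v * x⁻¹ * v⁻¹ = 1 := congrArg (fun t => (t.1 : Q)) h1
    have h3 : x * w * x⁻¹ * w⁻¹ = 1 := congrArg (fun t => (t.2 : Q)) h1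
    constructor
    · calc x * v = (x * v * x⁻¹ * v⁻¹) * (v * x) := by group
        _ = v * x := by rw [h2, one_mul]
    · calc x * w = (x * w * x⁻¹ * w⁻¹) * (w * x) := by group
        _ = w * x := by rw [h3, one_mul]
  have hCcard : 8 < Nat.card C := by
    have h1 : C.index ≤ 4 := by
      rw [Subgroup.index_ker]
      have := Nat.card_le_card_of_injective _ ((f v).prod (f w)).range.subtype_injective
      rw [Nat.card_prod, hZ] at this
      exact this
    have h2 := C.card_mul_index
    have h3 : 2 ^ 7 ≤ 2 ^ (2 * n + 1) := Nat.pow_le_pow_right (by norm_num) (by omega)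
    rw [hcard] at h2
    by_contra h4
    push Not at h4
    have : Nat.card C * C.index ≤ 8 * 4 := Nat.mul_le_mul h4 h1
    omega
  have hA : ∀ x ∈ C, x ∉ Subgroup.center Q → x * x = z := by
    intro x hx hxn
    refine (hZel _ (hsq x)).resolve_left fun hxx => ?_
    obtain ⟨h1, h2⟩ := hC x hx
    have h3 := hkey (v * x) (by
      calc v * x * (v * x) = v * (x * v) * x := by group
        _ = (v * v) * (x * x) := by rw [h1]; group
        _ = z := by rw [hv, hxx, mul_one]) (by rw [mul_assoc, h1]) (by simpa using hxn)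
    apply hwv
    rw [mul_assoc, h2, ← mul_assoc, ← mul_assoc] at h3
    exact mul_right_cancel h3
  have hB : ∀ x ∈ C, ∀ y ∈ C, x ∉ Subgroup.center Q → y ∉ Subgroup.center Q →
      x * y ∉ Subgroup.center Q → x * y = z * (y * x) := by
    intro x hx y hy hxn hyn hxy
    refine (hc x y).resolve_left fun h => ?_
    have h1 := hA _ (mul_mem hx hy) hxy
    have : x * y * (x * y) = (x * x) * (y * y) := by
      calc x * y * (x * y) = x * (y * x) * y := by group
        _ = (x * x) * (y * y) := by rw [← h]; group
    rw [this, hA x hx hxn, hA y hy hyn, hzz] at h1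
    exact hz1 h1.symm
  have hpick : ∀ s : Finset Q, s.card ≤ 8 → ∃ x ∈ C, x ∉ s := by
    intro s hs
    by_contra hno
    push Not at hno
    have : Nat.card C ≤ Nat.card s := Nat.card_le_card_of_injective
      (fun x : C => (⟨x.1, hno x.1 x.2⟩ : s)) (fun a b h => Subtype.ext (congrArg (fun t : s => (t : Q)) h))
    rw [Nat.card_eq_fintype_card (α := s), Fintype.card_coe] at this
    omega
  have hnotZ : ∀ a x : Q, x ≠ a⁻¹ → x ≠ a⁻¹ * z → a * x ∉ Subgroup.center Q := by
    intro a x h1 h2 h
    rcases hZel _ h with h | h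
    · exact h1 (eq_inv_of_mul_eq_one_right h)
    · exact h2 (by rw [← h]; group)
  obtain ⟨x, hx, hx'⟩ := hpick {1⁻¹, 1⁻¹ * z} (Finset.card_le_two.trans (by norm_num))
  obtain ⟨y, hy, hy'⟩ := hpick {1⁻¹, 1⁻¹ * z, x⁻¹, x⁻¹ * z} (Finset.card_le_four.trans (by norm_num))
  obtain ⟨u, hu, hu'⟩ := hpick ({1⁻¹, 1⁻¹ * z, x⁻¹, x⁻¹ * z} ∪
      {y⁻¹, y⁻¹ * z, (x * y)⁻¹, (x * y)⁻¹ * z})
    ((Finset.card_union_le _ _).trans (add_le_add Finset.card_le_four Finset.card_le_four))
  simp only [Finset.mem_insert, Finset.mem_singleton, Finset.mem_union, not_or] at hx' hy' hu'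
  have hx1 : x ∉ Subgroup.center Q := by simpa using hnotZ 1 x hx'.1 hx'.2
  have hy1 : y ∉ Subgroup.center Q := by simpa using hnotZ 1 y hy'.1 hy'.2.1
  have hu1 : u ∉ Subgroup.center Q := by simpa using hnotZ 1 u hu'.1.1 hu'.1.2.1
  have hxy := hB x hx y hy hx1 hy1 (hnotZ x y hy'.2.2.1 hy'.2.2.2)
  have hxu := hB x hx u hu hx1 hu1 (hnotZ x u hu'.1.2.2.1 hu'.1.2.2.2)
  have hxyu := hB x hx (y * u) (mul_mem hy hu) hx1 (hnotZ y u hu'.2.1 hu'.2.2.1)
    (by rw [← mul_assoc]; exact hnotZ (x * y) u hu'.2.2.2.1 hu'.2.2.2.2)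
  have : x * (y * u) = y * u * x := by
    calc x * (y * u) = z * (y * (x * u)) := by rw [← mul_assoc, hxy]; simp only [mul_assoc]
      _ = z * z * (y * u * x) := by
          rw [hxu, ← mul_assoc y z, hzc y]; simp only [mul_assoc]
      _ = y * u * x := by rw [hzz, one_mul]
  rw [this] at hxyu
  apply hz1
  have : z * (y * u * x) = 1 * (y * u * x) := by rw [one_mul]; exact hxyu.symm
  exact mul_right_cancel this

end Cfsg.Agent.S3085
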