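import Cfsg.Statements.S3356

set_option autoImplicit false
open Cfsg

namespace Cfsg.Agent.S3356

open MulAction
open scoped commutatorElement

/-- A group acting on a finite invariant set with all orbits of size `k`. -/
theorem dvd_ncard {A X : Type*} [Group A] [MulAction A X] [Finite X] {k : ℕ} (S : Set X)
    (hS : ∀ a : A, ∀ x ∈ S, a • x ∈ S) (hk : ∀ x ∈ S, (orbit A x).ncard = k) : k ∣ S.ncard := by
  induction h : S.ncard using Nat.strong_induction_on generalizing S with
  | _ n ih =>
    rcases S.eq_empty_or_nonempty with rfl | ⟨x, hx⟩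
    · rw [← h]; simp
    have hsub : orbit A x ⊆ S := by rintro _ ⟨a, rfl⟩; exact hS a x hx
    have e := Set.ncard_sdiff_add_ncard_of_subset hsub
    have hpos : 0 < (orbit A x).ncard := (Set.ncard_pos (Set.toFinite _)).2 ⟨x, mem_orbit_self x⟩
    have := ih _ (by omega) (S \ orbit A x) (fun a y hy => ⟨hS a y hy.1, fun ⟨b, hb⟩ => hy.2 ⟨a⁻¹ * b, by
      simp only at hb ⊢
      rw [mul_smul, hb, inv_smul_smul]⟩⟩) (fun y hy => hk y hy.1) rfl
    rw [← h, ← e, hk x hx]
    exact Nat.dvd_add this dvd_rfl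

/-- Half-transitive automorphism groups: blocks of size prime to the orbit length. -/
theorem key {H N : Type*} [Group H] [Finite H] [Group N] [Finite N] [MulDistribMulAction H N] {d : ℕ}
    (hd : ∀ x : N, x ≠ 1 → (orbit H x).ncard = d) (S : Set N) (h1 : (1 : N) ∉ S)
    (hS : ∀ h : H, ∀ x ∈ S, h • x ∈ S → ∀ y ∈ S, h • y ∈ S)
    (hc : S.ncard.Coprime d) {h : H} {x y : N} (hx : x ∈ S) (hy : y ∈ S) (hh : h • x = x) : h • y = y := by
  let B : Subgroup H :=
    { carrier := {g | ∀ y ∈ S, g • y ∈ S}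
      mul_mem' := fun ha hb y hy => by rw [mul_smul]; exact ha _ (hb y hy)
      one_mem' := fun y hy => by rwa [one_smul]
      inv_mem' := fun {g} hg => hS _ _ (hg x hx) (by rwa [inv_smul_smul]) }
  have hle : ∀ x ∈ S, stabilizer H x ≤ B := fun x hx h hh => hS h x hx (by rw [mem_stabilizer_iff.1 hh]; exact hx)
  have hi : ∀ x ∈ S, (orbit B x).ncard * B.index = d := by
    intro x hx
    rw [← hd x (fun e => h1 (e ▸ hx)), ← index_stabilizer, ← index_stabilizer, ← Subgroup.relIndex_mul_index (hle x hx)]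
    rfl
  have hB0 : 0 < B.index := Nat.pos_of_ne_zero Subgroup.index_ne_zero_of_finite
  have hdv := dvd_ncard (A := B) (k := (orbit B y).ncard) S (fun b => b.2) fun x hx =>
    Nat.eq_of_mul_eq_mul_right hB0 ((hi x hx).trans (hi y hy).symm)
  have h1 := Nat.eq_one_of_dvd_coprimes hc hdv ⟨_, (hi y hy).symm⟩
  obtain ⟨z, hz⟩ := Set.ncard_eq_one.1 h1
  have a1 : (⟨h, hle x hx hh⟩ : B) • y ∈ orbit B y := mem_orbit _ _
  have a2 : y ∈ orbit B y := mem_orbit_self y
  rw [hz] at a1 a2
  exact a1.trans a2.symm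

theorem main {H N : Type*} [Group H] [Finite H] [Group N] [Finite N] [MulDistribMulAction H N] {d : ℕ}
    (hd : ∀ x : N, x ≠ 1 → (orbit H x).ncard = d) {h : H} {x₀ y₀ : N} (hx₀ : x₀ ≠ 1) (hh : h • x₀ = x₀)
    (hy₀ : h • y₀ ≠ y₀) : (∀ K : Subgroup N, (∀ g : H, ∀ x ∈ K, g • x ∈ K) → K = ⊥ ∨ K = ⊤) ∧
      ∀ a b : N, a * b = b * a := by
  have hcop : ∀ K : Subgroup N, (∀ g : H, ∀ x ∈ K, g • x ∈ K) → (Nat.card K).Coprime d := by
    intro K hK
    have := dvd_ncard (A := H) (k := d) ((K : Set N) \ {1})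
      (fun g x hx => ⟨hK g x hx.1, fun e => hx.2 (by
        rw [← inv_smul_smul g x, Set.mem_singleton_iff.1 e, smul_one]; rfl)⟩) fun x hx => hd x hx.2
    rw [Set.ncard_sdiff_singleton_of_mem (by exact K.one_mem), ← Nat.card_coe_set_eq] at this
    change d ∣ Nat.card K - 1 at this
    have hp := Nat.card_pos (α := K)
    refine Nat.Coprime.coprime_dvd_right this ?_
    obtain ⟨m, hm⟩ : ∃ m, Nat.card K = m + 1 := ⟨Nat.card K - 1, by omega⟩
    rw [hm]; simp
  have hord : ∀ x y : N, x ≠ 1 → y ≠ 1 → stabilizer H x ≤ stabilizer H y → stabilizer H x = stabilizer H y := by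
    intro x y hx hy hle
    refine Subgroup.eq_of_le_of_card_ge hle (le_of_eq ?_)
    have a1 := (stabilizer H x).card_mul_index
    have a2 := (stabilizer H y).card_mul_index
    rw [index_stabilizer, hd _ hx] at a1
    rw [index_stabilizer, hd _ hy] at a2
    have : 0 < d := by rw [← hd x hx]; exact (Set.ncard_pos (Set.toFinite _)).2 ⟨x, mem_orbit_self x⟩
    exact Nat.eq_of_mul_eq_mul_right this (a2.trans a1.symm)
  have hy1 : y₀ ≠ 1 := fun e => hy₀ (by rw [e, smul_one])
  constructor
  · intro K hK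
    by_contra hc
    push Not at hc
    obtain ⟨⟨k, hk⟩, hk1⟩ := Subgroup.ne_bot_iff_exists_ne_one.1 hc.1
    have hk1 : k ≠ 1 := fun e => hk1 (Subtype.ext e)
    have hout : ∀ x ∉ K, ∀ k ∈ K, k ≠ 1 → stabilizer H x = stabilizer H k := by
      intro x hx k hk hk1
      refine hord x k (fun e => hx (e ▸ K.one_mem)) hk1 fun g hg => ?_
      let S : Set N := {y | x⁻¹ * y ∈ K}
      have := key hd S (fun e => hx (by simpa [S] using e)) (fun g y hy h1 z hz => by
          have := K.mul_mem h1 (hK g _ (K.mul_mem (K.inv_mem hy) hz))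
          simpa [S, smul_mul', mul_assoc] using this) (by
          have : S = (x * ·) '' (K : Set N) := by
            ext y
            exact ⟨fun h => ⟨_, h, mul_inv_cancel_left x y⟩, fun ⟨k, hk, e⟩ => by simpa [S, ← e] using hk⟩
          rw [this, Set.ncard_image_of_injective _ (mul_right_injective x), ← Nat.card_coe_set_eq]
          exact hcop K hK) (h := g) (x := x) (y := x * k) (by simp [S]) (by simpa [S] using hk) hg
      rw [smul_mul', mem_stabilizer_iff.1 hg] at this
      exact mul_left_cancel this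
    obtain ⟨x, -, hx⟩ := SetLike.exists_of_lt (lt_top_iff_ne_top.2 hc.2)
    have hall : ∀ y : N, y ≠ 1 → stabilizer H y = stabilizer H x := fun y hy => by
      by_cases e : y ∈ K
      · exact (hout x hx y e hy).symm
      · exact (hout y e k hk hk1).trans (hout x hx k hk hk1).symm
    exact hy₀ (((hall x₀ hx₀).trans (hall y₀ hy1).symm).le hh)
  have hconj : ∀ (x a : N) (g : H), g • x = x → g • (a * x * a⁻¹) = a * x * a⁻¹ := by
    intro x a g hg
    by_cases hx : x = 1
    · simp [hx]
    refine key hd (orbit (ConjAct N) x) ?_ ?_ ?_ (mem_orbit_self x) ⟨ConjAct.toConjAct a, rfl⟩ hg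
    · rintro ⟨b, hb⟩
      exact hx (by simpa [ConjAct.smul_def] using hb)
    · rintro g _ ⟨b, rfl⟩ ⟨c, hc⟩ _ ⟨e, rfl⟩
      refine ⟨ConjAct.toConjAct (g • (ConjAct.ofConjAct e * (ConjAct.ofConjAct b)⁻¹)) * c, ?_⟩
      simp only at hc ⊢
      rw [mul_smul, hc]
      simp only [ConjAct.smul_def, ConjAct.ofConjAct_toConjAct, smul_mul', smul_inv']
      group
    · refine (hcop ⊤ fun _ _ _ => Subgroup.mem_top _).coprime_dvd_left ?_
      rw [← index_stabilizer, Subgroup.card_top]
      exact Subgroup.index_dvd_card _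
  have hcomm : ∀ x y : N, x ≠ 1 → y ≠ 1 → stabilizer H x ≠ stabilizer H y → x * y = y * x := by
    intro x y hx hy hne
    by_contra hc
    have h1 : x * y * x⁻¹ * y⁻¹ ≠ 1 := fun e => hc (by rwa [mul_inv_eq_one, mul_inv_eq_iff_eq_mul] at e)
    refine hne ((hord x _ hx h1 fun g hg => ?_).trans (hord y _ hy h1 fun g hg => ?_).symm)
    · have hg' : g • x = x := hg
      have := hconj x⁻¹ y g (by rw [smul_inv', hg'])
      rw [mem_stabilizer_iff, mul_assoc, mul_assoc, ← mul_assoc y, smul_mul', this, hg']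
    · have hg' : g • y = y := hg
      rw [mem_stabilizer_iff, smul_mul', hconj y x g hg', smul_inv', hg']
  intro a b
  by_cases ha : a = 1
  · simp [ha]
  by_cases hb : b = 1
  · simp [hb]
  by_cases hab : stabilizer H a = stabilizer H b
  swap
  · exact hcomm a b ha hb hab
  obtain ⟨y, hy, hay⟩ : ∃ y : N, y ≠ 1 ∧ stabilizer H a ≠ stabilizer H y := by
    by_cases e : stabilizer H a = stabilizer H x₀
    · exact ⟨y₀, hy1, fun e' => hy₀ ((e.symm.trans e').le hh)⟩
    · exact ⟨x₀, hx₀, e⟩
  have key2 : ∀ g : H, g • a = a → g • (b * y) = b * y → g • y = y := fun g h1 h2 => by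
    rw [smul_mul', mem_stabilizer_iff.1 (hab.le h1)] at h2
    exact mul_left_cancel h2
  have h1 : b * y ≠ 1 := fun e => hay (hord a y ha hy fun g hg => key2 g hg (by rw [e, smul_one]))
  have h2 := hcomm a (b * y) ha h1 fun e => hay (hord a y ha hy fun g hg => key2 g hg (e.le hg))
  rw [← mul_assoc, mul_assoc b, ← hcomm a y ha hy hay, ← mul_assoc] at h2
  exact mul_right_cancel h2

/-- Let G be a finite 3/2-transitive permutation group: G acts faithfully and transitively on a finite set, the point stabilizers are non-trivial, and for each point a all orbits of G_a on the remaining points have the same size. Suppose G has a regular normal subgroup N and G is not a Frobenius group (some two-point stabilizer is non-trivial). Then N is an elementary abelian p-group for some prime p, and every non-trivial normal subgroup of G contains N (so N is the unique minimal normal subgroup). -/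
theorem result {G Ω : Type*} [Group G] [Finite G]
    [MulAction G Ω] [FaithfulSMul G Ω] [Finite Ω] (htrans : MulAction.IsPretransitive G Ω)
    (hne : ∀ a : Ω, MulAction.stabilizer G a ≠ ⊥)
    (hhalf : ∀ a b c : Ω, b ≠ a → c ≠ a →
      Nat.card (MulAction.orbit (MulAction.stabilizer G a) b) = Nat.card (MulAction.orbit (MulAction.stabilizer G a) c))
    (N : Subgroup G) [hN : N.Normal] (hNt : MulAction.IsPretransitive N Ω) (hNr : ∀ a : Ω, MulAction.stabilizer N a = ⊥)
    (hnotF : ∃ a b : Ω, a ≠ b ∧ MulAction.stabilizer G a ⊓ MulAction.stabilizer G b ≠ ⊥) :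
    (∃ p : ℕ, p.Prime ∧ IsMulCommutative N ∧ ∀ x ∈ N, x ^ p = 1) ∧
    (∀ M : Subgroup G, M.Normal → M ≠ ⊥ → N ≤ M) := by
  obtain ⟨a, b, hab, hne'⟩ := hnotF
  let H := stabilizer G a
  let _ : MulDistribMulAction H N := MulDistribMulAction.compHom N ((MulAut.conjNormal (H := N)).comp H.subtype)
  have hsm : ∀ (h : H) (x : N), ((h • x : N) : G) = h * x * (h : G)⁻¹ := fun h x => rfl
  have hact : ∀ (h : H) (x : N), (h • x) • a = h • x • a := fun h x => by
    change ((h • x : N) : G) • a = (h : G) • (x : G) • a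
    rw [hsm, mul_smul, mul_smul, show (h : G)⁻¹ • a = a from (h⁻¹).2]
  have hinj : ∀ (c : Ω) (x y : N), x • c = y • c → x = y := fun c x y e => by
    have : y⁻¹ * x ∈ stabilizer N c := by rw [mem_stabilizer_iff, mul_smul, e, inv_smul_smul]
    rw [hNr c, Subgroup.mem_bot] at this
    exact (inv_mul_eq_one.1 this).symm
  have hst : ∀ x : N, stabilizer H x = stabilizer H (x • a) := fun x => Subgroup.ext fun h =>
    ⟨fun e => by rw [mem_stabilizer_iff, ← hact, mem_stabilizer_iff.1 e],
      fun e => hinj a _ _ (by rw [hact, mem_stabilizer_iff.1 e])⟩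
  have hd : ∀ x : N, x ≠ 1 → (orbit H x).ncard = (orbit H b).ncard := fun x hx => by
    rw [← index_stabilizer, hst, index_stabilizer, ← Nat.card_coe_set_eq, ← Nat.card_coe_set_eq]
    exact hhalf a _ b (fun e => hx (hinj a _ _ (by rw [e, one_smul]))) hab.symm
  obtain ⟨⟨h, hha, hhb⟩, hh1⟩ := Subgroup.ne_bot_iff_exists_ne_one.1 hne'
  obtain ⟨x₀, rfl⟩ := hNt.exists_smul_eq a b
  have hx₀ : x₀ ≠ 1 := fun e => hab (by rw [e, one_smul])
  obtain ⟨y₀, hy₀⟩ : ∃ y : N, (⟨h, hha⟩ : H) • y ≠ y := by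
    by_contra hc
    push Not at hc
    refine hh1 (Subtype.ext (eq_of_smul_eq_smul fun c : Ω => ?_))
    obtain ⟨y, rfl⟩ := hNt.exists_smul_eq a c
    have := hact ⟨h, hha⟩ y
    rw [hc] at this
    exact this.symm.trans (one_smul _ _).symm
  obtain ⟨hprim, hab'⟩ := main hd (h := ⟨h, hha⟩) hx₀ ((hst x₀).ge hhb) hy₀
  constructor
  · have : Nontrivial N := ⟨⟨x₀, 1, hx₀⟩⟩
    obtain ⟨p, hp, hd⟩ := Nat.exists_prime_and_dvd (Finite.one_lt_card (α := N)).ne'
    have : Fact p.Prime := ⟨hp⟩
    obtain ⟨y, hy⟩ := exists_prime_orderOf_dvd_card' p hd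
    let K : Subgroup N :=
      { carrier := {x | x ^ p = 1}
        mul_mem' := fun {x y} hx hy => by
          rw [Set.mem_ofPred_eq, (show Commute x y from hab' x y).mul_pow, hx, hy, mul_one]
        one_mem' := one_pow p
        inv_mem' := fun hx => by rw [Set.mem_ofPred_eq, inv_pow, hx, inv_one] }
    refine ⟨p, hp, ⟨⟨hab'⟩⟩, fun x hx => ?_⟩
    rcases hprim K (fun g x hx => show (g • x) ^ p = 1 by rw [← smul_pow', hx, smul_one]) with e | e
    · have : y ∈ K := show y ^ p = 1 by rw [← hy, pow_orderOf_eq_one]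
      rw [e, Subgroup.mem_bot] at this
      rw [this, orderOf_one] at hy
      exact absurd hy hp.one_lt.ne
    · exact congrArg Subtype.val (show (⟨x, hx⟩ : N) ^ p = 1 from e.ge (Subgroup.mem_top _))
  · intro M hM hM1
    rcases hprim (M.subgroupOf N) (fun g x hx => hM.conj_mem _ hx _) with e | e
    · exfalso
      refine hM1 (eq_bot_iff.2 fun m hm => ?_)
      have hc : ∀ y : N, m * y = y * m := fun y => by
        have h1 : (⟨m * y * m⁻¹ * (y : G)⁻¹, N.mul_mem (hN.conj_mem _ y.2 m) (N.inv_mem y.2)⟩ : N) ∈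
            M.subgroupOf N := by
          rw [Subgroup.mem_subgroupOf, Subgroup.coe_mk, mul_assoc, mul_assoc, ← mul_assoc (y : G)]
          exact M.mul_mem hm (hM.conj_mem _ (M.inv_mem hm) _)
        rw [e, Subgroup.mem_bot] at h1
        have := congrArg Subtype.val h1
        rwa [Subgroup.coe_mk, OneMemClass.coe_one, mul_inv_eq_one, mul_inv_eq_iff_eq_mul] at this
      obtain ⟨n, hn⟩ := hNt.exists_smul_eq a (m • a)
      have hmn : m = n := eq_of_smul_eq_smul fun c : Ω => by
        obtain ⟨y, rfl⟩ := hNt.exists_smul_eq a c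
        change m • (y : G) • a = (n : G) • (y : G) • a
        rw [← mul_smul, hc, mul_smul, ← hn, ← mul_smul (n : G), ← Subgroup.coe_mul, hab', Subgroup.coe_mul, mul_smul]
        rfl
      have : n ∈ M.subgroupOf N := by rw [Subgroup.mem_subgroupOf, ← hmn]; exact hm
      rw [e, Subgroup.mem_bot] at this
      rw [hmn, this]; exact Subgroup.one_mem _
    · exact Subgroup.subgroupOf_eq_top.1 e

end Cfsg.Agent.S3356
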