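import Cfsg.Statements.S3357
import Cfsg.Agent.Lib.FrobCompl.Reduce

set_option autoImplicit false
open Cfsg

namespace Cfsg.Agent.S3357

theorem exists_fin_rep {F G V : Type*} [Field F] [Group G] [AddCommGroup V] [Module F V]
    [FiniteDimensional F V] (ρ : Representation F G V)
    (hρ : ∀ g : G, g ≠ 1 → ∀ v, ρ g v = v → v = 0) :
    ∃ σ : Representation F G (Fin (Module.finrank F V) → F),
      ∀ g : G, g ≠ 1 → ∀ v, σ g v = v → v = 0 := by
  let e : V ≃ₗ[F] (Fin (Module.finrank F V) → F) := (Module.finBasis F V).equivFun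
  refine ⟨(e.conjAlgEquiv F).toMonoidHom.comp ρ, fun g hg v hv => ?_⟩
  have h1 : e (ρ g (e.symm v)) = v := hv
  have h2 : ρ g (e.symm v) = e.symm v := by rw [LinearEquiv.eq_symm_apply]; exact h1
  simpa using hρ g hg _ h2

theorem exists_irred {F G : Type*} [Field F] [Group G] (h : CfsgLib.FrobCompl.HasFree F G) :
    ∃ (n : ℕ) (ρ : Representation F G (Fin n → F)), 0 < n ∧
      (∀ g : G, g ≠ 1 → ∀ v, ρ g v = v → v = 0) ∧
      ∀ W : Submodule F (Fin n → F), (∀ g : G, ∀ w ∈ W, ρ g w ∈ W) → W = ⊥ ∨ W = ⊤ := by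
  classical
  obtain ⟨ρ, hn, hρ⟩ := Nat.find_spec h
  refine ⟨_, ρ, hn, hρ, fun W hW => ?_⟩
  by_contra hcon
  push Not at hcon
  let σ : Representation F G W :=
    { toFun := fun g => (ρ g).restrict (hW g)
      map_one' := by ext; simp
      map_mul' := fun g h => by ext; simp }
  obtain ⟨τ, hτ⟩ := exists_fin_rep σ fun g hg v hv =>
    Subtype.ext (hρ g hg _ (congrArg Subtype.val hv))
  have hlt : Module.finrank F W < Nat.find h := by
    have := Submodule.finrank_lt hcon.2
    simpa using this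
  refine Nat.find_min h hlt ⟨τ, ?_, hτ⟩
  rw [Nat.pos_iff_ne_zero, Ne, Submodule.finrank_eq_zero]
  exact hcon.1


/-- Let G be a finite group that occurs as a Frobenius complement. Then G has a faithful irreducible representation over an algebraic closure of the rationals in which no non-identity element of G has 1 as an eigenvalue: there are n ≥ 1 and an injective homomorphism ρ from G to GL(n) over that field, with no invariant subspace other than 0 and the whole space, such that for g ≠ 1 the only vector fixed by ρ(g) is 0. -/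
theorem result {G : Type*} [Group G] [Finite G]
    (hFC : ∃ (L : Type) (_ : Group L) (_ : Finite L) (H : Subgroup L), Cfsg.IsFrobeniusComplement H ∧ Nonempty (G ≃* H)) :
    ∃ (n : ℕ) (ρ : G →* GL (Fin n) (AlgebraicClosure ℚ)), 0 < n ∧ Function.Injective ρ ∧
      (∀ W : Submodule (AlgebraicClosure ℚ) (Fin n → AlgebraicClosure ℚ),
        (∀ g : G, ∀ w ∈ W, ((ρ g : GL (Fin n) (AlgebraicClosure ℚ)) : Matrix (Fin n) (Fin n) (AlgebraicClosure ℚ)).mulVec w ∈ W) → W = ⊥ ∨ W = ⊤) ∧
      ∀ g : G, g ≠ 1 → ∀ v : Fin n → AlgebraicClosure ℚ,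
        ((ρ g : GL (Fin n) (AlgebraicClosure ℚ)) : Matrix (Fin n) (Fin n) (AlgebraicClosure ℚ)).mulVec v = v → v = 0 := by
  obtain ⟨n, ρ, hn, hρ, hirr⟩ :=
    exists_irred (CfsgLib.FrobCompl.IsFC.hasFree hFC (AlgebraicClosure ℚ))
  let σ : G →* Matrix (Fin n) (Fin n) (AlgebraicClosure ℚ) :=
    (LinearMap.toMatrixAlgEquiv' (R := AlgebraicClosure ℚ) (n := Fin n)).toMonoidHom.comp ρ
  have hσ : ∀ g v, ((σ.toHomUnits g : GL (Fin n) (AlgebraicClosure ℚ)) :
      Matrix (Fin n) (Fin n) (AlgebraicClosure ℚ)).mulVec v = ρ g v := by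
    intro g v
    change (LinearMap.toMatrix' (ρ g)).mulVec v = _
    rw [LinearMap.toMatrix'_mulVec]
  refine ⟨n, σ.toHomUnits, hn, ?_, fun W hW => hirr W fun g w hw => hσ g w ▸ hW g w hw,
    fun g hg v hv => hρ g hg v (hσ g v ▸ hv)⟩
  rw [injective_iff_map_eq_one]
  intro g hg
  by_contra hg1
  have h1 := hρ g hg1 (fun _ => 1) (by rw [← hσ, hg]; simp)
  exact one_ne_zero (congrFun h1 ⟨0, hn⟩)

end Cfsg.Agent.S3357
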