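import Cfsg.Statements.S3358
import Cfsg.Agent.Lib.FrobCompl.ZPres
import Cfsg.Agent.Lib.FrobCompl.Solv
import Cfsg.Agent.Lib.FrobCompl.Reduce

set_option autoImplicit false
open Cfsg

namespace Cfsg.Agent.S3358

open CfsgLib CfsgLib.FrobCompl Subgroup

theorem mem_center_of_squarefree {G : Type*} [Group G] [Finite G] [IsZGroup G] (h : Frob.PQCond G)
    {u : G} (hu : Squarefree (orderOf u)) (hc : (orderOf u).Coprime (Nat.card (commutator G))) :
    u ∈ center G := by
  rw [← QuotientGroup.eq_one_iff, ← orderOf_eq_one_iff]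
  by_contra hne
  obtain ⟨p, hp, hd⟩ := Nat.exists_prime_and_dvd hne
  obtain ⟨k, hk⟩ := hd.trans (orderOf_map_dvd (QuotientGroup.mk' (center G)) u)
  have hk0 : k ≠ 0 := by rintro rfl; exact hu.ne_zero (by simpa using hk)
  have h1 : orderOf (u ^ k) = p := by
    rw [orderOf_pow_of_dvd hk0 (hk ▸ dvd_mul_left _ _), hk, Nat.mul_div_cancel _ (by omega)]
  have h2 := h.mem_center (x := u ^ k) (h1 ▸ hp) (by
    rw [h1, ← hp.coprime_iff_not_dvd]; exact hc.coprime_dvd_left (hk ▸ dvd_mul_right _ _))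
  rw [← QuotientGroup.eq_one_iff, QuotientGroup.mk_pow, ← orderOf_dvd_iff_pow_eq_one] at h2
  exact hp.one_lt.ne' (Nat.isUnit_iff.1 (hu p (hk ▸ mul_dvd_mul_left p (hd.trans h2))))


/-- Structure of solvable Frobenius complements. Let G be a finite solvable group that occurs as a Frobenius complement. Then G has a normal subgroup G₀ such that G/G₀ is isomorphic to a subgroup of Sym(4) (G₀ is the kernel of a homomorphism to Sym(4)), all Sylow subgroups of G₀ are cyclic, and G₀ has a presentation ⟨x, y | x^n = 1, y^m = 1, x⁻¹ y x = y^r⟩ with n, m ≥ 1, gcd(r − 1, m) = gcd(n, m) = 1 and r^(n/n′) ≡ 1 (mod m), where n′ is the product of the distinct primes dividing n. -/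
theorem result {G : Type*} [Group G] [Finite G] (hsol : Group.IsSolvable G)
    (hFC : ∃ (L : Type) (_ : Group L) (_ : Finite L) (H : Subgroup L), Cfsg.IsFrobeniusComplement H ∧ Nonempty (G ≃* H)) :
    ∃ G₀ : Subgroup G, G₀.Normal ∧
      (∃ f : G →* Equiv.Perm (Fin 4), f.ker = G₀) ∧
      (∀ (p : ℕ) [Fact p.Prime] (P : Sylow p G₀), IsCyclic P) ∧
      ∃ n m r : ℕ, 0 < n ∧ 0 < m ∧ Nat.Coprime (r - 1) m ∧ Nat.Coprime n m ∧ 1 ≤ r ∧
        r ^ (n / ∏ p ∈ n.primeFactors, p) % m = 1 % m ∧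
        Nonempty (G₀ ≃* PresentedGroup
          ({FreeGroup.of (0 : Fin 2) ^ n, FreeGroup.of (1 : Fin 2) ^ m,
            (FreeGroup.of (0 : Fin 2))⁻¹ * FreeGroup.of 1 * FreeGroup.of 0 * (FreeGroup.of (1 : Fin 2) ^ r)⁻¹} :
            Set (FreeGroup (Fin 2)))) := by
  have h : Frob.PQCond G := IsFC.pqCond hFC
  obtain ⟨f, hf⟩ : ∃ f : G →* Equiv.Perm (Fin 4), IsZGroup f.ker := by
    by_cases h1 : IsZGroup G
    · exact ⟨1, inferInstance⟩
    by_cases h2 : HasNormalPComplement 2 G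
    · obtain ⟨f, -, h4⟩ := exists_hom_four h h2 h1
      let e : DihedralGroup 2 ≃ Fin 4 := Fintype.equivFinOfCardEq (by decide)
      refine ⟨(e.permCongrHom.toMonoidHom.comp (MulAction.toPermHom _ _)).comp f, ?_⟩
      rwa [← MonoidHom.comap_ker, (MonoidHom.ker_eq_bot_iff _).2
        (e.permCongrHom.injective.comp MulAction.toPerm_injective)]
    obtain ⟨Q, _, ⟨e⟩⟩ := exists_normal_Q8 h h2
    have := isZGroup_centralizer_Q8 h e
    rcases exists_hom_of_normal_Q8 h h2 e with ⟨f, -, hf⟩ | ⟨f, -, hf⟩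
    · refine ⟨(Subgroup.subtype _).comp f, ?_⟩
      rwa [← MonoidHom.comap_ker, ker_subtype, MonoidHom.comap_bot, hf]
    · exact ⟨f, hf ▸ this⟩
  refine ⟨f.ker, inferInstance, ⟨f, rfl⟩, fun _ _ _ => inferInstance, ?_⟩
  obtain ⟨x, y, r, h1, h2, h3, h4, h5, h6, h7⟩ := exists_gens_of_isZGroup f.ker
  refine ⟨_, _, r, orderOf_pos x, orderOf_pos y, h3, h4, h5, pow_mod_of_commute h2 ?_,
    nonempty_equiv_relsZ h1 h2 h7⟩
  have h8 := Nat.prod_primeFactors_dvd (orderOf x)
  have h9 : orderOf (x ^ (orderOf x / ∏ p ∈ (orderOf x).primeFactors, p)) =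
      ∏ p ∈ (orderOf x).primeFactors, p := by
    rw [orderOf_pow_of_dvd (Nat.div_pos (Nat.le_of_dvd (orderOf_pos x) h8)
      (Nat.pos_of_dvd_of_pos h8 (orderOf_pos x))).ne' (Nat.div_dvd_of_dvd h8),
      Nat.div_div_self h8 (orderOf_pos x).ne']
  refine mem_center_iff.1 (mem_center_of_squarefree (h.subgroup _) ?_ ?_) y
  · rw [h9]
    exact Finset.squarefree_prod_of_pairwise_isCoprime (fun p hp q hq hpq =>
      Nat.coprime_iff_isRelPrime.1 ((Nat.coprime_primes (Nat.prime_of_mem_primeFactors hp)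
        (Nat.prime_of_mem_primeFactors hq)).2 hpq))
      fun p hp => (Nat.prime_of_mem_primeFactors hp).prime.squarefree
  · rw [h9, ← h6, Nat.card_zpowers]
    exact h4.coprime_dvd_left h8

end Cfsg.Agent.S3358
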