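import Cfsg.Statements.S3362
import Mathlib
import Cfsg.Agent.Lib.TGolay.Code
import Cfsg.Agent.Lib.Steiner.Aut
import Cfsg.Agent.Lib.Comput.PermFacts
import Cfsg.Agent.Lib.Comput.Check

set_option autoImplicit false
open Cfsg

namespace Cfsg.Agent.S3362

open CfsgLib CfsgLib.TGolay MulAction Pointwise

def L : List ℕ := [63, 219, 237, 246, 350, 363, 373, 413, 430, 435, 455, 504, 591, 627, 636, 670, 679, 697, 725, 746, 791, 813, 826, 857, 870, 907, 948, 972, 978, 993, 1117, 1127, 1146, 1175, 1195, 1212, 1230, 1265, 1295, 1334, 1337, 1363, 1388, 1434, 1445, 1481, 1492, 1506, 1563, 1582, 1589, 1622, 1641, 1677, 1714, 1731, 1752, 1764, 1820, 1827, 1861, 1866, 1904, 1926, 1937, 1960, 2135, 2158, 2169, 2191, 2229, 2234, 2268, 2275, 2331, 2343, 2364, 2381, 2418, 2454, 2473, 2506, 2513, 2532, 2589, 2603, 2614, 2650, 2661, 2707, 2732, 2758, 2761, 2800, 2830, 2865, 2883, 2900, 2920, 2949, 2968, 2978, 3102, 3117, 3123, 3147, 3188,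 3225, 3238, 3269, 3282, 3304, 3349, 3370, 3398, 3416, 3425, 3459, 3468, 3504, 3591, 3640, 3660, 3665, 3682, 3722, 3732, 3745, 3849, 3858, 3876, 4032]

def B : Set (Finset (Fin 12)) := {h | toMask Fin.val h ∈ L}

theorem L_spec : ∀ m ∈ L, toMask Fin.val (ofMask (Fin.val : Fin 12 → ℕ) m) = m ∧
    (ofMask (Fin.val : Fin 12 → ℕ) m).card = 6 := by decide +kernel

theorem card_ofMask (m : ℕ) : (ofMask (Fin.val : Fin 12 → ℕ) m).card = pop12 m := by
  have hb : ∀ b : Bool, (if b = true then 1 else 0) = b.toNat := by decide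
  rw [ofMask, Finset.card_filter]
  simp only [hb, Fin.sum_univ_succ, Finset.univ_eq_empty, Finset.sum_empty, pop12, add_assoc, add_zero]
  rfl

theorem aux : ∀ m < 2 ^ 12, pop12 m = 5 → (L.filter fun h => m &&& h == m).length = 1 ∧
    toMask Fin.val (ofMask (Fin.val : Fin 12 → ℕ) m) = m :=
  forall_lt_pow_of_allPow 12 (by decide +kernel)

theorem steiner : IsSteinerSystem 5 6 B := by
  refine ⟨fun b hb => ?_, ?_⟩
  · rw [← ofMask_toMask Fin.val_injective b]; exact (L_spec _ hb).2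
  · refine forall_of_forall_mask Fin.val_injective Fin.isLt
      (P := fun s => s.card = 5 → ∃! b, b ∈ B ∧ s ⊆ b) ?_
    intro m hm h5
    obtain ⟨h1, h2⟩ := aux m hm (card_ofMask m ▸ h5)
    obtain ⟨h, hh⟩ := List.length_eq_one_iff.mp h1
    have hmem : ∀ k, (k ∈ L ∧ m &&& k = m) ↔ k = h := by
      intro k
      have : k ∈ (L.filter fun h => m &&& h == m) ↔ k = h := by rw [hh]; simp
      simpa using this
    obtain ⟨a1, a2⟩ := (hmem h).mpr rfl
    refine ⟨ofMask Fin.val h, ⟨?_, ofMask_subset_of_land _ a2⟩, ?_⟩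
    · change toMask _ _ ∈ L
      rw [(L_spec h a1).1]; exact a1
    · rintro b ⟨hb1, hb2⟩
      have := toMask_land_of_subset Fin.val_injective hb2
      rw [h2] at this
      rw [← (hmem _).mp ⟨hb1, this⟩, ofMask_toMask Fin.val_injective]

theorem mem_aut {g : Equiv.Perm (Fin 12)}
    (h : ∀ m ∈ L, toMask (fun a => (g a).val) (ofMask Fin.val m) ∈ L) : g ∈ setSystemAut B := by
  refine Set.eq_of_subset_of_ncard_le ?_ (Set.ncard_smul_set g B).ge
  rintro _ ⟨b, hb, rfl⟩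
  have := h _ hb
  rw [ofMask_toMask Fin.val_injective] at this
  change toMask _ (b.image g) ∈ L
  rwa [toMask, Finset.sum_image fun a _ b _ h => g.injective h]

theorem step {K : Set (Equiv.Perm (Fin 12))} {X : Set (Equiv.Perm (Fin 12))} (hKX : K ⊆ X)
    {x : Equiv.Perm (Fin 12)} (hx : x ∈ X) {a b : Fin 12} (hab : x a = b) (hK : ∀ g ∈ K, g a = a)
    {S : Finset (Fin 12)} (ha : a ∉ S) {n : ℕ}
    (h : (∀ c ∈ S, c ∈ orbit (Subgroup.closure K) b) ∧ n ≤ Nat.card (Subgroup.closure K)) :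
    (∀ c ∈ insert a S, c ∈ orbit (Subgroup.closure X) a) ∧
      (S.card + 1) * n ≤ Nat.card (Subgroup.closure X) := by
  have h1 : ∀ c ∈ insert a S, c ∈ orbit (Subgroup.closure X) a := fun c hc => by
    rcases Finset.mem_insert.1 hc with rfl | hc
    · exact mem_orbit_self _
    · obtain ⟨g, rfl⟩ := h.1 c hc
      exact ⟨⟨g * x, mul_mem (Subgroup.closure_mono hKX g.2) (Subgroup.subset_closure hx)⟩,
        congrArg (g : Equiv.Perm (Fin 12)) hab⟩
  refine ⟨h1, ?_⟩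
  rw [Comput.card_eq_ncard_orbit_mul _ a]
  refine Nat.mul_le_mul ?_ (h.2.trans (Subgroup.card_le_of_le (le_inf (Subgroup.closure_mono hKX)
    ((Subgroup.closure_le _).2 hK))))
  rw [← Finset.card_insert_of_notMem ha, ← Set.ncard_coe_finset]
  exact Set.ncard_le_ncard h1


/-- An explicit construction of the Mathieu groups of degrees 11 and 12. On the points 0, …, 11 let s = (3 4 5)(6 7 8)(9 10 11), t = (3 6 9)(4 7 10)(5 8 11), u = (4 6 5 9)(7 8 11 10), v = (4 7 5 11)(6 10 9 8), w = (4 10 5 8)(6 11 9 7), x₁ = (0 3)(6 7)(8 10)(9 11), x₂ = (0 1)(6 9)(7 10)(8 11), x₃ = (1 2)(6 11)(7 9)(8 10) (each written as a product of transpositions). Then the group M₁₂ generated by all eight permutations is sharply 5-transitive on the 12 points and has order 95040, and the group M₁₁ generated by the first seven has order 7920 and is the stabilizer of the point 2 in M₁₂. -/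
theorem result
    (s t u v w x₁ x₂ x₃ : Equiv.Perm (Fin 12))
    (hs : s = Equiv.swap (3 : Fin 12) 5 * Equiv.swap (3 : Fin 12) 4 * Equiv.swap (6 : Fin 12) 8 * Equiv.swap (6 : Fin 12) 7 * Equiv.swap (9 : Fin 12) 11 * Equiv.swap (9 : Fin 12) 10) (ht : t = Equiv.swap (3 : Fin 12) 9 * Equiv.swap (3 : Fin 12) 6 * Equiv.swap (4 : Fin 12) 10 * Equiv.swap (4 : Fin 12) 7 * Equiv.swap (5 : Fin 12) 11 * Equiv.swap (5 : Fin 12) 8)
    (hu : u = Equiv.swap (4 : Fin 12) 9 * Equiv.swap (4 : Fin 12) 5 * Equiv.swap (4 : Fin 12) 6 * Equiv.swap (7 : Fin 12) 10 * Equiv.swap (7 : Fin 12) 11 * Equiv.swap (7 : Fin 12) 8) (hv : v = Equiv.swap (4 : Fin 12) 11 * Equiv.swap (4 : Fin 12) 5 * Equiv.swap (4 : Fin 12) 7 * Equiv.swap (6 : Fin 12) 8 * Equiv.swap (6 : Fin 12) 9 * Equiv.swap (6 : Fin 12) 10) (hw : w = Equiv.swap (4 : Fin 12) 8 * Equiv.swap (4 : Fin 12) 5 * Equiv.swap (4 : Fin 12) 10 * Equiv.swap (6 : Fin 12) 7 * Equiv.swap (6 : Fin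 12) 9 * Equiv.swap (6 : Fin 12) 11)
    (hx₁ : x₁ = Equiv.swap (0 : Fin 12) 3 * Equiv.swap (6 : Fin 12) 7 * Equiv.swap (8 : Fin 12) 10 * Equiv.swap (9 : Fin 12) 11) (hx₂ : x₂ = Equiv.swap (0 : Fin 12) 1 * Equiv.swap (6 : Fin 12) 9 * Equiv.swap (7 : Fin 12) 10 * Equiv.swap (8 : Fin 12) 11)
    (hx₃ : x₃ = Equiv.swap (1 : Fin 12) 2 * Equiv.swap (6 : Fin 12) 11 * Equiv.swap (7 : Fin 12) 9 * Equiv.swap (8 : Fin 12) 10)
    (M₁₂ M₁₁ : Subgroup (Equiv.Perm (Fin 12))) (hM₁₂ : M₁₂ = Subgroup.closure {s, t, u, v, w, x₁, x₂, x₃})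
    (hM₁₁ : M₁₁ = Subgroup.closure {s, t, u, v, w, x₁, x₂}) :
    MulAction.IsMultiplyPretransitive M₁₂ (Fin 12) 5 ∧ (∀ y : Fin 5 ↪ Fin 12, MulAction.stabilizer M₁₂ y = ⊥) ∧
    Nat.card M₁₂ = 95040 ∧ Nat.card M₁₁ = 7920 ∧
    M₁₁ = M₁₂ ⊓ MulAction.stabilizer (Equiv.Perm (Fin 12)) (2 : Fin 12) := by
  have h0 : (∀ c ∈ ({4, 5, 6, 7, 8, 9, 10, 11} : Finset (Fin 12)),
      c ∈ orbit (Subgroup.closure {u, v, w}) (4 : Fin 12)) ∧ 8 ≤ Nat.card (Subgroup.closure {u, v, w}) := by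
    let K := Subgroup.closure {u, v, w}
    let U : K := ⟨u, Subgroup.subset_closure (by simp)⟩
    let V : K := ⟨v, Subgroup.subset_closure (by simp)⟩
    let W : K := ⟨w, Subgroup.subset_closure (by simp)⟩
    have h1 : ∀ c ∈ ({4, 5, 6, 7, 8, 9, 10, 11} : Finset (Fin 12)), c ∈ orbit K (4 : Fin 12) := by
      simp only [Finset.mem_insert, Finset.mem_singleton, forall_eq_or_imp, forall_eq]
      refine ⟨mem_orbit_self _, ⟨U * U, show (u * u) 4 = 5 from ?_⟩, ⟨U, show u 4 = 6 from ?_⟩,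
        ⟨V, show v 4 = 7 from ?_⟩, ⟨W * W * W, show (w * w * w) 4 = 8 from ?_⟩,
        ⟨U * U * U, show (u * u * u) 4 = 9 from ?_⟩, ⟨W, show w 4 = 10 from ?_⟩,
        ⟨V * V * V, show (v * v * v) 4 = 11 from ?_⟩⟩ <;>
      simp only [hu, hv, hw] <;> decide
    refine ⟨h1, ?_⟩
    rw [Comput.card_eq_ncard_orbit_mul _ (4 : Fin 12)]
    refine le_mul_of_le_of_one_le ?_ Nat.card_pos
    refine le_trans ?_ (Set.ncard_le_ncard (s := (({4, 5, 6, 7, 8, 9, 10, 11} : Finset (Fin 12)) :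
      Set (Fin 12))) h1)
    rw [Set.ncard_coe_finset]; decide
  have h1 := step (X := {s, t, u, v, w}) (x := s) (a := 3) (by simp [Set.subset_def]) (by simp)
    (by rw [hs]; decide) (by
      simp only [Set.mem_insert_iff, Set.mem_singleton_iff, forall_eq_or_imp, forall_eq, hu, hv, hw]
      decide) (by decide) h0
  have h2 := step (X := {s, t, u, v, w, x₁}) (x := x₁) (a := 0) (by simp [Set.subset_def]) (by simp)
    (by rw [hx₁]; decide) (by
      simp only [Set.mem_insert_iff, Set.mem_singleton_iff, forall_eq_or_imp, forall_eq, hs, ht, hu,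
        hv, hw]
      decide) (by decide) h1
  have h3 := step (X := {s, t, u, v, w, x₁, x₂}) (x := x₂) (a := 1) (by simp [Set.subset_def])
    (by simp) (by rw [hx₂]; decide) (by
      simp only [Set.mem_insert_iff, Set.mem_singleton_iff, forall_eq_or_imp, forall_eq, hs, ht, hu,
        hv, hw, hx₁]
      decide) (by decide) h2
  have f2 : ∀ g ∈ ({s, t, u, v, w, x₁, x₂} : Set (Equiv.Perm (Fin 12))), g 2 = 2 := by
    simp only [Set.mem_insert_iff, Set.mem_singleton_iff, forall_eq_or_imp, forall_eq, hs, ht, hu,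
      hv, hw, hx₁, hx₂]
    decide
  have sub : ({s, t, u, v, w, x₁, x₂} : Set (Equiv.Perm (Fin 12))) ⊆ {s, t, u, v, w, x₁, x₂, x₃} := by
    simp [Set.subset_def]
  have h4 := step (x := x₃) (a := 2) sub (by simp) (by rw [hx₃]; decide) f2 (by decide) h3
  have c3 : 7920 ≤ Nat.card M₁₁ := hM₁₁ ▸ h3.2
  have c4 : 95040 ≤ Nat.card M₁₂ := hM₁₂ ▸ h4.2
  have sh := Steiner.sharp12 (Fintype.card_fin 12) steiner
  have cA : Nat.card (setSystemAut B) = 95040 := sh.card (by simp)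
  have e : M₁₂ = setSystemAut B := by
    refine Subgroup.eq_of_le_of_card_ge ?_ (cA.le.trans c4)
    rw [hM₁₂, Subgroup.closure_le]
    simp only [Set.subset_def, Set.mem_insert_iff, Set.mem_singleton_iff, forall_eq_or_imp,
      forall_eq, hs, ht, hu, hv, hw, hx₁, hx₂, hx₃]
    refine ⟨mem_aut ?_, mem_aut ?_, mem_aut ?_, mem_aut ?_, mem_aut ?_, mem_aut ?_, mem_aut ?_,
      mem_aut ?_⟩ <;> decide +kernel
  have le : M₁₁ ≤ M₁₂ ⊓ stabilizer (Equiv.Perm (Fin 12)) (2 : Fin 12) := by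
    rw [hM₁₁, hM₁₂]
    exact le_inf (Subgroup.closure_mono sub) ((Subgroup.closure_le _).2 f2)
  have c5 : Nat.card (M₁₂ ⊓ stabilizer (Equiv.Perm (Fin 12)) (2 : Fin 12) : Subgroup _) = 7920 := by
    rw [← Nat.card_congr (Comput.stabilizerEquivInf M₁₂ (2 : Fin 12)).toEquiv, e]
    have := sh.pretransitive (by simp)
    exact Comput.card_stabilizer_eq _ cA
  have e2 := Subgroup.eq_of_le_of_card_ge le (c5.le.trans c3)
  refine ⟨e ▸ sh.trans, e ▸ sh.sharp, e ▸ cA, e2 ▸ c5, e2⟩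

end Cfsg.Agent.S3362
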