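import Cfsg.Statements.S3374
import Cfsg.Agent.Lib.Recog.SpecCover
import Cfsg.Agent.Lib.FrobCompl.Basic
import Cfsg.Agent.Lib.SL2.Basic

set_option autoImplicit false
open Cfsg

namespace Cfsg.Agent.S3374

open CfsgLib.Recog

theorem isFC_of_cosetSum {H : Type*} [Group H] [Finite H] [Nontrivial H] (r : ℕ) [hr : Fact r.Prime]
    (hcop : ¬ r ∣ Nat.card H) (f : H → ZMod r) (hf0 : f ≠ 0)
    (hf : ∀ h : H, h ≠ 1 → ∀ x, cosetSum f h x = 0) : CfsgLib.FrobCompl.IsFC H := by
  classical
  let m : ℕ → ℕ := fun n => if n = 1 then 0 else 1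
  have hfm : f ∈ coverSub H (ZMod r) m := by
    intro h x
    by_cases h1 : h = 1
    · simp [m, h1]
    · rw [hf h h1, smul_zero]
  have hnt : Nontrivial (Multiplicative (coverSub H (ZMod r) m)) :=
    ⟨⟨Multiplicative.ofAdd ⟨f, hfm⟩, 1, fun h => hf0 (congrArg (fun u => (u.toAdd : H → ZMod r)) h)⟩⟩
  refine (CfsgLib.FrobCompl.isFCI_of_action (coverAct H (ZMod r) m) ?_).isFC
  intro g hg v hv
  have h1 : ∀ x, (v.toAdd : H → ZMod r) (x * g) = (v.toAdd : H → ZMod r) x := fun x =>
    congrArg (fun u => (u.toAdd : H → ZMod r) x) hv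
  have h2 : ∀ (j : ℕ) x, (v.toAdd : H → ZMod r) (x * g ^ j) = (v.toAdd : H → ZMod r) x := by
    intro j x
    induction j with
    | zero => simp
    | succ j ih => rw [pow_succ, ← mul_assoc, h1, ih]
  apply Multiplicative.toAdd.injective
  ext x
  have h3 := v.toAdd.2 g x
  have ho : orderOf g ≠ 1 := by simpa using hg
  simp only [m, if_neg ho, one_smul, cosetSum, h2, Finset.sum_const, Finset.card_range,
    nsmul_eq_mul, mul_eq_zero, ZMod.natCast_eq_zero_iff] at h3
  rcases h3 with h3 | h3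
  · exact absurd (h3.trans (orderOf_dvd_natCard g)) hcop
  · exact h3

local instance factFive : Fact (Nat.Prime 5) := ⟨Nat.prime_five⟩
local instance factSeven : Fact (Nat.Prime 7) := ⟨by norm_num⟩

abbrev T := ZMod 5 × ZMod 5 × ZMod 5 × ZMod 5

def tmul (x y : T) : T :=
  (x.1 * y.1 + x.2.1 * y.2.2.1, x.1 * y.2.1 + x.2.1 * y.2.2.2,
    x.2.2.1 * y.1 + x.2.2.2 * y.2.2.1, x.2.2.1 * y.2.1 + x.2.2.2 * y.2.2.2)

def tone : T := (1, 0, 0, 1)

def tdet (x : T) : ZMod 5 := x.1 * x.2.2.2 - x.2.1 * x.2.2.1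

def F (x : T) : ZMod 7 :=
  if x.1 + x.2.2.2 = 0 then 0 else if x.1 + x.2.2.2 = 4 then -2 else if x.1 + x.2.2.2 = 1 then 2
  else if x.1 + x.2.2.2 = 2 then (if x.2.1 = 0 ∧ x.2.2.1 = 0 then 4 else -1)
  else (if x.2.1 = 0 ∧ x.2.2.1 = 0 then -4 else 1)

def e (g : Matrix.SpecialLinearGroup (Fin 2) (ZMod 5)) : T := (g 0 0, g 0 1, g 1 0, g 1 1)

theorem e_one : e 1 = tone := rfl

theorem e_mul (g h : Matrix.SpecialLinearGroup (Fin 2) (ZMod 5)) : e (g * h) = tmul (e g) (e h) := by
  simp only [e, tmul, CfsgLib.SL2.mul_ap]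

theorem e_inj : Function.Injective e := by
  intro g h H
  simp only [e, Prod.mk.injEq] at H
  exact CfsgLib.SL2.ext2 H.1 H.2.1 H.2.2.1 H.2.2.2

theorem e_det (g : Matrix.SpecialLinearGroup (Fin 2) (ZMod 5)) : tdet (e g) = 1 :=
  CfsgLib.SL2.det_eq g

theorem chk2 : ∀ h : T, tdet h = 1 → h ≠ tone → tmul h h = tone → ∀ x : T, tdet x = 1 →
    F x + F (tmul x h) = 0 := by decide +kernel

theorem chk3 : ∀ h : T, tdet h = 1 → h ≠ tone → tmul (tmul h h) h = tone → ∀ x : T, tdet x = 1 →
    F x + F (tmul x h) + F (tmul x (tmul h h)) = 0 := by decide +kernel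

theorem chk5 : ∀ h : T, tdet h = 1 → h ≠ tone → tmul (tmul (tmul (tmul h h) h) h) h = tone →
    ∀ x : T, tdet x = 1 →
    F x + F (tmul x h) + F (tmul x (tmul h h)) + F (tmul x (tmul (tmul h h) h)) +
      F (tmul x (tmul (tmul (tmul h h) h) h)) = 0 := by decide +kernel


/-- SL(2,5) occurs as a Frobenius complement: there is a finite group L with a subgroup H isomorphic to SL(2,5) which is a non-trivial proper subgroup meeting each conjugate gHg⁻¹ with g outside H trivially. -/
theorem result :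
    ∃ (L : Type) (_ : Group L) (_ : Finite L) (H : Subgroup L),
      Cfsg.IsFrobeniusComplement H ∧ Nonempty (H ≃* Matrix.SpecialLinearGroup (Fin 2) (ZMod 5)) := by
  have hcard : Nat.card (Matrix.SpecialLinearGroup (Fin 2) (ZMod 5)) = 120 := by
    have := CfsgLib.SL2.card_SL2 (F := ZMod 5)
    simpa using this
  have hnt : Nontrivial (Matrix.SpecialLinearGroup (Fin 2) (ZMod 5)) := by
    rw [← Finite.one_lt_card_iff_nontrivial, hcard]; norm_num
  refine (isFC_of_cosetSum 7 (by rw [hcard]; norm_num) (fun g => F (e g)) ?_ ?_).symm_form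
  · intro h
    have := congrFun h 1
    revert this
    rw [e_one]
    decide
  · intro h hh x
    have ho : orderOf h ≠ 1 := by simpa using hh
    obtain ⟨r, hr, hrd⟩ := Nat.exists_prime_and_dvd ho
    have h120 : r ∣ 2 ^ 3 * 3 * 5 := hrd.trans ((orderOf_dvd_natCard h).trans (by rw [hcard]; norm_num))
    have key : ∀ h : Matrix.SpecialLinearGroup (Fin 2) (ZMod 5), orderOf h = r → ∀ x,
        1 • cosetSum (fun g => F (e g)) h x = 0 := by
      intro h hr' x
      have hne : e h ≠ tone := by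
        rw [← e_one]
        intro h1
        rw [e_inj h1, orderOf_one] at hr'
        exact hr.one_lt.ne hr'
      have hp := congrArg e (pow_orderOf_eq_one h)
      rw [e_one, hr'] at hp
      rw [one_smul, cosetSum_eq _ _ hr']
      rcases (Nat.Prime.dvd_mul hr).1 h120 with h1 | h1
      · rcases (Nat.Prime.dvd_mul hr).1 h1 with h1 | h1
        · obtain rfl := (Nat.prime_dvd_prime_iff_eq hr Nat.prime_two).1 (hr.dvd_of_dvd_pow h1)
          simp only [Finset.sum_range_succ, Finset.sum_range_zero, pow_succ, pow_zero, one_mul,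
            mul_one, zero_add] at hp ⊢
          simp only [e_mul] at hp ⊢
          exact chk2 _ (e_det h) hne hp _ (e_det x)
        · obtain rfl := (Nat.prime_dvd_prime_iff_eq hr Nat.prime_three).1 h1
          simp only [Finset.sum_range_succ, Finset.sum_range_zero, pow_succ, pow_zero, one_mul,
            mul_one, zero_add] at hp ⊢
          simp only [e_mul] at hp ⊢
          exact chk3 _ (e_det h) hne hp _ (e_det x)
      · obtain rfl := (Nat.prime_dvd_prime_iff_eq hr Nat.prime_five).1 h1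
        simp only [Finset.sum_range_succ, Finset.sum_range_zero, pow_succ, pow_zero, one_mul,
          mul_one, zero_add] at hp ⊢
        simp only [e_mul] at hp ⊢
        exact chk5 _ (e_det h) hne hp _ (e_det x)
    simpa using smul_cosetSum_eq_zero_of_dvd _ 1 r key h hrd x

end Cfsg.Agent.S3374
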