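import Cfsg.Statements.S3375

set_option autoImplicit false
open Cfsg

namespace Cfsg.Agent.S3375

/-- Let γ be an automorphism of order 2 of a finite group H. (i) If γ fixes only the identity, then H is abelian and γ inverts every element. (ii) If γ has exactly two fixed points and H has a subgroup of index 2, then H has a γ-invariant abelian subgroup of index 2 on which γ acts by inversion. -/
theorem result {H : Type*} [Group H] [Finite H] (γ : MulAut H) (hγ : orderOf γ = 2) :
    ((∀ h : H, γ h = h → h = 1) → (∀ a b : H, a * b = b * a) ∧ ∀ h : H, γ h = h⁻¹) ∧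
    ((Nat.card {h : H // γ h = h} = 2 ∧ ∃ M : Subgroup H, M.index = 2) →
      ∃ A : Subgroup H, A.index = 2 ∧ IsMulCommutative A ∧ (∀ a ∈ A, γ a ∈ A) ∧ ∀ a ∈ A, γ a = a⁻¹) := by
  classical
  have hinv : Function.Involutive γ := by
    intro x
    have : γ ^ 2 = 1 := by rw [← hγ, pow_orderOf_eq_one]
    have h2 := congrArg (fun f : MulAut H => f x) this
    simpa [pow_two] using h2
  refine ⟨fun hfp => ?_, ?_⟩
  · have hφ : MonoidHom.FixedPointFree γ := hfp
    exact ⟨fun a b => (hφ.commute_all_of_involutive hinv a b).eq,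
      fun h => congrFun (hφ.coe_eq_inv_of_involutive hinv) h⟩
  · rintro ⟨hcard, M0, hM0⟩
    -- a `γ`-invariant subgroup of index two
    have hM : ∃ M : Subgroup H, M.index = 2 ∧ ∀ x, γ x ∈ M ↔ x ∈ M := by
      by_cases h : ∀ x, γ x ∈ M0 ↔ x ∈ M0
      · exact ⟨M0, hM0, h⟩
      · have hmul := fun a b => Subgroup.mul_mem_iff_of_index_two (H := M0) hM0 (a := a) (b := b)
        let M : Subgroup H :=
          { carrier := {x | γ x ∈ M0 ↔ x ∈ M0}
            one_mem' := by simp
            mul_mem' := by
              intro a b ha hb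
              simp only [Set.mem_ofPred_eq, map_mul, hmul] at ha hb ⊢
              tauto
            inv_mem' := by
              intro a ha
              simpa using ha }
        refine ⟨M, ?_, ?_⟩
        · push Not at h
          obtain ⟨x, hx⟩ := h
          rw [Subgroup.index_eq_two_iff]
          refine ⟨x, fun b => ?_⟩
          change Xor (γ (b * x) ∈ M0 ↔ b * x ∈ M0) (γ b ∈ M0 ↔ b ∈ M0)
          rw [map_mul, hmul, hmul]
          unfold Xor
          tauto
        · intro x
          change (γ (γ x) ∈ M0 ↔ γ x ∈ M0) ↔ (γ x ∈ M0 ↔ x ∈ M0)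
          rw [hinv x]
          tauto
    obtain ⟨M, hM, hMγ⟩ := hM
    have hmul := fun a b => Subgroup.mul_mem_iff_of_index_two (H := M) hM (a := a) (b := b)
    let C : Subgroup H := MonoidHom.eqLocus γ.toMonoidHom (MonoidHom.id H)
    have hC : Nat.card C = 2 := hcard
    let f : H ⧸ C → M := fun q => Quotient.liftOn' q
      (fun x => (⟨x * (γ x)⁻¹, by rw [hmul, inv_mem_iff, hMγ]⟩ : M)) (by
        intro a b hab
        rw [QuotientGroup.leftRel_apply] at hab
        have h1 : γ (a⁻¹ * b) = a⁻¹ * b := hab
        rw [map_mul, map_inv] at h1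
        apply Subtype.ext
        change a * (γ a)⁻¹ = b * (γ b)⁻¹
        calc a * (γ a)⁻¹ = a * ((γ a)⁻¹ * γ b) * (γ b)⁻¹ := by group
          _ = b * (γ b)⁻¹ := by rw [h1]; group)
    have hf : Function.Injective f := by
      intro p q
      induction p using QuotientGroup.induction_on with | _ a =>
      induction q using QuotientGroup.induction_on with | _ b =>
      intro hab
      have h1 : a * (γ a)⁻¹ = b * (γ b)⁻¹ := congrArg Subtype.val hab
      rw [QuotientGroup.eq]
      change γ (a⁻¹ * b) = a⁻¹ * b
      rw [map_mul, map_inv]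
      calc (γ a)⁻¹ * γ b = a⁻¹ * (a * (γ a)⁻¹) * γ b := by group
        _ = a⁻¹ * b := by rw [h1]; group
    have hcardeq : Nat.card (H ⧸ C) = Nat.card M := by
      have h1 := C.card_mul_index
      have h2 := M.card_mul_index
      rw [hC] at h1
      rw [hM] at h2
      change C.index = _
      omega
    have hsurj : Function.Surjective f :=
      ((Nat.bijective_iff_injective_and_card f).2 ⟨hf, hcardeq⟩).2
    have hI : ∀ a ∈ M, γ a = a⁻¹ := by
      intro a ha
      obtain ⟨q, hq⟩ := hsurj ⟨a, ha⟩
      induction q using QuotientGroup.induction_on with | _ x =>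
      have h1 : x * (γ x)⁻¹ = a := congrArg Subtype.val hq
      rw [← h1, map_mul, map_inv, hinv x]
      group
    refine ⟨M, hM, ⟨⟨fun a b => Subtype.ext ?_⟩⟩, fun a ha => (hMγ a).2 ha, hI⟩
    have h1 := hI _ (M.mul_mem a.2 b.2)
    rw [map_mul, hI _ a.2, hI _ b.2, ← mul_inv_rev, inv_inj] at h1
    exact h1.symm

end Cfsg.Agent.S3375
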