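import Cfsg.Statements.S3377
import Cfsg.Agent.Lib.FrobCompl.SL25

set_option autoImplicit false
open Cfsg

namespace Cfsg.Agent.S3377

open CfsgLib CfsgLib.FrobCompl Subgroup

abbrev rels : Set (FreeGroup (Fin 2)) :=
  {FreeGroup.of (0 : Fin 2) ^ 3, FreeGroup.of (1 : Fin 2) ^ 5,
    (FreeGroup.of (0 : Fin 2) * FreeGroup.of 1) ^ 2}

def gens : Fin 2 → alternatingGroup (Fin 5) :=
  ![⟨Equiv.swap 0 2 * Equiv.swap 0 4, Equiv.Perm.mem_alternatingGroup.2 (by decide)⟩,
    ⟨Equiv.swap 0 1 * Equiv.swap 1 2 * Equiv.swap 2 3 * Equiv.swap 3 4,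
      Equiv.Perm.mem_alternatingGroup.2 (by decide)⟩]


/-- The alternating group of degree 5 has the presentation ⟨x, y | x³ = 1, y⁵ = 1, (xy)² = 1⟩: the group so presented is isomorphic to Alt(5). -/
theorem result :
    Nonempty (PresentedGroup ({FreeGroup.of (0 : Fin 2) ^ 3, FreeGroup.of (1 : Fin 2) ^ 5,
        (FreeGroup.of (0 : Fin 2) * FreeGroup.of 1) ^ 2} : Set (FreeGroup (Fin 2))) ≃* alternatingGroup (Fin 5)) := by
  let π : PresentedGroup rels →* alternatingGroup (Fin 5) := PresentedGroup.toGroup (f := gens) (by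
    rintro _ (rfl | rfl | rfl) <;> simp only [map_pow, map_mul, FreeGroup.lift_apply_of] <;>
      decide +kernel)
  obtain ⟨φ, h1, h2, h3, -⟩ := exists_hom_SL25 (G := PresentedGroup rels) (x := PresentedGroup.of 0)
    (w := PresentedGroup.of 1) (z := 1) (PresentedGroup.one_of_mem (Or.inl rfl))
    (PresentedGroup.one_of_mem (Or.inr (Or.inl rfl))) (by simp) (by simp) (by simp)
    (PresentedGroup.one_of_mem (Or.inr (Or.inr rfl)))
  have hs : Function.Surjective φ := by
    rw [← MonoidHom.range_eq_top, h3, ← PresentedGroup.closure_range_of]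
    congr 1
    ext g
    simp [Fin.exists_fin_two, eq_comm]
  have hz : φ (-1) = 1 := by
    rw [← slXW_sq, map_pow, map_mul, h1, h2]
    exact PresentedGroup.one_of_mem (Or.inr (Or.inr rfl))
  have := Finite.of_surjective φ hs
  have key : ∀ {X : Type} [Group X] (f : SL25 →* X), f (-1) = 1 → f slX ≠ 1 →
      Nat.card f.range = 60 := fun f h1 h2 => by
    have h3 : f.ker = center SL25 := by
      refine le_antisymm ((normal_SL25 _).resolve_right fun e => h2 (e ▸ mem_top slX : _ ∈ f.ker))
        fun g hg => ?_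
      rcases mem_center_SL25.1 hg with rfl | rfl
      exacts [one_mem _, h1]
    have h4 : Nat.card (center SL25) = 2 := by
      rw [show center SL25 = zpowers (-1) from le_antisymm (fun g hg => by
        rcases mem_center_SL25.1 hg with rfl | rfl
        exacts [one_mem _, mem_zpowers _]) (zpowers_le.2 (mem_center_SL25.2 (Or.inr rfl))),
        Nat.card_zpowers]
      exact orderOf_eq_prime (by decide) (by decide)
    have h5 := f.ker.card_mul_index
    rw [index_ker, h3, h4, card_SL25] at h5
    omega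
  have hx : π (φ slX) ≠ 1 := by
    rw [h1, PresentedGroup.toGroup.of]; decide +kernel
  have h5 : Nat.card (alternatingGroup (Fin 5)) = 60 := by
    rw [nat_card_alternatingGroup, Nat.card_fin]
    rfl
  have h6 := key φ hz fun e => hx (by rw [e, map_one])
  rw [MonoidHom.range_eq_top.2 hs, card_top] at h6
  have h7 := eq_top_of_card_eq _ ((key (π.comp φ) (by simp [hz]) hx).trans h5.symm)
  exact ⟨MulEquiv.ofBijective π (Function.Surjective.bijective_of_nat_card_le
    (Function.Surjective.of_comp (g := φ) ((π.comp φ).range_eq_top.1 h7)) (h6.trans h5.symm).le)⟩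

end Cfsg.Agent.S3377
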