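import Cfsg.Statements.S3380
import Mathlib
import Cfsg.Agent.Lib.PCount.Basic
import Cfsg.Agent.Lib.Core.MinNormal

set_option autoImplicit false
open Cfsg

namespace Cfsg.Agent.S3380

open Subgroup CfsgLib Finset in
open scoped commutatorElement in

/-- Let a finite p-group G act faithfully and irreducibly on a non-trivial finite vector space V over the field with q elements (q prime), and suppose G is not cyclic, generalized quaternion, dihedral or semidihedral. Then G has a subgroup H of index p and V is the direct sum of p subspaces, each invariant under H, on none of which H acts faithfully, and which every element of G outside H permutes in a single p-cycle. -/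
theorem result
    (q : ℕ) [Fact q.Prime] {V : Type*} [AddCommGroup V] [Module (ZMod q) V] [Finite V] [Nontrivial V]
    {G : Type*} [Group G] [Finite G] (p : ℕ) [Fact p.Prime] (hG : IsPGroup p G)
    (ρ : G →* (V ≃ₗ[ZMod q] V)) (hρ : Function.Injective ρ)
    (hirr : ∀ W : Submodule (ZMod q) V, (∀ g : G, ∀ w ∈ W, ρ g w ∈ W) → W = ⊥ ∨ W = ⊤)
    (hnc : ¬ IsCyclic G) (hnq : ∀ n : ℕ, ¬ Nonempty (G ≃* QuaternionGroup n))
    (hnd : ∀ n : ℕ, ¬ Nonempty (G ≃* DihedralGroup n)) (hnsd : ¬ Cfsg.IsQuasiDihedral G) :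
    ∃ (H : Subgroup G) (W : Fin p → Submodule (ZMod q) V), H.index = p ∧
      iSup W = ⊤ ∧ iSupIndep W ∧
      (∀ h ∈ H, ∀ i, ∀ w ∈ W i, ρ h w ∈ W i) ∧
      (∀ i, ∃ h ∈ H, h ≠ 1 ∧ ∀ w ∈ W i, ρ h w = w) ∧
      ∀ g : G, g ∉ H → ∃ σ : Equiv.Perm (Fin p), orderOf σ = p ∧ ∀ i, (W i).map (ρ g : V →ₗ[ZMod q] V) = W (σ i) := by
  classical
  have hp : p.Prime := Fact.out
  have : NeZero p := ⟨hp.ne_zero⟩
  obtain ⟨E, hEn, hE, hc⟩ := PCount.Kc.exists_V hG ⟨hnc, fun e h4 => by
    subst e
    obtain ⟨m, hm⟩ := hG.exists_card_eq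
    by_cases h3 : 3 ≤ m
    · obtain ⟨k, rfl⟩ : ∃ k, m = k + 3 := ⟨m - 3, by omega⟩
      rcases PGroup.dihedral_or_semidihedral_or_quaternion_of_index_commutator hm h4 with
        h | h | ⟨h1, h⟩
      · exact absurd h (hnd _)
      · exact absurd h (hnq _)
      · exact absurd ⟨k + 2, by omega, hm, h⟩ hnsd
    · exact PGroup.isMulCommutative_of_card_le_sq hG (hm ▸ Nat.pow_le_pow_right two_pos (by omega))⟩
  obtain ⟨Z, z1, z2, z3, z4⟩ := PCount.exists_Z hG hc
  obtain ⟨u, hu, huZ⟩ : ∃ u ∈ E, u ∉ Z := by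
    by_contra hh
    push Not at hh
    have := Subgroup.card_le_of_le hh
    rw [hc, z3] at this
    nlinarith [hp.one_lt]
  obtain ⟨z, hz, oz⟩ := Core.exists_mem_orderOf_eq_of_dvd_card hp z3.symm.dvd
  have z0 : z ≠ 1 := fun e => by rw [e, orderOf_one] at oz; exact hp.one_lt.ne oz
  have zc : ∀ k : ℕ, ∀ g, g * z ^ k = z ^ k * g := fun k => mem_center_iff.1 (z2 (pow_mem hz k))
  let τ : G →* Module.End (ZMod q) V := LinearEquiv.automorphismGroup.toLinearMapMonoidHom.comp ρ
  have τa : ∀ g v, τ g v = ρ g v := fun _ _ => rfl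
  have mul : ∀ a b v, ρ (a * b) v = ρ a (ρ b v) := fun a b v => by rw [map_mul]; rfl
  let F : G → Submodule (ZMod q) V := fun x => LinearMap.ker (τ x - 1)
  have mF : ∀ x v, v ∈ F x ↔ ρ x v = v := fun x v => sub_eq_zero
  have cj : ∀ g x, (F x).map (ρ g : V →ₗ[ZMod q] V) = F (g * x * g⁻¹) := fun g x => by
    ext v
    rw [Submodule.mem_map_equiv, mF, mF, mul, mul, map_inv, LinearEquiv.eq_symm_apply]
    rfl
  have cent : ∀ x ∈ center G, x ≠ 1 → F x = ⊥ := fun x hx x1 =>
    (hirr _ fun g w hw => by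
      rw [mF] at hw ⊢
      rw [← mul, ← mem_center_iff.1 hx, mul, hw]).resolve_right fun e => x1 (hρ (by
        rw [map_one]; exact LinearEquiv.ext fun v => (mF x v).1 (e.ge trivial)))
  let N : G → Module.End (ZMod q) V := fun x => ∑ k ∈ range p, τ x ^ k
  have hN : ∀ x ∈ E, ∀ v, N x v ∈ F x := fun x hx v => by
    change ((τ x - 1) * N x) v = 0
    rw [mul_geom_sum, ← map_pow, hE.2 x hx, map_one, sub_self]; rfl
  have hN0 : ∀ x ∈ Z, x ≠ 1 → N x = 0 := fun x hx x1 =>
    LinearMap.ext fun v => (cent x (z2 hx) x1).le (hN x (z1 hx) v)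
  have hpq : (p : ZMod q) ≠ 0 := fun e => by
    obtain rfl := (Nat.prime_dvd_prime_iff_eq Fact.out hp).1 ((ZMod.natCast_eq_zero_iff p q).1 e)
    letI := MulAction.compHom V ρ
    obtain ⟨b, hb, b0⟩ := hG.exists_fixed_point_of_prime_dvd_card_of_fixed_point V (by
      rw [Module.natCard_eq_pow_finrank (K := ZMod q), Nat.card_zmod]
      exact dvd_pow_self q Module.finrank_pos.ne') (a := 0) fun g => map_zero (ρ g)
    exact b0 ((cent z (z2 hz) z0).le ((mF z b).2 (hb z))).symm
  let w : Fin p → G := fun i => u * z ^ (i : ℕ)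
  have wE : ∀ i, w i ∈ E := fun i => mul_mem hu (z1 (pow_mem hz _))
  have w1 : ∀ i, w i ≠ 1 := fun i e => huZ (by
    rw [eq_inv_of_mul_eq_one_left e]; exact inv_mem (pow_mem hz _))
  have hsum : ∀ v, ∑ i, N (w i) v = (p : ZMod q) • v := fun v => by
    have h1 : ∀ k : ℕ, ∑ i : Fin p, τ (w i) ^ k = τ u ^ k * N (z ^ k) := fun k => by
      rw [mul_sum, ← Fin.sum_univ_eq_sum_range fun i => τ u ^ k * τ (z ^ k) ^ i]
      refine sum_congr rfl fun i _ => ?_
      rw [← map_pow, ← map_pow, ← map_pow, ← map_mul, Commute.mul_pow (zc _ u), ← pow_mul, ← pow_mul,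
        mul_comm k]
    rw [← LinearMap.sum_apply, sum_comm, sum_congr rfl fun k _ => h1 k,
      sum_eq_single 0 (fun k hk k0 => by
        rw [hN0 _ (pow_mem hz k) (pow_ne_one_of_lt_orderOf k0 (oz ▸ mem_range.1 hk)), mul_zero])
        fun h => absurd (mem_range.2 hp.pos) h]
    simp [N, Nat.cast_smul_eq_nsmul]
  have htop : ⨆ i, F (w i) = ⊤ := eq_top_iff.2 fun v _ => by
    rw [← Submodule.smul_mem_iff _ hpq, ← hsum]
    exact Submodule.sum_mem _ fun i _ => Submodule.mem_iSup_of_mem i (hN _ (wE i) v)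
  have wc : ∀ h ∈ centralizer ({u} : Set G), ∀ i, h * w i = w i * h := fun h hh i => by
    simp only [w]
    rw [← mul_assoc, mem_centralizer_singleton_iff.1 hh, mul_assoc, zc, mul_assoc]
  have := hE.1
  refine ⟨centralizer {u}, fun i => F (w i), ?_, htop, fun i => ?_, fun h hh i v hv => ?_,
    fun i => ⟨w i, mem_centralizer_singleton_iff.2 (setLike_mul_comm (wE i) hu), w1 i,
      fun v => (mF _ v).1⟩, fun g hg => ?_⟩
  · obtain ⟨k, hk⟩ := hG.index (centralizer ({u} : Set G))
    have h1 := (PGroup.index_centralizer_le (z4 u hu)).trans z3.le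
    have h2 : (centralizer ({u} : Set G)).index ≠ 1 := fun e => by
      have : ∀ i, F (w i) = ⊥ := fun i => cent _ (mem_center_iff.2 fun g =>
        wc g ((index_eq_one.1 e).ge (mem_top g)) i) (w1 i)
      simp only [this, iSup_bot] at htop
      exact bot_ne_top htop
    rw [hk] at h1 h2 ⊢
    rcases k with _ | _ | k
    · exact absurd rfl h2
    · exact pow_one p
    · exact absurd h1 (not_le.2 (lt_self_pow₀ hp.one_lt (by omega)))
  · have h1 : ⨆ j, ⨆ (_ : j ≠ i), F (w j) ≤ LinearMap.ker (N (w i)) := iSup₂_le fun j hj v hv => by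
      have hy : z ^ (i : ℕ) * (z ^ (j : ℕ))⁻¹ ∈ Z := mul_mem (pow_mem hz _) (inv_mem (pow_mem hz _))
      have e : w i = z ^ (i : ℕ) * (z ^ (j : ℕ))⁻¹ * w j := by
        rw [← mem_center_iff.1 (z2 hy)]
        simp only [w]
        rw [← mul_assoc, mul_assoc u, zc i (z ^ (j : ℕ)), ← mul_assoc u, mul_inv_cancel_right]
      have h0 := hN0 _ hy fun e => hj (Fin.ext (pow_injOn_Iio_orderOf (oz ▸ i.2) (oz ▸ j.2)
        (mul_inv_eq_one.1 e))).symm
      refine Eq.trans ?_ (LinearMap.congr_fun h0 v)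
      simp only [N, LinearMap.sum_apply]
      refine sum_congr rfl fun k _ => ?_
      rw [e, ← map_pow, Commute.mul_pow (mem_center_iff.1 (z2 hy) _).symm, map_mul, map_pow, map_pow,
        Module.End.mul_apply, Module.End.pow_apply (τ (w j)),
        Function.iterate_fixed (f := τ (w j)) ((mF _ v).1 hv)]
    refine Disjoint.mono_right h1 (Submodule.disjoint_def.2 fun v hv h0 => ?_)
    have : N (w i) v = (p : ZMod q) • v := by
      simp only [N, LinearMap.sum_apply]
      rw [sum_congr rfl fun k _ => (Module.End.pow_apply (τ (w i)) k v).trans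
        (Function.iterate_fixed ((mF _ v).1 hv) k)]
      simp [Nat.cast_smul_eq_nsmul]
    exact (smul_eq_zero.1 (this.symm.trans h0)).resolve_left hpq
  · rw [mF] at hv ⊢
    rw [← mul, ← wc h hh, mul, hv]
  · obtain ⟨c, hc⟩ := PGroup.exists_pow_eq_of_card_prime z3 hz z0 (z4 _ (inv_mem hu) g)
    have e : g * u * g⁻¹ = u * z ^ c := by rw [hc, commutatorElement_def]; group
    refine ⟨Equiv.addRight (Fin.ofNat p c), orderOf_eq_prime ?_ fun h => hg ?_, fun i => ?_⟩
    · have : ∀ (n : ℕ) (i : Fin p), (Equiv.addRight (Fin.ofNat p c) ^ n) i = i + n • Fin.ofNat p c :=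
        fun n i => by
          induction n with
          | zero => simp
          | succ n ih => rw [pow_succ', Equiv.Perm.mul_apply, ih, succ_nsmul, ← add_assoc]; rfl
      have h0 := card_nsmul_eq_zero' (G := Fin p) (x := Fin.ofNat p c)
      rw [Nat.card_fin] at h0
      exact Equiv.ext fun i => by rw [this, h0, add_zero]; rfl
    · have h1 : c % p = 0 := by simpa using congrArg Fin.val (Equiv.congr_fun h 0)
      rw [← pow_mod_orderOf, oz, h1, pow_zero, mul_one] at e
      exact mem_centralizer_singleton_iff.2 (mul_inv_eq_iff_eq_mul.1 e)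
    · rw [cj]
      congr 1
      simp only [w, Equiv.coe_addRight, Fin.val_add, Fin.val_ofNat]
      have md : ∀ n, z ^ (n % p) = z ^ n := fun n => by rw [← oz, pow_mod_orderOf]
      rw [md, pow_add, md, ← mul_assoc g, mul_assoc _ (z ^ _),
        ← zc, ← mul_assoc, e, mul_assoc, zc]

end Cfsg.Agent.S3380
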