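import Cfsg.Statements.S3381

set_option autoImplicit false
open Cfsg

namespace Cfsg.Agent.S3381

theorem stab_cases {G V : Type*} [Group G] [Finite G] (P : G → V → Prop) (v : V) (h1 : P 1 v)
    (h : Nat.card {g : G // P g v} = 2) : ∃ t, t ≠ 1 ∧ P t v ∧ ∀ g, P g v → g = 1 ∨ g = t := by
  obtain ⟨t, ht, hu⟩ := (Nat.card_eq_two_iff' (⟨1, h1⟩ : {g : G // P g v})).1 h
  refine ⟨t.1, fun e => ht (Subtype.ext e), t.2, fun g hg => ?_⟩
  by_cases e : g = 1
  · exact Or.inl e
  · exact Or.inr (congrArg Subtype.val (hu ⟨g, hg⟩ fun e' => e (congrArg Subtype.val e')))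

/-- Let G be a finite group acting faithfully and linearly on a non-trivial finite vector space V over the field with q elements (q prime) so that every non-zero vector has a stabilizer of order 2, and suppose G has a central involution. Then V has q^(2r) elements for some r and G contains exactly q^r + 1 non-central involutions. -/
theorem result
    (q : ℕ) [Fact q.Prime] {V : Type*} [AddCommGroup V] [Module (ZMod q) V] [Finite V] [Nontrivial V]
    {G : Type*} [Group G] [Finite G] (ρ : G →* (V ≃ₗ[ZMod q] V)) (hρ : Function.Injective ρ)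
    (hstab : ∀ v : V, v ≠ 0 → Nat.card {g : G // ρ g v = v} = 2)
    (z : G) (hz : orderOf z = 2) (hzc : z ∈ Subgroup.center G) :
    ∃ r : ℕ, Nat.card V = q ^ (2 * r) ∧
      Nat.card {g : G // orderOf g = 2 ∧ g ∉ Subgroup.center G} = q ^ r + 1 := by
  classical
  have hmul : ∀ g h v, ρ (g * h) v = ρ g (ρ h v) := fun g h v => by rw [map_mul]; rfl
  have hone : ∀ v, ρ 1 v = v := fun v => by rw [map_one]; rfl
  have hst : ∀ v : V, v ≠ 0 → ∃ t, t ≠ 1 ∧ ρ t v = v ∧ ∀ g, ρ g v = v → g = 1 ∨ g = t := fun v hv =>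
    stab_cases (fun g v => ρ g v = v) v (hone v) (hstab v hv)
  have huniq : ∀ v : V, v ≠ 0 → ∀ s t, s ≠ 1 → t ≠ 1 → ρ s v = v → ρ t v = v → s = t := by
    intro v hv s t hs ht h1 h2
    obtain ⟨u, -, -, hu⟩ := hst v hv
    rw [(hu s h1).resolve_left hs, (hu t h2).resolve_left ht]
  have hsq : ∀ g : G, orderOf g = 2 → g * g = 1 := fun g hg => by rw [← sq, ← hg, pow_orderOf_eq_one]
  have hne : ∀ g : G, orderOf g = 2 → g ≠ 1 := fun g hg e => by rw [e, orderOf_one] at hg; omega
  have hmove : ∀ g : G, g ≠ 1 → ∃ v, ρ g v ≠ v := fun g hg => by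
    by_contra hc
    push Not at hc
    exact hg (hρ (LinearEquiv.ext fun v => (hc v).trans (hone v).symm))
  have hneg : ∀ c : G, orderOf c = 2 → c ∈ Subgroup.center G → ∀ v, ρ c v = -v := by
    intro c hc hcc
    have key : ∀ v, ρ c v ≠ v → ρ c v = -v := by
      intro v hv
      obtain ⟨t, ht1, ht, -⟩ := hst v (fun e => hv (by rw [e, map_zero]))
      by_contra hn
      have h0 : v + ρ c v ≠ 0 := fun e => hn (eq_neg_of_add_eq_zero_right e)
      have := huniq _ h0 t c ht1 (hne c hc)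
        (by rw [map_add, ht, ← hmul, Subgroup.mem_center_iff.1 hcc t, hmul, ht])
        (by rw [map_add, ← hmul, hsq c hc, hone, add_comm])
      exact hv (this ▸ ht)
    obtain ⟨w, hw⟩ := hmove c (hne c hc)
    intro v
    by_cases hv : ρ c v = v
    · have := key (v + w) (by rw [map_add, hv]; exact fun e => hw (add_left_cancel e))
      rw [map_add, key w hw, neg_add] at this
      exact add_right_cancel this
    · exact key v hv
  have hzn := hneg z hz hzc
  have h2 : ∀ v : V, v + v = 0 → v = 0 := by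
    intro v hv
    by_contra h0
    obtain ⟨w, hw⟩ := hmove z (hne z hz)
    have hq : (2 : ZMod q) = 0 := by
      by_contra hq
      exact h0 ((smul_eq_zero.1 (show (2 : ZMod q) • v = 0 by rw [two_smul, hv])).resolve_left hq)
    apply hw
    rw [hzn, neg_eq_iff_add_eq_zero, ← two_smul (ZMod q), hq, zero_smul]
  let I := {g : G // orderOf g = 2 ∧ g ∉ Subgroup.center G}
  let W : G → Submodule (ZMod q) V := fun g => LinearMap.eqLocus (ρ g).toLinearMap LinearMap.id
  have hW : ∀ g v, v ∈ W g ↔ ρ g v = v := fun g v => Iff.rfl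
  have hI : ∀ v : V, v ≠ 0 → ∃ t : I, v ∈ W t := by
    intro v hv
    obtain ⟨t, ht1, ht, hu⟩ := hst v hv
    have ho : orderOf t = 2 := orderOf_eq_prime (by
      rcases hu (t * t) (by rw [hmul, ht, ht]) with e | e
      · rw [sq, e]
      · exact absurd (mul_eq_left.1 e) ht1) ht1
    exact ⟨⟨t, ho, fun hc => hv (h2 v (by nth_rw 1 [← ht]; rw [hneg t ho hc, neg_add_cancel]))⟩, ht⟩
  have hdisj : ∀ s t : I, s ≠ t → W s ⊓ W t = ⊥ := fun s t hst => eq_bot_iff.2 fun v hv => by
    by_contra h0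
    exact hst (Subtype.ext (huniq v h0 _ _ (hne _ s.2.1) (hne _ t.2.1) hv.1 hv.2))
  let σ : I → I := fun t => ⟨z * t, orderOf_eq_prime (by
      rw [sq, mul_assoc, ← mul_assoc t.1, Subgroup.mem_center_iff.1 hzc t, mul_assoc, hsq _ t.2.1, mul_one, hsq z hz])
      fun e => t.2.2 (by rw [eq_inv_of_mul_eq_one_right e]; exact inv_mem hzc),
    fun h => t.2.2 ((Subgroup.mul_mem_cancel_left _ hzc).1 h)⟩
  have hσ : ∀ t, σ t ≠ t := fun t e => hne z hz (mul_eq_right.1 (congrArg Subtype.val e))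
  have hσσ : ∀ t, σ (σ t) = t := fun t => Subtype.ext (by
    show z * (z * t) = t
    rw [← mul_assoc, hsq z hz, one_mul])
  have h2q : (2 : ZMod q) ≠ 0 := fun e => by
    obtain ⟨v, hv⟩ := exists_ne (0 : V)
    exact hv (h2 v (by rw [← two_smul (ZMod q), e, zero_smul]))
  have hsup : ∀ t : I, W t ⊔ W (σ t) = ⊤ := fun t => eq_top_iff.2 fun v _ => by
    have e : v = (2 : ZMod q)⁻¹ • ((v + ρ t v) + (v - ρ t v)) := by
      rw [add_add_sub_cancel, ← two_smul (ZMod q), smul_smul, inv_mul_cancel₀ h2q, one_smul]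
    rw [e]
    refine Submodule.smul_mem _ _ (Submodule.add_mem_sup ((hW _ _).2 ?_) ((hW _ _).2 ?_))
    · rw [map_add, ← hmul, hsq _ t.2.1, hone, add_comm]
    · show ρ (z * t) _ = _
      rw [hmul, hzn, map_sub, ← hmul, hsq _ t.2.1, hone, neg_sub]
  set n := Module.finrank (ZMod q) V with hn
  have hle : ∀ s t : I, s ≠ t → Module.finrank (ZMod q) (W s) + Module.finrank (ZMod q) (W t) ≤ n := by
    intro s t h
    rw [← Submodule.finrank_sup_add_finrank_inf_eq, hdisj s t h, finrank_bot, add_zero]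
    exact Submodule.finrank_le _
  have heq : ∀ t : I, Module.finrank (ZMod q) (W t) + Module.finrank (ZMod q) (W (σ t)) = n := by
    intro t
    rw [← Submodule.finrank_sup_add_finrank_inf_eq, hdisj _ _ (hσ t).symm, finrank_bot, add_zero, hsup, finrank_top]
  have hthird : ∀ t : I, ∃ s : I, s ≠ t ∧ s ≠ σ t := by
    intro t
    obtain ⟨a, ha⟩ := hmove t (hne _ t.2.1)
    obtain ⟨b, hb⟩ := hmove (σ t) (hne _ (σ t).2.1)
    obtain ⟨c, h1, h2⟩ : ∃ c, c ∉ W t ∧ c ∉ W (σ t) := by
      by_cases h1 : a ∈ W (σ t)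
      · by_cases h2 : b ∈ W t
        · exact ⟨a + b, fun h => ha ((Submodule.add_mem_iff_left _ h2).1 h),
            fun h => hb ((Submodule.add_mem_iff_right _ h1).1 h)⟩
        · exact ⟨b, h2, hb⟩
      · exact ⟨a, ha, h1⟩
    obtain ⟨s, hs⟩ := hI c fun e => h1 (e ▸ Submodule.zero_mem _)
    exact ⟨s, fun e => h1 (e ▸ hs), fun e => h2 (e ▸ hs)⟩
  have hhalf : ∀ t : I, 2 * Module.finrank (ZMod q) (W t) = n := by
    intro t
    obtain ⟨s, h1, h2⟩ := hthird t
    have a1 := hle t s h1.symm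
    have a2 := hle t (σ s) fun e => h2 (by rw [e, hσσ])
    have a3 := hle (σ t) s h2.symm
    have a4 := hle (σ t) (σ s) fun e => h1 (by rw [← hσσ s, ← e, hσσ])
    have a5 := heq t
    have a6 := heq s
    omega
  obtain ⟨v₀, hv₀⟩ := exists_ne (0 : V)
  obtain ⟨t₀, ht₀⟩ := hI v₀ hv₀
  set r := Module.finrank (ZMod q) (W t₀) with hr
  have hV : Nat.card V = q ^ (2 * r) := by
    rw [Module.natCard_eq_pow_finrank (K := ZMod q), Nat.card_zmod, hhalf t₀]
  have hWc : ∀ t : I, Nat.card (W t) = q ^ r := fun t => by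
    rw [Module.natCard_eq_pow_finrank (K := ZMod q), Nat.card_zmod]
    congr 1
    have := hhalf t
    have := hhalf t₀
    omega
  refine ⟨r, hV, ?_⟩
  have hc : ∀ (α : Type _) [Finite α] [Zero α], Nat.card {v : α // v ≠ 0} + 1 = Nat.card α := by
    intro α _ _
    have := Fintype.ofFinite α
    have : Nonempty α := ⟨0⟩
    rw [Nat.card_eq_fintype_card, Nat.card_eq_fintype_card, Fintype.card_subtype_compl, Fintype.card_subtype_eq]
    have := Fintype.card_pos (α := α)
    omega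
  have hb : Function.Bijective (fun x : (Σ t : I, {v : W t // v ≠ 0}) =>
      (⟨x.2.1.1, fun e => x.2.2 (Subtype.ext e)⟩ : {v : V // v ≠ 0})) := by
    constructor
    · rintro ⟨s, ⟨v, hv⟩, h1⟩ ⟨t, ⟨w, hw⟩, h2⟩ e
      obtain rfl : v = w := congrArg Subtype.val e
      obtain rfl : s = t := by
        by_contra hc
        exact h1 (Subtype.ext ((hdisj s t hc).le ⟨hv, hw⟩))
      rfl
    · rintro ⟨v, hv⟩
      obtain ⟨t, ht⟩ := hI v hv
      exact ⟨⟨t, ⟨v, ht⟩, fun e => hv (congrArg Subtype.val e)⟩, rfl⟩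
  have := Fintype.ofFinite I
  have hcard := Nat.card_congr (Equiv.ofBijective _ hb)
  rw [Nat.card_sigma, Finset.sum_congr rfl (g := fun _ => q ^ r - 1) (fun t _ => by
    have := hc (W t)
    rw [hWc] at this
    omega), Finset.sum_const, Finset.card_univ, smul_eq_mul, ← Nat.card_eq_fintype_card] at hcard
  have h1 := hc V
  rw [← hcard, hV, two_mul, pow_add] at h1
  have h3 : 1 < q ^ r := by
    rw [← hWc t₀]
    exact Finite.one_lt_card_iff_nontrivial.2 ⟨⟨⟨v₀, ht₀⟩, 0, fun e => hv₀ (congrArg Subtype.val e)⟩⟩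
  obtain ⟨m, hm⟩ : ∃ m, q ^ r = m + 1 := ⟨q ^ r - 1, by omega⟩
  rw [hm] at h1 h3 ⊢
  simp only [Nat.add_sub_cancel] at h1
  change Nat.card I = _
  exact Nat.eq_of_mul_eq_mul_right (show 0 < m by omega) (by nlinarith)

end Cfsg.Agent.S3381
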