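import Cfsg.Statements.S3382
import Mathlib

set_option autoImplicit false
open Cfsg

namespace Cfsg.Agent.S3382

theorem fix_of_odd {G : Type*} [Group G] {α : MulAut G} {r k : ℕ} (hr : Odd r) (hα : α ^ r = 1) {x : G}
    (h : (α ^ 2 ^ k) x = x) : α x = x := by
  have h1 : ∀ n, ((α ^ 2 ^ k) ^ n) x = x := fun n => by
    induction n with
    | zero => rfl
    | succ n ih => rw [pow_succ, MulAut.mul_apply, h, ih]
  obtain ⟨n, hn⟩ : ∃ n, (α ^ 2 ^ k) ^ n = α := by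
    have := exists_pow_eq_self_of_coprime (x := α) (n := 2 ^ k) ((Nat.Coprime.pow_left k
      (Nat.coprime_two_left.2 hr)).coprime_dvd_right (orderOf_dvd_of_pow_eq_one hα))
    exact this
  exact hn ▸ h1 n

theorem eq_of_shift {G : Type*} [Group G] {α : MulAut G} {r k : ℕ} (hr : Odd r) (hα : α ^ r = 1) {x : G}
    (h : α (α x * x⁻¹) = α x * x⁻¹) (h2 : (α x * x⁻¹) ^ 2 ^ k = 1) : α x = x := by
  refine fix_of_odd (k := k) hr hα ?_
  have : ∀ n, (α ^ n) x = (α x * x⁻¹) ^ n * x := fun n => by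
    induction n with
    | zero => simp
    | succ n ih => rw [pow_succ', MulAut.mul_apply, ih, map_mul, map_pow, h, pow_succ, mul_assoc, inv_mul_cancel_right]
  rw [this, h2, one_mul]

theorem eq_one_of {G : Type*} [Group G] {α : MulAut G} {r : ℕ} (hr : Odd r) (hα : α ^ r = 1) (C : Subgroup G)
    (h1 : ∀ x, α x ∈ C ↔ x ∈ C) (h2 : ∀ x ∈ C, ∀ y ∈ C, Commute x y) (h3 : ∀ x ∈ C, ∃ k, x ^ 2 ^ k = 1)
    (h4 : ∀ x ∈ C, x ^ 2 = 1 → α x = x) (h5 : ∀ x ∉ C, ∀ y ∉ C, x * y⁻¹ ∈ C) : α = 1 := by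
  have h6 : ∀ k, ∀ x ∈ C, x ^ 2 ^ k = 1 → α x = x := fun k => by
    induction k with
    | zero => intro x _ e; simp [show x = 1 by simpa using e]
    | succ k ih =>
      intro x hx e
      have h7 := ih _ (pow_mem hx 2) (by rwa [← pow_mul, ← pow_succ'])
      have h8 : (α x * x⁻¹) ^ 2 = 1 := by
        rw [(h2 _ ((h1 x).2 hx) _ (inv_mem hx)).mul_pow, ← map_pow, h7, inv_pow, mul_inv_cancel]
      exact eq_of_shift (k := 1) hr hα (h4 _ (mul_mem ((h1 x).2 hx) (inv_mem hx)) h8) h8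
  ext x
  by_cases hx : x ∈ C
  · exact (h3 x hx).elim fun k e => h6 k x hx e
  · have h7 := h5 _ (mt (h1 x).1 hx) x hx
    obtain ⟨k, e⟩ := h3 _ h7
    exact eq_of_shift hr hα (h6 k _ h7 e) e

variable {F : Type*} [Field F]

def Dg (a b : F) (f : (Fin 2 → F) ≃ₗ[F] (Fin 2 → F)) : Prop := ∀ v, f v = ![a * v 0, b * v 1]
def An (a b : F) (f : (Fin 2 → F) ≃ₗ[F] (Fin 2 → F)) : Prop := ∀ v, f v = ![b * v 1, a * v 0]

theorem sq_eq_one_iff_of_field {a : F} : a ^ 2 = 1 ↔ a = 1 ∨ a = -1 := by rw [sq, mul_self_eq_one_iff]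

variable {a b c d : F} {f g : (Fin 2 → F) ≃ₗ[F] (Fin 2 → F)}

theorem Dg.mul (h : Dg a b f) (h' : Dg c d g) : Dg (a * c) (b * d) (f * g) := fun v => by
  simp [h _, h' _, mul_assoc]
theorem Dg.mulA (h : Dg a b f) (h' : An c d g) : An (b * c) (a * d) (f * g) := fun v => by
  simp [h _, h' _, mul_assoc]
theorem An.mulD (h : An a b f) (h' : Dg c d g) : An (a * c) (b * d) (f * g) := fun v => by
  simp [h _, h' _, mul_assoc]
theorem An.mul (h : An a b f) (h' : An c d g) : Dg (b * c) (a * d) (f * g) := fun v => by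
  simp [h _, h' _, mul_assoc]
theorem dg_one : Dg (1 : F) 1 1 := fun v => by ext i; fin_cases i <;> simp
theorem Dg.pow (h : Dg a b f) (n : ℕ) : Dg (a ^ n) (b ^ n) (f ^ n) := by
  induction n with
  | zero => simpa using dg_one
  | succ n ih => simpa [pow_succ] using ih.mul h
theorem Dg.eq_iff (h : Dg a b f) (h' : Dg c d g) : f = g ↔ a = c ∧ b = d :=
  ⟨fun e => by simpa [e, h' _] using (h 1).symm, fun e => LinearEquiv.ext fun v => by rw [h, h', e.1, e.2]⟩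
theorem An.eq_iff (h : An a b f) (h' : An c d g) : f = g ↔ a = c ∧ b = d :=
  ⟨fun e => by simpa [e, h' _, and_comm] using (h 1).symm, fun e => LinearEquiv.ext fun v => by rw [h, h', e.1, e.2]⟩
theorem Dg.ne (h : Dg a b f) (h' : An c d f) : c = 0 := by simpa [h _, eq_comm] using congrFun (h' ![1, 0]) 1

def dg (a b : F) (ha : a ≠ 0) (hb : b ≠ 0) : (Fin 2 → F) ≃ₗ[F] (Fin 2 → F) :=
  LinearEquiv.piCongrRight fun i => LinearEquiv.smulOfNeZero F F (![a, b] i) (by fin_cases i <;> simpa)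
theorem dg_dg (ha : a ≠ 0) (hb : b ≠ 0) : Dg a b (dg a b ha hb) := fun v => by ext i; fin_cases i <;> simp [dg]

/-- Let q = 2^m + 1 be a prime other than 5. Then the automorphism group of the group of linear maps of F_q² of the forms (x, y) ↦ (a x, ± a⁻¹ y) and (x, y) ↦ (± a⁻¹ y, a x) with a ≠ 0 is itself a 2-group. -/
theorem result (q m : ℕ) [Fact q.Prime] (hq : q = 2 ^ m + 1) (hq5 : q ≠ 5)
    (T : Subgroup ((Fin 2 → ZMod q) ≃ₗ[ZMod q] (Fin 2 → ZMod q)))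
    (hT : ∀ f, f ∈ T ↔ ∃ a s : ZMod q, a ≠ 0 ∧ (s = 1 ∨ s = -1) ∧
      ((∀ v, f v = ![a * v 0, s * a⁻¹ * v 1]) ∨ (∀ v, f v = ![s * a⁻¹ * v 1, a * v 0]))) :
    IsPGroup 2 (MulAut T) := by
  have hT' : ∀ f, f ∈ T ↔ ∃ a b : ZMod q, (a * b = 1 ∨ a * b = -1) ∧ (Dg a b f ∨ An a b f) := fun f => by
    rw [hT]
    refine ⟨fun ⟨a, s, h1, h2, h3⟩ => ⟨a, s * a⁻¹, by rwa [mul_comm, inv_mul_cancel_right₀ h1], h3⟩,
      fun ⟨a, b, h1, h2⟩ => ?_⟩
    have h3 : a ≠ 0 := by rintro rfl; simp at h1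
    exact ⟨a, a * b, h3, h1, by rwa [mul_comm a b, mul_inv_cancel_right₀ h3]⟩
  have hne : ∀ {a b : ZMod q}, (a * b = 1 ∨ a * b = -1) → a ≠ 0 ∧ b ≠ 0 := fun h => by
    constructor <;> rintro rfl <;> simp at h
  have hpow : ∀ a : ZMod q, a ≠ 0 → a ^ 2 ^ m = 1 := fun a ha => by
    simpa [hq] using ZMod.pow_card_sub_one_eq_one ha
  have : Finite ((Fin 2 → ZMod q) ≃ₗ[ZMod q] (Fin 2 → ZMod q)) := Finite.of_injective _ DFunLike.coe_injective
  suffices ∀ (α : MulAut T) r, Odd r → α ^ r = 1 → α = 1 from fun α => by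
    obtain ⟨k, r, h1, h2⟩ := Nat.exists_eq_two_pow_mul_odd (orderOf_pos α).ne'
    exact ⟨k, this _ r h1 (by rw [← pow_mul, ← h2, pow_orderOf_eq_one])⟩
  intro α r hr hα
  have hT2 := fun f : T => (hT' f).1 f.2
  by_cases h2 : (2 : ZMod q) = 0
  · have h3 : ∀ a : ZMod q, a ≠ 0 → a = 1 := fun a ha => by
      obtain rfl : m = 0 := by
        have := (Nat.prime_dvd_prime_iff_eq Fact.out Nat.prime_two).1 ((CharP.cast_eq_zero_iff (ZMod q) q 2).1 h2)
        exact Nat.pow_eq_one.1 (by omega : 2 ^ m = 1) |>.resolve_left (by omega)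
      simpa using hpow a ha
    have h4 : ∀ f : T, f ≠ 1 → An 1 1 f.1 := fun f hf => by
      obtain ⟨a, b, h5, h6⟩ := hT2 f
      obtain rfl := h3 a (hne h5).1
      obtain rfl := h3 b (hne h5).2
      exact h6.resolve_left fun h => hf (Subtype.ext ((h.eq_iff dg_one).2 ⟨rfl, rfl⟩))
    ext1 x
    by_cases hx : x = 1
    · simp [hx]
    · exact Subtype.ext (((h4 _ (by simpa)).eq_iff (h4 x hx)).2 ⟨rfl, rfl⟩)
  have h1 : (1 : ZMod q) ≠ -1 := fun e => h2 (by linear_combination e)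
  have exD : ∀ a b : ZMod q, (a * b = 1 ∨ a * b = -1) → ∃ y : T, Dg a b y.1 := fun a b h =>
    have := dg_dg (hne h).1 (hne h).2
    ⟨⟨_, (hT' _).2 ⟨_, _, h, .inl this⟩⟩, this⟩
  obtain ⟨y, hy⟩ := exD 1 (-1) (by simp)
  obtain ⟨n, hn⟩ := exD (-1) (-1) (by simp)
  obtain ⟨s, hs⟩ : ∃ y : T, An 1 1 y.1 := by
    have : An (1 : ZMod q) 1 (LinearEquiv.funCongrLeft _ _ (Equiv.swap 0 1)) := fun v => by
      ext i; fin_cases i <;> simp
    exact ⟨⟨_, (hT' _).2 ⟨_, _, by simp, .inr this⟩⟩, this⟩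
  have cDD : ∀ {f g : T} {a b c d}, Dg a b f.1 → Dg c d g.1 → Commute f g := fun h h' =>
    Subtype.ext (((h.mul h').eq_iff (h'.mul h)).2 ⟨mul_comm _ _, mul_comm _ _⟩)
  have cDA : ∀ {f g : T} {a b c d}, Dg a b f.1 → An c d g.1 → c ≠ 0 → (Commute f g ↔ a = b) := fun h h' hc => by
    rw [commute_iff_eq, Subtype.ext_iff, Subgroup.coe_mul, Subgroup.coe_mul, (h.mulA h').eq_iff (h'.mulD h)]
    exact ⟨fun e => mul_right_cancel₀ hc (by rw [e.1, mul_comm]), fun e => by simp [e, mul_comm]⟩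
  have hC : ∀ f : T, Commute y f ↔ ∃ a b, (a * b = 1 ∨ a * b = -1) ∧ Dg a b f.1 := fun f => by
    refine ⟨fun h => ?_, fun ⟨_, _, _, h⟩ => cDD hy h⟩
    obtain ⟨a, b, h5, h6 | h6⟩ := hT2 f
    exacts [⟨a, b, h5, h6⟩, (h1 ((cDA hy h6 (hne h5).1).1 h)).elim]
  have hnc : ∀ f : T, Commute n f := fun f => by
    obtain ⟨a, b, h5, h6 | h6⟩ := hT2 f
    exacts [cDD hn h6, (cDA hn h6 (hne h5).1).2 rfl]
  have sqD : ∀ {f : T} {a b}, Dg a b f.1 → (f ^ 2 = 1 ↔ (a = 1 ∨ a = -1) ∧ (b = 1 ∨ b = -1)) := fun h => by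
    rw [Subtype.ext_iff, Subgroup.coe_pow, Subgroup.coe_one, (h.pow 2).eq_iff dg_one, sq_eq_one_iff_of_field,
      sq_eq_one_iff_of_field]
  have eD : ∀ {f g : T} {a b}, Dg a b f.1 → Dg a b g.1 → f = g := fun h h' =>
    Subtype.ext ((h.eq_iff h').2 ⟨rfl, rfl⟩)
  have hny : Dg (-1) 1 (n * y).1 := by simpa using hn.mul hy
  have hD : ∀ {f : T} {a b}, Dg a b f.1 → f ^ 2 = 1 → f = 1 ∨ f = n ∨ f = y ∨ f = n * y := fun h e => by
    obtain ⟨rfl | rfl, rfl | rfl⟩ := (sqD h).1 e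
    exacts [.inl (eD h dg_one), .inr (.inr (.inl (eD h hy))), .inr (.inr (.inr (eD h hny))), .inr (.inl (eD h hn))]
  have n2 : n ^ 2 = 1 := (sqD hn).2 (by simp)
  have y2 : y ^ 2 = 1 := (sqD hy).2 (by simp)
  have hα2 : ∀ {f : T}, f ^ 2 = 1 → α f ^ 2 = 1 := fun e => by rw [← map_pow, e, map_one]
  have αn : α n = n := by
    have h5 : ∀ f, Commute (α n) f := fun f => by simpa using (hnc (α.symm f)).map α
    obtain ⟨a, b, -, h6⟩ := (hC _).1 (h5 y).symm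
    obtain rfl := (cDA h6 hs one_ne_zero).1 (h5 s)
    obtain rfl | rfl := ((sqD h6).1 (hα2 n2)).1
    · exact (h1 ((dg_one.eq_iff hn).1 (congrArg Subtype.val (α.map_eq_one_iff.1 (eD h6 dg_one))).symm).1).elim
    · exact eD h6 hn
  have hD' : ∀ {f : T} {a b}, Dg a b (α f).1 → f ^ 2 = 1 → ¬ Commute f y ∨ ¬ Commute f s → α f = y ∨ α f = n * y := by
    intro f a b h e h5
    rcases hD h (hα2 e) with e | e | e
    · simp [α.map_eq_one_iff.1 e] at h5
    · simp [α.injective (e.trans αn.symm), hnc] at h5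
    · exact e
  have ys : ¬ Commute y s := fun h => h1 ((cDA hy hs one_ne_zero).1 h)
  have key : ∀ {β : MulAut T}, β n = n → (β y = y ∨ β y = n * y) → (β ^ 2) y = y := fun {β} e1 e2 => by
    rcases e2 with e | e <;> simp [sq, e, e1, ← mul_assoc, ← sq n, n2]
  have αy : α y = y := by
    obtain ⟨a, b, h5, h6 | h6⟩ := hT2 (α y)
    · exact fix_of_odd (k := 1) hr hα (key αn (hD' h6 y2 (.inr ys)))
    by_cases h3 : ∃ c : ZMod q, c ≠ 0 ∧ c ^ 4 ≠ 1
    · obtain ⟨c, hc, h3⟩ := h3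
      obtain ⟨h, hh⟩ := exD c c⁻¹ (by simp [hc])
      refine (h3 ((hh.pow 4).eq_iff dg_one |>.1 (congrArg Subtype.val (α.map_eq_one_iff.1 ?_ : h ^ 4 = 1))).1).elim
      rw [map_pow, Subtype.ext_iff, Subgroup.coe_pow]
      obtain ⟨d, e, h7, h8 | h8⟩ := hT2 (α h)
      · obtain rfl := (cDA h8 h6 (hne h5).1).1 ((cDD hh hy).map α)
        have : d ^ 4 = 1 := by rcases h7 with e | e <;> [linear_combination (d * d + 1) * e; linear_combination (d * d - 1) * e]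
        exact ((h8.pow 4).eq_iff dg_one).2 ⟨this, this⟩
      · rw [show 4 = 2 * 2 by rfl, pow_mul, sq (α h).1]
        exact (((h8.mul h8).pow 2).eq_iff dg_one).2 (by rcases h7 with e | e <;> simp [mul_comm, e])
    obtain rfl : m = 1 := by
      have : q - 1 ∣ 4 := by
        rw [← ZMod.card_units q, ← Nat.card_eq_fintype_card, ← IsCyclic.exponent_eq_card]
        exact Monoid.exponent_dvd_of_forall_pow_eq_one fun u => Units.ext (by
          simpa using not_not.1 fun h => h3 ⟨u, u.ne_zero, h⟩)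
      have h7 : m ≤ 2 := (Nat.pow_dvd_pow_iff_le_right one_lt_two).1 (by simpa [hq] using this)
      interval_cases m
      exacts [(h2 (by subst hq; rfl)).elim, rfl, (hq5 hq).elim]
    have h7 : ∀ {f : T} {a b}, (a * b = 1 ∨ a * b = -1) → An a b f.1 → f ^ 2 = 1 → f = s ∨ f = n * s := by
      intro f a b h7 h8 e
      have h9 := ((h8.mul h8).eq_iff dg_one).1 (by simpa [sq] using congrArg Subtype.val e)
      have h10 := hpow a (hne h7).1
      obtain rfl : a = b := mul_right_cancel₀ (hne h7).1 (by rw [h9.1, ← h10]; ring)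
      rcases sq_eq_one_iff_of_field.1 h10 with rfl | rfl
      exacts [.inl (Subtype.ext ((h8.eq_iff hs).2 ⟨rfl, rfl⟩)),
        .inr (Subtype.ext ((h8.eq_iff (hn.mulA hs)).2 (by simp)))]
    have s2 : s ^ 2 = 1 := Subtype.ext (((by simpa [sq] using hs.mul hs : Dg 1 1 (s ^ 2).1).eq_iff dg_one).2 ⟨rfl, rfl⟩)
    have h8 : α s = y ∨ α s = n * y := by
      obtain ⟨c, d, h8, h9 | h9⟩ := hT2 (α s)
      · exact hD' h9 s2 (.inl fun h => ys h.symm)
      refine (ys ((α.injective.eq_iff.1 ?_ : y * s = s * y))).elim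
      rw [map_mul, map_mul]
      rcases h7 h5 h6 (hα2 y2) with e | e <;> rcases h7 h8 h9 (hα2 s2) with e' | e' <;> rw [e, e']
      exacts [(((hnc s).symm).mul_right (.refl _)).eq, ((hnc s).mul_left (.refl _)).eq]
    refine fix_of_odd (k := 2) hr hα (by
      rw [show 2 ^ 2 = 2 * 2 by rfl, pow_mul]
      refine key (by simp [sq, αn]) ?_
      rcases h7 h5 h6 (hα2 y2) with e | e <;> rcases h8 with e' | e' <;>
        simp [sq, e, e', αn, ← mul_assoc, ← sq n, n2])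
  refine eq_one_of hr hα (Subgroup.centralizer {y}) (fun x => ?_) (fun x hx z hz => ?_) (fun x hx => ?_)
    (fun x hx e => ?_) fun x hx z hz => ?_
  all_goals simp only [Subgroup.mem_centralizer_singleton_iff, eq_comm (b := y * _), ← commute_iff_eq] at *
  · nth_rw 1 [← αy]
    exact ⟨fun h => α.injective (by simpa using h.eq), fun h => h.map α⟩
  · obtain ⟨_, _, -, h⟩ := (hC x).1 hx
    obtain ⟨_, _, -, h'⟩ := (hC z).1 hz
    exact cDD h h'
  · obtain ⟨a, b, h5, h⟩ := (hC x).1 hx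
    exact ⟨m, eD (h.pow _) (by rw [hpow a (hne h5).1, hpow b (hne h5).2]; exact dg_one)⟩
  · obtain ⟨a, b, h5, h⟩ := (hC x).1 hx
    rcases hD h e with rfl | rfl | rfl | rfl <;> simp [αn, αy]
  · obtain ⟨a, b, h5, h6⟩ := hT2 x
    obtain ⟨c, d, h7, h8⟩ := hT2 z⁻¹
    exact cDD hy ((h6.resolve_left fun h => hx (cDD hy h)).mul (h8.resolve_left fun h => hz (Commute.inv_right_iff.1 (cDD hy h))))

end Cfsg.Agent.S3382
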