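import Cfsg.Statements.S3383
import Cfsg.Agent.Lib.Frob.Semidirect
import Cfsg.Agent.Lib.Core.Basic

set_option autoImplicit false
open Cfsg

namespace Cfsg.Agent.S3383

/-- Let H be a Frobenius complement in a finite group L and K the Frobenius kernel (as a subgroup). Then K is characteristic in L, and every normal subgroup of L either contains K or is contained in K. -/
theorem result {L : Type*} [Group L] [Finite L]
    (H : Subgroup L) (hH : Cfsg.IsFrobeniusComplement H)
    (K : Subgroup L) (hK : (K : Set L) = Cfsg.frobeniusKernel H) :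
    K.Characteristic ∧ ∀ N : Subgroup L, N.Normal → K ≤ N ∨ N ≤ K := by
  have hKn : K.Normal := CfsgLib.Frob.normal_of_coe_eq_kernel hK
  have hc := CfsgLib.Frob.isComplement'_of_coe_eq_kernel hH hK
  refine ⟨?_, fun N hN => (CfsgLib.Frob.le_or_le_of_normal_of_fpf hc
    (CfsgLib.Frob.fpf_of_frob hH hc.disjoint)).symm⟩
  rw [Subgroup.characteristic_iff_map_le]
  intro φ
  apply CfsgLib.Core.le_of_coprime_card_index
  rw [Subgroup.card_map_of_injective φ.injective, hc.symm.index_eq_card, ← hc.index_eq_card]
  exact (CfsgLib.Frob.frob_coprime_card_index hH).symm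

end Cfsg.Agent.S3383
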