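import Cfsg.Statements.S3419
import Cfsg.Agent.Lib.Nse.Section
import Cfsg.Agent.Lib.FgsH2.TwoPrimes
import Cfsg.Agent.Lib.Coprime.Hall

set_option autoImplicit false
open Cfsg

namespace Cfsg.Agent.S3419

open CfsgLib.Nse Subgroup

theorem hall_case {G : Type*} [Group G] [Finite G] [Group.IsSolvable G] {p q m : ℕ} (hp : p.Prime)
    (hq : q.Prime) (hne : p ≠ q) (hd : ¬ p ∣ q - 1) (hG : Nat.card G = p ^ 2 * q * m)
    (hc : (p ^ 2 * q).Coprime m) (h1 : ∀ k, k ∣ p ^ 2 → k % q = 1 → k = 1) : s G (p * q) ≠ 0 := by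
  haveI := Fact.mk hq
  obtain ⟨H, hH⟩ := CfsgLib.Coprime.exists_card_eq_of_coprime hG hc
  obtain ⟨Q⟩ := (inferInstance : Nonempty (Sylow q H))
  have hq2 : ¬ q ∣ p ^ 2 := fun h =>
    hne ((Nat.prime_dvd_prime_iff_eq hq hp).mp (hq.dvd_of_dvd_pow h)).symm
  have hQ : Nat.card (Q : Subgroup H) = q := by
    rw [Q.card_eq_multiplicity, hH, Nat.factorization_mul (pow_ne_zero _ hp.ne_zero) hq.ne_zero]
    simp [Nat.factorization_eq_zero_of_not_dvd hq2, hq.factorization_self,
      Nat.factorization_eq_zero_of_not_dvd (fun h => hq2 (Dvd.dvd.pow h two_ne_zero))]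
  have hi : (Q : Subgroup H).index = p ^ 2 := by
    have := (Q : Subgroup H).card_mul_index
    rw [hQ, hH, mul_comm] at this
    exact Nat.eq_of_mul_eq_mul_right hq.pos this
  have h2 : Nat.card (Sylow q H) = 1 := by
    refine h1 _ (hi ▸ Q.card_dvd_index) ?_
    have := card_sylow_modEq_one q H
    rwa [Nat.ModEq, Nat.mod_eq_of_lt hq.one_lt] at this
  have h3 : (normalizer ((Q : Subgroup H) : Set H)).index = 1 := h2 ▸ Q.card_eq_index_normalizer.symm
  have h4 := s_ne_zero_of_normalizer hp hq hne hd (Q : Subgroup H) hQ (by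
    rw [index_eq_one.mp h3, card_top, hH]; exact (dvd_pow_self p two_ne_zero).mul_right q)
  obtain ⟨g, hg⟩ := s_ne_zero_iff.mp h4
  exact s_ne_zero_iff.mpr ⟨g, by rw [orderOf_coe, hg]⟩


/-- Let n ≥ 5 and let G be a finite group with the same order and the same set of element orders as the alternating group of degree n. Then G is not solvable. -/
theorem result {G : Type*} [Group G] [Finite G] (n : ℕ) (hn : 5 ≤ n)
    (hcard : Nat.card G = Nat.card ↥(alternatingGroup (Fin n)))
    (hspec : Set.range (orderOf : G → ℕ) = Set.range (orderOf : ↥(alternatingGroup (Fin n)) → ℕ)) :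
    ¬ Group.IsSolvable G := by
  intro hs
  have key : (∃ p q : ℕ, p.Prime ∧ q.Prime ∧ p ≠ q ∧ n < 2 * p ∧ n < 2 * q ∧ p ≤ n ∧ q ≤ n) →
      False := by
    rintro ⟨p, q, hp, hq, hne, h1, h2, h3, h4⟩
    obtain ⟨N, H, _, -, -, a1, a2, -⟩ := alt_section n hcard hspec hp hq hne h1 h2 h3 h4 (by omega)
    exact a2 ⟨⟨IsSimpleGroup.comm_iff_isSolvable.mpr inferInstance⟩⟩
  haveI : Nontrivial (Fin n) := Fin.nontrivial_iff_two_le.mpr (by omega)
  have hc : 2 * Nat.card G = n.factorial := by
    rw [hcard, two_mul_nat_card_alternatingGroup, Nat.card_perm]; simp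
  have hno : ∀ p q : ℕ, p.Prime → q.Prime → p ≠ q → n < p + q → s G (p * q) = 0 := by
    intro p q hp hq hne h
    refine s_eq_zero_iff.mpr fun g hg => ?_
    obtain ⟨σ, hσ⟩ : p * q ∈ Set.range (orderOf : alternatingGroup (Fin n) → ℕ) :=
      hspec ▸ ⟨g, hg⟩
    have := add_le_of_orderOf hp hq hne (σ : Equiv.Perm (Fin n)) (by rw [orderOf_coe, hσ])
    rw [Fintype.card_fin] at this
    omega
  rcases Nat.lt_or_ge n 17 with h | h
  swap
  · obtain ⟨p, q, hp, hq, h1, h2, h3⟩ := CfsgLib.FgsH2.exists_two_primes h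
    exact key ⟨p, q, hp, hq, by omega, h1, by omega, by omega, h3⟩
  by_cases h13 : 13 ≤ n
  · exact key ⟨11, 13, by norm_num, by norm_num, by norm_num, by omega, by omega, by omega, by omega⟩
  by_cases h11 : 11 ≤ n
  · exact key ⟨7, 11, by norm_num, by norm_num, by norm_num, by omega, by omega, by omega, by omega⟩
  by_cases h10 : n = 10
  · subst h10
    refine hall_case (G := G) (p := 5) (q := 7) (m := 10368) (by norm_num) (by norm_num)
      (by norm_num) (by norm_num) (by simp only [Nat.factorial] at hc; omega) (by norm_num)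
      (fun k hk h7 => ?_) (hno 5 7 (by norm_num) (by norm_num) (by norm_num) (by norm_num))
    have := Nat.le_of_dvd (by norm_num) hk
    interval_cases k <;> simp_all
  by_cases h7 : 7 ≤ n
  · exact key ⟨5, 7, by norm_num, by norm_num, by norm_num, by omega, by omega, by omega, by omega⟩
  by_cases h6 : n = 6
  · subst h6
    refine hall_case (G := G) (p := 3) (q := 5) (m := 8) (by norm_num) (by norm_num)
      (by norm_num) (by norm_num) (by simp only [Nat.factorial] at hc; omega) (by norm_num)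
      (fun k hk h7 => ?_) (hno 3 5 (by norm_num) (by norm_num) (by norm_num) (by norm_num))
    have := Nat.le_of_dvd (by norm_num) hk
    interval_cases k <;> simp_all
  · exact key ⟨3, 5, by norm_num, by norm_num, by norm_num, by omega, by omega, by omega, by omega⟩

end Cfsg.Agent.S3419
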