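import Cfsg.Statements.S3420
import Cfsg.Agent.Lib.Nse.Section
import Cfsg.Agent.Lib.FgsH2.TwoPrimes

set_option autoImplicit false
open Cfsg

namespace Cfsg.Agent.S3420

/-- Let n ≥ 11 and let G be a finite group with the same order and the same set of element orders as the alternating group of degree n. Then G has normal subgroups N < H such that H/N is a non-abelian simple group whose order is divisible by every prime p with n/2 < p ≤ n. -/
theorem result {G : Type*} [Group G] [Finite G] (n : ℕ) (hn : 11 ≤ n)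
    (hcard : Nat.card G = Nat.card ↥(alternatingGroup (Fin n)))
    (hspec : Set.range (orderOf : G → ℕ) = Set.range (orderOf : ↥(alternatingGroup (Fin n)) → ℕ)) :
    ∃ (N H : Subgroup G) (_ : N.Normal), H.Normal ∧ N < H ∧
      IsSimpleGroup (↥H ⧸ N.subgroupOf H) ∧ ¬ IsMulCommutative (↥H ⧸ N.subgroupOf H) ∧
      ∀ p : ℕ, p.Prime → n < 2 * p → p ≤ n → p ∣ Nat.card (↥H ⧸ N.subgroupOf H) := by
  have key : ∃ p q : ℕ, p.Prime ∧ q.Prime ∧ p ≠ q ∧ n < 2 * p ∧ n < 2 * q ∧ p ≤ n ∧ q ≤ n := by
    rcases Nat.lt_or_ge n 17 with h | h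
    · rcases Nat.lt_or_ge n 13 with h' | h'
      · exact ⟨7, 11, by norm_num, by norm_num, by norm_num, by omega, by omega, by omega, by omega⟩
      · exact ⟨11, 13, by norm_num, by norm_num, by norm_num, by omega, by omega, by omega, by omega⟩
    · obtain ⟨p, q, hp, hq, h1, h2, h3⟩ := CfsgLib.FgsH2.exists_two_primes h
      exact ⟨p, q, hp, hq, by omega, h1, by omega, by omega, h3⟩
  obtain ⟨p, q, hp, hq, hne, h1, h2, h3, h4⟩ := key
  exact CfsgLib.Nse.alt_section n hcard hspec hp hq hne h1 h2 h3 h4 (by omega)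

end Cfsg.Agent.S3420
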