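import Cfsg.Statements.S3704

set_option autoImplicit false
open Cfsg

namespace Cfsg.Agent.S3704

open MulAction Matrix

theorem span {X Ω : Type*} [Fintype X] [Fintype Ω] [DecidableEq Ω] (hc : Fintype.card X = Fintype.card Ω)
    (N M : Matrix X Ω ℚ) (hN : ∀ x a, N x a = 0 ∨ N x a = 1) {x₀ : X} {a₀ b₀ : Ω} (ha : N x₀ a₀ = 1) (hb : N x₀ b₀ = 0)
    (h1 : ∃ r l : ℚ, ∀ a b, ∑ x, N x a * N x b = if a = b then r else l)
    (h2 : ∃ r l : ℚ, ∀ a b, ∑ x, N x a * M x b = if a = b then r else l) :
    ∃ s t : ℚ, ∀ x a, M x a = s * N x a + t := by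
  obtain ⟨r, l, h1⟩ := h1
  obtain ⟨r', l', h2⟩ := h2
  have hab : a₀ ≠ b₀ := fun e => by rw [e, hb] at ha; exact zero_ne_one ha
  have hr : ∀ a, ∑ x, N x a = r := fun a => by
    have := h1 a a
    rw [if_pos rfl] at this
    rw [← this]
    exact Finset.sum_congr rfl fun x _ => by rcases hN x a with e | e <;> simp [e]
  have hlt : l < r := by
    have := h1 a₀ b₀
    rw [if_neg hab] at this
    rw [← this, ← hr a₀]
    refine Finset.sum_lt_sum (fun x _ => ?_) ⟨x₀, Finset.mem_univ _, by simp [ha, hb]⟩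
    rcases hN x a₀ with e | e <;> rcases hN x b₀ with e' | e' <;> simp [e, e']
  have hl : 0 ≤ l := by
    have := h1 a₀ b₀
    rw [if_neg hab] at this
    rw [← this]
    refine Finset.sum_nonneg fun x _ => ?_
    rcases hN x a₀ with e | e <;> rcases hN x b₀ with e' | e' <;> simp [e, e']
  have hinj : Function.Injective N.mulVecLin := by
    rw [injective_iff_map_eq_zero]
    intro f hf
    have key : ∀ a, (r - l) * f a + l * ∑ b, f b = 0 := fun a => by
      have : ∑ x, N x a * (N *ᵥ f) x = 0 := by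
        rw [show N *ᵥ f = 0 from hf]; simp
      simp only [mulVec, dotProduct, Finset.mul_sum] at this
      rw [Finset.sum_comm] at this
      simp only [← mul_assoc, ← Finset.sum_mul, h1] at this
      have e : ∀ b, (if a = b then r else l) * f b = (if a = b then (r - l) * f b else 0) + l * f b := fun b => by
        split_ifs <;> ring
      simp only [e, Finset.sum_add_distrib, Finset.sum_ite_eq, Finset.mem_univ, if_true, ← Finset.mul_sum] at this
      exact this
    have hs : ∑ b, f b = 0 := by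
      have := Finset.sum_congr (s₁ := Finset.univ) rfl fun a _ => key a
      rw [Finset.sum_add_distrib, ← Finset.mul_sum, Finset.sum_const, Finset.sum_const_zero, nsmul_eq_mul,
        ← mul_assoc, ← add_mul] at this
      exact (mul_eq_zero.1 this).resolve_left (by positivity)
    funext a
    have := key a
    rw [hs, mul_zero, add_zero] at this
    exact (mul_eq_zero.1 this).resolve_left (by linarith)
  have hsurj := (LinearMap.injective_iff_surjective_of_finrank_eq_finrank (by simp [hc])).1 hinj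
  have hr0 : r ≠ 0 := by linarith
  have hrl : r - l ≠ 0 := by linarith
  refine ⟨(r' - l') / (r - l), (l' - (r' - l') / (r - l) * l) / r, fun x b => ?_⟩
  set s := (r' - l') / (r - l) with hs
  set t := (l' - s * l) / r with ht
  let u : X → ℚ := fun x => M x b - (s * N x b + t)
  have hu : ∀ a, ∑ x, N x a * u x = 0 := fun a => by
    have : ∀ x, N x a * u x = N x a * M x b - (s * (N x a * N x b) + N x a * t) := fun x => by ring
    simp only [this, Finset.sum_sub_distrib, Finset.sum_add_distrib, ← Finset.mul_sum, ← Finset.sum_mul, h1, h2, hr]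
    split_ifs
    · rw [ht, hs]; field_simp; ring
    · rw [ht]; field_simp; ring
  obtain ⟨f, hf⟩ := hsurj u
  have : ∑ x, u x * u x = 0 := by
    calc ∑ x, u x * u x = ∑ x, (N *ᵥ f) x * u x := by rw [show N *ᵥ f = u from hf]
      _ = ∑ a, f a * ∑ x, N x a * u x := by
        simp only [mulVec, dotProduct, Finset.sum_mul, Finset.mul_sum]
        rw [Finset.sum_comm]
        exact Finset.sum_congr rfl fun a _ => Finset.sum_congr rfl fun x _ => by ring
      _ = 0 := by simp [hu]
  have := (Finset.sum_eq_zero_iff_of_nonneg fun x _ => mul_self_nonneg (u x)).1 this x (Finset.mem_univ _)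
  exact sub_eq_zero.1 (mul_self_eq_zero.1 this)

/-- Let G be a finite group acting faithfully and 2-transitively on a finite set Ω of size n, and let H be a subgroup of index n in G which is not transitive on Ω and fixes no point of Ω. Then H has exactly two orbits on Ω. -/
theorem result {G Ω : Type*} [Group G] [Finite G] [MulAction G Ω] [FaithfulSMul G Ω] [Finite Ω] (h2 : MulAction.IsMultiplyPretransitive G Ω 2) (H : Subgroup G) (hidx : H.index = Nat.card Ω) (hnt : ¬ MulAction.IsPretransitive H Ω) (hfix : ∀ a : Ω, ∃ h : H, h • a ≠ a) : Nat.card (MulAction.orbitRel.Quotient H Ω) = 2 := by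
  classical
  have := Fintype.ofFinite Ω
  have := Fintype.ofFinite (G ⧸ H)
  obtain ⟨a₀, b₀, hab⟩ : ∃ a b : Ω, b ∉ orbit H a := by
    by_contra hc
    push Not at hc
    exact hnt ⟨fun a b => hc a b⟩
  have hne : a₀ ≠ b₀ := fun e => hab (e ▸ mem_orbit_self a₀)
  let N : Ω → Matrix (G ⧸ H) Ω ℚ := fun c x a => if x.out⁻¹ • a ∈ orbit H c then 1 else 0
  have hN : ∀ c (g : G) a, N c (g : G ⧸ H) a = if g⁻¹ • a ∈ orbit H c then 1 else 0 := by
    intro c g a
    obtain ⟨h, hh⟩ := QuotientGroup.mk_out_eq_mul H g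
    simp only [N, hh, _root_.mul_inv_rev, mul_smul]
    refine if_congr ?_ rfl rfl
    exact ⟨fun ⟨k, hk⟩ => ⟨h * k, by
      simp only at hk ⊢
      rw [mul_smul, hk]; exact smul_inv_smul h _⟩, fun ⟨k, hk⟩ => ⟨h⁻¹ * k, by
      simp only at hk ⊢
      rw [mul_smul, hk]; rfl⟩⟩
  have hinv : ∀ c (g : G) x a, N c (g • x) (g • a) = N c x a := by
    intro c g x a
    obtain ⟨x, rfl⟩ := QuotientGroup.mk_surjective x
    rw [Quotient.smul_coe, hN, hN, smul_eq_mul, _root_.mul_inv_rev, mul_smul, inv_smul_smul]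
  have h1 : IsPretransitive G Ω := by
    refine ⟨fun a b => ?_⟩
    by_cases e : a = b
    · exact ⟨1, by rw [e, one_smul]⟩
    · obtain ⟨g, hg, -⟩ := (is_two_pretransitive_iff.1 h2) e (Ne.symm e)
      exact ⟨g, hg⟩
  have hcomm : ∀ c d, ∃ r l : ℚ, ∀ a b, ∑ x, N c x a * N d x b = if a = b then r else l := by
    intro c d
    have key : ∀ (g : G) a b, ∑ x, N c x (g • a) * N d x (g • b) = ∑ x, N c x a * N d x b := fun g a b => by
      rw [← Equiv.sum_comp (MulAction.toPerm g)]
      exact Finset.sum_congr rfl fun x _ => by rw [toPerm_apply, hinv, hinv]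
    refine ⟨∑ x, N c x a₀ * N d x a₀, ∑ x, N c x a₀ * N d x b₀, fun a b => ?_⟩
    split_ifs with e
    · obtain ⟨g, rfl⟩ := h1.exists_smul_eq a₀ a
      rw [← e, key]
    · obtain ⟨g, rfl, rfl⟩ := (is_two_pretransitive_iff.1 h2) hne e
      rw [key]
  obtain ⟨s, t, hst⟩ := span (by rw [← Nat.card_eq_fintype_card, ← Nat.card_eq_fintype_card]; exact hidx) (N a₀) (N b₀)
    (fun x a => by simp only [N]; split_ifs <;> simp) (x₀ := ((1 : G) : G ⧸ H)) (a₀ := a₀) (b₀ := b₀)
    (by rw [hN, if_pos (by simp)]) (by rw [hN, if_neg (by simpa using hab)]) (hcomm _ _) (hcomm _ _)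
  have hall : ∀ c, c ∈ orbit H a₀ ∨ c ∈ orbit H b₀ := by
    intro c
    by_contra hc
    push Not at hc
    have e1 := hst ((1 : G) : G ⧸ H) c
    have e2 := hst ((1 : G) : G ⧸ H) b₀
    simp only [hN, inv_one, one_smul, if_neg hc.1, if_neg hc.2, if_neg hab, if_pos (mem_orbit_self b₀)] at e1 e2
    linarith
  refine Nat.card_eq_two_iff.2 ⟨Quotient.mk _ a₀, Quotient.mk _ b₀, fun e => hab ?_, Set.eq_univ_of_forall ?_⟩
  · exact orbitRel_apply.1 (Quotient.exact e.symm)
  · rintro ⟨c⟩
    exact (hall c).imp (fun h => Quotient.sound (orbitRel_apply.2 h)) fun h => Quotient.sound (orbitRel_apply.2 h)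

end Cfsg.Agent.S3704
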