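import Cfsg.Statements.S3732
import Cfsg.Agent.Lib.Perm.GeomOW

set_option autoImplicit false
open Cfsg

namespace Cfsg.Agent.S3732


/-- The Ostrom–Wagner Theorem. Let Π be a finite projective plane (points P, lines L) whose collineation group is 2-transitive on points: for any two ordered pairs of distinct points there is a permutation of the points, together with a compatible permutation of the lines preserving incidence, carrying the first pair to the second. Then Π is Desarguesian: there is a finite field F and a bijection from P onto the points of the projective plane over F (the 1-dimensional subspaces of F³) under which the lines of Π correspond exactly to the 2-dimensional subspaces of F³. -/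
theorem result
    {P L : Type*} [Membership P L] [Fintype P] [Fintype L] [Configuration.ProjectivePlane P L]
    (h2t : ∀ p₁ p₂ q₁ q₂ : P, p₁ ≠ p₂ → q₁ ≠ q₂ →
      ∃ (σ : Equiv.Perm P) (τ : Equiv.Perm L), (∀ (p : P) (l : L), σ p ∈ τ l ↔ p ∈ l) ∧ σ p₁ = q₁ ∧ σ p₂ = q₂) :
    ∃ (F : Type) (_ : Field F) (_ : Fintype F) (φ : P ≃ Projectivization F (Fin 3 → F)),
      (∀ l : L, ∃ W : Submodule F (Fin 3 → F), Module.finrank F W = 2 ∧
          ∀ p : P, p ∈ l ↔ (φ p).submodule ≤ W) ∧
      (∀ W : Submodule F (Fin 3 → F), Module.finrank F W = 2 →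
          ∃ l : L, ∀ p : P, p ∈ l ↔ (φ p).submodule ≤ W) := by
  obtain ⟨p1, p2, p3, l1, l2, l3, h1, h2, h3, h4, h5, h6, h7, h8⟩ :=
    Configuration.ProjectivePlane.exists_config (P := P) (L := L)
  have d : CfsgLib.Perm.SymDesign (fun (p : P) (l : L) => p ∈ l)
      (Configuration.ProjectivePlane.order P L + 1) 1 :=
    ⟨Configuration.ProjectivePlane.card_points_eq_card_lines P L,
      fun p => Configuration.ProjectivePlane.lineCount_eq L p,
      fun p q h => Set.ncard_eq_one.2 (by
        obtain ⟨l, hl, hl'⟩ := Configuration.HasLines.existsUnique_line P L p q h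
        exact ⟨l, Set.eq_singleton_iff_unique_mem.2 ⟨hl, hl'⟩⟩),
      fun l => Configuration.ProjectivePlane.pointCount_eq P l,
      fun l m h => Set.ncard_eq_one.2 (by
        obtain ⟨p, hp, hp'⟩ := Configuration.HasPoints.existsUnique_point P L l m h
        exact ⟨p, Set.eq_singleton_iff_unique_mem.2 ⟨hp, hp'⟩⟩),
      by have := Configuration.ProjectivePlane.one_lt_order P L; omega⟩
  let _ := CfsgLib.Perm.instMulActionCollP (fun (p : P) (l : L) => p ∈ l)
  let _ := CfsgLib.Perm.instMulActionCollL (fun (p : P) (l : L) => p ∈ l)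
  have d2 : CfsgLib.Perm.Plane2 (CfsgLib.Perm.coll (fun (p : P) (l : L) => p ∈ l))
      (fun (p : P) (l : L) => p ∈ l) (Configuration.ProjectivePlane.order P L) :=
    ⟨d.planeAct, fun {x y x' y'} hxy hxy' => by
      obtain ⟨σ, τ, k1, k2, k3⟩ := h2t x y x' y' hxy hxy'
      exact ⟨⟨(σ, τ), k1⟩, k2, k3⟩⟩
  exact d2.desarguesian p1

end Cfsg.Agent.S3732
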