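import Cfsg.Statements.S3733
import Mathlib


set_option autoImplicit false
open Cfsg

namespace Cfsg.Agent.S3733

open Subgroup in

/-- Let A and V be subgroups of a finite group with V abelian and nontrivial and A normalizing V. Suppose a nonempty finite family of proper subgroups of A partitions A: every non-identity element of A lies in exactly one member. If the number of members minus one is coprime to the order of V, then some member B of the family has a non-identity fixed point on V, that is V ∩ C(B) ≠ 1. -/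
theorem result {G : Type*} [Group G] [Finite G] (A V : Subgroup G) (hVab : IsMulCommutative V) (hV : V ≠ ⊥) (hAV : A ≤ Subgroup.normalizer (V : Set G)) (𝒜 : Finset (Subgroup G)) (hne : 𝒜.Nonempty) (hprop : ∀ B ∈ 𝒜, B < A) (hpart : ∀ a ∈ A, a ≠ 1 → ∃! B, B ∈ 𝒜 ∧ a ∈ B) (hk : (𝒜.card - 1).Coprime (Nat.card V)) : ∃ B ∈ 𝒜, V ⊓ Subgroup.centralizer (B : Set G) ≠ ⊥ := by
  classical
  by_contra! hcon
  letI : CommGroup V := { (inferInstance : Group V) with mul_comm := hVab.is_comm.comm }
  have := Fintype.ofFinite G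
  let c : G → V → V := fun a v => if h : a ∈ A then ⟨a * v * a⁻¹, (hAV h v).1 v.2⟩ else 1
  have hc : ∀ a ∈ A, ∀ v : V, (c a v : G) = a * v * a⁻¹ := fun a ha v => by simp [c, ha]
  have key : ∀ B ≤ A, ∀ C ∈ 𝒜, C ≤ B → ∀ v : V, ∏ a ∈ Finset.univ.filter (· ∈ B), c a v = 1 := by
    intro B hB C hC hCB v
    refine Subtype.ext (mem_bot.1 (hcon C hC ▸ ⟨Subtype.prop _, fun g hg => ?_⟩))
    have hgA := hB (hCB hg)
    let f : V →* V := MonoidHom.mk' (c g) fun x y => Subtype.ext (by simp [hc g hgA])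
    have : f (∏ a ∈ Finset.univ.filter (· ∈ B), c a v) = ∏ a ∈ Finset.univ.filter (· ∈ B), c a v := by
      rw [map_prod]
      refine Finset.prod_bij (fun a _ => g * a) (fun a ha => ?_) (fun a _ b _ e => mul_left_cancel e)
        (fun b hb => ⟨g⁻¹ * b, ?_, by simp⟩) fun a ha => Subtype.ext ?_
      · simpa using mul_mem (hCB hg) (by simpa using ha)
      · simpa using mul_mem (inv_mem (hCB hg)) (by simpa using hb)
      · have ha' : a ∈ A := hB (by simpa using ha)
        show (c g (c a v) : G) = _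
        rw [hc g hgA, hc a ha', hc _ (mul_mem hgA ha')]; group
    exact mul_inv_eq_iff_eq_mul.1 ((hc g hgA _).symm.trans (congrArg Subtype.val this))
  obtain ⟨C, hC⟩ := hne
  refine hV (eq_bot_iff.2 fun v hv => ?_)
  have h1 : ∀ B ≤ A, ∏ a ∈ Finset.univ.filter (· ∈ B), c a ⟨v, hv⟩ =
      ⟨v, hv⟩ * ∏ a ∈ (Finset.univ.filter (· ∈ B)).erase 1, c a ⟨v, hv⟩ := fun B hB => by
    rw [← Finset.mul_prod_erase _ _ (a := 1) (by simp)]
    exact congrArg (· * _) (Subtype.ext (by simp [hc 1 A.one_mem]))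
  have h2 : (Finset.univ.filter (· ∈ A)).erase 1 =
      𝒜.biUnion fun B => (Finset.univ.filter (· ∈ B)).erase 1 := by
    ext a
    simp only [Finset.mem_erase, Finset.mem_filter, Finset.mem_univ, true_and, Finset.mem_biUnion]
    exact ⟨fun ⟨h1, h2⟩ => (hpart a h2 h1).exists.imp fun B h => ⟨h.1, h1, h.2⟩,
      fun ⟨B, h1, h2, h3⟩ => ⟨h2, (hprop B h1).le h3⟩⟩
  have h3 := h1 A le_rfl
  rw [key A le_rfl C hC (hprop C hC).le, h2, Finset.prod_biUnion (fun B hB B' hB' hne =>
    Finset.disjoint_left.2 fun a ha ha' => hne (by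
      simp only [Finset.mem_erase, Finset.mem_filter, Finset.mem_univ, true_and] at ha ha'
      exact (hpart a ((hprop B hB).le ha.2) ha.1).unique ⟨hB, ha.2⟩ ⟨hB', ha'.2⟩)),
    Finset.prod_congr rfl (g := fun _ => (⟨v, hv⟩ : V)⁻¹) fun B hB => eq_inv_of_mul_eq_one_right
      ((h1 B (hprop B hB).le).symm.trans (key B (hprop B hB).le B hB le_rfl _)), Finset.prod_const,
    ← Nat.sub_add_cancel (Finset.card_pos.2 ⟨C, hC⟩), pow_succ', mul_inv_cancel_left, inv_pow,
    eq_comm, inv_eq_one] at h3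
  have h4 : orderOf (⟨v, hv⟩ : V) = 1 :=
    Nat.eq_one_of_dvd_coprimes hk (orderOf_dvd_of_pow_eq_one h3) (orderOf_dvd_natCard _)
  exact congrArg Subtype.val (orderOf_eq_one_iff.1 h4)
end Cfsg.Agent.S3733
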