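import Cfsg.Statements.S3735
import Cfsg.Agent.Lib.Core.MinNormal
import Cfsg.Agent.Lib.SolvStruct.Subnormal
import Cfsg.Agent.Lib.PGroup.Basic

set_option autoImplicit false
open Cfsg

namespace Cfsg.Agent.S3735

open Subgroup CfsgLib.Core
open scoped Pointwise

theorem le_normalizer_of_comm {G : Type*} [Group G] {V U W : Subgroup G} (hV : IsMulCommutative V)
    (hU : U ≤ V) (hW : W ≤ V) : U ≤ normalizer (W : Set G) := by
  refine le_trans ?_ (Subgroup.centralizer_le_normalizer _)
  intro u hu
  rw [mem_centralizer_iff]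
  intro w hw
  exact isMulCommutative_iff_forall.1 hV w (hW hw) u (hU hu)

theorem le_normalizer_conj {G : Type*} [Group G] {A M : Subgroup G} {h : G}
    (hh : h ∈ normalizer (A : Set G)) (hM : A ≤ normalizer (M : Set G)) :
    A ≤ normalizer ((MulAut.conj h • M : Subgroup G) : Set G) := by
  rw [CfsgLib.SolvStruct.normalizer_conj_smul]
  intro a ha
  rw [mem_conj_smul_iff]
  apply hM
  have := (mem_normalizer_iff.1 (inv_mem hh) a).1 ha
  simpa using this

/-- Clifford's Theorem for actions on finite abelian groups, first part. Let H and V be subgroups of a finite group with V abelian and H normalizing V, and let A be a normal subgroup of H. If every H-invariant subgroup of V has an H-invariant complement in V, then every A-invariant subgroup of V has an A-invariant complement in V. -/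
theorem result {G : Type*} [Group G] [Finite G] (H A V : Subgroup G) (hVab : IsMulCommutative V) (hHV : H ≤ Subgroup.normalizer (V : Set G)) (hAH : A ≤ H) (hAn : H ≤ Subgroup.normalizer (A : Set G)) (hss : ∀ U : Subgroup G, U ≤ V → H ≤ Subgroup.normalizer (U : Set G) → ∃ W : Subgroup G, W ≤ V ∧ H ≤ Subgroup.normalizer (W : Set G) ∧ U ⊓ W = ⊥ ∧ U ⊔ W = V) (U : Subgroup G) (hUV : U ≤ V) (hAU : A ≤ Subgroup.normalizer (U : Set G)) : ∃ W : Subgroup G, W ≤ V ∧ A ≤ Subgroup.normalizer (W : Set G) ∧ U ⊓ W = ⊥ ∧ U ⊔ W = V := by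
  classical
  set S : Set (Subgroup G) := {M | M ≤ V ∧ A ≤ normalizer (M : Set G) ∧ M ≠ ⊥ ∧
    ∀ N : Subgroup G, A ≤ normalizer (N : Set G) → N ≤ M → N = ⊥ ∨ N = M} with hS
  have hSV : sSup S ≤ V := sSup_le fun M hM => hM.1
  have hHS : H ≤ normalizer ((sSup S : Subgroup G) : Set G) := by
    apply CfsgLib.SolvStruct.le_normalizer_sSup
    rintro M ⟨h1, h2, h3, h4⟩ h hh
    refine ⟨CfsgLib.SolvStruct.conj_smul_le_of_mem_normalizer h1 (hHV hh),
      le_normalizer_conj (hAn hh) h2, ?_, ?_⟩
    · intro h0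
      apply h3
      have := congrArg (fun K : Subgroup G => MulAut.conj h⁻¹ • K) h0
      simpa [smul_smul, ← map_mul] using this
    · intro N hN hNM
      have h5 := h4 (MulAut.conj h⁻¹ • N) (le_normalizer_conj (hAn (inv_mem hh)) hN) (by
        intro x hx
        rw [mem_conj_smul_iff] at hx
        have := hNM hx
        rw [mem_conj_smul_iff] at this
        simpa [mul_assoc] using this)
      rcases h5 with h5 | h5
      · left
        have := congrArg (fun K : Subgroup G => MulAut.conj h • K) h5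
        simpa [smul_smul, ← map_mul] using this
      · right
        rw [← h5]
        simp [smul_smul]
  have hVS : sSup S = V := by
    obtain ⟨W, hWV, hHW, hd, hs⟩ := hss _ hSV hHS
    by_cases hW : W = ⊥
    · rw [hW, sup_bot_eq] at hs
      exact hs
    · obtain ⟨N, a1, a2, a3, a4⟩ := exists_minimal_normalized_le (hAH.trans hHW) hW
      exfalso
      apply a2
      rw [eq_bot_iff, ← hd]
      exact le_inf (le_sSup (show N ∈ S from ⟨a3.trans hWV, a1, a2, a4⟩)) a3
  obtain ⟨W, -, ⟨hWV, hAW, hUW⟩, hmax⟩ := CfsgLib.PGroup.exists_maximal_ge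
    (fun W : Subgroup G => W ≤ V ∧ A ≤ normalizer (W : Set G) ∧ U ⊓ W = ⊥) (A := ⊥)
    ⟨bot_le, Subgroup.le_normalizer_of_normal, by simp⟩
  refine ⟨W, hWV, hAW, hUW, le_antisymm (sup_le hUV hWV) ?_⟩
  rw [← hVS]
  refine sSup_le ?_
  rintro M ⟨h1, h2, h3, h4⟩
  have hAUW : A ≤ normalizer ((U ⊔ W : Subgroup G) : Set G) :=
    le_trans (le_inf hAU hAW) (normalizer_inf_le_normalizer_sup U W)
  rcases h4 (M ⊓ (U ⊔ W)) (le_trans (le_inf h2 hAUW) inf_normalizer_le_normalizer_inf)
    inf_le_left with h5 | h5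
  · have h6 : W ⊔ M = W := by
      refine hmax _ ⟨sup_le hWV h1, le_trans (le_inf hAW h2) (normalizer_inf_le_normalizer_sup W M),
        ?_⟩ le_sup_left
      rw [eq_bot_iff]
      rintro u ⟨hu, hu'⟩
      obtain ⟨w, hw, m, hm, rfl⟩ :=
        (mem_sup_of_le_normalizer_right (le_normalizer_of_comm hVab hWV h1)).1 hu'
      have hm1 : m ∈ M ⊓ (U ⊔ W) := by
        refine ⟨hm, ?_⟩
        have : m = w⁻¹ * (w * m) := by group
        rw [this]
        exact (U ⊔ W).mul_mem ((U ⊔ W).inv_mem (mem_sup_right hw)) (mem_sup_left hu)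
      rw [h5, mem_bot] at hm1
      rw [hm1, mul_one] at hu ⊢
      rw [← hUW]
      exact ⟨hu, hw⟩
    exact le_trans (le_sup_right.trans h6.le) le_sup_right
  · rw [← h5]
    exact inf_le_right

end Cfsg.Agent.S3735
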