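import Cfsg.Statements.S3737
import Cfsg.Agent.S3736
import Cfsg.Agent.Lib.PGroup.Basic

set_option autoImplicit false
open Cfsg

namespace Cfsg.Agent.S3737

open Subgroup CfsgLib.Core
open scoped commutatorElement

section pal

variable {K : Type*} [Group K]

/-- palindromic multiplication step -/
def palStep (x w : K) : K := x * w * x

theorem palStep_leftComm (hc : ∀ x y w : K, Commute w ⁅x, y⁆) : LeftCommutative (palStep (K := K)) := by
  refine ⟨fun x y w => ?_⟩
  unfold palStep
  have h1 : x * y = ⁅x, y⁆ * (y * x) := by rw [commutatorElement_def]; group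
  have h2 := (hc x y (y * x * w)).eq
  calc x * (y * w * y) * x = (x * y) * w * (y * x) := by group
    _ = ⁅x, y⁆ * (y * x * w) * (y * x) := by rw [h1]; group
    _ = y * x * w * (⁅x, y⁆ * (y * x)) := by rw [← h2]; group
    _ = y * (x * w * x) * y := by rw [← h1]; group

theorem map_pal [LeftCommutative (palStep (K := K))] (ψ : K →* K) (s : Multiset K) :
    ψ (s.foldr palStep 1) = (s.map ψ).foldr palStep 1 := by
  induction s using Multiset.induction_on with
  | empty => simp
  | cons a s ih => simp [palStep, ← ih]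

theorem pal_central [LeftCommutative (palStep (K := K))] {ι : Type*} (u : ι → K) {z : K}
    (hz : ∀ w : K, Commute z w) (s : Multiset ι) :
    (s.map fun i => u i * z).foldr palStep 1 = (s.map u).foldr palStep 1 * z ^ (2 * s.card) := by
  induction s using Multiset.induction_on with
  | empty => simp
  | cons a s ih =>
    simp only [Multiset.map_cons, Multiset.foldr_cons, ih, Multiset.card_cons, palStep]
    set W := (s.map u).foldr palStep 1
    have h1 : z * (W * z ^ (2 * s.card)) = W * z ^ (2 * s.card) * z := (hz _).eq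
    have h2 : z ^ (2 * s.card) * z * u a = u a * (z ^ (2 * s.card) * z) :=
      (((hz (u a)).pow_left _).mul_left (hz (u a))).eq
    calc u a * z * (W * z ^ (2 * s.card)) * (u a * z)
        = u a * (z * (W * z ^ (2 * s.card))) * u a * z := by group
      _ = u a * W * (z ^ (2 * s.card) * z * u a) * z := by rw [h1]; group
      _ = u a * W * u a * z ^ (2 * (s.card + 1)) := by rw [h2, mul_add, pow_add]; group

/-- A coset of the (central) fixed point subgroup of `Q` fixed by `P` contains a `P`-fixed point. -/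
theorem exists_fixed [Finite K] {B : Type*} [Group B] (φ : B →* MulAut K) (P Q : Subgroup B)
    [Finite Q] (hPQ : P ≤ normalizer (Q : Set B)) (hc : ∀ x y w : K, Commute w ⁅x, y⁆)
    (hZ : ∀ z : K, (∀ q ∈ Q, φ q z = z) → ∀ w, Commute z w)
    (hcop : (2 * Nat.card Q).Coprime (Nat.card K)) (g : K)
    (hg : ∀ a ∈ P, ∀ q ∈ Q, φ q (g⁻¹ * φ a g) = g⁻¹ * φ a g) :
    ∃ z : K, (∀ q ∈ Q, φ q z = z) ∧ ∀ a ∈ P, φ a (g * z) = g * z := by
  classical
  have := palStep_leftComm hc
  have := Fintype.ofFinite Q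
  let N : K → K := fun x => ((Finset.univ : Finset Q).val.map fun q : Q => φ q x).foldr palStep 1
  have hcard : ((Finset.univ : Finset Q).val).card = Nat.card Q := by simp
  have hN1 : ∀ x z : K, (∀ q ∈ Q, φ q z = z) → N (x * z) = N x * z ^ (2 * Nat.card Q) := by
    intro x z hz
    rw [← hcard]
    refine Eq.trans ?_ (pal_central (fun q : Q => φ q x) (hZ z hz) _)
    simp only [N]
    congr 1
    refine Multiset.map_congr rfl fun q _ => ?_
    rw [map_mul, hz q q.2]
  have hN2 : ∀ (e : Q ≃ Q) (b : B) (x y : K), (∀ q : Q, φ b (φ q x) = φ (e q) y) →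
      φ b (N x) = N y := by
    intro e b x y h
    refine (map_pal (φ b).toMonoidHom _).trans ?_
    simp only [N]
    congr 1
    conv_rhs => rw [← Multiset.map_univ_val_equiv e]
    rw [Multiset.map_map, Multiset.map_map]
    exact Multiset.map_congr rfl fun q _ => h q
  have hN3 : ∀ x, ∀ q ∈ Q, φ q (N x) = N x := by
    intro x q hq
    refine hN2 (Equiv.mulLeft ⟨q, hq⟩) q x x fun r => ?_
    simp
  have hN4 : ∀ x, ∀ a ∈ P, φ a (N x) = N (φ a x) := by
    intro x a ha
    refine hN2 (Q.normalizerMonoidHom ⟨a, hPQ ha⟩).toEquiv a x _ fun r => ?_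
    have : ((Q.normalizerMonoidHom ⟨a, hPQ ha⟩).toEquiv r : B) = a * r * a⁻¹ := rfl
    rw [this]
    simp
  have hinj : ∀ z : K, z ^ (2 * Nat.card Q) = 1 → z = 1 := by
    intro z hz
    rw [← orderOf_eq_one_iff]
    exact (Nat.coprime_self _).1 (Nat.Coprime.coprime_dvd_right (orderOf_dvd_natCard z)
      (Nat.Coprime.coprime_dvd_left (orderOf_dvd_of_pow_eq_one hz) hcop))
  obtain ⟨m, hm⟩ := exists_pow_eq_self_of_coprime (x := (N g)⁻¹) (n := 2 * Nat.card Q)
    (Nat.Coprime.coprime_dvd_right (orderOf_dvd_natCard _) hcop)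
  have hz : ∀ q ∈ Q, φ q ((N g)⁻¹ ^ m) = (N g)⁻¹ ^ m := by
    intro q hq
    rw [map_pow, map_inv, hN3 g q hq]
  refine ⟨(N g)⁻¹ ^ m, hz, fun a ha => ?_⟩
  have h1 : N (g * (N g)⁻¹ ^ m) = 1 := by
    rw [hN1 _ _ hz, ← pow_mul, mul_comm m, pow_mul, hm, mul_inv_cancel]
  set h := g * (N g)⁻¹ ^ m with hh
  have h2 : ∀ q ∈ Q, φ q (h⁻¹ * φ a h) = h⁻¹ * φ a h := by
    intro q hq
    have h3 : φ q (φ a ((N g)⁻¹ ^ m)) = φ a ((N g)⁻¹ ^ m) := by
      rw [map_pow, map_inv, hN4 g a ha, map_pow, map_inv, hN3 _ q hq]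
    have h4 : h⁻¹ * φ a h = ((N g)⁻¹ ^ m)⁻¹ * (g⁻¹ * φ a g) * φ a ((N g)⁻¹ ^ m) := by
      rw [hh, map_mul]; group
    rw [h4, map_mul, map_mul, map_inv, hz q hq, hg a ha q hq, h3]
  have h5 := hN1 h _ h2
  rw [mul_inv_cancel_left, ← hN4 h a ha, h1, map_one, one_mul] at h5
  have h6 := hinj _ h5.symm
  rw [inv_mul_eq_one] at h6
  exact h6.symm

end pal

/-- Thompson's strengthening of the P × Q lemma for odd primes. Let p be an odd prime and let P, Q and G be subgroups of a finite group with P a p-group, Q of order prime to p and normalized by P, and G a p-group normalized by both P and Q. If every element of G centralized by P is centralized by Q, then Q centralizes G. -/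
theorem result {X : Type*} [Group X] [Finite X] {p : ℕ} [Fact p.Prime] (hp : p ≠ 2) (P Q G : Subgroup X) (hP : IsPGroup p P) (hQ : (Nat.card Q).Coprime p) (hPQ : P ≤ Subgroup.normalizer (Q : Set X)) (hG : IsPGroup p G) (hPG : P ≤ Subgroup.normalizer (G : Set X)) (hQG : Q ≤ Subgroup.normalizer (G : Set X)) (hC : G ⊓ Subgroup.centralizer (P : Set X) ≤ Subgroup.centralizer (Q : Set X)) : Q ≤ Subgroup.centralizer (G : Set X) := by
  revert hG hPG hQG hC
  induction G using WellFoundedLT.induction with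
  | ind G ih =>
  intro hG hPG hQG hC
  by_contra hnt
  have hnt' : ⁅G, Q⁆ ≠ ⊥ := fun h => hnt (by
    rw [Subgroup.commutator_comm] at h
    exact commutator_eq_bot_iff_le_centralizer.1 h)
  obtain ⟨h1, h2, -, h4⟩ := S3736.core (P ⊔ Q) Q G hG (sup_le hPG hQG) le_sup_right
    (sup_le hPQ le_normalizer) hQ hnt' (fun U hU hn => by
      rw [Subgroup.commutator_comm]
      exact commutator_eq_bot_iff_le_centralizer.2 (ih U hU (hG.to_le hU.le)
        (le_sup_left.trans hn) (le_sup_right.trans hn)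
        (le_trans (inf_le_inf_right _ hU.le) hC)))
  -- a coset of `Z = [G, G]` fixed by `P`
  have hL : IsPGroup p (P ⊔ G : Subgroup X) := hP.to_sup_of_normal_right' hG hPG
  have hnil : Group.IsNilpotent (P ⊔ G : Subgroup X) := hL.isNilpotent
  have hn1 : (G.subgroupOf (P ⊔ G)).Normal :=
    (normal_subgroupOf_iff_le_normalizer le_sup_right).2 (sup_le hPG le_normalizer)
  have hGG : ⁅G, G⁆ ≤ G := commutator_le_of_le le_rfl le_rfl
  have hn2 : ((⁅G, G⁆ : Subgroup X).subgroupOf (P ⊔ G)).Normal :=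
    (normal_subgroupOf_iff_le_normalizer (hGG.trans le_sup_right)).2
      (CfsgLib.Coprime.le_normalizer_commutator (sup_le hPG le_normalizer)
        (sup_le hPG le_normalizer))
  have hnle : ¬ G.subgroupOf (P ⊔ G) ≤ (⁅G, G⁆ : Subgroup X).subgroupOf (P ⊔ G) := by
    intro h
    apply hnt'
    refine commutator_eq_bot_iff_le_centralizer.2 fun x hx => ?_
    have := h (show (⟨x, mem_sup_right hx⟩ : (P ⊔ G : Subgroup X)) ∈ G.subgroupOf _ from hx)
    rw [mem_subgroupOf, ← h2] at this
    exact this.2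
  obtain ⟨⟨g, hgL⟩, hgG, hgZ, hg⟩ := CfsgLib.PGroup.exists_central_mod_of_not_le hnle
  rw [mem_subgroupOf] at hgG hgZ
  let φ : (normalizer (G : Set X) : Subgroup X) →* MulAut G := G.normalizerMonoidHom
  have hφ : ∀ (b : (normalizer (G : Set X) : Subgroup X)) (x : G),
      (φ b x : X) = b * x * (b : X)⁻¹ := fun _ _ => rfl
  have hfix : ∀ z : G, (∀ q ∈ Q.subgroupOf (normalizer (G : Set X)), φ q z = z) ↔
      (z : X) ∈ ⁅G, G⁆ := by
    intro z
    rw [← h2]
    constructor
    · intro h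
      refine ⟨z.2, fun q hq => ?_⟩
      have := congrArg Subtype.val (h ⟨q, hQG hq⟩ hq)
      rw [hφ] at this
      exact mul_inv_eq_iff_eq_mul.1 this
    · intro h q hq
      apply Subtype.ext
      rw [hφ]
      exact mul_inv_eq_iff_eq_mul.2 (h.2 q hq)
  obtain ⟨z, hz, hgz⟩ := exists_fixed φ (P.subgroupOf _) (Q.subgroupOf _)
    (fun a ha => by
      rw [mem_normalizer_iff]
      intro q
      exact mem_normalizer_iff.1 (hPQ ha) q)
    (fun x y w => Subtype.ext (h4 (commutator_mem_commutator x.2 y.2) w w.2))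
    (fun z hz w => Subtype.ext (h4 ((hfix z).1 hz) w w.2).symm)
    (by
      rw [card_subgroupOf_of_le hQG]
      refine CfsgLib.Coprime.coprime_card_of_isPGroup hG (Nat.Coprime.mul_left ?_ hQ)
      exact (Nat.coprime_primes Nat.prime_two Fact.out).2 hp.symm)
    ⟨g, hgG⟩ (fun a ha => (hfix _).2 (by
      have h7 := hg ⟨a, mem_sup_left ha⟩
      rw [mem_subgroupOf] at h7
      have h8 : (⁅g, (a : X)⁆)⁻¹ ∈ ⁅G, G⁆ := inv_mem h7
      have h9 := CfsgLib.Coprime.conj_mem_of_le_normalizer'
        (CfsgLib.Coprime.le_normalizer_commutator le_normalizer le_normalizer) hgG h8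
      have : (((⟨g, hgG⟩ : G)⁻¹ * φ a ⟨g, hgG⟩ : G) : X) = g⁻¹ * (⁅g, (a : X)⁆)⁻¹ * g := by
        rw [coe_mul, hφ, commutatorElement_def]
        simp only [coe_inv]
        group
      rw [this]
      exact h9))
  have hz' := (hfix z).1 hz
  apply hgZ
  have h10 : g * z ∈ ⁅G, G⁆ := by
    rw [← h2]
    refine ⟨G.mul_mem hgG z.2, hC ⟨G.mul_mem hgG z.2, fun a ha => ?_⟩⟩
    have := congrArg Subtype.val (hgz ⟨a, hPG ha⟩ ha)
    rw [hφ] at this
    exact mul_inv_eq_iff_eq_mul.1 this
  simpa using mul_mem h10 (inv_mem hz')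

end Cfsg.Agent.S3737
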