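import Cfsg.Statements.S3740
import Cfsg.Agent.Lib.Classical.SL2Dickson
import Cfsg.Agent.S2427

set_option autoImplicit false
open Cfsg

namespace Cfsg.Agent.S3740

open Matrix MatrixGroups CfsgLib.Dickson CfsgLib.Classical MulAction
open scoped Pointwise

theorem eq_of_sq {A : Type*} [Group A] [Finite A] {C : Subgroup A} (hC : IsCyclic C) {a b : A}
    (ha : a ∈ C) (hb : b ∈ C) (h1 : a * a = 1) (h2 : b * b = 1) (ha1 : a ≠ 1) (hb1 : b ≠ 1) : a = b := by
  classical
  by_contra hab
  have := Fintype.ofFinite C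
  have h := IsCyclic.card_pow_eq_one_le (α := C) (n := 2) two_pos
  have hs : ({1, ⟨a, ha⟩, ⟨b, hb⟩} : Finset C) ⊆ Finset.univ.filter (fun x : C => x ^ 2 = 1) := by
    intro x hx
    simp only [Finset.mem_insert, Finset.mem_singleton] at hx
    rcases hx with rfl | rfl | rfl
    · simp
    · simp only [Finset.mem_filter, Finset.mem_univ, true_and]
      exact Subtype.ext (by simpa [sq] using h1)
    · simp only [Finset.mem_filter, Finset.mem_univ, true_and]
      exact Subtype.ext (by simpa [sq] using h2)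
  have h3 : ({1, ⟨a, ha⟩, ⟨b, hb⟩} : Finset C).card = 3 := by
    rw [Finset.card_eq_three]
    refine ⟨1, ⟨a, ha⟩, ⟨b, hb⟩, ?_, ?_, ?_, rfl⟩
    · exact fun e => ha1 (congrArg Subtype.val e).symm
    · exact fun e => hb1 (congrArg Subtype.val e).symm
    · exact fun e => hab (congrArg Subtype.val e)
  have := Finset.card_le_card hs
  omega

theorem pair_aux {G X : Type*} [Group G] [Finite G] [MulAction G X] {p : ℕ} (h : Mob G X p) {x y : X}
    (hxy : x ≠ y) (hG : ∀ g : G, (g • x = x ∧ g • y = y) ∨ (g • x = y ∧ g • y = x)) {e : G}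
    (he : e * e = 1) (hx : e • x = x) (hy : e • y = y) (g : G) : g * e = e * g := by
  rcases hG g with ⟨h1, h2⟩ | ⟨h1, h2⟩
  · exact h.comm_of_fix_two hxy h1 h2 hx hy
  · have := h.swap_conj hxy h1 h2 hx hy
    rw [inv_eq_of_mul_eq_one_right he] at this
    exact mul_inv_eq_iff_eq_mul.1 this

theorem pair_four {G X : Type*} [Group G] [Finite G] [MulAction G X] {p : ℕ} (h : Mob G X p) {x y : X}
    (hxy : x ≠ y) (hG : ∀ g : G, (g • x = x ∧ g • y = y) ∨ (g • x = y ∧ g • y = x)) {e j : G}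
    (he : e * e = 1) (he1 : e ≠ 1) (hx : e • x = x) (hy : e • y = y) (hjx : j • x = y) (hjy : j • y = x)
    (hj : ∀ g, g * j = j * g) (g : G) : g = 1 ∨ g = e ∨ g = j ∨ g = j * e := by
  have hC := h.isCyclic_of_fix_two hxy (stabilizer G x ⊓ stabilizer G y) inf_le_left inf_le_right
  have key : ∀ g : G, g • x = x → g • y = y → g = 1 ∨ g = e := by
    intro g h1 h2
    by_cases hg : g = 1
    · exact Or.inl hg
    · right
      have := h.swap_conj hxy hjx hjy h1 h2
      rw [← hj g, mul_inv_cancel_right] at this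
      exact eq_of_sq hC ⟨h1, h2⟩ ⟨hx, hy⟩ (by nth_rw 2 [this]; exact mul_inv_cancel g) he hg he1
  rcases hG g with ⟨h1, h2⟩ | ⟨h1, h2⟩
  · rcases key g h1 h2 with h | h
    · exact Or.inl h
    · exact Or.inr (Or.inl h)
  · have hjj := h.swap_mul_self hxy hjx hjy
    rcases key (j * g) (by rw [mul_smul, h1, hjy]) (by rw [mul_smul, h2, hjx]) with h | h
    · right; right; left
      calc g = j * (j * g) := by rw [← mul_assoc, hjj, one_mul]
        _ = j := by rw [h, mul_one]
    · right; right; right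
      calc g = j * (j * g) := by rw [← mul_assoc, hjj, one_mul]
        _ = j * e := by rw [h]

/-- The regular case of Dickson's theorem for a group with a four-group of "conjugate" involutions. -/
theorem four {G X : Type*} [Group G] [Finite G] [MulAction G X] {p : ℕ} (h : Mob G X p)
    (hU : ∀ x : X, h.U x = ⊥) (hG : FixPt G X ∨ FixPair G X) {i j : G} (hi : i * i = 1) (hj : j * j = 1)
    (hij : i * j = j * i) (hi1 : i ≠ 1) (hj1 : j ≠ 1) (hne : i ≠ j)
    (hc : ((∀ g, g * i = i * g) ∨ (∀ g, g * j = j * g) ∨ (∀ g, g * (i * j) = (i * j) * g)) →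
      (∀ g, g * i = i * g) ∧ (∀ g, g * j = j * g)) (g : G) :
    g = 1 ∨ g = i ∨ g = j ∨ g = i * j := by
  have hk : i * j * (i * j) = 1 := by
    rw [mul_assoc, ← mul_assoc j, ← hij, mul_assoc, hj, mul_one, hi]
  have hk1 : i * j ≠ 1 := fun e => hne (by
    calc i = i * j * j := by rw [mul_assoc, hj, mul_one]
      _ = j := by rw [e, one_mul])
  rcases hG with ⟨x, hx⟩ | ⟨x, y, hxy, -, hG⟩
  · exact absurd (eq_of_sq (h.isCyclic_stabilizer (hU x)) (hx i) (hx j) hi hj hi1 hj1) hne
  have hC := h.isCyclic_of_fix_two hxy (stabilizer G x ⊓ stabilizer G y) inf_le_left inf_le_right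
  rcases hG i with ⟨a1, a2⟩ | ⟨a1, a2⟩ <;> rcases hG j with ⟨b1, b2⟩ | ⟨b1, b2⟩
  · exact absurd (eq_of_sq hC ⟨a1, a2⟩ ⟨b1, b2⟩ hi hj hi1 hj1) hne
  · obtain ⟨-, c2⟩ := hc (Or.inl (pair_aux h hxy hG hi a1 a2))
    rcases pair_four h hxy hG hi hi1 a1 a2 b1 b2 c2 g with e | e | e | e
    · exact Or.inl e
    · exact Or.inr (Or.inl e)
    · exact Or.inr (Or.inr (Or.inl e))
    · exact Or.inr (Or.inr (Or.inr (e.trans hij.symm)))
  · obtain ⟨c1, -⟩ := hc (Or.inr (Or.inl (pair_aux h hxy hG hj b1 b2)))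
    rcases pair_four h hxy hG hj hj1 b1 b2 a1 a2 c1 g with e | e | e | e
    · exact Or.inl e
    · exact Or.inr (Or.inr (Or.inl e))
    · exact Or.inr (Or.inl e)
    · exact Or.inr (Or.inr (Or.inr e))
  · have k1 : (i * j) • x = x := by rw [mul_smul, b1, a2]
    have k2 : (i * j) • y = y := by rw [mul_smul, b2, a1]
    obtain ⟨c1, -⟩ := hc (Or.inr (Or.inr (pair_aux h hxy hG hk k1 k2)))
    rcases pair_four h hxy hG hk hk1 k1 k2 a1 a2 c1 g with e | e | e | e
    · exact Or.inl e
    · exact Or.inr (Or.inr (Or.inr e))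
    · exact Or.inr (Or.inl e)
    · exact Or.inr (Or.inr (Or.inl (by rw [e, ← mul_assoc, hi, one_mul])))

theorem pow_char {F : Type*} [Field F] {p : ℕ} [hp : Fact p.Prime] [CharP F p] (a : SL(2, F)) {n : ℕ}
    (h : a ^ p ^ n = 1) : a ^ p = 1 := by
  set N : Matrix (Fin 2) (Fin 2) F := (a : Matrix (Fin 2) (Fin 2) F) - 1 with hN
  have hnil : IsNilpotent N := by
    refine ⟨p ^ n, ?_⟩
    rw [hN, sub_pow_char_pow_of_commute _ _ (Commute.one_right _), one_pow]
    have : (a : Matrix (Fin 2) (Fin 2) F) ^ p ^ n = 1 :=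
      (Matrix.SpecialLinearGroup.coe_pow a _).symm.trans (congrArg Subtype.val h)
    rw [this, sub_self]
  have ht : N.trace = 0 := (Matrix.isNilpotent_trace_of_isNilpotent hnil).eq_zero
  have hd : N.det = 0 := by
    obtain ⟨m, hm⟩ := hnil
    have := congrArg Matrix.det hm
    rw [det_pow, det_zero] at this
    exact eq_zero_of_pow_eq_zero this
  rw [trace_fin_two] at ht
  rw [det_fin_two] at hd
  have h2 : N ^ 2 = 0 := by
    ext i j
    fin_cases i <;> fin_cases j <;> simp [sq, Matrix.mul_apply, Fin.sum_univ_two]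
    · linear_combination (N 0 0) * ht - hd
    · linear_combination (N 0 1) * ht
    · linear_combination (N 1 0) * ht
    · linear_combination (N 1 1) * ht - hd
  have h3 : N ^ p = 0 := pow_eq_zero_of_le hp.out.two_le h2
  rw [hN, sub_pow_char_of_commute _ (Commute.one_right _), one_pow, sub_eq_zero] at h3
  exact Subtype.ext ((Matrix.SpecialLinearGroup.coe_pow a _).trans h3)

theorem eq_of_mul_self {F : Type*} [Field F] (h2 : (2 : F) ≠ 0) {g : SL(2, F)} (h : g * g = 1) :
    g = 1 ∨ g = -1 := by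
  have hd := sl_det_eq g
  have e : (g : Matrix (Fin 2) (Fin 2) F) * g = 1 := congrArg Subtype.val h
  have e00 := congrFun (congrFun e 0) 0
  have e01 := congrFun (congrFun e 0) 1
  have e10 := congrFun (congrFun e 1) 0
  simp [Matrix.mul_apply, Fin.sum_univ_two] at e00 e01 e10
  have ht : g 0 0 + g 1 1 ≠ 0 := by
    intro ht
    apply h2
    linear_combination (g 0 0) * ht - e00 - hd
  have hb : g 0 1 = 0 := by
    apply (mul_eq_zero.1 (show g 0 1 * (g 0 0 + g 1 1) = 0 by linear_combination e01)).resolve_right ht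
  have hc : g 1 0 = 0 := by
    apply (mul_eq_zero.1 (show g 1 0 * (g 0 0 + g 1 1) = 0 by linear_combination e10)).resolve_right ht
  have ha : (g 0 0 - 1) * (g 0 0 + 1) = 0 := by linear_combination e00 - (g 1 0) * hb
  rcases mul_eq_zero.1 ha with ha | ha
  · left
    have hd' : g 1 1 = 1 := by linear_combination hd - (g 1 1) * ha + (g 1 0) * hb
    ext i j
    fin_cases i <;> fin_cases j <;> simp [hb, hc, hd']
    linear_combination ha
  · right
    have hd' : g 1 1 = -1 := by linear_combination -hd + (g 1 1) * ha - (g 1 0) * hb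
    ext i j
    fin_cases i <;> fin_cases j <;> simp [hb, hc, hd']
    linear_combination ha

/-- Let F be a finite field of odd characteristic p and let a be a p-element of SL₂(F) normalizing a subgroup R of order prime to p with [R, a] ≠ 1. Then p = 3, R is a quaternion group of order 8, and R⟨a⟩ is isomorphic to SL₂(3). -/
theorem result (F : Type) [Field F] [Fintype F] {p : ℕ} [Fact p.Prime] [CharP F p] (hp : p ≠ 2) (a : Matrix.SpecialLinearGroup (Fin 2) F) (ha : IsPGroup p ↥(Subgroup.zpowers a)) (R : Subgroup (Matrix.SpecialLinearGroup (Fin 2) F)) (hR : (Nat.card R).Coprime p) (haR : a ∈ Subgroup.normalizer (R : Set (Matrix.SpecialLinearGroup (Fin 2) F))) (hnt : ⁅R, Subgroup.zpowers a⁆ ≠ ⊥) : p = 3 ∧ Nonempty (↥R ≃* QuaternionGroup 2) ∧ Nonempty (↥(R ⊔ Subgroup.zpowers a) ≃* Matrix.SpecialLinearGroup (Fin 2) (ZMod 3)) := by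
  classical
  have hpp : p.Prime := Fact.out
  obtain ⟨n, hn⟩ := ha ⟨a, Subgroup.mem_zpowers a⟩
  have hn' : a ^ p ^ n = 1 := congrArg Subtype.val hn
  have hap : a ^ p = 1 := pow_char a hn'
  set H := R ⊔ Subgroup.zpowers a with hH
  have hRp : ∀ r ∈ R, r ^ p = 1 → r = 1 := by
    intro r hr h
    have h1 : orderOf r ∣ p := orderOf_dvd_of_pow_eq_one h
    have h2 : orderOf r ∣ Nat.card R := Subgroup.orderOf_dvd_natCard R hr
    exact orderOf_eq_one_iff.1 (Nat.eq_one_of_dvd_coprimes hR h2 h1)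
  have hz : Subgroup.zpowers a ≤ Subgroup.normalizer (R : Set SL(2, F)) := by
    rw [Subgroup.zpowers_le]; exact haR
  have hHN : H ≤ Subgroup.normalizer (R : Set SL(2, F)) := sup_le Subgroup.le_normalizer hz
  have hconj : ∀ g ∈ H, ∀ r ∈ R, g * r * g⁻¹ ∈ R := fun g hg r hr =>
    (Subgroup.mem_normalizer_iff.1 (hHN hg) r).1 hr
  have hdec : ∀ g ∈ H, ∃ r ∈ R, ∃ k : ℤ, g = r * a ^ k := by
    intro g hg
    have : g ∈ ((R : Set SL(2, F)) * (Subgroup.zpowers a : Set SL(2, F))) := by
      rw [← Subgroup.coe_mul_of_right_le_normalizer_left R _ hz]; exact hg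
    obtain ⟨r, hr, b, ⟨k, rfl⟩, rfl⟩ := this
    exact ⟨r, hr, k, rfl⟩
  have haH : a ∈ H := Subgroup.mem_sup_right (Subgroup.mem_zpowers a)
  have hcomm : ∀ g ∈ H, ∀ h ∈ H, g * h * g⁻¹ * h⁻¹ ∈ R := by
    intro g hg h hh
    obtain ⟨r, hr, i, rfl⟩ := hdec g hg
    obtain ⟨s, hs, j, rfl⟩ := hdec h hh
    have e : r * a ^ i * (s * a ^ j) * (r * a ^ i)⁻¹ * (s * a ^ j)⁻¹ =
        r * (a ^ i * s * (a ^ i)⁻¹) * (a ^ j * r⁻¹ * (a ^ j)⁻¹) * s⁻¹ := by group
    rw [e]
    exact R.mul_mem (R.mul_mem (R.mul_mem hr (hconj _ (H.zpow_mem haH i) s hs))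
      (hconj _ (H.zpow_mem haH j) _ (R.inv_mem hr))) (R.inv_mem hs)
  obtain ⟨r, hr, hra⟩ : ∃ r ∈ R, r * a ≠ a * r := by
    by_contra hc
    push Not at hc
    apply hnt
    rw [Subgroup.commutator_comm, Subgroup.commutator_eq_bot_iff_le_centralizer, Subgroup.zpowers_le]
    exact fun r hr => hc r hr
  have hrH : r ∈ H := Subgroup.mem_sup_left hr
  have hb : (r * a * r⁻¹) ^ p ^ 1 = 1 := by rw [pow_one, conj_pow, hap]; group
  have hnc : a * (r * a * r⁻¹) ≠ (r * a * r⁻¹) * a := by
    intro hc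
    have h1 : (r * a * r⁻¹ * a⁻¹) ^ p = 1 := by
      have hc' : Commute (r * a * r⁻¹) a⁻¹ := (show Commute (r * a * r⁻¹) a from hc.symm).inv_right
      rw [hc'.mul_pow, inv_pow, hap, conj_pow, hap]; group
    have := hRp _ (hcomm r hrH a haH) h1
    apply hra
    calc r * a = (r * a * r⁻¹ * a⁻¹) * (a * r) := by group
      _ = a * r := by rw [this, one_mul]
  obtain ⟨f, hf, hle⟩ := sl2_exists_hom_prime_field p hp H haH
    (H.mul_mem (H.mul_mem hrH haH) (H.inv_mem hrH)) hn' hb hnc
  have hfH : ∀ x, f x ∈ H := fun x => hle ⟨x, rfl⟩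
  have hcR : ∀ x ∈ commutator SL(2, ZMod p), f x ∈ R := by
    intro x hx
    have : commutator SL(2, ZMod p) ≤ R.comap f := by
      rw [commutator, Subgroup.commutator_le]
      intro g _ h _
      rw [Subgroup.mem_comap, commutatorElement_def, map_mul, map_mul, map_mul, map_inv, map_inv]
      exact hcomm _ (hfH g) _ (hfH h)
    exact this hx
  have hp3 : p = 3 := by
    by_contra h3
    have h2 : (2 : ZMod p) ≠ 0 := by
      intro e
      have : p ∣ 2 := (ZMod.natCast_eq_zero_iff 2 p).1 (by exact_mod_cast e)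
      exact hp ((Nat.prime_dvd_prime_iff_eq hpp Nat.prime_two).1 this)
    have h4 : (2 : ZMod p) ^ 2 ≠ 1 := by
      intro e
      have : p ∣ 3 := (ZMod.natCast_eq_zero_iff 3 p).1 (by push_cast; linear_combination e)
      exact h3 ((Nat.prime_dvd_prime_iff_eq hpp Nat.prime_three).1 this)
    have htop := SL2.commutator_eq_top h2 h4
    let t : SL(2, ZMod p) := ⟨!![1, 1; 0, 1], by simp [det_fin_two]⟩
    have ht : ∀ k : ℕ, ((t ^ k : SL(2, ZMod p)) : Matrix (Fin 2) (Fin 2) (ZMod p)) = !![1, (k : ZMod p); 0, 1] := by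
      intro k
      induction k with
      | zero => simp [one_fin_two]
      | succ k ih =>
        rw [pow_succ, Matrix.SpecialLinearGroup.coe_mul, ih]
        simp [t, add_comm]
    have htp : t ^ p = 1 := Subtype.ext (by
      have := ht p
      rw [ZMod.natCast_self, ← one_fin_two] at this
      exact this)
    have h1 := hRp _ (hcR t (htop ▸ Subgroup.mem_top t)) (by rw [← map_pow, htp, map_one])
    have h2 : t = 1 := hf (by rw [h1, map_one])
    have := congrFun (congrFun (congrArg Subtype.val h2) 0) 1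
    simp [t] at this
  subst hp3
  have h2F : (2 : F) ≠ 0 := by
    intro e
    have : 3 ∣ 2 := (CharP.cast_eq_zero_iff F 3 2).1 (by exact_mod_cast e)
    omega
  have hQ : ∀ x : S2427.G3, x ^ 4 = 1 → f x ∈ R := fun x hx =>
    hcR x (S2427.commutator_eq ▸ hx)
  have hker : ∀ g : SL(2, F), slPGL F g = 1 ↔ g * g = 1 := by
    intro g
    rw [← MonoidHom.mem_ker, SpecialLinearGroup.toPGL_ker]
    constructor
    · intro h; rw [← sq]; exact sl2_sq_eq_one_of_mem_center h
    · intro h
      rcases eq_of_mul_self h2F h with rfl | rfl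
      · exact Subgroup.one_mem _
      · rw [Subgroup.mem_center_iff]; intro g; simp
  have hfm : f (-1) = -1 := by
    rcases eq_of_mul_self h2F (g := f (-1)) (by rw [← map_mul]; simp) with h | h
    · exact absurd (hf (h.trans (map_one f).symm)) (by decide)
    · exact h
  let ψ : S2427.G3 →* PGL(2, F) := (slPGL F).comp f
  have hψ : ∀ x y : S2427.G3, ψ x = ψ y ↔ (x⁻¹ * y) * (x⁻¹ * y) = 1 := by
    intro x y
    rw [← inv_mul_eq_one, ← map_inv, ← map_mul]
    show slPGL F (f _) = 1 ↔ _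
    rw [hker, ← map_mul, map_eq_one_iff f hf]
  let G := R.map (slPGL F)
  have hG3 : ¬ 3 ∣ Nat.card G := by
    intro h
    have := Nat.eq_one_of_dvd_coprimes hR (h.trans (Subgroup.card_map_dvd R _)) dvd_rfl
    omega
  have hGfin : Finite G := Finite.of_surjective _ ((slPGL F).subgroupMap_surjective R)
  obtain ⟨hU, hcases⟩ := dickson_regular 3 G hG3
  have hcases' : FixPt G (Pbar F) ∨ FixPair G (Pbar F) := by
    rcases hcases with h | h | h | h | h
    · exact Or.inl h
    · exact Or.inr h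
    · exact absurd (h.1 ▸ by norm_num) hG3
    · exact absurd (h.1 ▸ by norm_num) hG3
    · exact absurd (h.1 ▸ by norm_num) hG3
  have hM := (mob_bar (F := F) 3).subgroup G
  have hU' : ∀ x, hM.U x = ⊥ := by
    intro x
    rw [eq_bot_iff]
    intro g hg
    exact Subtype.ext (hU x g g.2 (isUnip_coe.2 (hM.mem_U.1 hg)))
  let A := S2427.A
  let u := S2427.U
  let B := u * A * u⁻¹
  let i : G := ⟨ψ A, ⟨f A, hQ A (by decide +kernel), rfl⟩⟩
  let j : G := ⟨ψ B, ⟨f B, hQ B (by decide +kernel), rfl⟩⟩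
  have hcu : ∀ x : S2427.G3, (∀ g ∈ G, g * ψ x = ψ x * g) →
      ∀ g ∈ G, g * ψ (u * x * u⁻¹) = ψ (u * x * u⁻¹) * g := by
    rintro x hx _ ⟨r, hr, rfl⟩
    have h1 := hx _ ⟨_, hconj _ (H.inv_mem (hfH u)) r hr, rfl⟩
    simp only [map_mul, map_inv, inv_inv] at h1 ⊢
    change (ψ u)⁻¹ * _ * ψ u * _ = _ * ((ψ u)⁻¹ * _ * ψ u) at h1
    calc _ = ψ u * ((ψ u)⁻¹ * slPGL F r * ψ u * ψ x) * (ψ u)⁻¹ := by group
      _ = _ := by rw [h1]; group
  have eC : ψ (u * B * u⁻¹) = ψ A * ψ B := by rw [← map_mul, hψ]; decide +kernel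
  have eA : ψ (u * (A * B) * u⁻¹) = ψ A := by rw [hψ]; decide +kernel
  have hAB : (∀ g ∈ G, g * ψ A = ψ A * g) → ∀ g ∈ G, g * ψ B = ψ B * g := hcu A
  have hBC : (∀ g ∈ G, g * ψ B = ψ B * g) → ∀ g ∈ G, g * ψ (A * B) = ψ (A * B) * g := by
    intro h; have := hcu B h; rwa [eC, ← map_mul] at this
  have hCA : (∀ g ∈ G, g * ψ (A * B) = ψ (A * B) * g) → ∀ g ∈ G, g * ψ A = ψ A * g := by
    intro h; have := hcu _ h; rwa [eA] at this
  have hfour := four hM hU' hcases' (i := i) (j := j)
    (Subtype.ext (by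
      show ψ A * ψ A = 1
      rw [← map_mul, ← map_one ψ, hψ]; decide +kernel))
    (Subtype.ext (by
      show ψ B * ψ B = 1
      rw [← map_mul, ← map_one ψ, hψ]; decide +kernel))
    (Subtype.ext (by
      show ψ A * ψ B = ψ B * ψ A
      rw [← map_mul, ← map_mul, hψ]; decide +kernel))
    (fun e => by
      have : ψ A = ψ 1 := by rw [map_one]; exact congrArg Subtype.val e
      rw [hψ] at this; revert this; decide +kernel)
    (fun e => by
      have : ψ B = ψ 1 := by rw [map_one]; exact congrArg Subtype.val e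
      rw [hψ] at this; revert this; decide +kernel)
    (fun e => by
      have : ψ A = ψ B := congrArg Subtype.val e
      rw [hψ] at this; revert this; decide +kernel)
    (fun h => by
      have hA : ∀ g ∈ G, g * ψ A = ψ A * g := by
        rcases h with h | h | h
        · exact fun g hg => congrArg Subtype.val (h ⟨g, hg⟩)
        · exact hCA (hBC fun g hg => congrArg Subtype.val (h ⟨g, hg⟩))
        · refine hCA fun g hg => ?_
          rw [map_mul]; exact congrArg Subtype.val (h ⟨g, hg⟩)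
      exact ⟨fun g => Subtype.ext (hA g g.2), fun g => Subtype.ext (hAB hA g g.2)⟩)
  have hRQ : R = S2427.Q.map f := by
    apply le_antisymm
    · intro r hr
      obtain ⟨x, hx4, hx⟩ : ∃ x : S2427.G3, x ^ 4 = 1 ∧ slPGL F r = ψ x := by
        rcases hfour ⟨slPGL F r, r, hr, rfl⟩ with e | e | e | e
        · exact ⟨1, by simp, by rw [map_one]; exact congrArg Subtype.val e⟩
        · exact ⟨A, by decide +kernel, congrArg Subtype.val e⟩
        · exact ⟨B, by decide +kernel, congrArg Subtype.val e⟩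
        · exact ⟨A * B, by decide +kernel, by rw [map_mul]; exact congrArg Subtype.val e⟩
      have h1 : slPGL F ((f x)⁻¹ * r) = 1 := by
        rw [map_mul, map_inv, hx]; exact inv_mul_cancel _
      rcases eq_of_mul_self h2F ((hker _).1 h1) with e | e
      · exact ⟨x, hx4, inv_mul_eq_one.1 e⟩
      · refine ⟨x * -1, ?_, ?_⟩
        · show (x * -1) ^ 4 = 1
          rw [mul_neg_one, Even.neg_pow (by decide), hx4]
        · rw [map_mul, hfm, ← e, mul_inv_cancel_left]
    · rintro _ ⟨x, hx, rfl⟩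
      exact hQ x hx
  have hcR8 : Nat.card R = 8 := by
    rw [hRQ, Subgroup.card_map_of_injective hf, S2427.card_Q]
  refine ⟨rfl, ⟨(MulEquiv.subgroupCongr hRQ).trans ((S2427.Q.equivMapOfInjective f hf).symm.trans
    ((MulEquiv.subgroupCongr S2427.qhom_range.symm).trans
      (MonoidHom.ofInjective S2427.qhom_inj).symm))⟩, ?_⟩
  have hHc : Nat.card H ≤ 24 := by
    have h1 : Nat.card H ≤ Nat.card R * Nat.card (Subgroup.zpowers a) := by
      have := Set.natCard_mul_le (s := (R : Set SL(2, F))) (t := (Subgroup.zpowers a : Set SL(2, F)))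
      rw [← Subgroup.coe_mul_of_right_le_normalizer_left R _ hz] at this
      exact this
    have h2 : Nat.card (Subgroup.zpowers a) ≤ 3 := by
      rw [Nat.card_zpowers]; exact Nat.le_of_dvd (by norm_num) (orderOf_dvd_of_pow_eq_one hap)
    nlinarith
  have hrange : f.range = H := Subgroup.eq_of_le_of_card_ge hle (by
    rw [← Nat.card_congr (MonoidHom.ofInjective hf).toEquiv, S2427.card_G3]; exact hHc)
  exact ⟨(MulEquiv.subgroupCongr hrange.symm).trans (MonoidHom.ofInjective hf).symm⟩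

end Cfsg.Agent.S3740
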