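import Cfsg.Statements.S3741
import Mathlib
import Cfsg.Agent.Lib.PGroup.Extraspecial
import Cfsg.Agent.Lib.Core.MinNormal

set_option autoImplicit false
open Cfsg

namespace Cfsg.Agent.S3741

open Subgroup commutatorElement in
theorem half {G : Type*} [Group G] [Finite G] {A B Z : Subgroup G} [IsCyclic Z]
    (h : ∀ a ∈ A, ∀ b ∈ B, ⁅a, b⁆ ∈ Z) (hA : Z ≤ centralizer (A : Set G))
    (hB : Z ≤ centralizer (B : Set G)) :
    (A ⊓ centralizer (B : Set G)).relIndex A ≤ (B ⊓ centralizer (A : Set G)).relIndex B := by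
  letI : CommGroup Z := IsCyclic.commGroup
  have e1 : ∀ a ∈ A, ∀ b ∈ B, ∀ b' ∈ B, ⁅a, b * b'⁆ = ⁅a, b⁆ * ⁅a, b'⁆ := fun a ha b hb b' hb' => by
    calc _ = ⁅a, b⁆ * (b * ⁅a, b'⁆) * b⁻¹ := by simp only [commutatorElement_def]; group
      _ = _ := by rw [hB (h a ha b' hb') b hb]; group
  have e2 : ∀ a ∈ A, ∀ a' ∈ A, ∀ b ∈ B, ⁅a * a', b⁆ = ⁅a, b⁆ * ⁅a', b⁆ := fun a ha a' ha' b hb => by
    calc _ = a * ⁅a', b⁆ * a⁻¹ * ⁅a, b⁆ := by simp only [commutatorElement_def]; group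
      _ = ⁅a', b⁆ * ⁅a, b⁆ := by rw [hA (h a' ha' b hb) a ha]; group
      _ = _ := congrArg Subtype.val (mul_comm (⟨_, h a' ha' b hb⟩ : Z) ⟨_, h a ha b hb⟩)
  let f : A → B →* Z := fun a => MonoidHom.mk' (fun b => ⟨⁅a.1, b.1⁆, h _ a.2 _ b.2⟩)
    fun b b' => Subtype.ext (e1 _ a.2 _ b.2 _ b'.2)
  let N := (B ⊓ centralizer (A : Set G)).subgroupOf B
  have hf : ∀ a, N ≤ (f a).ker := fun a b hb =>
    Subtype.ext (commutatorElement_eq_one_iff_mul_comm.2 (hb.2 a a.2))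
  have : N.Normal := ⟨fun n hn b => ⟨(b * n * b⁻¹).2, fun a ha =>
    commutatorElement_eq_one_iff_mul_comm.1 (congrArg Subtype.val
      ((f ⟨a, ha⟩).normal_ker.conj_mem n (hf _ hn) b))⟩⟩
  let φ : A →* (B ⧸ N →* Z) := MonoidHom.mk' (fun a => QuotientGroup.lift N (f a) (hf a))
    fun a a' => QuotientGroup.monoidHom_ext _ (MonoidHom.ext fun b => Subtype.ext (e2 _ a.2 _ a'.2 _ b.2))
  have hk : φ.ker = (A ⊓ centralizer (B : Set G)).subgroupOf A := by
    ext a
    refine ⟨fun ha => ⟨a.2, fun b hb => (commutatorElement_eq_one_iff_mul_comm.1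
      (congrArg Subtype.val (DFunLike.congr_fun ha (QuotientGroup.mk ⟨b, hb⟩)))).symm⟩, fun ha =>
      QuotientGroup.monoidHom_ext _ (MonoidHom.ext fun b => Subtype.ext
        (commutatorElement_eq_one_iff_mul_comm.2 (ha.2 b b.2).symm))⟩
  have : Finite (B ⧸ N →* Z) := DFunLike.finite _
  rw [relIndex, ← hk, index_ker]
  exact (card_le_card_group _).trans (CfsgLib.PGroup.card_monoidHom_le_of_isCyclic _ _)

open CfsgLib Subgroup in

/-- Let A and B be subgroups of a finite p-group with [A, B] ≤ A ∩ B and [A, B] of order at most p. Then |A : C_A(B)| = |B : C_B(A)|. -/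
theorem result {G : Type*} [Group G] [Finite G] {p : ℕ} [Fact p.Prime] (hG : IsPGroup p G) (A B : Subgroup G) (hAB : ⁅A, B⁆ ≤ A ⊓ B) (hcard : Nat.card ↥⁅A, B⁆ ≤ p) : (A ⊓ Subgroup.centralizer (B : Set G)).relIndex A = (B ⊓ Subgroup.centralizer (A : Set G)).relIndex B := by
  have hp : p.Prime := Fact.out
  obtain ⟨k, hk⟩ := IsPGroup.iff_card.1 (hG.to_subgroup ⁅A, B⁆)
  have h1 : Nat.card ↥⁅A, B⁆ ∣ p := by
    rw [hk] at hcard ⊢
    have : k ≤ 1 := (Nat.pow_le_pow_iff_right hp.one_lt).1 (by simpa using hcard)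
    simpa using pow_dvd_pow p this
  have : IsCyclic ↥⁅A, B⁆ := isCyclic_of_card_dvd_prime h1
  have hc : ∀ K : Subgroup G, K ≤ normalizer ((⁅A, B⁆ : Subgroup G) : Set G) → ⁅A, B⁆ ≤ K →
      ⁅A, B⁆ ≤ centralizer (K : Set G) := fun K h2 h3 => by
    rcases (Nat.dvd_prime hp).1 h1 with e | e
    · rw [card_eq_one.1 e]; exact bot_le
    · have := (normal_subgroupOf_iff_le_normalizer h3).2 h2
      have h4 := PGroup.le_center_of_card_eq_prime (hG.to_subgroup K) ((⁅A, B⁆ : Subgroup G).subgroupOf K)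
        ((Nat.card_congr (subgroupOfEquivOfLe h3).toEquiv).trans e)
      exact fun z hz g hg => congrArg Subtype.val (mem_center_iff.1 (h4 (x := ⟨z, h3 hz⟩) hz) ⟨g, hg⟩)
  have hA := hc A (normalizer_commutator_ge_left A B) (hAB.trans inf_le_left)
  have hB := hc B (normalizer_commutator_ge_right A B) (hAB.trans inf_le_right)
  refine le_antisymm (half (fun a ha b hb => commutator_mem_commutator ha hb) hA hB)
    (half (fun b hb a ha => ?_) hB hA)
  rw [commutator_comm]; exact commutator_mem_commutator hb ha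
end Cfsg.Agent.S3741
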