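import Cfsg.Statements.S3744
import Cfsg.Agent.Lib.Coprime.HallAmbient

set_option autoImplicit false
open Cfsg

namespace Cfsg.Agent.S3744

open CfsgLib.Coprime in
theorem hall_iff {G : Type*} [Group G] [Finite G] {p : ℕ} (hp : p.Prime) (H : Subgroup G) :
    Cfsg.IsPiHall ({p}ᶜ : Set ℕ) H ↔ (Nat.card H).Coprime p ∧ ∃ n : ℕ, H.index = p ^ n := by
  rw [isPiHall_iff, IsPiNum.compl_singleton_iff hp, compl_compl]
  refine and_congr Iff.rfl ⟨fun h => ?_, ?_⟩
  · refine ⟨_, (Nat.eq_prime_pow_of_unique_prime_dvd Subgroup.index_ne_zero_of_finite ?_)⟩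
    intro d hd hdn
    exact h d hd hdn
  · rintro ⟨n, hn⟩
    rw [hn]
    exact IsPiNum.of_prime_pow hp rfl

/-- A finite p-soluble group has a p-complement, all its p-complements are conjugate, and every subgroup of order prime to p lies in one of them. Here a p-complement is a subgroup of order prime to p whose index is a power of p. -/
theorem result {G : Type*} [Group G] [Finite G] {p : ℕ} [Fact p.Prime] (hG : Cfsg.IsPSolvable p G) : (∃ H : Subgroup G, (Nat.card H).Coprime p ∧ ∃ n : ℕ, H.index = p ^ n) ∧ (∀ H₁ H₂ : Subgroup G, (Nat.card H₁).Coprime p → (∃ n : ℕ, H₁.index = p ^ n) → (Nat.card H₂).Coprime p → (∃ n : ℕ, H₂.index = p ^ n) → ∃ g : G, H₂ = H₁.map (MulAut.conj g).toMonoidHom) ∧ (∀ U : Subgroup G, (Nat.card U).Coprime p → ∃ H : Subgroup G, (Nat.card H).Coprime p ∧ (∃ n : ℕ, H.index = p ^ n) ∧ ∃ g : G, U.map (MulAut.conj g).toMonoidHom ≤ H) := by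
  have hp : p.Prime := Fact.out
  have hg := CfsgLib.Coprime.hallGood_of_isPSolvable hp hG
  refine ⟨?_, ?_, ?_⟩
  · obtain ⟨H, hH⟩ := hg.exists_isPiHall
    exact ⟨H, (hall_iff hp H).1 hH⟩
  · intro H₁ H₂ a1 b1 a2 b2
    obtain ⟨g, hg⟩ := hg.exists_conj_eq ((hall_iff hp H₁).2 ⟨a1, b1⟩) ((hall_iff hp H₂).2 ⟨a2, b2⟩)
    exact ⟨g, hg.symm⟩
  · intro U hU
    obtain ⟨H, hH, hUH⟩ := hg.exists_isPiHall_ge
      ((CfsgLib.Coprime.IsPiNum.compl_singleton_iff hp).2 hU)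
    obtain ⟨a, b⟩ := (hall_iff hp H).1 hH
    refine ⟨H, a, b, 1, ?_⟩
    rintro x ⟨y, hy, rfl⟩
    simpa using hUH hy

end Cfsg.Agent.S3744
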