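import Cfsg.Statements.S3746
import Mathlib
import Cfsg.Agent.Lib.Comp.Component

set_option autoImplicit false
open Cfsg

namespace Cfsg.Agent.S3746

open CfsgLib Subgroup in

/-- Let Z ≤ Z(G) be a central subgroup of a finite group G and E a subgroup of G containing Z whose image E/Z is a component of G/Z (subnormal and quasisimple). Then the derived subgroup [E, E] is a component of G. -/
theorem result {G : Type*} [Group G] [Finite G] (Z : Subgroup G) (hZ : Z ≤ Subgroup.center G) [Z.Normal] (E : Subgroup G) (hZE : Z ≤ E) (hE : Cfsg.IsComponent (E.map (QuotientGroup.mk' Z))) : Cfsg.IsComponent ⁅E, E⁆ := by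
  have h1 : (⁅E, E⁆ : Subgroup G).map (QuotientGroup.mk' Z) = E.map (QuotientGroup.mk' Z) := by
    rw [Subgroup.map_commutator, Comp.comp_perfect hE]
  have h2 : ⁅E, E⁆ ⊔ Z = E := by
    have := congrArg (comap (QuotientGroup.mk' Z)) h1
    rwa [comap_map_eq, comap_map_eq, QuotientGroup.ker_mk', sup_eq_left.2 hZE] at this
  have h3 : E.IsSubnormal := by
    have := hE.1.comap (QuotientGroup.mk' Z)
    rwa [comap_map_eq, QuotientGroup.ker_mk', sup_eq_left.2 hZE] at this
  have h4 : ⁅E, E⁆ ≤ E := commutator_le_self E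
  have h5 : ((⁅E, E⁆ : Subgroup G).subgroupOf E).Normal := by
    rw [← map_subtype_commutator, subgroupOf, comap_map_eq_self_of_injective E.subtype_injective]
    infer_instance
  have hc : ∀ K : Subgroup G, Z ≤ centralizer (K : Set G) := fun K z hz g _ => mem_center_iff.1 (hZ hz) g
  refine ⟨IsSubnormal.trans h4 h5.isSubnormal h3, Comp.qs_of_map (QuotientGroup.mk' Z) ?_ ?_ (h1 ▸ hE.2)⟩
  · rw [← Comp.commutator_sup_of_le_centralizer (hc _), h2]
  · rw [QuotientGroup.ker_mk']
    exact inf_le_right.trans (hc _)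
end Cfsg.Agent.S3746
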