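import Cfsg.Statements.S3747
import Mathlib
import Cfsg.Agent.Lib.Comp.FStar

set_option autoImplicit false
open Cfsg

namespace Cfsg.Agent.S3747

open CfsgLib Subgroup in

/-- Let G be a finite group. (a) If K is a component of G with trivial centre, then the normal closure of K in G is a minimal normal subgroup of G. (b) If the Fitting subgroup of G is trivial, then the layer E(G) is generated by the minimal normal subgroups of G. -/
theorem result {G : Type*} [Group G] [Finite G] : (∀ K : Subgroup G, Cfsg.IsComponent K → Subgroup.center ↥K = ⊥ → (Subgroup.normalClosure (K : Set G) ≠ ⊥ ∧ ∀ N : Subgroup G, N.Normal → N ≤ Subgroup.normalClosure (K : Set G) → N = ⊥ ∨ N = Subgroup.normalClosure (K : Set G))) ∧ (Cfsg.fittingSubgroup G = ⊥ → sSup {N : Subgroup G | N ≠ ⊥ ∧ N.Normal ∧ ∀ N' : Subgroup G, N'.Normal → N' ≤ N → N' = ⊥ ∨ N' = N} = Cfsg.layer G) := by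
  classical
  have key : ∀ S : Finset (Subgroup G), (∀ K ∈ S, Cfsg.IsComponent K ∧ K ⊓ centralizer (K : Set G) = ⊥) →
      ∀ z ∈ sSup (S : Set (Subgroup G)), (∀ K ∈ S, z ∈ centralizer (K : Set G)) → z = 1 := by
    intro S
    induction S using Finset.induction_on with
    | empty => intro _ z hz _; simpa using hz
    | insert K S hK ih =>
      intro h z hz hc
      have h1 : sSup (S : Set (Subgroup G)) ≤ centralizer (K : Set G) := sSup_le fun L hL =>
        Comp.comp_le_centralizer_of_ne (h L (Finset.mem_insert_of_mem hL)).1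
          (h K (Finset.mem_insert_self _ _)).1 fun e => hK (e ▸ hL)
      rw [Finset.coe_insert, sSup_insert, ← SetLike.mem_coe, coe_mul_of_right_le_normalizer_left _ _
        (h1.trans (centralizer_le_normalizer _))] at hz
      obtain ⟨k, hk, s, hs, rfl⟩ := hz
      have h2 : k = 1 := mem_bot.1 ((h K (Finset.mem_insert_self _ _)).2 ▸
        ⟨hk, (mul_mem_cancel_right (h1 hs)).1 (hc K (Finset.mem_insert_self _ _))⟩)
      subst h2
      exact ih (fun L hL => h L (Finset.mem_insert_of_mem hL)) _ (by simpa using hs)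
        fun L hL => hc L (Finset.mem_insert_of_mem hL)
  have ha : ∀ K : Subgroup G, Cfsg.IsComponent K → Subgroup.center ↥K = ⊥ →
      (Subgroup.normalClosure (K : Set G) ≠ ⊥ ∧ ∀ N : Subgroup G, N.Normal →
        N ≤ Subgroup.normalClosure (K : Set G) → N = ⊥ ∨ N = Subgroup.normalClosure (K : Set G)) := by
    intro K hK hZ
    refine ⟨fun e => Comp.comp_ne_bot hK (eq_bot_iff.2 (e ▸ le_normalClosure)), fun N hN hle => ?_⟩
    refine (Comp.comp_le_or_commutator_of_normal (N := N) hK).symm.imp (fun h => ?_)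
      fun h => le_antisymm hle (normalClosure_le_normal h)
    let S : Set (Subgroup G) := Set.range fun g : G => K.map (MulAut.conj g).toMonoidHom
    have hS : normalClosure (K : Set G) ≤ sSup S := (closure_le _).2 fun x hx => by
      obtain ⟨k, hk, e⟩ := Group.mem_conjugatesOfSet_iff.1 hx
      obtain ⟨g, rfl⟩ := isConj_iff.1 e
      exact le_sSup (s := S) ⟨g, rfl⟩ ⟨k, hk, rfl⟩
    have hZ' : K ⊓ centralizer (K : Set G) = ⊥ := by rw [← Comp.map_center_subtype, hZ, Subgroup.map_bot]
    refine eq_bot_iff.2 fun z hz => key (Set.toFinite S).toFinset ?_ z (by simpa using hS (hle hz)) ?_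
    · intro L hL
      obtain ⟨g, rfl⟩ := (Set.Finite.mem_toFinset _).1 hL
      refine ⟨Comp.comp_map_conj hK g, eq_bot_iff.2 ?_⟩
      rintro _ ⟨⟨k, hk, rfl⟩, h2⟩
      have : k = 1 := mem_bot.1 (hZ' ▸ ⟨hk, fun l hl => by simpa using h2 _ ⟨l, hl, rfl⟩⟩)
      simp [this]
    · intro L hL
      obtain ⟨g, rfl⟩ := (Set.Finite.mem_toFinset _).1 hL
      rintro _ ⟨k, hk, rfl⟩
      have := commutator_eq_bot_iff_le_centralizer.1 h hk _ (hN.conj_mem z hz g⁻¹)
      show g * k * g⁻¹ * z = z * (g * k * g⁻¹)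
      calc _ = g * (k * (g⁻¹ * z * g⁻¹⁻¹)) * g⁻¹ := by group
        _ = _ := by rw [← this]; group
  refine ⟨ha, fun hF => le_antisymm (sSup_le fun N ⟨h1, h2, h3⟩ => ?_) (Comp.layer_le_iff.2 fun K hK => ?_)⟩
  · have h4 := Comp.fstar_inf_ne_bot h2.isSubnormal h1
    rw [Cfsg.generalizedFittingSubgroup, hF, sup_bot_eq] at h4
    have := Comp.layer_normal (G := G)
    exact inf_eq_right.1 ((h3 _ inferInstance inf_le_right).resolve_left h4)
  · have hZ : center K = ⊥ := by
      have : Group.IsNilpotent (center K) := ⟨1, eq_top_iff.2 fun x _ => by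
        rw [Subgroup.upperCentralSeries_one, mem_center_iff]
        exact fun g => Subtype.ext (mem_center_iff.1 x.2 g)⟩
      have h1 : (center K).map K.subtype ≤ Cfsg.fittingSubgroup G :=
        Comp.le_fit_of_isSubnormal (IsSubnormal.trans' (Normal.isSubnormal inferInstance) hK.1)
          (nilpotent_of_mulEquiv (equivMapOfInjective _ _ K.subtype_injective))
      rw [hF, le_bot_iff, map_eq_bot_iff_of_injective _ K.subtype_injective] at h1
      exact h1
    exact le_normalClosure.trans (le_sSup ⟨(ha K hK hZ).1, inferInstance, (ha K hK hZ).2⟩)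
end Cfsg.Agent.S3747
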