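import Cfsg.Statements.S3749
import Cfsg.Agent.Lib.Core.Fitting
import Cfsg.Agent.Lib.Transfer.Residual
import Cfsg.Agent.Lib.Core.MinNormal
import Cfsg.Agent.Lib.Coprime.Sylow
import Cfsg.Agent.Lib.Coprime.Abelian
import Cfsg.Agent.Lib.SolvStruct.Subnormal

set_option autoImplicit false
open Cfsg

namespace Cfsg.Agent.S3749

open Subgroup CfsgLib.Core
open scoped Pointwise

/-- Call a proper subgroup M of G primitive when M = N_G(N) for every non-trivial normal subgroup N of M. Let M be a primitive subgroup of the finite group G, p a prime with O_p(M) ≠ 1, and N a normal subgroup of G with M ∩ N = 1. Then p does not divide the order of N; for every prime q there is exactly one Sylow q-subgroup of N normalized by M; and if the order of N has at least two prime divisors then M is not a maximal subgroup of G. -/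
theorem result {G : Type*} [Group G] [Finite G] (M : Subgroup G) (hM : M ≠ ⊤) (hprim : ∀ N : Subgroup G, N ≤ M → M ≤ Subgroup.normalizer (N : Set G) → N ≠ ⊥ → Subgroup.normalizer (N : Set G) = M) {p : ℕ} [Fact p.Prime] (hOp : Cfsg.pCore p ↥M ≠ ⊥) (N : Subgroup G) [N.Normal] (hMN : M ⊓ N = ⊥) : ¬ p ∣ Nat.card N ∧ (∀ q : ℕ, [Fact q.Prime] → ∃! Q : Sylow q ↥N, M ≤ Subgroup.normalizer ((Q : Subgroup ↥N).map N.subtype : Set G)) ∧ ((∃ q r : ℕ, q.Prime ∧ r.Prime ∧ q ≠ r ∧ q ∣ Nat.card N ∧ r ∣ Nat.card N) → ¬ IsCoatom M) := by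
  set P : Subgroup G := (Cfsg.pCore p M).map M.subtype with hPdef
  have hP : IsPGroup p P := isPGroup_map_pCore M
  have hP1 : P ≠ ⊥ := fun h => hOp ((Subgroup.map_eq_bot_iff_of_injective _ M.subtype_injective).1 h)
  have hPM : P ≤ M := map_subtype_le _
  have hMP : M ≤ normalizer (P : Set G) :=
    le_normalizer.trans (normalizer_le_normalizer_map_pCore M)
  have hNP : normalizer (P : Set G) = M := hprim P hPM hMP hP1
  have hC : N ⊓ centralizer (P : Set G) = ⊥ := by
    rw [eq_bot_iff, ← hMN, inf_comm, ← hNP]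
    exact inf_le_inf_right _ (Subgroup.centralizer_le_normalizer _)
  have hpN : ¬ p ∣ Nat.card N := by
    intro hd
    obtain ⟨S, hS⟩ := hP.exists_le_sylow
    have h1 : (S : Subgroup G) ⊓ N ≠ ⊥ := by
      intro h
      exact CfsgLib.Transfer.not_dvd_card_of_inf_sylow_eq_bot S N (by rw [inf_comm, h]) hd
    have h5 := inf_centralizer_ne_bot_of_isPGroup (S.isPGroup'.to_inf_left (K := N)) hP
      (CfsgLib.Coprime.le_normalizer_inf (hS.trans le_normalizer) le_normalizer_of_normal) h1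
    apply h5
    rw [eq_bot_iff, ← hC]
    exact inf_le_inf_right _ inf_le_right
  have hcop : (Nat.card P).Coprime (Nat.card N) :=
    isPGroup_coprime_card hP ((Nat.Prime.coprime_iff_not_dvd Fact.out).2 hpN).symm
  have hs : Group.IsSolvable P ∨ Group.IsSolvable N :=
    Or.inl (CfsgLib.Coprime.isSolvable_of_isPGroup hP)
  have hPN : P ≤ normalizer (N : Set G) := le_normalizer_of_normal
  have huniq : ∀ q : ℕ, [Fact q.Prime] → ∃! Q : Sylow q ↥N,
      M ≤ normalizer ((Q : Subgroup ↥N).map N.subtype : Set G) := by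
    intro q _
    have hu : ∀ Q₁ Q₂ : Subgroup G, Q₁ ≤ N → IsPGroup q Q₁ → ¬ q ∣ Q₁.relIndex N →
        P ≤ normalizer (Q₁ : Set G) → Q₂ ≤ N → IsPGroup q Q₂ → ¬ q ∣ Q₂.relIndex N →
        P ≤ normalizer (Q₂ : Set G) → Q₁ = Q₂ := by
      intro Q₁ Q₂ a1 a2 a3 a4 b1 b2 b3 b4
      obtain ⟨c, hc, h⟩ := CfsgLib.Coprime.exists_centralizer_smul_sylow_eq' hPN hcop hs
        a1 a2 a3 a4 b1 b2 b3 b4
      rw [hC, mem_bot] at hc
      rw [← h, hc, map_one, one_smul]
    obtain ⟨Q, hQ⟩ := CfsgLib.Coprime.exists_invariant_sylow q hPN hcop hs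
    have a1 : (Q : Subgroup N).map N.subtype ≤ N := map_subtype_le _
    have a2 : IsPGroup q ((Q : Subgroup N).map N.subtype) := Q.isPGroup'.map _
    have a3 := CfsgLib.Coprime.not_dvd_relIndex_sylow Q
    refine ⟨Q, fun m hm => ?_, fun Q' hQ' => ?_⟩
    · rw [mem_normalizer_iff_conj_smul_eq]
      have hmN : m ∈ normalizer (N : Set G) := le_normalizer_of_normal (mem_top m)
      refine hu _ _ (CfsgLib.Coprime.conj_smul_le_of_mem_normalizer hmN a1)
        (CfsgLib.Coprime.isPGroup_conj_smul m a2)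
        (by rwa [CfsgLib.Coprime.relIndex_conj_smul hmN]) ?_ a1 a2 a3 hQ
      rw [CfsgLib.SolvStruct.normalizer_conj_smul,
        ← CfsgLib.SolvStruct.conj_smul_eq_of_mem_normalizer (hMP hm)]
      exact CfsgLib.SolvStruct.conj_smul_mono m hQ
    · apply Sylow.ext
      apply map_injective N.subtype_injective
      exact hu _ _ (map_subtype_le _) (Q'.isPGroup'.map _)
        (CfsgLib.Coprime.not_dvd_relIndex_sylow Q') (hPM.trans hQ') a1 a2 a3 hQ
  refine ⟨hpN, huniq, ?_⟩
  rintro ⟨q, r, hq, hr, hqr, hqN, hrN⟩ hco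
  have := Fact.mk hq
  obtain ⟨Q, hQ, -⟩ := huniq q
  set Q' := (Q : Subgroup N).map N.subtype with hQ'
  have a1 : Q' ≤ N := map_subtype_le _
  have a2 : IsPGroup q Q' := Q.isPGroup'.map _
  have a3 : ¬ q ∣ Q'.relIndex N := CfsgLib.Coprime.not_dvd_relIndex_sylow Q
  have hlt : M < Q' ⊔ M := by
    refine lt_of_le_of_ne le_sup_right fun h => a3 ?_
    have : Q' = ⊥ := by
      rw [eq_bot_iff, ← hMN]
      exact le_inf (le_sup_left.trans h.ge) a1
    rwa [this, relIndex_bot_left]
  have htop := hco.2 _ hlt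
  have h6 := sup_inf_assoc_of_le_normalizer' (B := M) a1 hQ
  rw [htop, hMN, top_inf_eq, sup_bot_eq] at h6
  rw [h6] at hrN
  obtain ⟨k, hk⟩ := IsPGroup.iff_card.1 a2
  rw [hk] at hrN
  exact hqr ((Nat.prime_dvd_prime_iff_eq hr hq).1 (hr.dvd_of_dvd_pow hrN)).symm

end Cfsg.Agent.S3749
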