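import Cfsg.Statements.S3750
import Cfsg.Agent.Lib.Comp.Primitive

set_option autoImplicit false
open Cfsg

namespace Cfsg.Agent.S3750

/-- Call a proper subgroup M of G primitive when M = N_G(N) for every non-trivial normal subgroup N of M. Let M be a primitive subgroup of the finite group G and N a normal subgroup of G with M ∩ F*(N) ≠ 1. Then F(G) = 1 and F*(N) = F*(G) = E(G); in particular every minimal normal subgroup of G is contained in N. -/
theorem result {G : Type*} [Group G] [Finite G] (M : Subgroup G) (hM : M ≠ ⊤) (hprim : ∀ N : Subgroup G, N ≤ M → M ≤ Subgroup.normalizer (N : Set G) → N ≠ ⊥ → Subgroup.normalizer (N : Set G) = M) (N : Subgroup G) [N.Normal] (hMF : M ⊓ (Cfsg.generalizedFittingSubgroup ↥N).map N.subtype ≠ ⊥) : Cfsg.fittingSubgroup G = ⊥ ∧ (Cfsg.generalizedFittingSubgroup ↥N).map N.subtype = Cfsg.generalizedFittingSubgroup G ∧ Cfsg.generalizedFittingSubgroup G = Cfsg.layer G ∧ ∀ K : Subgroup G, K.Normal → K ≠ ⊥ → (∀ K' : Subgroup G, K'.Normal → K' ≤ K → K' = ⊥ ∨ K' = K) → K ≤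 N := by
  have hn : (CfsgLib.Comp.fstarOf N).Normal := by
    haveI := CfsgLib.Comp.fstar_characteristic (G := N)
    infer_instance
  have hC : Subgroup.centralizer (CfsgLib.Comp.fstarOf N : Set G) = ⊥ := by
    refine CfsgLib.Comp.eq_bot_of_isSubnormal_of_le_primitive hM hprim
      (Subgroup.Normal.isSubnormal inferInstance) ?_
    have h1 := hprim (M ⊓ CfsgLib.Comp.fstarOf N) inf_le_left
      (CfsgLib.Coprime.le_normalizer_inf Subgroup.le_normalizer
        (by rw [Subgroup.normalizer_eq_top]; exact le_top)) hMF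
    exact (Subgroup.centralizer_le (fun x hx => hx.2)).trans
      ((Subgroup.centralizer_le_normalizer _).trans h1.le)
  obtain ⟨h1, h2, h3⟩ := CfsgLib.Comp.fstar_eq_of_centralizer_eq_bot hC
  refine ⟨h1, h2, h3, fun K hK hK1 hmin => ?_⟩
  rcases hmin (K ⊓ N) inferInstance inf_le_left with h | h
  · refine absurd (le_bot_iff.mp (hC ▸ ?_)) hK1
    refine le_trans ?_ (Subgroup.centralizer_le (Subgroup.map_subtype_le _))
    rw [← Subgroup.commutator_eq_bot_iff_le_centralizer, eq_bot_iff, ← h]
    exact Subgroup.commutator_le_inf K N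
  · exact h ▸ inf_le_right

end Cfsg.Agent.S3750
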