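import Cfsg.Statements.S3751
import Cfsg.Agent.Lib.Core.Fitting
import Cfsg.Agent.Lib.Core.MinNormal
import Cfsg.Agent.Lib.PGroup.Basic
import Cfsg.Agent.Lib.Coprime.Sylow
import Cfsg.Agent.Lib.SolvStruct.Subnormal
import Cfsg.Agent.Lib.PLocal.Constrained

set_option autoImplicit false
open Cfsg

namespace Cfsg.Agent.S3751

open Subgroup CfsgLib.Core
open scoped Pointwise

/-- `M` is a maximal `p`-local subgroup. -/
def MaxLoc {G : Type*} [Group G] (p : ℕ) (M : Subgroup G) : Prop :=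
  (∃ T : Subgroup G, IsPGroup p T ∧ T ≠ ⊥ ∧ M = normalizer (T : Set G)) ∧
    ∀ L : Subgroup G, (∃ T : Subgroup G, IsPGroup p T ∧ T ≠ ⊥ ∧ L = normalizer (T : Set G)) →
      M ≤ L → L = M

variable {G : Type*} [Group G] [Finite G] {p : ℕ} [Fact p.Prime]

omit [Finite G] [Fact p.Prime] in
theorem loc_conj {M : Subgroup G} (g : G)
    (h : ∃ T : Subgroup G, IsPGroup p T ∧ T ≠ ⊥ ∧ M = normalizer (T : Set G)) :
    ∃ T : Subgroup G, IsPGroup p T ∧ T ≠ ⊥ ∧ MulAut.conj g • M = normalizer (T : Set G) := by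
  obtain ⟨T, h1, h2, rfl⟩ := h
  refine ⟨MulAut.conj g • T, CfsgLib.Coprime.isPGroup_conj_smul g h1, fun h => h2 ?_,
    (CfsgLib.SolvStruct.normalizer_conj_smul T g).symm⟩
  have := congrArg (fun K : Subgroup G => MulAut.conj g⁻¹ • K) h
  simpa [smul_smul, ← map_mul] using this

omit [Finite G] [Fact p.Prime] in
theorem MaxLoc.conj {M : Subgroup G} (h : MaxLoc p M) (g : G) : MaxLoc p (MulAut.conj g • M) := by
  refine ⟨loc_conj g h.1, fun L hL hle => ?_⟩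
  have h1 := h.2 _ (loc_conj g⁻¹ hL) (by
    have := CfsgLib.SolvStruct.conj_smul_mono g⁻¹ hle
    simpa [smul_smul, ← map_mul] using this)
  rw [← h1]
  simp [smul_smul]

omit [Fact p.Prime] in
theorem exists_maxLoc {T : Subgroup G} (hT : IsPGroup p T) (h1 : T ≠ ⊥) :
    ∃ U : Subgroup G, MaxLoc p U ∧ normalizer (T : Set G) ≤ U := by
  obtain ⟨U, a, b, c⟩ := CfsgLib.PGroup.exists_maximal_ge
    (fun L : Subgroup G => ∃ T : Subgroup G, IsPGroup p T ∧ T ≠ ⊥ ∧ L = normalizer (T : Set G))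
    (A := normalizer (T : Set G)) ⟨T, hT, h1, rfl⟩
  exact ⟨U, ⟨b, c⟩, a⟩

omit [Finite G] [Fact p.Prime] in
theorem MaxLoc.charp (hloc : Cfsg.IsOfLocalCharacteristic p G) {M : Subgroup G} (h : MaxLoc p M) :
    centralizer (Cfsg.pCore p M : Set M) ≤ Cfsg.pCore p M := by
  obtain ⟨T, h1, h2, rfl⟩ := h.1
  exact hloc.2 T h1 h2

omit [Finite G] [Fact p.Prime] in
theorem MaxLoc.prim (hloc : Cfsg.IsOfLocalCharacteristic p G) {M : Subgroup G} (h : MaxLoc p M)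
    {A : Subgroup G} (hA : A ≠ ⊥) (hAM : A ≤ M) (hn : M ≤ normalizer (A : Set G)) :
    normalizer (A : Set G) = M := by
  refine le_antisymm ?_ hn
  have h1 : (Cfsg.pCore p A).map A.subtype ≠ ⊥ := by
    intro h0
    apply hA
    have hMO : M ≤ normalizer (((Cfsg.pCore p M).map M.subtype : Subgroup G) : Set G) :=
      le_normalizer.trans (normalizer_le_normalizer_map_pCore M)
    have h2 : A ⊓ (Cfsg.pCore p M).map M.subtype = ⊥ := by
      rw [eq_bot_iff, ← h0, inf_comm]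
      exact map_pCore_inf_le hAM
    have h3 := le_centralizer_of_le_normalizer_of_disjoint (hAM.trans hMO)
      ((map_subtype_le _).trans hn) h2
    have h4 : A ≤ (Cfsg.pCore p M).map M.subtype := by
      refine le_trans (le_inf hAM h3) ?_
      rw [← map_subtype_centralizer]
      exact map_mono (h.charp hloc)
    rw [← h2, inf_eq_left.2 h4]
  have h5 := normalizer_le_normalizer_map_pCore (p := p) A
  rw [← h.2 _ ⟨_, isPGroup_map_pCore A, h1, rfl⟩ (hn.trans h5)]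
  exact h5

omit [Finite G] [Fact p.Prime] in
theorem pair (hloc : Cfsg.IsOfLocalCharacteristic p G) {M₁ M₂ T : Subgroup G} (h₁ : MaxLoc p M₁)
    (h₂ : MaxLoc p M₂) (hne : M₁ ≠ M₂) (hT : IsPGroup p T) (a₁ : T ≤ M₁) (a₂ : T ≤ M₂)
    (m₁ : ∀ R : Subgroup G, IsPGroup p R → T ≤ R → R ≤ M₁ → R = T)
    (m₂ : ∀ R : Subgroup G, IsPGroup p R → T ≤ R → R ≤ M₂ → R = T) :
    (∃ M₁ M₂ : Subgroup G, M₁ ≠ M₂ ∧ (∀ A : Subgroup G, A ≠ ⊥ → A ≤ M₁ ⊓ M₂ → (M₁ ≤ Subgroup.normalizer (A : Set G) → M₂ ⊓ Subgroup.normalizer (A : Set G) = M₁ ⊓ M₂) ∧ (M₂ ≤ Subgroup.normalizer (A : Set G) → M₁ ⊓ Subgroup.normalizer (A : Set G) = M₁ ⊓ M₂)) ∧ Subgroup.centralizer (Cfsg.pCore p ↥M₁ : Set ↥M₁) ≤ Cfsg.pCore p ↥M₁ ∧ Subgroup.centralizer (Cfsg.pCore p ↥M₂ : Set ↥M₂) ≤ Cfsg.pCore p ↥M₂ ∧ (Cfsg.pCore p ↥M₁).map M₁.subtype ⊔ (Cfsg.pCore p ↥M₂).map M₂.subtype ≤ M₁ ⊓ M₂) := by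
  have key : ∀ M : Subgroup G, T ≤ M →
      (∀ R : Subgroup G, IsPGroup p R → T ≤ R → R ≤ M → R = T) →
      (Cfsg.pCore p M).map M.subtype ≤ T := by
    intro M a m
    rw [← m (T ⊔ (Cfsg.pCore p M).map M.subtype) (hT.to_sup_of_normal_right' (isPGroup_map_pCore M)
      (a.trans (le_normalizer.trans (normalizer_le_normalizer_map_pCore M)))) le_sup_left
      (sup_le a (map_subtype_le _))]
    exact le_sup_right
  refine ⟨M₁, M₂, hne, fun A hA hAM => ⟨fun hn => ?_, fun hn => ?_⟩, h₁.charp hloc,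
    h₂.charp hloc, ?_⟩
  · rw [h₁.prim hloc hA (hAM.trans inf_le_left) hn, inf_comm]
  · rw [h₂.prim hloc hA (hAM.trans inf_le_right) hn]
  · exact (sup_le (key _ a₁ m₁) (key _ a₂ m₂)).trans (le_inf a₁ a₂)

/-- Two distinct subgroups M₁, M₂ of G form a primitive pair when, for {i, j} = {1, 2}, every non-trivial normal subgroup A of M_i contained in M₁ ∩ M₂ satisfies N_{M_j}(A) = M₁ ∩ M₂; the pair has characteristic p when moreover C_{M_i}(O_p(M_i)) ≤ O_p(M_i) for both i and O_p(M₁)O_p(M₂) ≤ M₁ ∩ M₂. Let G be a finite group, p a prime dividing its order, with O_p(G) = 1 and every p-local subgroup of characteristic p. Then either G has a primitive pair of characteristic p, or every maximal p-local subgroup M of G is strongly p-embedded in G: M is a proper subgroup, p divides its order, and for every g ∉ M the order of M ∩ gMg⁻¹ is prime to p. -/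
theorem result {G : Type*} [Group G] [Finite G] {p : ℕ} [Fact p.Prime] (hloc : Cfsg.IsOfLocalCharacteristic p G) (hOp : Cfsg.pCore p G = ⊥) : (∃ M₁ M₂ : Subgroup G, M₁ ≠ M₂ ∧ (∀ A : Subgroup G, A ≠ ⊥ → A ≤ M₁ ⊓ M₂ → (M₁ ≤ Subgroup.normalizer (A : Set G) → M₂ ⊓ Subgroup.normalizer (A : Set G) = M₁ ⊓ M₂) ∧ (M₂ ≤ Subgroup.normalizer (A : Set G) → M₁ ⊓ Subgroup.normalizer (A : Set G) = M₁ ⊓ M₂)) ∧ Subgroup.centralizer (Cfsg.pCore p ↥M₁ : Set ↥M₁) ≤ Cfsg.pCore p ↥M₁ ∧ Subgroup.centralizer (Cfsg.pCore p ↥M₂ : Set ↥M₂) ≤ Cfsg.pCore p ↥M₂ ∧ (Cfsg.pCore p ↥M₁).map M₁.subtype ⊔ (Cfsg.pCore p ↥M₂).map M₂.subtype ≤ M₁ ⊓ M₂) ∨ (∀ M : Subgroup G, (∃ T : Subgroup G, IsPGroup p T ∧ T ≠ ⊥ ∧ M = Subgroup.normalizer (T : Set G)) → (∀ L : Subgroup G, (∃ T : Subgroup G, IsPGroup p T ∧ T ≠ ⊥ ∧ L = Subgroup.normalizer (T : Set G)) → M ≤ L → L = M) → M ≠ ⊤ ∧ p ∣ Nat.card M ∧ ∀ g : G, g ∉ M → ¬ p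 ∣ Nat.card ↥(M ⊓ M.map (MulAut.conj g).toMonoidHom)) := by
  rw [or_iff_not_imp_right]
  intro hns
  have h0 : ∃ T : Subgroup G, IsPGroup p T ∧ T ≠ ⊥ ∧
      ∃ M₁ M₂ : Subgroup G, MaxLoc p M₁ ∧ MaxLoc p M₂ ∧ M₁ ≠ M₂ ∧ T ≤ M₁ ∧ T ≤ M₂ := by
    by_contra hcon
    apply hns
    intro M hM hmax
    have hML : MaxLoc p M := ⟨hM, hmax⟩
    obtain ⟨T, h1, h2, h3⟩ := hM
    have hTM : T ≤ M := h3 ▸ le_normalizer
    refine ⟨fun h => h2 ?_, (dvd_card_of_isPGroup_of_ne_bot h1 h2).trans (card_dvd_of_le hTM),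
      fun g hg hd => hcon ?_⟩
    · have : T.Normal := normalizer_eq_top_iff.1 (h3 ▸ h)
      rw [eq_bot_iff, ← hOp]
      exact le_pCore h1
    · obtain ⟨x, hx, hxp⟩ := exists_mem_orderOf_eq_of_dvd_card Fact.out hd
      refine ⟨zpowers x, isPGroup_zpowers_iff.2 ⟨1, by rw [pow_one, ← hxp, pow_orderOf_eq_one]⟩,
        ?_, M, MulAut.conj g • M, hML, hML.conj g, fun h => hg ?_, ?_, ?_⟩
      · rw [Ne, zpowers_eq_bot]
        rintro rfl
        rw [orderOf_one] at hxp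
        exact (Fact.out : p.Prime).one_lt.ne hxp
      · have hM1 : M ≠ ⊥ := fun h => h2 (eq_bot_iff.2 (h ▸ hTM))
        rw [← hML.prim hloc hM1 le_rfl le_normalizer, mem_normalizer_iff_conj_smul_eq]
        exact h.symm
      · exact zpowers_le_of_mem hx.1
      · exact zpowers_le_of_mem hx.2
  obtain ⟨T₀, hT₀⟩ := h0
  obtain ⟨T, -, ⟨hT, hT1, M₁, M₂, h₁, h₂, hne, a₁, a₂⟩, hmax⟩ := CfsgLib.PGroup.exists_maximal_ge
    (fun T : Subgroup G => IsPGroup p T ∧ T ≠ ⊥ ∧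
      ∃ M₁ M₂ : Subgroup G, MaxLoc p M₁ ∧ MaxLoc p M₂ ∧ M₁ ≠ M₂ ∧ T ≤ M₁ ∧ T ≤ M₂) hT₀
  obtain ⟨U, hU, hTU⟩ := exists_maxLoc hT hT1
  have key : ∀ M : Subgroup G, MaxLoc p M → M ≠ U →
      ∀ R : Subgroup G, IsPGroup p R → T ≤ R → R ≤ M → R = T := by
    intro M hM hMU R hR hTR hRM
    by_contra hRT
    have hlt := lt_inf_normalizer_of_isPGroup hR (lt_of_le_of_ne hTR (Ne.symm hRT))
    exact hlt.ne' (hmax _ ⟨hR.to_inf_left, fun h => hT1 (eq_bot_iff.2 (h ▸ hlt.le)), M, U, hM, hU,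
      hMU, inf_le_left.trans hRM, inf_le_right.trans hTU⟩ hlt.le)
  have key2 : ∀ M L : Subgroup G, MaxLoc p M → MaxLoc p L → M ≠ L → T ≤ M → T ≤ L → M ≠ U →
      (∃ M₁ M₂ : Subgroup G, M₁ ≠ M₂ ∧ (∀ A : Subgroup G, A ≠ ⊥ → A ≤ M₁ ⊓ M₂ → (M₁ ≤ Subgroup.normalizer (A : Set G) → M₂ ⊓ Subgroup.normalizer (A : Set G) = M₁ ⊓ M₂) ∧ (M₂ ≤ Subgroup.normalizer (A : Set G) → M₁ ⊓ Subgroup.normalizer (A : Set G) = M₁ ⊓ M₂)) ∧ Subgroup.centralizer (Cfsg.pCore p ↥M₁ : Set ↥M₁) ≤ Cfsg.pCore p ↥M₁ ∧ Subgroup.centralizer (Cfsg.pCore p ↥M₂ : Set ↥M₂) ≤ Cfsg.pCore p ↥M₂ ∧ (Cfsg.pCore p ↥M₁).map M₁.subtype ⊔ (Cfsg.pCore p ↥M₂).map M₂.subtype ≤ M₁ ⊓ M₂) := by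
    intro M L hM hL hML aM aL hMU
    have m := key M hM hMU
    by_cases mL : ∀ R : Subgroup G, IsPGroup p R → T ≤ R → R ≤ L → R = T
    · exact pair hloc hM hL hML hT aM aL m mL
    push Not at mL
    obtain ⟨R, hR, hTR, -, hRT⟩ := mL
    have hlt := lt_inf_normalizer_of_isPGroup hR (lt_of_le_of_ne hTR (Ne.symm hRT))
    obtain ⟨x, ⟨hxR, hxN⟩, hxT⟩ := SetLike.exists_of_lt hlt
    have hxM : x ∉ M := by
      intro hx
      apply hxT
      rw [← m (T ⊔ zpowers x) (hR.to_le (sup_le hTR (zpowers_le_of_mem hxR))) le_sup_left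
        (sup_le aM (zpowers_le_of_mem hx))]
      exact mem_sup_right (mem_zpowers x)
    have hxT' : MulAut.conj x • T = T := mem_normalizer_iff_conj_smul_eq.1 hxN
    have hxT'' : MulAut.conj x⁻¹ • T = T := mem_normalizer_iff_conj_smul_eq.1 (inv_mem hxN)
    refine pair hloc hM (hM.conj x) (fun h => hxM ?_) hT aM ?_ m fun R hR hTR hRM => ?_
    · have hM1 : M ≠ ⊥ := fun h => hT1 (eq_bot_iff.2 (h ▸ aM))
      rw [← hM.prim hloc hM1 le_rfl le_normalizer, mem_normalizer_iff_conj_smul_eq]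
      exact h.symm
    · rw [← hxT']
      exact CfsgLib.SolvStruct.conj_smul_mono x aM
    · have h1 := m (MulAut.conj x⁻¹ • R) (CfsgLib.Coprime.isPGroup_conj_smul _ hR)
        (hxT'' ▸ CfsgLib.SolvStruct.conj_smul_mono x⁻¹ hTR) (by
          have := CfsgLib.SolvStruct.conj_smul_mono x⁻¹ hRM
          simpa [smul_smul, ← map_mul] using this)
      rw [← hxT', ← h1]
      simp [smul_smul]
  by_cases h : M₁ = U
  · exact key2 M₂ M₁ h₂ h₁ hne.symm a₂ a₁ (h ▸ hne.symm)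
  · exact key2 M₁ M₂ h₁ h₂ hne a₁ a₂ h

end Cfsg.Agent.S3751
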