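import Cfsg.Statements.S3753
import Mathlib
import Cfsg.Agent.Lib.LocA.Prim

set_option autoImplicit false
open Cfsg

namespace Cfsg.Agent.S3753

open CfsgLib CfsgLib.LocA.Prim Subgroup in

/-- Two distinct subgroups M₁, M₂ of G form a primitive pair when, for {i, j} = {1, 2}, every non-trivial normal subgroup A of M_i contained in M₁ ∩ M₂ satisfies N_{M_j}(A) = M₁ ∩ M₂; the pair has characteristic p when moreover C_{M_i}(O_p(M_i)) ≤ O_p(M_i) for both i and O_p(M₁)O_p(M₂) ≤ M₁ ∩ M₂. If the finite group G has a primitive pair (M₁, M₂) of characteristic p for some prime p, then M₁ or M₂ has non-abelian Sylow 2-subgroups. In particular no group of odd order has a primitive pair of characteristic p. -/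
theorem result {G : Type*} [Group G] [Finite G] {p : ℕ} [Fact p.Prime] (M₁ M₂ : Subgroup G) (hne : M₁ ≠ M₂) (hP : ∀ A : Subgroup G, A ≠ ⊥ → A ≤ M₁ ⊓ M₂ → (M₁ ≤ Subgroup.normalizer (A : Set G) → M₂ ⊓ Subgroup.normalizer (A : Set G) = M₁ ⊓ M₂) ∧ (M₂ ≤ Subgroup.normalizer (A : Set G) → M₁ ⊓ Subgroup.normalizer (A : Set G) = M₁ ⊓ M₂)) (hc₁ : Subgroup.centralizer (Cfsg.pCore p ↥M₁ : Set ↥M₁) ≤ Cfsg.pCore p ↥M₁) (hc₂ : Subgroup.centralizer (Cfsg.pCore p ↥M₂ : Set ↥M₂) ≤ Cfsg.pCore p ↥M₂) (hO : (Cfsg.pCore p ↥M₁).map M₁.subtype ⊔ (Cfsg.pCore p ↥M₂).map M₂.subtype ≤ M₁ ⊓ M₂) : (∃ S : Sylow 2 ↥M₁, ¬ IsMulCommutative (S : Subgroup ↥M₁)) ∨ (∃ S : Sylow 2 ↥M₂, ¬ IsMulCommutative (S : Subgroup ↥M₂)) := by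
  by_contra! h
  have ab : ∀ M : Subgroup G, (∀ S : Sylow 2 M, IsMulCommutative (S : Subgroup M)) → Ab M := fun M h P hP h2 => by
    obtain ⟨S, hS⟩ := (h2.comap_of_injective M.subtype M.subtype_injective).exists_le_sylow
    intro x hx y hy
    exact congrArg Subtype.val (ZJ.mul_comm_of_isMulCommutative (h S) (hS (x := ⟨y, hP hy⟩) hy) (hS (x := ⟨x, hP hx⟩) hx))
  have ch : ∀ M : Subgroup G, centralizer (pCore p M : Set M) ≤ pCore p M →
      M ⊓ centralizer (Q p M : Set G) ≤ Q p M := fun M h => by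
    rw [← Core.map_subtype_centralizer]
    exact map_mono h
  have ne : ∀ M N : Subgroup G, Q p N ≤ M → M ≠ N → (∀ A, A ≠ ⊥ → A ≤ N ⊓ M → M ≤ normalizer (A : Set G) →
      N ⊓ normalizer (A : Set G) ≤ M) → N ⊓ centralizer (Q p N : Set G) ≤ Q p N → ¬ M ≤ N := fun M N h2 h3 h4 h5 hle => by
    refine h3 (le_antisymm hle ?_)
    by_cases h6 : Q p N = ⊥
    · have h7 : N ≤ centralizer (Q p N : Set G) := fun x _ y hy => by rw [mem_bot.1 (h6.le hy), one_mul, mul_one]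
      exact ((le_inf le_rfl h7).trans h5).trans h2
    · exact (le_inf le_rfl le_norm_Q).trans (h4 _ h6 (le_inf (map_subtype_le _) h2) (hle.trans le_norm_Q))
  have p1 : ∀ A, A ≠ ⊥ → A ≤ M₁ ⊓ M₂ → M₂ ≤ normalizer (A : Set G) → M₁ ⊓ normalizer (A : Set G) ≤ M₂ :=
    fun A a b c => ((hP A a b).2 c).le.trans inf_le_right
  have p2 : ∀ A, A ≠ ⊥ → A ≤ M₂ ⊓ M₁ → M₁ ≤ normalizer (A : Set G) → M₂ ⊓ normalizer (A : Set G) ≤ M₁ :=
    fun A a b c => ((hP A a (inf_comm M₂ M₁ ▸ b)).1 c).le.trans inf_le_left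
  have q1 := le_sup_left.trans (hO.trans inf_le_right)
  have q2 := le_sup_right.trans (hO.trans inf_le_left)
  exact not_adj (p := p) ⟨⟨ne _ _ q2 hne p2 (ch _ hc₂), p1, ch _ hc₁, q1, ab _ h.1⟩,
    ne _ _ q1 hne.symm p1 (ch _ hc₁), p2, ch _ hc₂, q2, ab _ h.2⟩
end Cfsg.Agent.S3753
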