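import Cfsg.Statements.S3754
import Cfsg.Agent.Lib.Core.Frattini
import Cfsg.Agent.Lib.SolvStruct.Subnormal
import Cfsg.Agent.Lib.SolvStruct.Util
import Cfsg.Agent.Lib.Core.MinNormal
import Cfsg.Agent.Lib.Core.Commutator
import Cfsg.Agent.Lib.Coprime.Generation
import Cfsg.Agent.Lib.Coprime.HallAmbient
import Cfsg.Agent.Lib.PLocal.QuadSep
import Cfsg.Agent.Lib.Transfer.Residual

set_option autoImplicit false
open Cfsg

namespace Cfsg.Agent.S3754

open Subgroup CfsgLib.Core
open scoped Pointwise commutatorElement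

theorem exists_minimal {G : Type*} [Group G] [Finite G] (P : Subgroup G → Prop) {A : Subgroup G}
    (hA : P A) : ∃ B : Subgroup G, B ≤ A ∧ P B ∧ ∀ C : Subgroup G, P C → C ≤ B → C = B := by
  obtain ⟨B, hB, hmin⟩ := exists_minimal_le_of_wellFoundedLT P A hA
  exact ⟨B, hB, hmin.1, fun C hC hCB => le_antisymm hCB (hmin.2 hC hCB)⟩

/-- The situation in the quotient by `O_p`. -/
theorem bar {G : Type*} [Group G] [Finite G] {p : ℕ} [Fact p.Prime] (hG : Cfsg.IsPSolvable p G)
    (hO : Cfsg.pCore p G = ⊥) (A : Subgroup G) (hA : Cfsg.IsElementaryAbelian p A) (h1 : A ≠ ⊥) :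
    ∃ B W : Subgroup G, B ≤ A ∧ B.relIndex A = p ∧ W ≤ Cfsg.pPrimeCore p G ∧
      A ≤ normalizer (W : Set G) ∧ W ≤ centralizer (B : Set G) ∧ ⁅W, A⁆ = W ∧ W ≠ ⊥ ∧
      ∀ x ∈ W, x ∉ centralizer (A : Set G) → A ⊔ MulAut.conj x • A = W ⊔ A := by
  have hp : p.Prime := Fact.out
  have := hA.1
  have hAp : IsPGroup p A := isElementaryAbelian_isPGroup hA
  set Q := Cfsg.pPrimeCore p G with hQ
  have hQc : (Nat.card Q).Coprime p := coprime_card_pPrimeCore p G
  have hAQ : A ≤ normalizer (Q : Set G) := le_normalizer_of_normal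
  have hnc : ¬ Q ≤ centralizer (A : Set G) := by
    intro h
    have h2 := (le_centralizer_iff.1 h).trans (CfsgLib.PLocal.centralizer_pPrimeCore_le hG hO)
    apply h1
    rw [← isPGroup_inf_eq_bot_of_coprime hAp hQc, inf_eq_left.2 h2]
  obtain ⟨B, hBA, hBi, hB⟩ : ∃ B : Subgroup G, B ≤ A ∧ B.relIndex A = p ∧
      ¬ Q ⊓ centralizer (B : Set G) ≤ centralizer (A : Set G) := by
    by_contra hcon
    push Not at hcon
    exact hnc (CfsgLib.Coprime.le_of_forall_hyperplane hp hA.2 h1 hAQ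
      (isPGroup_coprime_card hAp hQc) hcon)
  have hAB : A ≤ normalizer (B : Set G) :=
    le_trans (le_trans (le_centralizer A) (centralizer_le hBA)) (Subgroup.centralizer_le_normalizer _)
  obtain ⟨W, hWle, ⟨hAW, hW⟩, hmin⟩ := exists_minimal
    (fun W : Subgroup G => A ≤ normalizer (W : Set G) ∧ ¬ W ≤ centralizer (A : Set G))
    ⟨CfsgLib.Coprime.le_normalizer_inf hAQ (CfsgLib.Coprime.le_normalizer_centralizer hAB), hB⟩
  have hWQ : W ≤ Q := hWle.trans inf_le_left
  have hWc : (Nat.card W).Coprime p := Nat.Coprime.coprime_dvd_left (card_dvd_of_le hWQ) hQc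
  have hcop : (Nat.card A).Coprime (Nat.card W) := isPGroup_coprime_card hAp hWc
  refine ⟨B, W, hBA, hBi, hWQ, hAW, hWle.trans inf_le_right, ?_, fun h => hW (h ▸ bot_le), ?_⟩
  · refine hmin _ ⟨CfsgLib.Coprime.le_normalizer_commutator hAW le_normalizer, fun h => hW ?_⟩
      (CfsgLib.Coprime.commutator_le_of_le_normalizer hAW)
    exact le_centralizer_iff.1
      (CfsgLib.Coprime.le_centralizer_of_commutator_le_centralizer hAW hcop h)
  · intro x hx hxA
    set L := A ⊔ MulAut.conj x • A with hL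
    have hLle : L ≤ W ⊔ A := sup_le le_sup_right
      (CfsgLib.SolvStruct.conj_smul_le_of_mem le_sup_right (mem_sup_left hx))
    have hAL : A ≤ L := le_sup_left
    have hDed : L = A ⊔ (W ⊓ L) := by
      rw [← sup_inf_assoc_of_le_normalizer hAL hAW, sup_comm, inf_eq_right.2 hLle]
    have hWL : W ⊓ L = W := by
      refine hmin _ ⟨CfsgLib.Coprime.le_normalizer_inf hAW (hAL.trans le_normalizer), fun h => ?_⟩
        inf_le_left
      have h2 : L ≤ centralizer (A : Set G) := by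
        rw [hDed]
        exact sup_le (le_centralizer A) h
      apply hxA
      intro a ha
      have h3 : x * a * x⁻¹ ∈ L := mem_sup_right (CfsgLib.SolvStruct.conj_mem_conj_smul x ha)
      have h4 : Commute a (x * a * x⁻¹) := h2 h3 a ha
      have h5 : x * a * x⁻¹ * a⁻¹ ∈ W := by
        have := W.mul_mem hx (CfsgLib.Coprime.conj_mem_of_le_normalizer hAW ha (W.inv_mem hx))
        simpa [mul_assoc] using this
      have h6 : (x * a * x⁻¹ * a⁻¹) ^ p = 1 := by
        rw [h4.symm.inv_right.mul_pow, conj_pow, inv_pow, hA.2 a ha]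
        simp
      have h7 : x * a * x⁻¹ * a⁻¹ = 1 := by
        rw [← orderOf_eq_one_iff]
        exact (Nat.coprime_self _).1 (Nat.Coprime.coprime_dvd_right (orderOf_dvd_of_pow_eq_one h6)
          (Nat.Coprime.coprime_dvd_left (W.orderOf_dvd_natCard h5) hWc))
      calc a * x = (x * a * x⁻¹ * a⁻¹)⁻¹ * (x * a) := by group
        _ = x * a := by rw [h7]; simp
    rw [hDed, hWL, sup_comm]

/-- Let M be a finite p-soluble group and A a p-subgroup of M with Φ(A) ≤ O_p(M) but A ≰ O_p(M). Then there is x ∈ O_{p,p'}(M) such that L = ⟨A, xAx⁻¹⟩ satisfies: x ∈ O^p(L) and O^p(L) ≤ O_{p,p'}(M); [O^p(L), A] = O^p(L); A ∩ O_p(L) has index p in A; and [A ∩ O_p(L), L] ≤ O_p(M). Here O^p(L) is the subgroup generated by the p'-elements of L and O_{p,p'}(M) the preimage of O_{p'}(M/O_p(M)). -/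
theorem result {M : Type*} [Group M] [Finite M] {p : ℕ} [Fact p.Prime] (hM : Cfsg.IsPSolvable p M) (A : Subgroup M) (hA : IsPGroup p A) (hΦ : (frattini ↥A).map A.subtype ≤ Cfsg.pCore p M) (hnot : ¬ A ≤ Cfsg.pCore p M) : ∃ x ∈ (Cfsg.pPrimeCore p (M ⧸ Cfsg.pCore p M)).comap (QuotientGroup.mk' (Cfsg.pCore p M)), x ∈ (Cfsg.pResidual p ↥(A ⊔ A.map (MulAut.conj x).toMonoidHom)).map (A ⊔ A.map (MulAut.conj x).toMonoidHom).subtype ∧ (Cfsg.pResidual p ↥(A ⊔ A.map (MulAut.conj x).toMonoidHom)).map (A ⊔ A.map (MulAut.conj x).toMonoidHom).subtype ≤ (Cfsg.pPrimeCore p (M ⧸ Cfsg.pCore p M)).comap (QuotientGroup.mk' (Cfsg.pCore p M)) ∧ ⁅(Cfsg.pResidual p ↥(A ⊔ A.map (MulAut.conj x).toMonoidHom)).map (A ⊔ A.map (MulAut.conj x).toMonoidHom).subtype, A⁆ = (Cfsg.pResidual p ↥(A ⊔ A.map (MulAut.conj x).toMonoidHom)).map (A ⊔ A.map (MulAut.conj x).toMonoidHom).subtype ∧ (A ⊓ (Cfsg.pCore p ↥(A ⊔ A.map (MulAut.conj x).toMonoidHom)).map (A ⊔ A.map (MulAut.conj x).toMonoidHom).subtype).relIndex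 A = p ∧ ⁅A ⊓ (Cfsg.pCore p ↥(A ⊔ A.map (MulAut.conj x).toMonoidHom)).map (A ⊔ A.map (MulAut.conj x).toMonoidHom).subtype, A ⊔ A.map (MulAut.conj x).toMonoidHom⁆ ≤ Cfsg.pCore p M := by
  have hp : p.Prime := Fact.out
  set O := Cfsg.pCore p M with hO
  set f := QuotientGroup.mk' O with hf
  have hker : f.ker = O := QuotientGroup.ker_mk' O
  have hkp : IsPGroup p f.ker := by rw [hker]; exact isPGroup_pCore p M
  obtain ⟨hAA, hAp⟩ := (map_frattini_le_iff_of_isPGroup hA).1 hΦ
  have hAe : Cfsg.IsElementaryAbelian p (A.map f) := by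
    refine ⟨isMulCommutative_iff_forall.2 fun a ha b hb => ?_, ?_⟩
    · exact (((commutator_le_iff_map_mk' O).1 hAA) ha b hb).symm
    · rintro _ ⟨a, ha, rfl⟩
      rw [← map_pow, ← MonoidHom.mem_ker, hker]
      exact hAp a ha
  have hA1 : A.map f ≠ ⊥ := fun h => hnot (hker ▸ (Subgroup.map_eq_bot_iff A).1 h)
  obtain ⟨B, W, hBA, hBi, hWQ, hAW, hWB, hWA, hW1, hx⟩ :=
    bar (CfsgLib.PLocal.PSolv.quotient hM O) (pCore_quotient_pCore p M) _ hAe hA1
  have hWc : (Nat.card W).Coprime p :=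
    Nat.Coprime.coprime_dvd_left (card_dvd_of_le hWQ) (coprime_card_pPrimeCore p _)
  obtain ⟨L, -, ⟨hAL, hLf⟩, hmin⟩ := exists_minimal
    (fun L : Subgroup M => A ≤ L ∧ L.map f = W ⊔ A.map f) (A := (W ⊔ A.map f).comap f)
    ⟨(le_comap_map f A).trans (comap_mono le_sup_right),
      map_comap_eq_self_of_surjective (QuotientGroup.mk'_surjective O) _⟩
  set R := (Cfsg.pResidual p L).map L.subtype with hR
  have hRL : R ≤ L := map_subtype_le _
  have hLR : L ≤ normalizer (R : Set M) := by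
    have := CfsgLib.Transfer.pResidual_normal p L
    exact le_normalizer_map_subtype_of_normal _
  have hRf : R.map f = W := by
    apply le_antisymm
    · rw [hR, CfsgLib.Transfer.map_pResidual_eq_closure, map_le_iff_le_comap, closure_le]
      rintro g ⟨hgL, hg⟩
      have h1 : zpowers (f g) ≤ W ⊔ A.map f := zpowers_le_of_mem (hLf ▸ mem_map_of_mem f hgL)
      refine CfsgLib.Coprime.le_of_coprime_relIndex (sup_le le_normalizer hAW) h1 ?_ (mem_zpowers _)
      refine Nat.Coprime.coprime_dvd_right (CfsgLib.Coprime.relIndex_dvd_of_le_sup hAW le_rfl) ?_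
      rw [Nat.card_zpowers]
      exact (isPGroup_coprime_card (hA.map f)
        (Nat.Coprime.coprime_dvd_left (orderOf_map_dvd f g) hg)).symm
    · intro w hw
      obtain ⟨l, hl, rfl⟩ : w ∈ L.map f := hLf ▸ mem_sup_left hw
      obtain ⟨k, hk⟩ := CfsgLib.Transfer.exists_pow_mem_pResidual (p := p) (⟨l, hl⟩ : L)
      have h1 : f l ^ p ^ k ∈ R.map f := by
        rw [← map_pow]
        exact mem_map_of_mem f (mem_map_of_mem L.subtype hk)
      have h2 : f l ^ Nat.card W ∈ R.map f := by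
        rw [orderOf_dvd_iff_pow_eq_one.1 (W.orderOf_dvd_natCard hw)]
        exact one_mem _
      exact CfsgLib.SolvStruct.mem_of_pow_mem_of_coprime h1 h2 (hWc.symm.pow_left k)
  have hnc : ¬ W ≤ centralizer ((A.map f : Subgroup (M ⧸ O)) : Set (M ⧸ O)) := fun h =>
    hW1 (hWA ▸ commutator_eq_bot_iff_le_centralizer.2 h)
  obtain ⟨w, hwW, hwC⟩ := SetLike.not_le_iff_exists.1 hnc
  obtain ⟨x, hxR, rfl⟩ : w ∈ R.map f := hRf ▸ hwW
  have hLx : A ⊔ A.map (MulAut.conj x).toMonoidHom = L := by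
    refine hmin _ ⟨le_sup_left, ?_⟩
      (sup_le hAL (CfsgLib.SolvStruct.conj_smul_le_of_mem hAL (hRL hxR)))
    rw [← hx _ hwW hwC, Subgroup.map_sup]
    congr 1
    rw [conj_smul_eq_map, map_map, map_map]
    congr 1
  refine ⟨x, hWQ hwW, ?_⟩
  rw [hLx]
  have hAD : A ⊓ (Cfsg.pCore p L).map L.subtype = A ⊓ B.comap f := by
    apply le_antisymm
    · set D := (Cfsg.pCore p L).map L.subtype with hD
      have hDL : D ≤ L := map_subtype_le _
      have hLD : L ≤ normalizer (D : Set M) :=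
        le_normalizer.trans (normalizer_le_normalizer_map_pCore L)
      have h1 : D.map f ≤ centralizer (W : Set (M ⧸ O)) := by
        refine le_centralizer_of_le_normalizer_of_disjoint ?_ ?_
          (isPGroup_inf_eq_bot_of_coprime ((isPGroup_map_pCore L).map f) hWc)
        · exact (map_mono hDL).trans (hLf.le.trans (sup_le le_normalizer hAW))
        · exact le_trans (le_sup_left.trans hLf.ge) (CfsgLib.Coprime.le_normalizer_map_of_le f hLD)
      have h2 : A.map f ⊓ centralizer (W : Set (M ⧸ O)) = B := by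
        rcases eq_or_eq_of_relIndex_prime (by rw [hBi]; exact hp) (le_inf hBA (le_centralizer_iff.1 hWB))
          inf_le_left with h | h
        · exact h
        · exact absurd (le_centralizer_iff.1 (h.ge.trans inf_le_right)) hnc
      rintro a ⟨ha, haD⟩
      refine ⟨ha, ?_⟩
      rw [← h2]
      exact ⟨mem_map_of_mem f ha, h1 (mem_map_of_mem f haD)⟩
    · refine le_inf inf_le_left (le_trans (inf_le_inf_right _ hAL) (le_map_pCore inf_le_left ?_ ?_))
      · refine CfsgLib.Coprime.le_normalizer_inf le_normalizer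
          (CfsgLib.Coprime.le_normalizer_comap_of_le f ?_)
        rw [hLf]
        have := hAe.1
        exact le_trans (sup_le hWB ((le_centralizer _).trans (centralizer_le hBA)))
          (Subgroup.centralizer_le_normalizer _)
      · exact (((isElementaryAbelian_isPGroup hAe).to_le hBA).comap_of_ker_isPGroup f
          hkp).to_inf_right
  refine ⟨hxR, ?_, ?_, ?_, ?_⟩
  · rw [← map_le_iff_le_comap, hRf]
    exact hWQ
  · have hAR : A ≤ normalizer (R : Set M) := hAL.trans hLR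
    have h1 : ⁅R, A⁆ ≤ R := CfsgLib.Coprime.commutator_le_of_le_normalizer hAR
    refine le_antisymm h1 ?_
    have hAn : A ≤ normalizer ((⁅R, A⁆ : Subgroup M) : Set M) :=
      CfsgLib.Coprime.le_normalizer_commutator hAR le_normalizer
    have h2 : ⁅R, A⁆ ⊔ A = L := by
      refine hmin _ ⟨le_sup_right, ?_⟩ (sup_le (h1.trans hRL) hAL)
      rw [Subgroup.map_sup, map_commutator, hRf, hWA]
    refine le_trans (CfsgLib.Transfer.map_pResidual_eq_closure L).le ?_
    rw [closure_le]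
    rintro g ⟨hgL, hg⟩
    have h3 : zpowers g ≤ ⁅R, A⁆ ⊔ A := zpowers_le_of_mem (h2 ▸ hgL)
    refine CfsgLib.Coprime.le_of_coprime_relIndex (sup_le le_normalizer hAn) h3 ?_ (mem_zpowers _)
    refine Nat.Coprime.coprime_dvd_right (CfsgLib.Coprime.relIndex_dvd_of_le_sup hAn le_rfl) ?_
    rw [Nat.card_zpowers]
    exact (isPGroup_coprime_card hA hg).symm
  · rw [hAD, inf_comm, inf_relIndex_right, relIndex_comap, hBi]
  · rw [hAD, commutator_le_iff_map_mk', hLf]
    have := hAe.1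
    refine le_trans (map_le_iff_le_comap.2 inf_le_right) (le_centralizer_iff.1 ?_)
    exact sup_le hWB ((le_centralizer _).trans (centralizer_le hBA))

end Cfsg.Agent.S3754
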