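import Cfsg.Statements.S3760
-- import your own Cfsg.Agent.* helpers here

set_option autoImplicit false
open Cfsg

namespace Cfsg.Agent.S3760

/-- Let the group G act transitively on a set X, let x ∈ X with stabilizer H = G_x, and let K ≤ H. Then N_G(K) acts transitively on the set of fixed points of K if and only if every G-conjugate of K contained in H is already an H-conjugate of K. -/
theorem result {G : Type*} [Group G] {X : Type*} [MulAction G X] (htrans : ∀ a b : X, ∃ g : G, g • a = b) (x : X) (K : Subgroup G) (hK : K ≤ MulAction.stabilizer G x) : (∀ a b : X, (∀ k ∈ K, k • a = a) → (∀ k ∈ K, k • b = b) → ∃ g ∈ Subgroup.normalizer (K : Set G), g • a = b) ↔ ∀ g : G, K.map (MulAut.conj g).toMonoidHom ≤ MulAction.stabilizer G x → ∃ h ∈ MulAction.stabilizer G x, K.map (MulAut.conj g).toMonoidHom = K.map (MulAut.conj h).toMonoidHom := by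
  have key : ∀ (g : G) (a : X), (∀ k ∈ K, k • a = a) → g • a = x →
      K.map (MulAut.conj g).toMonoidHom ≤ MulAction.stabilizer G x := by
    intro g a ha hg y hy
    obtain ⟨k, hk, rfl⟩ := hy
    simp only [MulEquiv.coe_toMonoidHom, MulAut.conj_apply, MulAction.mem_stabilizer_iff]
    rw [← hg, mul_smul, mul_smul, inv_smul_smul, ha k hk]
  have hnorm : ∀ g h : G, K.map (MulAut.conj g).toMonoidHom = K.map (MulAut.conj h).toMonoidHom →
      h⁻¹ * g ∈ Subgroup.normalizer (K : Set G) := by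
    intro g h hgh
    rw [Subgroup.mem_normalizer_iff]
    intro k
    constructor
    · intro hk
      have : g * k * g⁻¹ ∈ K.map (MulAut.conj h).toMonoidHom := hgh ▸ ⟨k, hk, rfl⟩
      obtain ⟨k', hk', e⟩ := this
      simp only [MulEquiv.coe_toMonoidHom, MulAut.conj_apply] at e
      have : h⁻¹ * g * k * (h⁻¹ * g)⁻¹ = k' := by
        rw [show h⁻¹ * g * k * (h⁻¹ * g)⁻¹ = h⁻¹ * (g * k * g⁻¹) * h by group, ← e]; group
      rw [this]; exact hk'
    · intro hk
      have : h * (h⁻¹ * g * k * (h⁻¹ * g)⁻¹) * h⁻¹ ∈ K.map (MulAut.conj g).toMonoidHom :=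
        hgh ▸ ⟨_, hk, rfl⟩
      obtain ⟨k', hk', e⟩ := this
      simp only [MulEquiv.coe_toMonoidHom, MulAut.conj_apply] at e
      have : k = k' := by
        have e2 : h * (h⁻¹ * g * k * (h⁻¹ * g)⁻¹) * h⁻¹ = g * k * g⁻¹ := by group
        rw [e2] at e
        exact (mul_left_cancel (mul_right_cancel e)).symm
      rw [this]; exact hk'
  constructor
  · intro h g hg
    have h1 : ∀ k ∈ K, k • (g⁻¹ • x) = g⁻¹ • x := by
      intro k hk
      have : g * k * g⁻¹ ∈ MulAction.stabilizer G x := hg ⟨k, hk, rfl⟩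
      rw [MulAction.mem_stabilizer_iff, mul_smul, mul_smul] at this
      rw [eq_inv_smul_iff, this]
    obtain ⟨n, hn, hn2⟩ := h x (g⁻¹ • x) (fun k hk => hK hk) h1
    refine ⟨g * n, ?_, ?_⟩
    · rw [MulAction.mem_stabilizer_iff, mul_smul, hn2, smul_inv_smul]
    · rw [Subgroup.mem_normalizer_iff] at hn
      ext y
      constructor
      · rintro ⟨k, hk, rfl⟩
        refine ⟨n⁻¹ * k * n, ?_, ?_⟩
        · apply (hn _).2
          have : n * (n⁻¹ * k * n) * n⁻¹ = k := by group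
          rw [this]; exact hk
        · simp only [MulEquiv.coe_toMonoidHom, MulAut.conj_apply]; group
      · rintro ⟨k, hk, rfl⟩
        refine ⟨n * k * n⁻¹, (hn _).1 hk, ?_⟩
        simp only [MulEquiv.coe_toMonoidHom, MulAut.conj_apply]; group
  · intro h a b ha hb
    obtain ⟨g₁, hg₁⟩ := htrans a x
    obtain ⟨g₂, hg₂⟩ := htrans b x
    obtain ⟨h₁, hh₁, e₁⟩ := h g₁ (key g₁ a ha hg₁)
    obtain ⟨h₂, hh₂, e₂⟩ := h g₂ (key g₂ b hb hg₂)
    refine ⟨(h₂⁻¹ * g₂)⁻¹ * (h₁⁻¹ * g₁),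
      mul_mem (inv_mem (hnorm _ _ e₂)) (hnorm _ _ e₁), ?_⟩
    have i₁ : h₁⁻¹ • x = x := (MulAction.stabilizer G x).inv_mem hh₁
    have i₂ : h₂⁻¹ • x = x := (MulAction.stabilizer G x).inv_mem hh₂
    rw [mul_smul, inv_smul_eq_iff, mul_smul, mul_smul, hg₁, hg₂, i₁, i₂]

end Cfsg.Agent.S3760
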