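import Cfsg.Statements.S3761
import Cfsg.Agent.Lib.PGroup.Symplectic

set_option autoImplicit false
open Cfsg

namespace Cfsg.Agent.S3761

/-- Let G be a finite non-abelian p-group with a cyclic normal subgroup U of order p^n such that C_G(U) = U. Then either p = 2 and G is dihedral, generalized quaternion or semidihedral of order 2^(n+1); or, writing U₁ for the subgroup generated by the p-th powers of elements of U and M = C_G(U₁), the subgroup U has index p in M and the subgroup Ω₁(M) generated by the elements of M of order dividing p is elementary abelian of order p² and characteristic in G. -/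
theorem result {G : Type*} [Group G] [Finite G] {p : ℕ} [Fact p.Prime] (hG : IsPGroup p G) (hna : ¬ IsMulCommutative G) (U : Subgroup G) [U.Normal] (hU : IsCyclic U) (n : ℕ) (hUn : Nat.card U = p ^ n) (hC : Subgroup.centralizer (U : Set G) = U) : (p = 2 ∧ Nat.card G = 2 ^ (n + 1) ∧ ((∃ m : ℕ, Nonempty (G ≃* DihedralGroup m)) ∨ (∃ m : ℕ, Nonempty (G ≃* QuaternionGroup m)) ∨ Cfsg.IsQuasiDihedral G)) ∨ (U.relIndex (Subgroup.centralizer (Cfsg.powerClosure p 1 U : Set G)) = p ∧ Cfsg.IsElementaryAbelian p (Cfsg.omegaOne p (Subgroup.centralizer (Cfsg.powerClosure p 1 U : Set G))) ∧ Nat.card ↥(Cfsg.omegaOne p (Subgroup.centralizer (Cfsg.powerClosure p 1 U : Set G))) = p ^ 2 ∧ (Cfsg.omegaOne p (Subgroup.centralizer (Cfsg.powerClosure p 1 U : Set G))).Characteristic) := by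
  obtain ⟨a, rfl⟩ := (Subgroup.isCyclic_iff_exists_zpowers_eq_top _).1 hU
  rw [Nat.card_zpowers] at hUn
  rw [CfsgLib.Core.centralizer_zpowers] at hC
  have hne : Subgroup.zpowers a ≠ ⊤ := fun h =>
    have := isCyclic_iff_exists_zpowers_eq_top.2 ⟨a, h⟩
    hna inferInstance
  have h1 : Cfsg.powerClosure p 1 (Subgroup.zpowers a) = Subgroup.zpowers (a ^ p) := by
    refine le_antisymm ((Subgroup.closure_le _).2 ?_) (Subgroup.zpowers_le.2
      (Subgroup.subset_closure ⟨a, Subgroup.mem_zpowers a, by rw [pow_one]⟩))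
    rintro _ ⟨_, ⟨i, rfl⟩, rfl⟩
    exact ⟨i, by simp only; rw [pow_one]; group⟩
  rw [h1, CfsgLib.Core.centralizer_zpowers]
  rcases CfsgLib.PGroup.modular_or_dihedral_type_of_scn_cyclic hG hC.le hne hUn with
    ⟨hm, hm3, t, ht, htp, htC⟩ | ⟨rfl, hi, hm, b, hb, h⟩
  · exact Or.inr (CfsgLib.PGroup.omegaOne_centralizer_pow_of_modular hG hC.le hUn hm hm3 ht htp htC)
  refine Or.inl ⟨rfl, ?_, ?_⟩
  · rw [← (Subgroup.zpowers a).card_mul_index, hi, Nat.card_zpowers, hUn, pow_succ]
  rcases h with h | h | h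
  · exact Or.inl ⟨_, CfsgLib.Frob.nonempty_dihedral_of_gens hi hUn hb h.1 h.2⟩
  · exact Or.inr (Or.inl ⟨_, CfsgLib.Frob.nonempty_quaternion_of_gens hi hUn hb (by omega) h.1 h.2⟩)
  · exact Or.inr (Or.inr (CfsgLib.Frob.isQuasiDihedral_of_gens hi hUn hb h.1 h.2.1 h.2.2))

end Cfsg.Agent.S3761
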