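import Cfsg.Statements.S3763
import Cfsg.Agent.Lib.ExtraTwo.Classify

set_option autoImplicit false
open Cfsg

namespace Cfsg.Agent.S3763

/-- Let E be an extraspecial 2-group of order 2^(2n+1). Then the largest elementary abelian subgroups of E have order 2^n or 2^(n+1); and two extraspecial 2-groups of the same order whose largest elementary abelian subgroups have the same order are isomorphic. -/
theorem result {E : Type*} [Group E] [Finite E] (hE : Cfsg.IsExtraspecial 2 E) (n : ℕ) (hn : Nat.card E = 2 ^ (2 * n + 1)) : ((Cfsg.PRankLE 2 n E ∧ ¬ Cfsg.PRankLE 2 (n - 1) E) ∨ (Cfsg.PRankLE 2 (n + 1) E ∧ ¬ Cfsg.PRankLE 2 n E)) ∧ ∀ (E' : Type*) [Group E'] [Finite E'], Cfsg.IsExtraspecial 2 E' → Nat.card E' = Nat.card E → (∀ k : ℕ, Cfsg.PRankLE 2 k E ↔ Cfsg.PRankLE 2 k E') → Nonempty (E ≃* E') := by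
  have key : ∀ {X : Type _} [Group X] {k : ℕ},
      (∃ A ≤ (⊤ : Subgroup X), Cfsg.IsElementaryAbelian 2 A ∧ Nat.card A = 2 ^ (k + 1)) →
        ¬ Cfsg.PRankLE 2 k X := by
    rintro X _ k ⟨A, -, hA, hc⟩ h
    have := h A hA.1 hA.2
    rw [hc, Nat.pow_le_pow_iff_right one_lt_two] at this
    omega
  obtain ⟨z, e⟩ := CfsgLib.ExtraTwo.exists_ES_top hE
  obtain ⟨hn1, t⟩ := e.plus_or_minus (n := n) (by rw [Subgroup.card_top, hn])
  obtain ⟨k, rfl⟩ : ∃ k, n = k + 1 := ⟨n - 1, by omega⟩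
  refine ⟨?_, fun E' _ _ hE' hc h => ?_⟩
  · rcases t with t | t
    · exact Or.inr ⟨fun A _ hA => t.card_le A le_top hA, key t.exists_elem⟩
    · exact Or.inl ⟨fun A _ hA => t.card_le A le_top hA, key t.exists_elem⟩
  obtain ⟨z', e'⟩ := CfsgLib.ExtraTwo.exists_ES_top hE'
  obtain ⟨-, t'⟩ := e'.plus_or_minus (n := k + 1) (by rw [Subgroup.card_top, hc, hn])
  rcases t with t | t <;> rcases t' with t' | t'
  · exact CfsgLib.ExtraTwo.nonempty_mulEquiv_of_top (t.nonempty_mulEquiv t')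
  · exact absurd ((h _).2 fun A _ hA => t'.card_le A le_top hA) (key t.exists_elem)
  · obtain ⟨A, -, hA, hc⟩ := t'.exists_elem
    have := (h _).1 (fun A _ hA => t.card_le A le_top hA) A hA.1 hA.2
    rw [hc, Nat.pow_le_pow_iff_right one_lt_two] at this
    omega
  · exact CfsgLib.ExtraTwo.nonempty_mulEquiv_of_top (t.nonempty_mulEquiv t')

end Cfsg.Agent.S3763
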