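import Cfsg.Statements.S3764
import Mathlib
import Cfsg.Agent.Lib.HH.Ambient

set_option autoImplicit false
open Cfsg

namespace Cfsg.Agent.S3764

open CfsgLib.HH CfsgLib.PLocal


/-- Let p, q, r be distinct primes and let X, Q, V be subgroups of a finite group with X of order r, Q an extraspecial q-group normalized by X with C_Q(X) = Z(Q), and V an elementary abelian p-group normalized by X and Q on which XQ acts faithfully ((X ⊔ Q) ∩ C(V) = 1). If C_V(X) = 1, then q = 2, r = 2^n + 1 for some n, and Q has order 2^(2n+1). -/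
theorem result {G : Type*} [Group G] [Finite G] {p q r : ℕ} (hp : p.Prime) (hq : q.Prime) (hr : r.Prime) (hpq : p ≠ q) (hpr : p ≠ r) (hqr : q ≠ r) (X Q V : Subgroup G) (hX : Nat.card X = r) (hQ : Cfsg.IsExtraspecial q ↥Q) (hXQ : X ≤ Subgroup.normalizer (Q : Set G)) (hCQ : Q ⊓ Subgroup.centralizer (X : Set G) = (Subgroup.center ↥Q).map Q.subtype) (hV : Cfsg.IsElementaryAbelian p V) (hXV : X ≤ Subgroup.normalizer (V : Set G)) (hQV : Q ≤ Subgroup.normalizer (V : Set G)) (hfaith : (X ⊔ Q) ⊓ Subgroup.centralizer (V : Set G) = ⊥) (hCV : V ⊓ Subgroup.centralizer (X : Set G) = ⊥) : q = 2 ∧ ∃ n : ℕ, r = 2 ^ n + 1 ∧ Nat.card Q = 2 ^ (2 * n + 1) := by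
  haveI := Fact.mk hp
  haveI := Fact.mk hq
  obtain ⟨x, rfl, hx⟩ := exists_zpowers_eq_of_prime_card hr hX
  have hxX := Subgroup.mem_zpowers x
  rw [CfsgLib.Core.map_subtype_center, CfsgLib.Core.centralizer_zpowers] at hCQ
  rw [CfsgLib.Core.centralizer_zpowers] at hCV
  haveI := elem_finiteDimensional hV
  have hxr : x ^ r = 1 := by rw [← hx, pow_orderOf_eq_one]
  obtain ⟨N, hN1, e1, -, e3⟩ := extraspecial_count' (ElemMod.rep hV le_rfl)
    (natCast_zmod_ne_zero hp hq hpq) Q hQV hQ ⟨x, hXV hxX⟩ (hXQ hxX) r hr.two_le hxr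
    ((Nat.coprime_primes hr hq).2 hqr.symm)
    (by
      intro z hz e
      rw [ElemMod.rep_eq_one_iff] at e
      exact Subtype.ext (Subgroup.mem_bot.1 (hfaith ▸ (⟨(le_sup_right : Q ≤ _) hz, e⟩ :
        (z : G) ∈ (Subgroup.zpowers x ⊔ Q) ⊓ Subgroup.centralizer (V : Set G)))))
    (by
      intro z hz
      rw [← hCQ] at hz
      exact (Subgroup.mem_centralizer_singleton_iff.1 hz.2).symm)
    (by
      intro i hi0 hi a ha e
      have h1 : x ∈ Subgroup.zpowers (x ^ i) := by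
        rw [mem_zpowers_pow_iff, hx]
        exact ((Nat.Prime.coprime_iff_not_dvd hr).2 (Nat.not_dvd_of_pos_of_lt hi0 hi)).symm
      obtain ⟨k, hk⟩ := h1
      have h2 : a ∈ Q ⊓ Subgroup.centralizer {x} := by
        refine ⟨ha, Subgroup.mem_centralizer_singleton_iff.2 ?_⟩
        rw [← hk]
        exact ((Commute.zpow_left (show Commute (x ^ i) a from e) k).eq).symm
      rw [hCQ] at h2
      exact h2.2)
  rcases e3 with e3 | e3
  · exfalso
    refine e3 (elem_sum_eq_zero hV le_rfl ⟨x, hXV hxX⟩ r (by rw [hxr]; exact one_mem _) ?_)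
    intro v hv e
    rw [← Subgroup.mem_bot, ← hCV]
    exact ⟨hv, Subgroup.mem_centralizer_singleton_iff.2 e.symm⟩
  · obtain ⟨m, hm⟩ := IsPGroup.iff_card.1 hQ.1.1
    have h3 : N ∣ q ^ m := by
      rw [← hm, ← e1]
      exact (dvd_pow_self _ two_ne_zero).trans (dvd_mul_right _ _)
    obtain ⟨n, -, rfl⟩ := (Nat.dvd_prime_pow hq).1 h3
    have hn : 1 ≤ n := by
      rcases n with _ | n
      · exact absurd rfl hN1
      · omega
    obtain rfl := eq_two_of_prime_eq_pow_add_one hq hr hn e3.symm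
    exact ⟨rfl, n, e3.symm, by rw [← e1]; ring⟩

end Cfsg.Agent.S3764
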