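import Cfsg.Statements.S3765
import Mathlib
import Cfsg.Agent.Lib.HH.Ambient

set_option autoImplicit false
open Cfsg

namespace Cfsg.Agent.S3765

open CfsgLib.HH


/-- Let p, q, r be distinct primes and let X, Q, V be subgroups of a finite group with X of order r normalizing the q-group Q and acting faithfully on it (X ∩ C(Q) = 1), and V a nontrivial elementary abelian p-group normalized by X and Q on which XQ acts faithfully. If q = 2 and r has the form 2^n + 1, assume in addition that Q is abelian. Then C_V(X) ≠ 1. -/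
theorem result {G : Type*} [Group G] [Finite G] {p q r : ℕ} (hp : p.Prime) (hq : q.Prime) (hr : r.Prime) (hpq : p ≠ q) (hpr : p ≠ r) (hqr : q ≠ r) (X Q V : Subgroup G) (hX : Nat.card X = r) (hQ : IsPGroup q Q) (hXQ : X ≤ Subgroup.normalizer (Q : Set G)) (hXfaith : X ⊓ Subgroup.centralizer (Q : Set G) = ⊥) (hV : Cfsg.IsElementaryAbelian p V) (hV1 : V ≠ ⊥) (hXV : X ≤ Subgroup.normalizer (V : Set G)) (hQV : Q ≤ Subgroup.normalizer (V : Set G)) (hfaith : (X ⊔ Q) ⊓ Subgroup.centralizer (V : Set G) = ⊥) (hexc : q = 2 → (∃ n : ℕ, r = 2 ^ n + 1) → IsMulCommutative Q) : V ⊓ Subgroup.centralizer (X : Set G) ≠ ⊥ := by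
  intro hCV
  obtain ⟨x, rfl, hx⟩ := exists_zpowers_eq_of_prime_card hr hX
  have hxX := Subgroup.mem_zpowers x
  have hx1 : x ≠ 1 := by
    rintro rfl
    rw [orderOf_one] at hx
    exact hr.one_lt.ne hx
  have hcC : ∀ g ∈ Q, g ∈ Subgroup.centralizer (V : Set G) → g = 1 := fun g hg h =>
    Subgroup.mem_bot.1 (hfaith ▸ (⟨(le_sup_right : Q ≤ _) hg, h⟩ :
      g ∈ (Subgroup.zpowers x ⊔ Q) ⊓ Subgroup.centralizer (V : Set G)))
  obtain ⟨h2, ⟨k, -, hk⟩, g, hg, g', hg', hne⟩ := fermat_of_fpf hp hq hr hqr.symm hpq hV hQ hQV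
    (hXV hxX) (hXQ hxX) (by rw [← hx, pow_orderOf_eq_one]; exact one_mem _)
    (by
      intro v hv e
      rw [← Subgroup.mem_bot, ← hCV, CfsgLib.Core.centralizer_zpowers]
      exact ⟨hv, Subgroup.mem_centralizer_singleton_iff.2 e.symm⟩)
    (by
      by_contra hall
      push Not at hall
      apply hx1
      rw [← Subgroup.mem_bot, ← hXfaith]
      refine ⟨hxX, fun g hg => ?_⟩
      have := hcC _ (Q.mul_mem ((Subgroup.mem_normalizer_iff.1 (hXQ hxX) g).1 hg) (Q.inv_mem hg))
        (hall g hg)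
      rw [mul_inv_eq_one, mul_inv_eq_iff_eq_mul] at this
      exact this.symm)
  apply hne
  haveI := hexc h2 ⟨k, hk⟩
  rw [CfsgLib.Core.isMulCommutative_iff_forall.1 this g hg g' hg']
  simp

end Cfsg.Agent.S3765
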