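import Cfsg.Statements.S3766
import Mathlib
import Cfsg.Agent.Lib.Core.MinNormal
import Cfsg.Agent.Lib.Core.Commutator

set_option autoImplicit false
open Cfsg

namespace Cfsg.Agent.S3766

open Subgroup CfsgLib.Core

theorem chief_central {G : Type*} [Group G] {K U V : Subgroup G} [K.Normal] [Group.IsNilpotent K]
    [U.Normal] [V.Normal] (hVU : V ≤ U)
    (h : ∀ W : Subgroup G, W.Normal → V ≤ W → W ≤ U → W = V ∨ W = U) : ⁅U, K⁆ ≤ V := by
  rcases h (⁅U, K⁆ ⊔ V) inferInstance le_sup_right (sup_le (commutator_le_left _ _) hVU) with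
    h1 | h1
  · exact le_sup_left.trans h1.le
  · haveI := isNilpotent_map (QuotientGroup.mk' V) K
    have h2 : U.map (QuotientGroup.mk' V) ≤
        ⁅U.map (QuotientGroup.mk' V), K.map (QuotientGroup.mk' V)⁆ := by
      conv_lhs => rw [← h1]
      rw [Subgroup.map_sup, QuotientGroup.map_mk'_self, sup_bot_eq, map_commutator]
    have h3 : U.map (QuotientGroup.mk' V) ≤ K.map (QuotientGroup.mk' V) := by
      haveI := (Subgroup.Normal.map ‹K.Normal› (QuotientGroup.mk' V) (QuotientGroup.mk'_surjective V))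
      exact h2.trans (commutator_le_right _ _)
    have h4 := eq_bot_of_le_commutator_of_isNilpotent h3 h2
    rw [Subgroup.map_eq_bot_iff, QuotientGroup.ker_mk'] at h4
    exact (commutator_le_left _ _).trans h4

theorem nilpotent_of_chief {G : Type*} [Group G] [Finite G] {K F : Subgroup G} [K.Normal]
    (hKF : ⁅K, K⁆ ≤ F)
    (h : ∀ U V : Subgroup G, U.Normal → V.Normal → V < U →
      (∀ W : Subgroup G, W.Normal → V ≤ W → W ≤ U → W = V ∨ W = U) → U ≤ F → ⁅U, K⁆ ≤ V) :
    Group.IsNilpotent K := by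
  have hn : ∀ n, (K.lowerCentralSeries n).Normal := by
    intro n
    induction n with
    | zero => assumption
    | succ n ih => rw [Subgroup.lowerCentralSeries_succ]; infer_instance
  obtain ⟨_, ⟨n, rfl⟩, hmin⟩ := (wellFounded_lt (α := Subgroup G)).has_min
    (Set.range fun n => K.lowerCentralSeries (n + 1)) ⟨_, 0, rfl⟩
  refine (isNilpotent_iff_lowerCentralSeries K).2 ⟨n + 1, ?_⟩
  by_contra hne
  haveI := hn (n + 1)
  obtain ⟨V, hV, hmax⟩ := (wellFounded_gt (α := Subgroup G)).has_min
    {V | V.Normal ∧ V < K.lowerCentralSeries (n + 1)} ⟨⊥, inferInstance, bot_lt_iff_ne_bot.2 hne⟩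
  have h1 := h (K.lowerCentralSeries (n + 1)) V (hn _) hV.1 hV.2 (by
    intro W hW hVW hWU
    by_contra hc
    push Not at hc
    exact hmax W ⟨hW, lt_of_le_of_ne hWU hc.2⟩ (lt_of_le_of_ne hVW hc.1.symm))
    ((K.lowerCentralSeries_antitone (Nat.le_add_left 1 n)).trans hKF)
  exact hmin _ ⟨n + 1, rfl⟩ (lt_of_le_of_lt h1 hV.2)


/-- Let G be a finite solvable group and N a normal subgroup of G. Call a pair V < U of normal subgroups of G a chief factor of G when no normal subgroup of G lies strictly between them; an element g centralizes the chief factor U/V when u g u⁻¹ g⁻¹ ∈ V for all u ∈ U. Then an element of G lies in the Fitting subgroup F(N) if and only if it lies in N and centralizes every chief factor of G; and also if and only if it lies in N and centralizes every chief factor U/V of G with U ≤ F(N). -/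
theorem result {G : Type*} [Group G] [Finite G] (hG : Group.IsSolvable G) (N : Subgroup G) [N.Normal] (g : G) : (g ∈ (Cfsg.fittingSubgroup ↥N).map N.subtype ↔ g ∈ N ∧ ∀ U V : Subgroup G, (U.Normal ∧ V.Normal ∧ V < U ∧ ∀ W : Subgroup G, W.Normal → V ≤ W → W ≤ U → W = V ∨ W = U) → ∀ u ∈ U, u * g * u⁻¹ * g⁻¹ ∈ V) ∧ (g ∈ (Cfsg.fittingSubgroup ↥N).map N.subtype ↔ g ∈ N ∧ ∀ U V : Subgroup G, (U.Normal ∧ V.Normal ∧ V < U ∧ ∀ W : Subgroup G, W.Normal → V ≤ W → W ≤ U → W = V ∨ W = U) → U ≤ (Cfsg.fittingSubgroup ↥N).map N.subtype → ∀ u ∈ U, u * g * u⁻¹ * g⁻¹ ∈ V) := by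
  set F := (Cfsg.fittingSubgroup ↥N).map N.subtype with hF
  haveI : F.Normal := map_fittingSubgroup_normal N
  haveI : Group.IsNilpotent F := isNilpotent_map_fittingSubgroup N
  have hFN : F ≤ N := map_subtype_le _
  have h1 : g ∈ F → ∀ U V : Subgroup G, (U.Normal ∧ V.Normal ∧ V < U ∧
      ∀ W : Subgroup G, W.Normal → V ≤ W → W ≤ U → W = V ∨ W = U) →
      ∀ u ∈ U, u * g * u⁻¹ * g⁻¹ ∈ V := by
    rintro hg U V ⟨hU, hV, hVU, h⟩ u hu
    exact chief_central (K := F) hVU.le h (commutator_mem_commutator hu hg)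
  have h2 : g ∈ N → (∀ U V : Subgroup G, (U.Normal ∧ V.Normal ∧ V < U ∧
      ∀ W : Subgroup G, W.Normal → V ≤ W → W ≤ U → W = V ∨ W = U) → U ≤ F →
      ∀ u ∈ U, u * g * u⁻¹ * g⁻¹ ∈ V) → g ∈ F := by
    intro hgN hg
    by_contra hgF
    set C := normalClosure ({g} : Set G) ⊔ F with hC
    have hgC : g ∈ C := (le_sup_left : _ ≤ C) (subset_normalClosure rfl)
    have hCN : C ≤ N := sup_le (normalClosure_le_normal (by simpa using hgN)) hFN
    have hFC : F < C := lt_of_le_of_ne le_sup_right (fun h => hgF (h ▸ hgC))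
    obtain ⟨K, hK, hFK, hKC, hmin⟩ := exists_minimal_normal_over hFC
    have hKK : ⁅K, K⁆ ≤ F := by
      rcases hmin (⁅K, K⁆ ⊔ F) inferInstance le_sup_right
        (sup_le (commutator_le_left _ _) hFK.le) with h | h
      · exact le_sup_left.trans h.le
      · exfalso
        have h3 : K.map (QuotientGroup.mk' F) ≠ ⊥ := by
          rw [Ne, Subgroup.map_eq_bot_iff, QuotientGroup.ker_mk']
          exact hFK.not_ge
        have h4 := commutator_self_lt_of_isSolvable h3
        apply h4.ne'
        conv_lhs => rw [← h]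
        rw [Subgroup.map_sup, QuotientGroup.map_mk'_self, sup_bot_eq, map_commutator]
    have hnil : Group.IsNilpotent K := by
      refine nilpotent_of_chief hKK fun U V hU hV hVU h hUF => ?_
      refine (commutator_mono le_rfl hKC).trans ?_
      rw [hC, commutator_sup_right]
      refine sup_le ?_ (chief_central hVU.le h)
      rw [commutator_le_iff_map_mk'_eq_bot, commutator_comm,
        commutator_eq_bot_iff_le_centralizer, map_le_iff_le_comap]
      haveI := (Subgroup.Normal.map hU (QuotientGroup.mk' V) (QuotientGroup.mk'_surjective V))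
      apply normalClosure_le_normal
      rintro _ rfl
      rw [SetLike.mem_coe, mem_comap, mem_centralizer_iff]
      rintro _ ⟨u, hu, rfl⟩
      have := hg U V ⟨hU, hV, hVU, h⟩ hUF u hu
      rw [← QuotientGroup.eq_one_iff] at this
      simp only [QuotientGroup.mk_mul, QuotientGroup.mk_inv] at this
      simp only [QuotientGroup.mk'_apply]
      rw [mul_inv_eq_one, mul_inv_eq_iff_eq_mul] at this
      exact this
    exact hFK.not_ge (le_map_fittingSubgroup (hKC.trans hCN) le_normalizer_of_normal hnil)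
  exact ⟨⟨fun hg => ⟨hFN hg, h1 hg⟩, fun h => h2 h.1 fun U V hUV _ => h.2 U V hUV⟩,
    ⟨fun hg => ⟨hFN hg, fun U V hUV _ => h1 hg U V hUV⟩, fun h => h2 h.1 h.2⟩⟩

end Cfsg.Agent.S3766
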