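import Cfsg.Statements.S3768
import Mathlib
import Cfsg.Agent.Lib.Frob.Kernel

set_option autoImplicit false
open Cfsg

namespace Cfsg.Agent.S3768

open Subgroup CfsgLib.Frob


/-- Let G be a finite Frobenius group with Frobenius complement R and Frobenius kernel K (the identity together with the elements in no conjugate of R), and let N be a normal subgroup of G not containing K. Then G/N is a Frobenius group with Frobenius complement RN/N whose Frobenius kernel is the image of K. -/
theorem result {G : Type*} [Group G] [Finite G] (R : Subgroup G) (hR : Cfsg.IsFrobeniusComplement R) (N : Subgroup G) [N.Normal] (hKN : ¬ Cfsg.frobeniusKernel R ⊆ N) : Cfsg.IsFrobeniusComplement (R.map (QuotientGroup.mk' N)) ∧ Cfsg.frobeniusKernel (R.map (QuotientGroup.mk' N)) = QuotientGroup.mk' N '' Cfsg.frobeniusKernel R := by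
  obtain ⟨K, hK, hKn, hc, hK1, hfpf⟩ := exists_kernel_fpf hR
  have hKN' : ¬ K ≤ N := fun h => hKN (hK ▸ h)
  have hNK : N ≤ K := (le_or_le_of_normal_of_fpf hc hfpf).resolve_right hKN'
  haveI : (K.map (QuotientGroup.mk' N)).Normal := hKn.map _ (QuotientGroup.mk'_surjective N)
  have hc' : IsComplement' (K.map (QuotientGroup.mk' N)) (R.map (QuotientGroup.mk' N)) := by
    apply isComplement'_of_disjoint_and_mul_eq_univ
    · rw [Subgroup.disjoint_def]
      rintro _ ⟨k, hk, rfl⟩ ⟨r, hr, he⟩
      have h1 : r⁻¹ * k ∈ N := QuotientGroup.eq.1 he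
      have h2 : r ∈ K := by
        have := K.mul_mem (hNK h1) (K.inv_mem hk)
        simpa using this
      have h3 := Subgroup.disjoint_def.1 hc.disjoint h2 hr
      rw [← he, h3, map_one]
    · rw [Set.eq_univ_iff_forall]
      intro q
      obtain ⟨g, rfl⟩ := QuotientGroup.mk'_surjective N q
      obtain ⟨k, hk, h, hh, rfl⟩ := exists_mul_eq_of_isComplement' hc g
      exact ⟨_, ⟨k, hk, rfl⟩, _, ⟨h, hh, rfl⟩, (map_mul _ _ _).symm⟩
  have hF : Cfsg.IsFrobeniusComplement (R.map (QuotientGroup.mk' N)) := by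
    apply frob_of_fpf hc'
    · rwa [Ne, Subgroup.map_eq_bot_iff, QuotientGroup.ker_mk']
    · rw [Ne, Subgroup.map_eq_bot_iff, QuotientGroup.ker_mk']
      intro h
      exact hR.1 (hc.disjoint.symm.eq_bot_of_le (h.trans hNK))
    · rintro _ ⟨r, hr, rfl⟩ hr1
      rw [fpf_iff]
      rintro _ ⟨k, hk, rfl⟩ he
      have h1 : r ≠ 1 := fun h => hr1 (by rw [h, map_one])
      rw [QuotientGroup.mk'_apply, QuotientGroup.eq_one_iff]
      refine mem_of_fpf_of_conj_mul_inv_mem hNK (le_normalizer_of_normal (mem_top r))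
        (hfpf r hr h1) hk ?_
      rw [← QuotientGroup.eq_one_iff]
      simp only [QuotientGroup.mk'_apply] at he
      simp only [QuotientGroup.mk_mul, QuotientGroup.mk_inv]
      rw [← he]; group
  refine ⟨hF, ?_⟩
  rw [← coe_eq_kernel hc' hF, ← hK, Subgroup.coe_map]

end Cfsg.Agent.S3768
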