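import Cfsg.Statements.S3769
import Mathlib
import Cfsg.Agent.Lib.HH.BG3

set_option autoImplicit false
open Cfsg

namespace Cfsg.Agent.S3769


/-- Let G and V be subgroups of a finite group with G solvable of odd order normalizing V, V an elementary abelian ℓ-group for a prime ℓ not dividing the order of G, and suppose G has a normal Hall subgroup K with a complement R of prime order. If C_V(R) = 1, then [R, K] centralizes V. -/
theorem result {X : Type*} [Group X] [Finite X] (G : Subgroup X) (hsolv : Group.IsSolvable G) (hodd : Odd (Nat.card G)) (V : Subgroup X) {ℓ : ℕ} (hℓ : ℓ.Prime) (hV : Cfsg.IsElementaryAbelian ℓ V) (hℓG : ¬ ℓ ∣ Nat.card G) (hGV : G ≤ Subgroup.normalizer (V : Set X)) (K R : Subgroup X) (hKG : K ≤ G) (hKn : G ≤ Subgroup.normalizer (K : Set X)) (hHall : (Nat.card K).Coprime (K.relIndex G)) (hRG : R ≤ G) (hR : (Nat.card R).Prime) (hKR : K ⊓ R = ⊥) (hKRG : K ⊔ R = G) (hCV : V ⊓ Subgroup.centralizer (R : Set X) = ⊥) : ⁅R, K⁆ ≤ Subgroup.centralizer (V : Set X) := by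
  have hRK : R ≤ Subgroup.normalizer (K : Set X) := hRG.trans hKn
  have hcard : Nat.card G = Nat.card R * Nat.card K := by
    rw [← hKRG, sup_comm]
    exact CfsgLib.Core.card_sup_of_le_normalizer_of_disjoint hRK (by rwa [inf_comm])
  have hidx : K.relIndex G = Nat.card R := by
    have := CfsgLib.Core.card_mul_relIndex_of_le hKG
    rw [hcard, mul_comm] at this
    exact Nat.eq_of_mul_eq_mul_right Nat.card_pos this
  exact CfsgLib.HH.bg34 hℓ hV (hKG.trans hGV) (hRG.trans hGV) hRK hR (hidx ▸ hHall.symm)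
    (fun h => hℓG (h.trans (Subgroup.card_dvd_of_le hKG)))
    (Or.inl (hodd.of_dvd_nat (Subgroup.card_dvd_of_le hKG))) hCV

end Cfsg.Agent.S3769
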