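import Cfsg.Statements.S3770
import Mathlib
import Cfsg.Agent.Lib.HH.BG3
import Cfsg.Agent.Lib.Frob.Thompson

set_option autoImplicit false
open Cfsg

namespace Cfsg.Agent.S3770

open CfsgLib.HH CfsgLib.Core in

/-- Let G and V be subgroups of a finite group with G a Frobenius group with complement R of prime order and kernel K, G normalizing V, and V an elementary abelian ℓ-group for a prime ℓ not dividing the order of G. If C_V(R) has order ℓ, then the derived subgroup of K centralizes V. -/
theorem result {X : Type*} [Group X] [Finite X] (G : Subgroup X) (V : Subgroup X) {ℓ : ℕ} (hℓ : ℓ.Prime) (hV : Cfsg.IsElementaryAbelian ℓ V) (hℓG : ¬ ℓ ∣ Nat.card G) (hGV : G ≤ Subgroup.normalizer (V : Set X)) (R : Subgroup ↥G) (hR : Cfsg.IsFrobeniusComplement R) (hRp : (Nat.card R).Prime) (hCV : Nat.card ↥(V ⊓ Subgroup.centralizer ((R.map G.subtype : Subgroup X) : Set X)) = ℓ) : ⁅Subgroup.closure (Subtype.val '' Cfsg.frobeniusKernel R), Subgroup.closure (Subtype.val '' Cfsg.frobeniusKernel R)⁆ ≤ Subgroup.centralizer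 (V : Set X) := by
  obtain ⟨N, hN, hNn, hc, -, hfpf, hnil⟩ := CfsgLib.Frob.exists_nilpotent_kernel hR
  have e : Subgroup.closure (Subtype.val '' Cfsg.frobeniusKernel R) = N.map G.subtype := by
    rw [← hN]
    exact Subgroup.closure_eq (N.map G.subtype)
  rw [e]
  have := isNilpotent_map G.subtype N
  have hGN : G ≤ Subgroup.normalizer (N.map G.subtype : Set X) :=
    le_normalizer_map_subtype_of_normal N
  refine bg35_of_isNilpotent (R := R.map G.subtype) hℓ hV ((Subgroup.map_subtype_le N).trans hGV)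
    ((Subgroup.map_subtype_le R).trans hGV) ((Subgroup.map_subtype_le R).trans hGN)
    (by rwa [card_map_subtype]) ?_ ?_ hCV.le
  · rw [eq_bot_iff]
    rintro _ ⟨⟨g, hg, rfl⟩, hg2⟩
    obtain ⟨x, hx, hxr⟩ := exists_zpowers_eq_of_prime_card hRp rfl
    have hxR : x ∈ R := hx ▸ Subgroup.mem_zpowers x
    have hx1 : x ≠ 1 := by
      rintro rfl
      rw [orderOf_one] at hxr
      exact hRp.one_lt.ne hxr
    have h1 : g ∈ N ⊓ Subgroup.centralizer {x} := by
      refine ⟨hg, Subgroup.mem_centralizer_singleton_iff.2 (Subtype.ext ?_)⟩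
      exact (hg2 x ⟨x, hxR, rfl⟩).symm
    rw [hfpf x hxR hx1, Subgroup.mem_bot] at h1
    simp [h1]
  · rw [card_map_subtype]
    exact fun h => hℓG (h.trans (Subgroup.card_subgroup_dvd_card N))

end Cfsg.Agent.S3770
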