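import Cfsg.Statements.S3771
import Mathlib
import Cfsg.Agent.Lib.Fusion.Small
import Cfsg.Agent.Lib.Fgs.ClassSize

set_option autoImplicit false
open Cfsg

namespace Cfsg.Agent.S3771

open CfsgLib Subgroup in

/-- Let p be a prime and R a finite p-group of p-rank at most 2 (no elementary abelian subgroup of order p³) in which every element has order dividing p. Then R has order at most p³. -/
theorem result {R : Type*} [Group R] [Finite R] {p : ℕ} [Fact p.Prime] (hR : IsPGroup p R) (hrank : Cfsg.PRankLE p 2 R) (hexp : ∀ x : R, x ^ p = 1) : Nat.card R ≤ p ^ 3 := by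
  have hp : p.Prime := Fact.out
  obtain ⟨A, -, hn, hc, hA⟩ := Fusion.exists_selfCentralizing_in hR ⊤
  rw [top_inf_eq] at hA
  have h2 : Nat.card A ≤ p ^ 2 := hrank A hc fun a _ => hexp a
  by_cases hZ : A ≤ center R
  · have : A = ⊤ := eq_top_iff.2 fun g _ => hA fun a ha => ((mem_center_iff.1 (hZ ha)) g).symm
    rw [this, card_top] at h2
    exact h2.trans (Nat.pow_le_pow_right hp.pos (by norm_num))
  obtain ⟨a, ha, haZ⟩ := SetLike.not_le_iff_exists.1 hZ
  obtain ⟨z, hz, hzZ, oz⟩ := Core.exists_mem_center_orderOf_eq hR (N := A) (by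
    rintro rfl; exact hZ bot_le)
  have h3 : centralizer {a} ≤ A := by
    have h4 : zpowers z < A ⊓ centralizer ((centralizer {a} : Subgroup R) : Set R) := by
      refine lt_of_le_of_ne (zpowers_le.2 ⟨hz, fun g _ => mem_center_iff.1 hzZ g⟩) fun e => haZ ?_
      exact zpowers_le.2 hzZ (e ▸ ⟨ha, fun g hg => mem_centralizer_singleton_iff.1 hg⟩)
    have h5 : Nat.card (zpowers z) < Nat.card (A ⊓ centralizer ((centralizer {a} : Subgroup R) : Set R) :
        Subgroup R) := Set.ncard_lt_ncard (SetLike.coe_ssubset_coe.2 h4)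
    obtain ⟨k, hk⟩ := IsPGroup.iff_card.1 (hR.to_subgroup
      (A ⊓ centralizer ((centralizer {a} : Subgroup R) : Set R)))
    rw [Nat.card_zpowers, oz, hk] at h5
    have h6 : 2 ≤ k := by
      by_contra! h
      exact absurd (Nat.pow_le_pow_right hp.pos (show k ≤ 1 by omega)) (by simpa using h5)
    have h7 := eq_of_le_of_card_ge (inf_le_left : A ⊓ centralizer ((centralizer {a} : Subgroup R) : Set R) ≤ A)
      (h2.trans (hk ▸ Nat.pow_le_pow_right hp.pos h6))
    exact fun g hg => hA fun b hb => ((h7.ge hb).2 g hg).symm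
  have h4 : (centralizer {a} : Subgroup R).index < p ^ 2 := by
    rw [← Fgs.ncard_isConj_eq_index]
    refine lt_of_lt_of_le (Set.ncard_lt_ncard (t := (A : Set R)) ⟨fun y hy => ?_, fun h => haZ ?_⟩) h2
    · obtain ⟨g, rfl⟩ := isConj_iff.1 hy
      exact hn.conj_mem a ha g
    · rw [isConj_one_left.1 (h (one_mem A))]; exact one_mem _
  obtain ⟨k, hk⟩ := hR.index (centralizer {a})
  have h5 : k ≤ 1 := by
    rw [hk] at h4
    have := (Nat.pow_lt_pow_iff_right hp.one_lt).1 h4
    omega
  rw [← card_mul_index (centralizer {a}), hk]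
  calc _ ≤ p ^ 2 * p ^ 1 := Nat.mul_le_mul ((card_le_of_le h3).trans h2) (Nat.pow_le_pow_right hp.pos h5)
    _ = _ := by ring
end Cfsg.Agent.S3771
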