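import Cfsg.Statements.S3772
import Mathlib
import Cfsg.Agent.Lib.PGroup.Extraspecial
import Cfsg.Agent.Lib.PGroup.Basic

set_option autoImplicit false
open Cfsg

namespace Cfsg.Agent.S3772

open Subgroup CfsgLib Finset in
theorem key {G : Type*} [Group G] [Finite G] (hG : IsPGroup 2 G) (hΦ : Nat.card (frattini G) = 2) :
    (2 * Nat.card {x : G // x ^ 2 = 1} - Nat.card G : ℤ) = 0 ∨
    ((2 * Nat.card {x : G // x ^ 2 = 1} - Nat.card G : ℤ) ^ 2 = Nat.card G * Nat.card (center G) ∧
      center G ≠ ⊤) := by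
  classical
  have := Fintype.ofFinite G
  have : Fact (Nat.Prime 2) := ⟨Nat.prime_two⟩
  have hZ := PGroup.le_center_of_card_eq_prime hG (frattini G) hΦ
  obtain ⟨z, z1, hz⟩ := (Nat.card_eq_two_iff' (1 : frattini G)).1 hΦ
  have mem : ∀ a ∈ frattini G, a = 1 ∨ a = z := fun a ha =>
    or_iff_not_imp_left.2 fun h => congrArg Subtype.val (hz ⟨a, ha⟩ fun e => h (congrArg Subtype.val e))
  have z1' : (z : G) ≠ 1 := fun e => z1 (Subtype.ext e)
  have zz : (z : G) * z = 1 := (mem _ (mul_mem z.2 z.2)).resolve_right (by simpa using z1')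
  let s : G → ℤ := fun a => if a = 1 then 1 else -1
  have smul : ∀ a ∈ frattini G, ∀ b ∈ frattini G, s (a * b) = s a * s b := fun a ha b hb => by
    rcases mem a ha with rfl | rfl <;> rcases mem b hb with rfl | rfl <;> simp [s, z1', zz]
  have ss : ∀ a, s a * s a = 1 := fun a => by simp only [s]; split_ifs <;> rfl
  let c : G → G → G := fun x w => x⁻¹ * w * x * w⁻¹
  have hc : ∀ x w, c x w ∈ frattini G := fun x w => PGroup.commutator_le_frattini hG (by
    have := commutator_mem_commutator (mem_top x⁻¹) (mem_top w)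
    rwa [commutatorElement_def, inv_inv] at this)
  have hsq : ∀ x : G, x ^ 2 ∈ frattini G := PGroup.pow_mem_frattini hG
  have h1 : ∀ x w, s (x ^ 2) * s ((x * w) ^ 2) = s (c x w) * s (w ^ 2) := fun x w => by
    rw [show (x * w) ^ 2 = x ^ 2 * (c x w * w ^ 2) by simp only [c, pow_two]; group,
      smul _ (hsq x) _ (mul_mem (hc x w) (hsq w)), ← mul_assoc, ss, one_mul, smul _ (hc x w) _ (hsq w)]
  have h2 : ∀ x y w, s (c (x * y) w) = s (c x w) * s (c y w) := fun x y w => by
    rw [← smul _ (hc x w) _ (hc y w)]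
    congr 1
    have := mem_center_iff.1 (hZ (hc x w)) y⁻¹
    calc c (x * y) w = y⁻¹ * c x w * (w * y * w⁻¹) := by simp only [c]; group
      _ = c x w * c y w := by rw [this]; simp only [c]; group
  have h3 : ∀ w, ∑ x, s (c x w) = if w ∈ center G then (Nat.card G : ℤ) else 0 := fun w => by
    split_ifs with h
    · have : ∀ x, c x w = 1 := fun x => by
        simp only [c]; rw [mul_assoc x⁻¹, ← mem_center_iff.1 h x]; group
      simp [this, s, Nat.card_eq_fintype_card]
    · obtain ⟨y, hy⟩ := not_forall.1 (mt mem_center_iff.2 h)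
      have e : s (c y w) = -1 := if_neg fun e => hy (by
        calc y * w = y * (c y w) * w := by rw [e, mul_one]
          _ = w * y := by simp only [c]; group)
      have := Equiv.sum_comp (Equiv.mulRight y) fun x => s (c x w)
      simp only [Equiv.coe_mulRight, h2, e, mul_neg, mul_one, sum_neg_distrib] at this
      omega
  have hS : ∑ x : G, s (x ^ 2) = 2 * Nat.card {x : G // x ^ 2 = 1} - Nat.card G := by
    have : ∀ x : G, s (x ^ 2) = 2 * (if x ^ 2 = 1 then 1 else 0) - 1 := fun x => by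
      simp only [s]; split_ifs <;> rfl
    simp only [this, sum_sub_distrib, ← mul_sum, sum_boole, Nat.card_eq_fintype_card,
      Fintype.card_subtype]
    simp
  have h4 : (∑ x : G, s (x ^ 2)) ^ 2 = Nat.card G * ∑ w : center G, s (w ^ 2) := by
    calc (∑ x : G, s (x ^ 2)) ^ 2 = ∑ x : G, ∑ w : G, s (x ^ 2) * s ((x * w) ^ 2) := by
          rw [pow_two, sum_mul]
          refine sum_congr rfl fun x _ => ?_
          rw [← mul_sum, ← Equiv.sum_comp (Equiv.mulLeft x) fun y => s (y ^ 2)]
          rfl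
      _ = ∑ w : G, (∑ x, s (c x w)) * s (w ^ 2) := by
          rw [sum_comm]; simp only [h1, sum_mul]
      _ = Nat.card G * ∑ w : center G, s (w ^ 2) := by
          simp only [h3, ite_mul, zero_mul]
          rw [← sum_filter, mul_sum]
          exact sum_subtype (p := (· ∈ center G)) _ (by simp) fun w => (Nat.card G : ℤ) * s (w ^ 2)
  rw [← hS]
  by_cases h : ∀ w ∈ center G, w ^ 2 = 1
  · refine Or.inr ⟨?_, fun e => z1' ?_⟩
    · rw [h4, sum_congr rfl fun (w : center G) _ => (if_pos (h w w.2) : s (w ^ 2) = 1)]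
      simp [Nat.card_eq_fintype_card]
    · refine mem_bot.1 (PGroup.frattini_le_of_pow_mem (p := 2) ?_ (fun x => h x (e.ge (mem_top x))) z.2)
      exact commutator_le.2 fun a _ b _ => commutatorElement_eq_one_iff_mul_comm.2
        (mem_center_iff.1 (e.ge (mem_top b)) a)
  · push Not at h
    obtain ⟨y, hy, y2⟩ := h
    have := Equiv.sum_comp (Equiv.mulRight (⟨y, hy⟩ : center G)) fun w => s (w ^ 2)
    have e : ∀ w : center G, s (((w * ⟨y, hy⟩ : center G) : G) ^ 2) = -s (w ^ 2) := fun w => by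
      rw [Subgroup.coe_mul, Commute.mul_pow (mem_center_iff.1 hy w), smul _ (hsq _) _ (hsq _),
        show s (y ^ 2) = -1 from if_neg y2, mul_neg_one]
    simp only [Equiv.coe_mulRight, e, sum_neg_distrib] at this
    rw [show ∑ w : center G, s (w ^ 2) = 0 by omega, mul_zero] at h4
    exact Or.inl (pow_eq_zero_iff two_ne_zero |>.1 h4)

open Subgroup CfsgLib in

/-- Let G be a finite 2-group whose Frattini subgroup Φ(G) has order 2, with |G : Φ(G)| = 2^d, and let j be the number of elements x of G with x² = 1. Then j = 2^d, or j = 2^d + 2^(d−r) or j = 2^d − 2^(d−r) for some positive integer r with 2r ≤ d. Moreover if d = 2r and j is 2^d + 2^r or 2^d − 2^r, then G is extraspecial. -/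
theorem result {G : Type*} [Group G] [Finite G] (hG : IsPGroup 2 G) (hΦ : Nat.card (frattini G) = 2) (d : ℕ) (hd : (frattini G).index = 2 ^ d) : (Nat.card {x : G // x ^ 2 = 1} = 2 ^ d ∨ ∃ r : ℕ, 1 ≤ r ∧ 2 * r ≤ d ∧ (Nat.card {x : G // x ^ 2 = 1} = 2 ^ d + 2 ^ (d - r) ∨ Nat.card {x : G // x ^ 2 = 1} + 2 ^ (d - r) = 2 ^ d)) ∧ (∀ r : ℕ, d = 2 * r → (Nat.card {x : G // x ^ 2 = 1} = 2 ^ d + 2 ^ r ∨ Nat.card {x : G // x ^ 2 = 1} + 2 ^ r = 2 ^ d) → Cfsg.IsExtraspecial 2 G) := by
  have : Fact (Nat.Prime 2) := ⟨Nat.prime_two⟩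
  have hZ := PGroup.le_center_of_card_eq_prime hG (frattini G) hΦ
  have hc : Nat.card G = 2 ^ (d + 1) := by
    rw [← (frattini G).card_mul_index, hΦ, hd, pow_succ']
  obtain ⟨k, hk⟩ := (hG.to_subgroup (center G)).exists_card_eq
  have k1 : 1 ≤ k := by
    have := card_dvd_of_le hZ
    rw [hΦ, hk] at this
    rcases k with _ | k
    · simp at this
    · omega
  have key := key hG hΦ
  generalize Nat.card {x : G // x ^ 2 = 1} = j at key ⊢
  have p1 : ∀ n : ℕ, 0 < 2 ^ n := fun n => by positivity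
  rcases key with h | ⟨h, hne⟩
  · have : j = 2 ^ d := by
      rw [hc, pow_succ] at h; omega
    refine ⟨Or.inl this, fun r _ h => ?_⟩
    have := p1 r
    omega
  have kd : k ≤ d := by
    have h1 := (Nat.pow_dvd_pow_iff_le_right one_lt_two).1
      (hk.symm.dvd.trans ((card_subgroup_dvd_card _).trans hc.dvd))
    have h2 : k ≠ d + 1 := fun e => hne (eq_top_of_card_eq _ (by rw [hk, hc, e]))
    omega
  have h1 : (2 * j - Nat.card G : ℤ).natAbs ^ 2 = 2 ^ (d + 1 + k) := by
    rw [← Int.natAbs_pow, h, ← Nat.cast_mul, Int.natAbs_natCast, hc, hk, ← pow_add]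
  obtain ⟨e, -, he⟩ := (Nat.dvd_prime_pow Nat.prime_two).1 ((dvd_pow_self _ two_ne_zero).trans h1.dvd)
  rw [he, ← pow_mul] at h1
  have h2 := Nat.pow_right_injective le_rfl h1
  obtain ⟨e, rfl⟩ : ∃ e', e = e' + 1 := ⟨e - 1, by omega⟩
  rw [hc, pow_succ, pow_succ] at he
  refine ⟨Or.inr ⟨d - e, by omega, by omega, ?_⟩, fun r hr h => ?_⟩
  · rw [show d - (d - e) = e by omega]; omega
  · have h3 : e = r := Nat.pow_right_injective le_rfl (show 2 ^ e = 2 ^ r by
      have := p1 e; have := p1 r; have := p1 d; omega)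
    refine PGroup.isExtraspecial_of_commutator_le_center hG (by rw [hk, show k = 1 by omega, pow_one])
      ((PGroup.commutator_le_frattini hG).trans hZ) fun hh => hne ?_
    exact eq_top_iff.2 fun a _ => mem_center_iff.2 fun b => hh.is_comm.comm b a

end Cfsg.Agent.S3772
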