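import Cfsg.Statements.S3773
import Cfsg.Agent.Lib.Suz2.CW
import Cfsg.Agent.Lib.Suz2.Main

set_option autoImplicit false
open Cfsg
open scoped commutatorElement

namespace Cfsg.Agent.S3773

/-- Let G be a finite 2-group of nilpotency class at most 2 and exponent dividing 4 in which the elements x with x² = 1 form a subgroup N. Then |G| ≤ |N|³, and |G| < |N|³ unless G is special. -/
theorem result {G : Type*} [Group G] [Finite G] (hG : IsPGroup 2 G) (hcl : (⊤ : Subgroup G).lowerCentralSeries 2 = ⊥) (hexp : ∀ x : G, x ^ 4 = 1) (hN : ∀ x y : G, x ^ 2 = 1 → y ^ 2 = 1 → (x * y) ^ 2 = 1) : Nat.card G ≤ Nat.card {x : G // x ^ 2 = 1} ^ 3 ∧ (¬ Cfsg.IsSpecial 2 G → Nat.card G < Nat.card {x : G // x ^ 2 = 1} ^ 3) := by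
  open Subgroup CfsgLib.Suz2 CfsgLib.PGroup CfsgLib.Core in
    have hc : ∀ x y : G, ⁅x, y⁆ ∈ center G := fun x y => mem_center_iff.2 fun g =>
      (commutatorElement_eq_one_iff_mul_comm.1 (mem_bot.1 (hcl ▸ commutator_mem_commutator
        (commutator_mem_commutator (mem_top x) (mem_top y)) (mem_top g)))).symm
    have h2 : ∀ g x : G, ⁅g * g, x⁆ = ⁅g, x⁆ * ⁅g, x⁆ := fun g x => by
      rw [comm_sq, commutatorElement_eq_one_iff_mul_comm.2 (mem_center_iff.1 (hc g x) g), one_mul]
    have h4 : ∀ x : G, x * x * (x * x) = 1 := fun x => by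
      rw [← hexp x]; simp only [pow_succ, pow_zero, one_mul, mul_assoc]
    let N : Subgroup G :=
      { carrier := {x | x ^ 2 = 1}
        one_mem' := one_pow 2
        mul_mem' := fun {x y} => hN x y
        inv_mem' := fun {x} hx => by rw [Set.mem_ofPred_eq, inv_pow, hx, inv_one] }
    have hmN : ∀ x, x ∈ N ↔ x * x = 1 := fun x => by rw [← sq]; rfl
    have hΦN : sqS ⊤ ≤ N := sqS_le_iff.2 fun x _ => (hmN _).2 (h4 x)
    have hcm : ∀ x y : G, ⁅x, y⁆ ∈ sqS (⊤ : Subgroup G) := fun x y => by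
      rw [comm_eq_sq]
      exact mul_mem (mul_mem (sq_mem_sqS trivial) (sq_mem_sqS trivial)) (inv_mem (sq_mem_sqS trivial))
    have hΦZ : sqS ⊤ ≤ center G := sqS_le_iff.2 fun x _ => mem_center_iff.2 fun g =>
      (commutatorElement_eq_one_iff_mul_comm.1 ((h2 x g).trans ((hmN _).1 (hΦN (hcm x g))))).symm
    have hΦn := normal_sqS (A := (⊤ : Subgroup G)) inferInstance
    have hNn : N.Normal := ⟨fun x hx g => by
      change _ ^ 2 = 1
      rw [conj_pow, show x ^ 2 = 1 from hx, mul_one, mul_inv_cancel]⟩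
    obtain ⟨W, -, hΦW, h5, h6⟩ := exists_inv_compl_mod (a := 1) (A := sqS ⊤) (D := N) (by simp) hΦn
      (fun x hx => hx) (fun x => sq_mem_sqS trivial) (fun x hx => hx)
    have h7 := card_sup_mul_card_inf_of_normal W N
    rw [h6, le_antisymm h5 (le_inf hΦW hΦN), card_top] at h7
    have h8 : Nat.card W ≤ Nat.card (sqS (⊤ : Subgroup G)) * Nat.card (sqS (⊤ : Subgroup G)) ^ 2 := by
      by_contra hlt
      obtain ⟨x, hx, hx1, hx2⟩ := exists_sq_mem_in (L := ⊥) hΦW hΦZ (fun x _ => sq_mem_sqS (mem_top x)) le_rfl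
        (fun z hz => (hmN z).1 (hΦN hz)) bot_le (by simpa using hlt)
      exact hx1 (h5 ⟨hx, (hmN x).2 hx2⟩)
    change Nat.card G ≤ Nat.card N ^ 3 ∧ (_ → Nat.card G < Nat.card N ^ 3)
    have hpos : 0 < Nat.card (sqS (⊤ : Subgroup G)) := Nat.card_pos
    have hposN : 0 < Nat.card N := Nat.card_pos
    have h9 : Nat.card G ≤ Nat.card (sqS (⊤ : Subgroup G)) ^ 2 * Nat.card N := by
      refine Nat.le_of_mul_le_mul_right ?_ hpos
      rw [h7]
      nlinarith
    have hle := card_le_of_le hΦN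
    have h10 : Nat.card G ≤ Nat.card N ^ 3 :=
      h9.trans (by rw [pow_succ _ 2]; gcongr)
    refine ⟨h10, fun hns => lt_of_le_of_ne h10 fun e => hns ?_⟩
    have hΦ : sqS ⊤ = N := by
      refine eq_of_le_of_card_ge hΦN ?_
      rw [e, pow_succ _ 2, Nat.mul_le_mul_right_iff hposN] at h9
      exact (Nat.pow_le_pow_iff_left two_ne_zero).1 h9
    rw [hΦ] at hΦZ hcm
    have hsq : ∀ x : G, x * x ∈ N := fun x => (hmN _).2 (h4 x)
    have hG' : commutator G ≤ N := commutator_le.2 fun x _ y _ => hcm x y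
    have hZ : center G = N := by
      refine le_antisymm (fun z hz => by_contra fun hzN => ?_) hΦZ
      have hw : z * z ∉ (⊥ : Subgroup G) := fun e => hzN ((hmN z).2 e)
      have h11 := card_sup_zpowers (p := 2) hzN (by rw [sq]; exact hsq z)
      have h12 := card_sup_zpowers (p := 2) hw (by rw [sq]; exact h4 z)
      rw [bot_sup_eq, card_bot] at h12
      obtain ⟨x, hx1, hx2⟩ := exists_sq_mem (Z := N ⊔ zpowers z) (M := N) (L := zpowers (z * z))
        (sup_le hΦZ (zpowers_le.2 hz)) hsq le_sup_left (fun y hy => by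
          obtain ⟨n, hn, k, rfl⟩ := mem_sup_zpowers_iff.1 hy
          refine ⟨k, ?_⟩
          change (z * z) ^ k = _
          rw [mul_assoc, ← mul_assoc (z ^ k), mem_center_iff.1 (hΦZ hn) (z ^ k), ← mul_assoc,
            ← mul_assoc, (hmN n).1 hn, one_mul, (Commute.refl z).mul_zpow])
        (zpowers_le.2 (hsq z)) (by rw [h11, h12, e]; nlinarith [pow_pos hposN 3])
      obtain ⟨k, hk⟩ := hx2
      have h13 : x * (z ^ k)⁻¹ ∈ N := (hmN _).2 (by
        rw [mul_assoc, ← mul_assoc _ x, ← mem_center_iff.1 (inv_mem (zpow_mem hz k)) x, mul_assoc,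
          ← mul_assoc x, ← hk, ← mul_inv_rev, ← (Commute.refl z).mul_zpow, mul_inv_cancel])
      exact hx1 (by simpa using mul_mem_sup h13 (zpow_mem (mem_zpowers z) k))
    refine ⟨hG, hZ ▸ le_antisymm (frattini_le_of_pow_mem (p := 2) hG' fun x => by rw [sq]; exact hsq x)
      (hΦ ▸ sqS_le_iff.2 fun x _ => by rw [← sq]; exact pow_mem_frattini hG x),
      hZ ▸ eq_of_le_of_not_lt hG' fun hlt => ?_⟩
    let f : G →* Abelianization G := (powMonoidHom 2).comp Abelianization.of
    have h14 := card_map_mul_card_inf_ker f ⊤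
    have h15 := card_map_mul_card_inf_ker Abelianization.of N
    rw [top_inf_eq, card_top] at h14
    rw [Abelianization.ker_of, inf_eq_right.2 hG'] at h15
    have h16 : Nat.card (map f ⊤) ≤ Nat.card (map Abelianization.of N) := card_le_of_le (by
      rintro _ ⟨x, -, rfl⟩
      exact ⟨x * x, hsq x, by simp [f, sq]⟩)
    have h17 := card_lt_of_lt hlt
    have h18 : 0 < Nat.card (commutator G) := Nat.card_pos
    have hf : ∀ x, x ∈ f.ker ↔ x * x ∈ commutator G := fun x => by
      rw [← Abelianization.ker_of, MonoidHom.mem_ker, MonoidHom.mem_ker]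
      simp [f, sq]
    obtain ⟨x, -, hx1, hx2⟩ := exists_sq_mem_in (H := f.ker) (Z := N) (M := commutator G) (L := ⊥)
      (fun x hx => (hf x).2 (by rw [(hmN x).1 hx]; exact one_mem _)) hΦZ (fun x hx => (hf x).1 hx) hG'
      (fun z hz => (hmN z).1 hz) bot_le (by
        have h19 : Nat.card N ^ 2 * Nat.card (commutator G) ≤ Nat.card f.ker := by
          refine Nat.le_of_mul_le_mul_right ?_ hposN
          calc _ = Nat.card (map f ⊤) * Nat.card (commutator G) * Nat.card f.ker := by
                rw [mul_right_comm, ← pow_succ, ← e, ← h14]; ring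
            _ ≤ Nat.card (map Abelianization.of N) * Nat.card (commutator G) * Nat.card f.ker := by gcongr
            _ = _ := by rw [h15, mul_comm]
        rw [card_bot, one_pow, mul_one]
        refine lt_of_lt_of_le ?_ h19
        nlinarith [Nat.mul_pos hposN h18])
    exact hx1 ((hmN x).2 hx2)

end Cfsg.Agent.S3773
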