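import Cfsg.Statements.S3774
import Cfsg.Agent.Lib.Core.MinNormal

set_option autoImplicit false
open Cfsg

namespace Cfsg.Agent.S3774

open Subgroup CfsgLib.Core

/-- Let G be a nontrivial finite 2-group whose automorphism group permutes the involutions of G transitively. Then every involution of G is central, so that the involutions together with 1 form the subgroup Ω₁(Z(G)), and if this subgroup has order q then |G| is a power of q. -/
theorem result {G : Type*} [Group G] [Finite G] [Nontrivial G] (hG : IsPGroup 2 G) (htrans : ∀ x y : G, x ≠ 1 → x ^ 2 = 1 → y ≠ 1 → y ^ 2 = 1 → ∃ a : MulAut G, a x = y) : (∀ x : G, x ^ 2 = 1 → x ∈ Subgroup.center G) ∧ ∃ m : ℕ, Nat.card G = Nat.card {z : G // z ^ 2 = 1} ^ m := by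
  classical
  have := Fintype.ofFinite G
  obtain ⟨z, -, hz, hzo⟩ := exists_mem_center_orderOf_eq hG (N := ⊤) top_ne_bot
  have hz1 : z ≠ 1 := by
    rintro rfl
    simp at hzo
  have hz2 : z ^ 2 = 1 := by rw [← hzo, pow_orderOf_eq_one]
  have hc : ∀ x : G, x ^ 2 = 1 → x ∈ center G := by
    intro x hx
    by_cases hx1 : x = 1
    · rw [hx1]; exact one_mem _
    obtain ⟨a, rfl⟩ := htrans z x hz1 hz2 hx1 hx
    rw [mem_center_iff]
    intro g
    obtain ⟨g, rfl⟩ := a.surjective g
    rw [← map_mul, ← map_mul, mem_center_iff.1 hz g]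
  refine ⟨hc, ?_⟩
  let Z : Subgroup G :=
    { carrier := {x | x ^ 2 = 1}
      one_mem' := one_pow 2
      inv_mem' := fun {x} hx => by
        rw [Set.mem_ofPred_eq, inv_pow, hx, inv_one]
      mul_mem' := fun {x y} hx hy => by
        rw [Set.mem_ofPred_eq, Commute.mul_pow (mem_center_iff.1 (hc y hy) x), hx, hy, one_mul] }
  obtain ⟨d, hd⟩ := IsPGroup.iff_card.1 (hG.to_subgroup Z)
  obtain ⟨n, hn⟩ := IsPGroup.iff_card.1 hG
  have hd' : Nat.card {z : G // z ^ 2 = 1} = 2 ^ d := hd
  let f : G → G := fun x => x ^ (orderOf x / 2)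
  let S : Finset G := Finset.univ.erase 1
  let T : Finset G := (Finset.univ.filter fun x : G => x ^ 2 = 1).erase 1
  have hmaps : ∀ x ∈ S, f x ∈ T := by
    intro x hx
    have hx1 : x ≠ 1 := (Finset.mem_erase.1 hx).1
    have h2 : 2 ∣ orderOf x := by
      obtain ⟨k, hk⟩ := hG.exists_orderOf_eq_pow x
      rw [hk]
      refine dvd_pow_self 2 ?_
      rintro rfl
      exact hx1 (orderOf_eq_one_iff.1 hk)
    have h3 := orderOf_pos x
    refine Finset.mem_erase.2 ⟨pow_ne_one_of_lt_orderOf ?_ ?_, Finset.mem_filter.2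
      ⟨Finset.mem_univ _, ?_⟩⟩
    · omega
    · omega
    · rw [← pow_mul, Nat.div_mul_cancel h2, pow_orderOf_eq_one]
  have hfib : ∀ t ∈ T, (S.filter fun x => f x = t).card = (S.filter fun x => f x = z).card := by
    intro t ht
    obtain ⟨ht1, ht2⟩ := Finset.mem_erase.1 ht
    obtain ⟨a, ha⟩ := htrans t z ht1 (Finset.mem_filter.1 ht2).2 hz1 hz2
    refine Finset.card_equiv a.toEquiv fun x => ?_
    have h1 : f (a x) = a (f x) := by
      simp only [f]
      rw [MulEquiv.orderOf_eq, map_pow]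
    simp only [S, Finset.mem_filter, Finset.mem_erase, Finset.mem_univ, and_true,
      MulEquiv.toEquiv_eq_coe, EquivLike.coe_coe, h1, ← ha, EmbeddingLike.apply_eq_iff_eq, ne_eq,
      EmbeddingLike.map_eq_one_iff]
  have hsum := Finset.card_eq_sum_card_fiberwise (f := f) (s := S) (t := T) hmaps
  rw [Finset.sum_congr rfl hfib, Finset.sum_const, smul_eq_mul] at hsum
  have hS : S.card = 2 ^ n - 1 := by
    rw [Finset.card_erase_of_mem (Finset.mem_univ _), Finset.card_univ, ← Nat.card_eq_fintype_card, hn]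
  have hT : T.card = 2 ^ d - 1 := by
    rw [Finset.card_erase_of_mem (by simp), ← hd', Nat.card_eq_fintype_card, Fintype.card_subtype]
  have hdvd : 2 ^ d - 1 ∣ 2 ^ n - 1 := ⟨_, by rw [← hS, ← hT, hsum]⟩
  have hg := Nat.pow_sub_one_gcd_pow_sub_one 2 d n
  rw [Nat.gcd_eq_left hdvd] at hg
  have h1 : 2 ^ d = 2 ^ Nat.gcd d n := by
    have := Nat.one_le_two_pow (n := d)
    have := Nat.one_le_two_pow (n := Nat.gcd d n)
    omega
  obtain ⟨m, hm⟩ : d ∣ n := by
    rw [Nat.pow_right_injective le_rfl h1]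
    exact Nat.gcd_dvd_right d n
  exact ⟨m, by rw [hd', hn, hm, pow_mul]⟩

end Cfsg.Agent.S3774
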