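import Cfsg.Statements.S3780
import Cfsg.Agent.Lib.Core.Frattini

set_option autoImplicit false
open Cfsg

namespace Cfsg.Agent.S3780

open Subgroup CfsgLib.Core

theorem card_ker_pow_le {M : Type*} [AddCommGroup M] [Finite M] (T : AddMonoid.End M) (k : ℕ) :
    Nat.card (AddMonoidHom.ker (T ^ k : AddMonoid.End M)) ≤ Nat.card (AddMonoidHom.ker T) ^ k := by
  induction k with
  | zero =>
    rw [pow_zero, pow_zero]
    exact (AddSubgroup.card_eq_one.2 ((AddMonoidHom.ker_eq_bot_iff _).2 fun _ _ h => h)).le
  | succ k ih =>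
    set K := AddMonoidHom.ker (T ^ (k + 1) : AddMonoid.End M)
    let f : K →+ M := AddMonoidHom.comp (T : M →+ M) K.subtype
    have h1 := AddSubgroup.card_mul_index f.ker
    rw [AddSubgroup.index_ker] at h1
    rw [← h1, pow_succ']
    refine Nat.mul_le_mul ?_ (le_trans ?_ ih)
    · exact Nat.card_le_card_of_injective (fun x => ⟨x.1.1, x.2⟩) fun x y h =>
        Subtype.ext (Subtype.ext (Subtype.mk.inj h))
    · refine AddSubgroup.card_le_of_le ?_
      rintro _ ⟨x, rfl⟩
      have : (T ^ (k + 1)) x.1 = 0 := x.2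
      rw [pow_succ] at this
      exact this

/-- Let V be a finite abelian p-group and α an automorphism of V of order p whose fixed-point subgroup has order p^n. Then V can be generated by pn elements: some subset of V with at most pn elements generates V. -/
theorem result {V : Type*} [CommGroup V] [Finite V] {p : ℕ} [Fact p.Prime] (hV : IsPGroup p V) (α : MulAut V) (hα : orderOf α = p) (n : ℕ) (hfix : Nat.card {v : V // α v = v} = p ^ n) : ∃ S : Finset V, S.card ≤ p * n ∧ Subgroup.closure (S : Set V) = ⊤ := by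
  classical
  have hp : p.Prime := Fact.out
  have := Fintype.ofFinite V
  obtain ⟨d, hd⟩ := hV.index (frattini V)
  obtain ⟨S, -, hS, hS'⟩ := burnside_basis_exists hV hd Finset.univ (by simp)
  refine ⟨S, ?_, hS'⟩
  rw [hS, ← Nat.pow_le_pow_iff_right hp.one_lt, ← hd]
  have h1 : (frattini V).index ≤ Nat.card (powMonoidHom p : V →* V).ker := by
    rw [← index_range]
    refine Nat.le_of_dvd (Nat.pos_of_ne_zero index_ne_zero_of_finite) (index_dvd_of_le ?_)
    rintro _ ⟨x, rfl⟩
    exact pow_mem_frattini_of_isPGroup hV x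
  let a : AddMonoid.End (Additive V) := MonoidHom.toAdditive α.toMonoidHom
  have ha : ∀ (k : ℕ) (v : V), (a ^ k) (Additive.ofMul v) = Additive.ofMul ((α ^ k) v) := by
    intro k
    induction k with
    | zero => intro v; rfl
    | succ k ih => intro v; rw [pow_succ, pow_succ]; exact ih (α v)
  obtain ⟨r, hr⟩ := (Commute.one_right (a - 1)).exists_add_pow_prime_eq hp
  have hap : a ^ p = 1 := by
    ext v
    have := ha p v.toMul
    rw [← hα, pow_orderOf_eq_one] at this
    rw [← hα]
    exact this
  rw [sub_add_cancel, hap, one_pow, mul_one] at hr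
  have h2 : Nat.card (powMonoidHom p : V →* V).ker ≤
      Nat.card (AddMonoidHom.ker ((a - 1) ^ p : AddMonoid.End (Additive V))) := by
    refine Nat.card_le_card_of_injective (fun x => ⟨Additive.ofMul x.1, ?_⟩) fun x y h =>
      Subtype.ext (Additive.ofMul.injective (Subtype.mk.inj h))
    have h3 : (a - 1) ^ p = -((a - 1) * r * p) := by
      rw [← (Nat.cast_commute p _).eq, ← mul_assoc, eq_neg_iff_add_eq_zero]
      have := hr
      rw [add_comm ((a - 1) ^ p), add_assoc, left_eq_add] at this
      exact this
    have h4 : (p : AddMonoid.End (Additive V)) (Additive.ofMul x.1) = 0 := x.2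
    rw [h3]
    change -(((a - 1) * r) ((p : AddMonoid.End (Additive V)) (Additive.ofMul x.1))) = 0
    rw [h4, map_zero, neg_zero]
  have h5 : Nat.card (AddMonoidHom.ker (a - 1 : AddMonoid.End (Additive V))) = p ^ n := by
    rw [← hfix]
    refine Nat.card_congr (Equiv.subtypeEquiv Additive.toMul fun v => ?_)
    exact sub_eq_zero (a := a v) (b := v)
  calc _ ≤ _ := h1
    _ ≤ _ := h2
    _ ≤ _ := card_ker_pow_le _ _
    _ = _ := by rw [h5, ← pow_mul, mul_comm]

end Cfsg.Agent.S3780
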