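import Cfsg.Statements.S3781
import Cfsg.Agent.Lib.Core.Commutator
import Cfsg.Agent.Lib.PGroup.MaxClass

set_option autoImplicit false
open Cfsg

namespace Cfsg.Agent.S3781

open Subgroup CfsgLib.Core

/-- Let G be a finite p-group and n ≥ 1, and write γ_1(G) = G, γ_{k+1}(G) = [γ_k(G), G], and likewise γ_k(N) for a subgroup N. Let N be a normal subgroup of G contained in γ_n(G). If i > 1 and γ_{i+1}(N) ≠ 1, then |γ_i(N) : γ_{i+1}(N)| ≥ p^n. -/
theorem result {G : Type*} [Group G] [Finite G] {p : ℕ} [Fact p.Prime] (hG : IsPGroup p G) (n : ℕ) (hn : 1 ≤ n) (N : Subgroup G) [N.Normal] (hN : N ≤ (⊤ : Subgroup G).lowerCentralSeries (n - 1)) (i : ℕ) (hi : 1 < i) (hne : N.lowerCentralSeries i ≠ ⊥) : p ^ n ≤ (N.lowerCentralSeries i).relIndex (N.lowerCentralSeries (i - 1)) := by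
  by_contra hlt
  have hp : p.Prime := Fact.out
  obtain ⟨i, rfl⟩ : ∃ j, i = j + 1 := ⟨i - 1, by omega⟩
  obtain ⟨n, rfl⟩ : ∃ j, n = j + 1 := ⟨n - 1, by omega⟩
  simp only [Nat.add_sub_cancel] at hN hlt
  have hnorm : ∀ k, (N.lowerCentralSeries k).Normal := by
    intro k
    induction k with
    | zero => rwa [Subgroup.lowerCentralSeries_zero]
    | succ k ih => rw [Subgroup.lowerCentralSeries_succ]; infer_instance
  set M := N.lowerCentralSeries i with hM
  set L := N.lowerCentralSeries (i + 1) with hL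
  have hL' : L = ⁅M, N⁆ := Subgroup.lowerCentralSeries_succ _ _
  have hMn : M.Normal := hnorm i
  have hLn : L.Normal := hnorm (i + 1)
  have hLM : L ≤ M := hL' ▸ commutator_le_left _ _
  obtain ⟨l, hl⟩ := IsPGroup.iff_card.1 (hG.to_subgroup L)
  obtain ⟨l, rfl⟩ : ∃ j, l = j + 1 := by
    refine Nat.exists_eq_succ_of_ne_zero ?_
    rintro rfl
    exact hne (card_eq_one.1 hl)
  obtain ⟨K, hKn, hKL, hK⟩ := CfsgLib.PGroup.exists_normal_le_card_eq hG L l
    (hl ▸ Nat.pow_le_pow_right hp.pos (Nat.le_succ l))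
  obtain ⟨r, hr⟩ : ∃ r, L.relIndex M = p ^ r := (hG.to_subgroup M).index (L.subgroupOf M)
  have hr' : r ≤ n := by
    rw [hr, not_le, Nat.pow_lt_pow_iff_right hp.one_lt] at hlt
    omega
  have h1 : Nat.card (M.map (QuotientGroup.mk' K)) ≤ p ^ (n + 1) := by
    have h2 := card_map_mk'_mul_card_inf M K
    rw [inf_eq_right.2 (hKL.trans hLM), ← card_mul_relIndex_of_le hLM, hr, hl, hK] at h2
    have h3 : Nat.card (M.map (QuotientGroup.mk' K)) = p ^ (r + 1) := by
      apply Nat.eq_of_mul_eq_mul_right (pow_pos hp.pos l)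
      rw [h2]
      ring
    rw [h3]
    exact Nat.pow_le_pow_right hp.pos (by omega)
  have := Subgroup.Normal.map hMn _ (QuotientGroup.mk'_surjective K)
  have h4 := CfsgLib.PGroup.le_upperCentralSeries_of_card_le (hG.to_quotient K) _ _ h1
  have h5 : N.map (QuotientGroup.mk' K) ≤ (⊤ : Subgroup (G ⧸ K)).lowerCentralSeries n := by
    refine (map_mono hN).trans ?_
    rw [Subgroup.map_lowerCentralSeries]
    exact Subgroup.lowerCentralSeries_mono _ le_top
  have h6 := commutator_upperCentralSeries_lowerCentralSeries_le (G := G ⧸ K) 0 n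
  rw [zero_add, Subgroup.upperCentralSeries_zero] at h6
  have h7 : L ≤ K := by
    rw [hL', commutator_le_iff_map_mk'_eq_bot, eq_bot_iff]
    exact (commutator_mono h4 h5).trans h6
  have h8 := card_le_of_le h7
  rw [hl, hK, Nat.pow_le_pow_iff_right hp.one_lt] at h8
  omega

end Cfsg.Agent.S3781
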