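import Cfsg.Statements.S3782
import Cfsg.Agent.Lib.LieM.HKK
import Cfsg.Agent.S4218

set_option autoImplicit false
open Cfsg

namespace Cfsg.Agent.S3782

/-- Alperin's Theorem: for each prime p and each n ≥ 0 there is an integer l such that every finite solvable group admitting an automorphism of order p with exactly p^n fixed points has derived length at most l. -/
theorem result (p : ℕ) (hp : p.Prime) (n : ℕ) : ∃ l : ℕ, ∀ (G : Type) [Group G] [Finite G], Group.IsSolvable G → ∀ α : MulAut G, orderOf α = p → Nat.card {g : G // α g = g} = p ^ n → derivedSeries G l = ⊥ := by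
  open CfsgLib CfsgLib.LieM Subgroup in
  have := Fact.mk hp
  refine ⟨((p ^ n) ^ (p * 1)).factorial +
    (2 * (n * (p * ((n + 1) * (hkk p + 1)))) + (hkk p + 1)) + hkk p, fun G _ _ hG α hα hn => ?_⟩
  have hf : ∀ g, (α : G →* G)^[p] g = g := fun g => by
    have h := mulAut_pow_apply α p g
    rw [← hα, pow_orderOf_eq_one] at h
    rw [← hα]
    exact h.symm
  have hb := bijective_of_iterate hp.pos hf
  have := Core.pPrimeCore_characteristic p G
  have hO : ∀ x ∈ pPrimeCore p G, (α : G →* G) x ∈ pPrimeCore p G :=
    fun x hx => mem_of_characteristic _ hb hx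
  have hO' : pPrimeCore p G ≤ (pPrimeCore p G).comap (α : G →* G) := hO
  refine derivedSeries_add_eq_bot (H := pPrimeCore p G) ?_ ?_
  · rw [← QuotientGroup.ker_mk' (pPrimeCore p G), ← Subgroup.map_eq_bot_iff,
      map_derivedSeries_eq (QuotientGroup.mk'_surjective _)]
    have h1 := (card_fix_quotient_le (α : G →* G) (pPrimeCore p G) hO').trans hn.le
    have h2 : ∀ x, (QuotientGroup.map _ _ (α : G →* G) hO')^[p] x = x := fun x => by
      obtain ⟨x, rfl⟩ := QuotientGroup.mk_surjective x
      rw [quotMap_iterate, hf]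
    have h3 := Core.centralizer_pCore_le_of_isSolvable hp (Core.pPrimeCore_quotient_pPrimeCore p G)
    have h4 : Group.IsSolvable (G ⧸ pPrimeCore p G) := inferInstance
    generalize QuotientGroup.map _ _ (α : G →* G) hO' = f at h1 h2
    set X := G ⧸ pPrimeCore p G
    have hb := bijective_of_iterate hp.pos h2
    have := Core.pCore_characteristic p X
    have hP : ∀ x ∈ pCore p X, f x ∈ pCore p X := fun x hx => mem_of_characteristic _ hb hx
    refine derivedSeries_add_eq_bot (H := pCore p X) ?_ (derivedSeries_eq_bot_of_isPGroup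
      (Core.isPGroup_pCore p X) (resEnd f _ hP) (fun g => Subtype.ext (by rw [resEnd_iterate, h2]))
      ((card_fix_resEnd_le f _ hP).trans h1))
    set Φ := (frattini (pCore p X)).map (pCore p X).subtype with hΦ
    have hΦc : Φ.Characteristic := inferInstance
    have hs := QuotientGroup.mk'_surjective Φ
    have := (inferInstance : (pCore p X).Normal).map _ hs
    let ρ : X →* MulAut ((pCore p X).map (QuotientGroup.mk' Φ)) :=
      MulAut.conjNormal.comp (QuotientGroup.mk' Φ)
    have h5 : Nat.card ((pCore p X).map (QuotientGroup.mk' Φ)) ≤ (p ^ n) ^ (p * 1) := by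
      rw [← relIndex_ker, QuotientGroup.ker_mk']
      refine (relIndex_le_pow_card_fix (e := 1) hp f h2 (fun x hx => mem_of_characteristic _ hb hx)
        hP (Core.commutator_le_map_frattini (Core.isPGroup_pCore p X)) fun x hx => ?_).trans
        (Nat.pow_le_pow_left h1 _)
      rw [pow_one]
      exact Core.pow_mem_map_frattini (Core.isPGroup_pCore p X) hx
    have h6 : Nat.card ρ.range ≤ ((p ^ n) ^ (p * 1)).factorial := by
      refine le_trans ?_ (Nat.factorial_le h5)
      rw [← Nat.card_perm]
      exact Nat.card_le_card_of_injective (fun x => MulAut.toPerm _ x.1) fun a b e =>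
        Subtype.ext (MulEquiv.toEquiv_injective e)
    have := Group.isSolvable_of_surjective ρ.rangeRestrict_surjective
    have h7 := derivedSeries_eq_bot_of_card_le h6
    rw [← map_derivedSeries_eq ρ.rangeRestrict_surjective, Subgroup.map_eq_bot_iff,
      MonoidHom.ker_rangeRestrict] at h7
    refine h7.trans fun g hg => (Cfsg.Agent.S4218.key h3 g).mp fun x hx => ?_
    have h8 := congrArg Subtype.val
      (DFunLike.congr_fun (MonoidHom.mem_ker.mp hg) ⟨_, mem_map_of_mem _ hx⟩)
    rw [← QuotientGroup.eq_one_iff, QuotientGroup.mk_mul, QuotientGroup.mk_inv, mul_inv_eq_one]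
    exact h8
  · refine le_bot_iff.mp ((Subgroup.derived_le_lower_central _).trans (lcs_hkk_eq_bot (resEnd _ _ hO)
      (fun g => Subtype.ext (by rw [resEnd_iterate, hf])) fun g hg => ?_).le)
    have h1 : (g : G) ∈ (α : G →* G).eqLocus (MonoidHom.id G) := congrArg Subtype.val hg
    have h2 := Subgroup.orderOf_dvd_natCard _ h1
    have h3 : Nat.card ((α : G →* G).eqLocus (MonoidHom.id G)) = p ^ n := hn
    rw [h3, orderOf_coe] at h2
    rw [← orderOf_eq_one_iff]
    exact Nat.eq_one_of_dvd_coprimes ((Core.coprime_card_pPrimeCore p G).pow_right n)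
      (_root_.orderOf_dvd_natCard g) h2

end Cfsg.Agent.S3782
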