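import Cfsg.Statements.S3785
import Cfsg.Agent.Lib.Core.Fitting
import Cfsg.Agent.Lib.Core.MinNormal
import Cfsg.Agent.Lib.Coprime.Sylow
import Cfsg.Agent.Lib.BGI.OmegaOdd
import Cfsg.Agent.Lib.Transfer.Residual

set_option autoImplicit false
open Cfsg

namespace Cfsg.Agent.S3785

open Subgroup CfsgLib.Core

/-- Let G be a finite solvable group whose Fitting subgroup F(G) has odd order. If an element g of G commutes with every element of prime order of F(G), then g ∈ F(G). -/
theorem result {G : Type*} [Group G] [Finite G] (hG : Group.IsSolvable G) (hodd : Odd (Nat.card (Cfsg.fittingSubgroup G))) (g : G) (hg : ∀ x ∈ Cfsg.fittingSubgroup G, (orderOf x).Prime → g * x = x * g) : g ∈ Cfsg.fittingSubgroup G := by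
  set F := Cfsg.fittingSubgroup G with hF
  have hFn : F.Normal := fittingSubgroup_normal G
  set C : Subgroup G := centralizer {x | x ∈ F ∧ (orderOf x).Prime} with hC
  have hCn : C.Normal := by
    refine ⟨fun c hc g x hx => ?_⟩
    have h1 := hc (g⁻¹ * x * g⁻¹⁻¹) ⟨hFn.conj_mem x hx.1 g⁻¹, by
      rw [← MulAut.conj_apply, MulEquiv.orderOf_eq]; exact hx.2⟩
    rw [inv_inv] at h1
    calc x * (g * c * g⁻¹) = g * (g⁻¹ * x * g * c) * g⁻¹ := by group
      _ = g * c * g⁻¹ * x := by rw [h1]; group
  have key : ∀ (p : ℕ) (A : Subgroup G), p.Prime → A ≤ C → (Nat.card A).Coprime p →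
      A ≤ centralizer (Cfsg.pCore p G : Set G) := by
    intro p A hp hAC hcop
    have := Fact.mk hp
    have hOF : Cfsg.pCore p G ≤ F := pCore_le_fittingSubgroup hp
    by_cases h2 : p = 2
    · have : Cfsg.pCore p G = ⊥ := by
        rw [← isPGroup_inf_eq_bot_of_coprime (isPGroup_pCore p G) (H := F)
          (by rw [h2]; exact Nat.coprime_two_right.2 hodd), inf_eq_left.2 hOF]
      rw [this]
      intro a _ y hy
      rw [mem_bot.1 hy, one_mul, mul_one]
    · refine CfsgLib.BGI.le_centralizer_of_centralizes_order_p h2 (isPGroup_pCore p G)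
        le_normalizer_of_normal hcop fun x hx hxp a ha => ?_
      by_cases hx1 : x = 1
      · simp [hx1]
      · exact (hAC ha x ⟨hOF hx, by rwa [orderOf_eq_prime hxp hx1]⟩).symm
  have hgC : g ∈ C := fun x hx => (hg x hx.1 hx.2).symm
  have hCF : C ⊓ F = C := by
    refine CfsgLib.Coprime.eq_of_forall_sylow_le inf_le_left fun q hq _ => ?_
    have := Fact.mk hq
    obtain ⟨P, -, hPC, hP, hPi⟩ := CfsgLib.Coprime.exists_le_sylow_relIndex (p := q)
      (bot_le : ⊥ ≤ C) IsPGroup.of_bot
    refine ⟨P, le_inf hPC ?_, hPi⟩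
    set E := Cfsg.pPrimeCore q G ⊓ F with hE
    have hEc : (Nat.card E).Coprime q :=
      Nat.Coprime.coprime_dvd_left (card_dvd_of_le inf_le_left) (coprime_card_pPrimeCore q G)
    set D := C ⊓ centralizer (E : Set G) with hD
    have hPD : P ≤ D := by
      refine le_inf hPC (le_centralizer_iff.1 ?_)
      have : E ⊓ centralizer (P : Set G) = E := by
        refine CfsgLib.Coprime.eq_of_forall_sylow_le inf_le_left fun p hp hpE => ?_
        have := Fact.mk hp
        obtain ⟨R, -, hRE, hR, hRi⟩ := CfsgLib.Coprime.exists_le_sylow_relIndex (p := p)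
          (bot_le : ⊥ ≤ E) IsPGroup.of_bot
        refine ⟨R, le_inf hRE ?_, hRi⟩
        refine le_trans (le_pCore_of_le_fittingSubgroup (hRE.trans inf_le_right) hR)
          (le_centralizer_iff.1 (key p P hp hPC ?_))
        exact isPGroup_coprime_card hP (Nat.Coprime.coprime_dvd_left hpE hEc)
      rw [← this]
      exact inf_le_right
    refine hPD.trans (le_fittingSubgroup ?_)
    have hres : Cfsg.pResidual q D ≤ center D := by
      rw [CfsgLib.Transfer.pResidual_le_iff]
      intro y hy
      rw [← Subgroup.orderOf_coe] at hy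
      have h1 : (y : G) ∈ F := by
        apply centralizer_fittingSubgroup_le
        rw [fittingSubgroup_eq_pCore_sup hq, centralizer_sup]
        exact ⟨key q (zpowers (y : G)) hq (zpowers_le_of_mem y.2.1) (by rwa [Nat.card_zpowers])
          (mem_zpowers _), y.2.2⟩
      have h2 : (y : G) ∈ E := ⟨le_pPrimeCore_of_le_fittingSubgroup (zpowers_le_of_mem h1)
        (by rwa [Nat.card_zpowers]) (mem_zpowers _), h1⟩
      rw [mem_center_iff]
      intro d
      exact Subtype.ext (d.2.2 _ h2).symm
    have := CfsgLib.Transfer.pResidual_normal q D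
    have := (CfsgLib.Transfer.isPGroup_quotient_pResidual (p := q) (G := D)).isNilpotent
    exact Subgroup.isNilpotent_of_ker_le_center (QuotientGroup.mk' (Cfsg.pResidual q D))
      (by rwa [QuotientGroup.ker_mk'])
  exact (hCF.ge hgC).2

end Cfsg.Agent.S3785
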