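import Cfsg.Statements.S3787
import Cfsg.Agent.Lib.PLen.HHB
import Cfsg.Agent.Lib.CFun.Section

set_option autoImplicit false
open Cfsg

namespace Cfsg.Agent.S3787

open Subgroup CfsgLib.PLen CfsgLib.Core CfsgLib.PLocal CfsgLib.HH CfsgLib.CFun Finset

universe u v

/-- `W` looks like the wreath product `C_p ≀ C_p` -/
def Wr (p : ℕ) (W : Type u) [Group W] : Prop :=
  ∃ (B : Subgroup W) (t : W), B.Normal ∧ IsMulCommutative B ∧ (∀ b ∈ B, b ^ p = 1) ∧
    Nat.card B = p ^ p ∧ orderOf t = p ∧ t ∉ B ∧ Nat.card W = p ^ (p + 1) ∧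
    Nat.card ↥(B ⊓ Subgroup.centralizer ({t} : Set W)) = p

theorem Wr.of_equiv {p : ℕ} {W : Type u} {W' : Type v} [Group W] [Group W'] (e : W ≃* W')
    (h : Wr p W) : Wr p W' := by
  obtain ⟨B, t, h1, h2, h3, h4, h5, h6, h7, h8⟩ := h
  refine ⟨B.map (e : W →* W'), e t, Normal.map h1 _ e.surjective, inferInstance, ?_, ?_, ?_, ?_,
    ?_, ?_⟩
  · rintro _ ⟨b, hb, rfl⟩
    rw [← map_pow, h3 b hb, map_one]
  · rw [card_map_equiv, h4]
  · rw [e.orderOf_eq, h5]
  · rintro ⟨b, hb, hbt⟩
    exact h6 (e.injective hbt ▸ hb)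
  · rw [← Nat.card_congr e.toEquiv, h7]
  · rw [← h8, ← card_map_equiv _ e, map_inf_eq _ _ _ e.injective, ← centralizer_zpowers,
      ← centralizer_zpowers, map_equiv_centralizer, MonoidHom.map_zpowers]
    rfl

theorem geom_eq {p : ℕ} [Fact p.Prime] {A : Type*} [Ring A] [Algebra (ZMod p) A] (T : A) :
    ∑ i ∈ range p, T ^ i = (T - 1) ^ (p - 1) ∧ T ^ p - 1 = (T - 1) ^ p := by
  have h1 : (Polynomial.X ^ p - 1 : Polynomial (ZMod p)) = (Polynomial.X - 1) ^ p := by
    rw [sub_pow_char, one_pow]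
  have h2 : (∑ i ∈ range p, Polynomial.X ^ i : Polynomial (ZMod p)) =
      (Polynomial.X - 1) ^ (p - 1) := by
    refine mul_right_cancel₀ (b := Polynomial.X - 1) (Polynomial.X_sub_C_ne_zero 1) ?_
    rw [geom_sum_mul, h1, ← pow_succ, Nat.sub_add_cancel (Fact.out : p.Prime).pos]
  have h3 := congrArg (Polynomial.aeval T) h1
  have h4 := congrArg (Polynomial.aeval T) h2
  simp only [map_sub, map_pow, map_sum, Polynomial.aeval_X, map_one] at h3 h4
  exact ⟨h4, h3⟩

theorem indep {F M : Type*} [Field F] [AddCommGroup M] [Module F M] (N : Module.End F M) (m : ℕ)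
    (hN : N ^ (m + 1) = 0) {v : M} (hv : (N ^ m) v ≠ 0) :
    LinearIndependent F fun i : Fin (m + 1) => (N ^ (i : ℕ)) v := by
  rw [Fintype.linearIndependent_iff]
  intro c hc i
  induction i using WellFoundedLT.induction with
  | _ i ih =>
  have h1 := congrArg (N ^ (m - i)) hc
  rw [map_sum, map_zero, Finset.sum_eq_single i] at h1
  · rw [map_smul, ← Module.End.mul_apply, ← pow_add, Nat.sub_add_cancel (by omega)] at h1
    exact (smul_eq_zero.1 h1).resolve_right hv
  · intro j _ hj
    rcases lt_or_gt_of_ne hj with h | h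
    · rw [ih j h, zero_smul, map_zero]
    · have h' : (i : ℕ) < j := h
      obtain ⟨k, hk⟩ : ∃ k, m - i + j = k + (m + 1) := ⟨m - i + j - (m + 1), by omega⟩
      rw [map_smul, ← Module.End.mul_apply, ← pow_add, hk, pow_add, hN, mul_zero,
        LinearMap.zero_apply, smul_zero]
  · intro h
    exact absurd (mem_univ i) h

theorem exists_wr {p : ℕ} [hp : Fact p.Prime] {H : Type u} [Group H] [Finite H] {V : Subgroup H}
    [V.Normal] (hV : IsElementaryAbelian p V) {t : H} (ht : t ^ p = 1) {v : H} (hv : v ∈ V)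
    (hvt : (v * t) ^ p ≠ 1) : ∃ W : Subgroup H, W ≤ V ⊔ zpowers t ∧ Wr p W := by
  obtain ⟨m, hm⟩ : ∃ m, p = m + 1 := ⟨p - 1, (Nat.sub_add_cancel hp.out.pos).symm⟩
  set T := conjRep hV t with hT
  set N := T - 1 with hN
  set w := ElemMod.ofG hV v hv with hw
  have hNp : N ^ (m + 1) = 0 := by
    rw [← hm, hN, ← (geom_eq T).2, hT, ← map_pow, ht, map_one, sub_self]
  have hNw : (N ^ m) w ≠ 0 := by
    intro h0
    apply hvt
    have := mul_pow_eq hV w t p
    rw [(geom_eq _).1, ht, mul_one, show p - 1 = m by omega, h0, ElemMod.toG_zero] at this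
    exact this
  have hind := indep N m hNp hNw
  set S := Submodule.span (ZMod p) (Set.range fun i : Fin (m + 1) => (N ^ (i : ℕ)) w) with hS
  have hNS : ∀ x ∈ S, N x ∈ S := by
    intro x hx
    refine Submodule.span_induction (fun x hx => ?_) (by simp) (fun x y _ _ hx hy => ?_)
      (fun c x _ hx => ?_) hx
    · obtain ⟨i, rfl⟩ := hx
      rw [← Module.End.mul_apply, ← pow_succ']
      by_cases hi : (i : ℕ) + 1 < m + 1
      · exact Submodule.subset_span ⟨⟨i + 1, hi⟩, rfl⟩
      · rw [show (i : ℕ) + 1 = m + 1 by omega, hNp]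
        exact S.zero_mem
    · rw [map_add]; exact S.add_mem hx hy
    · rw [map_smul]; exact S.smul_mem c hx
  set B := ElemMod.toSubgroup S with hB
  have hBV : B ≤ V := ElemMod.toSubgroup_le S
  have hBel : IsElementaryAbelian p B := isElementaryAbelian_of_le hV hBV
  have hcard : Nat.card B = p ^ p := by
    rw [hB, ElemMod.card_toSubgroup_eq_pow, hS, finrank_span_eq_card hind, Fintype.card_fin, ← hm]
  have htV : t ∉ V := by
    intro h
    have h1 : T = 1 := (conjRep_eq_one_iff hV t).2 fun x hx =>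
      isMulCommutative_iff_forall.1 hV.1 x hx t h
    apply hNw
    rw [hN, h1, sub_self, zero_pow (by have := hp.out.two_le; omega), LinearMap.zero_apply]
  have hto : orderOf t = p := orderOf_eq_prime ht fun h => htV (h ▸ one_mem V)
  have htB : zpowers t ≤ normalizer (B : Set H) := by
    refine zpowers_le_of_mem (mem_normalizer_of_forall_conj_mem ?_)
    intro x hx
    obtain ⟨x, hx', rfl⟩ := ElemMod.mem_toSubgroup.1 hx
    rw [← toG_conjRep]
    refine ElemMod.toG_mem_toSubgroup.2 ?_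
    have := S.add_mem (hNS x hx') hx'
    rwa [hN, LinearMap.sub_apply, Module.End.one_apply, sub_add_cancel] at this
  have hC : B ⊓ centralizer {t} = ElemMod.toSubgroup (Submodule.span (ZMod p) {(N ^ m) w}) := by
    have hfix : ∀ x : ElemMod hV, x.toG ∈ centralizer {t} ↔ N x = 0 := by
      intro x
      rw [mem_centralizer_singleton_iff, hN, LinearMap.sub_apply, Module.End.one_apply,
        sub_eq_zero, ← ElemMod.toG_inj, hT, toG_conjRep, mul_inv_eq_iff_eq_mul, eq_comm]
    refine le_antisymm ?_ ?_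
    · rintro x ⟨hx, hxt⟩
      obtain ⟨x, hx', rfl⟩ := ElemMod.mem_toSubgroup.1 hx
      refine ElemMod.toG_mem_toSubgroup.2 ?_
      have h0 := (hfix x).1 hxt
      obtain ⟨c, rfl⟩ := (Submodule.mem_span_range_iff_exists_fun (ZMod p)).1 hx'
      rw [Fin.sum_univ_castSucc] at h0 ⊢
      rw [map_add, map_smul, ← Module.End.mul_apply, ← pow_succ', Fin.val_last, hNp,
        LinearMap.zero_apply, smul_zero, add_zero, map_sum] at h0
      have h1 := Fintype.linearIndependent_iff.1 (hind.comp Fin.succ (Fin.succ_injective m))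
        (fun i => c i.castSucc) (by
          rw [← h0]
          refine Finset.sum_congr rfl fun i _ => ?_
          rw [map_smul, ← Module.End.mul_apply, ← pow_succ']
          rfl)
      rw [Finset.sum_eq_zero fun i _ => by rw [h1 i, zero_smul], zero_add]
      exact Submodule.smul_mem _ _ (Submodule.mem_span_singleton_self _)
    · intro x hx
      obtain ⟨x, hx', rfl⟩ := ElemMod.mem_toSubgroup.1 hx
      obtain ⟨c, rfl⟩ := Submodule.mem_span_singleton.1 hx'
      refine ⟨ElemMod.toG_mem_toSubgroup.2 (S.smul_mem c (Submodule.subset_span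
        ⟨Fin.last m, rfl⟩)), (hfix _).2 ?_⟩
      rw [map_smul, ← Module.End.mul_apply, ← pow_succ', hNp, LinearMap.zero_apply, smul_zero]
  refine ⟨zpowers t ⊔ B, sup_le le_sup_right (hBV.trans le_sup_left), B.subgroupOf _,
    ⟨t, mem_sup_left (mem_zpowers t)⟩, ?_, ?_, ?_, ?_, ?_, ?_, ?_, ?_⟩
  · exact (normal_subgroupOf_iff_le_normalizer le_sup_right).2 (sup_le htB le_normalizer)
  · have := hBel.1
    infer_instance
  · intro b hb
    exact Subtype.ext (hBel.2 _ hb)
  · rw [card_subgroupOf_of_le le_sup_right, hcard]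
  · rw [← Subgroup.orderOf_coe, hto]
  · exact fun h => htV (hBV h)
  · rw [card_sup_of_le_normalizer_of_disjoint htB (zpowers_inf_eq_bot_of_prime_orderOf
      (hto ▸ hp.out) fun h => htV (hBV h)), Nat.card_zpowers, hto, hcard, pow_succ']
  · have : B.subgroupOf (zpowers t ⊔ B) ⊓ centralizer {⟨t, mem_sup_left (mem_zpowers t)⟩} =
        (B ⊓ centralizer {t}).subgroupOf (zpowers t ⊔ B) := by
      ext x
      simp only [Subgroup.mem_inf, mem_subgroupOf, mem_centralizer_singleton_iff, Subtype.ext_iff,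
        Subgroup.coe_mul]
    rw [this, card_subgroupOf_of_le (inf_le_left.trans le_sup_right), hC,
      ElemMod.card_toSubgroup_eq_pow, finrank_span_singleton hNw, pow_one]

theorem exists_wr' {p : ℕ} [hp : Fact p.Prime] {H : Type u} [Group H] [Finite H] {V : Subgroup H}
    [V.Normal] (hV : IsElementaryAbelian p V) {y : H} (hy : y ^ p ∈ V)
    (hS : ∑ i ∈ range p, conjRep hV y ^ i ≠ 0) :
    ∃ (W : Type u) (_ : Group W), Wr p W ∧ Sec W ↥(V ⊔ zpowers y) := by
  obtain ⟨v, hv⟩ : ∃ v, (∑ i ∈ range p, conjRep hV y ^ i) v ≠ 0 := by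
    by_contra h
    push Not at h
    exact hS (LinearMap.ext h)
  have hcomm := isMulCommutative_iff_forall.1 hV.1
  by_cases h : ∃ u ∈ V, (u * y) ^ p = 1
  · obtain ⟨u, hu, huy⟩ := h
    have h1 : conjRep hV (u * y) = conjRep hV y := by
      rw [map_mul, (conjRep_eq_one_iff hV u).2 fun x hx => hcomm x hx u hu, one_mul]
    obtain ⟨W, hW, hW'⟩ := exists_wr hV huy v.toG_mem (by
      rw [mul_pow_eq, huy, mul_one, h1, Ne, ElemMod.toG_eq_one]; exact hv)
    have h2 : W ≤ V ⊔ zpowers y := hW.trans (sup_le le_sup_left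
      (zpowers_le_of_mem (mul_mem_sup hu (mem_zpowers y))))
    exact ⟨W, inferInstance, hW', Sec.of_injective _ (inclusion_injective h2)⟩
  · push Not at h
    set K := V ⊔ zpowers y with hK
    set y' : K := ⟨y, mem_sup_right (mem_zpowers y)⟩ with hy'
    have hz : zpowers (y' ^ p) ≤ center K := by
      refine zpowers_le_of_mem (mem_center_iff.2 fun g => Subtype.ext ?_)
      have : K ≤ centralizer {y ^ p} := sup_le
        (fun x hx => mem_centralizer_singleton_iff.2 (hcomm x hx _ hy))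
        (zpowers_le_of_mem (mem_centralizer_singleton_iff.2 (Commute.self_pow y p)))
      exact mem_centralizer_singleton_iff.1 (this g.2)
    have := normal_of_le_center hz
    have : ((V.subgroupOf K).map (QuotientGroup.mk' (zpowers (y' ^ p)))).Normal :=
      Normal.map inferInstance _ (QuotientGroup.mk'_surjective _)
    obtain ⟨W, -, hW'⟩ := exists_wr (isElementaryAbelian_map
      (isElementaryAbelian_comap_of_injective hV K.subtype_injective)
      (QuotientGroup.mk' (zpowers (y' ^ p)))) (t := QuotientGroup.mk' _ y')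
      (by rw [← map_pow]; exact (QuotientGroup.eq_one_iff _).2 (mem_zpowers _))
      (mem_map_of_mem _ (x := ⟨v.toG, mem_sup_left v.toG_mem⟩) v.toG_mem) (by
        rw [← map_mul, ← map_pow]
        intro h1
        obtain ⟨k, hk⟩ := (QuotientGroup.eq_one_iff _).1 h1
        have h2 : (y ^ p) ^ k = (v.toG * y) ^ p := congrArg Subtype.val hk
        rw [mul_pow_eq] at h2
        have h3 : (∑ i ∈ range p, conjRep hV y ^ i) v =
            ((k - 1 : ℤ) : ZMod p) • ElemMod.ofG hV _ hy := by
          refine ElemMod.toG_injective ?_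
          rw [ElemMod.toG_intCast_smul, ElemMod.toG_ofG, zpow_sub_one, h2, mul_inv_cancel_right]
        have h4 : ((k - 1 : ℤ) : ZMod p) ≠ 0 := fun h0 => hv (by rw [h3, h0, zero_smul])
        refine h _ (-(((k - 1 : ℤ) : ZMod p)⁻¹ • v)).toG_mem ?_
        rw [mul_pow_eq, map_neg, map_smul, h3, smul_smul, inv_mul_cancel₀ h4, one_smul,
          ElemMod.toG_neg, ElemMod.toG_ofG, inv_mul_cancel])
    exact ⟨W, inferInstance, hW', (sec_subgroup W).trans (sec_quotient _)⟩

/-- Let G be a finite p-soluble group, p an odd prime not of the form 2^k + 1, and suppose the wreath product C_p ≀ C_p (of order p^(p+1)) is not involved in a Sylow p-subgroup of G: no section of a Sylow p-subgroup is isomorphic to it. Then G has p-length at most 1. -/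
theorem result {G : Type*} [Group G] [Finite G] {p : ℕ} [Fact p.Prime] (hp2 : p ≠ 2) (hnf : (¬ ∃ k : ℕ, p = 2 ^ k + 1)) (hG : Cfsg.IsPSolvable p G) (P : Sylow p G) (hwr : ∀ (W : Type) [Group W] [Finite W], (∃ (B : Subgroup W) (t : W), B.Normal ∧ IsMulCommutative B ∧ (∀ b ∈ B, b ^ p = 1) ∧ Nat.card B = p ^ p ∧ orderOf t = p ∧ t ∉ B ∧ Nat.card W = p ^ (p + 1) ∧ Nat.card ↥(B ⊓ Subgroup.centralizer ({t} : Set W)) = p) → ¬ Cfsg.Involves W ↥(P : Subgroup G)) : Cfsg.PLengthLE p 1 G := by
  refine plen_one_of_sylow_le P fun x hx => ?_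
  by_contra hxO
  obtain ⟨X, _, _, f, hf, hX, hV, hc, hfX⟩ := exists_reduction hG
  rw [← hfX, mem_comap] at hxO
  obtain ⟨k, hk⟩ := isPGroup_subgroup_iff.1 P.isPGroup' x hx
  have hex : ∃ k : ℕ, f x ^ p ^ k ∈ pCore p X := ⟨k, by rw [← map_pow, hk, map_one]; exact one_mem _⟩
  classical
  obtain ⟨a, ha⟩ : ∃ a, Nat.find hex = a + 1 := Nat.exists_eq_succ_of_ne_zero fun h0 => by
    have := Nat.find_spec hex
    rw [h0, pow_zero, pow_one] at this
    exact hxO this
  have h1 : (f x ^ p ^ a) ^ p ∈ pCore p X := by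
    rw [← pow_mul, ← pow_succ, ← ha]
    exact Nat.find_spec hex
  have h2 : f x ^ p ^ a ∉ pCore p X := Nat.find_min hex (by omega)
  have := elem_finiteDimensional hV
  obtain ⟨q, Q, hq, hqp, hQ, -, -, hH⟩ := hhb (PSolv.quotient hX _) PSolv.pCore_quotient
    (quotRep hV) (quotRep_faithful hV hc) (QuotientGroup.mk (f x ^ p ^ a)) 0
    (by rw [zero_add, pow_one]; exact (QuotientGroup.eq_one_iff ((f x ^ p ^ a) ^ p)).2 h1)
    (by rw [pow_zero, pow_one]; exact fun h => h2 ((QuotientGroup.eq_one_iff _).1 h))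
  have h3 := (HHConcl.powIndep_of_noExc (noExc_of_not_fermat hp2 hnf) hq hqp hQ hH).sum_ne_zero
    (pow_pos (Fact.out : p.Prime).pos _)
  rw [zero_add, pow_one] at h3
  obtain ⟨W, _, hW, hsec⟩ := exists_wr' hV h1 h3
  have h4 : pCore p X ⊔ zpowers (f x ^ p ^ a) ≤ (P : Subgroup G).map f :=
    sup_le (PSolv.pCore_le_sylow (P.mapSurjective hf))
      (zpowers_le_of_mem (pow_mem (mem_map_of_mem f hx) _))
  have h5 : Sec W P := hsec.trans ((Sec.of_injective _ (inclusion_injective h4)).trans
    (Sec.of_surjective _ (f.subgroupMap_surjective P)))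
  have := h5.finite
  have e : Shrink.{0} W ≃* W := Shrink.mulEquiv
  have : Finite (Shrink.{0} W) := Finite.of_equiv _ e.symm.toEquiv
  exact hwr (Shrink.{0} W) (hW.of_equiv e.symm) (sec_iff_involves.1 ((Sec.of_equiv e).trans h5))

end Cfsg.Agent.S3787
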