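import Cfsg.Statements.S3788
import Cfsg.Agent.S3787
import Cfsg.Agent.Lib.LocStr.RankOne
import Cfsg.Agent.Lib.Dickson.Cayley

set_option autoImplicit false
open Cfsg

namespace Cfsg.Agent.S3788

open Subgroup CfsgLib.PLen CfsgLib.Core CfsgLib.PLocal CfsgLib.HH CfsgLib.CFun Finset

universe u v

theorem sec_S4 {X : Type u} [Group X] {z s d : X} (hs : s ^ 2 = 1) (hz : z ^ 2 = 1)
    (hsz : s * z = z * s) (hsd : s * d * s⁻¹ = d⁻¹) (hd3 : d ^ 3 * z = z * d ^ 3)
    (hc : (z * (s * d * z * (s * d)⁻¹)) ^ 2 = 1)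
    (hc' : z * (s * d * z * (s * d)⁻¹) ∉ zpowers (d ^ 3)) : Sec (Equiv.Perm (Fin 4)) X := by
  set K := normalizer (zpowers (d ^ 3) : Set X) with hK
  have hcen : ∀ g : X, d ^ 3 * g = g * d ^ 3 → g ∈ K := fun g hg =>
    centralizer_le_normalizer _ (by
      rw [centralizer_zpowers]; exact mem_centralizer_singleton_iff.2 hg.symm)
  have hsK : s ∈ K := by
    rw [hK, mem_normalizer_iff_map_conj_eq', MonoidHom.map_zpowers]
    have : (MulAut.conj s).toMonoidHom (d ^ 3) = (d ^ 3)⁻¹ := by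
      rw [map_pow, ← inv_pow, ← hsd]; rfl
    rw [this, zpowers_inv]
  set z' : K := ⟨z, hcen z hd3⟩
  set s' : K := ⟨s, hsK⟩
  set d' : K := ⟨d, hcen d (by group)⟩
  have hs2 : s⁻¹ = s := by rw [inv_eq_iff_mul_eq_one, ← pow_two, hs]
  have h1 : (z * s * d) ^ 2 = z * (s * d * z * (s * d)⁻¹) := by
    have : s * d * s * d = 1 := by
      have h := hsd
      rw [hs2] at h
      rw [h, inv_mul_cancel]
    calc (z * s * d) ^ 2 = z * (s * d * z * (s * d)⁻¹) * (s * d * s * d) := by rw [pow_two]; group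
      _ = _ := by rw [this, mul_one]
  obtain ⟨φ, ha, hb⟩ := CfsgLib.Dickson.exists_hom_S4
    (a := QuotientGroup.mk' ((zpowers (d ^ 3)).subgroupOf K) (z' * s'))
    (b := QuotientGroup.mk' ((zpowers (d ^ 3)).subgroupOf K) d') (by
      have : (z' * s') ^ 2 = 1 := Subtype.ext (by
        change (z * s) ^ 2 = 1
        rw [Commute.mul_pow hsz.symm, hs, hz, one_mul])
      rw [← map_pow, this, map_one])
    (by rw [← map_pow]; exact (QuotientGroup.eq_one_iff _).2 (mem_zpowers _)) (by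
      have : (z' * s' * d') ^ 4 = 1 := Subtype.ext (by
        change (z * s * d) ^ (2 * 2) = 1
        rw [pow_mul, h1, hc])
      rw [← map_mul, ← map_pow, this, map_one])
  refine (Sec.of_injective φ (CfsgLib.Dickson.s4_hom_injective φ ?_)).trans (sec_section _ _)
  rw [ha, hb, ← map_mul, ← map_pow]
  intro h
  have h2 : (z * s * d) ^ 2 ∈ zpowers (d ^ 3) :=
    (QuotientGroup.eq_one_iff ((z' * s' * d') ^ 2)).1 h
  exact hc' (h1 ▸ h2)

theorem zmod_two : ∀ c : ZMod 2, c = 0 ∨ c = 1 := by decide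

theorem core {p : ℕ} [hp : Fact p.Prime] {X : Type u} [Group X] [Finite X] (hX : IsPSolvable p X)
    (hV : IsElementaryAbelian p (pCore p X))
    (hc : centralizer (pCore p X : Set X) ≤ pCore p X) {x : X} (hx : x ∉ pCore p X)
    (hxp : x ^ p ∈ pCore p X) (hx1 : x ^ p ≠ 1)
    (hxV : ∀ v ∈ pCore p X, x * v * x⁻¹ * v⁻¹ ∈ zpowers (x ^ p)) :
    p = 2 ∧ Sec (Equiv.Perm (Fin 4)) X := by
  set V := pCore p X with hVdef
  have hf := QuotientGroup.mk'_surjective V
  have hcomm := isMulCommutative_iff_forall.1 hV.1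
  obtain ⟨q, Q', hq, hqp, hQ', -, hxQ', g', hg', hne⟩ := exists_inv_not_comm (PSolv.quotient hX V)
    PSolv.pCore_quotient (T := zpowers (QuotientGroup.mk' V x))
    (isPGroup_zpowers_iff.2 ⟨1, by
      rw [pow_one, ← map_pow]; exact (QuotientGroup.eq_one_iff _).2 hxp⟩)
    (mem_zpowers _) (fun h => hx ((QuotientGroup.eq_one_iff _).1 h))
  have := Fact.mk hq
  obtain ⟨Q, hQ, rfl⟩ := exists_pSubgroup_lift hf hQ'
  obtain ⟨g, hg, rfl⟩ := mem_map.1 hg'
  have hQp : (Nat.card Q).Coprime p := isPGroup_coprime_card hQ ((Nat.coprime_primes hp.out hq).2 hqp.symm)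
  have hVQ : V ⊓ Q = ⊥ := isPGroup_inf_eq_bot_of_coprime (isPGroup_pCore p X) hQp
  have h1 := hxQ' (mem_zpowers _)
  rw [← CfsgLib.Coprime.map_normalizer_quotient V
    (isPGroup_coprime_card (isPGroup_pCore p X) hQp).symm
    (Or.inl (CfsgLib.Coprime.isSolvable_of_isPGroup hQ))] at h1
  obtain ⟨s, hsQ, hsx⟩ := h1
  obtain ⟨u, hu, rfl⟩ : ∃ u ∈ V, s = u * x := ⟨s * x⁻¹, by
    rw [← QuotientGroup.ker_mk' V, MonoidHom.mem_ker, map_mul, map_inv, hsx, mul_inv_cancel],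
    by group⟩
  set s := u * x with hs
  set d := g * s * g⁻¹ * s⁻¹ with hd
  have hdQ : d ∈ Q := by
    have := mul_mem hg ((mem_normalizer_iff.1 hsQ _).1 (inv_mem hg))
    simpa [hd, mul_assoc] using this
  have hd1 : d ≠ 1 := fun h => hne (by
    rw [← hsx, ← map_mul, ← map_mul]
    congr 1
    calc s * g = (g * s * g⁻¹ * s⁻¹) * (s * g) := by rw [← hd, h, one_mul]
      _ = _ := by group)
  set ρ := conjRep hV with hρ
  set ζ := ElemMod.ofG hV _ hxp with hζ
  have hρs : ρ s = ρ x := by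
    rw [hs, map_mul, (conjRep_eq_one_iff hV u).2 fun v hv => hcomm v hv u hu, one_mul]
  have hζ0 : ζ ≠ 0 := fun h => hx1 (by rw [← ElemMod.toG_ofG _ hxp (hV := hV), ← hζ, h]; rfl)
  have hT : ∀ v, ∃ c : ZMod p, ρ s v = v + c • ζ := by
    intro v
    obtain ⟨k, hk⟩ := hxV _ v.toG_mem
    refine ⟨k, ElemMod.toG_injective ?_⟩
    rw [hρs, add_comm, ElemMod.toG_add, ElemMod.toG_intCast_smul, ElemMod.toG_ofG]
    simp only at hk
    rw [hk, toG_conjRep, inv_mul_cancel_right]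
  have hTζ : ρ s ζ = ζ := ElemMod.toG_injective (by
    rw [hρs, toG_conjRep, ElemMod.toG_ofG]; group)
  set ζ' := ρ g ζ with hζ'
  have hgg : ∀ v, ρ g (ρ g⁻¹ v) = v := fun v => by
    rw [← Module.End.mul_apply, ← map_mul, mul_inv_cancel, map_one, Module.End.one_apply]
  have hT' : ∀ v, ∃ c : ZMod p, ρ (g * s * g⁻¹) v = v + c • ζ' := by
    intro v
    obtain ⟨c, hc⟩ := hT (ρ g⁻¹ v)
    exact ⟨c, by rw [map_mul, map_mul, Module.End.mul_apply, Module.End.mul_apply, hc, map_add,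
      map_smul, hgg]⟩
  have hT'ζ : ρ (g * s * g⁻¹) ζ' = ζ' := by
    rw [hζ', ← Module.End.mul_apply, ← map_mul, inv_mul_cancel_right, map_mul,
      Module.End.mul_apply, hTζ]
  have hds : ∀ v, ρ d (ρ s v) = ρ (g * s * g⁻¹) v := fun v => by
    rw [← Module.End.mul_apply, ← map_mul, hd, inv_mul_cancel_right]
  have hF : ∀ k : ℕ, k.Coprime q → (ρ d ^ k) ζ = ζ → (ρ d ^ k) ζ' = ζ' → False := by
    intro k hk h1 h2
    have h3 : (ρ d ^ k - 1) * (ρ d - 1) = 0 := by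
      refine LinearMap.ext fun v => ?_
      obtain ⟨w, rfl⟩ : ∃ w, v = ρ s w := ⟨ρ s⁻¹ v, by
        rw [← Module.End.mul_apply, ← map_mul, mul_inv_cancel, map_one, Module.End.one_apply]⟩
      obtain ⟨c, hc⟩ := hT w
      obtain ⟨c', hc'⟩ := hT' w
      rw [Module.End.mul_apply, LinearMap.sub_apply (ρ d), hds, Module.End.one_apply, hc, hc',
        add_sub_add_left_eq_sub, LinearMap.sub_apply, Module.End.one_apply, map_sub, map_smul,
        map_smul, h1, h2, sub_self, LinearMap.zero_apply]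
    have h4 : (ρ d ^ k - 1) ^ 2 = 0 := by
      rw [pow_two]
      nth_rewrite 2 [← mul_geom_sum]
      rw [← mul_assoc, h3, zero_mul]
    have h5 : (ρ d ^ k) ^ p = 1 := by
      rw [← sub_eq_zero, (S3787.geom_eq (p := p) _).2]
      exact pow_eq_zero_of_le hp.out.two_le h4
    rw [← pow_mul, ← map_pow, conjRep_eq_one_iff] at h5
    have h6 : d ^ (k * p) ∈ V ⊓ Q := ⟨hc h5, pow_mem hdQ _⟩
    rw [hVQ, mem_bot] at h6
    obtain ⟨n, hn⟩ := isPGroup_subgroup_iff.1 hQ d hdQ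
    refine hd1 (pow_eq_one_iff_of_coprime ?_ |>.1 ⟨h6, hn⟩)
    exact (Nat.Coprime.mul_left hk ((Nat.coprime_primes hp.out hq).2 hqp.symm)).pow_right _
  have hdζ : ρ d ζ = ρ (g * s * g⁻¹) ζ := by rw [← hds, hTζ]
  have hN2 : (ρ x - 1) ^ 2 = 0 := by
    refine LinearMap.ext fun v => ?_
    obtain ⟨c, hc⟩ := hT v
    rw [← hρs, pow_two, Module.End.mul_apply, LinearMap.sub_apply (ρ s) 1 v, hc,
      Module.End.one_apply, add_sub_cancel_left, LinearMap.sub_apply, map_smul, hTζ,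
      Module.End.one_apply, sub_self, LinearMap.zero_apply]
  have hsp := mul_pow_eq hV (ElemMod.ofG hV u hu) x p
  rw [ElemMod.toG_ofG, ← hs, (S3787.geom_eq _).1, ← hρ] at hsp
  have hsp1 : ∀ c : ZMod p, c ≠ 0 → s ^ p = (c • ζ).toG → False := by
    intro c hc0 h
    have h1 : g * s ^ p * g⁻¹ * (s ^ p)⁻¹ ∈ V ⊓ Q := by
      refine ⟨mul_mem (Normal.conj_mem inferInstance _ (h ▸ (c • ζ).toG_mem) g)
        (V.inv_mem (h ▸ (c • ζ).toG_mem)), ?_⟩
      have := mul_mem hg ((mem_normalizer_iff.1 (pow_mem hsQ p) _).1 (inv_mem hg))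
      simpa [mul_assoc] using this
    rw [hVQ, mem_bot, mul_inv_eq_one, h, ← toG_conjRep, ElemMod.toG_inj, map_smul] at h1
    have h2 : ζ' = ζ := smul_right_injective _ hc0 h1
    refine hF 1 (Nat.coprime_one_left _) ?_ ?_
    · rw [pow_one, hdζ, ← h2, hT'ζ]
    · rw [pow_one, h2, hdζ, ← h2, hT'ζ]
  have hp2 : p = 2 := by
    by_contra hp2
    refine hsp1 1 one_ne_zero ?_
    have : 2 ≤ p - 1 := by have := hp.out.two_le; omega
    rw [hsp, pow_eq_zero_of_le this hN2, one_smul, LinearMap.zero_apply, ElemMod.toG_zero, one_mul,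
      ElemMod.toG_ofG]
  subst hp2
  refine ⟨rfl, ?_⟩
  have hc2 := zmod_two
  have h2v : ∀ v : ElemMod hV, v + v = 0 := fun v => by
    rw [← two_smul (ZMod 2), show (2 : ZMod 2) = 0 from rfl, zero_smul]
  have hs2 : s ^ 2 = 1 := by
    obtain ⟨c, hc⟩ := hT (ElemMod.ofG hV u hu)
    have h1 : s ^ 2 = ((c + 1) • ζ).toG := by
      rw [hsp, show 2 - 1 = 1 from rfl, pow_one, ← hρs, LinearMap.sub_apply, hc,
        Module.End.one_apply, add_sub_cancel_left, add_smul, one_smul, ElemMod.toG_add,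
        ElemMod.toG_ofG]
    by_cases h : c + 1 = 0
    · rw [h1, h, zero_smul, ElemMod.toG_zero]
    · exact (hsp1 _ h h1).elim
  have hq2 : Nat.Coprime 2 q := (Nat.coprime_primes hp.out hq).2 hqp.symm
  have hsinv : s⁻¹ = s := by rw [inv_eq_iff_mul_eq_one, ← pow_two, hs2]
  have hdζ' : ρ d ζ' = ρ (g * s * g⁻¹) (ρ s ζ') := by
    rw [hd, hsinv, map_mul, Module.End.mul_apply]
  obtain ⟨c, hc1⟩ := hT ζ'
  obtain ⟨c', hc1'⟩ := hT' ζ
  rw [hc1'] at hdζ
  rw [hc1, map_add, map_smul, hT'ζ, hc1'] at hdζ'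
  rcases hc2 c with rfl | rfl <;> rcases hc2 c' with rfl | rfl <;>
    simp only [zero_smul, add_zero, one_smul] at hdζ hdζ'
  · exact (hF 1 (Nat.coprime_one_left _) (by rw [pow_one, hdζ]) (by rw [pow_one, hdζ'])).elim
  · refine (hF 2 hq2 ?_ ?_).elim
    · rw [pow_two, Module.End.mul_apply, hdζ, map_add, hdζ, hdζ', add_assoc, h2v, add_zero]
    · rw [pow_two, Module.End.mul_apply, hdζ', hdζ']
  · refine (hF 2 hq2 ?_ ?_).elim
    · rw [pow_two, Module.End.mul_apply, hdζ, hdζ]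
    · rw [pow_two, Module.End.mul_apply, hdζ', map_add, hdζ, hdζ', add_assoc, h2v, add_zero]
  · rw [add_comm ζ, ← add_assoc, h2v, zero_add] at hdζ'
    have hzV : x ^ 2 * (s * d * x ^ 2 * (s * d)⁻¹) ∈ V :=
      mul_mem hxp (Normal.conj_mem inferInstance _ hxp _)
    refine sec_S4 (z := x ^ 2) (s := s) (d := d) hs2 (hV.2 _ hxp) ?_ ?_ ?_ (hV.2 _ hzV) ?_
    · have := congrArg ElemMod.toG hTζ
      rw [toG_conjRep, ElemMod.toG_ofG] at this
      exact mul_inv_eq_iff_eq_mul.1 this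
    · rw [hd]
      calc s * (g * s * g⁻¹ * s⁻¹) * s⁻¹ = s * g * s * g⁻¹ * (s ^ 2)⁻¹ := by group
        _ = s * g * s⁻¹ * g⁻¹ := by rw [hs2, hsinv]; group
        _ = _ := by group
    · have : (ρ d ^ 3) ζ = ζ := by
        rw [pow_three, Module.End.mul_apply, Module.End.mul_apply, hdζ, map_add, hdζ, hdζ',
          add_assoc, add_comm ζ', ← add_assoc, h2v, zero_add, hdζ']
      have h3 := congrArg ElemMod.toG this
      rw [← map_pow, toG_conjRep, ElemMod.toG_ofG] at h3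
      exact mul_inv_eq_iff_eq_mul.1 h3
    · intro h
      have h3 : x ^ 2 * (s * d * x ^ 2 * (s * d)⁻¹) ∈ V ⊓ Q :=
        ⟨hzV, zpowers_le_of_mem (pow_mem hdQ 3) h⟩
      rw [hVQ, mem_bot] at h3
      have h4 : ζ + ρ (s * d) ζ = 0 := ElemMod.toG_eq_one.1 (by
        rw [ElemMod.toG_add, toG_conjRep]; exact h3)
      rw [map_mul, Module.End.mul_apply, hdζ, map_add, hTζ, hc1, one_smul, ← add_assoc, h2v,
        zero_add] at h4
      have h5 : ζ' = ζ := by rw [← add_zero ζ', ← h2v ζ, ← add_assoc, h4, zero_add]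
      rw [h5, hdζ, h5, h2v] at hdζ'
      exact hζ0 hdζ'.symm

/-- Let G be a finite p-soluble group, P a Sylow p-subgroup of G and A a cyclic normal subgroup of P. If p is odd, or if no section of G is isomorphic to the symmetric group of degree 4, then A ≤ O_{p',p}(G). -/
theorem result {G : Type*} [Group G] [Finite G] {p : ℕ} [Fact p.Prime] (hG : Cfsg.IsPSolvable p G) (P : Sylow p G) (A : Subgroup G) (hAP : A ≤ (P : Subgroup G)) (hAn : (P : Subgroup G) ≤ Subgroup.normalizer (A : Set G)) (hA : IsCyclic A) (h : p ≠ 2 ∨ ¬ Cfsg.Involves (Equiv.Perm (Fin 4)) G) : A ≤ Cfsg.pPrimePCore p G := by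
  intro a ha
  by_contra haO
  obtain ⟨X, _, _, f, hf, hX, hV, hc, hfX⟩ := exists_reduction hG
  rw [← hfX, mem_comap] at haO
  obtain ⟨k, hk⟩ := isPGroup_subgroup_iff.1 P.isPGroup' a (hAP ha)
  have hex : ∃ k : ℕ, f a ^ p ^ k ∈ pCore p X := ⟨k, by rw [← map_pow, hk, map_one]; exact one_mem _⟩
  classical
  obtain ⟨n, hn⟩ : ∃ n, Nat.find hex = n + 1 := Nat.exists_eq_succ_of_ne_zero fun h0 => by
    have := Nat.find_spec hex
    rw [h0, pow_zero, pow_one] at this
    exact haO this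
  set x := f a ^ p ^ n with hx
  have h1 : x ^ p ∈ pCore p X := by
    rw [← pow_mul, ← pow_succ, ← hn]
    exact Nat.find_spec hex
  have h2 : x ∉ pCore p X := Nat.find_min hex (by omega)
  have hxA : x ∈ A.map f := Subgroup.pow_mem _ (mem_map_of_mem f ha) _
  have hA' : IsCyclic (A.map f) := isCyclic_of_surjective _ (f.subgroupMap_surjective A)
  have hAp : IsPGroup p (A.map f) := (P.isPGroup'.to_le hAP).map f
  have hVA : pCore p X ≤ normalizer (A.map f : Set X) :=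
    (PSolv.pCore_le_sylow (P.mapSurjective hf)).trans ((map_mono hAn).trans (le_normalizer_map f))
  have h3 : ∀ v ∈ pCore p X, x * v * x⁻¹ * v⁻¹ ∈ pCore p X ⊓ A.map f := fun v hv => by
    refine ⟨mul_mem (Normal.conj_mem inferInstance v hv x) (Subgroup.inv_mem _ hv), ?_⟩
    have := mul_mem hxA ((mem_normalizer_iff.1 (hVA hv) _).1 (Subgroup.inv_mem _ hxA))
    simpa [mul_assoc] using this
  have huniq := CfsgLib.LocStr.unique_of_cyclic_or_quaternion hAp (Or.inl hA')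
  have h4 : x ^ p ≠ 1 := by
    intro h0
    refine h2 (hc fun v hv => ?_)
    by_contra hne
    have h5 : x * v * x⁻¹ * v⁻¹ ≠ 1 := fun h => hne (by
      rw [mul_inv_eq_one, mul_inv_eq_iff_eq_mul] at h; exact h.symm)
    exact h2 (zpowers_le_of_mem (h3 v hv).1 (huniq _ (h3 v hv).2 x hxA
      (orderOf_eq_prime (hV.2 _ (h3 v hv).1) h5) h0))
  obtain ⟨hp2, hsec⟩ := core hX hV hc h2 h1 h4 fun v hv =>
    huniq _ (pow_mem hxA p) _ (h3 v hv).2 (orderOf_eq_prime (hV.2 _ h1) h4) (hV.2 _ (h3 v hv).1)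
  rcases h with h | h
  · exact h hp2
  · exact h (sec_iff_involves.1 (hsec.trans (Sec.of_surjective f hf)))

end Cfsg.Agent.S3788
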