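import Cfsg.Statements.S3789
import Cfsg.Agent.Lib.PLen.DLen
import Cfsg.Agent.S3736
import Cfsg.Agent.S3787

set_option autoImplicit false
open Cfsg

namespace Cfsg.Agent.S3789

open Subgroup CfsgLib.PLen CfsgLib.Core CfsgLib.PLocal CfsgLib.HH
open scoped commutatorElement

universe u v

theorem quad_hh {p : ℕ} [hp : Fact p.Prime] (hp2 : p ≠ 2) {Γ : Type u} [Group Γ] {W : Type v}
    [AddCommGroup W] [Module (ZMod p) W] [FiniteDimensional (ZMod p) W]
    (σ : Representation (ZMod p) Γ W) {q : ℕ} (hq : q.Prime) (hqp : q ≠ p) {D : Subgroup Γ}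
    [Finite D] (hD : IsPGroup q D) {x : Γ} (hx : x ∈ normalizer (D : Set Γ))
    (hquad : (σ x - 1) ^ 2 = 0) (hnt : ∃ g ∈ D, σ x * σ g ≠ σ g * σ x) :
    p = 3 ∧ q = 2 ∧ ∃ g ∈ D, ∃ g' ∈ D, σ g * σ g' ≠ σ g' * σ g := by
  have := Fact.mk hq
  have h3 := hp.out.two_le
  rcases hh hp.out hqp.symm (natCast_zmod_ne_zero hp.out hq hqp.symm) σ D x 0 hD hx (by
    rw [zero_add, pow_one, ← sub_eq_zero, (S3787.geom_eq (p := p) _).2]
    exact pow_eq_zero_of_le h3 hquad) (by simpa using hnt) with h | ⟨c, b, k, h1, h2, -, h4, h5, h⟩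
  · have := h.le_of_sub_one_pow hquad
    rw [zero_add, pow_one] at this
    omega
  · have := h.le_of_sub_one_pow hquad
    obtain rfl : b = 1 := by omega
    obtain rfl : c = 0 := by omega
    rw [pow_zero, pow_one, one_mul] at this
    rw [pow_one] at h4
    have h6 : p = 3 := by omega
    refine ⟨h6, ?_, h5⟩
    have : q ^ k = 2 := by omega
    exact ((Nat.Prime.pow_eq_iff Nat.prime_two).1 this).1

theorem zmod_two_aux : ∀ a b c d : ZMod 2, a = 1 → b = 1 → c = 1 → c = a + b + d → d = 1 := by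
  decide

theorem aniso {Γ : Type u} [Group Γ] [Finite Γ] {W : Type v} [AddCommGroup W] [Module (ZMod 3) W]
    [FiniteDimensional (ZMod 3) W] [Nontrivial W] (σ : Representation (ZMod 3) Γ W)
    {Q B : Subgroup Γ} {z : Γ} (hZ : ⁅Q, Q⁆ ≤ center Γ) (hQ : IsPGroup 2 Q)
    (hsq : ∀ a ∈ Q, a ^ 2 ∈ ⁅Q, Q⁆) (hzB : z ∈ ⁅B, B⁆) (hBz : B ≤ centralizer {z})
    (hBQ : B ≤ normalizer (Q : Set Γ)) (hz3 : z ^ 3 = 1) (hquad : (σ z - 1) ^ 2 = 0)
    (hpm : ∀ c ∈ ⁅Q, Q⁆, σ c = 1 ∨ σ c = -1) (hker : ∀ a ∈ Q, σ a = 1 → a ∈ ⁅Q, Q⁆)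
    (hfpf : ∀ a ∈ Q, z * a * z⁻¹ * a⁻¹ ∈ ⁅Q, Q⁆ → a ∈ ⁅Q, Q⁆) : Q ≤ ⁅Q, Q⁆ := by
  classical
  have := Fact.mk Nat.prime_three
  set Z := ⁅Q, Q⁆ with hZdef
  have hZn := normal_of_le_center hZ
  have hZQ : Z ≤ Q := commutator_le_of_le le_rfl le_rfl
  have hzB' : z ∈ B := commutator_le_of_le le_rfl le_rfl hzB
  have hconj : ∀ g ∈ B, ∀ a ∈ Q, g * a * g⁻¹ ∈ Q := fun g hg a ha =>
    (mem_normalizer_iff.1 (hBQ hg) a).1 ha
  have hcz : ∀ a ∈ Q, z * a * z⁻¹ ∈ Q := hconj z hzB'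
  have hcomm : ∀ a ∈ Q, ∀ b ∈ Q, ⁅a, b⁆ ∈ Z := fun a ha b hb => commutator_mem_commutator ha hb
  have hcen : ∀ c ∈ Z, ∀ g, g * c = c * g := fun c hc g => mem_center_iff.1 (hZ hc) g
  have hne : (-1 : Module.End (ZMod 3) W) ≠ 1 := by
    intro h
    have h1 : (2 : ZMod 3) • (1 : Module.End (ZMod 3) W) = 0 := by
      rw [two_smul]; nth_rewrite 1 [← h]; exact neg_add_cancel _
    exact one_ne_zero ((smul_eq_zero.1 h1).resolve_left two_ne_zero_zmod_three)
  -- non-central elements do not commute with their `z`-conjugate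
  have han : ∀ u ∈ Q, u ∉ Z → σ ⁅u, z * u * z⁻¹⁆ ≠ 1 := by
    intro u hu huZ h1
    set S : Set Γ := {u, z * u * z⁻¹, z * (z * u * z⁻¹) * z⁻¹} with hS
    have hSQ : closure S ≤ Q := (closure_le _).2 (by
      rintro x (rfl | rfl | rfl)
      exacts [hu, hcz _ hu, hcz _ (hcz _ hu)])
    have h3 : z * (z * (z * u * z⁻¹) * z⁻¹) * z⁻¹ = u := by
      calc _ = z ^ 3 * u * (z ^ 3)⁻¹ := by rw [pow_three]; group
        _ = u := by rw [hz3]; group
    have hzS : z ∈ normalizer (closure S : Set Γ) := by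
      rw [mem_normalizer_iff_map_conj_eq', MonoidHom.map_closure, hS]
      simp only [Set.image_insert_eq, Set.image_singleton, MulEquiv.coe_toMonoidHom,
        MulAut.conj_apply, h3]
      congr 1
      ext x
      simp only [Set.mem_insert_iff, Set.mem_singleton_iff]
      tauto
    obtain ⟨-, -, g, hg, g', hg', h⟩ := quad_hh (by decide) σ Nat.prime_two (by decide)
      (hQ.to_le hSQ) hzS hquad ⟨u, subset_closure (by simp [hS]), fun h => huZ (hfpf u hu (hker _
        (mul_mem (hcz _ hu) (inv_mem hu)) ((comm_iff_apply_eq_one σ _ _).1 h)))⟩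
    have hc : ∀ a b, σ ⁅a, b⁆ = 1 → σ.asGroupHom a * σ.asGroupHom b =
        σ.asGroupHom b * σ.asGroupHom a := fun a b hab =>
      Units.ext ((comm_iff_apply_eq_one σ _ _).2 hab)
    have hc' : ∀ a ∈ Q, ∀ b ∈ Q, σ ⁅a, b⁆ = 1 → σ ⁅z * a * z⁻¹, z * b * z⁻¹⁆ = 1 := by
      intro a ha b hb hab
      rw [← conjugate_commutatorElement, hcen _ (hcomm a ha b hb), mul_inv_cancel_right, hab]
    have h2 := hc' _ hu _ (hcz _ hu) h1
    have h4 := hc' _ (hcz _ hu) _ (hcz _ (hcz _ hu)) h2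
    rw [h3] at h4
    have hM : IsMulCommutative (closure (σ.asGroupHom '' S)) := by
      refine isMulCommutative_closure ?_
      rintro _ ⟨x, hx, rfl⟩ _ ⟨y, hy, rfl⟩
      rcases hx with rfl | rfl | rfl <;> rcases hy with rfl | rfl | rfl
      exacts [rfl, hc _ _ h1, (hc _ _ h4).symm, (hc _ _ h1).symm, rfl, hc _ _ h2, hc _ _ h4,
        (hc _ _ h2).symm, rfl]
    rw [← MonoidHom.map_closure] at hM
    exact h (congrArg Units.val (isMulCommutative_iff_forall.1 hM _ (mem_map_of_mem _ hg) _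
      (mem_map_of_mem _ hg')))
  set χ : Γ → ZMod 2 := fun c => if σ c = 1 then 0 else 1 with hχ
  have hχm : ∀ c ∈ Z, ∀ c' ∈ Z, χ (c * c') = χ c + χ c' := by
    intro c hc c' hc'
    rcases hpm c hc with h | h <;> rcases hpm c' hc' with h' | h' <;>
      simp [hχ, h, h', hne]
    rfl
  set f : Γ → Γ → ZMod 2 := fun a b => χ ⁅a, z * b * z⁻¹⁆ with hf
  have hf1 : ∀ a ∈ Q, ∀ a' ∈ Q, ∀ b ∈ Q, f (a * a') b = f a b + f a' b := by
    intro a ha a' ha' b hb
    simp only [hf]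
    rw [commutatorElement_mul_left_of_commute (hcen _ (hcomm _ ha' _ (hcz _ hb)) _),
      hχm _ (hcomm _ ha' _ (hcz _ hb)) _ (hcomm _ ha _ (hcz _ hb)), add_comm]
  have hf2 : ∀ a ∈ Q, ∀ b ∈ Q, ∀ b' ∈ Q, f a (b * b') = f a b + f a b' := by
    intro a ha b hb b' hb'
    simp only [hf]
    rw [show z * (b * b') * z⁻¹ = z * b * z⁻¹ * (z * b' * z⁻¹) by group,
      commutatorElement_mul_right_of_commute (hcen _ (hcomm _ ha _ (hcz _ hb')) _),
      hχm _ (hcomm _ ha _ (hcz _ hb)) _ (hcomm _ ha _ (hcz _ hb'))]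
  have hf3 : ∀ a ∈ Q, a ∉ Z → f a a = 1 := fun a ha haZ => if_neg (han a ha haZ)
  have hf4 : ∀ a ∈ Q, ∀ b ∈ Q, a ∉ Z → b ∉ Z → a * b ∉ Z → f a b + f b a = 1 := by
    intro a ha b hb h1 h2 h3
    refine zmod_two_aux _ _ _ _ (hf3 a ha h1) (hf3 b hb h2) (hf3 _ (mul_mem ha hb) h3) ?_
    rw [hf1 _ ha _ hb _ (mul_mem ha hb), hf2 _ ha _ ha _ hb, hf2 _ hb _ ha _ hb]
    ring
  intro u hu
  by_contra huZ
  set v := z * u * z⁻¹ with hv
  have hvQ : v ∈ Q := hcz _ hu
  have hinv : ∀ a b, b ∈ Q → a * b ∈ Z → a * b⁻¹ ∈ Z := fun a b hb h => by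
    have := mul_mem h (inv_mem (hsq b hb))
    rwa [show a * b * (b ^ 2)⁻¹ = a * b⁻¹ by group] at this
  have hconjZ : ∀ g a, g * a * g⁻¹ ∈ Z → a ∈ Z := fun g a h => by
    have := hZn.conj_mem _ h g⁻¹
    rwa [show g⁻¹ * (g * a * g⁻¹) * g⁻¹⁻¹ = a by group] at this
  have hvZ : v ∉ Z := fun h => huZ (hconjZ _ _ h)
  have huvZ : u * v ∉ Z := fun h => huZ (hfpf u hu (hinv _ _ hu (hZn.mem_comm h)))
  have hfour : ∀ w ∈ Q, w ∉ Z → w * u ∈ Z ∨ w * v ∈ Z ∨ w * (u * v) ∈ Z := by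
    intro w hw h0
    by_contra hcon
    push Not at hcon
    obtain ⟨h1, h2, h3⟩ := hcon
    have e1 := hf4 w hw u hu h0 huZ h1
    have e2 := hf4 w hw v hvQ h0 hvZ h2
    have e3 := hf4 w hw _ (mul_mem hu hvQ) h0 huvZ h3
    rw [hf2 _ hw _ hu _ hvQ, hf1 _ hu _ hvQ _ hw] at e3
    have e4 : (1 : ZMod 2) = 1 + 1 := by
      nth_rewrite 1 [← e3]; nth_rewrite 1 [← e1]; rw [← e2]; ring
    exact absurd e4 (by decide)
  let S : Subgroup Γ :=
    { carrier := {g | g ∈ centralizer {z} ∧ g * u * g⁻¹ * u⁻¹ ∈ Z}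
      one_mem' := ⟨one_mem _, by simp⟩
      mul_mem' := by
        rintro g h ⟨hg1, hg2⟩ ⟨hh1, hh2⟩
        refine ⟨mul_mem hg1 hh1, ?_⟩
        have := mul_mem (hZn.conj_mem _ hh2 g) hg2
        rwa [show g * (h * u * h⁻¹ * u⁻¹) * g⁻¹ * (g * u * g⁻¹ * u⁻¹) =
          g * h * u * (g * h)⁻¹ * u⁻¹ by group] at this
      inv_mem' := by
        rintro g ⟨hg1, hg2⟩
        refine ⟨inv_mem hg1, ?_⟩
        have := hZn.conj_mem _ (inv_mem hg2) g⁻¹
        rwa [show g⁻¹ * (g * u * g⁻¹ * u⁻¹)⁻¹ * g⁻¹⁻¹ = g⁻¹ * u * g⁻¹⁻¹ * u⁻¹ by group] at this }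
  have hzz : z ∈ centralizer {z} := mem_centralizer_singleton_iff.2 rfl
  have hzS : z ∉ S := fun h => huZ (hfpf u hu h.2)
  have hw' : z * v * z⁻¹ * (u * v) ∈ Z := by
    rcases hfour _ (hcz _ hvQ) (fun h => hvZ (hconjZ _ _ h)) with h | h | h
    · have h1 : z ^ 2 ∈ S := ⟨pow_mem hzz 2, by
        have := hinv _ _ hu h
        rwa [hv, show z * (z * u * z⁻¹) * z⁻¹ = z ^ 2 * u * (z ^ 2)⁻¹ by
          rw [pow_two]; group] at this⟩
      have h2 := S.pow_mem h1 2
      rw [← pow_mul, show 2 * 2 = 3 + 1 from rfl, pow_succ, hz3, one_mul] at h2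
      exact absurd h2 hzS
    · exact absurd (hfpf v hvQ (hinv _ _ hvQ h)) hvZ
    · exact h
  have key : ∀ g ∈ B, ∀ i : ℕ, g * u * g⁻¹ * (z ^ i * u * (z ^ i)⁻¹)⁻¹ ∈ Z → g ∈ S ⊔ zpowers z := by
    intro g hg i h
    have h1 : (z ^ i)⁻¹ * g ∈ S := by
      refine ⟨mul_mem (inv_mem (pow_mem hzz i)) (hBz hg), ?_⟩
      have := hZn.conj_mem _ h (z ^ i)⁻¹
      rwa [show (z ^ i)⁻¹ * (g * u * g⁻¹ * (z ^ i * u * (z ^ i)⁻¹)⁻¹) * (z ^ i)⁻¹⁻¹ =
        (z ^ i)⁻¹ * g * u * ((z ^ i)⁻¹ * g)⁻¹ * u⁻¹ by group] at this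
    have := mul_mem (mem_sup_right (S := S) (pow_mem (mem_zpowers z) i)) (mem_sup_left h1)
    rwa [mul_inv_cancel_left] at this
  have hBS : B ≤ S ⊔ zpowers z := by
    intro g hg
    rcases hfour _ (hconj g hg u hu) (fun h => huZ (hconjZ _ _ h)) with h | h | h
    · exact key g hg 0 (by simpa using hinv _ _ hu h)
    · exact key g hg 1 (by rw [pow_one]; exact hinv _ _ hvQ h)
    · refine key g hg 2 ?_
      have := mul_mem h (inv_mem hw')
      rwa [hv, show g * u * g⁻¹ * (u * (z * u * z⁻¹)) *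
        (z * (z * u * z⁻¹) * z⁻¹ * (u * (z * u * z⁻¹)))⁻¹ =
        g * u * g⁻¹ * (z ^ 2 * u * (z ^ 2)⁻¹)⁻¹ by group] at this
  have h5 : zpowers z ≤ centralizer ((S ⊔ zpowers z : Subgroup Γ) : Set Γ) := by
    rw [le_centralizer_iff, centralizer_zpowers]
    exact sup_le (fun g hg => hg.1) (zpowers_le_of_mem hzz)
  have h6 := commutator_mono hBS hBS hzB
  rw [commutator_sup_self_of_le_centralizer h5] at h6
  exact hzS (commutator_le_of_le le_rfl le_rfl h6)

theorem eq_one_of_quad {p : ℕ} [hp : Fact p.Prime] {Y : Type u} [Group Y] {M : Type v}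
    [AddCommGroup M] [Module (ZMod p) M] (ρ : Representation (ZMod p) Y M)
    (hρ : ∀ y, ρ y = 1 → y = 1) {y : Y} (h : (ρ y - 1) ^ 2 = 0) : y ^ p = 1 := by
  refine hρ _ ?_
  rw [map_pow, ← sub_eq_zero, (S3787.geom_eq (p := p) _).2]
  exact pow_eq_zero_of_le hp.out.two_le h

theorem linear {p : ℕ} [hp : Fact p.Prime] (hp2 : p ≠ 2) {Y : Type u} [Group Y] [Finite Y]
    (hY : IsPSolvable p Y) (hO : pCore p Y = ⊥) {M : Type v} [AddCommGroup M] [Module (ZMod p) M]
    [FiniteDimensional (ZMod p) M] (ρ : Representation (ZMod p) Y M) (hρ : ∀ y, ρ y = 1 → y = 1)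
    {B : Subgroup Y} (hB : IsPGroup p B) {z : Y} (hzB : z ∈ ⁅B, B⁆) (hBz : B ≤ centralizer {z})
    (hquad : (ρ z - 1) ^ 2 = 0) (hcub : ∀ g ∈ B, (ρ g - 1) ^ 2 * (ρ z - 1) = 0) : z = 1 := by
  by_contra hz1
  have hzB' : z ∈ B := commutator_le_of_le le_rfl le_rfl hzB
  obtain ⟨q, Q₁, hq, hqp, hQ₁, -, hBQ₁, g₁, hg₁, hne₁⟩ := exists_inv_not_comm hY hO hB hzB' hz1
  have := Fact.mk hq
  have hnt : ∀ U : Subgroup Y, ⁅U, zpowers z⁆ = ⊥ ↔ U ≤ centralizer {z} := fun U => by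
    rw [commutator_eq_bot_iff_le_centralizer, centralizer_zpowers]
  obtain ⟨Q, ⟨hQQ, hBQ, hQz⟩, hmin⟩ := exists_minimal_of_wellFoundedLT
    (fun U : Subgroup Y => U ≤ Q₁ ∧ B ≤ normalizer (U : Set Y) ∧ ⁅U, zpowers z⁆ ≠ ⊥)
    ⟨Q₁, le_rfl, hBQ₁, fun h => hne₁ (mem_centralizer_singleton_iff.1 ((hnt _).1 h hg₁)).symm⟩
  have hQ : IsPGroup q Q := hQ₁.to_le hQQ
  have hmin' : ∀ U : Subgroup Y, U < Q → B ≤ normalizer (U : Set Y) → ⁅U, zpowers z⁆ = ⊥ := by
    intro U hU hBU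
    by_contra h
    exact hU.not_ge (hmin ⟨hU.le.trans hQQ, hBU, h⟩ hU.le)
  have hzp := eq_one_of_quad ρ hρ hquad
  have hpq : p.Coprime q := (Nat.coprime_primes hp.out hq).2 hqp.symm
  obtain ⟨h1, h2, h3, h4⟩ := S3736.core B (zpowers z) Q hQ hBQ (zpowers_le_of_mem hzB')
    (hBz.trans (by rw [← centralizer_zpowers]; exact centralizer_le_normalizer _))
    (isPGroup_coprime_card ((hB.to_le (zpowers_le_of_mem hzB'))) hpq.symm) hQz hmin'
  rw [centralizer_zpowers] at h2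
  have hinj : ∀ a b, ρ a * ρ b = ρ b * ρ a → a * b = b * a := fun a b h => by
    have := hρ _ ((comm_iff_apply_eq_one ρ _ _).1 h)
    rwa [mul_inv_eq_one, mul_inv_eq_iff_eq_mul] at this
  obtain ⟨rfl, rfl, a₀, ha₀, b₀, hb₀, hab⟩ := quad_hh hp2 ρ hq hqp hQ (hBQ hzB') hquad (by
    by_contra h
    push Not at h
    exact hQz ((hnt _).2 fun g hg => mem_centralizer_singleton_iff.2 (hinj _ _ (h g hg)).symm))
  set Z := ⁅Q, Q⁆ with hZ
  have hZQ : Z ≤ Q := commutator_le_of_le le_rfl le_rfl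
  have hZz : Z ≤ centralizer {z} := h2 ▸ inf_le_right
  have hBZn : B ≤ normalizer (Z : Set Y) :=
    (le_inf hBQ hBQ).trans (normalizer_inf_le_normalizer_commutator Q Q)
  have hq1 : ∀ c ∈ Q, c ^ 3 = 1 → c = 1 := fun c hc h => by
    obtain ⟨n, hn⟩ := isPGroup_subgroup_iff.1 hQ c hc
    exact ((pow_eq_one_iff_of_coprime (hpq.pow_right n)).1 ⟨h, hn⟩)
  -- `B` centralizes `Z`
  have hBZ : B ≤ centralizer (Z : Set Y) := by
    intro g hg c hc
    have hU : ∀ x : centralizer {z}, LinearMap.range (ρ z - 1) ≤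
        (LinearMap.range (ρ z - 1)).comap ((ρ.comp (centralizer {z}).subtype) x) := by
      rintro x _ ⟨v, rfl⟩
      refine ⟨ρ x v, ?_⟩
      have : ρ z * ρ x = ρ x * ρ z := by
        rw [← map_mul, ← map_mul, mem_centralizer_singleton_iff.1 x.2]
      simp only [LinearMap.sub_apply, Module.End.one_apply, MonoidHom.comp_apply, coe_subtype,
        map_sub]
      rw [← Module.End.mul_apply, this, Module.End.mul_apply]
    set σ := Representation.subrepresentation (ρ.comp (centralizer {z}).subtype) _ hU with hσ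
    have hσ1 : ∀ (x : centralizer {z}) w, (σ x w : M) = ρ x w := fun _ _ => rfl
    have h5 : σ ⟨g, hBz hg⟩ * σ ⟨c, hZz hc⟩ = σ ⟨c, hZz hc⟩ * σ ⟨g, hBz hg⟩ := by
      by_contra hcon
      obtain ⟨-, -, a, ha, b, hb, hne⟩ := quad_hh hp2 σ hq hqp (D := Z.subgroupOf _)
        (hQ.to_le hZQ).comap_subtype (x := ⟨g, hBz hg⟩) (mem_normalizer_subgroupOf (hBZn hg))
        (by
          refine LinearMap.ext fun ⟨_, v, rfl⟩ => Subtype.ext ?_
          have := LinearMap.congr_fun (hcub g hg) v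
          rw [pow_two] at this ⊢
          exact this) ⟨_, hc, hcon⟩
      refine hne ?_
      rw [← map_mul, ← map_mul]
      congr 1
      exact Subtype.ext (h4 hb a (hZQ ha))
    rw [comm_iff_apply_eq_one] at h5
    set c' := g * c * g⁻¹ * c⁻¹ with hc'
    have hc'Z : c' ∈ Z := mul_mem ((mem_normalizer_iff.1 (hBZn hg) c).1 hc) (inv_mem hc)
    set E := ρ c' - 1 with hE
    have hEc : ∀ a, a * c' = c' * a → ρ a * E = E * ρ a := fun a ha => by
      rw [hE, mul_sub, sub_mul, ← map_mul, ← map_mul, ha, mul_one, one_mul]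
    have hzE : ρ z * E = E := by
      rw [hEc z (mem_centralizer_singleton_iff.1 (hZz hc'Z)).symm, ← sub_eq_zero, ← mul_sub_one]
      refine LinearMap.ext fun v => ?_
      have := congrArg Subtype.val (LinearMap.congr_fun h5 ⟨_, v, rfl⟩)
      rw [Module.End.mul_apply, hE, LinearMap.sub_apply, LinearMap.zero_apply, sub_eq_zero]
      exact this
    let Fx : Subgroup Y :=
      { carrier := {y | ρ y * E = E}
        one_mem' := by simp
        mul_mem' := fun {a b} ha hb => by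
          simp only [Set.mem_ofPred_eq] at ha hb ⊢
          rw [map_mul, mul_assoc, hb, ha]
        inv_mem' := fun {a} ha => by
          simp only [Set.mem_ofPred_eq] at ha ⊢
          nth_rewrite 1 [← ha]
          rw [← mul_assoc, ← map_mul, inv_mul_cancel, map_one, one_mul] }
    have hQF : Q ≤ Fx := by
      rw [← h1, commutator_le]
      intro a ha b hb
      have hb1 : b ∈ Fx := zpowers_le_of_mem (show z ∈ Fx from hzE) hb
      refine Fx.mul_mem (show ρ (a * b * a⁻¹) * E = E from ?_) (Fx.inv_mem hb1)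
      rw [map_mul, map_mul, mul_assoc, hEc _ (h4 hc'Z _ (inv_mem ha)), ← mul_assoc, mul_assoc _ _ E,
        show ρ b * E = E from hb1, hEc _ (h4 hc'Z _ ha), mul_assoc, ← map_mul, mul_inv_cancel,
        map_one, mul_one]
    have h6 : E ^ 2 = 0 := by
      rw [pow_two]
      nth_rewrite 1 [hE]
      rw [sub_mul, show ρ c' * E = E from hQF (hZQ hc'Z), one_mul, sub_self]
    have h7 := hq1 _ (hZQ hc'Z) (eq_one_of_quad ρ hρ h6)
    rw [hc', mul_inv_eq_one, mul_inv_eq_iff_eq_mul] at h7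
    exact h7.symm
  have hsq : ∀ a ∈ Q, a ^ 2 ∈ Z := fun a ha => h3 ▸ pow_mem_map_frattini hQ ha
  have hZ2 : ∀ c ∈ Z, c ^ 2 = 1 := by
    have hZc : IsMulCommutative Z := isMulCommutative_iff_forall.2 fun a ha b hb =>
      h4 hb a (hZQ ha)
    intro c hc
    refine pow_eq_one_of_mem_omegaOne (H := Z) ((commutator_le.2 fun a ha b hb => ?_ :
      ⁅Q, Q⁆ ≤ omegaOne 2 Z) hc)
    refine CfsgLib.Core.mem_omegaOne (commutator_mem_commutator ha hb) ?_
    rw [← commutatorElement_pow_left_of_commute (h4 (commutator_mem_commutator ha hb) a ha),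
      commutatorElement_eq_one_iff_mul_comm]
    exact (h4 (hsq a ha) b hb).symm
  set t := ⁅a₀, b₀⁆ with ht
  have htZ : t ∈ Z := commutator_mem_commutator ha₀ hb₀
  have ht1 : ρ t ≠ 1 := fun h => hab ((comm_iff_apply_eq_one ρ _ _).2 h)
  set H := centralizer (Z : Set Y) with hH
  have hQH : Q ≤ H := le_centralizer_iff.1 h4
  have hρc : ∀ c ∈ Z, ∀ x ∈ H, ∀ v, ρ c (ρ x v) = ρ x (ρ c v) := fun c hc x hx v => by
    rw [← Module.End.mul_apply, ← map_mul, hx c hc, map_mul, Module.End.mul_apply]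
  have hρ2 : ∀ c ∈ Z, ∀ v, ρ c (ρ c v) = v := fun c hc v => by
    rw [← Module.End.mul_apply, ← map_mul, ← pow_two, hZ2 c hc, map_one, Module.End.one_apply]
  obtain ⟨W, ⟨hW0, hWt, hWH⟩, hWmin⟩ := exists_minimal_of_wellFoundedLT
    (fun W : Submodule (ZMod 3) M => W ≠ ⊥ ∧ (∀ w ∈ W, ρ t w = -w) ∧ ∀ x ∈ H, ∀ w ∈ W, ρ x w ∈ W)
    ⟨LinearMap.range (ρ t - 1), fun h => ht1 (sub_eq_zero.1 (LinearMap.range_eq_bot.1 h)), by
      rintro _ ⟨v, rfl⟩
      simp [hρ2 t htZ], by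
      rintro x hx _ ⟨v, rfl⟩
      exact ⟨ρ x v, by simp [hρc t htZ x hx]⟩⟩
  have hW : ∀ x : H, W ≤ W.comap ((ρ.comp H.subtype) x) := fun x w hw => hWH x x.2 w hw
  set σ := Representation.subrepresentation (ρ.comp H.subtype) W hW with hσ
  have hσ1 : ∀ x : H, σ x = 1 ↔ ∀ w ∈ W, ρ x w = w := fun x =>
    ⟨fun h w hw => congrArg Subtype.val (LinearMap.congr_fun h ⟨w, hw⟩),
      fun h => LinearMap.ext fun w => Subtype.ext (h w w.2)⟩
  have : Nontrivial W := Submodule.nontrivial_iff_ne_bot.2 hW0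
  have hcs : ⁅Q.subgroupOf H, Q.subgroupOf H⁆ = Z.subgroupOf H := commutator_subgroupOf hQH hQH
  have hfin := aniso σ (Q := Q.subgroupOf H) (B := B.subgroupOf H) (z := ⟨z, hBZ hzB'⟩)
    (by
      rw [hcs]
      exact fun c hc => mem_center_iff.2 fun g => Subtype.ext (g.2 c hc).symm)
    hQ.comap_subtype (by rw [hcs]; exact fun a ha => hsq a ha)
    (by rw [commutator_subgroupOf hBZ hBZ]; exact hzB)
    (fun g hg => mem_centralizer_singleton_iff.2
      (Subtype.ext (mem_centralizer_singleton_iff.1 (hBz hg))))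
    (fun g hg => mem_normalizer_subgroupOf (hBQ hg)) (Subtype.ext hzp)
    (by
      refine LinearMap.ext fun w => Subtype.ext ?_
      have := LinearMap.congr_fun hquad w
      rw [pow_two] at this ⊢
      exact this)
    (by
      rw [hcs]
      intro c hc
      by_cases h : W ⊓ LinearMap.ker (ρ c - 1) = ⊥
      · refine Or.inr (LinearMap.ext fun w => Subtype.ext ?_)
        have h5 : ρ c w + w ∈ W ⊓ LinearMap.ker (ρ c - 1) :=
          ⟨W.add_mem (hWH c c.2 w w.2) w.2, by simp [hρ2 c hc, add_comm]⟩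
        rw [h, Submodule.mem_bot] at h5
        exact eq_neg_of_add_eq_zero_left h5
      · refine Or.inl ((hσ1 c).2 fun w hw => ?_)
        have h5 := hWmin (y := W ⊓ LinearMap.ker (ρ c - 1)) ⟨h, fun w hw => hWt w hw.1,
          fun x hx w hw => ⟨hWH x hx w hw.1, by
            have h6 : ρ c w = w := sub_eq_zero.1 hw.2
            simp [hρc c hc x hx, h6]⟩⟩ inf_le_left
        exact sub_eq_zero.1 (h5 hw).2)
    (by
      rw [hcs]
      intro a ha h
      set N := (σ.ker.map H.subtype) ⊓ Q with hN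
      have hNQ : N < Q := by
        refine lt_of_le_of_ne inf_le_right fun h5 => ?_
        have h6 : t ∈ N := h5 ▸ hZQ htZ
        obtain ⟨t', ht', e⟩ := mem_map.1 h6.1
        obtain ⟨w, hw, hw0⟩ := (Submodule.ne_bot_iff W).1 hW0
        have h7 := ((hσ1 t').1 ht' w hw).symm.trans (e ▸ hWt w hw)
        rw [eq_neg_iff_add_eq_zero, ← two_smul (ZMod 3)] at h7
        exact hw0 ((smul_eq_zero.1 h7).resolve_left two_ne_zero_zmod_three)
      have h5 := (hnt _).1 (hmin' N hNQ ((le_inf (hBZ.trans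
        (le_normalizer_map_subtype_of_normal σ.ker)) hBQ).trans inf_normalizer_le_normalizer_inf))
      exact (h2 ▸ ⟨ha, h5 ⟨mem_map_of_mem _ h, ha⟩⟩ : (a : Y) ∈ Z))
    (by
      rw [hcs]
      intro a ha h
      have h5 := comm_of_comm_fixed (y := z) (g := a) (by norm_num : Nat.Coprime 3 2) hzp
        (hZ2 _ h) (mem_centralizer_singleton_iff.1 (hZz h)).symm
      exact (h2 ▸ ⟨ha, mem_centralizer_singleton_iff.2 h5.symm⟩ : (a : Y) ∈ Z))
  rw [hcs] at hfin
  exact hQz ((hnt _).2 fun a ha => hZz (hfin (show (⟨a, hQH ha⟩ : H) ∈ Q.subgroupOf H from ha)))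

theorem dlen_quotient {p : ℕ} [hp : Fact p.Prime] (hp2 : p ≠ 2) {X : Type u} [Group X] [Finite X]
    (hX : IsPSolvable p X) (hV : IsElementaryAbelian p (pCore p X))
    (hc : centralizer (pCore p X : Set X) ≤ pCore p X) {d : ℕ} (h : DLen p (d + 1) X) :
    DLen p d (X ⧸ pCore p X) := by
  set V := pCore p X with hVdef
  intro S' hS'
  set S := S'.comap (QuotientGroup.mk' V) with hS
  have hSp : IsPGroup p S := hS'.comap_of_ker_isPGroup _ (by
    rw [QuotientGroup.ker_mk']; exact isPGroup_pCore p X)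
  have hVS : V ≤ S := fun v hv => by
    rw [hS, mem_comap, QuotientGroup.mk'_apply, (QuotientGroup.eq_one_iff v).2 hv]
    exact one_mem _
  set ds : ℕ → Subgroup X := fun n => (derivedSeries S n).map S.subtype with hds
  have hsucc : ∀ n, ds (n + 1) = ⁅ds n, ds n⁆ := fun n => by
    simp only [hds, derivedSeries_succ, map_commutator]
  have hn : ∀ n, ∀ a ∈ ds n, ∀ v ∈ V, ⁅a, v⁆ ∈ ds n := fun n a ha v hv => by
    have := (mem_normalizer_iff.1 (le_normalizer_map_subtype_of_normal (derivedSeries S n)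
      (hVS hv)) _).1 ((ds n).inv_mem ha)
    rw [commutatorElement_def, mul_assoc, mul_assoc, ← mul_assoc v]
    exact mul_mem ha this
  have h0 : ds (d + 1) = ⊥ := by simp only [hds, h S hSp, Subgroup.map_bot]
  have h1 : ds d ≤ V := by
    rw [hsucc, commutator_eq_bot_iff_le_centralizer] at h0
    cases d with
    | zero =>
      have : V ≤ ds 0 := by
        simp only [hds, derivedSeries_zero, ← MonoidHom.range_eq_map, range_subtype]
        exact hVS
      exact (h0.trans (centralizer_le this)).trans hc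
    | succ d =>
      by_contra hcon
      have hBp : IsPGroup p ((ds d).map (QuotientGroup.mk' V)) :=
        (hSp.to_le (map_subtype_le _)).map _
      have hA := CfsgLib.Coprime.inf_centralizer_ne_bot_of_isPGroup hBp
        ((ds (d + 1)).map (QuotientGroup.mk' V)) ((hSp.to_le (map_subtype_le _)).map _)
        (by rw [hsucc, map_commutator]; exact normalizer_commutator_ge_left _ _)
        (by rwa [Ne, Subgroup.map_eq_bot_iff, QuotientGroup.ker_mk'])
      obtain ⟨⟨z, ⟨a, ha, rfl⟩, hz⟩, hz1⟩ := ne_bot_iff_exists_ne_one.1 hA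
      have := elem_finiteDimensional hV
      have hsub : ∀ (g : X) (v : ElemMod hV),
          ((quotRep hV (QuotientGroup.mk' V g) - 1) v).toG = ⁅g, v.toG⁆ := fun g v => by
        rw [LinearMap.sub_apply, ElemMod.toG_sub]; rfl
      refine hz1 (Subtype.ext (linear hp2 (PSolv.quotient hX V) PSolv.pCore_quotient (quotRep hV)
        (quotRep_faithful hV hc) hBp (by
          rw [← map_commutator, ← hsucc]; exact mem_map_of_mem _ ha)
        (fun g hg => mem_centralizer_singleton_iff.2 (hz g hg)) ?_ ?_))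
      · refine LinearMap.ext fun v => ElemMod.toG_eq_one.1 ?_
        rw [pow_two, Module.End.mul_apply, hsub, hsub, commutatorElement_eq_one_iff_mul_comm]
        exact (h0 ha _ (hn _ a ha _ v.toG_mem)).symm
      · rintro _ ⟨b, hb, rfl⟩
        have hcm : Commute (quotRep hV (QuotientGroup.mk' V b) - 1)
            (quotRep hV (QuotientGroup.mk' V a) - 1) := by
          refine Commute.sub_left (Commute.sub_right ?_ (Commute.one_right _)) (Commute.one_left _)
          exact Commute.map (hz _ (mem_map_of_mem _ hb)) (quotRep hV)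
        rw [(hcm.pow_left 2).eq]
        refine LinearMap.ext fun v => ElemMod.toG_eq_one.1 ?_
        rw [pow_two, Module.End.mul_apply, Module.End.mul_apply, hsub, hsub, hsub,
          commutatorElement_eq_one_iff_mul_comm]
        refine (h0 ha _ ?_).symm
        rw [hsucc]
        exact commutator_mem_commutator hb (hn _ b hb _ v.toG_mem)
  rw [← map_derivedSeries_eq (MonoidHom.subgroupComap_surjective_of_surjective _ S'
    (QuotientGroup.mk'_surjective V)), Subgroup.map_eq_bot_iff]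
  intro x hx
  exact Subtype.ext ((QuotientGroup.eq_one_iff _).2 (h1 (mem_map_of_mem _ hx)))

theorem aux {p : ℕ} [Fact p.Prime] (hp : p ≠ 2) (d : ℕ) : ∀ {G : Type u} [Group G] [Finite G],
    IsPSolvable p G → DLen p d G → PLengthLE p d G := by
  induction d with
  | zero => exact fun _ h => plen_zero_iff.2 h.coprime
  | succ d ih =>
    intro G _ _ hG h
    obtain ⟨X, _, _, f, hf, hX, hV, hc, hfX⟩ := exists_reduction hG
    exact plen_succ_of_reduction hf hfX (ih (PSolv.quotient hX _)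
      (dlen_quotient hp hX hV hc (h.of_surjective hf)))

/-- Let p be an odd prime and G a finite p-soluble group whose Sylow p-subgroups have derived length at most d. Then G has p-length at most d. -/
theorem result {G : Type*} [Group G] [Finite G] {p : ℕ} [Fact p.Prime] (hp : p ≠ 2) (hG : Cfsg.IsPSolvable p G) (d : ℕ) (hd : ∀ P : Sylow p G, derivedSeries ↥(P : Subgroup G) d = ⊥) : Cfsg.PLengthLE p d G := by
  exact aux hp d hG (DLen.of_sylow hd)

end Cfsg.Agent.S3789
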