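import Cfsg.Statements.S3790
import Cfsg.Agent.Lib.PLen.Basic

set_option autoImplicit false
open Cfsg

namespace Cfsg.Agent.S3790

open Subgroup CfsgLib.PLen CfsgLib.Core CfsgLib.PLocal

universe u

theorem aux (p : ℕ) [Fact p.Prime] (r : ℕ) : ∀ (q : Fin r → ℕ), (∀ i, (q i).Prime ∧ q i ≠ p) →
    ∀ (l : Fin r → ℕ) (G : Type u) [Group G] [Finite G],
      (∀ s : ℕ, s.Prime → s ∣ Nat.card G → s ≠ p → ∃ i, q i = s) →
      (∀ i, PLengthLE (q i) (l i) G) → PLengthLE p (Finset.univ.prod fun i => 1 + l i) G := by
  induction r with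
  | zero =>
    intro q _ l G _ _ hcover _
    rw [Finset.univ_eq_empty, Finset.prod_empty]
    refine plen_one_of_isPGroup (IsPGroup.iff_card.2 ⟨_, Nat.eq_prime_pow_of_unique_prime_dvd
      Nat.card_pos.ne' fun {s} hs hsd => ?_⟩)
    by_contra hne
    obtain ⟨i, -⟩ := hcover s hs hsd hne
    exact i.elim0
  | succ r ih =>
    intro q hq l G _ _ hcover hl
    rw [Fin.prod_univ_succ]
    set m := ∏ i : Fin r, (1 + l i.succ) with hm
    have := Fact.mk (hq 0).1
    have base : ∀ (H : Type u) [Group H] [Finite H],
        (∀ s : ℕ, s.Prime → s ∣ Nat.card H → s ≠ p → ∃ i, q i = s) →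
        (∀ i : Fin r, PLengthLE (q i.succ) (l i.succ) H) → (Nat.card H).Coprime (q 0) →
        PLengthLE p m H := by
      intro H _ _ h1 h2 h3
      refine ih (fun i => q i.succ) (fun i => hq _) (fun i => l i.succ) H (fun s hs hd hsp => ?_) h2
      obtain ⟨i, rfl⟩ := h1 s hs hd hsp
      refine Fin.cases (motive := fun i => q i ∣ Nat.card H → ∃ j : Fin r, q j.succ = q i)
        (fun hd => absurd hd ((Nat.Prime.coprime_iff_not_dvd (hq 0).1).1 h3.symm))
        (fun j _ => ⟨j, rfl⟩) i hd
    have key : ∀ (k : ℕ) (H : Type u) [Group H] [Finite H],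
        (∀ s : ℕ, s.Prime → s ∣ Nat.card H → s ≠ p → ∃ i, q i = s) →
        (∀ i : Fin r, PLengthLE (q i.succ) (l i.succ) H) → PLengthLE (q 0) k H →
        PLengthLE p ((1 + k) * m) H := by
      intro k
      induction k with
      | zero =>
        intro H _ _ h1 h2 h3
        rw [add_zero, one_mul]
        exact base H h1 h2 (plen_zero_iff.1 h3)
      | succ k ihk =>
        intro H _ _ h1 h2 h3
        have e : (1 + (k + 1)) * m = m + (1 + k) * m := by ring
        rw [e]
        refine plen_add (pPrimeCore (q 0) H) (base _ (fun s hs hd => h1 s hs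
          (hd.trans (card_subgroup_dvd_card _))) (fun i => plen_subgroup (h2 i) _)
          (coprime_card_pPrimeCore _ _)) ?_
        refine plen_of_coprime_ker
          (QuotientGroup.mk'_surjective (pCore (q 0) (H ⧸ pPrimeCore (q 0) H))) ?_
          (ihk _ (fun s hs hd => h1 s hs ((hd.trans (card_quotient_dvd_card _)).trans
            (card_quotient_dvd_card _))) (fun i => plen_quotient (plen_quotient (h2 i) _) _) ?_)
        · rw [QuotientGroup.ker_mk']
          exact isPGroup_coprime_card (isPGroup_pCore _ _)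
            ((Nat.coprime_primes Fact.out (hq 0).1).2 (hq 0).2.symm)
        · have := pPrimePCore_normal' (q 0) H
          obtain ⟨e, -⟩ := PSolv.exists_quotient_equiv
            (QuotientGroup.mk'_surjective (pPrimeCore (q 0) H)) (pCore (q 0) _)
            (pPrimePCore (q 0) H) rfl
          exact plen_of_equiv e (plen_succ_iff.1 h3)
    exact key (l 0) G hcover (fun i => hl _) (hl 0)

/-- Let G be a finite solvable group and p a prime. Suppose p₁, …, p_r are distinct primes, all different from p, that include every prime dividing the order of G other than p, and that G has p_i-length at most l_i for each i. Then G has p-length at most the product of the numbers 1 + l_i. -/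
theorem result {G : Type*} [Group G] [Finite G] (hG : Group.IsSolvable G) (p : ℕ) [Fact p.Prime] (r : ℕ) (q : Fin r → ℕ) (hq : ∀ i, (q i).Prime ∧ q i ≠ p) (hinj : Function.Injective q) (hcover : ∀ s : ℕ, s.Prime → s ∣ Nat.card G → s ≠ p → ∃ i, q i = s) (l : Fin r → ℕ) (hl : ∀ i, Cfsg.PLengthLE (q i) (l i) G) : Cfsg.PLengthLE p (Finset.univ.prod fun i => 1 + l i) G := by
  exact aux p r q hq l G hcover hl

end Cfsg.Agent.S3790
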