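import Cfsg.Statements.S3791
import Cfsg.Agent.Lib.PLen.DLen

set_option autoImplicit false
open Cfsg

namespace Cfsg.Agent.S3791

open Subgroup CfsgLib.PLen CfsgLib.Core CfsgLib.PLocal

universe u

theorem aux (r : ℕ) (q : Fin r → ℕ) (hq : ∀ i, (q i).Prime) (d : Fin r → ℕ) (n : ℕ) :
    ∀ (G : Type u) [Group G] [Finite G], Nat.card G = n → Group.IsSolvable G →
      (∀ s : ℕ, s.Prime → s ∣ Nat.card G → ∃ i, q i = s) → ∀ l : Fin r → ℕ,
      (∀ i, DLen (q i) (d i) G) → (∀ i, PLengthLE (q i) (l i) G) →
      derivedSeries G (Finset.univ.sum fun i => d i * l i) = ⊥ := by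
  induction n using Nat.strong_induction_on with
  | _ n ih =>
  intro G _ _ hn hG hcover l hd hl
  have step : ∀ (N : Subgroup G) [N.Normal], N ≠ ⊥ → ∀ l' : Fin r → ℕ,
      (∀ i, PLengthLE (q i) (l' i) (G ⧸ N)) →
      derivedSeries G (Finset.univ.sum fun i => d i * l' i) ≤ N := by
    intro N _ hN l' hl'
    refine derivedSeries_le_of_quotient (ih _ (hn ▸ card_quotient_lt_of_ne_bot hN) (G ⧸ N) rfl
      inferInstance (fun s hs h => hcover s hs (h.trans (card_quotient_dvd_card N))) l'
      (fun i => ?_) hl')
    have := Fact.mk (hq i)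
    exact (hd i).of_surjective (QuotientGroup.mk'_surjective N)
  rcases subsingleton_or_nontrivial G with hs | hs
  · exact Subsingleton.elim _ _
  by_cases h : ∀ i, pPrimeCore (q i) G ≠ ⊥
  · rw [eq_bot_iff]
    intro x hx
    by_contra hx1
    obtain ⟨s, hs, hsx⟩ := Nat.exists_prime_and_dvd (mt orderOf_eq_one_iff.1 hx1)
    obtain ⟨i, rfl⟩ := hcover s hs (hsx.trans (orderOf_dvd_natCard x))
    have h1 := step _ (h i) l (fun j => plen_quotient (hl j) _) hx
    have h2 := subgroup_coprime_card_iff.1 (coprime_card_pPrimeCore (q i) G) x h1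
    exact (Nat.Prime.coprime_iff_not_dvd hs).1 h2.symm hsx
  · push Not at h
    obtain ⟨i, hi⟩ := h
    have := Fact.mk (hq i)
    have hO : pCore (q i) G ≠ ⊥ :=
      (PSolv.pCore_ne_bot_or (PSolv.of_isSolvable (p := q i))).resolve_right (not_not.2 hi)
    obtain ⟨k, hk⟩ : ∃ k, l i = k + 1 := by
      refine Nat.exists_eq_succ_of_ne_zero fun h0 => ?_
      have h1 := hl i
      rw [h0, plen_zero_iff, ← pPrimeCore_eq_top_iff, hi] at h1
      exact bot_ne_top h1
    have h1 := step _ hO (Function.update l i k) fun j => by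
      by_cases hj : j = i
      · subst hj
        rw [Function.update_self]
        have h2 := hl j
        have := pPrimePCore_normal' (q j) G
        rw [hk, plen_succ_iff] at h2
        exact plen_quotient_of_le (Constr.pPrimePCore_eq_pCore hi).le h2
      · rw [Function.update_of_ne hj]
        exact plen_quotient (hl j) _
    have h2 := derivedSeries_add_le h1 (d i)
    rw [hd i _ (isPGroup_pCore _ _), Subgroup.map_bot, le_bot_iff] at h2
    convert h2 using 2
    have h3 : ∑ j ∈ Finset.univ.erase i, d j * Function.update l i k j =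
        ∑ j ∈ Finset.univ.erase i, d j * l j := Finset.sum_congr rfl fun j hj => by
      rw [Function.update_of_ne (Finset.ne_of_mem_erase hj)]
    rw [← Finset.add_sum_erase _ (fun j => d j * l j) (Finset.mem_univ i),
      ← Finset.add_sum_erase _ (fun j => d j * Function.update l i k j) (Finset.mem_univ i), h3]
    simp only [Function.update_self, hk]
    ring

/-- The Hall–Higman bound on derived length: let G be a finite solvable group, let p₁, …, p_r be distinct primes that include every prime dividing the order of G, and suppose that for each i the Sylow p_i-subgroups of G have derived length at most d_i and G has p_i-length at most l_i. Then G has derived length at most Σ d_i l_i. -/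
theorem result {G : Type*} [Group G] [Finite G] (hG : Group.IsSolvable G) (r : ℕ) (q : Fin r → ℕ) (hq : ∀ i, (q i).Prime) (hinj : Function.Injective q) (hcover : ∀ s : ℕ, s.Prime → s ∣ Nat.card G → ∃ i, q i = s) (d l : Fin r → ℕ) (hd : ∀ i, ∀ P : Subgroup G, (haveI := Fact.mk (hq i); ∃ S : Sylow (q i) G, (S : Subgroup G) = P) → derivedSeries ↥P (d i) = ⊥) (hl : ∀ i, Cfsg.PLengthLE (q i) (l i) G) : derivedSeries G (Finset.univ.sum fun i => d i * l i) = ⊥ := by
  refine aux r q hq d _ G rfl hG hcover l (fun i => ?_) hl
  exact DLen.of_sylow fun P => hd i P ⟨P, rfl⟩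

end Cfsg.Agent.S3791
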