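import Cfsg.Statements.S3792
import Cfsg.Agent.Lib.Flavell.CFH

set_option autoImplicit false
open Cfsg

namespace Cfsg.Agent.S3792

open CfsgLib CfsgLib.Flavell CfsgLib.Coprime Subgroup

/-- Powell's Theorem: let G be a finite non-abelian simple group and p an odd prime dividing its order such that every proper subgroup of G is p-soluble. Then G can be generated by three elements. -/
theorem result {G : Type*} [Group G] [Finite G] [IsSimpleGroup G] (hna : ¬ IsMulCommutative G) {p : ℕ} [Fact p.Prime] (hp : p ≠ 2) (hdvd : p ∣ Nat.card G) (hprop : ∀ H : Subgroup G, H ≠ ⊤ → Cfsg.IsPSolvable p ↥H) : ∃ x y z : G, Subgroup.closure ({x, y, z} : Set G) = ⊤ := by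
  by_contra hcon
  push Not at hcon
  have hp' : p.Prime := Fact.out
  have hps : ∀ a b c : G, Cfsg.IsPSolvable p (closure ({a, b, c} : Set G)) :=
    fun a b c => hprop _ (hcon a b c)
  have h2 : ∀ x : G × G, ∃ n, low p (closure ({x.1, x.2} : Set G)) n = ⊥ := by
    intro x
    refine exists_low_eq_bot (PLocal.PSolv.of_le (hps x.1 x.2 1) (closure_mono ?_))
    intro y hy
    simp only [Set.mem_insert_iff, Set.mem_singleton_iff] at hy ⊢
    tauto
  choose f hf using h2
  have hex : ∃ n, ∀ a b : G, low p (closure ({a, b} : Set G)) n = ⊥ := by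
    obtain ⟨M, hM⟩ := (Set.finite_range f).bddAbove
    refine ⟨M, fun a b => ?_⟩
    rw [eq_bot_iff, ← hf (a, b)]
    exact low_anti _ (hM ⟨(a, b), rfl⟩)
  classical
  have h0 := Nat.find_spec hex
  obtain ⟨a₀, ha₀⟩ := exists_ne (1 : G)
  have hne : Nat.find hex ≠ 0 := by
    intro e
    rw [e] at h0
    exact ha₀ (mem_bot.1 (h0 a₀ a₀ ▸ (subset_closure (by simp) : a₀ ∈ closure ({a₀, a₀} : Set G))))
  obtain ⟨n, hn⟩ := Nat.exists_eq_succ_of_ne_zero hne
  have h1 := Nat.find_min hex (m := n) (by omega)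
  rw [hn] at h0
  push Not at h1
  obtain ⟨a, b, hab⟩ := h1
  obtain ⟨⟨d, hd⟩, hd1⟩ := (ne_bot_iff_exists_ne_one).1 hab
  have hd1' : d ≠ 1 := fun e => hd1 (Subtype.ext e)
  have key : ∀ g : G, ∃ K : Subgroup G, d ∈ K ∧ g ∈ normalizer (K : Set G) ∧
      IsPiNum (alt p n)ᶜ (Nat.card K) := by
    intro g
    refine ⟨low p (closure ({a, b, g} : Set G)) n, low_mono (closure_mono ?_) n hd,
      normalizer_le_low _ n (le_normalizer (subset_closure (by simp))),
      res_eq_bot_iff.1 (cfh (hps a b g) h0)⟩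
    intro y hy
    simp only [Set.mem_insert_iff, Set.mem_singleton_iff] at hy ⊢
    tauto
  rcases alt_cases p n with e | e
  · have := powell_simple hd1' (m := p) fun g => by
      obtain ⟨K, h1, h2, h3⟩ := key g
      exact ⟨K, h1, h2, (IsPiNum.compl_singleton_iff hp').1 (e ▸ h3)⟩
    exact hp'.one_lt.ne' (Nat.Coprime.eq_one_of_dvd this.symm hdvd)
  · have hq : ∃ q, q.Prime ∧ q ∣ Nat.card G ∧ q ≠ p := by
      by_contra hq
      push Not at hq
      have := (isPGroup_of_isPiNum_singleton (G := G) hp' fun q h1 h2 => hq q h1 h2).isNilpotent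
      exact hna ⟨⟨IsSimpleGroup.comm_iff_isSolvable.2 inferInstance⟩⟩
    obtain ⟨q, hq, hqd, hqp⟩ := hq
    have := powell_simple hd1' (m := q) fun g => by
      obtain ⟨K, h1, h2, h3⟩ := key g
      rw [e, compl_compl] at h3
      refine ⟨K, h1, h2, ((Nat.Prime.coprime_iff_not_dvd hq).2 fun h4 => hqp (h3 q hq h4)).symm⟩
    exact hq.one_lt.ne' (Nat.Coprime.eq_one_of_dvd this.symm hqd)

end Cfsg.Agent.S3792
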