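import Cfsg.Statements.S3797
import Cfsg.Agent.Lib.TwoLen.Thompson

set_option autoImplicit false
open Cfsg

namespace Cfsg.Agent.S3797

open Subgroup CfsgLib.PLocal CfsgLib.Core CfsgLib.PLen CfsgLib.TwoLen

theorem fusion {G : Type*} [Group G] [Finite G] {p : ℕ} [hp : Fact p.Prime]
    (h : PLengthLE p 1 G) (S : Sylow p G) {x y : G} (hx : x ∈ (S : Subgroup G))
    (hy : y ∈ (S : Subgroup G)) (hxy : IsConj x y) :
    ∃ n ∈ normalizer ((S : Subgroup G) : Set G), n * x * n⁻¹ = y := by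
  have := pPrimePCore_normal' p G
  have h1 : (S : Subgroup G) ≤ pPrimePCore p G := le_of_coprime_card_index
    (isPGroup_coprime_card S.isPGroup' (plen_zero_iff.1 (plen_succ_iff.1 h)))
  set O := pPrimeCore p G with hO
  have h2 : pPrimePCore p G ≤ O ⊔ S := by
    have h3 := PSolv.pCore_le_sylow (S.mapSurjective (QuotientGroup.mk'_surjective O))
    intro g hg
    have h4 : g ∈ ((S : Subgroup G).map (QuotientGroup.mk' O)).comap (QuotientGroup.mk' O) := h3 hg
    rwa [comap_map_eq, QuotientGroup.ker_mk', sup_comm] at h4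
  have h3 : O ⊔ normalizer ((S : Subgroup G) : Set G) = ⊤ := by
    rw [eq_top_iff, ← Sylow.normalizer_sup_eq_top' S h1]
    exact sup_le le_sup_right (h2.trans (sup_le_sup_left le_normalizer _))
  obtain ⟨g, rfl⟩ := isConj_iff.1 hxy
  obtain ⟨k, hk, n, hn, rfl⟩ := mem_sup_of_normal_left.1 (h3 ▸ mem_top g)
  refine ⟨n, hn, ?_⟩
  have h4 := (mem_normalizer_iff.1 hn x).1 hx
  have h5 : k * n * x * (k * n)⁻¹ * (n * x * n⁻¹)⁻¹ ∈ (S : Subgroup G) ⊓ O :=
    mem_inf.2 ⟨mul_mem hy (inv_mem h4), by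
      have := mul_mem hk (Normal.conj_mem inferInstance _ (inv_mem hk) (n * x * n⁻¹))
      rwa [show k * (n * x * n⁻¹ * k⁻¹ * (n * x * n⁻¹)⁻¹) =
        k * n * x * (k * n)⁻¹ * (n * x * n⁻¹)⁻¹ by group] at this⟩
  rw [isPGroup_inf_eq_bot_of_coprime S.isPGroup' PSolv.coprime_card_pPrimeCore, mem_bot,
    mul_inv_eq_one] at h5
  exact h5.symm

theorem homocyclic {A : Type*} [CommGroup A] [Finite A] (hA : IsPGroup 2 A)
    (h : ∀ x y : A, x ≠ 1 → x ^ 2 = 1 → y ≠ 1 → y ^ 2 = 1 → ∃ a : MulAut A, a x = y) :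
    ∃ m r : ℕ, Nonempty (A ≃* (Fin r → Multiplicative (ZMod (2 ^ m)))) := by
  classical
  obtain ⟨ι, _, n, hn, ⟨e⟩⟩ := CommGroup.equiv_prod_multiplicative_zmod_of_finite A
  have h1 : ∀ i, ∃ k, n i = 2 ^ (k + 1) := fun i => by
    obtain ⟨k, hk⟩ := hA (e.symm (Pi.mulSingle i (Multiplicative.ofAdd 1)))
    rw [← map_pow, MulEquiv.map_eq_one_iff] at hk
    have h2 := congrFun hk i
    rw [Pi.pow_apply, Pi.mulSingle_eq_same, ← ofAdd_nsmul, Pi.one_apply, ofAdd_eq_one,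
      nsmul_one, ZMod.natCast_eq_zero_iff] at h2
    obtain ⟨j, -, hj⟩ := (Nat.dvd_prime_pow Nat.prime_two).1 h2
    cases j with
    | zero => exact absurd (hn i) (by rw [hj]; simp)
    | succ j => exact ⟨j, hj⟩
  choose k hk using h1
  set t : ι → A := fun i => e.symm (Pi.mulSingle i (Multiplicative.ofAdd 1)) ^ 2 ^ k i with ht
  have ht0 : ∀ i, e (t i) i = Multiplicative.ofAdd ((2 ^ k i : ℕ) : ZMod (n i)) := fun i => by
    rw [ht]
    simp only [map_pow, MulEquiv.apply_symm_apply, Pi.pow_apply, Pi.mulSingle_eq_same]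
    rw [← ofAdd_nsmul, nsmul_one]
  have ht1 : ∀ i, e (t i) i ≠ 1 := fun i h1 => by
    rw [ht0, ofAdd_eq_one, ZMod.natCast_eq_zero_iff, hk,
      Nat.pow_dvd_pow_iff_le_right (by norm_num)] at h1
    omega
  have hpow : ∀ i (x : Multiplicative (ZMod (n i))), x ^ 2 ^ (k i + 1) = 1 := fun i x => by
    have : NeZero (n i) := ⟨by have := hn i; omega⟩
    rw [← hk]
    have := pow_card_eq_one' (x := x)
    rwa [Nat.card_congr Multiplicative.toAdd, Nat.card_zmod] at this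
  have ht2 : ∀ i, t i ^ 2 = 1 := fun i => by
    rw [ht]
    simp only
    rw [← pow_mul, ← pow_succ, ← map_pow, ← Pi.mulSingle_pow, hpow, Pi.mulSingle_one, map_one]
  have ht3 : ∀ i, t i ≠ 1 := fun i h1 => ht1 i (by rw [h1, map_one, Pi.one_apply])
  have hle : ∀ i j, k i ≤ k j := fun i j => by
    by_contra hlt
    obtain ⟨a, ha⟩ := h (t i) (t j) (ht3 i) (ht2 i) (ht3 j) (ht2 j)
    obtain ⟨d, hd⟩ : ∃ d, k i = k j + 1 + d := ⟨k i - (k j + 1), by omega⟩
    refine ht1 j ?_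
    rw [← ha, ht]
    simp only
    rw [map_pow, map_pow, Pi.pow_apply, hd, pow_add, pow_mul, hpow, one_pow]
  rcases isEmpty_or_nonempty ι with h0 | ⟨⟨i₀⟩⟩
  · exact ⟨0, 0, ⟨e.trans MulEquiv.ofUnique⟩⟩
  have h2 : n = fun _ => 2 ^ (k i₀ + 1) := funext fun i => by
    rw [hk, le_antisymm (hle i i₀) (hle i₀ i)]
  clear ht0 ht1 hpow ht2 ht3 ht hk
  subst h2
  exact ⟨k i₀ + 1, Fintype.card ι,
    ⟨e.trans (MulEquiv.arrowCongr (Fintype.equivFin ι) (MulEquiv.refl _))⟩⟩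

/-- Let G be a finite solvable group of even order whose Sylow 2-subgroups contain more than one involution, and suppose all involutions of G are conjugate. Then G has 2-length at most 1, and a Sylow 2-subgroup S of G is either homocyclic (a direct product of cyclic groups of one common order) or a non-abelian 2-group with more than one involution admitting a solvable group of automorphisms transitive on its involutions. -/
theorem result {G : Type*} [Group G] [Finite G] (hG : Group.IsSolvable G) (heven : Even (Nat.card G)) (S : Sylow 2 G) (htwo : ∃ x y : G, x ∈ (S : Subgroup G) ∧ y ∈ (S : Subgroup G) ∧ x ≠ y ∧ x ≠ 1 ∧ x ^ 2 = 1 ∧ y ≠ 1 ∧ y ^ 2 = 1) (hconj : ∀ x y : G, x ≠ 1 → x ^ 2 = 1 → y ≠ 1 → y ^ 2 = 1 → IsConj x y) : Cfsg.PLengthLE 2 1 G ∧ ((∃ m r : ℕ, Nonempty (↥(S : Subgroup G) ≃* (Fin r → Multiplicative (ZMod (2 ^ m))))) ∨ (¬ IsMulCommutative (S : Subgroup G) ∧ ∃ Y : Subgroup (MulAut ↥(S : Subgroup G)), Group.IsSolvable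 Y ∧ ∀ x y : ↥(S : Subgroup G), x ≠ 1 → x ^ 2 = 1 → y ≠ 1 → y ^ 2 = 1 → ∃ a ∈ Y, a x = y)) := by
  obtain ⟨x₀, y₀, hx₀, hy₀, hxy, hx1, hx2, hy1, hy2⟩ := htwo
  have hlen : PLengthLE 2 1 G := by
    set f := QuotientGroup.mk' (pPrimeCore 2 G) with hf
    have hk : (Nat.card f.ker).Coprime 2 := by
      rw [QuotientGroup.ker_mk']; exact PSolv.coprime_card_pPrimeCore
    have hinj : ∀ x ∈ (S : Subgroup G), f x = 1 → x = 1 := fun x hx h => by
      rw [← mem_bot, ← isPGroup_inf_eq_bot_of_coprime S.isPGroup' hk]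
      exact ⟨hx, h⟩
    refine plen_of_coprime_ker (QuotientGroup.mk'_surjective _) hk (plen_one_of_oneClass
      (PSolv.centralizer_pCore_le PSolv.of_isSolvable PSolv.pPrimeCore_quotient)
      (fun x y h1 h2 h3 h4 => ?_) (x₀ := f x₀) (y₀ := f y₀) (fun h => hxy ?_)
      (fun h => hx1 (hinj _ hx₀ h)) (by rw [← map_pow, hx2, map_one])
      (fun h => hy1 (hinj _ hy₀ h)) (by rw [← map_pow, hy2, map_one]))
    · obtain ⟨x, rfl, hx⟩ := exists_order_lift (QuotientGroup.mk'_surjective _) hk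
        (orderOf_eq_prime h2 h1)
      obtain ⟨y, rfl, hy⟩ := exists_order_lift (QuotientGroup.mk'_surjective _) hk
        (orderOf_eq_prime h4 h3)
      exact f.map_isConj (hconj x y (by rintro rfl; simp at hx) (hx ▸ pow_orderOf_eq_one x)
        (by rintro rfl; simp at hy) (hy ▸ pow_orderOf_eq_one y))
    · exact mul_inv_eq_one.1 (hinj _ (mul_mem hx₀ (inv_mem hy₀)) (by
        rw [map_mul, map_inv, h, mul_inv_cancel]))
  refine ⟨hlen, ?_⟩
  have htr : ∀ x y : ↥(S : Subgroup G), x ≠ 1 → x ^ 2 = 1 → y ≠ 1 → y ^ 2 = 1 →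
      ∃ a ∈ (S : Subgroup G).normalizerMonoidHom.range, a x = y := fun x y h1 h2 h3 h4 => by
    obtain ⟨n, hn, e⟩ := fusion hlen S x.2 y.2 (hconj x y (fun h => h1 (Subtype.ext h))
      (congrArg Subtype.val h2) (fun h => h3 (Subtype.ext h)) (congrArg Subtype.val h4))
    exact ⟨_, ⟨⟨n, hn⟩, rfl⟩, Subtype.ext e⟩
  by_cases hab : IsMulCommutative (S : Subgroup G)
  · left
    let : CommGroup (S : Subgroup G) := { mul_comm := hab.is_comm.comm }
    exact homocyclic S.isPGroup' fun x y h1 h2 h3 h4 =>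
      (htr x y h1 h2 h3 h4).imp fun a ha => ha.2
  · exact Or.inr ⟨hab, _, Group.isSolvable_of_surjective
      (MonoidHom.rangeRestrict_surjective _), htr⟩

end Cfsg.Agent.S3797
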