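import Cfsg.Statements.S3799
import Mathlib
import Cfsg.Agent.Lib.PGroup.Extraspecial
import Cfsg.Agent.Lib.FiLoc.Xsp

set_option autoImplicit false
open Cfsg

namespace Cfsg.Agent.S3799

/-- The Heisenberg group. -/
@[ext] structure He (n : ℕ) (F : Type) where
  /-- First coordinate. -/
  a : Fin n → F
  /-- Second coordinate. -/
  b : Fin n → F
  /-- Central coordinate. -/
  c : F

variable {n : ℕ} {F : Type} [Field F]

instance : Mul (He n F) := ⟨fun x y => ⟨x.a + y.a, x.b + y.b, x.c + y.c + x.a ⬝ᵥ y.b⟩⟩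
instance : One (He n F) := ⟨⟨0, 0, 0⟩⟩
instance : Inv (He n F) := ⟨fun x => ⟨-x.a, -x.b, -x.c + x.a ⬝ᵥ x.b⟩⟩

theorem mul_def (x y : He n F) : x * y = ⟨x.a + y.a, x.b + y.b, x.c + y.c + x.a ⬝ᵥ y.b⟩ := rfl
theorem one_def : (1 : He n F) = ⟨0, 0, 0⟩ := rfl
theorem inv_def (x : He n F) : x⁻¹ = ⟨-x.a, -x.b, -x.c + x.a ⬝ᵥ x.b⟩ := rfl

instance : Group (He n F) := Group.ofLeftAxioms
  (fun x y z => by simp only [mul_def, add_dotProduct, dotProduct_add, He.mk.injEq]; refine ⟨?_, ?_, ?_⟩ <;> ring)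
  (fun x => by simp [mul_def, one_def]) (fun x => by simp [mul_def, one_def, inv_def])

theorem pow_def (x : He n F) : ∀ k : ℕ,
    x ^ k = ⟨(k : F) • x.a, (k : F) • x.b, k * x.c + (k.choose 2 : ℕ) * x.a ⬝ᵥ x.b⟩
  | 0 => by simp [one_def]
  | k + 1 => by
    rw [pow_succ, pow_def x k, mul_def, Nat.choose_succ_succ' k 1]
    simp only [He.mk.injEq, Nat.cast_add, Nat.cast_one, add_smul, one_smul, smul_dotProduct,
      Nat.choose_one_right, smul_eq_mul, true_and]
    ring

/-- Extension of a vector by zero. -/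
def ex (a : Fin n → F) : Fin (n + 2) → F := Fin.cons 0 (Fin.snoc a 0)

theorem ex_add (a b : Fin n → F) : ex (a + b) = ex a + ex b := by
  funext i
  refine Fin.cases (by simp [ex]) (fun i => Fin.lastCases (by simp [ex]) (fun i => by simp [ex]) i) i

theorem ex_dot (a b : Fin n → F) : ex a ⬝ᵥ ex b = a ⬝ᵥ b := by
  rw [dotProduct, Fin.sum_univ_succ, Fin.sum_univ_castSucc]
  simp [ex, dotProduct]

theorem ex_last (a : Fin n → F) : ex a (Fin.last _) = 0 := by
  rw [← Fin.succ_last]; simp [ex]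

open Matrix in
/-- The matrix of an element. -/
def mat : He n F →* Matrix (Fin (n + 2)) (Fin (n + 2)) F where
  toFun x := 1 + vecMulVec (Pi.single 0 1) (ex x.a) + vecMulVec (ex x.b) (Pi.single (Fin.last _) 1) +
    x.c • vecMulVec (Pi.single 0 1) (Pi.single (Fin.last _) 1)
  map_one' := by
    have : ex (0 : Fin n → F) = 0 := by simpa using ex_add (0 : Fin n → F) 0
    simp [one_def, this]
  map_mul' x y := by
    have h0 : ∀ a : Fin n → F, ex a 0 = 0 := fun a => rfl
    have h1 : (Pi.single (Fin.last (n + 1)) (1 : F) : Fin (n + 2) → F) 0 = 0 := by simp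
    simp only [mul_def, ex_add, mul_add, add_mul, mul_one, one_mul, vecMulVec_mul_vecMulVec, ex_dot,
      Matrix.smul_mul, Matrix.mul_smul, dotProduct_single, single_dotProduct, h0, h1, ex_last,
      zero_smul, smul_zero, add_zero, vecMulVec_add, add_vecMulVec, add_smul, vecMulVec_zero,
      vecMulVec_smul]
    abel

theorem mat_inj : ∀ x : He n F, mat x = 1 → x = 1 := fun x h => by
  have h0 : ∀ a : Fin n → F, ex a 0 = 0 := fun a => rfl
  have h1 : ∀ i j, (Pi.single 0 1 : Fin (n + 2) → F) i * ex x.a j +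
      ex x.b i * (Pi.single (Fin.last _) 1 : Fin (n + 2) → F) j + x.c * ((Pi.single 0 1 : Fin (n + 2) → F) i *
      (Pi.single (Fin.last _) 1 : Fin (n + 2) → F) j) = 0 := fun i j => by
    simpa [mat, Matrix.vecMulVec_apply, add_assoc] using congrFun (congrFun h i) j
  refine He.ext (funext fun i => ?_) (funext fun i => ?_) ?_
  · simpa [one_def, h0, ← Fin.succ_last, ex, (Fin.castSucc_lt_last i).ne] using h1 0 i.castSucc.succ
  · simpa [one_def, ex_last, ex] using h1 i.castSucc.succ (Fin.last _)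
  · simpa [one_def, h0, ex_last] using h1 0 (Fin.last _)

open CfsgLib Subgroup in

/-- For every odd prime p and every n ≥ 1 there is an extraspecial p-group of order p^(1+2n) and exponent p; concretely, the general linear group of degree n + 2 over the field with p elements contains such a subgroup. -/
theorem result (p : ℕ) [Fact p.Prime] (hp : p ≠ 2) (n : ℕ) (hn : 1 ≤ n) : ∃ E : Subgroup (Matrix.GeneralLinearGroup (Fin (n + 2)) (ZMod p)), Cfsg.IsExtraspecial p ↥E ∧ Nat.card E = p ^ (1 + 2 * n) ∧ ∀ x ∈ E, x ^ p = 1 := by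
  have hpp : p.Prime := Fact.out
  let e : He n (ZMod p) ≃ (Fin n → ZMod p) × (Fin n → ZMod p) × ZMod p :=
    ⟨fun x => (x.a, x.b, x.c), fun x => ⟨x.1, x.2.1, x.2.2⟩, fun _ => rfl, fun _ => rfl⟩
  have : Finite (He n (ZMod p)) := Finite.of_equiv _ e.symm
  have hcard : Nat.card (He n (ZMod p)) = p ^ (1 + 2 * n) := by
    rw [Nat.card_congr e]; simp; ring
  let φ := (mat (n := n) (F := ZMod p)).toHomUnits
  have hi : Function.Injective φ := (injective_iff_map_eq_one φ).2 fun x h =>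
    mat_inj x (congrArg Units.val h)
  let i0 : Fin n := ⟨0, hn⟩
  have hz : ∀ x : He n (ZMod p), x ∈ center _ ↔ x.a = 0 ∧ x.b = 0 := fun x => by
    rw [mem_center_iff]
    refine ⟨fun h => ⟨funext fun i => ?_, funext fun i => ?_⟩, fun h g => by simp [mul_def, h.1, h.2, add_comm]⟩
    · simpa [mul_def] using congrArg He.c (h ⟨0, Pi.single i 1, 0⟩)
    · simpa [mul_def] using congrArg He.c (h ⟨Pi.single i 1, 0, 0⟩)
  have hex : Cfsg.IsExtraspecial p (He n (ZMod p)) := by
    refine PGroup.isExtraspecial_of_commutator_le_center (IsPGroup.of_card hcard) ?_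
      (commutator_le.2 fun g _ h _ => (hz _).2 ?_) fun h => ?_
    · refine Eq.trans (Nat.card_congr ?_) (Nat.card_zmod p)
      exact ⟨fun x => x.1.c, fun c => ⟨⟨0, 0, c⟩, (hz _).2 ⟨rfl, rfl⟩⟩, fun x =>
        Subtype.ext (He.ext ((hz _).1 x.2).1.symm ((hz _).1 x.2).2.symm rfl), fun _ => rfl⟩
    · simp [commutatorElement_def, mul_def, inv_def]
    · simpa [mul_def] using congrArg He.c (h.is_comm.comm ⟨Pi.single i0 1, 0, 0⟩ ⟨0, Pi.single i0 1, 0⟩)
  refine ⟨φ.range, FiLoc.extraspecial_equiv hex (MonoidHom.ofInjective hi),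
    (Nat.card_congr (MonoidHom.ofInjective hi).toEquiv).symm.trans hcard, ?_⟩
  rintro _ ⟨x, rfl⟩
  rw [← map_pow, pow_def, (ZMod.natCast_eq_zero_iff _ _).2 (hpp.dvd_choose_self two_ne_zero
    (lt_of_le_of_ne hpp.two_le hp.symm))]
  simp [← one_def]
end Cfsg.Agent.S3799
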