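import Cfsg.Statements.S3950
import Cfsg.Agent.Lib.Schur.Metacyclic

set_option autoImplicit false
open Cfsg

namespace Cfsg.Agent.S3950

open CfsgLib.Schur Function

/-- A finite abelian group has trivial Schur multiplier if and only if it is cyclic. -/
theorem result {G : Type*} [CommGroup G] [Finite G] : Cfsg.HasCyclicSchurMultiplier G 1 ↔ IsCyclic G := by
  classical
  constructor
  · intro h
    obtain ⟨ι, _, n, hn, ⟨e⟩⟩ := CommGroup.equiv_prod_multiplicative_zmod_of_finite G
    by_cases hc : Pairwise (Nat.Coprime on n)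
    · have e1 := (ZMod.prodEquivPi n hc).toAddEquiv
      have e2 : Multiplicative (ZMod (∏ i, n i)) ≃* ((i : ι) → Multiplicative (ZMod (n i))) :=
        (AddEquiv.toMultiplicative e1).trans (MulEquiv.piMultiplicative _)
      exact (e.trans e2.symm).isCyclic.mpr inferInstance
    · exfalso
      simp only [Pairwise, not_forall] at hc
      obtain ⟨i, j, hij, hc⟩ := hc
      let d := (n i).gcd (n j)
      let χ : ∀ k : ι, d ∣ n k → G →* Multiplicative (ZMod d) := fun k hk =>
        (AddMonoidHom.toMultiplicative (ZMod.castHom hk (ZMod d)).toAddMonoidHom).comp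
          ((Pi.evalMonoidHom _ k).comp e.toMonoidHom)
      let x : ι → G := fun k => e.symm (Pi.mulSingle k (Multiplicative.ofAdd 1))
      have h1 : ∀ k hk, χ k hk (x k) = Multiplicative.ofAdd 1 := by
        intro k hk
        apply Multiplicative.toAdd.injective
        simp [χ, x, ZMod.cast_one hk]
      have h2 : χ i (Nat.gcd_dvd_left _ _) (x j) = 1 := by
        simp [χ, x, Pi.mulSingle_eq_of_ne hij]
      have h3 := le_card_stemKer_of_chars (χ i (Nat.gcd_dvd_left _ _)) (χ j (Nat.gcd_dvd_right _ _))
        (x := x i) (y := x j) (mul_comm _ _) (h1 _ _) (h1 _ _) h2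
      rw [stemKer_eq_bot_of_trivial h BilinExt.isCentralExt_proj, Subgroup.card_bot] at h3
      have h4 : 0 < d := Nat.gcd_pos_of_pos_left _ (by have := hn i; omega)
      exact hc (show d = 1 by omega)
  · intro h
    rw [trivial_mult_iff]
    intro Γ _ _ σ hσ
    have := σ.isMulCommutative_of_isCyclic_of_ker_le_center hσ.2.1
    have h1 := hσ.2.2
    rw [commutator_eq_bot] at h1
    exact le_bot_iff.mp h1

end Cfsg.Agent.S3950
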