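import Cfsg.Statements.S3951
import Cfsg.Agent.Lib.Schur.Metacyclic

set_option autoImplicit false
open Cfsg

namespace Cfsg.Agent.S3951

open CfsgLib.Schur Subgroup
open scoped commutatorElement

/-- For positive integers `m` and `n` with `n` dividing `m`, the Schur multiplier of the abelian group `ZMod m × ZMod n` (written multiplicatively) is cyclic of order `n`. In particular the elementary abelian group of order `p ^ 2` has multiplier of order `p`. -/
theorem result (m n : ℕ) [NeZero m] [NeZero n] (hnm : n ∣ m) : Cfsg.HasCyclicSchurMultiplier (Multiplicative (ZMod m × ZMod n)) n := by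
  let x : Multiplicative (ZMod m × ZMod n) := Multiplicative.ofAdd (1, 0)
  let y : Multiplicative (ZMod m × ZMod n) := Multiplicative.ofAdd (0, 1)
  have hgen : Subgroup.closure {x, y} = ⊤ := by
    rw [eq_top_iff]
    intro z _
    obtain ⟨i, hi⟩ := ZMod.intCast_surjective z.toAdd.1
    obtain ⟨j, hj⟩ := ZMod.intCast_surjective z.toAdd.2
    have : z = x ^ i * y ^ j := by
      apply Multiplicative.toAdd.injective
      ext <;> simp [x, y, hi, hj]
    rw [this]
    exact mul_mem (zpow_mem (subset_closure (by simp)) _) (zpow_mem (subset_closure (by simp)) _)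
  let χ : Multiplicative (ZMod m × ZMod n) →* Multiplicative (ZMod n) :=
    AddMonoidHom.toMultiplicative ((ZMod.castHom hnm (ZMod n)).toAddMonoidHom.comp
      (AddMonoidHom.fst _ _))
  let ψ : Multiplicative (ZMod m × ZMod n) →* Multiplicative (ZMod n) :=
    AddMonoidHom.toMultiplicative (AddMonoidHom.snd _ _)
  refine cyclic_mult_of_bounds (NeZero.ne n) (fun Γ _ _ σ hσ => ?_) BilinExt.isCentralExt_proj
    (le_card_stemKer_of_chars χ ψ (x := x) (y := y) (mul_comm _ _) ?_ rfl ?_)
  · obtain ⟨a, b, ha, hb, h, h1, h2⟩ := stem_metacyclic hσ (r := 1) hgen (by simp)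
    refine ⟨_, h1, h2, ?_⟩
    have h3 : σ (b ^ n) = 1 := by
      rw [map_pow, hb]
      apply Multiplicative.toAdd.injective
      ext <;> simp [y]
    have h4 := h.zpow_sum_eq_one_of_commute (j := n) ((centralExt_of_stem hσ).comm h3 a).symm
    simp only [one_pow, Finset.sum_const, Finset.card_range, nsmul_eq_mul, mul_one,
      zpow_natCast] at h4
    rw [← pow_mul, mul_comm, pow_mul, h4, one_pow]
  · apply Multiplicative.toAdd.injective
    exact map_one (ZMod.castHom hnm (ZMod n))
  · apply Multiplicative.toAdd.injective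
    exact map_zero (ZMod.castHom hnm (ZMod n))

end Cfsg.Agent.S3951
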