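import Cfsg.Statements.S3952
import Cfsg.Agent.Lib.Schur.Restrict
import Cfsg.Agent.Lib.Char.Kernel

set_option autoImplicit false
open Cfsg

namespace Cfsg.Agent.S3952

open CfsgLib.Schur CfsgLib.Char Subgroup

theorem sq_mul_card_le {S : Type*} [Group S] [Finite S] {n : ℕ}
    (ρ : Representation ℂ S (Fin n → ℂ)) (hρ : ρ.IsIrreducible) :
    n ^ 2 * Nat.card (center S) ≤ Nat.card S := by
  classical
  have := Fintype.ofFinite S
  have hχ : IsIrrCharacter S ρ.character := ⟨n, ρ, hρ, rfl⟩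
  have h1 := classInner_self_re ρ.character
  rw [classInner_irr_self hχ, Complex.one_re] at h1
  have h0 : (0 : ℝ) < Nat.card S := by exact_mod_cast Nat.card_pos
  have h2 : (Nat.card S : ℝ) = ∑ g, ‖ρ.character g‖ ^ 2 := by
    field_simp at h1; exact h1
  have h3 : ∑ g ∈ Finset.univ.filter (· ∈ center S), ‖ρ.character g‖ ^ 2 ≤ ∑ g, ‖ρ.character g‖ ^ 2 :=
    Finset.sum_le_sum_of_subset_of_nonneg (Finset.filter_subset _ _) fun _ _ _ => by positivity
  have h4 : ∑ g ∈ Finset.univ.filter (· ∈ center S), ‖ρ.character g‖ ^ 2 =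
      (Nat.card (center S) : ℝ) * n ^ 2 := by
    rw [Finset.sum_congr rfl (g := fun _ => (n : ℝ) ^ 2)]
    · rw [Finset.sum_const, nsmul_eq_mul, Nat.card_eq_fintype_card, Fintype.card_subtype]
    · intro g hg
      rw [norm_irr_of_mem_center hχ (Finset.mem_filter.mp hg).2]
      simp
  have h5 : ((n ^ 2 * Nat.card (center S) : ℕ) : ℝ) ≤ Nat.card S := by
    push_cast
    rw [h2, mul_comm, ← h4]; exact h3
  exact_mod_cast h5

theorem key {S : Type*} [Group S] [Finite S] {p a : ℕ} (hp : p.Prime) {k : S}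
    (hk : orderOf k = p ^ (a + 1)) (h1 : k ∈ center S) (h2 : k ∈ commutator S) :
    (p ^ (a + 1)) ^ 2 * Nat.card (center S) ≤ Nat.card S := by
  have := Fact.mk hp
  have hne : k ^ p ^ a ≠ 1 := by
    intro h
    have := orderOf_dvd_of_pow_eq_one h
    rw [hk, Nat.pow_dvd_pow_iff_le_right hp.one_lt] at this
    omega
  obtain ⟨χ, hχ, hχ'⟩ : ∃ χ, IsIrrCharacter S χ ∧ χ (k ^ p ^ a) ≠ χ 1 := by
    by_contra! h
    exact hne (eq_one_of_forall_irr_eq h)
  obtain ⟨n, ρ, hρ, rfl⟩ := hχ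
  obtain ⟨c, hc⟩ := exists_eq_smul_of_comm ρ (ρ k) (fun g => by
    rw [← Module.End.mul_eq_comp, ← Module.End.mul_eq_comp, ← map_mul, ← map_mul,
      Subgroup.mem_center_iff.mp h1 g])
  have hpow : ∀ j : ℕ, ρ (k ^ j) = c ^ j • LinearMap.id := by
    intro j
    rw [map_pow, hc, smul_pow]
    congr 1
    exact one_pow j
  have hn : 0 < n := by simpa using finrank_pos_of_isIrreducible ρ
  have hc1 : c ^ p ^ (a + 1) = 1 := by
    have h3 := hpow (p ^ (a + 1))
    rw [← hk, pow_orderOf_eq_one, map_one, hk] at h3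
    have h4 := congrFun (LinearMap.congr_fun h3 (fun _ => 1)) ⟨0, hn⟩
    simpa using h4.symm
  have hc2 : c ^ p ^ a ≠ 1 := by
    intro h
    apply hχ'
    rw [char_eq_one_iff_mem_ker, MonoidHom.mem_ker, hpow, h, one_smul]
    rfl
  have hord : orderOf c = p ^ (a + 1) := orderOf_eq_prime_pow hc2 hc1
  have hdet : c ^ n = 1 := by
    let d : S →* ℂˣ := ((LinearMap.det : ((Fin n → ℂ) →ₗ[ℂ] (Fin n → ℂ)) →* ℂ).comp ρ).toHomUnits
    have h3 : d k = 1 := Abelianization.commutator_subset_ker d h2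
    have h4 : LinearMap.det (ρ k) = 1 := congrArg Units.val h3
    rw [hc, LinearMap.det_smul] at h4
    simpa using h4
  have h5 : p ^ (a + 1) ≤ n := Nat.le_of_dvd hn (hord ▸ orderOf_dvd_of_pow_eq_one hdet)
  exact le_trans (Nat.mul_le_mul_right _ (Nat.pow_le_pow_left h5 2)) (sq_mul_card_le ρ hρ)

/-- If `A` is the Schur multiplier of the finite group `Q`, then the square of the exponent of `A` divides the order of `Q`. -/
theorem result {Q : Type*} [Group Q] [Finite Q] {A : Type*} [CommGroup A] (hA : Cfsg.HasSchurMultiplier Q A) : Monoid.exponent A ^ 2 ∣ Nat.card Q := by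
  have := finite_of_mult hA
  obtain ⟨Γ, _, _, σ, hσ, ⟨e⟩⟩ := hA.1
  have hc := centralExt_of_stem hσ
  have he : Monoid.exponent A ≠ 0 := Monoid.exponent_ne_zero_of_finite
  have hQ : Nat.card Q ≠ 0 := Nat.card_pos.ne'
  rw [← Nat.factorization_prime_le_iff_dvd (pow_ne_zero _ he) hQ]
  intro p hp
  have := Fact.mk hp
  rw [Nat.factorization_pow, Finsupp.smul_apply, smul_eq_mul]
  obtain ⟨g, hg⟩ := hp.exists_orderOf_eq_pow_factorization_exponent A
  rcases hf : (Monoid.exponent A).factorization p with _ | a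
  · simp
  rw [hf] at hg
  obtain ⟨P⟩ : Nonempty (Sylow p Q) := inferInstance
  have hz : ((e.symm g : σ.ker) : Γ) ∈ stemKer σ := by
    rw [stemKer_eq_ker_of_stem hσ]; exact (e.symm g).2
  have hord : orderOf ((e.symm g : σ.ker) : Γ) = p ^ (a + 1) := by
    rw [Subgroup.orderOf_coe, MulEquiv.orderOf_eq, hg]
  obtain ⟨y, hy, hyz⟩ := hc.mem_of_coprime P hz (by
    rw [hord]; exact (hp.coprime_iff_not_dvd.mpr P.not_dvd_index).pow_left _)
  have hy' : orderOf y = p ^ (a + 1) := by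
    rw [← hord, ← hyz, Subgroup.subtype_apply, Subgroup.orderOf_coe]
  have h1 := key hp hy' ((hc.restrict P).central hy.1) hy.2
  rw [card_eq_card_ker_mul (hc.restrict P).surj] at h1
  have h2 : Nat.card (restrictExt σ P).ker ≤ Nat.card (center ((P : Subgroup Q).comap σ)) :=
    Subgroup.card_le_of_le (hc.restrict P).central
  have h3 : (p ^ (a + 1)) ^ 2 ≤ Nat.card P := by
    have h4 : 0 < Nat.card (center ((P : Subgroup Q).comap σ)) := Nat.card_pos
    have h5 := h1.trans (Nat.mul_le_mul_right _ h2)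
    rw [mul_comm (Nat.card _)] at h5
    exact Nat.le_of_mul_le_mul_right h5 h4
  rw [P.card_eq_multiplicity, ← pow_mul, Nat.pow_le_pow_iff_right hp.one_lt] at h3
  omega

end Cfsg.Agent.S3952
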