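import Cfsg.Statements.S3953
import Cfsg.Agent.Lib.Schur.Transfer

set_option autoImplicit false
open Cfsg

namespace Cfsg.Agent.S3953

open CfsgLib.Schur

/-- Let `P` be a Sylow `p`-subgroup of the finite group `G`, let `A` be the Schur multiplier of `G` and `B` that of `P`. Then the `p`-primary component of `A` is isomorphic to a direct factor of `B`: there are subgroups `C` and `D` of `B` meeting trivially and generating `B`, with `C` isomorphic to the `p`-primary component of `A`. -/
theorem result {G : Type*} [Group G] [Finite G] (p : ℕ) [Fact p.Prime] (P : Sylow p G) {A B : Type*} [CommGroup A] [CommGroup B] (hA : Cfsg.HasSchurMultiplier G A) (hB : Cfsg.HasSchurMultiplier P B) : ∃ C D : Subgroup B, C ⊓ D = ⊥ ∧ C ⊔ D = ⊤ ∧ Nonempty (CommGroup.primaryComponent A p ≃* C) := by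
  obtain ⟨i, N, h⟩ := exists_transfer hA P hB
  have := finite_of_mult hA
  have hp := CommGroup.primaryComponent.isPGroup (G := A) (p := p)
  have hcop : (Nat.card (CommGroup.primaryComponent A p)).Coprime (P : Subgroup G).index := by
    obtain ⟨k, hk⟩ := hp.exists_card_eq
    rw [hk]
    exact ((Fact.out : p.Prime).coprime_iff_not_dvd.mpr P.not_dvd_index).pow_left _
  have hbij := (powCoprime hcop).bijective
  let N' := N.comp (CommGroup.primaryComponent A p).subtype
  have h1 : ∀ a, i (N' a) = 1 → a = 1 := by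
    intro a ha
    apply hbij.1
    apply Subtype.ext
    simpa [N', h] using ha
  refine ⟨N'.range, i.ker, ?_, ?_, ⟨MonoidHom.ofInjective ?_⟩⟩
  · rw [eq_bot_iff]
    rintro _ ⟨⟨a, rfl⟩, ha⟩
    rw [h1 a ha, map_one]
    exact one_mem _
  · rw [eq_top_iff]
    intro b _
    obtain ⟨k, hk⟩ := P.isPGroup'.exists_card_eq
    have h2 : i b ∈ CommGroup.primaryComponent A p :=
      ⟨k, by rw [← map_pow, ← hk, pow_card_eq_one_of_mult hB, map_one]⟩
    obtain ⟨a, ha⟩ := hbij.2 ⟨_, h2⟩
    have h3 : i (N' a) = i b := by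
      have := congrArg Subtype.val ha
      simpa [N', h] using this
    have h4 : b = N' a * ((N' a)⁻¹ * b) := by simp
    rw [h4]
    exact Subgroup.mul_mem_sup ⟨a, rfl⟩ (by simp [MonoidHom.mem_ker, h3])
  · rw [injective_iff_map_eq_one]
    intro a ha
    exact h1 a (by rw [ha, map_one])

end Cfsg.Agent.S3953
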