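import Cfsg.Statements.S3956
import Cfsg.Agent.Lib.Schur.Projective

set_option autoImplicit false
universe u v
open Cfsg

namespace Cfsg.Agent.S3956

open CfsgLib.Schur

/-- Let `σ : Γ →* Q` be a finite stem extension of the finite group `Q` such that every homomorphism from `Q` to the quotient of `GL n ℂ` by its centre, for every `n`, lifts along `σ` to a homomorphism `Γ →* GL n ℂ`. Then `σ` is a Schur covering group of `Q`: for every finite stem extension `τ : Δ →* Q` with `Δ` in the same universe as `Q`, the kernel of `τ` is a homomorphic image of the kernel of `σ`. -/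
theorem result {Q : Type u} [Group Q] [Finite Q] {Γ : Type v} [Group Γ] [Finite Γ] (σ : Γ →* Q) (hσ : Cfsg.IsStemExtension σ) (hlift : ∀ (n : ℕ) (γ : Q →* (GL (Fin n) ℂ ⧸ Subgroup.center (GL (Fin n) ℂ))), ∃ ρ : Γ →* GL (Fin n) ℂ, (QuotientGroup.mk' (Subgroup.center (GL (Fin n) ℂ))).comp ρ = γ.comp σ) (Δ : Type u) [Group Δ] [Finite Δ] (τ : Δ →* Q) (hτ : Cfsg.IsStemExtension τ) : ∃ π : σ.ker →* τ.ker, Function.Surjective π := by
  rw [← stemKer_eq_ker_of_stem hσ, ← stemKer_eq_ker_of_stem hτ]
  exact exists_surj_stemKer_of_pb (centralExt_of_stem hσ) (centralExt_of_stem hτ)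
    (stemKer_pbFst_eq_bot_of_lift hlift (centralExt_of_stem hτ))

end Cfsg.Agent.S3956
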