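import Cfsg.Statements.S3964
import Cfsg.Agent.Lib.Schur.Dihedral

set_option autoImplicit false
open Cfsg

namespace Cfsg.Agent.S3964

open CfsgLib.Schur

/-- For odd `n` the dihedral group of order `2 n` has trivial Schur multiplier. -/
theorem result (n : ℕ) (hn : Odd n) : Cfsg.HasCyclicSchurMultiplier (DihedralGroup n) 1 := by
  have : NeZero n := ⟨hn.pos.ne'⟩
  rw [trivial_mult_iff]
  intro Γ _ _ σ hσ
  obtain ⟨c, h1, -, h2⟩ := dihedral_stem hσ
  rw [(Nat.coprime_two_right.mpr hn).gcd_eq_one, Nat.div_one, h2, Subgroup.zpowers_one_eq_bot] at h1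
  exact le_bot_iff.mp h1

end Cfsg.Agent.S3964
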