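import Cfsg.Statements.S3965
import Cfsg.Agent.Lib.Schur.Dihedral

set_option autoImplicit false
open Cfsg

namespace Cfsg.Agent.S3965

open CfsgLib.Schur

/-- For even `n ≥ 2` the dihedral group of order `2 n` has Schur multiplier cyclic of order `2`. -/
theorem result (n : ℕ) [NeZero n] (hn : Even n) : Cfsg.HasCyclicSchurMultiplier (DihedralGroup n) 2 := by
  obtain ⟨h1, h2⟩ := quatToDih_stem n hn
  refine cyclic_mult_of_bounds two_ne_zero (fun Γ _ _ σ hσ => ?_) (centralExt_of_stem h1)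
    (by rw [stemKer_eq_ker_of_stem h1, h2])
  obtain ⟨c, h3, h4, h5⟩ := dihedral_stem hσ
  refine ⟨_, h3, h4, ?_⟩
  rw [← pow_mul, Nat.gcd_eq_right hn.two_dvd, Nat.div_mul_cancel hn.two_dvd, h5]

end Cfsg.Agent.S3965
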