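import Cfsg.Statements.S3967
import Cfsg.Agent.Lib.Schur.Metacyclic

set_option autoImplicit false
open Cfsg

namespace Cfsg.Agent.S3967

open CfsgLib.Schur Subgroup
open scoped commutatorElement

/-- The relators. -/
abbrev rels (m n r t : ℕ) : Set (FreeGroup Bool) :=
  {FreeGroup.of true ^ m, (FreeGroup.of false) ^ n * (FreeGroup.of true ^ t)⁻¹,
    FreeGroup.of false * FreeGroup.of true * (FreeGroup.of false)⁻¹ * (FreeGroup.of true ^ r)⁻¹}

/-- The automorphism `(i, j) ↦ (i, u j + i)`. -/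
def beta {N : ℕ} (u : (ZMod N)ˣ) : MulAut (Multiplicative (ℤ × ZMod N)) :=
  AddEquiv.toMultiplicative
    { toFun := fun x => (x.1, u * x.2 + x.1)
      invFun := fun x => (x.1, u⁻¹ * (x.2 - x.1))
      left_inv := fun x => by simp
      right_inv := fun x => by simp
      map_add' := fun x y => by
        ext
        · simp
        · simp only [Prod.snd_add, Prod.fst_add, Int.cast_add]; ring }

theorem beta_apply {N : ℕ} (u : (ZMod N)ˣ) (i : ℤ) (j : ZMod N) :
    beta u (Multiplicative.ofAdd (i, j)) = Multiplicative.ofAdd (i, u * j + i) := rfl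

theorem beta_pow_apply {N : ℕ} (u : (ZMod N)ˣ) (k : ℕ) (i : ℤ) (j : ZMod N) :
    (beta u ^ k) (Multiplicative.ofAdd (i, j)) =
      Multiplicative.ofAdd (i, u ^ k * j + (∑ s ∈ Finset.range k, (u : ZMod N) ^ s) * i) := by
  induction k with
  | zero => simp
  | succ k ih =>
    rw [pow_succ', MulAut.mul_apply, ih, beta_apply, Finset.sum_range_succ', add_mul]
    congr 2
    simp only [pow_succ', ← Finset.mul_sum]
    ring

/-- The big central extension. -/
abbrev EE {N : ℕ} (u : (ZMod N)ˣ) : Type :=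
  Multiplicative (ℤ × ZMod N) ⋊[zpowersHom _ (beta u)] Multiplicative ℤ

/-- elements of the base -/
def el {N : ℕ} (u : (ZMod N)ˣ) (i : ℤ) (j : ZMod N) : EE u :=
  SemidirectProduct.inl (Multiplicative.ofAdd (i, j))

/-- the generator of the top -/
def bb {N : ℕ} (u : (ZMod N)ˣ) : EE u := SemidirectProduct.inr (Multiplicative.ofAdd 1)

theorem el_mul {N : ℕ} (u : (ZMod N)ˣ) (i i' : ℤ) (j j' : ZMod N) :
    el u i j * el u i' j' = el u (i + i') (j + j') := by
  rw [el, el, ← map_mul]; rfl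

theorem el_zpow {N : ℕ} (u : (ZMod N)ˣ) (i : ℤ) (j : ZMod N) (k : ℤ) :
    el u i j ^ k = el u (k * i) (k * j) := by
  rw [el, el, ← map_zpow, ← ofAdd_zsmul]; simp

theorem el_inj {N : ℕ} {u : (ZMod N)ˣ} {i i' : ℤ} {j j' : ZMod N} (h : el u i j = el u i' j') :
    i = i' ∧ j = j' := by
  have := SemidirectProduct.inl_injective h
  simpa using this

theorem bb_pow_conj {N : ℕ} (u : (ZMod N)ˣ) (k : ℕ) (i : ℤ) (j : ZMod N) :
    bb u ^ k * el u i j * (bb u ^ k)⁻¹ =
      el u i (u ^ k * j + (∑ s ∈ Finset.range k, (u : ZMod N) ^ s) * i) := by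
  rw [bb, el, ← map_pow, ← map_inv, ← SemidirectProduct.inl_aut, map_pow, zpowersHom_apply,
    toAdd_ofAdd, zpow_one, beta_pow_apply, el]

theorem bb_conj {N : ℕ} (u : (ZMod N)ˣ) (i : ℤ) (j : ZMod N) :
    bb u * el u i j * (bb u)⁻¹ = el u i (u * j + i) := by
  simpa using bb_pow_conj u 1 i j

theorem exists_eq {N : ℕ} {u : (ZMod N)ˣ} (x : EE u) :
    ∃ (i j k : ℤ), x = el u i j * bb u ^ k := by
  obtain ⟨j, hj⟩ := ZMod.intCast_surjective x.left.toAdd.2
  refine ⟨x.left.toAdd.1, j, x.right.toAdd, ?_⟩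
  rw [hj, bb, ← map_zpow, ← ofAdd_zsmul]
  simp [el]

theorem mem_center_of {N : ℕ} {u : (ZMod N)ˣ} {x : EE u} (h1 : ∀ i j, Commute x (el u i j))
    (h2 : Commute x (bb u)) : x ∈ center (EE u) := by
  rw [Subgroup.mem_center_iff]
  intro y
  obtain ⟨i, j, k, rfl⟩ := exists_eq y
  exact ((h1 i j).mul_right (h2.zpow_right k)).symm

theorem el_commute {N : ℕ} (u : (ZMod N)ˣ) (i i' : ℤ) (j j' : ZMod N) :
    Commute (el u i j) (el u i' j') := by
  rw [Commute, SemiconjBy, el_mul, el_mul, add_comm i, add_comm j]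

theorem el_mem_center {N : ℕ} {u : (ZMod N)ˣ} {i : ℤ} {j : ZMod N} (h : u * j + i = j) :
    el u i j ∈ center (EE u) :=
  mem_center_of (fun _ _ => el_commute _ _ _ _ _) (by
    have := bb_conj u i j
    rw [h, mul_inv_eq_iff_eq_mul] at this
    exact this.symm)

theorem finite_pres (m n r t : ℕ) (hm : 0 < m) (hn : 0 < n) :
    Finite (PresentedGroup (rels m n r t)) := by
  set a : PresentedGroup (rels m n r t) := PresentedGroup.of true
  set b : PresentedGroup (rels m n r t) := PresentedGroup.of false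
  have h1 : a ^ m = 1 := by
    have := PresentedGroup.one_of_mem (rels := rels m n r t) (x := FreeGroup.of true ^ m) (by simp)
    rwa [map_pow] at this
  have h2 : b ^ n = a ^ t := by
    have := PresentedGroup.one_of_mem (rels := rels m n r t)
      (x := (FreeGroup.of false) ^ n * (FreeGroup.of true ^ t)⁻¹) (by simp)
    rwa [map_mul, map_inv, map_pow, map_pow, mul_inv_eq_one] at this
  have h3 : b * a * b⁻¹ = a ^ r := by
    have := PresentedGroup.one_of_mem (rels := rels m n r t)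
      (x := FreeGroup.of false * FreeGroup.of true * (FreeGroup.of false)⁻¹ *
        (FreeGroup.of true ^ r)⁻¹) (by simp)
    rwa [map_mul, map_inv, map_pow, map_mul, map_mul, map_inv, mul_inv_eq_one] at this
  have hfa : IsOfFinOrder a := isOfFinOrder_iff_pow_eq_one.mpr ⟨m, hm, h1⟩
  have hfb : IsOfFinOrder b := isOfFinOrder_iff_pow_eq_one.mpr ⟨n * m, by positivity, by
    rw [pow_mul, h2, ← pow_mul, mul_comm, pow_mul, h1, one_pow]⟩
  have : Finite (zpowers a) := hfa.finite_zpowers
  have : Finite (zpowers b) := hfb.finite_zpowers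
  have hnorm : (zpowers a).Normal := by
    rw [← normalizer_eq_top_iff, eq_top_iff]
    intro x _
    refine PresentedGroup.generated_by _ _ ?_ x
    rintro (_ | _)
    · apply mem_normalizer_fintype
      rintro _ ⟨j, rfl⟩
      refine ⟨r * j, ?_⟩
      simp only []
      rw [zpow_mul, zpow_natCast, ← h3, conj_zpow]
    · exact le_normalizer (mem_zpowers _)
  have htop : zpowers a ⊔ zpowers b = ⊤ := by
    rw [eq_top_iff]
    intro x _
    refine PresentedGroup.generated_by _ _ ?_ x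
    rintro (_ | _)
    · exact mem_sup_right (mem_zpowers _)
    · exact mem_sup_left (mem_zpowers _)
  refine Finite.of_surjective (fun p : zpowers a × zpowers b => p.1.1 * p.2.1) ?_
  intro x
  obtain ⟨y, hy, z, hz, h⟩ := mem_sup_of_normal_left.mp (htop ▸ mem_top x)
  exact ⟨(⟨y, hy⟩, ⟨z, hz⟩), h⟩

theorem main (m n r t d e : ℕ) (hm : 0 < m) (hn : 0 < n) (hr : 0 < r) (hrn : r ^ n ≡ 1 [MOD m])
    (hd : d = Nat.gcd m (r - 1)) (he : e ≠ 0)
    (hN1 : m / d * e ∣ m) (hN2 : m / d * e ∣ t) (hN3 : m / d * e ∣ ∑ i ∈ Finset.range n, r ^ i)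
    (hN : ∀ k : ℕ, k ∣ m → k ∣ t → k ∣ ∑ i ∈ Finset.range n, r ^ i → k ∣ m / d * e) :
    Cfsg.HasCyclicSchurMultiplier (PresentedGroup (rels m n r t)) e := by
  have := finite_pres m n r t hm hn
  set a : PresentedGroup (rels m n r t) := PresentedGroup.of true
  set b : PresentedGroup (rels m n r t) := PresentedGroup.of false
  have h1 : a ^ m = 1 := by
    have := PresentedGroup.one_of_mem (rels := rels m n r t) (x := FreeGroup.of true ^ m) (by simp)
    rwa [map_pow] at this
  have h2 : b ^ n = a ^ t := by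
    have := PresentedGroup.one_of_mem (rels := rels m n r t)
      (x := (FreeGroup.of false) ^ n * (FreeGroup.of true ^ t)⁻¹) (by simp)
    rwa [map_mul, map_inv, map_pow, map_pow, mul_inv_eq_one] at this
  have h3 : b * a * b⁻¹ = a ^ (r : ℤ) := by
    have := PresentedGroup.one_of_mem (rels := rels m n r t)
      (x := FreeGroup.of false * FreeGroup.of true * (FreeGroup.of false)⁻¹ *
        (FreeGroup.of true ^ r)⁻¹) (by simp)
    rwa [map_mul, map_inv, map_pow, map_mul, map_mul, map_inv, mul_inv_eq_one, ← zpow_natCast] at this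
  have hgen : Subgroup.closure {a, b} = ⊤ := by
    rw [eq_top_iff]
    intro x _
    refine PresentedGroup.generated_by _ _ ?_ x
    rintro (_ | _) <;> exact subset_closure (by simp [a, b])
  have hdm : d ∣ m := hd ▸ Nat.gcd_dvd_left _ _
  have hdr : d ∣ r - 1 := hd ▸ Nat.gcd_dvd_right _ _
  have hmd : 0 < m / d := Nat.div_pos (Nat.le_of_dvd hm hdm) (Nat.pos_of_dvd_of_pos hdm hm)
  set N := m / d * e with hNdef
  have hN0 : NeZero N := ⟨mul_ne_zero hmd.ne' he⟩
  have hcop : r.Coprime N := by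
    refine Nat.Coprime.coprime_dvd_right hN1 ?_
    have := (Nat.coprime_pow_left_iff hn r m).mp (by
      rw [Nat.Coprime, hrn.gcd_eq]; simp)
    exact this
  let u : (ZMod N)ˣ := ZMod.unitOfCoprime r hcop
  have hu : (u : ZMod N) = r := rfl
  have hz : ∀ k : ℕ, N ∣ k → ((k : ℤ) : ZMod N) = 0 := fun k hk => by
    rw [Int.cast_natCast, ZMod.natCast_eq_zero_iff]; exact hk
  have hun : (u : ZMod N) ^ n = 1 := by
    rw [hu, ← Nat.cast_pow, ← Nat.cast_one (R := ZMod N), ZMod.natCast_eq_natCast_iff]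
    exact hrn.of_dvd hN1
  have hus : ∑ s ∈ Finset.range n, (u : ZMod N) ^ s = 0 := by
    have := (ZMod.natCast_eq_zero_iff _ _).mpr hN3
    rw [hu]; exact_mod_cast this
  have c1 : el u m 0 ∈ center (EE u) := el_mem_center (by rw [hz m hN1]; simp)
  have c2 : bb u ^ n * el u (-t) 0 ∈ center (EE u) := by
    refine mul_mem (mem_center_of (fun i j => ?_) ((Commute.refl _).pow_left _))
      (el_mem_center (by rw [Int.cast_neg, hz t hN2]; simp))
    have := bb_pow_conj u n i j
    rw [hun, hus, one_mul, zero_mul, add_zero, mul_inv_eq_iff_eq_mul] at this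
    exact this
  have c3 : el u (r - 1) (-1) ∈ center (EE u) := el_mem_center (by rw [hu]; push_cast; ring)
  let Z : Subgroup (EE u) := zpowers (el u m 0) ⊔ (zpowers (bb u ^ n * el u (-t) 0) ⊔
    zpowers (el u (r - 1) (-1)))
  have hZ : Z ≤ center (EE u) :=
    sup_le (zpowers_le.mpr c1) (sup_le (zpowers_le.mpr c2) (zpowers_le.mpr c3))
  have hnc : ∀ H : Subgroup (EE u), H ≤ center _ → H.Normal := fun H hH =>
    ⟨fun x hx g => by rw [Subgroup.mem_center_iff.mp (hH hx) g, mul_inv_cancel_right]; exact hx⟩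
  have := hnc Z hZ
  have m1 : el u m 0 ∈ Z := mem_sup_left (mem_zpowers _)
  have m2 : bb u ^ n * el u (-t) 0 ∈ Z := mem_sup_right (mem_sup_left (mem_zpowers _))
  have m3 : el u (r - 1) (-1) ∈ Z := mem_sup_right (mem_sup_right (mem_zpowers _))
  have hmemZ : ∀ i : ℤ, el u i 0 ∈ Z → (m : ℤ) ∣ i := by
    intro i hi
    have := hnc _ (zpowers_le.mpr c1)
    have := hnc _ (zpowers_le.mpr c2)
    obtain ⟨_, ⟨x, rfl⟩, w, hw, h⟩ := mem_sup_of_normal_left.mp hi
    obtain ⟨_, ⟨y, rfl⟩, _, ⟨z, rfl⟩, rfl⟩ := mem_sup_of_normal_left.mp hw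
    have hy : y = 0 := by
      have := congrArg (fun g => (SemidirectProduct.rightHom g).toAdd) h
      simp only [el, bb, map_mul, map_zpow, map_pow, SemidirectProduct.rightHom_inl,
        SemidirectProduct.rightHom_inr] at this
      simp at this
      omega
    subst hy
    simp only [zpow_zero, one_mul, el_zpow, el_mul] at h
    obtain ⟨h4, h5⟩ := el_inj h
    have h6 : (N : ℤ) ∣ z := by
      rw [← ZMod.intCast_zmod_eq_zero_iff_dvd]
      simpa using h5
    rw [← h4]
    refine dvd_add (dvd_mul_left _ _) ?_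
    obtain ⟨z', rfl⟩ := h6
    obtain ⟨r', hr'⟩ := hdr
    have h7 : (r : ℤ) - 1 = d * r' := by
      rw [← Nat.cast_one, ← Nat.cast_sub hr, hr']; simp
    have h8 : (m : ℤ) = (m / d : ℕ) * d := by exact_mod_cast (Nat.div_mul_cancel hdm).symm
    have h9 : (N : ℤ) = (m / d : ℕ) * e := by rw [hNdef, Nat.cast_mul]
    rw [h7, h9]
    generalize ((m / d : ℕ) : ℤ) = q at h8 ⊢
    exact ⟨e * z' * r', by rw [h8]; ring⟩
  let f : Bool → EE u ⧸ Z := fun x => bif x then (el u 1 0 : EE u) else (bb u : EE u)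
  have hf : ∀ w ∈ rels m n r t, FreeGroup.lift f w = 1 := by
    rintro _ (rfl | rfl | rfl)
    · rw [map_pow, FreeGroup.lift_apply_of]
      change ((el u 1 0 : EE u) : EE u ⧸ Z) ^ m = 1
      rw [← QuotientGroup.mk_pow, QuotientGroup.eq_one_iff, ← zpow_natCast, el_zpow]
      simpa using m1
    · rw [map_mul, map_inv, map_pow, map_pow, FreeGroup.lift_apply_of, FreeGroup.lift_apply_of]
      change ((bb u : EE u) : EE u ⧸ Z) ^ n * (((el u 1 0 : EE u) : EE u ⧸ Z) ^ t)⁻¹ = 1
      rw [← QuotientGroup.mk_pow, ← QuotientGroup.mk_pow, ← QuotientGroup.mk_inv,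
        ← QuotientGroup.mk_mul, QuotientGroup.eq_one_iff, ← zpow_natCast (el u 1 0), ← zpow_neg,
        el_zpow]
      simpa using m2
    · rw [map_mul, map_inv, map_pow, map_mul, map_mul, map_inv, FreeGroup.lift_apply_of,
        FreeGroup.lift_apply_of]
      change ((bb u : EE u) : EE u ⧸ Z) * ((el u 1 0 : EE u) : EE u ⧸ Z) * ((bb u : EE u) : EE u ⧸ Z)⁻¹ *
        (((el u 1 0 : EE u) : EE u ⧸ Z) ^ r)⁻¹ = 1
      rw [← QuotientGroup.mk_pow, ← QuotientGroup.mk_inv, ← QuotientGroup.mk_inv,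
        ← QuotientGroup.mk_mul, ← QuotientGroup.mk_mul, ← QuotientGroup.mk_mul,
        QuotientGroup.eq_one_iff, bb_conj, ← zpow_natCast (el u 1 0), ← zpow_neg, el_zpow, el_mul]
      have := Z.zpow_mem m3 (-1)
      rw [el_zpow] at this
      convert this using 2 <;> simp
      ring
  let ρ := PresentedGroup.toGroup hf
  have hρa : ρ a = (el u 1 0 : EE u) := PresentedGroup.toGroup.of hf
  have hρb : ρ b = (bb u : EE u) := PresentedGroup.toGroup.of hf
  have hord : orderOf a = m := by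
    refine Nat.dvd_antisymm (orderOf_dvd_of_pow_eq_one h1) ?_
    have h4 : ρ (a ^ orderOf a) = 1 := by rw [pow_orderOf_eq_one, map_one]
    rw [map_pow, hρa, ← QuotientGroup.mk_pow, QuotientGroup.eq_one_iff, ← zpow_natCast,
      el_zpow] at h4
    have := hmemZ (orderOf a) (by simpa using h4)
    exact_mod_cast this
  have hord' : orderOf (a ^ ((r : ℤ) - 1)) = m / d := by
    rw [← Nat.cast_one, ← Nat.cast_sub hr, zpow_natCast, orderOf_pow, hord, hd]
  -- the map from `EE u` to the presented group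
  have hN4 : (zmultiplesHom (Additive (zpowers a))
      (Additive.ofMul ((⟨a, mem_zpowers a⟩ : zpowers a) ^ ((r : ℤ) - 1)))) (N : ℤ) = 0 := by
    simp only [zmultiplesHom_apply, natCast_zsmul]
    apply Additive.toMul.injective
    apply Subtype.ext
    simp only [toMul_nsmul, toMul_ofMul, SubgroupClass.coe_pow, SubgroupClass.coe_zpow, toMul_zero,
      OneMemClass.coe_one]
    rw [hNdef, pow_mul, ← hord', pow_orderOf_eq_one, one_pow]
  open scoped IsMulCommutative in
  let fA : Multiplicative (ℤ × ZMod N) →* PresentedGroup (rels m n r t) :=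
    (zpowers a).subtype.comp (AddMonoidHom.toMultiplicativeLeft
      ((zmultiplesHom (Additive (zpowers a)) (Additive.ofMul ⟨a, mem_zpowers a⟩)).coprod
        (ZMod.lift N ⟨_, hN4⟩)))
  have hfA : ∀ i j : ℤ, fA (Multiplicative.ofAdd (i, (j : ZMod N))) = a ^ (i + j * (r - 1)) := by
    intro i j
    simp [fA, ZMod.lift_coe, zpow_add, ← zpow_mul, mul_comm]
  have hcompat : ∀ x, fA (beta u x) = b * fA x * b⁻¹ := by
    intro x
    obtain ⟨j, hj⟩ := ZMod.intCast_surjective x.toAdd.2
    have hx : x = Multiplicative.ofAdd (x.toAdd.1, (j : ZMod N)) := by rw [hj]; rfl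
    rw [hx, beta_apply, hfA, ← conj_zpow, h3, ← zpow_mul]
    have : (u : ZMod N) * j + (x.toAdd.1 : ℤ) = ((r * j + x.toAdd.1 : ℤ) : ZMod N) := by
      rw [hu]; push_cast; rfl
    rw [this, hfA]
    congr 1; ring
  have hcompat' : ∀ (k : ℤ) x, fA ((beta u ^ k) x) = b ^ k * fA x * (b ^ k)⁻¹ := by
    intro k
    induction k using Int.induction_on with
    | zero => simp
    | succ k ih =>
      intro x
      rw [zpow_add_one, MulAut.mul_apply, ih, hcompat, zpow_add_one]; group
    | pred k ih =>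
      intro x
      rw [zpow_sub_one, MulAut.mul_apply, ih, zpow_sub_one]
      have := hcompat ((beta u)⁻¹ x)
      rw [MulAut.apply_inv_self] at this
      rw [this]; group
  let σ : EE u →* PresentedGroup (rels m n r t) :=
    SemidirectProduct.lift fA (zpowersHom _ b) (fun k => MonoidHom.ext fun x => by
      simpa [← map_zpow] using hcompat' k.toAdd x)
  have hσ1 : ∀ i j : ℤ, σ (el u i j) = a ^ (i + j * (r - 1)) := fun i j => by
    rw [el, SemidirectProduct.lift_inl, hfA]
  have hσ2 : σ (bb u) = b := by simp [σ, bb]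
  have hρσ : ∀ x, ρ (σ x) = x := by
    intro x
    obtain ⟨i, j, k, rfl⟩ := exists_eq x
    rw [map_mul, map_zpow, hσ1, hσ2, map_mul, map_zpow, map_zpow, hρa, hρb, QuotientGroup.mk_mul,
      QuotientGroup.mk_zpow, ← QuotientGroup.mk_zpow Z (el u 1 0), el_zpow]
    congr 1
    rw [QuotientGroup.eq, ← zpow_neg_one, el_zpow, el_mul]
    have := Z.zpow_mem m3 (-j)
    rw [el_zpow] at this
    convert this using 2 <;> simp
  have hσ : IsCentralExt σ := by
    refine ⟨?_, fun x hx => hZ ?_⟩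
    · rw [← MonoidHom.range_eq_top, eq_top_iff, ← hgen, closure_le]
      rintro _ (rfl | rfl)
      · exact ⟨el u 1 (0 : ℤ), by rw [hσ1]; simp⟩
      · exact ⟨_, hσ2⟩
    · rw [← QuotientGroup.eq_one_iff, ← hρσ, show σ x = 1 from hx, map_one]
  refine cyclic_mult_of_bounds he (fun Γ _ _ τ hτ => ?_) hσ ?_
  · obtain ⟨a', b', ha, hb, h, h4, h5⟩ := stem_metacyclic hτ hgen h3
    rw [hord'] at h4 h5
    refine ⟨_, h4, h5, ?_⟩
    have hc := centralExt_of_stem hτ
    rw [← pow_mul, ← orderOf_dvd_iff_pow_eq_one]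
    refine hN _ ?_ ?_ ?_
    · have := h.zpow_eq_one_of_commute (j := m) (hc.comm (by rw [map_zpow, ha, zpow_natCast, h1]) b')
      rwa [zpow_natCast, ← orderOf_dvd_iff_pow_eq_one] at this
    · have h6 : Commute b' ((a' ^ t)⁻¹ * b' ^ n) :=
        hc.comm (by rw [map_mul, map_inv, map_pow, map_pow, ha, hb, h2, inv_mul_cancel]) b'
      have h7 := (h6.mul_right ((Commute.refl b').pow_right n).inv_right).inv_right
      have := h.zpow_eq_one_of_commute (j := t) (by simpa using h7)
      rwa [zpow_natCast, ← orderOf_dvd_iff_pow_eq_one] at this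
    · have h6 : Commute a' ((a' ^ t)⁻¹ * b' ^ n) :=
        hc.comm (by rw [map_mul, map_inv, map_pow, map_pow, ha, hb, h2, inv_mul_cancel]) a'
      have h7 := ((Commute.refl a').pow_right t).mul_right h6
      have := h.zpow_sum_eq_one_of_commute (j := n) (by simpa using h7.symm)
      rw [← orderOf_dvd_iff_zpow_eq_one] at this
      exact_mod_cast this
  · have hc : el u 0 1 ∈ commutator (EE u) := by
      have : el u 0 1 = ⁅bb u, el u 1 0⁆ := by
        rw [commutatorElement_def, bb_conj, eq_mul_inv_iff_mul_eq, el_mul]; simp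
      rw [this]
      exact commutator_mem_commutator (mem_top _) (mem_top _)
    have h4 : el u 0 1 ^ (m / d) ∈ stemKer σ := by
      refine mem_stemKer.mpr ⟨?_, pow_mem hc _⟩
      have := hσ1 0 1
      rw [Int.cast_one] at this
      rw [map_pow, this, zero_add, one_mul, ← hord', pow_orderOf_eq_one]
    have h5 : orderOf (el u 0 1) = N := by
      rw [el, orderOf_injective _ SemidirectProduct.inl_injective, orderOf_ofAdd_eq_addOrderOf,
        Prod.addOrderOf]
      simp
    have := hσ.finite_stemKer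
    refine Nat.le_of_dvd Nat.card_pos ?_
    have h6 := Subgroup.orderOf_dvd_natCard _ h4
    have h7 : N / N.gcd (m / d) = e := by
      rw [hNdef, Nat.gcd_eq_right (dvd_mul_right _ _), Nat.mul_div_cancel_left _ hmd]
    rwa [orderOf_pow' _ hmd.ne', h5, h7] at h6

/-- Let `m, n ≥ 1`, `r ≥ 1` with `r ^ n ≡ 1 (mod m)`, and `l` a natural number; put `d = gcd(m, r - 1)`, `t = m l / d` and `h = d · gcd(m, 1 + r + ⋯ + r^(n-1)) / m`. The group presented by generators `a, b` and relations `a ^ m = 1`, `b ^ n = a ^ t`, `b a b⁻¹ = a ^ r` (a metacyclic group of order `m n`) has Schur multiplier cyclic of order `gcd(l, h)`. -/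
theorem result (m n r l : ℕ) (hm : 0 < m) (hn : 0 < n) (hr : 0 < r) (hrn : r ^ n ≡ 1 [MOD m]) : Cfsg.HasCyclicSchurMultiplier (PresentedGroup ({FreeGroup.of true ^ m, (FreeGroup.of false) ^ n * (FreeGroup.of true ^ (m * l / Nat.gcd m (r - 1)))⁻¹, FreeGroup.of false * FreeGroup.of true * (FreeGroup.of false)⁻¹ * (FreeGroup.of true ^ r)⁻¹} : Set (FreeGroup Bool))) (Nat.gcd l (Nat.gcd m (r - 1) * Nat.gcd m (∑ i ∈ Finset.range n, r ^ i) / m)) := by
  set d := Nat.gcd m (r - 1) with hd
  set s := ∑ i ∈ Finset.range n, r ^ i with hs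
  have hdm : d ∣ m := Nat.gcd_dvd_left _ _
  have hd0 : 0 < d := Nat.pos_of_dvd_of_pos hdm hm
  obtain ⟨m', hm'⟩ := hdm
  have hm0 : 0 < m' := Nat.pos_of_mul_pos_left (hm' ▸ hm)
  have hmd : m / d = m' := by rw [hm', Nat.mul_div_cancel_left _ hd0]
  have h1 : m' ∣ s := by
    have h2 : (r - 1) * s + 1 = r ^ n := by
      have := geom_sum_mul_add (r - 1) n
      rw [show r - 1 + 1 = r by omega, mul_comm] at this
      exact this
    have h3 : m ∣ (r - 1) * s := by
      have := (Nat.modEq_iff_dvd' (Nat.one_le_pow _ _ hr)).mp hrn.symm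
      rwa [← h2, Nat.add_sub_cancel] at this
    have := Nat.dvd_div_of_mul_dvd (a := d) (b := m') (c := (r - 1) * s) (hm' ▸ h3)
    obtain ⟨r', hr'⟩ : d ∣ r - 1 := Nat.gcd_dvd_right _ _
    have h4 : m'.Coprime r' := by
      have := Nat.coprime_div_gcd_div_gcd (m := m) (n := r - 1) hd0
      rwa [← hd, hmd, hr', Nat.mul_div_cancel_left _ hd0] at this
    rw [hr', mul_assoc, Nat.mul_div_cancel_left _ hd0] at this
    exact h4.dvd_of_dvd_mul_left this
  obtain ⟨h, hh⟩ : m' ∣ Nat.gcd m s := Nat.dvd_gcd ⟨d, by rw [hm', mul_comm]⟩ h1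
  have h2 : d * Nat.gcd m s / m = h := by
    rw [hh, ← mul_assoc, ← hm', Nat.mul_div_cancel_left _ hm]
  have h3 : m * l / d = m' * l := by rw [hm', mul_assoc, Nat.mul_div_cancel_left _ hd0]
  have h4 : h ≠ 0 := by
    rintro rfl
    exact (Nat.gcd_pos_of_pos_left s hm).ne' (by simpa using hh)
  rw [h2, h3]
  have h5 : m / d * Nat.gcd l h = Nat.gcd (m' * l) (Nat.gcd m s) := by
    rw [hmd, hh, Nat.gcd_mul_left]
  refine main m n r (m' * l) d _ hm hn hr hrn hd (Nat.gcd_ne_zero_right h4) ?_ ?_ ?_ ?_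
  · rw [h5]; exact (Nat.gcd_dvd_right _ _).trans (Nat.gcd_dvd_left _ _)
  · rw [h5]; exact Nat.gcd_dvd_left _ _
  · rw [h5]; exact (Nat.gcd_dvd_right _ _).trans (Nat.gcd_dvd_right _ _)
  · intro k k1 k2 k3
    rw [h5]; exact Nat.dvd_gcd k2 (Nat.dvd_gcd k1 k3)

end Cfsg.Agent.S3967
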