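import Cfsg.Statements.S3970
import Cfsg.Agent.Lib.FgsH2.AutPrime
import Cfsg.Agent.Lib.Core.Basic

set_option autoImplicit false
open Cfsg

namespace Cfsg.Agent.S3970

universe u

theorem aux (n : ℕ) : ∀ (G : Type u) [Group G] [Finite G], Nat.card G = n →
    (∀ p : ℕ, p.Prime → p ∣ Nat.card G → (∃ q : ℕ, q.Prime ∧ q ∣ Nat.card G ∧ p < q) →
      ∀ P : Sylow p G, IsMulCommutative (P : Subgroup G) ∧ Group.rank (P : Subgroup G) ≤ 2) →
    ¬ 12 ∣ Nat.card G → Group.IsSolvable G := by
  induction n using Nat.strong_induction_on with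
  | _ n ih =>
  intro G _ _ hn h h12
  by_cases h1 : Nat.card G = 1
  · have := (Nat.card_eq_one_iff_unique.mp h1).1
    infer_instance
  set p := (Nat.card G).minFac with hp
  have hpp : p.Prime := Nat.minFac_prime h1
  have : Fact p.Prime := ⟨hpp⟩
  have hpd : p ∣ Nat.card G := Nat.minFac_dvd _
  have hmin : ∀ q : ℕ, q.Prime → q ∣ Nat.card G → p ≤ q := fun q hq hd =>
    Nat.minFac_le_of_dvd hq.two_le hd
  by_cases hq : ∃ q : ℕ, q.Prime ∧ q ∣ Nat.card G ∧ p < q
  swap
  · refine CfsgLib.Coprime.isSolvable_of_isPGroup (p := p) (IsPGroup.iff_card.mpr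
      ⟨_, Nat.eq_prime_pow_of_unique_prime_dvd Nat.card_pos.ne' fun {q} hq' hd => ?_⟩)
    by_contra hne
    exact hq ⟨q, hq', hd, lt_of_le_of_ne (hmin q hq' hd) (Ne.symm hne)⟩
  obtain ⟨P⟩ : Nonempty (Sylow p G) := inferInstance
  obtain ⟨hab, hr⟩ := h p hpp hpd hq P
  have h2 := hpp.two_le
  have hnpc := CfsgLib.FgsH2.hasNormalPComplement_of_rank P hab (by
    intro q hq hd j hj1 hj2 hj
    have h3 := hmin q hq hd
    have hA : ¬ q ∣ p - 1 := fun h => by
      have := Nat.le_of_dvd (by omega) h
      omega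
    have hj3 : j ≤ 2 := hj2.trans hr
    interval_cases j
    · exact hA (by simpa using hj)
    · have e : p ^ 2 - 1 = (p + 1) * (p - 1) := Nat.sq_sub_sq p 1
      rw [e] at hj
      have h4 := (hq.dvd_mul.mp hj).resolve_right hA
      have h5 := Nat.le_of_dvd (by omega) h4
      have h6 : q ≠ p := by
        rintro rfl
        exact hq.ne_one (Nat.dvd_one.mp ((Nat.dvd_add_right dvd_rfl).mp h4))
      have h7 : q = p + 1 := by omega
      have h8 : p = 2 := by
        rcases hpp.eq_two_or_odd with h | h
        · exact h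
        · rcases hq.eq_two_or_odd with h' | h' <;> omega
      apply h12
      have h9 : 4 ∣ Nat.card G := by
        refine Dvd.dvd.trans ?_ (Subgroup.card_subgroup_dvd_card (P : Subgroup G))
        obtain ⟨k, hk⟩ := P.isPGroup'.exists_card_eq
        rw [hk, h8]
        by_contra hc
        have hk2 : k < 2 := by
          by_contra hk2
          exact hc (pow_dvd_pow 2 (not_lt.mp hk2))
        have : IsCyclic (P : Subgroup G) := isCyclic_of_card_dvd_prime (p := p) (by
          rw [hk]; interval_cases k <;> simp)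
        obtain ⟨c, hc⟩ := IsCyclic.exists_generator (α := (P : Subgroup G))
        have h10 := Group.rank_le (G := (P : Subgroup G)) (S := {c}) (by
          rw [Finset.coe_singleton, ← Subgroup.zpowers_eq_closure, eq_top_iff]
          exact fun x _ => hc x)
        rw [Finset.card_singleton] at h10
        omega
      rw [h7, h8] at hd
      exact Nat.Coprime.mul_dvd_of_dvd_of_dvd (m := 4) (n := 3) (by norm_num) h9 hd)
  obtain ⟨N, hN, hc⟩ := (CfsgLib.Transfer.hasNormalPComplement_iff_sylow P).mp hnpc
  have hidx : N.index = Nat.card (P : Subgroup G) := hc.symm.index_eq_card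
  obtain ⟨k, hk⟩ := P.isPGroup'.exists_card_eq
  have hNp : ¬ p ∣ Nat.card N := by rw [← hc.index_eq_card]; exact P.not_dvd_index
  have hlt : Nat.card N < n := hn ▸ CfsgLib.Core.card_lt_of_ne_top (by
    rintro rfl
    exact hNp (by rwa [Subgroup.card_top]))
  have hNd := Subgroup.card_subgroup_dvd_card N
  have hs : Group.IsSolvable N := ih _ hlt N rfl (by
    rintro r hr hrd ⟨q, hq1, hq2, hq3⟩ Q
    have : Fact r.Prime := ⟨hr⟩
    have hQ : ¬ r ∣ ((Q : Subgroup N).map N.subtype).index := by
      rw [Subgroup.index_map_subtype, hidx, hk]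
      intro hd
      rcases hr.dvd_mul.mp hd with hd | hd
      · exact Q.not_dvd_index hd
      · exact hNp ((Nat.prime_dvd_prime_iff_eq hr hpp).mp (hr.dvd_of_dvd_pow hd) ▸ hrd)
    obtain ⟨h3, h4⟩ := h r hr (hrd.trans hNd) ⟨q, hq1, hq2.trans hNd, hq3⟩
      ((Q.isPGroup'.map N.subtype).toSylow hQ)
    have e := (Q : Subgroup N).equivMapOfInjective N.subtype N.subtype_injective
    refine ⟨⟨⟨fun a b => e.injective ?_⟩⟩, (Group.rank_congr e).trans_le h4⟩
    rw [map_mul, map_mul]
    exact h3.is_comm.comm _ _) (fun hd => h12 (hd.trans hNd))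
  have : Group.IsSolvable (G ⧸ N) := CfsgLib.Coprime.isSolvable_of_isPGroup (p := p)
    (IsPGroup.of_card (n := k) (by rw [← hk, ← hidx]; rfl))
  exact Group.isSolvable_of_ker_le_range N.subtype (QuotientGroup.mk' N) (by simp)


/-- Let `G` be a finite group such that for every prime `p` dividing its order, other than the largest such prime, the Sylow `p`-subgroups are abelian and generated by at most two elements, and suppose `12` does not divide the order of `G`. Then `G` is solvable. In particular a group of cube-free order not divisible by `12` is solvable. -/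
theorem result {G : Type*} [Group G] [Finite G] (h : ∀ p : ℕ, p.Prime → p ∣ Nat.card G → (∃ q : ℕ, q.Prime ∧ q ∣ Nat.card G ∧ p < q) → ∀ P : Sylow p G, IsMulCommutative (P : Subgroup G) ∧ Group.rank (P : Subgroup G) ≤ 2) (h12 : ¬ 12 ∣ Nat.card G) : Group.IsSolvable G := by
  exact aux _ G rfl h h12

end Cfsg.Agent.S3970
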