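import Cfsg.Statements.S3971
import Cfsg.Agent.Lib.FgsH2.AutPrime
import Cfsg.Agent.Lib.Core.Basic

set_option autoImplicit false
open Cfsg

namespace Cfsg.Agent.S3971

/-- Let `G` be a finite group of order `2 ^ a * n` with `n` odd and not divisible by `3`, and suppose `G` has an element of order `2 ^ (a - 1)` (so a Sylow `2`-subgroup has a cyclic subgroup of index at most `2`). Then `G` has a normal subgroup of order `n`. -/
theorem result {G : Type*} [Group G] [Finite G] (a n : ℕ) (hG : Nat.card G = 2 ^ a * n) (hn : Odd n) (h3 : ¬ 3 ∣ n) (hx : ∃ x : G, orderOf x = 2 ^ (a - 1)) : ∃ N : Subgroup G, N.Normal ∧ Nat.card N = n := by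
  classical
  obtain ⟨x, hx⟩ := hx
  obtain ⟨P, hP⟩ := (CfsgLib.Core.isPGroup_zpowers_iff (p := 2) (g := x)).mpr
    ⟨a - 1, by rw [← hx, pow_orderOf_eq_one]⟩ |>.exists_le_sylow
  have hc : Nat.card (P : Subgroup G) = 2 ^ a := by
    rw [P.card_eq_multiplicity, hG, Nat.factorization_mul (by positivity) hn.pos.ne',
      Finsupp.add_apply, Nat.prime_two.factorization_pow, Finsupp.single_eq_same,
      Nat.factorization_eq_zero_of_not_dvd hn.not_two_dvd_nat, add_zero]
  have hi : (Subgroup.zpowers x).relIndex P ∣ 2 := by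
    have h1 := CfsgLib.Core.card_mul_relIndex_of_le hP
    rw [Nat.card_zpowers, hx, hc] at h1
    rcases a with _ | a
    · simp only [Nat.zero_sub, pow_zero, one_mul] at h1
      rw [h1]; exact one_dvd _
    · rw [Nat.add_sub_cancel, pow_succ] at h1
      exact (Nat.eq_of_mul_eq_mul_left (by positivity) h1).dvd
  have h := CfsgLib.Transfer.frobenius_of_forall_prime_pow P (by
    rintro Q hQ - q hq hq2 hqd g hg ⟨k, hk⟩
    refine CfsgLib.FgsH2.mem_centralizer_of_not_dvd_card_mulAut hq (fun hd => ?_) hg hk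
    have : IsCyclic ((Subgroup.zpowers x).subgroupOf Q) :=
      isCyclic_of_injective (G' := Subgroup.zpowers x)
        ((Q.subtype.comp ((Subgroup.zpowers x).subgroupOf Q).subtype).codRestrict _ fun y => y.2)
        (fun y z h => Subtype.ext (Subtype.ext
          (congrArg (fun t : Subgroup.zpowers x => (t : G)) h)))
    have h2 : ((Subgroup.zpowers x).subgroupOf Q).index ∣ 2 := by
      have h3 := Subgroup.relIndex_le_of_le_right hQ
        (H := Subgroup.zpowers x) (ne_zero_of_dvd_ne_zero two_ne_zero hi)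
      have h4 := Nat.le_of_dvd two_pos hi
      have h5 : (Subgroup.zpowers x).relIndex Q ≠ 0 := Subgroup.FiniteIndex.index_ne_zero
      change (Subgroup.zpowers x).relIndex Q ∣ 2
      have h6 : (Subgroup.zpowers x).relIndex Q = 1 ∨ (Subgroup.zpowers x).relIndex Q = 2 := by
        omega
      rcases h6 with h | h <;> simp [h]
    obtain ⟨u, v, huv⟩ := CfsgLib.FgsH2.exists_pair_closure_eq_top Nat.prime_two h2
    obtain ⟨j, h1, h2, h4⟩ := CfsgLib.FgsH2.exists_dvd_pow_sub_one_of_dvd_card_mulAut
      (P.isPGroup'.to_le hQ) {u, v} (by simpa using huv) hq hq2 hd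
    have h5 : j ≤ 2 := h2.trans Finset.card_le_two
    interval_cases j
    · exact hq.ne_one (by simpa using h4)
    · have h6 : q = 3 := (Nat.prime_dvd_prime_iff_eq hq Nat.prime_three).mp (by simpa using h4)
      rw [h6, hG] at hqd
      exact h3 ((Nat.Coprime.pow_right a (by norm_num)).dvd_of_dvd_mul_left hqd))
  obtain ⟨N, hN, hc'⟩ := (CfsgLib.Transfer.hasNormalPComplement_iff_sylow P).mp h
  refine ⟨N, hN, ?_⟩
  have := hc'.card_mul_card
  rw [hc, hG, mul_comm] at this
  exact Nat.eq_of_mul_eq_mul_left (by positivity) this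

end Cfsg.Agent.S3971
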