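import Cfsg.Statements.S3972
import Cfsg.Agent.Lib.Perm2.SRing

set_option autoImplicit false
open Cfsg

namespace Cfsg.Agent.S3972

open scoped Pointwise

theorem mem_of_ne_bot {G : Type*} [Group G] {p m : ℕ} (hp : p.Prime) (g : G)
    (hg : orderOf g = p ^ (m + 1)) (L : Subgroup (Subgroup.zpowers g)) (hL : L ≠ ⊥) :
    (⟨g ^ p ^ m, Subgroup.npow_mem_zpowers g _⟩ : Subgroup.zpowers g) ∈ L := by
  have := Fact.mk hp
  have hfin : Finite (Subgroup.zpowers g) :=
    Nat.finite_of_card_ne_zero (by rw [Nat.card_zpowers, hg]; exact pow_ne_zero _ hp.ne_zero)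
  have h1 : Nat.card L ∣ p ^ (m + 1) := by
    rw [← hg, ← Nat.card_zpowers]; exact Subgroup.card_subgroup_dvd_card L
  obtain ⟨i, -, hi⟩ := (Nat.dvd_prime_pow hp).1 h1
  have h2 : p ∣ Nat.card L := by
    rw [hi]
    refine dvd_pow_self p fun e => hL ?_
    rw [e, pow_zero] at hi
    exact Subgroup.card_eq_one.1 hi
  obtain ⟨x, hx⟩ := exists_prime_orderOf_dvd_card' p h2
  have hx' : orderOf (x.1.1 : G) = p := by rw [Subgroup.orderOf_coe, Subgroup.orderOf_coe, hx]
  obtain ⟨k, hk⟩ := x.1.2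
  simp only at hk
  have h3 : ((p ^ (m + 1) : ℕ) : ℤ) ∣ k * p := by
    rw [← hg, orderOf_dvd_iff_zpow_eq_one, zpow_mul, hk, zpow_natCast, ← hx', pow_orderOf_eq_one]
  have h4 : ((p ^ m : ℕ) : ℤ) ∣ k := by
    rw [pow_succ, Nat.cast_mul] at h3
    exact Int.dvd_of_mul_dvd_mul_right (by exact_mod_cast hp.ne_zero) h3
  obtain ⟨j, rfl⟩ := h4
  have hz : orderOf (g ^ p ^ m) = p := by
    rw [orderOf_pow' _ (pow_ne_zero _ hp.ne_zero), hg, Nat.gcd_eq_right (pow_dvd_pow p (Nat.le_succ m)),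
      pow_succ, Nat.mul_div_cancel_left _ (pow_pos hp.pos m)]
  have hle : Subgroup.zpowers (x.1.1 : G) ≤ Subgroup.zpowers (g ^ p ^ m) := by
    rw [Subgroup.zpowers_le, ← hk, zpow_mul, zpow_natCast]
    exact Subgroup.zpow_mem_zpowers _ _
  have hfin2 : Finite (Subgroup.zpowers (g ^ p ^ m)) :=
    Nat.finite_of_card_ne_zero (by rw [Nat.card_zpowers, hz]; exact hp.ne_zero)
  have heq := Subgroup.eq_of_le_of_card_ge hle (by rw [Nat.card_zpowers, Nat.card_zpowers, hz, hx'])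
  obtain ⟨n, hn⟩ : g ^ p ^ m ∈ Subgroup.zpowers (x.1.1 : G) := heq ▸ Subgroup.mem_zpowers _
  have : (⟨g ^ p ^ m, Subgroup.npow_mem_zpowers g _⟩ : Subgroup.zpowers g) = x.1 ^ n :=
    Subtype.ext (by simpa using hn.symm)
  rw [this]
  exact L.zpow_mem x.2 n

/-- Let `p` be a prime, `m ≥ 2`, and `G` a transitive but not doubly transitive permutation group on `p ^ m` points containing a permutation of order `p ^ m` (necessarily a full cycle). Then `G` is imprimitive, and the normal closure in `G` of the `p ^ (m - 1)`-th power of that permutation is an intransitive normal subgroup. -/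
theorem result {Ω : Type*} [Fintype Ω] [DecidableEq Ω] (p m : ℕ) (hp : p.Prime) (hm : 2 ≤ m) (hΩ : Fintype.card Ω = p ^ m) (G : Subgroup (Equiv.Perm Ω)) (htr : MulAction.IsPretransitive G Ω) (h2 : ¬ MulAction.IsMultiplyPretransitive G Ω 2) (g : G) (hg : orderOf g = p ^ m) : ¬ MulAction.IsPreprimitive G Ω ∧ ¬ MulAction.IsPretransitive (Subgroup.normalClosure ({g ^ (p ^ (m - 1))} : Set G)) Ω := by
  obtain ⟨m, rfl⟩ : ∃ k, m = k + 1 := ⟨m - 1, by omega⟩
  rw [Nat.add_sub_cancel]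
  have hz : g ^ p ^ m ≠ 1 := by
    intro e
    have := orderOf_dvd_of_pow_eq_one e
    rw [hg, Nat.pow_dvd_pow_iff_le_right hp.one_lt] at this
    omega
  obtain ⟨ω, hω⟩ : ∃ ω : Ω, (g ^ p ^ m) • ω ≠ ω := by
    by_contra h
    push Not at h
    exact hz (Subtype.ext (Equiv.ext h))
  have hreg : MulAction.stabilizer (Subgroup.zpowers g) ω = ⊥ := by
    by_contra h
    exact hω (mem_of_ne_bot hp g hg _ h)
  have hcard : Nat.card (Subgroup.zpowers g) = p ^ (m + 1) := by rw [Nat.card_zpowers, hg]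
  have hbij : Function.Bijective fun c : Subgroup.zpowers g => (c : G) • ω :=
    (CfsgLib.Perm2.regular_injective hreg).bijective_of_nat_card_le
      (by rw [hcard, Nat.card_eq_fintype_card, hΩ])
  have hC : MulAction.IsPretransitive (Subgroup.zpowers g) Ω := ⟨fun x y => by
    obtain ⟨a, rfl⟩ := hbij.2 x
    obtain ⟨b, rfl⟩ := hbij.2 y
    exact ⟨b * a⁻¹, by simp [Subgroup.smul_def, mul_smul]⟩⟩
  obtain ⟨L, h1, h2', hB⟩ := CfsgLib.Perm2.exists_block_of_isCyclic hC hreg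
    (by rw [hcard]; exact (Nat.one_lt_pow (by omega) hp.one_lt).ne')
    (by rw [hcard]; exact Nat.Prime.not_prime_pow (by omega)) h2
  have hnt := CfsgLib.Perm2.not_isTrivialBlock hreg h1 h2'
  refine ⟨fun h => hnt (h.isTrivialBlock_of_isBlock hB), fun h => hnt (Or.inr ?_)⟩
  set B := (fun c : Subgroup.zpowers g => (c : G) • ω) '' L with hBdef
  have hωB : ω ∈ B := ⟨1, L.one_mem, by simp⟩
  have hzL := mem_of_ne_bot hp g hg L h1
  have hle : Subgroup.normalClosure ({g ^ p ^ m} : Set G) ≤ MulAction.stabilizer G B := by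
    refine le_trans (Subgroup.normalClosure_le_normal ?_) (Subgroup.normalCore_le _)
    rintro _ rfl x
    obtain ⟨c, hc⟩ := hbij.2 (x⁻¹ • ω)
    simp only at hc
    have hxc : (x * c) • B = B := hB.smul_eq_of_mem hωB (by rw [mul_smul, hc, smul_inv_smul]; exact hωB)
    have hzB : (g ^ p ^ m) • B = B := hB.smul_eq_of_mem hωB ⟨_, hzL, rfl⟩
    have hcomm : g ^ p ^ m * c = c * g ^ p ^ m := by
      obtain ⟨k, hk⟩ := c.2
      rw [← hk]
      exact ((Commute.refl g).pow_left _ |>.zpow_right k).eq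
    rw [MulAction.mem_stabilizer_iff]
    calc (x * g ^ p ^ m * x⁻¹) • B = (x * g ^ p ^ m * x⁻¹) • (x * c) • B := by rw [hxc]
      _ = (x * c) • (g ^ p ^ m) • B := by
        rw [← mul_smul, ← mul_smul, mul_assoc x c, ← hcomm]; congr 1; group
      _ = B := by rw [hzB, hxc]
  rw [Set.eq_univ_iff_forall]
  intro y
  obtain ⟨u, hu⟩ := h.exists_smul_eq ω y
  rw [← hu, ← (hle u.2 : u.1 • B = B)]
  exact Set.smul_mem_smul_set hωB

end Cfsg.Agent.S3972
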