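import Cfsg.Statements.S3973
import Cfsg.Agent.Lib.Schur.Hopf

set_option autoImplicit false
open Cfsg

namespace Cfsg.Agent.S3973

open CfsgLib.Schur Subgroup

theorem rank_le_finrank {V A : Type*} [AddCommGroup V] [Module.Free ℤ V] [Module.Finite ℤ V]
    [CommGroup A] [Finite A] (L : V →+ Additive A) (hL : Function.Surjective L) :
    Group.rank A ≤ Module.finrank ℤ V := by
  classical
  let b := Module.finBasis ℤ V
  refine (Group.rank_le (S := Finset.univ.image fun i => (L (b i)).toMul) ?_).trans ?_
  · rw [eq_top_iff]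
    intro a _
    obtain ⟨v, hv⟩ := hL (Additive.ofMul a)
    have h1 : a = ∏ i, (L (b i)).toMul ^ (b.repr v i) := by
      have := congrArg Additive.toMul hv
      rw [← b.sum_repr v, map_sum, toMul_sum] at this
      simpa using this.symm
    rw [h1]
    exact Subgroup.prod_mem _ fun i _ => zpow_mem (subset_closure (by simp)) _
  · exact Finset.card_image_le.trans (by simp)

/-- If a finite group is presented by `n` generators and a finite set of `r` relators, then its Schur multiplier can be generated by `r - n` elements. In particular a finite group with a presentation having as many relators as generators has trivial Schur multiplier. -/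
theorem result (n : ℕ) (rels : Finset (FreeGroup (Fin n))) [Finite (PresentedGroup (rels : Set (FreeGroup (Fin n))))] {A : Type*} [CommGroup A] [Finite A] (hA : Cfsg.HasSchurMultiplier (PresentedGroup (rels : Set (FreeGroup (Fin n)))) A) : Group.rank A ≤ rels.card - n := by
  classical
  set π := PresentedGroup.mk (rels : Set (FreeGroup (Fin n)))
  have hπ : Function.Surjective π := PresentedGroup.mk_surjective _
  obtain ⟨e⟩ := (hasSchurMultiplier_iff_hopf hπ).mp hA
  have hc := isCentralExt_hopfMap hπ
  have := hc.ker_isMulCommutative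
  let z : rels → (hopfMap π).ker := fun r => ⟨(r : FreeGroup (Fin n)), PresentedGroup.one_of_mem r.2⟩
  open scoped IsMulCommutative in
  let g : (rels → ℤ) →ₗ[ℤ] Additive (hopfMap π).ker :=
    Fintype.linearCombination ℤ fun r => Additive.ofMul (z r)
  have hg : Function.Surjective g := by
    open scoped IsMulCommutative in
    let H : Subgroup (HopfExt π) := (AddSubgroup.toSubgroup' g.range.toAddSubgroup).map
      (hopfMap π).ker.subtype
    have hH : H ≤ (hopfMap π).ker := map_subtype_le _
    have := hc.normal_of_le_ker hH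
    have h1 : normalClosure (rels : Set (FreeGroup (Fin n))) ≤ H.comap (QuotientGroup.mk' _) := by
      apply normalClosure_le_normal
      intro r hr
      refine ⟨z ⟨r, hr⟩, ⟨Pi.single ⟨r, hr⟩ 1, ?_⟩, rfl⟩
      simp [g]
      rfl
    intro y
    obtain ⟨x, hx⟩ := QuotientGroup.mk_surjective (y.toMul : HopfExt π)
    have h2 : π x = 1 := by rw [← hopfMap_mk, hx]; exact y.toMul.2
    obtain ⟨w, ⟨v, hv⟩, hw⟩ := h1 (PresentedGroup.mk_eq_one_iff.mp h2)
    refine ⟨v, ?_⟩
    rw [hv]
    exact congrArg Additive.ofMul (Subtype.ext (hw.trans hx))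
  let ab : HopfExt π →* Abelianization (FreeGroup (Fin n)) :=
    QuotientGroup.lift _ Abelianization.of (by
      rw [Abelianization.ker_of]; exact commutator_mono le_top le_top)
  have hab : ∀ x, ab x = 1 ↔ x ∈ commutator (HopfExt π) := by
    intro x
    obtain ⟨x, rfl⟩ := QuotientGroup.mk_surjective x
    rw [mk_mem_commutator_hopf_iff, ← Abelianization.ker_of]
    rfl
  open scoped IsMulCommutative in
  let ψ₀ : Additive (hopfMap π).ker →ₗ[ℤ] FreeAbelianGroup (Fin n) :=
    (MonoidHom.toAdditive (ab.comp (hopfMap π).ker.subtype)).toIntLinearMap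
  open scoped IsMulCommutative in
  let ψ : (rels → ℤ) →ₗ[ℤ] FreeAbelianGroup (Fin n) := ψ₀.comp g
  have h1 : n ≤ Module.finrank ℤ ψ.range := by
    set m := Nat.card (PresentedGroup (rels : Set (FreeGroup (Fin n))))
    have hm : (m : ℤ) ≠ 0 := by exact_mod_cast (Nat.card_pos (α := PresentedGroup _)).ne'
    have h2 : ∀ x : FreeAbelianGroup (Fin n), (m : ℤ) • x ∈ ψ.range := by
      intro x
      obtain ⟨y, hy⟩ : ∃ y : FreeGroup (Fin n), Abelianization.of y = Additive.toMul x :=
        QuotientGroup.mk_surjective _
      obtain ⟨v, hv⟩ := hg (Additive.ofMul ⟨((y ^ m : FreeGroup (Fin n)) : HopfExt π), by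
        rw [MonoidHom.mem_ker, hopfMap_mk, map_pow]; exact pow_card_eq_one'⟩)
      refine ⟨v, ?_⟩
      rw [LinearMap.comp_apply, hv, natCast_zsmul]
      change Additive.ofMul (Abelianization.of (y ^ m)) = _
      rw [map_pow, hy]
      rfl
    have h3 := LinearMap.finrank_le_finrank_of_injective
      (f := (LinearMap.lsmul ℤ (FreeAbelianGroup (Fin n)) (m : ℤ)).codRestrict ψ.range h2) (by
        intro x y hxy
        exact smul_right_injective _ hm (congrArg Subtype.val hxy))
    rwa [Module.finrank_eq_card_basis (FreeAbelianGroup.basis (Fin n)), Fintype.card_fin] at h3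
  have h2 : Module.finrank ℤ ψ.range + Module.finrank ℤ ψ.ker = rels.card := by
    rw [← ψ.quotKerEquivRange.finrank_eq, Submodule.finrank_quotient_add_finrank]
    simp
  have hmem : ∀ v : ψ.ker, ((g v).toMul : HopfExt π) ∈ stemKer (hopfMap π) := fun v =>
    ⟨(g v).toMul.2, (hab _).mp v.2⟩
  let L : ψ.ker →+ Additive A := AddMonoidHom.mk'
    (fun v => Additive.ofMul (e.symm ⟨_, hmem v⟩)) (by
      intro v w
      rw [← ofMul_mul, ← map_mul]
      congr 2
      apply Subtype.ext
      simp)
  have hL : Function.Surjective L := by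
    intro a
    obtain ⟨v, hv⟩ := hg (Additive.ofMul ⟨_, (e a.toMul).2.1⟩)
    refine ⟨⟨v, ?_⟩, ?_⟩
    · rw [LinearMap.mem_ker, LinearMap.comp_apply, hv]
      exact (hab _).mpr (e a.toMul).2.2
    · apply Additive.toMul.injective
      apply e.injective
      apply Subtype.ext
      simp [L, hv]
  have h3 := rank_le_finrank L hL
  omega

end Cfsg.Agent.S3973
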