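import Cfsg.Statements.S3974
import Cfsg.Agent.Lib.Schur.Cover

set_option autoImplicit false
universe u v
open Cfsg

namespace Cfsg.Agent.S3974

open CfsgLib.Schur Subgroup

theorem exists_not_pow {K : Type*} [Group K] [Finite K] {p : ℕ} (hp : p.Prime)
    (h : p ∣ Nat.card K) : ∃ k : K, ∀ x : K, x ^ p ≠ k := by
  have := Fact.mk hp
  obtain ⟨y, hy⟩ := exists_prime_orderOf_dvd_card' p h
  by_contra! hsurj
  have h1 : Function.Surjective (fun x : K => x ^ p) := hsurj
  have h2 := Finite.injective_iff_surjective.mpr h1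
  have h3 : y = 1 := h2 (by simp [← hy])
  rw [h3, orderOf_one] at hy
  exact hp.one_lt.ne hy

theorem exists_char {C : Type*} [CommGroup C] [Finite C] {p : ℕ} (hp : p.Prime)
    (h : p ∣ Nat.card C) : ∃ (n : ℕ) (χ : C →* Multiplicative (ZMod n)) (c : C),
      n ≠ 0 ∧ p ∣ n ∧ χ c = Multiplicative.ofAdd 1 ∧ c ^ n = 1 := by
  classical
  obtain ⟨ι, _, n, hn, ⟨e⟩⟩ := CommGroup.equiv_prod_multiplicative_zmod_of_finite C
  rw [Nat.card_congr e.toEquiv, Nat.card_pi] at h
  obtain ⟨i, -, hi⟩ := (hp.prime.dvd_finset_prod_iff _).mp h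
  rw [card_mult_zmod] at hi
  refine ⟨n i, (Pi.evalMonoidHom _ i).comp e.toMonoidHom,
    e.symm (Pi.mulSingle i (Multiplicative.ofAdd 1)), by have := hn i; omega, hi, by simp, ?_⟩
  rw [← map_pow, ← Pi.mulSingle_pow, ← ofAdd_nsmul]
  simp

/-- Let `Q` be a finite group with Schur multiplier `A`. Any two Schur covering groups of `Q` (finite stem extensions `σ₁ : Γ₁ →* Q`, `σ₂ : Γ₂ →* Q` with kernels isomorphic to `A`, `Γ₁, Γ₂` in the universe of `Q`) are isomorphic over `Q` — there is a group isomorphism `e : Γ₁ ≃* Γ₂` with `σ₂ ∘ e = σ₁` — if and only if the order of the commutator quotient of `Q` is coprime to the order of `A`. In particular a finite perfect group has a unique Schur covering group up to isomorphism over it. -/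
theorem result {Q : Type u} [Group Q] [Finite Q] {A : Type v} [CommGroup A] (hA : Cfsg.HasSchurMultiplier Q A) : (∀ (Γ₁ Γ₂ : Type u) [Group Γ₁] [Finite Γ₁] [Group Γ₂] [Finite Γ₂] (σ₁ : Γ₁ →* Q) (σ₂ : Γ₂ →* Q), Cfsg.IsStemExtension σ₁ → Cfsg.IsStemExtension σ₂ → Nonempty (σ₁.ker ≃* A) → Nonempty (σ₂.ker ≃* A) → ∃ e : Γ₁ ≃* Γ₂, σ₂.comp e.toMonoidHom = σ₁) ↔ Nat.Coprime (Nat.card (Abelianization Q)) (Nat.card A) := by
  have := finite_of_mult hA
  constructor
  · intro h
    by_contra hc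
    obtain ⟨p, hp, hp1, hp2⟩ := Nat.Prime.not_coprime_iff_dvd.mp hc
    obtain ⟨Γ, _, _, σ, hσ, ⟨e₀⟩⟩ := hA.1
    have hcσ := centralExt_of_stem hσ
    obtain ⟨k₀, hk₀⟩ := exists_not_pow (K := σ.ker) hp (by rwa [Nat.card_congr e₀.toEquiv])
    obtain ⟨n, χ, c, hn, hpn, hχ, hc⟩ := exists_char hp hp1
    let χ' : Γ →* Multiplicative (ZMod n) := χ.comp (Abelianization.of.comp σ)
    let red : Multiplicative ℤ →* Multiplicative (ZMod n) :=
      AddMonoidHom.toMultiplicative (Int.castAddHom (ZMod n))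
    have hred : Function.Surjective red := fun x => by
      obtain ⟨j, hj⟩ := ZMod.intCast_surjective x.toAdd
      exact ⟨Multiplicative.ofAdd j, congrArg Multiplicative.ofAdd hj⟩
    have hcred : IsCentralExt red := ⟨hred, by rw [CommGroup.center_eq_top]; exact le_top⟩
    let τ : pullback χ' red →* Q := σ.comp (pbFst χ' red)
    have hsurj := pbFst_surjective χ' hred
    have hcτ : IsCentralExt τ := ⟨hσ.1.comp hsurj, fun x hx => by
      rw [Subgroup.mem_center_iff]
      intro y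
      exact Subtype.ext (Prod.ext (hcσ.comm hx _) (mul_comm _ _))⟩
    have hcomm : ∀ y ∈ commutator (pullback χ' red), y.1.2 = 1 := fun y hy =>
      Abelianization.commutator_subset_ker (pbSnd χ' red) hy
    have hcomm' : ∀ (g : Γ) (hg : g ∈ commutator Γ), ∃ h, ⟨(g, 1), h⟩ ∈ commutator (pullback χ' red) := by
      intro g hg
      rw [← map_commutator_of_lift (σ₁ := τ) hcτ.surj hσ.2.1 (pbFst χ' red) rfl] at hg
      obtain ⟨y, hy, rfl⟩ := hg
      have h1 := hcomm y hy
      obtain ⟨⟨y1, y2⟩, hy2⟩ := y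
      obtain rfl : y2 = 1 := h1
      exact ⟨hy2, hy⟩
    have hk : σ k₀ = 1 := k₀.2
    let s : pullback χ' red := ⟨((k₀ : Γ)⁻¹, Multiplicative.ofAdd (n : ℤ)), by
      rw [mem_pullback]
      simp [χ', red, hk]⟩
    have hs : zpowers s ≤ τ.ker := by
      rw [zpowers_le, MonoidHom.mem_ker]
      change σ (k₀ : Γ)⁻¹ = 1
      simp [hk]
    have := hcτ.normal_of_le_ker hs
    have hn' : (n : ℤ) ≠ 0 := by exact_mod_cast hn
    obtain ⟨hst, ⟨e₁⟩⟩ := quotient_stem hcτ (zpowers s) hs (by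
      rw [eq_bot_iff]
      rintro _ ⟨⟨j, rfl⟩, hj⟩
      have h1 := congrArg Multiplicative.toAdd (hcomm _ hj)
      have h2 : j * n = 0 := by simpa [s] using h1
      have h3 : j = 0 := (mul_eq_zero.mp h2).resolve_right hn'
      simp [h3]) (by
      intro z hz
      have hz' : σ z.1.1 = 1 := hz
      have h1 : ((z.1.2.toAdd : ℤ) : ZMod n) = 0 := by
        have h2 : χ' z.1.1 = red z.1.2 := z.2
        have h3 : χ' z.1.1 = 1 := by simp [χ', hz']
        rw [h3] at h2
        exact (congrArg Multiplicative.toAdd h2).symm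
      obtain ⟨j, hj⟩ := (ZMod.intCast_zmod_eq_zero_iff_dvd _ _).mp h1
      refine ⟨s ^ j, ⟨j, rfl⟩, ?_⟩
      obtain ⟨h2, h3⟩ := hcomm' ((k₀ : Γ) ^ j * z.1.1)
        (hσ.2.2 (by simp [MonoidHom.mem_ker, hk, hz']))
      convert h3 using 1
      apply Subtype.ext
      apply Prod.ext
      · simp [s]
      · apply Multiplicative.toAdd.injective
        simp [s, hj, mul_comm])
    have := hcτ.finite_stemKer
    have : Finite (QuotientGroup.lift (zpowers s) τ hs).ker := Finite.of_equiv _ e₁.toEquiv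
    have := finite_of_finite_ker (QuotientGroup.lift (zpowers s) τ hs)
    have hcard : Nat.card A ≤ Nat.card (QuotientGroup.lift (zpowers s) τ hs).ker := by
      rw [← Nat.card_congr e₁.toEquiv, ← Nat.card_congr e₀.toEquiv, ← stemKer_eq_ker_of_stem hσ,
        ← map_stemKer_of_lift (σ₁ := τ) hcτ.surj hσ.2.1 (pbFst χ' red) rfl]
      exact Nat.card_le_card_of_surjective _ (MonoidHom.subgroupMap_surjective _ _)
    obtain ⟨e, he⟩ := h Γ _ σ _ hσ hst ⟨e₀⟩ (cover_of_card_le hA hst hcard)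
    obtain ⟨q, hq⟩ : ∃ q : Q, Abelianization.of q = c := QuotientGroup.mk_surjective c
    obtain ⟨g, rfl⟩ := hσ.1 q
    have hg : g ^ n ∈ commutator Γ := by
      have h1 : σ (g ^ n) ∈ commutator Q := by
        rw [← Abelianization.ker_of, MonoidHom.mem_ker, map_pow, map_pow, hq, hc]
      rw [← map_commutator_of_lift (σ₂ := MonoidHom.id Q) hσ.1 (by simp) σ rfl] at h1
      obtain ⟨y, hy, hyg⟩ := h1
      have h2 : y⁻¹ * g ^ n ∈ commutator Γ := hσ.2.2 (by simp [MonoidHom.mem_ker, hyg])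
      simpa using mul_mem hy h2
    obtain ⟨h1, h2⟩ := hcomm' _ hg
    have h3 := eq_on_commutator_of_lift hst.2.1 (QuotientGroup.mk' (zpowers s))
      (e.toMonoidHom.comp (pbFst χ' red)) (by
        rw [← MonoidHom.comp_assoc, he]; rfl) h2
    obtain ⟨y, hy⟩ := QuotientGroup.mk_surjective (e g)
    have h4 : σ y.1.1 = σ g := by
      have := DFunLike.congr_fun he g
      rw [← this]
      change _ = QuotientGroup.lift (zpowers s) τ hs (e g)
      rw [← hy]; rfl
    have h5 : ((⟨(g ^ n, 1), h1⟩ : pullback χ' red) : _ ⧸ zpowers s) = (y ^ n : pullback χ' red) := by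
      rw [QuotientGroup.mk_pow, hy, ← map_pow]; exact h3
    obtain ⟨j, hj⟩ := QuotientGroup.eq.mp h5
    have h6 : j = y.1.2.toAdd := by
      have := congrArg (fun x : pullback χ' red => x.1.2.toAdd) hj
      simp [s] at this
      rw [mul_comm] at this
      exact mul_left_cancel₀ hn' this
    have h7 : ((k₀ : Γ) ^ j)⁻¹ = (g ^ n)⁻¹ * y.1.1 ^ n := by
      have := congrArg (fun x : pullback χ' red => x.1.1) hj
      simpa [s] using this
    have h8 : ((j : ℤ) : ZMod n) = 1 := by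
      have h9 : χ' y.1.1 = red y.1.2 := y.2
      have h10 : χ' y.1.1 = Multiplicative.ofAdd 1 := by
        rw [← hχ, ← hq]; simp [χ', h4]
      rw [h10] at h9
      rw [h6]
      exact (congrArg Multiplicative.toAdd h9).symm
    obtain ⟨w, hw⟩ := (ZMod.intCast_eq_intCast_iff_dvd_sub 1 j n).mp (by rw [h8]; simp)
    let k : σ.ker := ⟨g⁻¹ * y.1.1, by simp [MonoidHom.mem_ker, h4]⟩
    have h9 : y.1.1 = g * k := by simp [k]
    have h10 : Commute g (k : Γ) := hcσ.comm k.2 g
    rw [h9, h10.mul_pow, inv_mul_cancel_left] at h7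
    have h11 : (k₀ ^ j)⁻¹ = k ^ n := Subtype.ext (by simpa using h7)
    obtain ⟨m, rfl⟩ := hpn
    have := hcσ.ker_isMulCommutative
    open scoped IsMulCommutative in
    refine hk₀ ((k⁻¹ * (k₀ ^ w)⁻¹) ^ m) ?_
    rw [← pow_mul, mul_comm m, mul_pow, inv_pow, ← h11, inv_inv, inv_pow, ← zpow_natCast,
      ← zpow_mul, mul_comm w, ← hw, ← zpow_sub]
    simp
  · intro h Γ₁ Γ₂ _ _ _ _ σ₁ σ₂ h₁ h₂ e₁ e₂
    have h3 := stemKer_pbFst_eq_bot hA (centralExt_of_stem h₁) (card_le_card_stemKer_of_cover h₁ e₁)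
      (centralExt_of_stem h₂)
    have hab : Nat.card (Abelianization Γ₁) ∣ Nat.card (Abelianization Q) := by
      have h4 : (commutator Q).comap σ₁ = commutator Γ₁ := by
        rw [← map_commutator_of_lift (σ₂ := MonoidHom.id Q) h₁.1 (by simp) σ₁ rfl,
          comap_map_eq_self h₁.2.2]
      change (commutator Γ₁).index ∣ (commutator Q).index
      rw [← h4, index_comap_of_surjective _ h₁.1]
    obtain ⟨s, hs⟩ := exists_section_of_coprime (isCentralExt_pbFst σ₁ (centralExt_of_stem h₂)) h3 (by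
      rw [Nat.card_congr (kerPbFstEquiv σ₁ σ₂).toEquiv, Nat.card_congr e₂.some.toEquiv]
      exact (h.coprime_dvd_left hab).symm)
    obtain ⟨η, hη⟩ := exists_lift_of_section s hs
    have h5 := nonempty_mulEquiv_of_surj_of_card_le η (surjective_of_lift h₁.1 h₂ η hη) (by
      rw [card_eq_card_ker_mul h₁.1, card_eq_card_ker_mul h₂.1, Nat.card_congr e₁.some.toEquiv,
        Nat.card_congr e₂.some.toEquiv])
    exact ⟨MulEquiv.ofBijective η h5, hη⟩

end Cfsg.Agent.S3974
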