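import Cfsg.Statements.S3978
import Cfsg.Agent.Lib.Schur.Projective

set_option autoImplicit false
open Cfsg

namespace Cfsg.Agent.S3978

open CfsgLib.Schur

/-- A finite group `Q` has trivial Schur multiplier if and only if, for every `n`, every homomorphism from `Q` to the projective general linear group (the quotient of `GL n ℂ` by its centre) lifts to a homomorphism into `GL n ℂ`. -/
theorem result {Q : Type*} [Group Q] [Finite Q] : Cfsg.HasCyclicSchurMultiplier Q 1 ↔ ∀ (n : ℕ) (γ : Q →* (GL (Fin n) ℂ ⧸ Subgroup.center (GL (Fin n) ℂ))), ∃ ρ : Q →* GL (Fin n) ℂ, (QuotientGroup.mk' (Subgroup.center (GL (Fin n) ℂ))).comp ρ = γ := by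
  constructor
  · intro h n γ
    exact exists_lift_GL_of_stemKer γ
      (stemKer_eq_bot_of_trivial h (isCentralExt_pbFst γ (isCentralExt_mk_center _)))
  · intro h
    rw [trivial_mult_iff]
    intro Δ _ _ τ hτ
    obtain ⟨f, hf⟩ := exists_surj_stemKer_of_pb isCentralExt_id (centralExt_of_stem hτ)
      (stemKer_pbFst_eq_bot_of_lift (σ := MonoidHom.id Q) (by simpa using h) (centralExt_of_stem hτ))
    have h1 : stemKer (MonoidHom.id Q) = ⊥ := by
      rw [stemKer_eq_ker_of_stem isStemExtension_id, MonoidHom.ker_id]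
    have h2 : Subsingleton (stemKer (MonoidHom.id Q)) := by
      rw [h1]; infer_instance
    have h3 := hf.subsingleton
    rw [← stemKer_eq_ker_of_stem hτ]
    exact Subgroup.eq_bot_of_subsingleton _

end Cfsg.Agent.S3978
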