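import Cfsg.Statements.S3979
import Mathlib

set_option autoImplicit false
open Cfsg

namespace Cfsg.Agent.S3979


/-- A finite cyclic group has trivial Schur multiplier: every finite stem extension of it is an isomorphism, said through `HasCyclicSchurMultiplier G 1`. -/
theorem result {G : Type*} [Group G] [Finite G] [IsCyclic G] : Cfsg.HasCyclicSchurMultiplier G 1 := by
  refine ⟨⟨G, inferInstance, inferInstance, MonoidHom.id G, ⟨Function.surjective_id, ?_, ?_⟩, ?_⟩, ?_⟩
  · simp
  · simp
  · have : Subsingleton (MonoidHom.id G).ker := by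
      rw [MonoidHom.ker_id]; infer_instance
    have h2 : Subsingleton (Multiplicative (ZMod 1)) := inferInstanceAs (Subsingleton (Fin 1))
    exact ⟨{ toFun := fun _ => 1, invFun := fun _ => 1, left_inv := fun _ => Subsingleton.elim _ _,
             right_inv := fun _ => Subsingleton.elim _ _, map_mul' := fun _ _ => Subsingleton.elim _ _ }⟩
  · intro Γ _ _ σ hσ
    have hc : IsMulCommutative Γ := σ.isMulCommutative_of_isCyclic_of_ker_le_center hσ.2.1
    have hk : σ.ker = ⊥ := by
      have := hσ.2.2
      rw [commutator_eq_bot] at this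
      exact le_bot_iff.mp this
    refine ⟨1, fun x => ⟨1, ?_⟩⟩
    apply Subtype.ext
    have : (x : Γ) ∈ (⊥ : Subgroup Γ) := hk ▸ x.2
    simpa using this.symm

end Cfsg.Agent.S3979
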