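import Cfsg.Statements.S3994
import Cfsg.Agent.Lib.Count.Frobenius

set_option autoImplicit false
open Cfsg

namespace Cfsg.Agent.S3994


/-- Let G be a finite group and n a positive integer. The number of elements of G whose order is divisible by n is either 0 or divisible by the largest divisor of the order of G that is coprime to n. -/
theorem result {G : Type*} [Group G] [Finite G] (n : ℕ) (hn : 0 < n) :
    Nat.card {g : G // n ∣ orderOf g} = 0 ∨
      (Nat.card G / Nat.gcd (Nat.card G) (n ^ Nat.card G)) ∣ Nat.card {g : G // n ∣ orderOf g} := by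
  right
  set m := Nat.card G / Nat.gcd (Nat.card G) (n ^ Nat.card G) with hm
  have hG : 0 < Nat.card G := Nat.card_pos
  have hmd : m ∣ Nat.card G := Nat.div_dvd_of_dvd (Nat.gcd_dvd_left _ _)
  have hcop : m.Coprime n := by
    apply Nat.coprime_of_dvd
    intro r hr hrm hrn
    have h1 : r ^ (Nat.card G).factorization r ∣ Nat.gcd (Nat.card G) (n ^ Nat.card G) := by
      apply Nat.dvd_gcd (Nat.ordProj_dvd _ _)
      exact (pow_dvd_pow r (Nat.factorization_lt r hG.ne').le).trans (pow_dvd_pow_of_dvd hrn _)
    have h2 : r ^ ((Nat.card G).factorization r + 1) ∣ Nat.card G := by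
      have e := Nat.mul_div_cancel' (Nat.gcd_dvd_left (Nat.card G) (n ^ Nat.card G))
      nth_rewrite 2 [← e]
      rw [pow_succ]
      exact Nat.mul_dvd_mul h1 hrm
    exact Nat.pow_succ_factorization_not_dvd hG.ne' hr h2
  have h := CfsgLib.Count.frobenius_of_dvd hmd {y : G | n ∣ orderOf y} (by
    intro g x hx
    have : orderOf (g * x * g⁻¹) = orderOf x := (MulAut.conj g).orderOf_eq x
    rw [Set.mem_ofPred_eq, this]
    exact hx)
  have e : {x : G | x ^ m ∈ {y : G | n ∣ orderOf y}} = {x : G | n ∣ orderOf x} := by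
    ext x
    simp only [Set.mem_ofPred_eq]
    constructor
    · exact fun h => h.trans (orderOf_pow_dvd m)
    · intro h
      have hm0 : m ≠ 0 := fun h0 => hG.ne' (Nat.eq_zero_of_zero_dvd (h0 ▸ hmd))
      rw [orderOf_pow' x hm0]
      have e := Nat.mul_div_cancel' (Nat.gcd_dvd_left (orderOf x) m)
      rw [← e] at h
      exact (hcop.symm.coprime_dvd_right (Nat.gcd_dvd_right _ _)).dvd_of_dvd_mul_left h
  rw [e] at h
  exact h

end Cfsg.Agent.S3994
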