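import Cfsg.Statements.S4004
import Cfsg.Agent.Lib.Nse.Trace
import Cfsg.Agent.Lib.Count.Basic
import Cfsg.Agent.Lib.Char.Burnside
import Cfsg.Agent.Lib.Core.MinNormal
import Cfsg.Agent.Lib.Coprime.Generation

set_option autoImplicit false
open Cfsg

namespace Cfsg.Agent.S4004

open CfsgLib.Nse

theorem nd {p : ℕ} (hp : p.Prime) (h2 : p ≠ 2) {x : ℤ} (h : (p : ℤ) ∣ x)
    (hx : x = 1 ∨ x = 2 ∨ x = -1 ∨ x = -2) : False := by
  have h3 : p ∣ x.natAbs := Int.natCast_dvd.mp h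
  have h4 : x.natAbs = 1 ∨ x.natAbs = 2 := by omega
  rcases h4 with h4 | h4 <;> rw [h4] at h3
  · exact hp.one_lt.ne' (Nat.dvd_one.mp h3)
  · exact h2 ((Nat.prime_dvd_prime_iff_eq hp Nat.prime_two).mp h3)

section
variable {G : Type*} [Group G] [Finite G]

theorem even_of_odd (hodd : Odd (Nat.card G)) {m : ℕ} (hm : m ≠ 1) : 2 ∣ s G m := by
  by_cases h0 : s G m = 0
  · rw [h0]; exact dvd_zero 2
  · have h1 := hodd.of_dvd_nat (dvd_card_of_s_ne_zero h0)
    obtain ⟨k, hk⟩ := h1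
    exact (even_s (by omega)).two_dvd

theorem ne_two (hodd : Odd (Nat.card G)) {p : ℕ} (hd : p ∣ Nat.card G) : p ≠ 2 := by
  rintro rfl
  exact absurd (hodd.of_dvd_nat hd) (by decide)

theorem LZ {p : ℕ} (hp : p.Prime) (hd : p ∣ Nat.card G) (m : ℕ) (hm : ¬ p ∣ m)
    (hmd : m ∣ Nat.card G) : (p : ℤ) ∣ s G m + s G (p * m) := by
  exact_mod_cast L_gen hp hd m hm hmd

theorem LZ1 {p : ℕ} (hp : p.Prime) (hd : p ∣ Nat.card G) : (p : ℤ) ∣ 1 + s G p := by
  exact_mod_cast L_p hp hd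

theorem mul_ne_one' {p : ℕ} (hp : p.Prime) (m : ℕ) : p * m ≠ 1 :=
  fun h => hp.one_lt.ne' (Nat.eq_one_of_mul_eq_one_right h)

theorem same (hodd : Odd (Nat.card G)) {a b : ℕ}
    (hv : ∀ m, m ≠ 1 → s G m = 0 ∨ s G m = a ∨ s G m = b) {p q : ℕ} (hp : p.Prime) (hq : q.Prime)
    (hne : p ≠ q) (hpd : p ∣ Nat.card G) (hqd : q ∣ Nat.card G) (h1 : s G p = a)
    (h2 : s G q = a) : s G (p * q) = b ∧ (p : ℤ) ∣ b - 1 := by
  have hp2 := ne_two hodd hpd
  have L1 := LZ1 hp hpd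
  have L2 := LZ hp hpd q (fun h => hne ((Nat.prime_dvd_prime_iff_eq hp hq).mp h)) hqd
  rw [h1] at L1
  rw [h2] at L2
  rcases hv (p * q) (mul_ne_one' hp q) with e | e | e <;> rw [e] at L2
  · exact (nd hp hp2 (L1.sub L2) (by push_cast; omega)).elim
  · exact (nd hp hp2 ((L1.mul_left 2).sub L2) (by omega)).elim
  · refine ⟨e, ?_⟩
    have := L2.sub L1
    rwa [show (a : ℤ) + b - (1 + a) = b - 1 by ring] at this

theorem three (hodd : Odd (Nat.card G)) {a b : ℕ}
    (hv : ∀ m, m ≠ 1 → s G m = 0 ∨ s G m = a ∨ s G m = b) {p q r : ℕ} (hp : p.Prime) (hq : q.Prime)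
    (hr : r.Prime) (hpq : p ≠ q) (hpr : p ≠ r) (hqr : q ≠ r) (hpd : p ∣ Nat.card G)
    (hqd : q ∣ Nat.card G) (hrd : r ∣ Nat.card G) (h1 : s G p = a) (h2 : s G r = a)
    (h3 : s G q = b) : False := by
  have hp2 := ne_two hodd hpd
  have hq2 := ne_two hodd hqd
  have hr2 := ne_two hodd hrd
  obtain ⟨e1, e2⟩ := same hodd hv hp hr hpr hpd hrd h1 h2
  obtain ⟨-, e3⟩ := same hodd hv hr hp hpr.symm hrd hpd h2 h1
  have Lp := LZ1 hp hpd
  have Lq := LZ1 hq hqd
  rw [h1] at Lp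
  rw [h3] at Lq
  have nd' : ∀ {x y : ℕ}, x.Prime → y.Prime → x ≠ y → ¬ x ∣ y := fun hx hy hne h =>
    hne ((Nat.prime_dvd_prime_iff_eq hx hy).mp h)
  have Lrq := LZ hr hrd q (nd' hr hq hqr.symm) hqd
  rw [h3] at Lrq
  have e4 : s G (r * q) = a := by
    rcases hv (r * q) (mul_ne_one' hr q) with e | e | e
    · rw [e] at Lrq; exact (nd hr hr2 (Lrq.sub e3) (by push_cast; omega)).elim
    · exact e
    · rw [e] at Lrq; exact (nd hr hr2 (Lrq.sub (e3.mul_left 2)) (by omega)).elim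
  have L1 := LZ hp hpd (r * q) (fun h => ((Nat.Prime.dvd_mul hp).mp h).elim (nd' hp hr hpr)
    (nd' hp hq hpq)) (((Nat.coprime_primes hr hq).mpr hqr.symm).mul_dvd_of_dvd_of_dvd hrd hqd)
  have L2 := LZ hq hqd (p * r) (fun h => ((Nat.Prime.dvd_mul hq).mp h).elim (nd' hq hp hpq.symm)
    (nd' hq hr hqr)) (((Nat.coprime_primes hp hr).mpr hpr).mul_dvd_of_dvd_of_dvd hpd hrd)
  rw [e4] at L1
  rw [e1, show q * (p * r) = p * (r * q) by ring] at L2
  rcases hv (p * (r * q)) (mul_ne_one' hp _) with e | e | e <;> rw [e] at L1 L2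
  · exact nd hp hp2 (Lp.sub L1) (by push_cast; omega)
  · exact nd hp hp2 ((Lp.mul_left 2).sub L1) (by omega)
  · exact nd hq hq2 ((Lq.mul_left 2).sub L2) (by omega)

theorem dvd_s_sq {p : ℕ} (hp : p.Prime) : p ∣ s G (p ^ 2) := by
  refine Dvd.dvd.trans ?_ (totient_dvd _)
  rw [Nat.totient_prime_pow hp two_pos]
  simp

theorem all_same (hodd : Odd (Nat.card G)) {a b : ℕ}
    (hv : ∀ m, m ≠ 1 → s G m = 0 ∨ s G m = a ∨ s G m = b) {p q : ℕ} (hp : p.Prime) (hq : q.Prime)
    (hne : p ≠ q) (hpd : p ∣ Nat.card G) (hqd : q ∣ Nat.card G)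
    (h : ∀ r : ℕ, r.Prime → r ∣ Nat.card G → s G r = a) : False := by
  have hsq : ∀ r : ℕ, r.Prime → r ∣ Nat.card G → s G (r ^ 2) = 0 := by
    intro r hr hrd
    have e1 : (r : ℤ) ∣ b - 1 := by
      by_cases hrp : r = p
      · exact (same hodd hv hr hq (hrp ▸ hne) hrd hqd (h r hr hrd) (h q hq hqd)).2
      · exact (same hodd hv hr hp hrp hrd hpd (h r hr hrd) (h p hp hpd)).2
    have e2 := LZ1 hr hrd
    rw [h r hr hrd] at e2
    have e3 : (r : ℤ) ∣ s G (r ^ 2) := by exact_mod_cast dvd_s_sq hr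
    have hr2 := ne_two hodd hrd
    rcases hv (r ^ 2) (by rw [pow_two]; exact mul_ne_one' hr r) with e | e | e
    · exact e
    · rw [e] at e3; exact (nd hr hr2 (e2.sub e3) (by omega)).elim
    · rw [e] at e3; exact (nd hr hr2 (e3.sub e1) (by omega)).elim
  have h1 : Nat.card G ∣ 1 + a := by
    refine (Nat.dvd_iff_prime_pow_dvd_dvd _ _).mpr fun r k hr hk => ?_
    rcases Nat.eq_zero_or_pos k with rfl | hk0
    · simp
    have hrd : r ∣ Nat.card G := (dvd_pow_self r hk0.ne').trans hk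
    rw [← h r hr hrd]
    exact pow_dvd_of_s_sq hr (hsq r hr hrd) hk hrd
  have h2 : ∑ d ∈ ({1, p, q} : Finset ℕ), s G d ≤ Nat.card G := by
    rw [← sum_card (G := G)]
    refine Finset.sum_le_sum_of_subset fun d hd => ?_
    simp only [Finset.mem_insert, Finset.mem_singleton] at hd
    rcases hd with rfl | rfl | rfl <;> simp [Nat.card_pos.ne', hpd, hqd]
  rw [Finset.sum_insert (by simp [hp.one_lt.ne, hq.one_lt.ne]), Finset.sum_pair hne, s_one,
    h p hp hpd] at h2
  have h3 := s_prime_ne_zero hq hqd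
  have h4 := Nat.le_of_dvd (by omega) h1
  omega

theorem two_mul_le {p q : ℕ} (hp : p.Prime) (hq : q.Prime) (hne : p ≠ q) (hq2 : q ≠ 2)
    (h : ¬ p ∣ s G q) : 2 * s G p ≤ s G (p * q) := by
  classical
  haveI := Fact.mk hp
  haveI := Fintype.ofFinite {y : G // orderOf y = q}
  have hc : p.Coprime q := (Nat.coprime_primes hp hq).mpr hne
  have hex : ∀ x : {x : G // orderOf x = p}, ∃ y : G, orderOf y = q ∧ Commute (x : G) y := by
    rintro ⟨x, hx⟩
    let σ : Equiv.Perm {y : G // orderOf y = q} :=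
      Equiv.Perm.subtypePerm (MulAut.conj x).toEquiv (fun y => by
        show orderOf (MulAut.conj x y) = q ↔ _
        rw [MulEquiv.orderOf_eq])
    have h1 : ∀ n : ℕ, ∀ y, ((σ ^ n) y : G) = x ^ n * y * (x ^ n)⁻¹ := by
      intro n
      induction n with
      | zero => simp
      | succ n ih =>
        intro y
        rw [pow_succ', Equiv.Perm.mul_apply]
        show x * ((σ ^ n) y : G) * x⁻¹ = _
        rw [ih, pow_succ']; group
    have h2 : σ ^ p ^ 1 = 1 := by
      ext y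
      rw [h1, pow_one, ← hx, pow_orderOf_eq_one]; simp
    obtain ⟨y, hy⟩ := Equiv.Perm.exists_fixed_point_of_prime
      (by rwa [← Nat.card_eq_fintype_card]) h2
    refine ⟨y, y.2, ?_⟩
    have h3 : x * (y : G) * x⁻¹ = y := congrArg Subtype.val hy
    exact mul_inv_eq_iff_eq_mul.mp h3
  choose y hy hxy using hex
  let f : {x : G // orderOf x = p} × Bool → {z : G // orderOf z = p * q} := fun t =>
    if t.2 then ⟨t.1 * y t.1, by
      rw [(hxy t.1).orderOf_mul_eq_mul_orderOf_of_coprime (by rw [t.1.2, hy]; exact hc),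
        t.1.2, hy]⟩
    else ⟨t.1 * (y t.1)⁻¹, by
      rw [(hxy t.1).inv_right.orderOf_mul_eq_mul_orderOf_of_coprime
        (by rw [t.1.2, orderOf_inv, hy]; exact hc), t.1.2, orderOf_inv, hy]⟩
  have hf1 : ∀ t, (f t : G) ^ q = (t.1 : G) ^ q := by
    rintro ⟨x, b⟩
    have : y x ^ q = 1 := by rw [← hy x, pow_orderOf_eq_one]
    cases b
    · show ((x : G) * (y x)⁻¹) ^ q = _
      rw [(hxy x).inv_right.mul_pow, inv_pow, this, inv_one, mul_one]
    · show ((x : G) * (y x)) ^ q = _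
      rw [(hxy x).mul_pow, this, mul_one]
  have hf : Function.Injective f := by
    rintro ⟨x, b⟩ ⟨x', b'⟩ he
    have h1 : (x : G) ^ q = (x' : G) ^ q := by
      rw [← hf1 ⟨x, b⟩, he, hf1]
    obtain ⟨m, hm⟩ := Nat.exists_mul_mod_eq_one_of_coprime hc.symm hp.one_lt
    have h2 : ∀ z : {x : G // orderOf x = p}, ((z : G) ^ q) ^ m = z := fun z => by
      rw [← pow_mul, ← pow_mod_orderOf, z.2, hm.2, pow_one]
    have h3 : x = x' := Subtype.ext (by rw [← h2 x, h1, h2])
    subst h3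
    have h4 : y x ≠ (y x)⁻¹ := fun h4 => by
      have : orderOf (y x) ∣ 2 := orderOf_dvd_of_pow_eq_one (by
        rw [pow_two]; nth_rewrite 2 [h4]; exact mul_inv_cancel _)
      rw [hy] at this
      exact hq2 ((Nat.prime_dvd_prime_iff_eq hq Nat.prime_two).mp this)
    have h5 := congrArg Subtype.val he
    cases b <;> cases b'
    · rfl
    · exact absurd (mul_left_cancel h5).symm h4
    · exact absurd (mul_left_cancel h5) h4
    · rfl
  have := Nat.card_le_card_of_injective f hf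
  rw [Nat.card_prod, Nat.card_eq_fintype_card (α := Bool), Fintype.card_bool, mul_comm] at this
  exact this

theorem no_comm {p q : ℕ} (hp : p.Prime) (hq : q.Prime) (hne : p ≠ q) (h : s G (p * q) = 0)
    {x y : G} (hx : x ^ p = 1) (hy : y ^ q = 1) (hc : Commute x y) : x = 1 ∨ y = 1 := by
  by_contra hn
  push Not at hn
  haveI := Fact.mk hp
  have h1 := orderOf_eq_prime hx hn.1
  haveI := Fact.mk hq
  have h2 := orderOf_eq_prime hy hn.2
  refine s_eq_zero_iff.mp h (x * y) ?_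
  rw [hc.orderOf_mul_eq_mul_orderOf_of_coprime
    (by rw [h1, h2]; exact (Nat.coprime_primes hp hq).mpr hne), h1, h2]

theorem ord_cases {p q : ℕ} (hp : p.Prime) (hq : q.Prime) (hne : p ≠ q) (h : s G (p * q) = 0)
    (h1 : s G (p ^ 2) = 0) (h2 : s G (q ^ 2) = 0)
    (hpq : ∀ r : ℕ, r.Prime → r ∣ Nat.card G → r = p ∨ r = q) (g : G) : g ^ p = 1 ∨ g ^ q = 1 := by
  by_cases a1 : p ∣ orderOf g
  · by_cases a2 : q ∣ orderOf g
    · exact absurd h (s_ne_zero_of_dvd (s_ne_zero_iff.mpr ⟨g, rfl⟩)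
        (((Nat.coprime_primes hp hq).mpr hne).mul_dvd_of_dvd_of_dvd a1 a2))
    · obtain ⟨k, hk⟩ := CfsgLib.Count.exists_orderOf_eq_pow_of_prime_dvd (p := p) (x := g)
        fun r hr hd => (hpq r hr (hd.trans (orderOf_dvd_natCard g))).resolve_right
          fun e => a2 (e ▸ hd)
      exact Or.inl (pow_eq_one_of_s_sq h1 hk)
  · obtain ⟨k, hk⟩ := CfsgLib.Count.exists_orderOf_eq_pow_of_prime_dvd (p := q) (x := g)
      fun r hr hd => (hpq r hr (hd.trans (orderOf_dvd_natCard g))).resolve_left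
        fun e => a1 (e ▸ hd)
    exact Or.inr (pow_eq_one_of_s_sq h2 hk)

theorem eq_one_of_two {H : Type*} [Group H] {p q : ℕ} (hc : p.Coprime q) {x : H} (h1 : x ^ p = 1)
    (h2 : x ^ q = 1) : x = 1 :=
  orderOf_eq_one_iff.mp (Nat.eq_one_of_dvd_coprimes hc (orderOf_dvd_of_pow_eq_one h1)
    (orderOf_dvd_of_pow_eq_one h2))

open scoped Pointwise in
theorem frob_of {p q : ℕ} (hp : p.Prime) (hq : q.Prime) (hne : p ≠ q) (h : s G (p * q) = 0)
    (h2 : s G (q ^ 2) = 0) (hqd : q ∣ Nat.card G) (ho : ∀ g : G, g ^ p = 1 ∨ g ^ q = 1)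
    (N : Subgroup G) [N.Normal] (hN0 : N ≠ ⊥) (hN : IsElementaryAbelian p N) :
    ∃ C : Subgroup G, IsFrobeniusComplement C ∧ (Nat.card C).Prime := by
  haveI := Fact.mk hp
  haveI := Fact.mk hq
  have hc : p.Coprime q := (Nat.coprime_primes hp hq).mpr hne
  have hNp : ∀ v ∈ N, v ^ p = 1 := hN.2
  haveI : IsMulCommutative N := hN.1
  have hNP : IsPGroup p N := fun v => ⟨1, Subtype.ext (by simpa using hNp v v.2)⟩
  obtain ⟨n, hn⟩ := IsPGroup.iff_card.mp hNP
  have hq2 : ¬ q ^ 2 ∣ Nat.card G := by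
    intro hd
    obtain ⟨E, hE⟩ := Sylow.exists_subgroup_card_pow_prime q hd
    haveI : IsMulCommutative E := IsPGroup.isMulCommutative_of_card_eq_prime_sq hE
    have hEc : ¬ IsCyclic E := by
      intro hcy
      obtain ⟨e, he⟩ := IsCyclic.exists_ofOrder_eq_natCard (α := E)
      exact s_eq_zero_iff.mp h2 e (by rw [Subgroup.orderOf_coe, he, hE])
    obtain ⟨e, he, he1, h3⟩ := CfsgLib.Coprime.exists_centralizer_ne_bot (K := N) (A := E) hEc
      (by rw [Subgroup.normalizer_eq_top]; exact le_top)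
      (by rw [hE, hn]; exact Nat.Coprime.pow _ _ hc.symm) hN0
    obtain ⟨⟨v, hv1, hv2⟩, hv3⟩ := Subgroup.ne_bot_iff_exists_ne_one.mp h3
    have h4 : e ^ q = 1 := by
      have : orderOf e ∣ q ^ 2 := hE ▸ Subgroup.orderOf_dvd_natCard E he
      obtain ⟨j, -, hj⟩ := (Nat.dvd_prime_pow hq).mp this
      exact pow_eq_one_of_s_sq h2 hj
    rcases no_comm hp hq hne h (hNp v hv1) h4
      (Subgroup.mem_centralizer_singleton_iff.mp hv2) with h5 | h5
    · exact hv3 (Subtype.ext h5)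
    · exact he1 h5
  obtain ⟨Q⟩ := (inferInstance : Nonempty (Sylow q G))
  have hQ : Nat.card (Q : Subgroup G) = q := by
    obtain ⟨k, hk⟩ := IsPGroup.iff_card.mp Q.isPGroup'
    have h3 : q ∣ Nat.card (Q : Subgroup G) := Q.dvd_card_of_dvd_card hqd
    have h4 : k < 2 := by
      by_contra h4
      exact hq2 ((pow_dvd_pow q (by omega)).trans (hk ▸ (Q : Subgroup G).card_subgroup_dvd_card))
    rw [hk] at h3 ⊢
    interval_cases k
    · exact absurd (Nat.dvd_one.mp (by simpa using h3)) hq.one_lt.ne'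
    · simp
  have hQq : ∀ u ∈ (Q : Subgroup G), u ^ q = 1 := fun u hu =>
    orderOf_dvd_iff_pow_eq_one.mp (hQ ▸ Subgroup.orderOf_dvd_natCard _ hu)
  have hQ0 : (Q : Subgroup G) ≠ ⊥ := fun h0 => by
    rw [h0, Subgroup.card_bot] at hQ; exact hq.one_lt.ne hQ
  refine ⟨Q, ⟨hQ0, ?_, ?_⟩, hQ.symm ▸ hq⟩
  · intro ht
    obtain ⟨⟨v, hv⟩, hv1⟩ := Subgroup.ne_bot_iff_exists_ne_one.mp hN0
    exact hv1 (Subtype.ext (eq_one_of_two hc (hNp v hv) (hQq v (ht ▸ Subgroup.mem_top v))))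
  intro g hg
  by_contra hne'
  have hgn : g ∈ Subgroup.normalizer ((Q : Subgroup G) : Set G) := by
    have h3 : (Q : Subgroup G) ⊓ MulAut.conj g • (Q : Subgroup G) = Q := by
      haveI : Fact (Nat.card (Q : Subgroup G)).Prime := ⟨hQ.symm ▸ hq⟩
      rcases (((Q : Subgroup G) ⊓ MulAut.conj g • (Q : Subgroup G)).subgroupOf
        Q).eq_bot_or_eq_top_of_prime_card
        with h4 | h4
      · exact absurd (disjoint_iff.mp (Subgroup.subgroupOf_eq_bot.mp h4)) (by
          rwa [inf_eq_left.mpr inf_le_left])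
      · exact le_antisymm inf_le_left (Subgroup.subgroupOf_eq_top.mp h4)
    have h4 : (Q : Subgroup G) = MulAut.conj g • (Q : Subgroup G) :=
      Subgroup.eq_of_le_of_card_ge (inf_eq_left.mp h3)
        (Nat.card_congr (Subgroup.equivSMul (MulAut.conj g) (Q : Subgroup G)).toEquiv).ge
    exact Sylow.smul_eq_iff_mem_normalizer.mp (Sylow.ext h4.symm)
  rcases ho g with hgp | hgq
  · obtain ⟨⟨v, hv⟩, hv1⟩ := Subgroup.ne_bot_iff_exists_ne_one.mp hN0
    have h3 := pow_card_eq_one_of_norm N Q hp.pos hgn hgp ?_ ?_ ?_ v hv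
    · rw [hQ] at h3
      exact hv1 (Subtype.ext (eq_one_of_two hc (hNp v hv) h3))
    · intro w hw u _
      refine (ho _).elim id fun h4 => ?_
      have h5 : (QuotientGroup.mk (u * g * u⁻¹) : G ⧸ N) = 1 := by
        refine eq_one_of_two hc ?_ ?_
        · rw [← QuotientGroup.mk_pow, conj_pow, hgp]; simp
        · have : (QuotientGroup.mk (w * (u * g * u⁻¹)) : G ⧸ N) ^ q = 1 := by
            rw [← QuotientGroup.mk_pow, h4]; rfl
          rwa [QuotientGroup.mk_mul, (QuotientGroup.eq_one_iff w).mpr hw, one_mul] at this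
      exact hNp _ (N.mul_mem hw ((QuotientGroup.eq_one_iff _).mp h5))
    · intro w hw hfix
      obtain ⟨⟨u, hu⟩, hu1⟩ := Subgroup.ne_bot_iff_exists_ne_one.mp hQ0
      refine (no_comm hp hq hne h (hNp w hw) (hQq u hu) ?_).resolve_right
        fun e => hu1 (Subtype.ext e)
      exact (mul_inv_eq_iff_eq_mul.mp (hfix u hu)).symm
    · intro i hi hip u hu hcm
      refine (no_comm hp hq hne h (x := g ^ i) (by rw [← pow_mul, mul_comm, pow_mul, hgp, one_pow])
        (hQq u hu) hcm.symm).resolve_left fun e => ?_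
      have hg1 : g ≠ 1 := fun e => hg (e ▸ (Q : Subgroup G).one_mem)
      have := orderOf_dvd_of_pow_eq_one e
      rw [orderOf_eq_prime hgp hg1] at this
      exact absurd (Nat.le_of_dvd hi this) (by omega)
  · have h3 : IsPGroup q (Subgroup.zpowers g) := by
      refine IsPGroup.of_card_dvd_pow (n := 1) ?_
      rw [Nat.card_zpowers, pow_one]; exact orderOf_dvd_of_pow_eq_one hgq
    have h4 := h3.inf_normalizer_sylow Q
    have h5 : g ∈ Subgroup.zpowers g ⊓ Subgroup.normalizer ((Q : Subgroup G) : Set G) :=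
      ⟨Subgroup.mem_zpowers g, hgn⟩
    exact hg (h4.le h5).2

theorem two (hodd : Odd (Nat.card G)) {a b : ℕ}
    (hv : ∀ m, m ≠ 1 → s G m = 0 ∨ s G m = a ∨ s G m = b) {p q : ℕ} (hp : p.Prime) (hq : q.Prime)
    (hne : p ≠ q) (hpd : p ∣ Nat.card G) (hqd : q ∣ Nat.card G) (h1 : s G p = a)
    (h2 : s G q = b) : s G (p * q) ≠ a ∧ (s G (p * q) = 0 → s G (p ^ 2) = 0) := by
  have hp2 := ne_two hodd hpd
  have hq2 := ne_two hodd hqd
  have L1 := LZ1 hp hpd
  have L1' := LZ1 hq hqd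
  have L2 := LZ hp hpd q (fun h => hne ((Nat.prime_dvd_prime_iff_eq hp hq).mp h)) hqd
  rw [h1] at L1
  rw [h2] at L2 L1'
  refine ⟨fun e => ?_, fun e => ?_⟩
  · rw [e] at L2
    have h3 := two_mul_le (G := G) hp hq hne hq2 (fun h3 => by
      rw [h2] at h3
      exact nd hp hp2 ((L1.add (Int.natCast_dvd_natCast.mpr h3)).sub L2) (by omega))
    have h4 := s_prime_ne_zero hp hpd
    omega
  · have e3 : (p : ℤ) ∣ s G (p ^ 2) := by exact_mod_cast dvd_s_sq hp
    rcases hv (p ^ 2) (by rw [pow_two]; exact mul_ne_one' hp p) with e1 | e1 | e1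
    · exact e1
    · rw [e1] at e3; exact (nd hp hp2 (L1.sub e3) (by omega)).elim
    · have hb : b ≠ 0 := h2 ▸ s_prime_ne_zero hq hqd
      have L3 := LZ hq hqd (p ^ 2) (fun h => hne ((Nat.prime_dvd_prime_iff_eq hq hp).mp
        (hq.dvd_of_dvd_pow h)).symm) (dvd_card_of_s_ne_zero (by rw [e1]; exact hb))
      have e2 : s G (q * p ^ 2) = 0 := by
        by_contra e2
        exact s_ne_zero_of_dvd e2 (Dvd.intro p (by ring)) e
      rw [e1, e2] at L3
      exact (nd hq hq2 (L1'.sub L3) (by push_cast; omega)).elim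

end


/-- Let G be a finite group of odd order in which the numbers of elements of each order that occurs (the numbers #{g : o(g) = m}, m ranging over the element orders of G) take exactly three different values. Then the order of G has at most two prime divisors; and if it has exactly two, then every Sylow subgroup of G for a prime dividing its order has prime exponent, G is a Frobenius group, and some Frobenius complement of G has prime order. -/
theorem result {G : Type*} [Group G] [Finite G] (hodd : Odd (Nat.card G)) (h : (((fun m : ℕ => Nat.card {g : G // orderOf g = m}) '' Set.range (orderOf : G → ℕ))).ncard = 3) :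
    (Nat.card G).primeFactors.card ≤ 2 ∧
      ((Nat.card G).primeFactors.card = 2 →
        (∀ (p : ℕ) [Fact p.Prime] (P : Sylow p G), p ∣ Nat.card G → Monoid.exponent ↥(P : Subgroup G) = p) ∧
        ∃ C : Subgroup G, Cfsg.IsFrobeniusComplement C ∧ (Nat.card ↥C).Prime) := by
  change (vals G).ncard = 3 at h
  have hab : ∀ p : ℕ, p.Prime → p ∣ Nat.card G → ∃ b,
      ∀ m, m ≠ 1 → s G m = 0 ∨ s G m = s G p ∨ s G m = b := by
    intro p hp hd
    have h1 := even_of_odd hodd hp.one_lt.ne'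
    obtain ⟨b, -, -, -, hv⟩ := exists_third h (s_mem_vals (s_prime_ne_zero hp hd)) (by omega)
    exact ⟨b, fun m hm => by have := hv m; have := even_of_odd hodd hm; omega⟩
  have sw : ∀ {a b : ℕ}, (∀ m, m ≠ 1 → s G m = 0 ∨ s G m = a ∨ s G m = b) →
      ∀ m, m ≠ 1 → s G m = 0 ∨ s G m = b ∨ s G m = a := fun hv m hm => by
    have := hv m hm; omega
  have hle : (Nat.card G).primeFactors.card ≤ 2 := by
    by_contra hlt
    obtain ⟨p, hp, q, hq, r, hr, hpq, hpr, hqr⟩ := Finset.two_lt_card.mp (not_le.mp hlt)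
    rw [Nat.mem_primeFactors] at hp hq hr
    obtain ⟨b, hv⟩ := hab p hp.1 hp.2.1
    have hc : ∀ t : ℕ, t.Prime → t ∣ Nat.card G → s G t = s G p ∨ s G t = b := fun t ht hd =>
      (hv t ht.one_lt.ne').resolve_left (s_prime_ne_zero ht hd)
    rcases hc q hq.1 hq.2.1 with e1 | e1 <;> rcases hc r hr.1 hr.2.1 with e2 | e2
    · refine all_same hodd hv hp.1 hq.1 hpq hp.2.1 hq.2.1 fun t ht hd => ?_
      by_contra e3
      have e4 := (hc t ht hd).resolve_left e3
      exact three hodd hv hp.1 ht hq.1 (fun e => e3 (by rw [e])) hpq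
        (fun e => e3 (by rw [e, e1])) hp.2.1 hd hq.2.1 rfl e1 e4
    · exact three hodd hv hp.1 hr.1 hq.1 hpr hpq hqr.symm hp.2.1 hr.2.1 hq.2.1 rfl e1 e2
    · exact three hodd hv hp.1 hq.1 hr.1 hpq hpr hqr hp.2.1 hq.2.1 hr.2.1 rfl e2 e1
    · exact three hodd (sw hv) hq.1 hp.1 hr.1 hpq.symm hqr hpr hq.2.1 hp.2.1 hr.2.1 e1 e2 rfl
  refine ⟨hle, fun h2 => ?_⟩
  obtain ⟨p, q, hne, he⟩ := Finset.card_eq_two.mp h2
  have hp : p ∈ (Nat.card G).primeFactors := by rw [he]; simp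
  have hq : q ∈ (Nat.card G).primeFactors := by rw [he]; simp
  have hpq : ∀ r : ℕ, r.Prime → r ∣ Nat.card G → r = p ∨ r = q := fun r hr hd => by
    have : r ∈ (Nat.card G).primeFactors := Nat.mem_primeFactors.mpr ⟨hr, hd, Nat.card_pos.ne'⟩
    rw [he] at this
    simpa using this
  rw [Nat.mem_primeFactors] at hp hq
  obtain ⟨b, hv⟩ := hab p hp.1 hp.2.1
  have e1 : s G q = b := by
    by_contra e1
    have e2 := ((hv q hq.1.one_lt.ne').resolve_left (s_prime_ne_zero hq.1 hq.2.1)).resolve_right e1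
    refine all_same hodd hv hp.1 hq.1 hne hp.2.1 hq.2.1 fun t ht hd => ?_
    rcases hpq t ht hd with rfl | rfl
    · rfl
    · exact e2
  obtain ⟨a1, a2⟩ := two hodd hv hp.1 hq.1 hne hp.2.1 hq.2.1 rfl e1
  obtain ⟨b1, b2⟩ := two hodd (sw hv) hq.1 hp.1 hne.symm hq.2.1 hp.2.1 e1 rfl
  rw [mul_comm q p] at b1 b2
  have h0 : s G (p * q) = 0 := by
    have := hv (p * q) (mul_ne_one' hp.1 q); omega
  have ho := ord_cases hp.1 hq.1 hne h0 (a2 h0) (b2 h0) hpq
  refine ⟨fun r hr P hd => ?_, ?_⟩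
  · have h1 : s G (r ^ 2) = 0 := by
      rcases hpq r hr.out hd with rfl | rfl
      · exact a2 h0
      · exact b2 h0
    haveI : Nontrivial (P : Subgroup G) :=
      (Subgroup.nontrivial_iff_ne_bot _).mpr (P.ne_bot_of_dvd_card hd)
    refine (Monoid.exponent_eq_prime_iff hr.out).mpr fun g hg => orderOf_eq_prime ?_ hg
    obtain ⟨k, hk⟩ := CfsgLib.Count.exists_orderOf_eq_of_mem P.isPGroup' g.2
    exact Subtype.ext (pow_eq_one_of_s_sq h1 hk)
  · haveI := CfsgLib.Char.isSolvable_of_prime_dvd_card hp.1 hq.1 hpq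
    haveI : Nontrivial G := Finite.one_lt_card_iff_nontrivial.mp
      (hp.1.one_lt.trans_le (Nat.le_of_dvd Nat.card_pos hp.2.1))
    obtain ⟨r, N, hr, hN, hN0, hE, -⟩ := CfsgLib.Core.exists_elementaryAbelian_minimal_normal G
    have hrd : r ∣ Nat.card G := by
      obtain ⟨⟨v, hv⟩, hv1⟩ := Subgroup.ne_bot_iff_exists_ne_one.mp hN0
      haveI := Fact.mk hr
      rw [← orderOf_eq_prime (hE.2 v hv) (fun e => hv1 (Subtype.ext e))]
      exact orderOf_dvd_natCard v
    rcases hpq r hr hrd with rfl | rfl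
    · exact frob_of hp.1 hq.1 hne h0 (b2 h0) hq.2.1 ho N hN0 hE
    · exact frob_of hq.1 hp.1 hne.symm (by rw [mul_comm]; exact h0) (a2 h0) hp.2.1
        (fun g => (ho g).symm) N hN0 hE

end Cfsg.Agent.S4004
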