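import Cfsg.Statements.S3995
import Cfsg.Agent.S4004
import Cfsg.Agent.Lib.Frob.Quaternion

set_option autoImplicit false
open Cfsg

namespace Cfsg.Agent.S3995

open CfsgLib.Nse Cfsg.Agent.S4004

section
variable {G : Type*} [Group G] [Finite G]

theorem isPGroup_of_primes {p : ℕ} (hp : p.Prime) (h : ∀ r : ℕ, r.Prime → r ∣ Nat.card G → r = p) :
    IsPGroup p G :=
  IsPGroup.of_card (Nat.eq_prime_pow_of_unique_prime_dvd Nat.card_pos.ne'
    (fun {r} hr hd => h r hr hd))

theorem odd_unique {n : ℕ} (hv : ∀ m, 2 < m → s G m = 0 ∨ s G m = n) {p q : ℕ} (hp : p.Prime)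
    (hq : q.Prime) (hp2 : p ≠ 2) (hq2 : q ≠ 2) (hpd : p ∣ Nat.card G) (hqd : q ∣ Nat.card G) :
    p = q := by
  by_contra hne
  have h1 := hp.two_le
  have h2 := hq.two_le
  have L1 := LZ1 hp hpd
  have L2 := LZ hp hpd q (fun h => hne ((Nat.prime_dvd_prime_iff_eq hp hq).mp h)) hqd
  rw [(hv p (by omega)).resolve_left (s_prime_ne_zero hp hpd)] at L1
  rw [(hv q (by omega)).resolve_left (s_prime_ne_zero hq hqd)] at L2
  rcases hv (p * q) (by nlinarith) with e | e <;> rw [e] at L2
  · exact nd hp hp2 (L1.sub L2) (by push_cast; omega)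
  · exact nd hp hp2 ((L1.mul_left 2).sub L2) (by omega)

theorem sq_zero {n : ℕ} (hv : ∀ m, 2 < m → s G m = 0 ∨ s G m = n) {p : ℕ} (hp : p.Prime)
    (hp2 : p ≠ 2) (hpd : p ∣ Nat.card G) : s G (p ^ 2) = 0 := by
  have h1 := hp.two_le
  have L1 := LZ1 hp hpd
  rw [(hv p (by omega)).resolve_left (s_prime_ne_zero hp hpd)] at L1
  have e3 : (p : ℤ) ∣ s G (p ^ 2) := by exact_mod_cast dvd_s_sq hp
  refine (hv (p ^ 2) (by nlinarith)).resolve_right fun e => ?_
  rw [e] at e3
  exact nd hp hp2 (L1.sub e3) (by omega)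

theorem exp_of {p : ℕ} (hp : p.Prime) (h0 : s G (p ^ 2) = 0) (P : Subgroup G) (hP : IsPGroup p P)
    (h1 : P ≠ ⊥) : Monoid.exponent P = p := by
  haveI := Fact.mk hp
  haveI : Nontrivial P := (Subgroup.nontrivial_iff_ne_bot _).mpr h1
  refine (Monoid.exponent_eq_prime_iff hp).mpr fun g hg => orderOf_eq_prime ?_ hg
  obtain ⟨k, hk⟩ := CfsgLib.Count.exists_orderOf_eq_of_mem hP g.2
  exact Subtype.ext (pow_eq_one_of_s_sq h0 hk)

theorem exp_top {p : ℕ} (hp : p.Prime) (h0 : s G (p ^ 2) = 0) (hP : IsPGroup p G)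
    [Nontrivial G] : Monoid.exponent G = p := by
  haveI := Fact.mk hp
  refine (Monoid.exponent_eq_prime_iff hp).mpr fun g hg => orderOf_eq_prime ?_ hg
  obtain ⟨k, hk⟩ := IsPGroup.iff_orderOf.mp hP g
  exact pow_eq_one_of_s_sq h0 hk

end


/-- Let G be a finite group such that the numbers of elements of each order that occurs in G (the numbers #{g : o(g) = m}, m ranging over the element orders of G) take exactly two values, 1 and some n ≠ 1. Then either G is a p-group of exponent p and order at least 3 for some prime p, or G is the quaternion group of order 8, or G is cyclic of order 4, or G ≅ Z₂ × P for a p-group P of exponent p with p an odd prime. -/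
theorem result {G : Type*} [Group G] [Finite G] (n : ℕ) (hn : n ≠ 1) (h : ((fun m : ℕ => Nat.card {g : G // orderOf g = m}) '' Set.range (orderOf : G → ℕ)) = {1, n}) :
    (∃ p : ℕ, p.Prime ∧ IsPGroup p G ∧ 3 ≤ Nat.card G ∧ Monoid.exponent G = p) ∨
      Nonempty (G ≃* QuaternionGroup 2) ∨ (IsCyclic G ∧ Nat.card G = 4) ∨
      (∃ (p : ℕ) (P : Type) (_ : Group P) (_ : Finite P), p.Prime ∧ p ≠ 2 ∧ IsPGroup p P ∧ Monoid.exponent P = p ∧
        Nonempty (G ≃* Multiplicative (ZMod 2) × P)) := by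
  change vals G = {1, n} at h
  have hv0 : ∀ m, s G m = 0 ∨ s G m = 1 ∨ s G m = n := fun m => by
    by_cases h0 : s G m = 0
    · exact Or.inl h0
    · have := s_mem_vals h0
      rw [h] at this
      exact Or.inr (by simpa using this)
  have hv : ∀ m, 2 < m → s G m = 0 ∨ s G m = n := fun m hm => by
    have h1 := hv0 m
    have h2 := (even_s (G := G) hm).two_dvd
    omega
  obtain ⟨_, ⟨g₀, rfl⟩, hg₀⟩ : n ∈ vals G := by rw [h]; simp
  have hg1 : orderOf g₀ ≠ 1 := fun e => hn (by rw [← hg₀, e, s_one])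
  have hn0 : n ≠ 0 := hg₀ ▸ s_ne_zero_iff.mpr ⟨g₀, rfl⟩
  haveI : Nontrivial G := nontrivial_of_ne g₀ 1 (fun e => hg1 (by rw [e, orderOf_one]))
  by_cases h2d : 2 ∣ Nat.card G
  swap
  · left
    obtain ⟨p, hp, hpd⟩ := Nat.exists_prime_and_dvd (Finite.one_lt_card (α := G)).ne'
    have hp2 : p ≠ 2 := fun e => h2d (e ▸ hpd)
    have hP : IsPGroup p G := isPGroup_of_primes hp fun r hr hd =>
      odd_unique hv hr hp (fun e => h2d (e ▸ hd)) hp2 hd hpd
    refine ⟨p, hp, hP, ?_, exp_top hp (sq_zero hv hp hp2 hpd) hP⟩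
    have h1 := hp.two_le
    have h2 := Nat.le_of_dvd Nat.card_pos hpd
    omega
  have L2 := L_p Nat.prime_two h2d
  by_cases h21 : s G 2 = 1
  swap
  · left
    have hz : ∀ m, 2 < m → s G m = 0 := fun m hm => by
      have h1 := hv m hm
      have h2 := (even_s (G := G) hm).two_dvd
      have h3 := hv0 2
      omega
    have hP : IsPGroup 2 G := isPGroup_of_primes Nat.prime_two fun r hr hd => by
      by_contra e
      have := hr.two_le
      exact s_prime_ne_zero hr hd (hz r (by omega))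
    refine ⟨2, Nat.prime_two, hP, ?_, exp_top Nat.prime_two (hz _ (by norm_num)) hP⟩
    have h2 : ∑ d ∈ ({1, 2} : Finset ℕ), s G d ≤ Nat.card G := by
      rw [← sum_card (G := G)]
      refine Finset.sum_le_sum_of_subset fun d hd => ?_
      simp only [Finset.mem_insert, Finset.mem_singleton] at hd
      rcases hd with rfl | rfl <;> simp [Nat.card_pos.ne', h2d]
    rw [Finset.sum_pair (by norm_num), s_one] at h2
    omega
  obtain ⟨z, hz⟩ := Set.ncard_eq_one.mp ((s_eq_ncard 2).symm.trans h21)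
  have hz1 : ∀ g : G, orderOf g = 2 ↔ g = z := fun g => by
    have := Set.ext_iff.mp hz g
    simpa using this
  have hz2 : orderOf z = 2 := (hz1 z).mpr rfl
  by_cases h4d : 4 ∣ Nat.card G
  · have L4 := frob h4d
    rw [sum_divisors_four, s_one, h21] at L4
    have h4 : s G 4 = n := by have := hv 4 (by norm_num); omega
    have hP : IsPGroup 2 G := isPGroup_of_primes Nat.prime_two fun p hp hd => by
      by_contra hp2
      have h1 := hp.two_le
      have hc : Nat.Coprime p 4 := ((Nat.coprime_primes hp Nat.prime_two).mpr hp2).pow_right 2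
      have L1 := LZ1 hp hd
      have L3 := LZ hp hd 4 ((Nat.Prime.coprime_iff_not_dvd hp).mp hc) h4d
      rw [(hv p (by omega)).resolve_left (s_prime_ne_zero hp hd)] at L1
      have t : 4 ∣ s G (p * 4) := by
        refine Dvd.dvd.trans ?_ (totient_dvd _)
        rw [Nat.totient_mul hc]
        exact mul_dvd_mul (Nat.totient_even (by omega)).two_dvd (by decide : 2 ∣ Nat.totient 4)
      have e : s G (p * 4) = 0 := by have := hv (p * 4) (by omega); omega
      rw [h4, e] at L3
      exact nd hp hp2 (L1.sub L3) (by push_cast; omega)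
    have h8 : s G 8 = 0 := by
      have t : 4 ∣ s G 8 := totient_dvd 8
      have := hv 8 (by norm_num); omega
    rcases CfsgLib.Frob.cyclic_or_quaternion_of_forall_mem_zpowers hP (fun x y hx hy => by
      rw [(hz1 x).mp hx, (hz1 y).mp hy]; exact Subgroup.mem_zpowers z) with hc | ⟨-, k, hk, ⟨e⟩⟩
    · refine Or.inr (Or.inr (Or.inl ⟨hc, ?_⟩))
      obtain ⟨g, hg⟩ := IsCyclic.exists_ofOrder_eq_natCard (α := G)
      obtain ⟨k, hk⟩ := IsPGroup.iff_card.mp hP
      have h1 : ¬ 8 ∣ Nat.card G := fun h1 =>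
        s_ne_zero_of_dvd (s_ne_zero_iff.mpr ⟨g, hg⟩) h1 h8
      rw [hk] at h1 h4d ⊢
      have h5 : k < 3 := by
        by_contra h5
        exact h1 ((pow_dvd_pow 2 (by omega) : 2 ^ 3 ∣ 2 ^ k))
      interval_cases k <;> simp_all
    · refine Or.inr (Or.inl ?_)
      have h1 : k = 1 := by
        by_contra h1
        refine s_ne_zero_of_dvd (s_ne_zero_iff.mpr ⟨e.symm (QuaternionGroup.a 1), ?_⟩)
          (show 8 ∣ 2 * 2 ^ k from ?_) h8
        · rw [MulEquiv.orderOf_eq, QuaternionGroup.orderOf_a_one]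
        · rw [← pow_succ']; exact (pow_dvd_pow 2 (by omega) : 2 ^ 3 ∣ 2 ^ (k + 1))
      subst h1
      exact ⟨e⟩
  refine Or.inr (Or.inr (Or.inr ?_))
  have hex : ∃ p : ℕ, p.Prime ∧ p ≠ 2 ∧ p ∣ Nat.card G := by
    by_contra hex
    push Not at hex
    have hP : IsPGroup 2 G := isPGroup_of_primes Nat.prime_two fun p hp hd => by
      by_contra hp2; exact hex p hp hp2 hd
    obtain ⟨k, hk⟩ := IsPGroup.iff_orderOf.mp hP g₀
    have h5 : k < 2 := by
      by_contra h5
      exact h4d ((pow_dvd_pow 2 (by omega) : 2 ^ 2 ∣ 2 ^ k).trans (hk ▸ orderOf_dvd_natCard g₀))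
    rw [hk] at hg₀ hg1
    interval_cases k
    · simp at hg1
    · exact hn (hg₀.symm.trans h21)
  obtain ⟨p, hp, hp2, hpd⟩ := hex
  haveI := Fact.mk hp
  obtain ⟨P⟩ := (inferInstance : Nonempty (Sylow p G))
  have hPi : (P : Subgroup G).index = 2 := by
    have h1 : (P : Subgroup G).index ∣ Nat.card G := Subgroup.index_dvd_card _
    have h2 : (P : Subgroup G).index = 2 ^ _ :=
      Nat.eq_prime_pow_of_unique_prime_dvd (Subgroup.index_ne_zero_of_finite) (p := 2)
        (fun {r} hr hd => by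
          by_contra hr2
          have := odd_unique hv hr hp hr2 hp2 (hd.trans h1) hpd
          exact P.not_dvd_index (this ▸ hd))
    generalize (P : Subgroup G).index.primeFactorsList.length = k at h2
    have h5 : k < 2 := by
      by_contra h5
      exact h4d ((pow_dvd_pow 2 (by omega) : 2 ^ 2 ∣ 2 ^ k).trans (h2 ▸ h1))
    interval_cases k
    · obtain ⟨j, hj⟩ := IsPGroup.iff_card.mp P.isPGroup'
      rw [← (P : Subgroup G).card_mul_index, h2, hj, pow_zero, mul_one] at h2d
      exact absurd ((Nat.prime_dvd_prime_iff_eq Nat.prime_two hp).mp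
        (Nat.prime_two.dvd_of_dvd_pow h2d)).symm hp2
    · simpa using h2
  have hcomm : ∀ g : G, Commute z g := fun g => by
    have : orderOf (g * z * g⁻¹) = 2 := by
      rw [← hz2]; exact (MulAut.conj g).orderOf_eq z
    exact (mul_inv_eq_iff_eq_mul.mp ((hz1 _).mp this)).symm
  have hzP : z ∉ (P : Subgroup G) := fun hz => by
    obtain ⟨k, hk⟩ := CfsgLib.Count.exists_orderOf_eq_of_mem P.isPGroup' hz
    rw [hz2] at hk
    exact hp2 ((Nat.prime_dvd_prime_iff_eq Nat.prime_two hp).mp
        (Nat.prime_two.dvd_of_dvd_pow (dvd_of_eq hk))).symm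
  haveI : IsCyclic (Subgroup.zpowers z) := inferInstance
  have e1 : Multiplicative (ZMod 2) ≃* Subgroup.zpowers z :=
    (mulEquivOfCyclicCardEq (by rw [Nat.card_zpowers, hz2]; simp))
  let f : Subgroup.zpowers z × (P : Subgroup G) →* G :=
    MonoidHom.noncommCoprod (Subgroup.subtype _) (Subgroup.subtype _) (fun a b => by
      obtain ⟨_, k, rfl⟩ := a
      exact (hcomm b).zpow_left k)
  have hf : Function.Injective f := by
    rw [injective_iff_map_eq_one]
    rintro ⟨⟨a, ha⟩, ⟨b, hb⟩⟩ hab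
    have h1 : a * b = 1 := hab
    have h2 : a = 1 := by
      have h3 : a ∈ (P : Subgroup G) := by
        rw [eq_inv_of_mul_eq_one_left h1]; exact Subgroup.inv_mem _ hb
      by_contra h5
      haveI : Fact (Nat.Prime 2) := ⟨Nat.prime_two⟩
      have h6 : a ^ 2 = 1 := by
        have := Subgroup.orderOf_dvd_natCard _ ha
        rw [Nat.card_zpowers, hz2] at this
        exact orderOf_dvd_iff_pow_eq_one.mp this
      exact hzP ((hz1 a).mp (orderOf_eq_prime h6 h5) ▸ h3)
    subst h2
    rw [one_mul] at h1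
    subst h1
    rfl
  have hfb : Function.Bijective f := hf.bijective_of_nat_card_le (by
    rw [Nat.card_prod, Nat.card_zpowers, hz2, ← (P : Subgroup G).card_mul_index, hPi, mul_comm])
  have e2 : Shrink.{0} (P : Subgroup G) ≃* (P : Subgroup G) := Shrink.mulEquiv
  refine ⟨p, Shrink.{0} (P : Subgroup G), inferInstance, Finite.of_equiv _ e2.symm.toEquiv, hp, hp2,
    P.isPGroup'.of_equiv e2.symm, ?_, ⟨((e1.prodCongr e2).trans (MulEquiv.ofBijective f hfb)).symm⟩⟩
  rw [Monoid.exponent_eq_of_mulEquiv e2]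
  exact exp_of hp (sq_zero hv hp hp2 hpd) _ P.isPGroup' (P.ne_bot_of_dvd_card hpd)

end Cfsg.Agent.S3995
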