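import Cfsg.Statements.S3996
import Cfsg.Agent.Lib.Nse.Basic
import Cfsg.Agent.Lib.FT.OddOrder
import Cfsg.Agent.Lib.Transfer.Frobenius
import Cfsg.Agent.Lib.Char.Burnside

set_option autoImplicit false
open Cfsg

namespace Cfsg.Agent.S3996

theorem solv_not_four {G : Type*} [Group G] [Finite G] (h : ¬ 4 ∣ Nat.card G) :
    Group.IsSolvable G := by
  obtain ⟨P⟩ := (inferInstance : Nonempty (Sylow 2 G))
  obtain ⟨n, hn⟩ := IsPGroup.iff_card.mp P.isPGroup'
  have hn1 : n ≤ 1 := by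
    by_contra h1
    refine h (Dvd.dvd.trans ?_ (P : Subgroup G).card_subgroup_dvd_card)
    rw [hn]; exact (by norm_num : (4 : ℕ) = 2 ^ 2) ▸ pow_dvd_pow 2 (by omega)
  have hc : HasNormalPComplement 2 G := by
    refine CfsgLib.Transfer.hasNormalPComplement_of_not_dvd_pow_sub_one P hn ?_
    intro q hq _ i h1 h2 h3
    have : i = 1 := by omega
    subst this
    exact hq.ne_one (Nat.dvd_one.mp (by simpa using h3))
  obtain ⟨P, N, hN, hc⟩ := hc
  refine (Group.isSolvable_iff_subgroup_quotient N).mpr ⟨CfsgLib.FT.odd_order_solvable ?_, ?_⟩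
  · rw [← hc.index_eq_card, ← Nat.not_even_iff_odd, even_iff_two_dvd]
    exact P.not_dvd_index
  · obtain ⟨n, hn⟩ := IsPGroup.iff_card.mp P.isPGroup'
    have : IsPGroup 2 (G ⧸ N) := IsPGroup.of_card (n := n) (by
      rw [← hn, ← hc.symm.index_eq_card]; rfl)
    haveI := this.isNilpotent
    infer_instance

theorem two_odd_primes {G : Type*} [Group G] [Finite G] (h : ¬ Group.IsSolvable G) :
    ∃ p q : ℕ, p.Prime ∧ q.Prime ∧ p ≠ q ∧ p ≠ 2 ∧ q ≠ 2 ∧ p ∣ Nat.card G ∧ q ∣ Nat.card G := by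
  by_contra hn
  push Not at hn
  by_cases h1 : ∃ p : ℕ, p.Prime ∧ p ≠ 2 ∧ p ∣ Nat.card G
  · obtain ⟨p, hp, hp2, hpd⟩ := h1
    refine h (CfsgLib.Char.isSolvable_of_prime_dvd_card Nat.prime_two hp fun r hr hd => ?_)
    by_contra h3
    push Not at h3
    exact hn p r hp hr (Ne.symm h3.2) hp2 h3.1 hpd hd
  · push Not at h1
    refine h (CfsgLib.Char.isSolvable_of_prime_dvd_card Nat.prime_two Nat.prime_two
      fun r hr hd => ?_)
    by_contra h3
    push Not at h3
    exact h1 r hr h3.1 hd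

theorem not_dvd_small {p : ℕ} (hp : p.Prime) (h2 : p ≠ 2) {x : ℤ} (hx : x = 1 ∨ x = 2 ∨ x = -1 ∨ x = -2) :
    ¬ (p : ℤ) ∣ x := by
  intro h
  have h3 : p ∣ x.natAbs := Int.natCast_dvd.mp h
  have h4 : x.natAbs = 1 ∨ x.natAbs = 2 := by omega
  rcases h4 with h4 | h4 <;> rw [h4] at h3
  · exact hp.one_lt.ne' (Nat.dvd_one.mp h3)
  · exact h2 ((Nat.prime_dvd_prime_iff_eq hp Nat.prime_two).mp h3)

open CfsgLib.Nse in
theorem L_4p {G : Type*} [Group G] [Finite G] (h : s G 2 = 1) (h4 : 4 ∣ Nat.card G) {p : ℕ}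
    (hp : p.Prime) (h2 : p ≠ 2) (hd : p ∣ Nat.card G) : p ∣ s G 4 + s G (4 * p) := by
  have hodd := hp.odd_of_ne_two h2
  have hc : Nat.Coprime 4 p := Nat.Coprime.pow_left 2 ((Nat.coprime_two_left).mpr hodd)
  have h5 := frob (hc.mul_dvd_of_dvd_of_dvd h4 hd)
  rw [sum_divisors_coprime hc, sum_divisors_four] at h5
  simp only [sum_divisors_prime hp, one_mul, mul_one, s_one, h, s_two_mul h hodd] at h5
  have h6 := (Dvd.intro_left _ rfl).trans h5
  have h7 := L_p hp hd
  have : 1 + s G p + (1 + s G p) + (s G 4 + s G (4 * p)) = 2 * (1 + s G p) + (s G 4 + s G (4 * p)) := by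
    ring
  rw [this] at h6
  exact (Nat.dvd_add_right (h7.mul_left 2)).mp h6

open CfsgLib.Nse in
theorem L_4pq {G : Type*} [Group G] [Finite G] (h : s G 2 = 1) (h4 : 4 ∣ Nat.card G) {p q : ℕ}
    (hp : p.Prime) (h2 : p ≠ 2) (hd : p ∣ Nat.card G) (hq : q.Prime) (hq2 : q ≠ 2)
    (hqd : q ∣ Nat.card G) (hne : p ≠ q) : p ∣ s G (4 * q) + s G (4 * (p * q)) := by
  have hodd := hp.odd_of_ne_two h2
  have hoq := hq.odd_of_ne_two hq2
  have hpq : p.Coprime q := (Nat.coprime_primes hp hq).mpr hne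
  have hc : Nat.Coprime 4 (p * q) :=
    Nat.Coprime.pow_left 2 ((Nat.coprime_two_left).mpr (hodd.mul hoq))
  have h5 := frob (hc.mul_dvd_of_dvd_of_dvd h4 (hpq.mul_dvd_of_dvd_of_dvd hd hqd))
  rw [sum_divisors_coprime hc, sum_divisors_four] at h5
  simp only [sum_divisors_coprime hpq, sum_divisors_prime hp, sum_divisors_prime hq, one_mul,
    mul_one, s_one, h, s_two_mul h hodd, s_two_mul h hoq, s_two_mul h (hodd.mul hoq)] at h5
  have h6 : p ∣ _ := (Dvd.intro (4 * q) (by ring)).trans h5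
  have h7 := L_p hp hd
  have h8 := L_pq' hp hq hne hd hqd
  have h9 := L_4p h h4 hp h2 hd
  have : 1 + s G q + (s G p + s G (p * q)) + (1 + s G q + (s G p + s G (p * q))) +
      (s G 4 + s G (4 * q) + (s G (4 * p) + s G (4 * (p * q)))) =
      (2 * (1 + s G p) + 2 * (s G q + s G (p * q)) + (s G 4 + s G (4 * p))) +
        (s G (4 * q) + s G (4 * (p * q))) := by ring
  rw [this] at h6
  exact (Nat.dvd_add_right (((h7.mul_left 2).add (h8.mul_left 2)).add h9)).mp h6

theorem four_dvd_tot {p q : ℕ} (hp : p.Prime) (h2 : p ≠ 2) (hq : q.Prime) (hq2 : q ≠ 2)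
    (hne : p ≠ q) : 4 ∣ (p * q).totient := by
  rw [Nat.totient_mul ((Nat.coprime_primes hp hq).mpr hne)]
  have h1 := Nat.totient_even (n := p) (by have := hp.two_le; omega)
  have h3 := Nat.totient_even (n := q) (by have := hq.two_le; omega)
  exact mul_dvd_mul h1.two_dvd h3.two_dvd

theorem four_dvd_tot4 {m : ℕ} (hm : Odd m) (h2 : 2 < m) : 4 ∣ (4 * m).totient := by
  rw [Nat.totient_mul (Nat.Coprime.pow_left 2 ((Nat.coprime_two_left).mpr hm))]
  exact mul_dvd_mul (by decide : 2 ∣ Nat.totient 4) (Nat.totient_even h2).two_dvd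


/-- A finite group in which the numbers of elements of each order that occurs (the numbers #{g : o(g) = m}, m ranging over the element orders) take exactly three different values is solvable. -/
theorem result {G : Type*} [Group G] [Finite G] (h : (((fun m : ℕ => Nat.card {g : G // orderOf g = m}) '' Set.range (orderOf : G → ℕ))).ncard = 3) : Group.IsSolvable G := by
  change (CfsgLib.Nse.vals G).ncard = 3 at h
  by_contra hns
  have h4 : 4 ∣ Nat.card G := by
    by_contra h4; exact hns (solv_not_four h4)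
  obtain ⟨p, q, hp, hq, hne, hp2, hq2, hpd, hqd⟩ := two_odd_primes hns
  have h2d : 2 ∣ Nat.card G := Dvd.dvd.trans (by norm_num) h4
  have hs2 := CfsgLib.Nse.L_p Nat.prime_two h2d
  have hp3 : 2 < p := by have := hp.two_le; omega
  have hq3 : 2 < q := by have := hq.two_le; omega
  have hep := (CfsgLib.Nse.even_s (G := G) hp3).two_dvd
  have heq := (CfsgLib.Nse.even_s (G := G) hq3).two_dvd
  have hpq4 := (four_dvd_tot hp hp2 hq hq2 hne).trans (CfsgLib.Nse.totient_dvd (G := G) _)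
  have hp0 := CfsgLib.Nse.s_prime_ne_zero hp hpd
  have hq0 := CfsgLib.Nse.s_prime_ne_zero hq hqd
  have Lp := Int.natCast_dvd_natCast.mpr (CfsgLib.Nse.L_p hp hpd)
  have Lq := Int.natCast_dvd_natCast.mpr (CfsgLib.Nse.L_p hq hqd)
  have Lpq := Int.natCast_dvd_natCast.mpr (CfsgLib.Nse.L_pq' hp hq hne hpd hqd)
  have Lqp := Int.natCast_dvd_natCast.mpr (CfsgLib.Nse.L_pq' hq hp hne.symm hqd hpd)
  rw [mul_comm q p] at Lqp
  push_cast at Lp Lq Lpq Lqp
  by_cases h21 : CfsgLib.Nse.s G 2 = 1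
  · have L4 := CfsgLib.Nse.frob h4
    rw [CfsgLib.Nse.sum_divisors_four, CfsgLib.Nse.s_one, h21] at L4
    obtain ⟨b, hb1, hba, -, hv⟩ := CfsgLib.Nse.exists_third h
      (CfsgLib.Nse.s_mem_vals (m := 4) (by omega)) (by omega)
    have L4p := Int.natCast_dvd_natCast.mpr (L_4p h21 h4 hp hp2 hpd)
    have L4q := Int.natCast_dvd_natCast.mpr (L_4p h21 h4 hq hq2 hqd)
    have L4pq := Int.natCast_dvd_natCast.mpr (L_4pq h21 h4 hp hp2 hpd hq hq2 hqd hne)
    push_cast at L4p L4q L4pq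
    have hop := hp.odd_of_ne_two hp2
    have hoq := hq.odd_of_ne_two hq2
    have t4p := (four_dvd_tot4 hop hp3).trans (CfsgLib.Nse.totient_dvd (G := G) _)
    have t4q := (four_dvd_tot4 hoq hq3).trans (CfsgLib.Nse.totient_dvd (G := G) _)
    have t4pq := (four_dvd_tot4 (hop.mul hoq) (by nlinarith)).trans
      (CfsgLib.Nse.totient_dvd (G := G) _)
    have e4p : CfsgLib.Nse.s G (4 * p) = 0 ∨ CfsgLib.Nse.s G (4 * p) = b := by
      have := hv (4 * p); omega
    have e4q : CfsgLib.Nse.s G (4 * q) = 0 ∨ CfsgLib.Nse.s G (4 * q) = b := by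
      have := hv (4 * q); omega
    have e4pq : CfsgLib.Nse.s G (4 * (p * q)) = 0 ∨ CfsgLib.Nse.s G (4 * (p * q)) = b := by
      have := hv (4 * (p * q)); omega
    have epq : CfsgLib.Nse.s G (p * q) = 0 ∨ CfsgLib.Nse.s G (p * q) = b := by
      have := hv (p * q); omega
    have ep : CfsgLib.Nse.s G p = CfsgLib.Nse.s G 4 ∨ CfsgLib.Nse.s G p = b := by
      have := hv p; omega
    have eq' : CfsgLib.Nse.s G q = CfsgLib.Nse.s G 4 ∨ CfsgLib.Nse.s G q = b := by
      have := hv q; omega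
    generalize CfsgLib.Nse.s G 4 = a at *
    -- type A gives `b ≡ 1`
    have A : ∀ (r : ℕ) (x y : ℕ), r.Prime → r ≠ 2 → (r : ℤ) ∣ 1 + x → x = a → (r : ℤ) ∣ a + y →
        (y = 0 ∨ y = b) → y = b ∧ (r : ℤ) ∣ b - 1 := by
      intro r x y hr hr2 h1 h2 h3 h5
      subst h2
      rcases h5 with rfl | rfl
      · exact absurd (h1.sub h3) (not_dvd_small hr hr2 (by simp))
      · exact ⟨rfl, by have := h3.sub h1; rwa [show (x : ℤ) + y - (1 + x) = y - 1 by ring] at this⟩
    have B : ∀ (r : ℕ) (y : ℕ), r.Prime → r ≠ 2 → ((r : ℤ) ∣ b - 1 ∨ (r : ℤ) ∣ 1 + b) →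
        (r : ℤ) ∣ b + y → (y = 0 ∨ y = b) → False := by
      intro r y hr hr2 h1 h3 h5
      rcases h5 with rfl | rfl <;> rcases h1 with h1 | h1
      · exact not_dvd_small hr hr2 (by push_cast; omega) (h3.sub h1)
      · exact not_dvd_small hr hr2 (by push_cast; omega) (h1.sub h3)
      · exact not_dvd_small hr hr2 (by push_cast; omega) (h3.sub (h1.mul_left 2))
      · exact not_dvd_small hr hr2 (by push_cast; omega) ((h1.mul_left 2).sub h3)
    rcases ep with ep | ep <;> rcases eq' with eq' | eq'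
    · obtain ⟨-, h1⟩ := A p _ _ hp hp2 Lp ep L4p e4p
      obtain ⟨h2, -⟩ := A q _ _ hq hq2 Lq eq' L4q e4q
      rw [h2] at L4pq
      exact B p _ hp hp2 (Or.inl h1) L4pq e4pq
    · obtain ⟨-, h1⟩ := A p _ _ hp hp2 Lp ep L4p e4p
      rw [eq'] at Lpq
      exact B p _ hp hp2 (Or.inl h1) Lpq epq
    · obtain ⟨-, h1⟩ := A q _ _ hq hq2 Lq eq' L4q e4q
      rw [ep] at Lqp
      exact B q _ hq hq2 (Or.inl h1) Lqp epq
    · rw [ep] at Lp
      rw [eq'] at Lpq
      exact B p _ hp hp2 (Or.inr Lp) Lpq epq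
  · obtain ⟨b, hb1, hba, -, hv⟩ := CfsgLib.Nse.exists_third h
      (CfsgLib.Nse.s_mem_vals (m := 2) (by omega)) h21
    have ep : CfsgLib.Nse.s G p = b := by have := hv p; omega
    have eq' : CfsgLib.Nse.s G q = b := by have := hv q; omega
    have epq : CfsgLib.Nse.s G (p * q) = 0 ∨ CfsgLib.Nse.s G (p * q) = b := by
      have := hv (p * q); omega
    rw [ep] at Lp
    rw [eq'] at Lpq
    rcases epq with e | e <;> rw [e] at Lpq
    · exact not_dvd_small hp hp2 (by push_cast; omega) (Lp.sub Lpq)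
    · exact not_dvd_small hp hp2 (by push_cast; omega) ((Lp.mul_left 2).sub Lpq)

end Cfsg.Agent.S3996
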