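import Cfsg.Statements.S3997
import Cfsg.Agent.Lib.Count.Basic

set_option autoImplicit false
open Cfsg

namespace Cfsg.Agent.S3997


/-- Let G and H be finite groups with the same order type: for every m they have the same number of elements of order m. If G is nilpotent then so is H. -/
theorem result {G H : Type*} [Group G] [Finite G] [Group H] [Finite H] (hT : (∀ m : ℕ, Nat.card {g : G // orderOf g = m} = Nat.card {h : H // orderOf h = m})) (hG : Group.IsNilpotent G) :
    Group.IsNilpotent H := by
  obtain ⟨e, he⟩ := CfsgLib.Count.exists_equiv_orderOf hT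
  have hcard : Nat.card G = Nat.card H := Nat.card_congr e
  apply ((Group.isNilpotent_of_finite_tfae (G := H)).out 0 3).mpr
  intro p hp P
  let Q : Sylow p G := default
  have hQ : (Q : Subgroup G).Normal := inferInstance
  let S : Set H := {h | ∃ k, orderOf h = p ^ k}
  have h1 : ((P : Subgroup H) : Set H) ⊆ S := fun h hh =>
    CfsgLib.Count.exists_orderOf_eq_of_mem P.isPGroup' hh
  have h2 : S ⊆ e '' ((Q : Subgroup G) : Set G) := by
    rintro h ⟨k, hk⟩
    refine ⟨e.symm h, ?_, by simp⟩
    apply CfsgLib.Count.mem_sylow_of_normal Q (k := k)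
    rw [← he, Equiv.apply_symm_apply, hk]
  have h3 : S.ncard ≤ ((P : Subgroup H) : Set H).ncard := by
    calc S.ncard ≤ (e '' ((Q : Subgroup G) : Set G)).ncard := Set.ncard_le_ncard h2
      _ = ((Q : Subgroup G) : Set G).ncard := Set.ncard_image_of_injective _ e.injective
      _ = Nat.card (Q : Subgroup G) := rfl
      _ = Nat.card (P : Subgroup H) := by
        rw [Q.card_eq_multiplicity, P.card_eq_multiplicity, hcard]
      _ = _ := rfl
  have h4 : ((P : Subgroup H) : Set H) = S := Set.eq_of_subset_of_ncard_le h1 h3
  constructor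
  intro n hn g
  have : g * n * g⁻¹ ∈ S := by
    obtain ⟨k, hk⟩ := h1 hn
    refine ⟨k, ?_⟩
    rw [← hk]
    exact (MulAut.conj g).orderOf_eq n
  rw [← h4] at this
  exact this

end Cfsg.Agent.S3997
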