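import Cfsg.Statements.S3998
import Cfsg.Agent.Lib.SolvStruct.Supersolvable2
import Cfsg.Agent.Lib.Core.Basic

set_option autoImplicit false
open Cfsg

namespace Cfsg.Agent.S3998

universe u

/-- `N` is a Hall subgroup for the primes above `b`. -/
def Hi {X : Type*} [Group X] (b : ℕ) (N : Subgroup X) : Prop :=
  (∀ p : ℕ, p.Prime → p ∣ Nat.card N → b < p) ∧ (∀ p : ℕ, p.Prime → p ∣ N.index → p ≤ b)

theorem coprime_of {b m n : ℕ} (h1 : ∀ p : ℕ, p.Prime → p ∣ m → b < p)
    (h2 : ∀ p : ℕ, p.Prime → p ∣ n → p ≤ b) : m.Coprime n := by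
  apply Nat.coprime_of_dvd
  intro p hp hm hn
  exact absurd (h2 p hp hn) (not_le.2 (h1 p hp hm))

theorem tower (b n : ℕ) : ∀ (G : Type u) [Group G] [Finite G], Nat.card G = n →
    Cfsg.IsSupersolvable G → ∃ N : Subgroup G, N.Normal ∧ Hi b N := by
  induction n using Nat.strong_induction_on with
  | _ n ih =>
  intro G _ _ hn hG
  by_cases h : ∀ p : ℕ, p.Prime → p ∣ Nat.card G → p ≤ b
  · refine ⟨⊥, inferInstance, ?_, ?_⟩
    · intro p hp hd
      rw [Subgroup.card_bot] at hd
      exact absurd (Nat.dvd_one.1 hd) hp.ne_one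
    · simpa using h
  push Not at h
  obtain ⟨q, hq, hqd, hbq⟩ := h
  have hne : (Nat.card G).primeFactors.Nonempty :=
    ⟨q, Nat.mem_primeFactors.2 ⟨hq, hqd, Nat.card_pos.ne'⟩⟩
  set p := (Nat.card G).primeFactors.max' hne with hpdef
  have hpm : p ∈ (Nat.card G).primeFactors := Finset.max'_mem _ _
  have hmax : ∀ r : ℕ, r.Prime → r ∣ Nat.card G → r ≤ p := fun r hr hd =>
    Finset.le_max' _ _ (Nat.mem_primeFactors.2 ⟨hr, hd, Nat.card_pos.ne'⟩)
  have hp : p.Prime := Nat.prime_of_mem_primeFactors hpm
  haveI := Fact.mk hp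
  obtain ⟨P⟩ : Nonempty (Sylow p G) := inferInstance
  haveI hPn : (P : Subgroup G).Normal := CfsgLib.SolvStruct.ss_sylow_normal_of_max hG hmax P
  have hP1 : (P : Subgroup G) ≠ ⊥ := P.ne_bot_of_dvd_card (Nat.dvd_of_mem_primeFactors hpm)
  obtain ⟨M, hMn, hM1, hM2⟩ := ih _ (hn ▸ CfsgLib.Core.card_quotient_lt_of_ne_bot hP1)
    (G ⧸ (P : Subgroup G)) rfl (CfsgLib.SolvStruct.ss_quotient hG _)
  refine ⟨M.comap (QuotientGroup.mk' (P : Subgroup G)), inferInstance, ?_, ?_⟩
  · intro r hr hd
    rw [CfsgLib.Core.card_comap_mk'] at hd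
    rcases (Nat.Prime.dvd_mul hr).1 hd with h | h
    · exact hM1 r hr h
    · obtain ⟨k, hk⟩ := P.2.exists_card_eq
      rw [hk] at h
      have := (Nat.prime_dvd_prime_iff_eq hr hp).1 (hr.dvd_of_dvd_pow h)
      rw [this]
      exact lt_of_lt_of_le hbq (hmax q hq hqd)
  · intro r hr hd
    rw [Subgroup.index_comap_of_surjective _ (QuotientGroup.mk'_surjective _)] at hd
    exact hM2 r hr hd

/-- Elements all of whose order's prime divisors lie above `b`. -/
def E (X : Type*) [Group X] (b : ℕ) : Set X := {x | ∀ p : ℕ, p.Prime → p ∣ orderOf x → b < p}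

theorem subset_E {X : Type*} [Group X] [Finite X] {b : ℕ} {N : Subgroup X} (h : Hi b N) :
    (N : Set X) ⊆ E X b := by
  intro x hx p hp hd
  exact h.1 p hp (hd.trans (Subgroup.orderOf_dvd_natCard N hx))

theorem eq_E {X : Type*} [Group X] [Finite X] {b : ℕ} {N : Subgroup X} [N.Normal] (h : Hi b N) :
    (N : Set X) = E X b := by
  apply le_antisymm (subset_E h)
  intro x hx
  exact CfsgLib.Core.mem_of_coprime_orderOf_index (coprime_of hx h.2)

theorem card_eq_of_hi {X Y : Type*} [Group X] [Finite X] [Group Y] [Finite Y]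
    (hc : Nat.card X = Nat.card Y) {b : ℕ} {N : Subgroup X} {M : Subgroup Y} (hN : Hi b N)
    (hM : Hi b M) : Nat.card N = Nat.card M := by
  have e : Nat.card N * N.index = Nat.card M * M.index := by
    rw [N.card_mul_index, M.card_mul_index, hc]
  apply Nat.dvd_antisymm
  · exact (coprime_of hN.1 hM.2).dvd_of_dvd_mul_right (e ▸ Dvd.intro _ rfl)
  · exact (coprime_of hM.1 hN.2).dvd_of_dvd_mul_right (e ▸ Dvd.intro _ rfl)

/-- Let G and H be finite groups with the same order type (for every m the same number of elements of order m). If G is supersolvable then H is solvable. -/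
theorem result {G H : Type*} [Group G] [Finite G] [Group H] [Finite H] (hT : (∀ m : ℕ, Nat.card {g : G // orderOf g = m} = Nat.card {h : H // orderOf h = m})) (hG : Cfsg.IsSupersolvable G) :
    Group.IsSolvable H := by
  classical
  have hf : ∀ m : ℕ, Nonempty ({g : G // orderOf g = m} ≃ {h : H // orderOf h = m}) :=
    fun m => Finite.card_eq.1 (hT m)
  let e : G ≃ H := Equiv.ofFiberEquiv (f := fun g : G => orderOf g) (g := fun h : H => orderOf h)
    fun m => (hf m).some
  have he : ∀ g : G, orderOf (e g) = orderOf g := fun g =>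
    Equiv.ofFiberEquiv_map (f := fun g : G => orderOf g) (g := fun h : H => orderOf h) _ g
  have hc : Nat.card G = Nat.card H := Nat.card_congr e
  have hE : ∀ b, Nat.card (E G b) = Nat.card (E H b) := by
    intro b
    refine Nat.card_congr (e.subtypeEquiv fun g => ?_)
    simp only [E, Set.mem_setOf_eq, he]
  have key : ∀ k b : ℕ, b + k = Nat.card H →
      ∃ N : Subgroup H, N.Normal ∧ Hi b N ∧ Group.IsSolvable N := by
    intro k
    induction k with
    | zero =>
      intro b hb
      refine ⟨⊥, inferInstance, ⟨?_, ?_⟩, inferInstance⟩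
      · intro p hp hd
        rw [Subgroup.card_bot] at hd
        exact absurd (Nat.dvd_one.1 hd) hp.ne_one
      · intro p hp hd
        rw [Subgroup.index_bot] at hd
        have := Nat.le_of_dvd Nat.card_pos hd
        omega
    | succ k ih =>
      intro b hb
      obtain ⟨N, hNn, hN, hNs⟩ := ih (b + 1) (by omega)
      by_cases hp : (b + 1).Prime
      · haveI := Fact.mk hp
        obtain ⟨Q⟩ : Nonempty (Sylow (b + 1) (H ⧸ N)) := inferInstance
        set M : Subgroup H := (Q : Subgroup (H ⧸ N)).comap (QuotientGroup.mk' N) with hMdef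
        have hM : Hi b M := by
          constructor
          · intro r hr hd
            rw [CfsgLib.Core.card_comap_mk'] at hd
            rcases (Nat.Prime.dvd_mul hr).1 hd with h | h
            · obtain ⟨j, hj⟩ := Q.2.exists_card_eq
              rw [hj] at h
              have := (Nat.prime_dvd_prime_iff_eq hr hp).1 (hr.dvd_of_dvd_pow h)
              omega
            · have := hN.1 r hr h
              omega
          · intro r hr hd
            rw [Subgroup.index_comap_of_surjective _ (QuotientGroup.mk'_surjective _)] at hd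
            have h1 := hN.2 r hr (hd.trans (Subgroup.index_dvd_card _))
            have h2 : r ≠ b + 1 := by
              rintro rfl
              exact Q.not_dvd_index hd
            omega
        obtain ⟨N0, hN0n, hN0⟩ := tower b _ G rfl hG
        have hcard : Nat.card M = Nat.card (E H b) := by
          rw [← hE, ← eq_E hN0]
          exact (card_eq_of_hi hc hN0 hM).symm
        have hME : (M : Set H) = E H b :=
          Set.eq_of_subset_of_ncard_le (subset_E hM) (le_of_eq (by
            rw [← Nat.card_coe_set_eq, ← Nat.card_coe_set_eq]; exact hcard.symm))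
        refine ⟨M, ⟨fun x hx g => ?_⟩, hM, ?_⟩
        · have hx' : x ∈ E H b := hME ▸ hx
          have : g * x * g⁻¹ ∈ E H b := by
            intro r hr hd
            apply hx' r hr
            rwa [← MulAut.conj_apply, MulEquiv.orderOf_eq] at hd
          rw [← hME] at this
          exact this
        · haveI : Group.IsNilpotent (Q : Subgroup (H ⧸ N)) := Q.2.isNilpotent
          have hle : N ≤ M := by
            intro x hx
            rw [hMdef, Subgroup.mem_comap, QuotientGroup.mk'_apply, (QuotientGroup.eq_one_iff x).2 hx]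
            exact one_mem _
          refine Group.isSolvable_of_ker_le_range (Subgroup.inclusion hle)
            ((QuotientGroup.mk' N).subgroupComap (Q : Subgroup (H ⧸ N))) ?_
          rintro ⟨x, hx⟩ hk
          have : x ∈ N := by
            rw [← QuotientGroup.eq_one_iff]
            exact congrArg Subtype.val hk
          exact ⟨⟨x, this⟩, rfl⟩
      · refine ⟨N, hNn, ⟨fun r hr hd => ?_, fun r hr hd => ?_⟩, hNs⟩
        · have := hN.1 r hr hd
          omega
        · have h1 := hN.2 r hr hd
          have h2 : r ≠ b + 1 := fun h => hp (h ▸ hr)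
          omega
  obtain ⟨N, -, hN, hNs⟩ := key (Nat.card H) 0 (zero_add _)
  have h1 : N.index = 1 := by
    by_contra h
    obtain ⟨r, hr, hd⟩ := Nat.exists_prime_and_dvd h
    have := hN.2 r hr hd
    have := hr.pos
    omega
  rw [Subgroup.index_eq_one] at h1
  subst h1
  exact Group.isSolvable_of_surjective (f := (⊤ : Subgroup H).subtype) fun x => ⟨⟨x, trivial⟩, rfl⟩

end Cfsg.Agent.S3998
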