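import Cfsg.Statements.S3999
import Cfsg.Agent.Lib.Frob.OrderType
import Cfsg.Agent.S3359

set_option autoImplicit false
open Cfsg

namespace Cfsg.Agent.S3999

/-- Let F be a finite Frobenius group (it has a Frobenius complement) and G a finite group with the same order type as F (for every m the same number of elements of order m). Then G is a Frobenius group; moreover G is solvable if and only if F is. -/
theorem result {F G : Type*} [Group F] [Finite F] [Group G] [Finite G] (hF : (∃ C : Subgroup F, Cfsg.IsFrobeniusComplement C)) (hT : (∀ m : ℕ, Nat.card {g : F // orderOf g = m} = Nat.card {h : G // orderOf h = m})) :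
    (∃ C : Subgroup G, Cfsg.IsFrobeniusComplement C) ∧ (Group.IsSolvable G ↔ Group.IsSolvable F) := by
  exact CfsgLib.Frob.frob_orderType (fun _ _ _ h1 h2 => Cfsg.Agent.S3359.result h1 h2)
    (fun _ _ _ h1 h2 => Cfsg.Agent.S3359.result h1 h2) hF hT

end Cfsg.Agent.S3999
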