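import Cfsg.Statements.S4001
import Cfsg.Agent.Lib.Frob.Thompson
import Cfsg.Agent.Lib.Frob.Complement
import Cfsg.Agent.Lib.Frob.Semidirect
import Cfsg.Agent.Lib.Core.Fitting
import Cfsg.Agent.Lib.Coprime.SchurZassenhaus

set_option autoImplicit false
open Cfsg

namespace Cfsg.Agent.S4001

theorem exists_orderOf_of_dvd {G : Type*} [Group G] [Finite G] {x : G} {n : ℕ} (h : n ∣ orderOf x) :
    ∃ g : G, orderOf g = n :=
  ⟨x ^ (orderOf x / n), orderOf_pow_orderOf_div (orderOf_pos x).ne' h⟩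

theorem exists_orderOf_of_map {G Q : Type*} [Group G] [Finite G] [Group Q] (f : G →* Q)
    (hf : Function.Surjective f) {n : ℕ} (h : ∃ y : Q, orderOf y = n) : ∃ g : G, orderOf g = n := by
  obtain ⟨y, rfl⟩ := h
  obtain ⟨x, rfl⟩ := hf y
  exact exists_orderOf_of_dvd (orderOf_map_dvd f x)

theorem exists_orderOf_cyclic {G : Type*} [Group G] [Finite G] [IsCyclic G] {n : ℕ} (h : n ∣ Nat.card G) :
    ∃ g : G, orderOf g = n := by
  obtain ⟨x, hx⟩ := IsCyclic.exists_ofOrder_eq_natCard (α := G)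
  exact exists_orderOf_of_dvd (hx ▸ h)

theorem mem_of_coprime_index {G : Type*} [Group G] {N : Subgroup G} [N.Normal] {x : G}
    (h : (orderOf x).Coprime N.index) : x ∈ N :=
  CfsgLib.Coprime.le_of_coprime_index (U := Subgroup.zpowers x) (by rwa [Nat.card_zpowers])
    (Subgroup.mem_zpowers x)

theorem mixed {G : Type*} [Group G] [Finite G] (H K : Subgroup G) [H.Normal] [K.Normal]
    [Group.IsNilpotent H] (hlt : H < K)
    (F1 : ∀ h ∈ H, h ≠ 1 → ∀ k ∈ K, h * k = k * h → k ∈ H)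
    (F2 : ∀ k ∈ K, k ∉ H → ∀ g : G, k * g = g * k → g ∈ K)
    (hcop : (H.relIndex K).Coprime (Nat.card H * K.index))
    {p q : ℕ} (hp : p.Prime) (hq : q.Prime) (hpq : p ≠ q) (hpH : p ∣ Nat.card H) (hqK : ¬ q ∣ Nat.card K)
    (hqG : q ∣ K.index) : ∃ g : G, orderOf g = p * q := by
  by_contra hno
  have hb : H.relIndex K ≠ 1 := fun e => hlt.not_ge (Subgroup.relIndex_eq_one.1 e)
  obtain ⟨r, hr, hrb⟩ := Nat.exists_prime_and_dvd hb
  haveI := Fact.mk hr
  haveI := Fact.mk hp
  haveI := Fact.mk hq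
  have hrc := Nat.Coprime.coprime_dvd_left hrb hcop
  have hrH : r.Coprime (Nat.card H) := Nat.Coprime.coprime_mul_right_right hrc
  have hrI : r.Coprime K.index := Nat.Coprime.coprime_mul_left_right hrc
  have hrK : r ∣ Nat.card K := by
    rw [← CfsgLib.Coprime.card_mul_relIndex_of_le hlt.le]; exact hrb.mul_left _
  obtain ⟨R⟩ : Nonempty (Sylow r K) := inferInstance
  set R' : Subgroup G := (R : Subgroup K).map K.subtype with hR'
  have hR'K : R' ≤ K := Subgroup.map_subtype_le _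
  have hR'p : IsPGroup r R' := R.2.map _
  have hFr := Sylow.normalizer_sup_eq_top R
  have hqN : q ∣ Nat.card (Subgroup.normalizer (R' : Set G)) := by
    have h1 := CfsgLib.Coprime.card_sup_dvd_of_le_normalizer (K := K) (A := Subgroup.normalizer (R' : Set G))
      (by rw [K.normalizer_eq_top]; exact le_top)
    rw [sup_comm, hFr, Subgroup.card_top] at h1
    have h2 : q ∣ Nat.card G := hqG.trans K.index_dvd_card
    exact ((Nat.Prime.dvd_mul hq).1 (h2.trans h1)).resolve_left hqK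
  obtain ⟨⟨y, hyN⟩, hy⟩ := exists_prime_orderOf_dvd_card' q hqN
  rw [Subgroup.orderOf_mk] at hy
  have hyK : y ∉ K := fun h => hqK (hy ▸ Subgroup.orderOf_dvd_natCard K h)
  have hR'H : ∀ x ∈ R', x ∈ H → x = 1 := by
    intro x hx hxH
    obtain ⟨k, hk⟩ := hR'p ⟨x, hx⟩
    have h1 : orderOf x ∣ r ^ k := orderOf_dvd_of_pow_eq_one (congrArg Subtype.val hk)
    exact orderOf_eq_one_iff.1 (Nat.eq_one_of_dvd_coprimes (hrH.pow_left k) h1
      (Subgroup.orderOf_dvd_natCard H hxH))
  obtain ⟨P⟩ : Nonempty (Sylow p H) := inferInstance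
  haveI : (P : Subgroup H).Normal := inferInstance
  haveI : (P : Subgroup H).Characteristic := Sylow.characteristic_of_normal P inferInstance
  set V : Subgroup G := (P : Subgroup H).map H.subtype with hV
  haveI hVn : V.Normal := ConjAct.normal_of_characteristic_of_normal
  have hVH : V ≤ H := Subgroup.map_subtype_le _
  have hVp : IsPGroup p V := P.2.map _
  have hV1 : V ≠ ⊥ := by
    intro e
    rw [hV, Subgroup.map_eq_bot_iff_of_injective _ H.subtype_injective] at e
    exact P.ne_bot_of_dvd_card hpH e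
  set A : Subgroup G := R' ⊔ Subgroup.zpowers y with hA
  have hAc : Nat.card A ∣ Nat.card R' * q := by
    have := CfsgLib.Coprime.card_sup_dvd_of_le_normalizer (K := R') (A := Subgroup.zpowers y)
      (Subgroup.zpowers_le.2 hyN)
    rwa [Nat.card_zpowers, hy] at this
  have hfpf : ∀ a ∈ A, a ≠ 1 → V ⊓ Subgroup.centralizer {a} = ⊥ := by
    intro a ha ha1
    rw [CfsgLib.Frob.fpf_iff]
    intro v hv hva
    by_contra hv1
    obtain ⟨s, hs, hsa⟩ := Nat.exists_prime_and_dvd (fun e => ha1 (orderOf_eq_one_iff.1 e))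
    have ha' := orderOf_pow_orderOf_div (orderOf_pos a).ne' hsa
    have hpv : p ∣ orderOf v := by
      obtain ⟨k, hk⟩ := (IsPGroup.iff_orderOf.1 hVp) ⟨v, hv⟩
      rw [Subgroup.orderOf_mk] at hk
      rcases k with _ | k
      · exact absurd (orderOf_eq_one_iff.1 (by simpa using hk)) hv1
      · rw [hk]; exact dvd_pow_self p (Nat.succ_ne_zero k)
    have hv' := orderOf_pow_orderOf_div (orderOf_pos v).ne' hpv
    have hc : Commute (v ^ (orderOf v / p)) (a ^ (orderOf a / s)) := Commute.pow_pow hva _ _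
    have hs2 : s ∣ Nat.card R' * q := (hsa.trans (Subgroup.orderOf_dvd_natCard A ha)).trans hAc
    rcases (Nat.Prime.dvd_mul hs).1 hs2 with h | h
    · obtain ⟨k, hk⟩ := IsPGroup.iff_card.1 hR'p
      have hsr : s = r := (Nat.prime_dvd_prime_iff_eq hs hr).1 (hs.dvd_of_dvd_pow (hk ▸ h))
      have h1 : a ^ (orderOf a / s) ∈ K := mem_of_coprime_index (by rw [ha', hsr]; exact hrI)
      have h2 := F1 _ (hVH (V.pow_mem hv _)) (fun e => by
        rw [e, orderOf_one] at hv'; exact hp.one_lt.ne hv') _ h1 hc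
      have h3 := Subgroup.orderOf_dvd_natCard H h2
      rw [ha', hsr] at h3
      exact hr.one_lt.ne' (Nat.eq_one_of_dvd_coprimes hrH dvd_rfl h3)
    · have hsq : s = q := (Nat.prime_dvd_prime_iff_eq hs hq).1 h
      refine hno ⟨v ^ (orderOf v / p) * a ^ (orderOf a / s), ?_⟩
      rw [hc.orderOf_mul_eq_mul_orderOf_of_coprime, hv', ha', hsq]
      rw [hv', ha', hsq]
      exact (Nat.coprime_primes hp hq).2 hpq
  have hPQ := CfsgLib.Frob.pqCond_subgroup_iff.1 (CfsgLib.Frob.pqCond_of_fpf hV1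
    (by rw [Subgroup.normalizer_eq_top]; exact le_top) hfpf)
  have hR1 : Nontrivial R' := by
    rw [Subgroup.nontrivial_iff_ne_bot]
    intro e
    rw [hR', Subgroup.map_eq_bot_iff_of_injective _ K.subtype_injective] at e
    exact R.ne_bot_of_dvd_card hrK e
  haveI := hR'p.center_nontrivial
  obtain ⟨z, hz⟩ := exists_prime_orderOf_dvd_card' (G := Subgroup.center R') r (by
    obtain ⟨k, hk⟩ := IsPGroup.iff_card.1 (hR'p.to_subgroup (Subgroup.center R'))
    rcases k with _ | k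
    · exact absurd (hk.trans (pow_zero r)) Finite.one_lt_card.ne'
    · rw [hk]; exact dvd_pow_self r (Nat.succ_ne_zero k))
  have hz' : orderOf ((z : R') : G) = r := by rw [Subgroup.orderOf_coe, Subgroup.orderOf_coe, hz]
  have hzR : ((z : R') : G) ∈ R' := (z : R').2
  have hyz : y * ((z : R') : G) * y⁻¹ ∈ R' := (Subgroup.mem_normalizer_iff.1 hyN _).1 hzR
  have hcomm : y * ((z : R') : G) * y⁻¹ * ((z : R') : G) = ((z : R') : G) * (y * ((z : R') : G) * y⁻¹) :=
    congrArg Subtype.val (Subgroup.mem_center_iff.1 z.2 ⟨_, hyz⟩)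
  have hoy : orderOf (y * ((z : R') : G) * y⁻¹) = r := by
    rw [← hz']; exact (MulAut.conj y).orderOf_eq _
  have h1 := (hPQ _ (Subgroup.mem_sup_left hzR) _ (Subgroup.mem_sup_left hyz) (hz' ▸ hr) (hoy ▸ hr)
    (by rw [hcomm, mul_inv_cancel_right]; exact Subgroup.mem_zpowers _)).2 (by rw [hz', hoy])
  have h2 := (hPQ _ (Subgroup.mem_sup_left hzR) _ (Subgroup.mem_sup_right (Subgroup.mem_zpowers y))
    (hz' ▸ hr) (hy ▸ hq) h1).1
  refine hyK (F2 _ (hR'K hzR) (fun h => ?_) y h2.symm)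
  have := hR'H _ hzR h
  rw [this, orderOf_one] at hz'
  exact hr.one_lt.ne hz'

/-- Let G be a 2-Frobenius group: it has normal subgroups H < K with K a Frobenius group with kernel H and G/H a Frobenius group with kernel K/H. Then G is solvable; K/H has odd order coprime to the order of H and to the order of G/K (it is the image of an odd-order Hall subgroup); G/K is cyclic; and the prime graph of G has exactly two connected components, both complete: for distinct primes p, q dividing the order of G, G has an element of order pq exactly when p and q either both divide the order of K/H or both do not. -/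
theorem result {G : Type*} [Group G] [Finite G] (H K : Subgroup G) [H.Normal] [K.Normal] (hlt : H < K)
    (hK : ∃ C : Subgroup ↥K, Cfsg.IsFrobeniusComplement C ∧ Cfsg.frobeniusKernel C = (H.subgroupOf K : Set ↥K))
    (hGH : ∃ C : Subgroup (G ⧸ H), Cfsg.IsFrobeniusComplement C ∧ Cfsg.frobeniusKernel C = (K.map (QuotientGroup.mk' H) : Set (G ⧸ H))) :
    Group.IsSolvable G ∧ Odd (Nat.card (↥K ⧸ H.subgroupOf K)) ∧
      Nat.Coprime (Nat.card (↥K ⧸ H.subgroupOf K)) (Nat.card ↥H * Nat.card (G ⧸ K)) ∧ IsCyclic (G ⧸ K) ∧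
      ∀ p q : ℕ, p.Prime → q.Prime → p ≠ q → p ∣ Nat.card G → q ∣ Nat.card G →
        ((∃ g : G, orderOf g = p * q) ↔ (p ∣ Nat.card (↥K ⧸ H.subgroupOf K) ↔ q ∣ Nat.card (↥K ⧸ H.subgroupOf K))) := by
  obtain ⟨C, hC, hCk⟩ := hK
  obtain ⟨D, hD, hDk⟩ := hGH
  set Kb : Subgroup (G ⧸ H) := K.map (QuotientGroup.mk' H) with hKb
  haveI : Kb.Normal := Subgroup.Normal.map inferInstance _ (QuotientGroup.mk'_surjective H)
  have hmemKb : ∀ g : G, (g : G ⧸ H) ∈ Kb ↔ g ∈ K := by
    intro g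
    have : K = Kb.comap (QuotientGroup.mk' H) := by
      rw [hKb, Subgroup.comap_map_eq, QuotientGroup.ker_mk', sup_eq_left.2 hlt.le]
    rw [this]; rfl
  have hcC := CfsgLib.Frob.isComplement'_of_coe_eq_kernel hC hCk.symm
  have hcD := CfsgLib.Frob.isComplement'_of_coe_eq_kernel hD hDk.symm
  have fC := CfsgLib.Frob.fpf_of_frob hC hcC.disjoint
  have fD := CfsgLib.Frob.fpf_of_frob hD hcD.disjoint
  have F1 : ∀ h ∈ H, h ≠ 1 → ∀ k ∈ K, h * k = k * h → k ∈ H := by
    intro h hh h1 k hk e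
    have := CfsgLib.Frob.mem_kernel_of_commute hC (x := ⟨h, hlt.le hh⟩) (y := ⟨k, hk⟩)
      (by rw [hCk]; exact hh) (fun e => h1 (congrArg Subtype.val e)) (Subtype.ext e)
    rw [hCk] at this
    exact this
  have F2' : ∀ k ∈ Kb, k ≠ 1 → ∀ g : G ⧸ H, k * g = g * k → g ∈ Kb := by
    intro k hk h1 g e
    have := CfsgLib.Frob.mem_kernel_of_commute hD (x := k) (y := g) (by rw [hDk]; exact hk) h1 e
    rw [hDk] at this
    exact this
  have F2 : ∀ k ∈ K, k ∉ H → ∀ g : G, k * g = g * k → g ∈ K := by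
    intro k hk h1 g e
    refine (hmemKb g).1 (F2' k ((hmemKb k).2 hk) (fun e => h1 ((QuotientGroup.eq_one_iff k).1 e)) g ?_)
    rw [← QuotientGroup.mk_mul, e, QuotientGroup.mk_mul]
  have hH1 : H.subgroupOf K ≠ ⊥ := fun e => hC.2.1 (by
    have := hcC.sup_eq_top
    rwa [e, bot_sup_eq] at this)
  have hK1 : Kb ≠ ⊥ := fun e => hD.2.1 (by
    have := hcD.sup_eq_top
    rwa [e, bot_sup_eq] at this)
  haveI nH' : Group.IsNilpotent (H.subgroupOf K) := CfsgLib.Frob.isNilpotent_kernel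
    (by rw [Subgroup.normalizer_eq_top]; exact le_top) hC.1 fC
  haveI nH : Group.IsNilpotent H :=
    Group.nilpotent_of_mulEquiv (Subgroup.subgroupOfEquivOfLe hlt.le)
  haveI nK : Group.IsNilpotent Kb := CfsgLib.Frob.isNilpotent_kernel
    (by rw [Subgroup.normalizer_eq_top]; exact le_top) hD.1 fD
  -- `C ≃ Kb`
  let φ : C →* Kb := ((QuotientGroup.mk' H).comp (K.subtype.comp C.subtype)).codRestrict Kb
    (fun c => (hmemKb _).2 (c : K).2)
  have hφi : Function.Injective φ := by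
    rw [injective_iff_map_eq_one]
    intro c hc
    have h1 : ((c : K) : G) ∈ H := (QuotientGroup.eq_one_iff _).1 (congrArg Subtype.val hc)
    exact Subtype.ext (CfsgLib.Frob.eq_one_of_mem_of_isComplement' hcC h1 c.2)
  have hb1 : Nat.card (↥K ⧸ H.subgroupOf K) = H.relIndex K := rfl
  have hbC : Nat.card C = H.relIndex K := hcC.symm.index_eq_card.symm
  have hbK : Nat.card Kb = H.relIndex K := by
    have e1 := (QuotientGroup.quotientKerEquivRange ((QuotientGroup.mk' H).comp K.subtype)).toEquiv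
    rw [MonoidHom.range_comp, Subgroup.range_subtype, ← MonoidHom.comap_ker, QuotientGroup.ker_mk'] at e1
    exact (Nat.card_congr e1).symm
  have hφ : Function.Bijective φ := (Nat.bijective_iff_injective_and_card φ).2 ⟨hφi, by rw [hbC, hbK]⟩
  let e := MulEquiv.ofBijective φ hφ
  have hPQ : CfsgLib.Frob.PQCond Kb :=
    (CfsgLib.Frob.pqCond_of_frob hC).of_injective e.symm.toMonoidHom e.symm.injective
  have hodd : Odd (H.relIndex K) := by
    by_contra hev
    have h2 : 2 ∣ Nat.card C := by rw [hbC]; exact even_iff_two_dvd.1 (Nat.not_odd_iff_even.1 hev)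
    obtain ⟨s, hs, hs2, hsu, -⟩ := CfsgLib.Frob.exists_unique_involution_of_fpf
      (by rw [Subgroup.normalizer_eq_top]; exact le_top) hH1 fC h2
    have ht : orderOf ((e ⟨s, hs⟩ : Kb) : G ⧸ H) = 2 := by
      rw [Subgroup.orderOf_coe, MulEquiv.orderOf_eq, Subgroup.orderOf_mk, hs2]
    have hu : ∀ u ∈ Kb, orderOf u = 2 → u = ((e ⟨s, hs⟩ : Kb) : G ⧸ H) := by
      intro u hu hu2
      have h3 : orderOf ((e.symm ⟨u, hu⟩ : C) : K) = 2 := by
        rw [Subgroup.orderOf_coe, MulEquiv.orderOf_eq, Subgroup.orderOf_mk, hu2]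
      have h4 : e.symm ⟨u, hu⟩ = ⟨s, hs⟩ := Subtype.ext (hsu _ (e.symm ⟨u, hu⟩).2 h3)
      rw [← h4, MulEquiv.apply_symm_apply]
    apply hD.1
    rw [eq_bot_iff]
    intro d hd
    refine CfsgLib.Frob.eq_one_of_mem_of_isComplement' hcD (F2' _ (e ⟨s, hs⟩).2 (fun e' => ?_) d ?_) hd
    · rw [e', orderOf_one] at ht; exact absurd ht (by norm_num)
    · have := hu (d * (e ⟨s, hs⟩ : Kb) * d⁻¹) (Subgroup.Normal.conj_mem inferInstance _ (e ⟨s, hs⟩).2 d)
        (by rw [← ht]; exact (MulAut.conj d).orderOf_eq _)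
      exact (mul_inv_eq_iff_eq_mul.1 this).symm
  haveI : IsZGroup Kb := hPQ.isZGroup_of_odd (hbK ▸ hodd)
  haveI cK : IsCyclic Kb := inferInstance
  have hDab : IsMulCommutative D := by
    obtain ⟨a, ha⟩ := CfsgLib.Frob.exists_zpowers_eq_of_isCyclic cK
    have ha1 : a ≠ 1 := fun e => hK1 (by rw [← ha, e, Subgroup.zpowers_one_eq_bot])
    have haK : a ∈ Kb := ha ▸ Subgroup.mem_zpowers a
    haveI : (Subgroup.zpowers a).Normal := ha ▸ inferInstance
    refine ⟨⟨fun x y => Subtype.ext ?_⟩⟩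
    have h1 := CfsgLib.Frob.commutator_mem_of_centralizer_le (a := a) (by
      intro g hg
      rw [ha]
      exact F2' a haK ha1 g (Subgroup.mem_centralizer_singleton_iff.1 hg).symm) (x : G ⧸ H) y
    rw [ha] at h1
    have h2 := CfsgLib.Frob.eq_one_of_mem_of_isComplement' hcD h1 (by
      rw [commutatorElement_def]
      exact D.mul_mem (D.mul_mem (D.mul_mem x.2 y.2) (D.inv_mem x.2)) (D.inv_mem y.2))
    exact commutatorElement_eq_one_iff_mul_comm.1 h2
  haveI cD : IsCyclic D := (CfsgLib.Frob.pqCond_of_frob hD).isCyclic_of_comm hDab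
  let ψ : G ⧸ H →* G ⧸ K := QuotientGroup.map H K (MonoidHom.id G) hlt.le
  have hψ : Function.Surjective (ψ.comp D.subtype) := by
    intro y
    obtain ⟨g, rfl⟩ := QuotientGroup.mk_surjective y
    obtain ⟨k, hk, d, hd, e⟩ := CfsgLib.Frob.exists_mul_eq_of_isComplement' hcD (g : G ⧸ H)
    obtain ⟨k, rfl⟩ := QuotientGroup.mk_surjective k
    refine ⟨⟨d, hd⟩, ?_⟩
    have h1 : ψ (k : G ⧸ H) = 1 := (QuotientGroup.eq_one_iff k).2 ((hmemKb k).1 hk)
    have h2 := congrArg ψ e
    rw [map_mul, h1, one_mul] at h2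
    exact h2
  haveI cQ : IsCyclic (G ⧸ K) := isCyclic_of_surjective _ hψ
  have hKi : Kb.index = K.index := by
    rw [hKb, Subgroup.index_map_eq _ (QuotientGroup.mk'_surjective H) (by rw [QuotientGroup.ker_mk']; exact hlt.le)]
  have hcop : (H.relIndex K).Coprime (Nat.card H * K.index) := by
    refine Nat.Coprime.mul_right ?_ ?_
    · have := CfsgLib.Frob.frob_coprime_card_index hC
      rwa [hbC, hcC.index_eq_card, Nat.card_congr (Subgroup.subgroupOfEquivOfLe hlt.le).toEquiv] at this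
    · have := CfsgLib.Frob.frob_coprime_card_index hD
      rw [hcD.index_eq_card, hbK, ← hcD.symm.index_eq_card, hKi] at this
      exact this.symm
  have hcard : Nat.card G = H.relIndex K * (Nat.card H * K.index) := by
    rw [← K.card_mul_index, ← CfsgLib.Coprime.card_mul_relIndex_of_le hlt.le]; ring
  rw [hb1]
  refine ⟨?_, hodd, hcop, cQ, ?_⟩
  · haveI : Group.IsSolvable (G ⧸ H) := Group.isSolvable_of_ker_le_range Kb.subtype ψ (by
      intro x hx
      obtain ⟨g, rfl⟩ := QuotientGroup.mk_surjective x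
      rw [Subgroup.range_subtype]
      exact (hmemKb g).2 ((QuotientGroup.eq_one_iff g).1 hx))
    exact Group.isSolvable_of_ker_le_range H.subtype (QuotientGroup.mk' H) (by simp)
  have fwd : ∀ p q : ℕ, p.Prime → q.Prime → p ≠ q → (∃ g : G, orderOf g = p * q) →
      p ∣ H.relIndex K → q ∣ H.relIndex K := by
    rintro p q hp hq hpq ⟨g, hg⟩ hpb
    have hu : orderOf (g ^ q) = p := by
      rw [orderOf_pow' _ hq.ne_zero, hg, Nat.gcd_mul_left_left, Nat.mul_div_cancel _ hq.pos]
    have hv : orderOf (g ^ p) = q := by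
      rw [orderOf_pow' _ hp.ne_zero, hg, Nat.gcd_mul_right_left, Nat.mul_div_cancel_left _ hp.pos]
    have hc : Commute (g ^ q) (g ^ p) := Commute.pow_pow_self _ _ _
    have hpc := Nat.Coprime.coprime_dvd_left hpb hcop
    have huH : g ^ q ∉ H := fun h => hp.one_lt.ne' (Nat.eq_one_of_dvd_coprimes
      (Nat.Coprime.coprime_mul_right_right hpc) dvd_rfl (hu ▸ Subgroup.orderOf_dvd_natCard H h))
    have huK : g ^ q ∈ K := mem_of_coprime_index (by rw [hu]; exact Nat.Coprime.coprime_mul_left_right hpc)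
    have hvK := F2 _ huK huH _ hc
    have hvH : g ^ p ∉ H := fun h => huH (F1 _ h (fun e => by
      rw [e, orderOf_one] at hv; exact hq.one_lt.ne hv) _ huK hc.symm)
    have h1 : orderOf ((g ^ p : G) : G ⧸ H) ∣ q := hv ▸ orderOf_map_dvd (QuotientGroup.mk' H) (g ^ p)
    rcases (Nat.dvd_prime hq).1 h1 with h | h
    · exact absurd ((QuotientGroup.eq_one_iff _).1 (orderOf_eq_one_iff.1 h)) hvH
    · rw [← hbK, ← h]; exact Subgroup.orderOf_dvd_natCard Kb ((hmemKb _).2 hvK)
  intro p q hp hq hpq hpG hqG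
  have hpqc : p.Coprime q := (Nat.coprime_primes hp hq).2 hpq
  constructor
  · intro h
    exact ⟨fwd p q hp hq hpq h, fwd q p hq hp hpq.symm (by rwa [mul_comm])⟩
  intro hiff
  by_cases hpb : p ∣ H.relIndex K
  · obtain ⟨y, hy⟩ := exists_orderOf_cyclic (G := Kb) (hbK ▸ hpqc.mul_dvd_of_dvd_of_dvd hpb (hiff.1 hpb))
    exact exists_orderOf_of_map _ (QuotientGroup.mk'_surjective H) ⟨y, by rw [Subgroup.orderOf_coe, hy]⟩
  have hqb : ¬ q ∣ H.relIndex K := fun h => hpb (hiff.2 h)
  rw [hcard] at hpG hqG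
  have hp2 := (Nat.Prime.dvd_mul hp).1 (((Nat.Prime.dvd_mul hp).1 hpG).resolve_left hpb)
  have hq2 := (Nat.Prime.dvd_mul hq).1 (((Nat.Prime.dvd_mul hq).1 hqG).resolve_left hqb)
  have hnK : ∀ r : ℕ, r.Prime → ¬ r ∣ H.relIndex K → ¬ r ∣ Nat.card H → ¬ r ∣ Nat.card K := by
    intro r hr h1 h2 h3
    rw [← CfsgLib.Coprime.card_mul_relIndex_of_le hlt.le] at h3
    exact ((Nat.Prime.dvd_mul hr).1 h3).elim h2 h1
  by_cases hpH : p ∣ Nat.card H
  · by_cases hqH : q ∣ Nat.card H
    · haveI := Fact.mk hp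
      haveI := Fact.mk hq
      obtain ⟨x, hx⟩ := exists_prime_orderOf_dvd_card' p hpH
      obtain ⟨y, hy⟩ := exists_prime_orderOf_dvd_card' q hqH
      have hc : (orderOf x).Coprime (orderOf y) := by rwa [hx, hy]
      refine ⟨(x * y : H), ?_⟩
      rw [Subgroup.orderOf_coe, (CfsgLib.Core.commute_of_coprime_orderOf_of_isNilpotent hc).orderOf_mul_eq_mul_orderOf_of_coprime hc, hx, hy]
    · exact mixed H K hlt F1 F2 hcop hp hq hpq hpH (hnK q hq hqb hqH) (hq2.resolve_left hqH)
  · by_cases hqH : q ∣ Nat.card H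
    · rw [mul_comm]
      exact mixed H K hlt F1 F2 hcop hq hp hpq.symm hqH (hnK p hp hpb hpH) (hp2.resolve_left hpH)
    · exact exists_orderOf_of_map _ (QuotientGroup.mk'_surjective K) (exists_orderOf_cyclic
        (hpqc.mul_dvd_of_dvd_of_dvd (hp2.resolve_left hpH) (hq2.resolve_left hqH)))

end Cfsg.Agent.S4001
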