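import Cfsg.Statements.S4002
import Mathlib
import Cfsg.Agent.Lib.CIT.AppOrd

set_option autoImplicit false
open Cfsg

namespace Cfsg.Agent.S4002

open CfsgLib.CIT.App in

/-- If the set of element orders of a finite group G is {1, 2, …, n} with n ≥ 7, then G is not solvable. -/
theorem result {G : Type*} [Group G] [Finite G] (n : ℕ) (hn : 7 ≤ n) (h : Set.range (orderOf : G → ℕ) = {k : ℕ | 1 ≤ k ∧ k ≤ n}) : ¬ Group.IsSolvable G := by
  obtain ⟨r, s, t, hr, hs, ht, h1, h2, h3, h4⟩ : ∃ r s t : ℕ, r.Prime ∧ s.Prime ∧ t.Prime ∧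
      r < s ∧ s < t ∧ t ≤ n ∧ n < r * s := by
    by_cases a : n < 15
    · exact ⟨3, 5, 7, by norm_num, by norm_num, by norm_num, by omega, by omega, hn, a⟩
    by_cases b : n < 35
    · exact ⟨5, 7, 11, by norm_num, by norm_num, by norm_num, by omega, by omega, by omega, b⟩
    obtain ⟨m, hm, c, d⟩ : ∃ m, 4 ≤ m ∧ 8 * m ≤ n ∧ n < 8 * m + 8 := ⟨n / 8, by omega, by omega, by omega⟩
    obtain ⟨r, r1, r2, r3⟩ := Nat.exists_prime_lt_and_le_two_mul m (by omega)
    obtain ⟨s, s1, s2, s3⟩ := Nat.exists_prime_lt_and_le_two_mul (2 * m) (by omega)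
    obtain ⟨t, t1, t2, t3⟩ := Nat.exists_prime_lt_and_le_two_mul (4 * m) (by omega)
    refine ⟨r, s, t, r1, s1, t1, by omega, by omega, by omega, ?_⟩
    have := Nat.mul_le_mul (Nat.succ_le_of_lt r2) (Nat.succ_le_of_lt s2)
    simp only [Nat.succ_eq_add_one] at this
    nlinarith
  have a : ∀ k, 1 ≤ k → k ≤ n → k ∣ Nat.card G := fun k a b =>
    (hasOrd_iff_mem_range.2 (h.ge ⟨a, b⟩)).dvd_card
  have b : ∀ k, n < k → ¬ HasOrd G k := fun k a b => (h.le (hasOrd_iff_mem_range.1 b)).2.not_gt a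
  exact not_isSolvable_of_three_primes hr hs ht h1.ne (h1.trans h2).ne h2.ne (a r hr.pos (by omega))
    (a s hs.pos (by omega)) (a t ht.pos h3) (b _ h4) (b _ (h4.trans_le (Nat.mul_le_mul_left r h2.le)))
    (b _ (h4.trans_le (Nat.mul_le_mul h1.le h2.le)))

end Cfsg.Agent.S4002
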