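import Cfsg.Statements.S4203
import Cfsg.Agent.Lib.Fgs.ClassSize
import Cfsg.Agent.Lib.Char.Burnside
import Cfsg.Agent.Lib.Core.MinNormal

set_option autoImplicit false
open Cfsg

namespace Cfsg.Agent.S4203

open Cfsg CfsgLib Subgroup
open scoped ComplexConjugate

section

attribute [local instance] Classical.propDecidable

theorem index_modEq {G : Type*} [Group G] [Finite G] {p : ℕ} [Fact p.Prime] (P : Sylow p G) {H : Subgroup G}
    (h : normalizer (P : Set G) ≤ H) : H.index ≡ 1 [MOD p] := by
  have h1 := card_sylow_modEq_one p G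
  have h2 := card_sylow_modEq_one p H
  rw [(P.subtype (le_normalizer.trans h)).card_eq_index_normalizer, ← Sylow.coe_coe, Sylow.coe_subtype,
    ← subgroupOf_normalizer_eq (le_normalizer.trans h)] at h2
  rw [P.card_eq_index_normalizer, ← relIndex_mul_index h] at h1
  simpa using (h2.mul_right H.index).symm.trans h1

end

/-- A finite group in which every maximal subgroup has index a prime or the square of a prime is solvable. -/
theorem result {G : Type*} [Group G] [Finite G] (h : ∀ M : Subgroup G, IsCoatom M → ∃ p : ℕ, p.Prime ∧ (M.index = p ∨ M.index = p ^ 2)) : Group.IsSolvable G := by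
  induction hn : Nat.card G using Nat.strong_induction_on generalizing G with
  | _ n ih =>
  rcases subsingleton_or_nontrivial G with h0 | h0
  · infer_instance
  obtain ⟨N, hN, h1, -, hmin⟩ := Core.exists_minimal_normal_le (K := (⊤ : Subgroup G)) top_ne_bot
  have h2 : Group.IsSolvable (G ⧸ N) := ih _ (by
    rw [← hn, ← N.index_mul_card]
    exact lt_mul_of_one_lt_right Nat.card_pos ((one_lt_card_iff_ne_bot N).2 h1)) (fun M hM => by
      rw [← M.index_comap_of_surjective (QuotientGroup.mk'_surjective N)]
      exact h _ (isCoatom_comap_of_surjective (QuotientGroup.mk'_surjective N) hM)) rfl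
  suffices Group.IsSolvable N from Group.isSolvable_of_ker_le_range N.subtype (QuotientGroup.mk' N) (by simp)
  by_contra hs
  have h3 : (Nat.card N).primeFactors.Nonempty := Nat.nonempty_primeFactors.2 ((one_lt_card_iff_ne_bot N).2 h1)
  obtain ⟨p, hp, hmax⟩ := Finset.exists_max_image _ id h3
  have := Fact.mk (Nat.prime_of_mem_primeFactors hp)
  obtain ⟨P⟩ : Nonempty (Sylow p N) := inferInstance
  obtain ⟨M, hM, h4⟩ := (eq_top_or_exists_le_coatom (normalizer (((P : Subgroup N).map N.subtype : Subgroup G) : Set G))).resolve_left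
    fun e => by
      rcases hmin _ (normalizer_eq_top_iff.1 e) (map_subtype_le _) with e | e
      · exact P.ne_bot_of_dvd_card (Nat.dvd_of_mem_primeFactors hp) ((map_eq_bot_iff_of_injective _ N.subtype_injective).1 e)
      · have := (e ▸ P.isPGroup'.map N.subtype : IsPGroup p N).isNilpotent
        exact hs inferInstance
  have h5 : M.relIndex N ≡ 1 [MOD p] := index_modEq P fun x hx => h4 (le_normalizer_map _ ⟨x, hx, rfl⟩)
  have h6 : M.relIndex N ≠ 1 := fun e => hM.1 (top_le_iff.1 (P.normalizer_sup_eq_top ▸ sup_le h4 (relIndex_eq_one.1 e)))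
  obtain ⟨q, hq, h7⟩ := h M hM
  obtain ⟨k, hk, h8⟩ := (Nat.dvd_prime_pow hq).1 ((Fgs.relIndex_dvd_index_of_normal_right M N).trans
    (show M.index ∣ q ^ 2 by rcases h7 with e | e <;> simp [e, sq]))
  have hk0 : k ≠ 0 := fun e => h6 (by simpa [e] using h8)
  have h9 : q ≤ p := hmax q (Nat.mem_primeFactors.2 ⟨hq, (h8 ▸ dvd_pow_self q hk0).trans (relIndex_dvd_card M N),
    Nat.card_pos.ne'⟩)
  have hp2 := this.out.two_le
  have hq2 := hq.two_le
  have h10 : p ∣ (q + 1) * (q - 1) := by
    rw [← Nat.sq_sub_sq q 1, one_pow, ← Nat.modEq_iff_dvd' (Nat.one_le_pow _ _ hq.pos)]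
    rw [h8] at h5
    interval_cases k
    · exact absurd rfl hk0
    · simpa using (h5.pow 2).symm
    · exact h5.symm
  have h11 : p = q + 1 := by
    rcases (Nat.Prime.dvd_mul this.out).1 h10 with e | e
    · refine le_antisymm (Nat.le_of_dvd q.succ_pos e) (lt_of_le_of_ne h9 fun e' => ?_)
      rw [← e', Nat.dvd_add_right dvd_rfl, Nat.dvd_one] at e
      omega
    · have := Nat.le_of_dvd (by omega) e
      omega
  have h12 : p = 3 := by
    rcases hq.eq_two_or_odd' with e | e
    · omega
    · rcases this.out.eq_two_or_odd' with e' | e'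
      · omega
      · exact absurd (h11 ▸ e') (Nat.not_odd_iff_even.2 e.add_one)
  refine hs (Char.isSolvable_of_card_primeFactors_le_two ((Finset.card_le_card (t := {2, 3}) fun r hr => ?_).trans
    Finset.card_le_two))
  have := hmax r hr
  have := (Nat.prime_of_mem_primeFactors hr).two_le
  simp only [id, Finset.mem_insert, Finset.mem_singleton] at *
  omega

end Cfsg.Agent.S4203
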