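import Cfsg.Statements.S4204
-- import your own Cfsg.Agent.* helpers here

set_option autoImplicit false
open Cfsg

namespace Cfsg.Agent.S4204

theorem commutator_le_iff_map {G : Type*} [Group G] (A B N : Subgroup G) [N.Normal] :
    ⁅A, B⁆ ≤ N ↔ A ≤ (Subgroup.centralizer
      (B.map (QuotientGroup.mk' N) : Set (G ⧸ N))).comap (QuotientGroup.mk' N) := by
  rw [← Subgroup.map_le_iff_le_comap, ← Subgroup.commutator_eq_bot_iff_le_centralizer,
    ← Subgroup.map_commutator, Subgroup.map_eq_bot_iff, QuotientGroup.ker_mk']

/-- the lower central series shifted by one, starting at the whole group -/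
def lcs {G : Type*} [Group G] (H : Subgroup G) (n : ℕ) : Subgroup G :=
  Nat.casesOn n ⊤ (fun m => H.lowerCentralSeries m)

theorem lcs_normal {G : Type*} [Group G] (H : Subgroup G) [H.Normal] (n : ℕ) : (lcs H n).Normal := by
  cases n with
  | zero => exact (inferInstance : (⊤ : Subgroup G).Normal)
  | succ n => exact (inferInstance : (H.lowerCentralSeries n).Normal)

theorem commutator_lcs_le {G : Type*} [Group G] (H : Subgroup G) [H.Normal] (n : ℕ) :
    ⁅lcs H n, H⁆ ≤ lcs H (n + 1) := by
  cases n with
  | zero => exact Subgroup.commutator_le_right _ _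
  | succ n => exact (H.lowerCentralSeries_succ n).ge

theorem key {G : Type*} [Group G] (H K : Subgroup G) [H.Normal] [K.Normal] (n : ℕ) :
    (H ⊔ K).lowerCentralSeries n ≤ ⨆ (i : ℕ) (j : ℕ) (_ : i + j = n + 1), lcs H i ⊓ lcs K j := by
  induction n with
  | zero =>
    rw [Subgroup.lowerCentralSeries_zero]
    refine sup_le ?_ ?_
    · exact le_iSup_of_le 1 (le_iSup_of_le 0 (le_iSup_of_le rfl (le_inf le_rfl le_top)))
    · exact le_iSup_of_le 0 (le_iSup_of_le 1 (le_iSup_of_le rfl (le_inf le_top le_rfl)))
  | succ n ih =>
    rw [Subgroup.lowerCentralSeries_succ]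
    refine (Subgroup.commutator_mono ih le_rfl).trans ?_
    have hN : (⨆ (i : ℕ) (j : ℕ) (_ : i + j = n + 1 + 1), lcs H i ⊓ lcs K j).Normal := by
      have := lcs_normal H
      have := lcs_normal K
      infer_instance
    rw [commutator_le_iff_map]
    refine iSup_le fun i => iSup_le fun j => iSup_le fun hij => ?_
    have := lcs_normal H i
    have := lcs_normal K j
    rw [← commutator_le_iff_map, Subgroup.commutator_comm, commutator_le_iff_map]
    refine sup_le ?_ ?_
    · rw [← commutator_le_iff_map, Subgroup.commutator_comm]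
      refine le_iSup_of_le (i + 1) (le_iSup_of_le j (le_iSup_of_le (by omega) (le_inf ?_ ?_)))
      · exact (Subgroup.commutator_mono inf_le_left le_rfl).trans (commutator_lcs_le H i)
      · exact (Subgroup.commutator_le_left _ _).trans inf_le_right
    · rw [← commutator_le_iff_map, Subgroup.commutator_comm]
      refine le_iSup_of_le i (le_iSup_of_le (j + 1) (le_iSup_of_le (by omega) (le_inf ?_ ?_)))
      · exact (Subgroup.commutator_le_left _ _).trans inf_le_left
      · exact (Subgroup.commutator_mono inf_le_right le_rfl).trans (commutator_lcs_le K j)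

/-- If `H` and `K` are normal subgroups of a finite group with `H` nilpotent of class at most `c` and `K` nilpotent of class at most `d` (the terms with index `c`, respectively `d`, of their lower central series are trivial, indices starting at `0`), then `HK` is nilpotent of class at most `c + d`. -/
theorem result {G : Type*} [Group G] [Finite G] (H K : Subgroup G) [H.Normal] [K.Normal] (c d : ℕ) (hH : H.lowerCentralSeries c = ⊥) (hK : K.lowerCentralSeries d = ⊥) : (H ⊔ K).lowerCentralSeries (c + d) = ⊥ := by
  refine le_bot_iff.mp ((key H K (c + d)).trans ?_)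
  refine iSup_le fun i => iSup_le fun j => iSup_le fun hij => ?_
  rcases le_or_gt i c with h | h
  · obtain ⟨j, rfl⟩ : ∃ j', j = j' + 1 := ⟨j - 1, by omega⟩
    refine inf_le_right.trans ?_
    rw [← hK]
    exact K.lowerCentralSeries_antitone (by omega)
  · obtain ⟨i, rfl⟩ : ∃ i', i = i' + 1 := ⟨i - 1, by omega⟩
    refine inf_le_left.trans ?_
    rw [← hH]
    exact H.lowerCentralSeries_antitone (by omega)

end Cfsg.Agent.S4204
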