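import Cfsg.Statements.S4213
import Cfsg.Agent.Lib.Count.Frobenius
import Cfsg.Agent.Lib.Frob.Nilpotent

set_option autoImplicit false
open Cfsg

namespace Cfsg.Agent.S4213

universe u

theorem aux (k : ℕ) : ∀ (G : Type u) [Group G] [Finite G] [Group.IsSolvable G], Nat.card G = k →
    ∀ n : ℕ, n ∣ Nat.card G → {x : G | x ^ n = 1}.ncard = n →
      ∃ H : Subgroup G, (H : Set G) = {x : G | x ^ n = 1} := by
  induction k using Nat.strong_induction_on with
  | _ k ih =>
  intro G _ _ _ hk n hn hcount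
  rcases subsingleton_or_nontrivial G with hs | hnt
  · refine ⟨⊤, ?_⟩
    ext x
    exact ⟨fun _ => Subsingleton.elim _ _, fun _ => Subgroup.mem_top _⟩
  obtain ⟨p, K, hp, hKc, hK1, -, hKp⟩ := CfsgLib.Frob.exists_characteristic_elementary (G := G)
  have := Fact.mk hp
  have hG0 : 0 < Nat.card G := Nat.card_pos
  have hn0 : 0 < n := Nat.pos_of_dvd_of_pos hn hG0
  have hKP : IsPGroup p K := fun v => ⟨1, Subtype.ext (by simpa using hKp v v.2)⟩
  obtain ⟨i, hi⟩ := hKP.exists_card_eq
  have hlt : Nat.card (G ⧸ K) < k := hk ▸ CfsgLib.Core.card_quotient_lt_of_ne_bot hK1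
  have hGK : Nat.card G = Nat.card (G ⧸ K) * Nat.card K :=
    Subgroup.card_eq_card_quotient_mul_card_subgroup K
  have hpre : ∀ T : Set (G ⧸ K), (QuotientGroup.mk ⁻¹' T : Set G).ncard = Nat.card K * T.ncard :=
    fun T => QuotientGroup.card_preimage_mk K T
  by_cases hpn : p ∣ n
  · set d := Nat.gcd n (Nat.card K) with hd
    have hd0 : 0 < d := Nat.gcd_pos_of_pos_left _ hn0
    obtain ⟨u, hu⟩ : d ∣ n := Nat.gcd_dvd_left _ _
    have hu0 : 0 < u := Nat.pos_of_ne_zero (by rintro rfl; simp at hu; omega)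
    have hi0 : i ≠ 0 := by
      rintro rfl
      exact hK1 (Subgroup.card_eq_one.mp (by simpa using hi))
    have hpd : p ∣ d := Nat.dvd_gcd hpn (hi ▸ dvd_pow_self p hi0)
    have hud : u ∣ Nat.card (G ⧸ K) := by
      have h1 : n ∣ d * Nat.card (G ⧸ K) := by
        rw [hd, ← Nat.gcd_mul_right]
        exact Nat.dvd_gcd (Dvd.intro _ rfl) (by rw [mul_comm, ← hGK]; exact hn)
      nth_rewrite 1 [hu] at h1
      exact Nat.dvd_of_mul_dvd_mul_left hd0 h1
    have h1 := CfsgLib.Count.frobenius_one hud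
    have hsub : (QuotientGroup.mk ⁻¹' {z : G ⧸ K | z ^ u = 1} : Set G) ⊆ {x : G | x ^ n = 1} := by
      intro x hx
      have h2 : x ^ u ∈ K := by
        rw [← QuotientGroup.eq_one_iff, QuotientGroup.mk_pow]
        exact hx
      obtain ⟨w, hw⟩ := hpd
      rw [Set.mem_ofPred_eq, hu, hw, mul_comm, mul_comm p, ← mul_assoc, mul_right_comm, pow_mul,
        pow_mul, hKp _ h2, one_pow]
    have h2 := Set.ncard_le_ncard hsub
    rw [hpre, hcount] at h2
    have h3 : 0 < {z : G ⧸ K | z ^ u = 1}.ncard := (Set.ncard_pos).mpr ⟨1, by simp⟩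
    have h4 := Nat.le_of_dvd h3 h1
    have h5 : d ≤ Nat.card K := Nat.le_of_dvd Nat.card_pos (Nat.gcd_dvd_right _ _)
    have h6 : {z : G ⧸ K | z ^ u = 1}.ncard = u := by
      apply le_antisymm _ h4
      have : d * {z : G ⧸ K | z ^ u = 1}.ncard ≤ d * u :=
        (Nat.mul_le_mul_right _ h5).trans (hu ▸ h2)
      exact Nat.le_of_mul_le_mul_left this hd0
    obtain ⟨L, hL⟩ := ih _ hlt (G ⧸ K) rfl u hud h6
    refine ⟨L.comap (QuotientGroup.mk' K), ?_⟩
    refine Set.eq_of_subset_of_ncard_le ?_ ?_ (Set.toFinite _)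
    · intro x hx
      apply hsub
      rw [← hL]
      exact hx
    · have : ((L.comap (QuotientGroup.mk' K) : Subgroup G) : Set G) =
          QuotientGroup.mk ⁻¹' {z : G ⧸ K | z ^ u = 1} := by rw [← hL]; rfl
      rw [this, hpre, hcount, h6]
      nth_rewrite 1 [hu]
      exact Nat.mul_le_mul_right _ h5
  · have hcop : n.Coprime (Nat.card K) := by
      rw [hi]
      exact Nat.Coprime.pow_right _ ((Nat.Prime.coprime_iff_not_dvd hp).mpr hpn).symm
    have hnd : n ∣ Nat.card (G ⧸ K) := hcop.dvd_of_dvd_mul_right (hGK ▸ hn)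
    have h1 := CfsgLib.Count.frobenius_one hnd
    have hsub : {z : G ⧸ K | z ^ n = 1} ⊆ QuotientGroup.mk '' {x : G | x ^ n = 1} := by
      intro z hz
      have hz' : z ^ n = 1 := hz
      have hc : p.Coprime (orderOf z) :=
        ((Nat.Prime.coprime_iff_not_dvd hp).mpr hpn).coprime_dvd_right
          (orderOf_dvd_of_pow_eq_one hz')
      obtain ⟨m, hm⟩ := exists_pow_eq_self_of_coprime hc
      obtain ⟨x, rfl⟩ := QuotientGroup.mk_surjective z
      refine ⟨(x ^ p) ^ m, ?_, by rw [QuotientGroup.mk_pow, QuotientGroup.mk_pow, hm]⟩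
      have h2 : x ^ n ∈ K := by
        rw [← QuotientGroup.eq_one_iff, QuotientGroup.mk_pow]
        exact hz'
      rw [Set.mem_ofPred_eq, ← pow_mul, ← pow_mul, show p * (m * n) = n * p * m by ring,
        pow_mul, pow_mul, hKp _ h2, one_pow]
    have h2 := (Set.ncard_le_ncard hsub).trans (Set.ncard_image_le (Set.toFinite _))
    rw [hcount] at h2
    have h3 : 0 < {z : G ⧸ K | z ^ n = 1}.ncard := (Set.ncard_pos).mpr ⟨1, by simp⟩
    have h6 : {z : G ⧸ K | z ^ n = 1}.ncard = n := le_antisymm h2 (Nat.le_of_dvd h3 h1)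
    obtain ⟨L, hL⟩ := ih _ hlt (G ⧸ K) rfl n hnd h6
    have hLc : Nat.card L = n := by rw [← h6, ← hL]; rfl
    set H := L.comap (QuotientGroup.mk' K) with hH
    have hKH : K ≤ H := by
      intro x hx
      rw [hH, Subgroup.mem_comap, QuotientGroup.mk'_apply, (QuotientGroup.eq_one_iff x).mpr hx]
      exact L.one_mem
    have hHc : Nat.card H = Nat.card K * n := by
      rw [← hLc]
      exact hpre L
    have hidx : (K.subgroupOf H).index = n := by
      have := (K.subgroupOf H).card_mul_index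
      rw [CfsgLib.Core.card_subgroupOf_of_le hKH, hHc] at this
      exact Nat.eq_of_mul_eq_mul_left Nat.card_pos this
    obtain ⟨C, hC⟩ := Subgroup.exists_right_complement'_of_coprime (N := K.subgroupOf H)
      (by rw [hidx, CfsgLib.Core.card_subgroupOf_of_le hKH]; exact hcop.symm)
    have hCc : Nat.card (C.map H.subtype) = n := by
      rw [CfsgLib.Core.card_map_subtype, ← hC.symm.index_eq_card, hidx]
    refine ⟨C.map H.subtype, ?_⟩
    refine Set.eq_of_subset_of_ncard_le ?_ ?_ (Set.toFinite _)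
    · intro x hx
      have := Subgroup.orderOf_dvd_natCard _ hx
      rw [hCc] at this
      exact orderOf_dvd_iff_pow_eq_one.mp this
    · rw [hcount]
      exact hCc.ge


/-- If `G` is a finite solvable group and `n` divides the order of `G` and exactly `n` elements `x` of `G` satisfy `x^n = 1`, then these elements form a normal subgroup. -/
theorem result {G : Type*} [Group G] [Finite G] [Group.IsSolvable G] (n : ℕ) (hn : n ∣ Nat.card G) (hcount : Nat.card {x : G // x ^ n = 1} = n) : ∃ H : Subgroup G, H.Normal ∧ (H : Set G) = {x : G | x ^ n = 1} := by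
  obtain ⟨H, hH⟩ := aux _ G rfl n hn hcount
  refine ⟨H, ⟨fun x hx g => ?_⟩, hH⟩
  have h1 : x ∈ {x : G | x ^ n = 1} := hH ▸ hx
  have h2 : g * x * g⁻¹ ∈ {x : G | x ^ n = 1} := by
    rw [Set.mem_ofPred_eq, conj_pow, h1]; simp
  rw [← hH] at h2
  exact h2

end Cfsg.Agent.S4213
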