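import Cfsg.Statements.S4214
import Mathlib
import Cfsg.Agent.Lib.Coprime.Hall
import Cfsg.Agent.Lib.Coprime.Action
import Cfsg.Agent.Lib.Core.MinNormal

set_option autoImplicit false
open Cfsg

namespace Cfsg.Agent.S4214

open Subgroup CfsgLib Pointwise

universe u

def P (G : Type u) [Group G] (m f : ℕ) : Prop :=
  (∃ q e : ℕ, q.Prime ∧ f = q ^ e) ∧ (∃ K L : Subgroup G, K.Normal ∧ L.Normal ∧ K < L ∧
    (∀ M : Subgroup G, M.Normal → K ≤ M → M ≤ L → M = K ∨ M = L) ∧ f ∣ K.relIndex L) ∧
    (∃ q : ℕ, q.Prime ∧ q ∣ m ∧ f ≡ 1 [MOD q])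

theorem lift {G : Type u} [Group G] (N : Subgroup G) [N.Normal] {m m' f : ℕ} (hm : m' ∣ m)
    (h : P (G ⧸ N) m' f) : P G m f := by
  obtain ⟨h1, ⟨K, L, k1, k2, k3, k4, k5⟩, q, q1, q2, q3⟩ := h
  have hs := QuotientGroup.mk'_surjective N
  refine ⟨h1, ⟨K.comap (QuotientGroup.mk' N), L.comap (QuotientGroup.mk' N), k1.comap _, k2.comap _,
    (comap_lt_comap_of_surjective hs).2 k3, fun M hM a b => ?_, ?_⟩, q, q1, q2.trans hm, q3⟩
  · have e : (M.map (QuotientGroup.mk' N)).comap (QuotientGroup.mk' N) = M :=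
      comap_map_eq_self ((ker_le_comap _ K).trans a)
    exact (k4 _ (hM.map _ hs) ((map_comap_eq_self_of_surjective hs K).ge.trans (map_mono a))
      (map_le_iff_le_comap.2 b)).imp (fun h => by rw [← h, e]) fun h => by rw [← h, e]
  · rwa [relIndex_comap, map_comap_eq_self_of_surjective hs]

theorem cent {G : Type u} [Group G] [Finite G] [Group.IsSolvable G] {p : ℕ} [hp : Fact p.Prime]
    (N : Subgroup G) [hN : N.Normal] (hp' : IsPGroup p N) (H : Subgroup G)
    (hc : (Nat.card H).Coprime (Nat.card N)) : (centralizer (H : Set G)).relIndex N ∈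
      Submonoid.closure {f | (∃ e, f = p ^ e) ∧ f ∣ Nat.card N ∧
        ∃ q : ℕ, q.Prime ∧ q ∣ Nat.card H ∧ f ≡ 1 [MOD q]} := by
  induction hn : Nat.card H using Nat.strong_induction_on generalizing H with
  | _ n ih =>
  subst hn
  by_cases h0 : H = ⊥
  · rw [relIndex_eq_one.2 (by rw [h0]; exact le_centralizer_iff.2 bot_le)]; exact one_mem _
  have := (nontrivial_iff_ne_bot H).2 h0
  obtain ⟨M, hM, hq⟩ := Core.exists_normal_prime_index H
  set K := M.map H.subtype
  have hKH : K ≤ H := map_subtype_le M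
  have hK : Nat.card K * M.index = Nat.card H := by rw [card_subtype, M.card_mul_index]
  have hHK : H ≤ normalizer (K : Set G) := fun g hg =>
    Coprime.mem_normalizer_iff_conj_smul_eq.2 (eq_of_le_of_card_ge (Coprime.conj_smul_le_iff.2 (by
      rintro _ ⟨x, hx, rfl⟩; exact ⟨_, hM.conj_mem x hx ⟨g, hg⟩, rfl⟩))
      (Coprime.card_conj_smul g K).ge)
  have h1 := ih _ (by
    rw [← hK]; exact lt_mul_of_one_lt_right Nat.card_pos hq.one_lt) K
    (hc.coprime_dvd_left (card_dvd_of_le hKH)) rfl
  set A := centralizer (K : Set G) ⊓ N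
  set B := centralizer (H : Set G) ⊓ N
  have hBA : B ≤ A := inf_le_inf_right _ (centralizer_le hKH)
  rw [← inf_relIndex_right] at h1 ⊢
  rw [← relIndex_mul_relIndex B A N hBA inf_le_right]
  refine mul_mem (Submonoid.subset_closure ⟨?_, ?_, _, hq, M.index_dvd_card, ?_⟩)
    (Submonoid.closure_mono ?_ h1)
  · exact (hp'.to_le (inf_le_right : A ≤ N)).index _
  · exact (relIndex_dvd_card _ _).trans (card_dvd_of_le inf_le_right)
  · have hHA : H ≤ normalizer (A : Set G) := Coprime.le_normalizer_inf
      (Coprime.le_normalizer_centralizer hHK) le_normalizer_of_normal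
    let φ : H →* MulAut A := A.normalizerMonoidHom.comp (inclusion hHA)
    have hk : M ≤ φ.ker := fun x hx => MulEquiv.ext fun a => Subtype.ext
      (mul_inv_eq_iff_eq_mul.2 (a.2.1 x ⟨x, hx, rfl⟩))
    have : Fact M.index.Prime := ⟨hq⟩
    letI := MulAction.compHom A (QuotientGroup.lift M φ hk)
    have h2 := (IsPGroup.of_card (G := H ⧸ M) (p := M.index) (n := 1)
      (pow_one _).symm).card_modEq_card_fixedPoints A
    have h3 : Nat.card (MulAction.fixedPoints (H ⧸ M) A) = Nat.card (B.subgroupOf A) := by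
      refine Nat.card_congr (Equiv.subtypeEquivRight fun a => ⟨fun h => ⟨fun g hg => ?_, a.2.2⟩,
        fun h g => ?_⟩)
      · exact mul_inv_eq_iff_eq_mul.1 (congrArg Subtype.val (h (QuotientGroup.mk ⟨g, hg⟩)))
      · obtain ⟨g, rfl⟩ := QuotientGroup.mk_surjective g
        exact Subtype.ext (mul_inv_eq_iff_eq_mul.2 (h.1 g g.2))
    rw [h3, ← (B.subgroupOf A).card_mul_index] at h2
    refine Nat.ModEq.cancel_left_of_coprime ?_ (h2.trans (by rw [mul_one]))
    exact (hc.coprime_dvd_left M.index_dvd_card).coprime_dvd_right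
      ((card_subgroup_dvd_card _).trans (card_dvd_of_le inf_le_right))
  · rintro f ⟨a, b, q, q1, q2, q3⟩
    exact ⟨a, b, q, q1, q2.trans (card_dvd_of_le hKH), q3⟩

theorem main (n : ℕ) : ∀ (G : Type u) [Group G] [Finite G] [Group.IsSolvable G], Nat.card G = n →
    ∀ H : Subgroup G, (Nat.card H).Coprime H.index →
      (normalizer (H : Set G)).index ∈ Submonoid.closure {f | P G (Nat.card H) f} := by
  induction n using Nat.strong_induction_on with
  | _ n ih =>
  intro G _ _ _ hn H hH
  subst hn
  cases subsingleton_or_nontrivial G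
  · rw [index_eq_one.2 (Subsingleton.elim _ _)]; exact one_mem _
  obtain ⟨p, N, hp, hN, hN0, hel, hmin⟩ := Core.exists_elementaryAbelian_minimal_normal G
  have : Fact p.Prime := ⟨hp⟩
  have hpN := Core.isElementaryAbelian_isPGroup hel
  have hs := QuotientGroup.mk'_surjective N
  have hd : Nat.card (H.map (QuotientGroup.mk' N)) ∣ Nat.card H := card_map_dvd _ _
  have h1 := Submonoid.closure_mono (fun f hf => lift N hd hf)
    (ih _ (Core.card_quotient_lt_of_ne_bot hN0) (G ⧸ N) rfl (H.map (QuotientGroup.mk' N))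
      ((hH.coprime_dvd_left hd).coprime_dvd_right (index_map_dvd _ hs)))
  obtain ⟨k, hk⟩ := hpN.exists_card_eq
  by_cases hpH : p ∣ Nat.card H
  · have hNH : N ≤ H := Coprime.le_of_isPiHall_of_normal (Coprime.isPiHall_of_coprime hH)
      (Coprime.isPiNum_card_of_isPGroup hp hpN hpH)
    rwa [← index_comap_of_surjective _ hs, comap_normalizer_eq_of_surjective _ hs,
      comap_map_eq_self (by rwa [QuotientGroup.ker_mk'])] at h1
  · have hc : (Nat.card H).Coprime (Nat.card N) := by
      rw [hk]; exact (hp.coprime_iff_not_dvd.2 hpH).symm.pow_right k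
    rw [← Coprime.map_normalizer_quotient N hc (Or.inl inferInstance), index_map,
      MonoidHom.range_eq_top_of_surjective _ hs, index_top, mul_one, QuotientGroup.ker_mk'] at h1
    rw [← relIndex_mul_index (le_sup_left (b := N))]
    refine mul_mem ?_ h1
    have e : (normalizer (H : Set G)).relIndex (normalizer (H : Set G) ⊔ N) =
        (centralizer (H : Set G)).relIndex N := by
      have a1 := Coprime.card_sup_mul_card_inf (K := N) (A := normalizer (H : Set G))
        le_normalizer_of_normal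
      have a2 := Coprime.card_mul_relIndex_of_le (le_sup_left (a := normalizer (H : Set G)) (b := N))
      have a3 := Coprime.card_inf_mul_relIndex (centralizer (H : Set G)) N
      have a4 : N ⊓ normalizer (H : Set G) = centralizer (H : Set G) ⊓ N := by
        refine le_antisymm (fun x hx => ⟨fun h hh => ?_, hx.1⟩)
          (le_inf inf_le_right (inf_le_left.trans (centralizer_le_normalizer _)))
        have := Coprime.eq_one_of_mem_of_coprime hc (g := h⁻¹ * (x * h * x⁻¹))
          (mul_mem (inv_mem hh) ((mem_normalizer_iff.1 hx.2 h).1 hh))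
          (by rw [← mul_assoc, ← mul_assoc]; exact mul_mem (hN.conj_mem' _ hx.1 h) (inv_mem hx.1))
        rw [inv_mul_eq_one, eq_mul_inv_iff_mul_eq] at this
        exact this
      rw [sup_comm N, ← a2, a4, ← a3, mul_assoc, mul_comm, mul_comm (relIndex _ _)] at a1
      exact Nat.eq_of_mul_eq_mul_left Nat.card_pos (Nat.eq_of_mul_eq_mul_right Nat.card_pos a1)
    rw [e]
    refine Submonoid.closure_mono ?_ (cent N hpN H hc)
    rintro f ⟨⟨e, rfl⟩, b, c⟩
    exact ⟨⟨p, e, hp, rfl⟩, ⟨⊥, N, inferInstance, hN, bot_lt_iff_ne_bot.2 hN0,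
      fun M hM _ => hmin M hM, by rwa [relIndex_bot_left]⟩, c⟩


/-- Let `G` be a finite solvable group of order `mn` with `gcd(m, n) = 1`. Then the number of subgroups of order `m` is a product of natural numbers each of which is a power of a prime, divides the order of some chief factor of `G` (a quotient `L/K` of normal subgroups `K < L` of `G` with no normal subgroup of `G` strictly between them), and is congruent to `1` modulo some prime divisor of `m`. -/
theorem result {G : Type*} [Group G] [Finite G] [Group.IsSolvable G] (m n : ℕ) (hG : Nat.card G = m * n) (hmn : Nat.Coprime m n) : ∃ (k : ℕ) (f : Fin k → ℕ), Nat.card {H : Subgroup G // Nat.card H = m} = ∏ i, f i ∧ ∀ i, (∃ q e : ℕ, q.Prime ∧ f i = q ^ e) ∧ (∃ K L : Subgroup G, K.Normal ∧ L.Normal ∧ K < L ∧ (∀ M : Subgroup G, M.Normal → K ≤ M → M ≤ L → M = K ∨ M = L) ∧ f i ∣ K.relIndex L) ∧ (∃ q : ℕ, q.Prime ∧ q ∣ m ∧ f i ≡ 1 [MOD q]) := by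
  obtain ⟨H, hH⟩ := Coprime.exists_card_eq_of_coprime hG hmn
  have hi : H.index = n := by
    have := H.card_mul_index
    rw [hG, hH] at this
    exact Nat.eq_of_mul_eq_mul_left (hH ▸ Nat.card_pos) this
  have h1 := main _ G rfl H (by rwa [hH, hi])
  letI : MulAction G (Subgroup G) := MulAction.compHom _ (MulAut.conj : G →* MulAut G)
  have h2 : Nat.card {H : Subgroup G // Nat.card H = m} = (normalizer (H : Set G)).index := by
    have e : MulAction.stabilizer G H = normalizer (H : Set G) :=
      Subgroup.ext fun g => Coprime.mem_normalizer_iff_conj_smul_eq.symm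
    rw [← e, MulAction.index_stabilizer]
    refine Nat.card_congr (Equiv.subtypeEquivRight fun K => ⟨fun hK => ?_, ?_⟩)
    · exact Coprime.exists_conj_eq_of_card_eq hG hmn hH hK
    · rintro ⟨g, rfl⟩
      exact (Coprime.card_conj_smul g H).trans hH
  obtain ⟨l, hl, e⟩ := Submonoid.exists_list_of_mem_closure h1
  refine ⟨l.length, l.get, ?_, fun i => hH ▸ hl _ (l.get_mem i)⟩
  rw [h2, ← e, ← List.prod_ofFn, List.ofFn_get]

end Cfsg.Agent.S4214
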