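import Cfsg.Statements.S4216
import Mathlib
import Cfsg.Agent.Lib.Fgs.FocalLocal

set_option autoImplicit false
open Cfsg

namespace Cfsg.Agent.S4216

open Subgroup CfsgLib.Tech

/-- Grün's first Theorem: if `P` is a Sylow `p`-subgroup of the finite group `G`, then `P ∩ G'` is the subgroup generated by `P ∩ N_G(P)'` together with the subgroups `P ∩ z P' z⁻¹` for all `z ∈ G`, where `'` denotes the derived subgroup and `N_G(P)` the normalizer of `P`. -/
theorem result {G : Type*} [Group G] [Finite G] {p : ℕ} [Fact p.Prime] (P : Sylow p G) : (P : Subgroup G) ⊓ commutator G = ((P : Subgroup G) ⊓ ⁅Subgroup.normalizer ((P : Subgroup G) : Set G), Subgroup.normalizer ((P : Subgroup G) : Set G)⁆) ⊔ ⨆ z : G, (P : Subgroup G) ⊓ (⁅(P : Subgroup G), (P : Subgroup G)⁆).map (MulAut.conj z).toMonoidHom := by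
  apply le_antisymm
  · apply CfsgLib.Fgs.sylow_inf_commutator_le_of_tame
    intro Q x h1 h2 hx h a ha
    have hP := ((le_normalizer_iff_commutator_le_left).1 (zpowers_le.2 hx)
      (commutator_mem_commutator ha (mem_zpowers x))).1
    rcases h with rfl | h | h
    · apply mem_sup_left
      rw [inf_idem] at hx ha
      exact ⟨hP, commutator_mem_commutator (le_normalizer ha) hx⟩
    · exact mem_sup_left ⟨hP, commutator_mem_commutator (le_normalizer ha.1) (le_normalizer h)⟩
    · obtain ⟨z, rfl⟩ := MulAction.exists_smul_eq G P Q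
      refine mem_sup_right (mem_iSup_of_mem z ⟨hP, ?_⟩)
      have := commutator_mem_commutator ha.2 h
      rw [coe_smul_sylow, ← cj_commutator] at this
      exact this
  · refine sup_le (inf_le_inf_left _ (commutator_mono le_top le_top)) (iSup_le fun z => ?_)
    refine inf_le_inf_left _ ?_
    rw [map_commutator]
    exact commutator_mono le_top le_top

end Cfsg.Agent.S4216
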