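import Cfsg.Statements.S4217
import Cfsg.Agent.Lib.Coprime.Gaschutz

set_option autoImplicit false
open Cfsg

namespace Cfsg.Agent.S4217

/-- Let `A` be an abelian normal subgroup of the finite group `G`. Then `A` has a complement in `G` if and only if, for every prime `p` dividing the index of `A`, there are a Sylow `p`-subgroup `S` of `G/A` and a subgroup `K` of `G` with `K ∩ A = 1` and `KA` equal to the preimage of `S` (that is, `A` has a complement in the preimage of a Sylow `p`-subgroup of `G/A`). -/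
theorem result {G : Type*} [Group G] [Finite G] (A : Subgroup G) [A.Normal] (hA : IsMulCommutative A) : (∃ K : Subgroup G, K.IsComplement' A) ↔ ∀ p : ℕ, p.Prime → p ∣ A.index → ∃ (S : Sylow p (G ⧸ A)) (K : Subgroup G), K ⊓ A = ⊥ ∧ K ⊔ A = (S : Subgroup (G ⧸ A)).comap (QuotientGroup.mk' A) := by
  constructor
  · rintro ⟨K, hK⟩ p hp -
    have : Fact p.Prime := ⟨hp⟩
    obtain ⟨S⟩ : Nonempty (Sylow p (G ⧸ A)) := inferInstance
    have hA : A ≤ (S : Subgroup (G ⧸ A)).comap (QuotientGroup.mk' A) := by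
      intro a ha
      rw [Subgroup.mem_comap, QuotientGroup.mk'_apply, (QuotientGroup.eq_one_iff a).mpr ha]
      exact one_mem _
    refine ⟨S, K ⊓ (S : Subgroup (G ⧸ A)).comap (QuotientGroup.mk' A), ?_, ?_⟩
    · rw [eq_bot_iff, ← hK.disjoint.eq_bot]
      exact inf_le_inf_right _ inf_le_left
    · refine le_antisymm (sup_le inf_le_right hA) fun x hx => ?_
      have hx' : x ∈ K ⊔ A := by rw [hK.sup_eq_top]; trivial
      obtain ⟨k, hk, a, ha, rfl⟩ := Subgroup.mem_sup_of_normal_right.mp hx'
      refine Subgroup.mul_mem_sup ⟨hk, ?_⟩ ha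
      have := mul_mem hx (inv_mem (hA ha))
      rwa [mul_inv_cancel_right] at this
  · intro h
    obtain ⟨H, hH⟩ := CfsgLib.Coprime.gaschutz_exists_of_forall_prime (K := A) (fun p hp hpA => by
      have : Fact p.Prime := ⟨hp⟩
      obtain ⟨S, K, h1, h2⟩ := h p hp hpA
      refine ⟨K, h1, ?_⟩
      rw [sup_comm, h2, Subgroup.index_comap_of_surjective _ (QuotientGroup.mk'_surjective A)]
      exact S.not_dvd_index)
    exact ⟨H, hH.symm⟩

end Cfsg.Agent.S4217
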