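import Cfsg.Statements.S4222
-- import your own Cfsg.Agent.* helpers here

set_option autoImplicit false
open Cfsg

namespace Cfsg.Agent.S4222

/-- If a normal subgroup `N` of a finite group is complete (its centre is trivial and every automorphism of `N` is inner), then the group is the internal direct product of `N` and the centralizer of `N`: the centralizer is a complement to `N`. -/
theorem result {T : Type*} [Group T] [Finite T] (N : Subgroup T) [N.Normal] (hz : Subgroup.center ↥N = ⊥) (ha : Function.Surjective (MulAut.conj : ↥N →* MulAut ↥N)) : (Subgroup.centralizer (N : Set T)).IsComplement' N := by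
  haveI : (Subgroup.centralizer (N : Set T)).Normal := Subgroup.normal_centralizer
  refine Subgroup.isComplement'_of_disjoint_and_mul_eq_univ ?_ ?_
  · rw [Subgroup.disjoint_def]
    intro x hx hxN
    have : (⟨x, hxN⟩ : N) ∈ Subgroup.center N := by
      rw [Subgroup.mem_center_iff]
      intro g
      exact Subtype.ext (hx g g.2)
    rw [hz, Subgroup.mem_bot] at this
    exact congrArg Subtype.val this
  · rw [Set.eq_univ_iff_forall]
    intro g
    obtain ⟨n, hn⟩ := ha (MulAut.conjNormal g)
    refine ⟨g * (n : T)⁻¹, ?_, n, n.2, by simp⟩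
    intro y hy
    have h := congrArg (fun φ : MulAut N => ((φ ⟨(n : T)⁻¹ * y * n, mul_mem (mul_mem (inv_mem n.2) hy) n.2⟩ : N) : T)) hn
    simp only [MulAut.conj_apply, Subgroup.coe_mul, MulAut.conjNormal_apply, Subgroup.coe_inv] at h
    have h' : y = g * ((n : T)⁻¹ * y * n) * g⁻¹ := by rw [← h]; group
    calc y * (g * (n : T)⁻¹) = (g * ((n : T)⁻¹ * y * n) * g⁻¹) * (g * (n : T)⁻¹) := by rw [← h']
      _ = g * (n : T)⁻¹ * y := by group

end Cfsg.Agent.S4222
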