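import Mathlib
import Cfsg.Statements.S4223


set_option autoImplicit false
open Cfsg

namespace Cfsg.Agent.S4223

section Aux

open Subgroup

/-- Directly indecomposable and non-trivial. -/
def Indec (A : Type*) [Group A] : Prop :=
  Nontrivial A ∧ ∀ H K : Subgroup A, H.Normal → K.Normal → H ⊓ K = ⊥ → H ⊔ K = ⊤ → H = ⊥ ∨ K = ⊥

/-- Normal subgroups are mapped to normal subgroups. -/
def PN {A B : Type*} [Group A] [Group B] (f : A →* B) : Prop :=
  ∀ N : Subgroup A, N.Normal → (N.map f).Normal

theorem PN.comp {A B C : Type*} [Group A] [Group B] [Group C] {f : A →* B} {g : B →* C} (hg : PN g)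
    (hf : PN f) : PN (g.comp f) := fun N hN => by
  rw [← map_map]; exact hg _ (hf N hN)

theorem pn_surj {A B : Type*} [Group A] [Group B] {f : A →* B} (hf : Function.Surjective f) : PN f :=
  fun _ hN => hN.map f hf

theorem pn_inl {A B : Type*} [Group A] [Group B] : PN (MonoidHom.inl A B) := fun N hN =>
  ⟨by
    rintro _ ⟨a, ha, rfl⟩ g
    exact ⟨_, hN.conj_mem a ha g.1, by ext <;> simp⟩⟩

theorem exists_idem {M : Type*} [Monoid M] [Finite M] (g : M) :
    ∃ N : ℕ, 0 < N ∧ g ^ N * g ^ N = g ^ N := by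
  obtain ⟨i, j, hij, h⟩ := Finite.exists_ne_map_eq_of_infinite fun n : ℕ => g ^ n
  wlog hlt : i < j generalizing i j
  · exact this j i hij.symm h.symm (by omega)
  obtain ⟨d, rfl⟩ := Nat.exists_eq_add_of_lt hlt
  have key : ∀ k : ℕ, g ^ (i + (d + 1) * k) = g ^ i := fun k => by
    induction k with
    | zero => simp
    | succ k ih =>
      rw [show i + (d + 1) * (k + 1) = i + d + 1 + (d + 1) * k by ring, pow_add, ← h, ← pow_add, ih]
  refine ⟨(d + 1) * (i + 1), by positivity, ?_⟩
  rw [← pow_add, show (d + 1) * (i + 1) + (d + 1) * (i + 1) =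
    i + (d + 1) * (i + 1) + (d * (i + 1) + 1) by ring, pow_add, key, ← pow_add]
  congr 1
  ring

theorem inj_of_fixed {A : Type*} [Group A] [Finite A] (hA : Indec A) (g : A →* A) (hg : PN g) {a : A}
    (ha : a ≠ 1) (hga : g a = a) : Function.Injective g := by
  have : Finite (Monoid.End A) := Finite.of_injective (fun f : A →* A => (f : A → A)) DFunLike.coe_injective
  let g' : Monoid.End A := g
  obtain ⟨N, hN, hid⟩ := exists_idem g'
  have h1 : ∀ n : ℕ, PN (g' ^ n) ∧ (g' ^ n) a = a := fun n => by
    induction n with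
    | zero => exact ⟨pn_surj Function.surjective_id, rfl⟩
    | succ n ih =>
      rw [pow_succ]
      exact ⟨ih.1.comp hg, show (g' ^ n) (g a) = a by rw [hga, ih.2]⟩
  let q : A →* A := g' ^ N
  have hq : ∀ x, q (q x) = q x := fun x => DFunLike.congr_fun hid x
  rcases hA.2 q.ker ((⊤ : Subgroup A).map q) inferInstance ((h1 N).1 ⊤ inferInstance) (by
    rw [eq_bot_iff]
    rintro _ ⟨hx, x, -, rfl⟩
    exact (hq x).symm.trans hx) (by
    rw [eq_top_iff]
    intro x _
    rw [← inv_mul_cancel_right x (q x)]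
    exact mul_mem (mem_sup_left (by simp [MonoidHom.mem_ker, hq])) (mem_sup_right ⟨x, trivial, rfl⟩))
    with h | h
  · obtain ⟨n, rfl⟩ := Nat.exists_eq_add_of_lt hN
    have h2 : Function.Injective q := (MonoidHom.ker_eq_bot_iff q).mp h
    intro x y hxy
    apply h2
    show (g' ^ (0 + n + 1)) x = (g' ^ (0 + n + 1)) y
    rw [pow_succ]
    exact congrArg (g' ^ (0 + n)) hxy
  · exact absurd ((h1 N).2.symm.trans (mem_bot.mp (h.le ⟨a, trivial, rfl⟩))) ha

theorem exchange {A A' B B' : Type*} [Group A] [Group A'] [Group B] [Group B'] [Finite A] [Finite A']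
    [Finite B] [Finite B'] [Nontrivial A] (hB : Indec B) (e : A × A' ≃* B × B')
    (h : Function.Injective fun a : A => (e.symm ((e (a, 1)).1, 1)).1) :
    Nonempty (A ≃* B) ∧ Nonempty (A' ≃* B') := by
  let α : A →* B := (MonoidHom.fst B B').comp (e.toMonoidHom.comp (MonoidHom.inl A A'))
  let β : B →* A := (MonoidHom.fst A A').comp (e.symm.toMonoidHom.comp (MonoidHom.inl B B'))
  have hi : Function.Injective fun a => β (α a) := h
  have hs := Finite.injective_iff_surjective.mp hi
  have hα : PN α := (pn_surj Prod.fst_surjective).comp ((pn_surj e.surjective).comp pn_inl)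
  have hβ : Function.Injective β := by
    rcases hB.2 β.ker ((⊤ : Subgroup A).map α) inferInstance (hα ⊤ inferInstance) (by
      rw [eq_bot_iff]
      rintro _ ⟨hx, x, -, rfl⟩
      have : x = 1 := hi (by simpa using hx)
      simp [this]) (by
      rw [eq_top_iff]
      intro x _
      obtain ⟨a, ha⟩ := hs (β x)
      rw [← inv_mul_cancel_right x (α a)]
      exact mul_mem (mem_sup_left (by simp [MonoidHom.mem_ker, show β (α a) = β x from ha]))
        (mem_sup_right ⟨a, trivial, rfl⟩)) with h | h
    · exact (MonoidHom.ker_eq_bot_iff β).mp h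
    · obtain ⟨a, ha⟩ := exists_ne (1 : A)
      have : α a = 1 := mem_bot.mp (h.le ⟨a, trivial, rfl⟩)
      exact absurd (hi (by simp [this])) ha
  have e1 : B ≃* A := MulEquiv.ofBijective β ⟨hβ, Function.Surjective.of_comp hs⟩
  refine ⟨⟨e1.symm⟩, ⟨MulEquiv.ofBijective
    ((MonoidHom.snd B B').comp (e.toMonoidHom.comp (MonoidHom.inr A A'))) ?_⟩⟩
  rw [Nat.bijective_iff_injective_and_card]
  refine ⟨(injective_iff_map_eq_one _).mpr fun a ha => ?_, ?_⟩
  · have h1 : e (1, a) = ((e (1, a)).1, 1) := Prod.ext rfl ha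
    have h2 : (e (1, a)).1 = 1 := hβ (by
      show (e.symm ((e (1, a)).1, 1)).1 = _
      rw [← h1]; simp)
    rw [h2] at h1
    exact congrArg Prod.snd (e.injective (h1.trans (map_one e).symm))
  · have h1 := Nat.card_congr e.toEquiv
    rw [Nat.card_prod, Nat.card_prod, ← Nat.card_congr e1.toEquiv] at h1
    exact Nat.eq_of_mul_eq_mul_left Nat.card_pos h1

theorem exists_index {A A' κ : Type*} {B : κ → Type*} [Group A] [Group A'] [∀ j, Group (B j)] [Finite A]
    [Fintype κ] [DecidableEq κ] (hA : Indec A) (e : A × A' ≃* ∀ j, B j) :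
    ∃ j, Function.Injective fun a : A => (e.symm (Pi.mulSingle j (e (a, 1) j))).1 := by
  let pr : Finset κ → (∀ j, B j) →* ∀ j, B j := fun s =>
    MonoidHom.mk' (fun b => s.piecewise b 1) fun a b => funext fun j => by
      by_cases h : j ∈ s <;> simp [h]
  let Φ : Finset κ → A →* A := fun s => (MonoidHom.fst A A').comp (e.symm.toMonoidHom.comp
    ((pr s).comp (e.toMonoidHom.comp (MonoidHom.inl A A'))))
  suffices H : ∀ s, Function.Injective (Φ s) →
      ∃ j, Function.Injective fun a : A => (e.symm (Pi.mulSingle j (e (a, 1) j))).1 from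
    H Finset.univ fun a b h => by simpa [Φ, pr] using h
  intro s
  induction s using Finset.induction_on with
  | empty =>
    intro h
    have := hA.1
    obtain ⟨a, ha⟩ := exists_ne (1 : A)
    exact absurd (h (by simp [Φ, pr])) ha
  | insert j s hj ih =>
    intro h
    by_cases hs : Function.Injective (Φ s)
    · exact ih hs
    let θ : A ≃* A := MulEquiv.ofBijective _ (Finite.injective_iff_bijective.mp h)
    let φ : A →* A := (MonoidHom.fst A A').comp (e.symm.toMonoidHom.comp
      ((MonoidHom.mulSingle B j).comp ((Pi.evalMonoidHom B j).comp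
        (e.toMonoidHom.comp (MonoidHom.inl A A')))))
    have hφ : PN φ := (pn_surj Prod.fst_surjective).comp ((pn_surj e.symm.surjective).comp
      (PN.comp (fun N hN => ⟨by
        rintro _ ⟨a, ha, rfl⟩ g
        refine ⟨_, hN.conj_mem a ha (g j), funext fun k => ?_⟩
        by_cases hk : k = j
        · subst hk; simp
        · simp [hk]⟩) ((pn_surj (Function.surjective_eval j)).comp
          ((pn_surj e.surjective).comp pn_inl))))
    rw [injective_iff_map_eq_one] at hs
    push Not at hs
    obtain ⟨a, ha, ha1⟩ := hs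
    have e1 : θ a = φ a * Φ s a := by
      show (e.symm (pr (insert j s) (e (a, 1)))).1 =
        (e.symm (Pi.mulSingle j (e (a, 1) j))).1 * (e.symm (pr s (e (a, 1)))).1
      rw [← Prod.fst_mul, ← map_mul]
      congr 2
      funext k
      by_cases hk : k = j
      · subst hk; simp [pr, hj]
      · by_cases hk' : k ∈ s <;> simp [pr, hk, hk']
    have h2 := inj_of_fixed hA (θ.symm.toMonoidHom.comp φ) ((pn_surj θ.symm.surjective).comp hφ) ha1
      (by rw [ha, mul_one] at e1; simp [← e1])
    exact ⟨j, fun x y hxy => h2 (congrArg θ.symm hxy)⟩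

/-- Splitting off one factor. -/
def splitEquiv {n : ℕ} (B : Fin (n + 1) → Type*) [∀ j, Group (B j)] (j : Fin (n + 1)) :
    (B j × ∀ k, B (j.succAbove k)) ≃* ∀ j, B j :=
  (MulEquiv.mk (Fin.insertNthEquiv B j).symm fun _ _ => rfl).symm

theorem main (m : ℕ) : ∀ {n : ℕ} {A : Fin m → Type*} {B : Fin n → Type*} [∀ i, Group (A i)]
    [∀ j, Group (B j)] [∀ i, Finite (A i)] [∀ j, Finite (B j)], (∀ i, Indec (A i)) →
    (∀ j, Indec (B j)) → (((i : Fin m) → A i) ≃* ((j : Fin n) → B j)) →
    ∃ σ : Fin m ≃ Fin n, ∀ i, Nonempty (A i ≃* B (σ i)) := by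
  induction m with
  | zero =>
    intro n A B _ _ _ _ _ hB e
    rcases n with _ | n
    · exact ⟨Equiv.refl _, fun i => i.elim0⟩
    have := (hB 0).1
    obtain ⟨b, hb⟩ := exists_ne (1 : B 0)
    have := e.symm.injective.subsingleton
    exact absurd (by simpa using congrFun (Subsingleton.elim (Pi.mulSingle 0 b : ∀ j, B j) 1) 0) hb
  | succ m ih =>
    intro n A B _ _ _ _ hA hB e
    obtain ⟨j, hj⟩ := exists_index (hA 0) ((splitEquiv A 0).trans e)
    obtain ⟨n, rfl⟩ : ∃ k, n = k + 1 := ⟨n - 1, by have := j.pos; omega⟩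
    have := (hA 0).1
    obtain ⟨e1, ⟨e2⟩⟩ := exchange (hB j) (((splitEquiv A 0).trans e).trans (splitEquiv B j).symm) (by
      have key : ∀ b : B j, splitEquiv B j (b, 1) = Pi.mulSingle j b := fun b =>
        (splitEquiv B j).symm.injective (by
          rw [MulEquiv.symm_apply_apply]
          refine Prod.ext (show b = (Pi.mulSingle j b : ∀ j, B j) j by simp) (funext fun k => ?_)
          show 1 = (Pi.mulSingle j b : ∀ j, B j) (j.succAbove k)
          simp [Fin.succAbove_ne])
      intro x y hxy
      apply hj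
      simp only [← key]
      exact hxy)
    obtain ⟨σ, hσ⟩ := ih (fun i => hA _) (fun k => hB _) e2
    refine ⟨(finSuccEquiv' 0).trans (σ.optionCongr.trans (finSuccEquiv' j).symm), fun i => ?_⟩
    rcases Fin.eq_self_or_eq_succAbove 0 i with rfl | ⟨i, rfl⟩
    · have : ((finSuccEquiv' 0).trans (σ.optionCongr.trans (finSuccEquiv' j).symm)) 0 = j := by simp
      rw [this]
      exact e1
    · have : ((finSuccEquiv' 0).trans (σ.optionCongr.trans (finSuccEquiv' j).symm))
          (Fin.succAbove 0 i) = j.succAbove (σ i) := by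
        simp [-Fin.succAbove_zero, -Fin.zero_succAbove]
      rw [this]
      exact hσ i

end Aux

/-- If a finite group is isomorphic both to a direct product of `m` directly indecomposable nontrivial groups and to a direct product of `n` such groups (a group is directly indecomposable when it is not the internal direct product of two nontrivial normal subgroups), then `m = n` and the factors are isomorphic in pairs after a suitable matching. -/
theorem result {m n : ℕ} {A : Fin m → Type*} {B : Fin n → Type*} [∀ i, Group (A i)] [∀ j, Group (B j)] [∀ i, Finite (A i)] [∀ j, Finite (B j)] (hA : ∀ i, Nontrivial (A i) ∧ ∀ H K : Subgroup (A i), H.Normal → K.Normal → H ⊓ K = ⊥ → H ⊔ K = ⊤ → H = ⊥ ∨ K = ⊥) (hB : ∀ j, Nontrivial (B j) ∧ ∀ H K : Subgroup (B j), H.Normal → K.Normal → H ⊓ K = ⊥ → H ⊔ K = ⊤ → H = ⊥ ∨ K = ⊥) (e : ((i : Fin m) → A i) ≃* ((j : Fin n) → B j)) : ∃ σ : Fin m ≃ Fin n, ∀ i, Nonempty (A i ≃* B (σ i)) := by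
  exact main m hA hB e

end Cfsg.Agent.S4223
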