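import Cfsg.Statements.S4227
import Cfsg.Agent.S0635
import Cfsg.Agent.S3783
import Cfsg.Agent.Lib.Char.Burnside
import Cfsg.Agent.Lib.PLen.Basic

set_option autoImplicit false
open Cfsg

namespace Cfsg.Agent.S4227

theorem pow_eq_one_of {G : Type*} [Group G] {x : G} {q k m : ℕ} (h1 : x ^ q ^ k = 1)
    (h2 : x ^ (m * q) = 1) (hc : m.Coprime q) : x ^ q = 1 := by
  have h3 : (x ^ q) ^ q ^ k = 1 := by rw [← pow_mul, mul_comm, pow_mul, h1, one_pow]
  have h4 : (x ^ q) ^ m = 1 := by rw [← pow_mul, mul_comm, h2]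
  rw [← orderOf_eq_one_iff]
  exact Nat.eq_one_of_dvd_coprimes (hc.pow_right k) (orderOf_dvd_of_pow_eq_one h4)
    (orderOf_dvd_of_pow_eq_one h3)

theorem comm_of_sq {G : Type*} [Group G] (h : ∀ x : G, x ^ 2 = 1) : IsMulCommutative G := by
  refine ⟨⟨fun a b => ?_⟩⟩
  have h1 : ∀ x : G, x⁻¹ = x := fun x => inv_eq_of_mul_eq_one_right (by rw [← sq, h])
  rw [← h1 (a * b), mul_inv_rev, h1, h1]

/-- A finite group in which every element has order dividing `6` has `2`-length at most `1` and `3`-length at most `1`. -/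
theorem result {G : Type*} [Group G] [Finite G] (h : ∀ x : G, x ^ 6 = 1) : Cfsg.PLengthLE 2 1 G ∧ Cfsg.PLengthLE 3 1 G := by
  have h2 : ∀ P : Sylow 2 G, IsMulCommutative (P : Subgroup G) := by
    intro P
    apply comm_of_sq
    intro x
    obtain ⟨k, hk⟩ := P.isPGroup' x
    exact pow_eq_one_of (m := 3) hk (Subtype.ext (h x)) (by norm_num)
  have hs : Group.IsSolvable G := by
    have h1 : Nat.card G = 2 ^ (Nat.card G).factorization 2 * 3 ^ (Nat.card G).factorization 3 := by
      have hsub : (Nat.card G).primeFactors ⊆ {2, 3} := by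
        intro q hq
        have hq' := Nat.prime_of_mem_primeFactors hq
        have := Fact.mk hq'
        obtain ⟨x, hx⟩ := exists_prime_orderOf_dvd_card' (G := G) q (Nat.dvd_of_mem_primeFactors hq)
        have h3 : q ∣ 2 * 3 := hx ▸ orderOf_dvd_of_pow_eq_one (h x)
        rcases (Nat.Prime.dvd_mul hq').1 h3 with h4 | h4
        · simp [(Nat.prime_dvd_prime_iff_eq hq' Nat.prime_two).1 h4]
        · simp [(Nat.prime_dvd_prime_iff_eq hq' Nat.prime_three).1 h4]
      conv_lhs => rw [← Nat.prod_factorization_pow_eq_self (Nat.card_pos (α := G)).ne']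
      rw [Finsupp.prod_of_support_subset _ (by simpa using hsub) _ (by simp), Finset.prod_pair (by norm_num)]
    exact CfsgLib.Char.isSolvable_of_card_eq_pow_mul_pow Nat.prime_two Nat.prime_three h1
  constructor
  · obtain ⟨P⟩ : Nonempty (Sylow 2 G) := inferInstance
    refine CfsgLib.PLen.plen_mono (S0635.result CfsgLib.PLocal.PSolv.of_isSolvable P) ?_
    have := P.isPGroup'.isNilpotent
    exact Group.IsNilpotent.nilpotencyClass_le_one_iff.2 (h2 P)
  · have : Fact (Nat.Prime 3) := ⟨Nat.prime_three⟩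
    refine S3783.result CfsgLib.PLocal.PSolv.of_isSolvable (fun q _ hq Q => ?_) 1 (fun P x hx => ?_)
    · by_cases hq2 : q = 2
      · subst hq2; exact h2 Q
      · apply comm_of_sq
        intro x
        obtain ⟨k, hk⟩ := Q.isPGroup' x
        have hq' : q.Prime := Fact.out
        have hc : (2 * 3).Coprime q := Nat.Coprime.mul_left
          ((Nat.coprime_primes Nat.prime_two hq').2 (Ne.symm hq2))
          ((Nat.coprime_primes Nat.prime_three hq').2 (Ne.symm hq))
        have : x = 1 := by
          rw [← orderOf_eq_one_iff]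
          exact Nat.eq_one_of_dvd_coprimes (hc.pow_right k)
            (orderOf_dvd_of_pow_eq_one (Subtype.ext (h x))) (orderOf_dvd_of_pow_eq_one hk)
        rw [this, one_pow]
    · obtain ⟨k, hk⟩ := P.isPGroup' ⟨x, hx⟩
      rw [pow_one]
      exact pow_eq_one_of (m := 2) (congrArg Subtype.val hk) (h x) (by norm_num)

end Cfsg.Agent.S4227
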