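import Cfsg.Statements.S4277
import Cfsg.Agent.Lib.SolvStruct.OddAut
import Cfsg.Agent.Lib.SolvStruct.Util
import Cfsg.Agent.Lib.Perm.PrimeDegree
import Cfsg.Agent.Lib.Sharp.Four
import Cfsg.Agent.Lib.Fgs.ClassSize

set_option autoImplicit false
open Cfsg

namespace Cfsg.Agent.S4277

open Subgroup MulAction

theorem solvable_of_odd_comm {X : Type*} [Group X] [Finite X]
    (h : ∀ a b : X, Odd (orderOf a) → Odd (orderOf b) → a * b = b * a) : Group.IsSolvable X := by
  let O : Subgroup X := closure {a | Odd (orderOf a)}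
  have hO : O.Normal := by
    constructor
    intro a ha g
    have : O.map (MulAut.conj g).toMonoidHom ≤ O := by
      rw [MonoidHom.map_closure]
      apply Subgroup.closure_mono
      rintro _ ⟨b, hb, rfl⟩
      change Odd (orderOf (MulAut.conj g b))
      rwa [MulEquiv.orderOf_eq]
    exact this ⟨a, ha, rfl⟩
  have h1 : IsMulCommutative O := isMulCommutative_closure fun a ha b hb => h a b ha hb
  have h2 : IsPGroup 2 (X ⧸ O) := by
    intro x
    obtain ⟨x, rfl⟩ := QuotientGroup.mk_surjective x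
    obtain ⟨a, b, -, -, hab, -, ⟨k, hk⟩, hb⟩ := CfsgLib.Fgs.exists_p_part 2 x
    have hb' : b ∈ O := subset_closure (Nat.not_even_iff_odd.1 (mt even_iff_two_dvd.1 hb))
    refine ⟨k, ?_⟩
    rw [← hab, QuotientGroup.mk_mul, (QuotientGroup.eq_one_iff b).2 hb', mul_one,
      ← QuotientGroup.mk_pow, ← hk, pow_orderOf_eq_one, QuotientGroup.mk_one]
  have := h2.isNilpotent
  have : Group.IsSolvable O := Group.isSolvable_of_comm fun a b => h1.is_comm.comm a b
  exact Group.isSolvable_of_ker_le_range O.subtype (QuotientGroup.mk' O) (by simp)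

/-- Pairs of an automorphism and a permutation inducing it. -/
def indGrp (G Ω : Type*) [Group G] [MulAction G Ω] : Subgroup (MulAut G × Equiv.Perm Ω) where
  carrier := {p | ∀ (g : G) (x : Ω), p.2 (g • x) = p.1 g • p.2 x}
  one_mem' := fun _ _ => rfl
  mul_mem' := by
    intro a b ha hb g x
    simp only [Prod.snd_mul, Prod.fst_mul, Equiv.Perm.mul_apply, MulAut.mul_apply, hb g x, ha _ _]
  inv_mem' := by
    intro a ha g x
    apply a.2.injective
    rw [ha]
    simp

/-- The action on points. -/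
instance indAct (G Ω : Type*) [Group G] [MulAction G Ω] : MulAction (indGrp G Ω) Ω where
  smul p x := p.1.2 x
  one_smul _ := rfl
  mul_smul _ _ _ := rfl

/-- The embedding of `G`. -/
def indEmb (G Ω : Type*) [Group G] [MulAction G Ω] : G →* indGrp G Ω :=
  ((MulAut.conj : G →* MulAut G).prod (toPermHom G Ω)).codRestrict _ (by
    intro g h x
    simp [smul_smul])

theorem comm_of_prime {G Ω : Type*} [Group G] [Finite G] [MulAction G Ω] [Fintype Ω]
    [FaithfulSMul G Ω] [IsPretransitive G Ω] {p : ℕ} [hp : Fact p.Prime] (hc : Nat.card Ω = p) :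
    commutator (indGrp G Ω) ≤ (indEmb G Ω).range := by
  classical
  have hf : FaithfulSMul (indGrp G Ω) Ω := by
    constructor
    rintro ⟨⟨a, σ⟩, ha⟩ ⟨⟨b, τ⟩, hb⟩ h
    have h1 : σ = τ := Equiv.ext h
    subst h1
    have h2 : a = b := by
      ext g
      apply eq_of_smul_eq_smul (α := Ω)
      intro x
      obtain ⟨x, rfl⟩ := σ.surjective x
      exact (ha g x).symm.trans (hb g x)
    subst h2
    rfl
  have hn : (indEmb G Ω).range.Normal := by
    constructor
    rintro _ ⟨g, rfl⟩ n
    refine ⟨n.1.1 g, eq_of_smul_eq_smul (α := Ω) fun x => ?_⟩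
    rw [mul_smul, mul_smul]
    conv_lhs => rw [← smul_inv_smul n x]
    exact (n.2 g _).symm
  have hcard : Nat.card (indGrp G Ω) ∣ p.factorial := by
    rw [← hc, ← Nat.card_perm]
    exact card_dvd_of_injective (toPermHom _ Ω) toPerm_injective
  obtain ⟨T, hT⟩ := CfsgLib.Perm.exists_orderOf_eq_of_transitive (G := G) hc
  have hinj : Function.Injective (indEmb G Ω) := by
    intro a b hab
    exact eq_of_smul_eq_smul (α := Ω) fun x => congrArg (fun n : indGrp G Ω => n • x) hab
  set P := zpowers (indEmb G Ω T) with hP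
  have hPc : Nat.card P = p := by rw [Nat.card_zpowers, orderOf_injective _ hinj, hT]
  have hPG : P ≤ (indEmb G Ω).range := zpowers_le.2 ⟨T, rfl⟩
  have hPi : ¬ p ∣ P.index := by
    intro h
    have h1 : p * p ∣ p.factorial := by
      refine (?_ : p * p ∣ _).trans hcard
      rw [← P.card_mul_index, hPc]
      exact Nat.mul_dvd_mul_left p h
    rw [← Nat.mul_factorial_pred hp.out.ne_zero] at h1
    have h2 := Nat.dvd_of_mul_dvd_mul_left hp.out.pos h1
    have := (Nat.Prime.dvd_factorial hp.out).1 h2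
    have := hp.out.pos
    omega
  let S : Sylow p (indGrp G Ω) := (IsPGroup.of_card (n := 1) (by rw [hPc, pow_one])).toSylow hPi
  have hfr : normalizer (P : Set (indGrp G Ω)) ⊔ (indEmb G Ω).range = ⊤ :=
    Sylow.normalizer_sup_eq_top' S hPG
  have hC := CfsgLib.Sharp.centralizer_le_of_prime_degree hp.out
    (Nat.card_eq_fintype_card.symm.trans hc) P hPc
  have h1 : ⁅normalizer (P : Set (indGrp G Ω)), normalizer (P : Set (indGrp G Ω))⁆ ≤ P := by
    refine le_trans ?_ hC
    have : IsCyclic (P.subgroupOf (normalizer (P : Set (indGrp G Ω)))) :=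
      isCyclic_of_prime_card (p := p) (by rw [CfsgLib.SolvStruct.card_subgroupOf_of_le le_normalizer, hPc])
    have h2 := CfsgLib.SolvStruct.commutator_le_centralizer_of_cyclic
      (P.subgroupOf (normalizer (P : Set (indGrp G Ω))))
    rw [← map_subtype_commutator]
    rintro _ ⟨c, hc, rfl⟩ y hy
    exact congrArg Subtype.val (h2 hc ⟨y, le_normalizer hy⟩ hy)
  rw [← Normal.quotient_commutative_iff_commutator_le]
  refine ⟨⟨fun a b => ?_⟩⟩
  have key : ∀ a : indGrp G Ω ⧸ (indEmb G Ω).range,
      ∃ n ∈ normalizer (P : Set (indGrp G Ω)), (n : _ ⧸ _) = a := by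
    intro a
    obtain ⟨a, rfl⟩ := QuotientGroup.mk_surjective a
    obtain ⟨n, hn, m, hm, rfl⟩ := mem_sup_of_normal_right.1 (hfr ▸ mem_top a)
    exact ⟨n, hn, by rw [QuotientGroup.mk_mul, (QuotientGroup.eq_one_iff m).2 hm, mul_one]⟩
  obtain ⟨a, ha, rfl⟩ := key a
  obtain ⟨b, hb, rfl⟩ := key b
  rw [← commutatorElement_eq_one_iff_mul_comm, ← QuotientGroup.mk'_apply, ← QuotientGroup.mk'_apply,
    ← map_commutatorElement, QuotientGroup.mk'_apply, QuotientGroup.eq_one_iff]
  exact hPG (h1 (commutator_mem_commutator ha hb))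

/-- A case of the Schreier conjecture: if a finite simple group G has a subgroup of prime index, then the outer automorphism group of G is solvable. -/
theorem result {G : Type*} [Group G] [Finite G] [IsSimpleGroup G] (H : Subgroup G) (hH : H.index.Prime) : Group.IsSolvable (Cfsg.Out G) := by
  classical
  apply solvable_of_odd_comm
  by_cases hs : Group.IsSolvable G
  · have h1 : ∀ a b : G, a * b = b * a := IsSimpleGroup.comm_iff_isSolvable.2 hs
    have : IsCyclic G := by
      let _ : CommGroup G := { (inferInstance : Group G) with mul_comm := h1 }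
      infer_instance
    intro a b _ _
    obtain ⟨a, rfl⟩ := QuotientGroup.mk_surjective a
    obtain ⟨b, rfl⟩ := QuotientGroup.mk_surjective b
    have : a * b = b * a := by
      apply (IsCyclic.mulAutMulEquiv G).injective
      rw [map_mul, map_mul, mul_comm]
    rw [← QuotientGroup.mk_mul, ← QuotientGroup.mk_mul, this]
  have := Fact.mk hH
  have := Fintype.ofFinite (G ⧸ H)
  have hf : FaithfulSMul G (G ⧸ H) := by
    have h1 : (toPermHom G (G ⧸ H)).ker = ⊥ := by
      rw [← normalCore_eq_ker]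
      refine (IsSimpleGroup.eq_bot_or_eq_top_of_normal _ inferInstance).resolve_right fun h => ?_
      exact hH.one_lt.ne' (index_eq_one.2 (top_le_iff.1 (h ▸ H.normalCore_le)))
    exact ⟨fun h => (MonoidHom.ker_eq_bot_iff _).1 h1 (Equiv.ext h)⟩
  have h2 := CfsgLib.Perm.two_transitive_of_not_isSolvable (G := G) (Ω := G ⧸ H) (p := H.index) rfl hs
  have hHall : (Nat.card (stabilizer G ((1 : G) : G ⧸ H))).Coprime
      (stabilizer G ((1 : G) : G ⧸ H)).index := by
    rw [stabilizer_quotient]
    apply Nat.Coprime.symm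
    rw [Nat.Prime.coprime_iff_not_dvd hH]
    intro h
    have h1 : H.index * H.index ∣ H.index.factorial := by
      refine (?_ : _ ∣ Nat.card G).trans ?_
      · rw [← H.card_mul_index]
        exact Nat.mul_dvd_mul_right h _
      · rw [index_eq_card, ← Nat.card_perm]
        exact card_dvd_of_injective (toPermHom _ _) toPerm_injective
    rw [← Nat.mul_factorial_pred hH.ne_zero] at h1
    have h2 := Nat.dvd_of_mul_dvd_mul_left hH.pos h1
    have := (Nat.Prime.dvd_factorial hH).1 h2
    have := hH.pos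
    omega
  let θ : indGrp G (G ⧸ H) →* Out G :=
    (QuotientGroup.mk' _).comp ((MonoidHom.fst _ _).comp (indGrp G (G ⧸ H)).subtype)
  have key : ∀ a : Out G, Odd (orderOf a) → ∃ n, θ n = a := by
    intro a ha
    obtain ⟨a, rfl⟩ := QuotientGroup.mk'_surjective _ a
    obtain ⟨u, v, hu, -, huv, -, ⟨k, hk⟩, hv⟩ := CfsgLib.Fgs.exists_p_part 2 a
    obtain ⟨σ, hσ⟩ := CfsgLib.SolvStruct.oddAut_induced_of_hall h2 _ hHall v
      (Nat.not_even_iff_odd.1 (mt even_iff_two_dvd.1 hv))
    refine ⟨⟨(v, σ), hσ⟩, ?_⟩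
    have h3 : QuotientGroup.mk' (Inn G) u = 1 := by
      rw [← orderOf_eq_one_iff]
      apply Nat.eq_one_of_dvd_coprimes (Nat.Coprime.pow_left k (Nat.coprime_two_left.2 ha))
      · exact hk ▸ orderOf_map_dvd _ u
      · exact orderOf_dvd_of_mem_zpowers (by
          rw [← MonoidHom.map_zpowers]; exact mem_map_of_mem _ hu)
    rw [← huv, map_mul, h3, one_mul]
    rfl
  intro a b ha hb
  obtain ⟨a, rfl⟩ := key a ha
  obtain ⟨b, rfl⟩ := key b hb
  obtain ⟨g, hg⟩ := comm_of_prime (G := G) (Ω := G ⧸ H) (p := H.index) rfl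
    (commutator_mem_commutator (mem_top a) (mem_top b))
  rw [← commutatorElement_eq_one_iff_mul_comm, ← map_commutatorElement, ← hg]
  exact (QuotientGroup.eq_one_iff _).2 ⟨g, rfl⟩

end Cfsg.Agent.S4277
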