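import Mathlib
import Cfsg.Statements.S4278
import Cfsg.Agent.Lib.Lang.InvG2

set_option autoImplicit false
open Cfsg

namespace Cfsg.Agent.S4278

open CfsgLib.Chev CfsgLib.Weyl CfsgLib.RGD CfsgLib.Lang CfsgLib.ChevAut Cfsg.Lie Cfsg.Lie.ChevalleyDatum

/-- In the Chevalley group of type G₂ over a finite field of odd order, any two involutions are conjugate. -/
theorem result {F : Type*} [Field F] [Fintype F] (hF : Odd (Fintype.card F)) (s t : ↥(Cfsg.Lie.chevG2.group F)) (hs : orderOf s = 2) (ht : orderOf t = 2) : IsConj s t := by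
  have hm : chevG2 ∈ [chevG2, chevB2, chevD4, chevF4, chevE6, chevE7, chevE8] := by simp
  have := good_of_mem hm
  have hτ : ∀ c, tau chevG2 F c ∈ chevG2.group F := fun c => tau_mem_group rtOKG2 (by
    simpa using tau_pow_mem rtOKG2 smithG2 (e := 1) (fun i hi x => ⟨x, by rw [(by decide : ∀ i < 2, [1, 1].getD i 0 = 1) i hi]⟩) c)
  have key := fun (u : chevG2.group F) hu => exists_isConj_sgn _ tablesOKG2 rfl hm (two_ne_zero_of_odd hF) hτ negG2 [1]
    (by simpa using ⟨_, _, clsG2⟩) orbG2 (t := u) hu
  simp only [List.mem_singleton, exists_eq_left] at key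
  exact (key s hs).trans (key t ht).symm

end Cfsg.Agent.S4278
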