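import Mathlib
import Cfsg.Statements.S4281
import Cfsg.Agent.Lib.Lang.InvE8A
import Cfsg.Agent.Lib.Lang.InvE8B

set_option autoImplicit false
open scoped BigOperators
open Cfsg

namespace Cfsg.Agent.S4281

open CfsgLib.Chev CfsgLib.Weyl CfsgLib.RGD CfsgLib.Lang CfsgLib.ChevAut Cfsg.Lie Cfsg.Lie.ChevalleyDatum

/-- In the Chevalley group of type E₈ over a finite field of odd order q there are exactly two conjugacy classes of involutions; the centralizer of an involution in one class has order q⁵⁶(q⁸ − 1)·∏_{i=1}^{7}(q^{2i} − 1), and in the other class q⁶⁴(q² − 1)²(q⁶ − 1)(q⁸ − 1)(q¹⁰ − 1)(q¹² − 1)(q¹⁴ − 1)(q¹⁸ − 1). -/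
theorem result {F : Type*} [Field F] [Fintype F] (hF : Odd (Fintype.card F)) : ∃ s t : ↥(Cfsg.Lie.chevE8.group F), orderOf s = 2 ∧ orderOf t = 2 ∧ ¬ IsConj s t ∧ (∀ u : ↥(Cfsg.Lie.chevE8.group F), orderOf u = 2 → IsConj u s ∨ IsConj u t) ∧ Nat.card (Subgroup.centralizer ({s} : Set ↥(Cfsg.Lie.chevE8.group F))) = Fintype.card F ^ 56 * (Fintype.card F ^ 8 - 1) * ∏ i ∈ Finset.Icc 1 7, (Fintype.card F ^ (2 * i) - 1) ∧ Nat.card (Subgroup.centralizer ({t} : Set ↥(Cfsg.Lie.chevE8.group F))) = Fintype.card F ^ 64 * (Fintype.card F ^ 2 - 1) ^ 2 * (Fintype.card F ^ 6 - 1) * (Fintype.card F ^ 8 - 1) * (Fintype.card F ^ 10 - 1) * (Fintype.card F ^ 12 - 1) * (Fintype.card F ^ 14 - 1) * (Fintype.card F ^ 18 - 1) := by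
  have hm : chevE8 ∈ [chevG2, chevB2, chevD4, chevF4, chevE6, chevE7, chevE8] := by simp
  have := good_of_mem hm
  have h2 := two_ne_zero_of_odd hF
  have hτ : ∀ c, tau chevE8 F c ∈ chevE8.group F := fun c => tau_mem_group rtOKE8 (by
    simpa using tau_pow_mem rtOKE8 smithE8 (e := 1) (fun i hi x => ⟨x, by
      rw [(by decide : ∀ i < 8, [1, 1, 1, 1, 1, 1, 1, 1].getD i 0 = 1) i hi]⟩) c)
  have e1 := clsE8A.card_centralizer _ rfl h2 hτ (card_diagonalSubgroup_E8 F)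
  have e2 := clsE8B.card_centralizer _ rfl h2 hτ (card_diagonalSubgroup_E8 F)
  simp only [List.map_cons, List.map_nil, List.prod_cons, List.prod_nil, mul_one, ← mul_assoc] at e1 e2
  refine ⟨_, _, orderOf_sgn rtOKE8 h2 hτ (i := 4) (by decide) rfl, orderOf_sgn rtOKE8 h2 hτ (i := 3) (by decide) rfl,
    fun e => ?_, fun u hu => ?_, by rw [e1]; simp [Finset.prod_Icc_succ_top, mul_assoc], by rw [e2]; ring⟩
  · have e3 := e1.symm.trans ((card_centralizer_eq e).trans e2)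
    have hq : 1 < Fintype.card F := Fintype.one_lt_card
    generalize Fintype.card F = q at e3 hq
    have a1 : ∀ k, k ≠ 0 → 0 < q ^ k - 1 := fun k hk => Nat.sub_pos_of_lt (Nat.one_lt_pow hk hq)
    have a2 : (q ^ 4 - 1) * (q ^ 8 - 1) < q ^ 8 * (q ^ 18 - 1) * (q ^ 2 - 1) := by
      have := Nat.pow_lt_pow_right hq (show 4 < 8 by omega)
      have := Nat.pow_lt_pow_right hq (show 8 < 18 by omega)
      exact (Nat.mul_lt_mul'' (by omega) (by have := a1 8; omega)).trans_le (Nat.le_mul_of_pos_right _ (a1 2 two_ne_zero))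
    refine a2.ne (Nat.eq_of_mul_eq_mul_left (show 0 < q ^ 56 * (q ^ 2 - 1) * (q ^ 6 - 1) * (q ^ 8 - 1) * (q ^ 10 - 1) *
      (q ^ 12 - 1) * (q ^ 14 - 1) by
        have := a1 2 (by decide); have := a1 6 (by decide); have := a1 8 (by decide); have := a1 10 (by decide)
        have := a1 12 (by decide); have := a1 14 (by decide); positivity) ?_)
    linear_combination e3
  · obtain ⟨x, hx, e⟩ := exists_isConj_sgn _ tablesOKE8 rfl hm h2 hτ negE8 [16, 8]
      (by simpa using ⟨⟨_, _, clsE8A⟩, _, _, clsE8B⟩) orbE8 hu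
    rcases List.mem_pair.1 hx with rfl | rfl
    exacts [Or.inl e, Or.inr e]

end Cfsg.Agent.S4281
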