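import Cfsg.Statements.S4282
import Mathlib
import Cfsg.Agent.Lib.FPF.Cyclic

set_option autoImplicit false
open Cfsg

namespace Cfsg.Agent.S4282

open CfsgLib.HH CfsgLib.FPF CfsgLib.Core Subgroup in

/-- A critical case behind the Hall–Higman theorem. Let p ≠ q be primes and G a finite group generated by a normal q-subgroup Q and a cyclic p-subgroup generated by x, such that the centralizer of every non-identity element of that cyclic subgroup is its product with the centre of G. Let K be an algebraically closed field of characteristic p and ρ a faithful representation of G on a nonzero finite-dimensional K-space whose restriction to Q is irreducible. If s is the least exponent with (ρ(x) − 1)^s = 0, then |⟨x⟩| − 1 ≤ s ≤ |⟨x⟩|; and if s = |⟨x⟩| − 1 then |⟨x⟩| − 1 is a power of q and Q is non-abelian. -/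
theorem result {G : Type*} [Group G] [Finite G] (p q : ℕ) [Fact p.Prime] [Fact q.Prime] (hpq : p ≠ q) (Q : Subgroup G) [Q.Normal] (hQ : IsPGroup q Q) (x : G) (hx : IsPGroup p (Subgroup.zpowers x)) (hgen : Q ⊔ Subgroup.zpowers x = ⊤) (hC : ∀ y ∈ Subgroup.zpowers x, y ≠ 1 → Subgroup.centralizer ({y} : Set G) = Subgroup.zpowers x ⊔ Subgroup.center G) {K : Type*} [Field K] [IsAlgClosed K] [CharP K p] {V : Type*} [AddCommGroup V] [Module K V] [FiniteDimensional K V] [Nontrivial V] (ρ : Representation K G V) (hfaith : Function.Injective ρ) (hirr : ∀ W : Submodule K V, (∀ g ∈ Q, Submodule.map (ρ g) W ≤ W) → W = ⊥ ∨ W = ⊤) (s : ℕ) (hs : (ρ x - 1) ^ s = 0) (hmin : ∀ k < s, (ρ x - 1) ^ k ≠ 0) : Nat.card (Subgroup.zpowers x) - 1 ≤ s ∧ s ≤ Nat.card (Subgroup.zpowers x) ∧ (s = Nat.card (Subgroup.zpowers x) - 1 → (∃ b : ℕ, Nat.card (Subgroup.zpowers x) - 1 = q ^ b) ∧ ¬ IsMulCommutative Q) := by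
  have hp : p.Prime := Fact.out
  have hρ : ∀ g, ρ g = 1 → g = 1 := fun g hg => hfaith (by rw [hg, map_one])
  obtain ⟨n, hn⟩ := IsPGroup.iff_card.1 hx
  have hxn : x ^ p ^ n = 1 := by rw [← hn, Nat.card_zpowers]; exact pow_orderOf_eq_one x
  have hs0 : 0 < s := Nat.pos_of_ne_zero (by rintro rfl; simp at hs)
  have : CharP (Module.End K V) p := charP_of_injective_algebraMap (algebraMap K _).injective p
  have hle : s ≤ p ^ n := by
    by_contra h
    apply hmin _ (not_le.1 h)
    rw [sub_pow_char_pow_of_commute _ _ (Commute.one_right _), one_pow, ← map_pow, hxn, map_one,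
      sub_self]
  rw [hn]
  rcases n with _ | a
  · refine ⟨by simp, hle, fun h => ?_⟩
    simp at h; omega
  have hy1 : x ^ p ^ a ≠ 1 := fun h => by
    have h2 := orderOf_dvd_of_pow_eq_one h
    rw [← Nat.card_zpowers, hn, Nat.pow_dvd_pow_iff_le_right hp.one_lt] at h2
    omega
  have hpos : 0 < p ^ (a + 1) := pow_pos hp.pos _
  by_cases hpi : PowIndep (F := K) (ρ x) (p ^ (a + 1))
  · have := hpi.le_of_sub_one_pow hs
    exact ⟨by omega, hle, fun h => by omega⟩
  have hq : (q : K) ≠ 0 := by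
    rw [Ne, CharP.cast_eq_zero_iff K p, Nat.prime_dvd_prime_iff_eq hp Fact.out]
    exact hpq
  obtain ⟨P, hPQ, hxP, -, -, -, χ, hχ, c, b, rfl, hxW, h0, k, -, h1, -, h3⟩ :=
    exists_exception hp hpq hq ρ hρ hQ (le_normalizer_of_normal (mem_top x)) hxn (by
      by_contra h
      push Not at h
      obtain ⟨c, hc⟩ := schur_scalar (ρ '' (Q : Set G)) (fun W hW => hirr W fun g hg => by
        rintro _ ⟨v, hv, rfl⟩; exact hW _ ⟨g, hg, rfl⟩ v hv) (ρ (x ^ p ^ a)) (by
        rintro _ ⟨g, hg, rfl⟩; rw [← map_mul, ← map_mul, h g hg])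
      have h1 : c ^ p = 1 := by
        apply (algebraMap K (Module.End K V)).injective
        rw [map_pow, map_one, Algebra.algebraMap_eq_smul_one, ← hc, ← map_pow, ← pow_mul,
          ← pow_succ, hxn, map_one]
      have h2 : (c - 1) ^ p = 0 := by rw [sub_pow_char, h1, one_pow, sub_self]
      rw [sub_eq_zero.1 (pow_eq_zero_iff hp.ne_zero |>.1 h2), one_smul] at hc
      exact hy1 (hρ _ hc)) hpi
  have hxZ : x ∈ normalizer ((P ⊓ centralizer (P : Set G) : Subgroup G) : Set G) :=
    inf_normalizer_le_normalizer_inf ⟨hxP, normalizer_le_normalizer_centralizer _ hxP⟩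
  have hc0 : c = 0 := by
    apply h0
    intro v hv
    rw [mem_wt]
    rintro ⟨z, hz⟩
    have hyc : (x ^ p ^ c) ^ p ^ (b + 1) = 1 := by rw [← pow_mul, ← pow_add, ← add_assoc, hxn]
    obtain ⟨u, hu, d, hd, rfl⟩ := CfsgLib.Coprime.exists_commutator_mul_centralizer
      (zpowers_le.2 (pow_mem hxZ (p ^ c))) (by
        rw [Nat.card_zpowers]
        exact coprime_orderOf_of_pow_eq_one hp hpq ((hQ.to_le hPQ).to_le inf_le_left) hyc)
      (Or.inl (CfsgLib.Coprime.isSolvable_zpowers _)) hz
    have hk : ⁅P ⊓ centralizer (P : Set G), zpowers (x ^ p ^ c)⁆ ≤ kerOn ρ (wt ρ _ χ) := by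
      rw [commutator_comm]
      exact commutator_zpowers_left_le (stab_le_normalizer_kerOn _ _ hxW)
        fun g hg => comm_mem_kerOn_wt hxW hg
    have hn2 : x ∈ normalizer ((⁅P ⊓ centralizer (P : Set G), zpowers (x ^ p ^ c)⁆ : Subgroup G) :
        Set G) := normalizer_inf_le_normalizer_commutator _ _ ⟨hxZ, centralizer_le_normalizer _
          (by rw [centralizer_zpowers, mem_centralizer_singleton_iff, ← pow_succ, ← pow_succ'])⟩
    have hdx : d * x = x * d := by
      have h4 := hd.2
      rw [centralizer_zpowers, hC _ (pow_mem (mem_zpowers x) _) (fun h => hy1 (by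
        rw [pow_add, pow_mul, h, one_pow]))] at h4
      exact mem_centralizer_singleton_iff.1 ((sup_le (zpowers_le.2
        (mem_centralizer_singleton_iff.2 rfl)) (center_le_centralizer _) :
          _ ≤ centralizer {x}) h4)
    have hdv := mem_wt.1 hv ⟨d, hd.1⟩
    have h5 := mem_wt.1 hv ⟨u * d, hz⟩
    simp only [map_mul, Module.End.mul_apply] at h5 hdv ⊢
    rw [hdv, map_smul, hk hu v hv] at h5
    rw [← Module.End.mul_apply (ρ d), ← map_mul, hdx, map_mul, Module.End.mul_apply, hdv,
      ← map_smul, ← h5, ← Module.End.mul_apply, ← map_mul,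
      show u * x = x * (x⁻¹ * u * x) by group, map_mul, Module.End.mul_apply, map_smul,
      hk ((mem_normalizer_iff''.1 hn2 u).1 hu) v hv]
  subst hc0
  rw [pow_zero, one_mul] at h3
  rw [zero_add] at hle ⊢
  refine ⟨h3.le_of_sub_one_pow hs, hle, fun _ => ⟨⟨k, by omega⟩, fun hab => hχ ?_⟩⟩
  rw [commutator_eq_bot_iff_le_centralizer.2 fun g hg g' hg' =>
    isMulCommutative_iff_forall.1 hab _ (hPQ hg') _ (hPQ hg)]
  exact bot_le

end Cfsg.Agent.S4282
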