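import Cfsg.Statements.S4283
import Cfsg.Agent.Lib.Frob.Basic
import Cfsg.Agent.Lib.Fgs.ClassSize

set_option autoImplicit false
open Cfsg

namespace Cfsg.Agent.S4283

open CfsgLib.Frob CfsgLib.Fgs

/-- Let G be a finite group with centre Z and let K, H be abelian subgroups of G containing Z such that G/Z is a Frobenius group with complement H/Z and kernel K/Z. Then the conjugacy class sizes of G are exactly 1, [G : K] and [G : H], and these two indices are coprime. (This is the converse half of the characterization of finite groups whose conjugacy class sizes are exactly 1, m and n with m and n coprime.) -/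
theorem result {G : Type*} [Group G] [Finite G] (K H : Subgroup G) (hZK : Subgroup.center G ≤ K) (hZH : Subgroup.center G ≤ H) (hK : IsMulCommutative K) (hH : IsMulCommutative H) (hFrob : Cfsg.IsFrobeniusComplement (H.map (QuotientGroup.mk' (Subgroup.center G)))) (hker : Cfsg.frobeniusKernel (H.map (QuotientGroup.mk' (Subgroup.center G))) = (K.map (QuotientGroup.mk' (Subgroup.center G)) : Set (G ⧸ Subgroup.center G))) : Set.range (fun x : G => (Subgroup.centralizer ({x} : Set G)).index) = ({1, K.index, H.index} : Set ℕ) ∧ K.index.Coprime H.index := by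
  set Z := Subgroup.center G with hZ
  let π := QuotientGroup.mk' Z
  have hπ : Function.Surjective π := QuotientGroup.mk'_surjective Z
  have hkerπ : π.ker = Z := QuotientGroup.ker_mk' Z
  have memK : ∀ x, π x ∈ K.map π ↔ x ∈ K := fun x => by
    rw [← Subgroup.mem_comap, Subgroup.comap_map_eq, hkerπ, sup_eq_left.2 hZK]
  have memH : ∀ x, π x ∈ H.map π ↔ x ∈ H := fun x => by
    rw [← Subgroup.mem_comap, Subgroup.comap_map_eq, hkerπ, sup_eq_left.2 hZH]
  have one : ∀ x, π x = 1 ↔ x ∈ Z := fun x => QuotientGroup.eq_one_iff x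
  have cK : ∀ x ∈ K, x ∉ Z → Subgroup.centralizer ({x} : Set G) = K := by
    intro x hx hxZ
    apply le_antisymm
    · intro y hy
      rw [← memK, ← SetLike.mem_coe, ← hker]
      refine mem_kernel_of_commute hFrob (x := π x) ?_ (mt (one x).1 hxZ) ?_
      · rw [hker]; exact (memK x).2 hx
      · rw [← map_mul, ← map_mul, (mem_cent_iff.1 hy).eq]
    · intro y hy
      rw [mem_cent_iff]
      exact congrArg Subtype.val (hK.is_comm.comm ⟨x, hx⟩ ⟨y, hy⟩)
  have cH : ∀ x ∈ H, x ∉ Z → Subgroup.centralizer ({x} : Set G) = H := by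
    intro x hx hxZ
    apply le_antisymm
    · intro y hy
      rw [← memH]
      refine frob_mem_of_commute hFrob ((memH x).2 hx) (mt (one x).1 hxZ) ?_
      rw [← map_mul, ← map_mul, (mem_cent_iff.1 hy).eq]
    · intro y hy
      rw [mem_cent_iff]
      exact congrArg Subtype.val (hH.is_comm.comm ⟨x, hx⟩ ⟨y, hy⟩)
  have iK : (K.map π).index = K.index := Subgroup.index_map_eq _ hπ (hkerπ.symm ▸ hZK)
  have iH : (H.map π).index = H.index := Subgroup.index_map_eq _ hπ (hkerπ.symm ▸ hZH)
  have c1 : Nat.card (K.map π) = (H.map π).index := by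
    rw [← card_kernel hFrob, hker]; rfl
  constructor
  · ext n
    simp only [Set.mem_range, Set.mem_insert_iff, Set.mem_singleton_iff]
    constructor
    · rintro ⟨x, rfl⟩
      by_cases hxZ : x ∈ Z
      · exact Or.inl (index_cent_eq_one_iff.2 hxZ)
      right
      by_cases hxK : x ∈ K
      · exact Or.inl (by rw [cK x hxK hxZ])
      right
      have : π x ∉ frobeniusKernel (H.map π) := by
        rw [hker]; exact mt (memK x).1 hxK
      obtain ⟨-, g, hg⟩ := notMem_kernel_iff.1 this
      obtain ⟨g, rfl⟩ := hπ g
      rw [← map_inv, ← map_mul, ← map_mul, memH] at hg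
      rw [← index_cent_conj x g, cH _ hg]
      intro h
      apply hxZ
      have := (inferInstance : Z.Normal).conj_mem _ h g⁻¹
      simpa [mul_assoc] using this
    · rintro (rfl | rfl | rfl)
      · exact ⟨1, index_cent_eq_one_iff.2 (Subgroup.one_mem _)⟩
      · have : ¬ K ≤ Z := by
          intro h
          have h1 : K.map π = ⊥ := by
            rw [Subgroup.map_eq_bot_iff, hkerπ]; exact h
          rw [h1, Subgroup.card_bot, eq_comm, Subgroup.index_eq_one] at c1
          exact hFrob.2.1 c1
        obtain ⟨x, hx, hxZ⟩ := SetLike.not_le_iff_exists.1 this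
        exact ⟨x, by rw [cK x hx hxZ]⟩
      · have : ¬ H ≤ Z := by
          intro h
          apply hFrob.1
          rw [Subgroup.map_eq_bot_iff, hkerπ]; exact h
        obtain ⟨x, hx, hxZ⟩ := SetLike.not_le_iff_exists.1 this
        exact ⟨x, by rw [cH x hx hxZ]⟩
  · have h1 := (K.map π).index_mul_card
    have h2 := (H.map π).index_mul_card
    rw [c1, ← h2, mul_comm] at h1
    have h3 := Nat.eq_of_mul_eq_mul_left
      (Nat.pos_of_ne_zero Subgroup.index_ne_zero_of_finite) h1
    rw [← iK, ← iH, h3]
    exact frob_coprime_card_index hFrob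

end Cfsg.Agent.S4283
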