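import Cfsg.Statements.S4291
import Cfsg.Agent.Lib.FrobCompl.Solv
import Cfsg.Agent.Lib.FrobCompl.Zassenhaus

set_option autoImplicit false
open Cfsg

namespace Cfsg.Agent.S4291

open CfsgLib CfsgLib.FrobCompl Subgroup

/-- No non-trivial cyclic normal subgroup. -/
def NoCyc (X : Type*) [Group X] : Prop := ∀ x : X, x ≠ 1 → ∃ g, g * x * g⁻¹ ∉ zpowers x

theorem NoCyc.eq_bot {X : Type*} [Group X] [Finite X] (h : NoCyc X) (N : Subgroup X) [N.Normal]
    [IsZGroup N] : N = ⊥ := by
  have key : ∀ (M : Subgroup X) [M.Normal], IsCyclic M → M = ⊥ := fun M hM hc => by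
    obtain ⟨x, hx⟩ := (M.isCyclic_iff_exists_zpowers_eq_top).1 hc
    by_contra hne
    obtain ⟨g, hg⟩ := h x fun e => hne (by rw [← hx, e, zpowers_one_eq_bot])
    exact hg (hx ▸ hM.conj_mem x (hx ▸ mem_zpowers x) g)
  have h1 := IsZGroup.isCyclic_commutator N
  have h2 := key ((commutator N).map N.subtype) (isCyclic_of_surjective _
    (N.subtype.subgroupMap_surjective _))
  rw [map_eq_bot_iff_of_injective _ N.subtype_injective, commutator_def,
    commutator_eq_bot_iff_le_centralizer]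
    at h2
  have : Group.IsNilpotent N := ⟨1, by
    rw [Subgroup.upperCentralSeries_one, eq_top_iff, ← centralizer_univ]; exact h2⟩
  exact key N inferInstance

theorem not_mem_zpowers {X : Type*} [Group X] {x y : X} {n : Fin 6} (hx : x ^ (n + 1 : ℕ) = 1)
    (h : ∀ i : Fin 6, y ≠ x ^ (i : ℕ)) : y ∉ zpowers x := by
  rintro ⟨k, rfl⟩
  have h1 := Int.emod_nonneg k (show ((n + 1 : ℕ) : ℤ) ≠ 0 by omega)
  have h2 := Int.emod_lt_of_pos k (show 0 < ((n + 1 : ℕ) : ℤ) by omega)
  refine h ⟨(k % (n + 1 : ℕ)).toNat, by omega⟩ ?_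
  rw [← zpow_natCast, Int.toNat_of_nonneg h1]
  exact zpow_eq_zpow_emod' k hx

theorem noCyc_of {n : ℕ} (h : ∀ x : Equiv.Perm (Fin n), x ≠ 1 → ∃ k : Fin 6, x ^ (k + 1 : ℕ) = 1 ∧
    ∃ a b c : Fin n, ∀ i : Fin 6, (Equiv.swap a b * Equiv.swap a c) ^ 2 * x *
      ((Equiv.swap a b * Equiv.swap a c) ^ 2)⁻¹ ≠ x ^ (i : ℕ)) :
    NoCyc (Equiv.Perm (Fin n)) ∧ NoCyc (alternatingGroup (Fin n)) := by
  refine ⟨fun x hx => ?_, fun x hx => ?_⟩
  · obtain ⟨k, h1, a, b, c, h2⟩ := h x hx
    exact ⟨_, not_mem_zpowers h1 h2⟩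
  · obtain ⟨k, h1, a, b, c, h2⟩ := h x fun e => hx (Subtype.ext e)
    refine ⟨⟨(Equiv.swap a b * Equiv.swap a c) ^ 2, Equiv.Perm.mem_alternatingGroup.2 (by
      rw [map_pow, Int.units_sq])⟩, not_mem_zpowers (n := k) (Subtype.ext h1) fun i e => ?_⟩
    exact h2 i (congrArg Subtype.val e)

theorem noCyc_four : NoCyc (Equiv.Perm (Fin 4)) ∧ NoCyc (alternatingGroup (Fin 4)) :=
  noCyc_of (by decide +kernel)

theorem noCyc_five : NoCyc (Equiv.Perm (Fin 5)) ∧ NoCyc (alternatingGroup (Fin 5)) :=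
  noCyc_of (by decide +kernel)

theorem sq_four : ∀ x : DihedralGroup 2, x * x = 1 := by decide

variable {G : Type*} [Group G] [Finite G]

theorem eq_of_le_of_index_eq {H K : Subgroup G} (h : H ≤ K) (e : H.index = K.index) : H = K := by
  have h1 := relIndex_mul_index h
  rw [e] at h1
  exact h.antisymm (relIndex_eq_one.1
    (Nat.eq_of_mul_eq_mul_right (Nat.pos_of_ne_zero K.index_ne_zero_of_finite) (by rw [h1, one_mul])))

theorem le_of_noCyc {X : Type*} [Group X] [Finite X] (h : NoCyc X) {f : G →* X}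
    (hf : Function.Surjective f) (N : Subgroup G) [hN : N.Normal] [IsZGroup N] : N ≤ f.ker := by
  have := hN.map f hf
  have : IsZGroup (N.map f) := IsZGroup.of_surjective (f.subgroupMap_surjective N)
  rw [← Subgroup.map_eq_bot_iff]
  exact h.eq_bot _

/-- The quotient has no cyclic normal subgroup. -/
def Top (N : Subgroup G) : Prop := ∀ (M : Subgroup G) [M.Normal] [IsZGroup M], M ≤ N

theorem false_of_le {X : Type*} [Group X] [Finite X] [Nontrivial X] (h : NoCyc X) {f : G →* X}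
    (hf : Function.Surjective f) {f' : G →* DihedralGroup 2} (hle : f'.ker ≤ f.ker) : False := by
  obtain ⟨x, hx⟩ := exists_ne (1 : X)
  obtain ⟨g, hg⟩ := h x hx
  obtain ⟨x, rfl⟩ := hf x
  obtain ⟨g, rfl⟩ := hf g
  have h1 : ∀ a b : DihedralGroup 2, a * b * a⁻¹ * b⁻¹ = 1 := by decide
  have h2 : f (g * x * g⁻¹ * x⁻¹) = 1 := hle (by simp only [MonoidHom.mem_ker, map_mul, map_inv, h1])
  simp only [map_mul, map_inv, mul_inv_eq_one] at h2
  exact hg (by rw [h2]; exact mem_zpowers _)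


/-- Let G be a finite group that occurs as a Frobenius complement. Then G has exactly one normal subgroup N such that every Sylow subgroup of N is cyclic and the quotient of G by N is trivial or isomorphic to one of the following five groups: the Klein four-group, the alternating group of degree 4, the symmetric group of degree 4, the alternating group of degree 5, the symmetric group of degree 5. (The quotient is described by a surjective homomorphism with kernel N; the Klein four-group is written as the dihedral group of order 4.) -/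
theorem result {G : Type*} [Group G] [Finite G]
    (hFC : (∃ (L : Type) (_ : Group L) (_ : Finite L) (H : Subgroup L), Cfsg.IsFrobeniusComplement H ∧ Nonempty (G ≃* H))) :
    ∃! N : Subgroup G, N.Normal ∧ (∀ (p : ℕ) [Fact p.Prime] (P : Sylow p N), IsCyclic P) ∧
      (N = ⊤ ∨
        (∃ f : G →* DihedralGroup 2, Function.Surjective f ∧ f.ker = N) ∨
        (∃ f : G →* alternatingGroup (Fin 4), Function.Surjective f ∧ f.ker = N) ∨
        (∃ f : G →* Equiv.Perm (Fin 4), Function.Surjective f ∧ f.ker = N) ∨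
        (∃ f : G →* alternatingGroup (Fin 5), Function.Surjective f ∧ f.ker = N) ∨
        (∃ f : G →* Equiv.Perm (Fin 5), Function.Surjective f ∧ f.ker = N)) := by
  have hF : HasFree ℂ G := IsFC.hasFree hFC ℂ
  have h := hF.pqCond
  have hZ : ∀ N : Subgroup G, (∀ (p : ℕ) [Fact p.Prime] (P : Sylow p N), IsCyclic P) ↔ IsZGroup N :=
    fun N => ⟨fun h => ⟨fun p hp P => @h p ⟨hp⟩ P⟩, fun _ _ _ _ => inferInstance⟩
  simp only [hZ]
  refine existsUnique_of_exists_of_unique ?_ ?_
  · by_cases h1 : IsZGroup G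
    · exact ⟨⊤, inferInstance, inferInstance, Or.inl rfl⟩
    by_cases h2 : HasNormalPComplement 2 G
    · obtain ⟨f, h3, h4⟩ := exists_hom_four h h2 h1
      exact ⟨f.ker, inferInstance, h4, Or.inr (Or.inl ⟨f, h3, rfl⟩)⟩
    by_cases h3 : Group.IsSolvable G
    · obtain ⟨Q, _, ⟨e⟩⟩ := exists_normal_Q8 h h2
      refine ⟨centralizer Q, inferInstance, isZGroup_centralizer_Q8 h e, Or.inr (Or.inr ?_)⟩
      exact (exists_hom_of_normal_Q8 h h2 e).imp_right Or.inl
    obtain ⟨φ, hφ, _⟩ := hF.exists_normal_SL25 h3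
    obtain ⟨f, h4, h5⟩ := exists_hom_perm_five φ hφ
    refine ⟨centralizer φ.range, inferInstance, isZGroup_centralizer_SL25 h hφ,
      Or.inr (Or.inr (Or.inr (Or.inr ?_)))⟩
    have h6 : alternatingGroup (Fin 5) ≤ f.range := h5 ▸ map_le_range _ _
    rcases h6.eq_or_lt with h7 | h7
    · refine Or.inl ⟨f.codRestrict _ fun g => h7 ▸ ⟨g, rfl⟩, fun y => ?_, by
        rw [MonoidHom.ker_codRestrict, h4]⟩
      obtain ⟨g, hg⟩ := h6 y.2
      exact ⟨g, Subtype.ext hg⟩
    · refine Or.inr ⟨f, MonoidHom.range_eq_top.1 (index_eq_one.1 ?_), h4⟩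
      have h8 := index_dvd_of_le h6
      rw [alternatingGroup.index_eq_two, Nat.dvd_prime Nat.prime_two] at h8
      refine h8.resolve_right fun h9 => h7.ne (eq_of_le_of_index_eq h6 ?_)
      rw [h9, alternatingGroup.index_eq_two]
  · have key : ∀ N : Subgroup G, (N = ⊤ ∨
        (∃ f : G →* DihedralGroup 2, Function.Surjective f ∧ f.ker = N) ∨
        (∃ f : G →* alternatingGroup (Fin 4), Function.Surjective f ∧ f.ker = N) ∨
        (∃ f : G →* Equiv.Perm (Fin 4), Function.Surjective f ∧ f.ker = N) ∨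
        (∃ f : G →* alternatingGroup (Fin 5), Function.Surjective f ∧ f.ker = N) ∨
        (∃ f : G →* Equiv.Perm (Fin 5), Function.Surjective f ∧ f.ker = N)) →
        (∃ f : G →* DihedralGroup 2, Function.Surjective f ∧ f.ker = N) ∨
        (Top N ∧ ∀ f : G →* DihedralGroup 2, Function.Surjective f → IsZGroup N → ¬ f.ker ≤ N) := by
      rintro N (rfl | h1 | ⟨f, hf, rfl⟩ | ⟨f, hf, rfl⟩ | ⟨f, hf, rfl⟩ | ⟨f, hf, rfl⟩)
      · refine Or.inr ⟨fun _ _ _ => le_top, fun f hf _ _ => ?_⟩
        have : IsZGroup (DihedralGroup 2) :=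
          IsZGroup.of_surjective (f := f.comp (⊤ : Subgroup G).subtype)
            (hf.comp fun g => ⟨⟨g, mem_top g⟩, rfl⟩)
        have h1 := IsZGroup.exponent_eq_card (DihedralGroup 2)
        rw [DihedralGroup.exponent, DihedralGroup.nat_card] at h1
        exact absurd h1 (by decide)
      · exact Or.inl h1
      · exact Or.inr ⟨le_of_noCyc noCyc_four.2 hf, fun _ _ _ => false_of_le noCyc_four.2 hf⟩
      · exact Or.inr ⟨le_of_noCyc noCyc_four.1 hf, fun _ _ _ => false_of_le noCyc_four.1 hf⟩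
      · exact Or.inr ⟨le_of_noCyc noCyc_five.2 hf, fun _ _ _ => false_of_le noCyc_five.2 hf⟩
      · exact Or.inr ⟨le_of_noCyc noCyc_five.1 hf, fun _ _ _ => false_of_le noCyc_five.1 hf⟩
    rintro N M ⟨_, hN, h1⟩ ⟨_, hM, h2⟩
    rcases key N h1 with ⟨f, hf, rfl⟩ | ⟨h3, h4⟩ <;> rcases key M h2 with ⟨f', hf', rfl⟩ | ⟨h5, h6⟩
    · have h3 := card_range_le_four h (f.prod f') fun x => Prod.ext (sq_four _) (sq_four _)
      rw [← index_ker, MonoidHom.ker_prod] at h3
      have h4 : ∀ f : G →* DihedralGroup 2, Function.Surjective f → f.ker.index = 4 := fun f hf => by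
        rw [index_ker, MonoidHom.range_eq_top.2 hf, card_top, DihedralGroup.nat_card]
      have h5 : ∀ K : Subgroup G, f.ker ⊓ f'.ker ≤ K → K.index = 4 → f.ker ⊓ f'.ker = K :=
        fun K h1 h2 => eq_of_le_of_index_eq h1 (le_antisymm (h2 ▸ h3) (index_antitone h1))
      rw [← h5 _ inf_le_left (h4 f hf), h5 _ inf_le_right (h4 f' hf')]
    · exact absurd (h5 _) (h6 f hf hM)
    · exact absurd (h3 _) (h4 f' hf' hN)
    · exact le_antisymm (h5 N) (h3 M)

end Cfsg.Agent.S4291
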