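import Cfsg.Statements.S4292
import Cfsg.Agent.Lib.FrobCompl.Reduce

set_option autoImplicit false
open Cfsg

namespace Cfsg.Agent.S4292

open CfsgLib.FrobCompl in
theorem sum_range_mul' {R : Type*} [AddCommMonoid R] (F : ℕ → R) (m n : ℕ) :
    ∑ i ∈ Finset.range (m * n), F i =
      ∑ s ∈ Finset.range m, ∑ t ∈ Finset.range n, F (m * t + s) := by
  induction n with
  | zero => simp
  | succ n ih =>
    rw [mul_add_one, Finset.sum_range_add, ih, ← Finset.sum_add_distrib]
    refine Finset.sum_congr rfl fun s _ => ?_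
    rw [Finset.sum_range_succ]

theorem pow_ne_one_of_coprime {A : Type*} [Group A] [Finite A] {a : A} (ha : a ≠ 1) {n : ℕ}
    (h : (Nat.card A).Coprime n) : a ^ n ≠ 1 := fun e =>
  ha (orderOf_eq_one_iff.1
    (Nat.eq_one_of_dvd_coprimes h (orderOf_dvd_natCard a) (orderOf_dvd_of_pow_eq_one e)))


/-- Let A and B be nontrivial finite groups. Then the direct product A × B occurs as a Frobenius complement if and only if A and B both occur as Frobenius complements and the orders of A and B are coprime. -/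
theorem result {A B : Type*} [Group A] [Finite A] [Nontrivial A] [Group B] [Finite B] [Nontrivial B] :
    (∃ (L : Type) (_ : Group L) (_ : Finite L) (H : Subgroup L), Cfsg.IsFrobeniusComplement H ∧ Nonempty ((A × B) ≃* H)) ↔
    ((∃ (L : Type) (_ : Group L) (_ : Finite L) (H : Subgroup L), Cfsg.IsFrobeniusComplement H ∧ Nonempty (A ≃* H)) ∧
     (∃ (L : Type) (_ : Group L) (_ : Finite L) (H : Subgroup L), Cfsg.IsFrobeniusComplement H ∧ Nonempty (B ≃* H)) ∧
     (Nat.card A).Coprime (Nat.card B)) := by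
  open CfsgLib.FrobCompl in
  change IsFC (A × B) ↔ IsFC A ∧ IsFC B ∧ _
  constructor
  · intro h
    refine ⟨h.of_injective (MonoidHom.inl A B) (fun x y e => congrArg Prod.fst e),
      h.of_injective (MonoidHom.inr A B) (fun x y e => congrArg Prod.snd e), ?_⟩
    rw [Nat.coprime_iff_gcd_eq_one]
    by_contra hg
    obtain ⟨p, hp, hd⟩ := Nat.exists_prime_and_dvd hg
    have := Fact.mk hp
    obtain ⟨a, ha⟩ := exists_prime_orderOf_dvd_card' (G := A) p (hd.trans (Nat.gcd_dvd_left _ _))
    obtain ⟨b, hb⟩ := exists_prime_orderOf_dvd_card' (G := B) p (hd.trans (Nat.gcd_dvd_right _ _))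
    have h1 : orderOf ((a, 1) : A × B) = p := by rw [Prod.orderOf_mk, orderOf_one, ha]; simp
    have h2 : orderOf ((1, b) : A × B) = p := by rw [Prod.orderOf_mk, orderOf_one, hb]; simp
    obtain ⟨k, hk⟩ := h.pqCond.mem_zpowers_of_commute hp h1 h2 (by simp)
    have h3 : b = 1 := by simpa using (congrArg Prod.snd hk).symm
    rw [h3, orderOf_one] at hb
    exact hp.ne_one hb.symm
  · rintro ⟨hA, hB, hcop⟩
    obtain ⟨f, hf0, hf⟩ := hA.hasNS
    obtain ⟨g, hg0, hg⟩ := hB.hasNS
    refine CfsgLib.FrobCompl.isFC_of_fun_int (Nat.card A * Nat.card B)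
      (Nat.mul_pos Nat.card_pos Nat.card_pos) (fun x => f x.1 * g x.2) ?_ ?_
    · obtain ⟨a, ha⟩ := Function.ne_iff.1 hf0
      obtain ⟨b, hb⟩ := Function.ne_iff.1 hg0
      exact fun e => mul_ne_zero ha hb (congrFun e (a, b))
    · rintro ⟨a, b⟩ hab ⟨x, y⟩
      by_cases ha : a = 1
      · have hb : b ≠ 1 := fun hb => hab (by rw [ha, hb]; rfl)
        rw [sum_range_mul']
        refine Finset.sum_eq_zero fun s _ => ?_
        have := hg _ (pow_ne_one_of_coprime hb hcop.symm) (b ^ s * y)
        simp only [ha, Prod.pow_mk, Prod.mk_mul_mk, one_pow, pow_add, pow_mul, mul_assoc]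
        rw [← Finset.mul_sum, this, mul_zero]
      · rw [mul_comm, sum_range_mul']
        refine Finset.sum_eq_zero fun s _ => ?_
        have := hf _ (pow_ne_one_of_coprime ha hcop) (a ^ s * x)
        simp only [Prod.pow_mk, Prod.mk_mul_mk, pow_add, pow_mul, mul_assoc, pow_card_eq_one',
          one_pow, one_mul]
        rw [← Finset.sum_mul, this, zero_mul]

end Cfsg.Agent.S4292
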