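import Cfsg.Statements.S4293
import Cfsg.Agent.Lib.FrobCompl.Basic

set_option autoImplicit false
open Cfsg

namespace Cfsg.Agent.S4293

/-- A nontrivial finite subgroup of the multiplicative group of a division ring occurs as a Frobenius complement of some finite Frobenius group. -/
theorem result {D : Type*} [DivisionRing D] (H : Subgroup Dˣ) [Finite H] (hH : H ≠ ⊥) :
    ∃ (L : Type) (_ : Group L) (_ : Finite L) (C : Subgroup L), Cfsg.IsFrobeniusComplement C ∧ Nonempty (H ≃* C) := by
  have : Nontrivial H := (Subgroup.nontrivial_iff_ne_bot H).2 hH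
  let ρ : H →* AddMonoid.End D :=
    { toFun := fun h => AddMonoidHom.mulLeft ((h : Dˣ) : D)
      map_one' := by
        ext x
        exact one_mul x
      map_mul' := fun a b => by
        ext x
        change ((a * b : H) : Dˣ) * x = ((a : Dˣ) : D) * (((b : Dˣ) : D) * x)
        simp [mul_assoc] }
  refine CfsgLib.FrobCompl.isFC_of_module D ρ ?_
  intro g hg v hv
  have h1 : ((g : Dˣ) : D) * v = v := hv
  by_contra h0
  apply hg
  have h2 : ((g : Dˣ) : D) = 1 := mul_right_cancel₀ h0 (by rw [h1, one_mul])
  ext
  simpa using h2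

end Cfsg.Agent.S4293
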