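import Cfsg.Statements.S4294
import Cfsg.Agent.Lib.FrobCompl.NonSolv
import Cfsg.Agent.Lib.FrobCompl.Level

set_option autoImplicit false
open Cfsg

namespace Cfsg.Agent.S4294

open CfsgLib CfsgLib.FrobCompl Subgroup

theorem norm_zero {D : Type*} [DivisionRing D] [Algebra ℚ D] {I J : D} (Q : QU I J)
    {a b c d : QC I J} (hab : a * b = b * a) (hac : a * c = c * a) (had : a * d = d * a)
    (hbc : b * c = c * b) (hbd : b * d = d * b) (hcd : c * d = d * c)
    (h : a * a + b * b + c * c + d * d = 0) : a = 0 ∧ b = 0 := by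
  have e : qq I J a b c d * qq I J a (-b) (-c) (-d) = 0 := by
    rw [Q.mul, qq_zero (I := I) (J := J)]
    congr 1
    · linear_combination (norm := (clear * -; grind)) h
    · linear_combination (norm := (clear * -; grind)) -hab - hcd
    · linear_combination (norm := (clear * -; grind)) hbd - hac
    · linear_combination (norm := (clear * -; grind)) -had - hbc
  rcases mul_eq_zero.1 e with e | e
  · exact ⟨(Q.eq_zero e).1, (Q.eq_zero e).2.1⟩
  · exact ⟨(Q.eq_zero e).1, neg_eq_zero.1 (Q.eq_zero e).2.1⟩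

open scoped IsMulCommutative in
theorem four_squares {R : Type*} [Ring R] [Algebra ℚ R] {p : ℕ} (hp : p.Prime)
    (h20 : Nat.Coprime 20 p) {ζ s : R} (hc : ζ * s = s * ζ) (hζ : ζ ^ p = 1)
    (hu : ∀ x, (ζ - 1) * x = 0 → x = 0) (hs : s * s = 5) :
    ∃ a b c : R, a * b = b * a ∧ a * c = c * a ∧ b * c = c * b ∧
      2 * 2 + a * a + b * b + c * c = 0 := by
  have := Algebra.isMulCommutative_adjoin ℚ (s := {ζ, s}) (by
    rintro x (rfl | rfl) y (rfl | rfl) <;> first | rfl | exact hc | exact hc.symm)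
  obtain ⟨a, b, c, h⟩ := exists_four_squares (R := Algebra.adjoin ℚ {ζ, s}) hp h20
    (ζ := ⟨ζ, Algebra.subset_adjoin (by simp)⟩) (s := ⟨s, Algebra.subset_adjoin (by simp)⟩)
    (Subtype.ext hζ) (fun x hx => Subtype.ext (hu x (congrArg Subtype.val hx)))
    (Subtype.ext (by rw [sq]; exact hs))
  refine ⟨a, b, c, congrArg Subtype.val (mul_comm a b), congrArg Subtype.val (mul_comm a c),
    congrArg Subtype.val (mul_comm b c), ?_⟩
  simp only [sq] at h
  exact congrArg Subtype.val h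

theorem exists_sqrt {G : Type*} [Group G] [Finite G] (h : Frob.PQCond G) (h16 : 16 ∣ Nat.card G)
    {Q : Subgroup G} (e : Q ≃* Q8) : ∃ T : Subgroup G, (∀ x ∈ Q, ∀ y ∈ Q, x ∈ T ∨ y ∈ T ∨ x * y ∈ T) ∧
      ∀ x ∈ Q, ∀ y ∈ Q, x ∈ T → x ^ 4 = 1 → x * y ≠ y * x →
        ∃ a, a * a = x ∧ y * a * y⁻¹ = a⁻¹ := by
  obtain ⟨S, hS⟩ := (IsPGroup.of_card (p := 2) (n := 3) (G := Q) (by
    rw [Nat.card_congr e.toEquiv, Nat.card_eq_fintype_card, QuaternionGroup.card]; rfl)).exists_le_sylow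
  rcases Frob.exists_gens_of_forall_mem_zpowers S.isPGroup'
    (Frob.mem_zpowers_of_forall_card_sq_isCyclic S.isPGroup' (h.subgroup S).card_ne_sq) with
    hc | ⟨-, a, b, m, hi, ha, hb, -, -, hba⟩
  · obtain ⟨x, hx, y, hy, -, -, hxy⟩ := exists_four_pair e
    exact absurd (congrArg Subtype.val
      (hc.isMulCommutative.is_comm.comm (⟨x, hS hx⟩ : S) ⟨y, hS hy⟩)) hxy
  have hm : 3 ≤ m := by
    have h1 : 2 ^ 4 ∣ Nat.card S := S.pow_dvd_card_of_pow_dvd_card h16
    rw [← (zpowers a).card_mul_index, hi, Nat.card_zpowers, ha, ← pow_succ,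
      Nat.pow_dvd_pow_iff_le_right one_lt_two] at h1
    omega
  refine ⟨(zpowers a).map (S : Subgroup G).subtype, fun x hx y hy => ?_, ?_⟩
  · have := mul_mem_iff_of_index_two hi (a := ⟨x, hS hx⟩) (b := ⟨y, hS hy⟩)
    by_cases h1 : (⟨x, hS hx⟩ : S) ∈ zpowers a
    · exact Or.inl ⟨_, h1, rfl⟩
    by_cases h2 : (⟨y, hS hy⟩ : S) ∈ zpowers a
    · exact Or.inr (Or.inl ⟨_, h2, rfl⟩)
    exact Or.inr (Or.inr ⟨_, this.2 (iff_of_false h1 h2), rfl⟩)
  · rintro _ - y hy ⟨_, ⟨t, rfl⟩, rfl⟩ h4 hxy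
    have h1 : (a ^ t) ^ 4 = 1 := Subtype.ext h4
    rw [← zpow_natCast, ← zpow_mul, ← orderOf_dvd_iff_zpow_eq_one, ha] at h1
    obtain ⟨u, rfl⟩ : 2 ∣ t := by
      have h2 : (8 : ℤ) ∣ t * (4 : ℕ) := (show (8 : ℤ) ∣ ((2 ^ m : ℕ) : ℤ) by
        exact_mod_cast pow_dvd_pow 2 hm).trans h1
      omega
    refine ⟨(a ^ u : S), ?_, ?_⟩
    · rw [← coe_mul, ← zpow_add, two_mul]; rfl
    · obtain ⟨k, e | e⟩ := Frob.exists_eq_zpow_or_of_index_two hi hb ⟨y, hS hy⟩
      · have : y = (a ^ k : S) := congrArg Subtype.val e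
        exact absurd (by rw [this]; exact congrArg Subtype.val (zpow_mul_comm a (2 * u) k)) hxy
      · have h2 : (⟨y, hS hy⟩ : S) * a ^ u * ⟨y, hS hy⟩⁻¹ = (a ^ u)⁻¹ := by
          rw [e, ← conj_zpow, show a ^ k * b * a * (a ^ k * b)⁻¹ =
            a ^ k * (b * a * b⁻¹) * (a ^ k)⁻¹ by group, hba]
          group
        exact congrArg Subtype.val h2

theorem no_sqrt {G D : Type*} [Group G] [DivisionRing D] [Algebra ℚ D] {ρ : G →* D} (h : ZS ρ)
    {i j c y : G} {f : QC (ρ i) (ρ j)} (Q : QT ρ i j c) (hy : O3 y) (e : Std ρ i j y f) {a : G}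
    (h1 : a * a = i) (h2 : j * a * j⁻¹ = a⁻¹) : False := by
  obtain ⟨x0, x1, x2, x3, ha⟩ := Q.qu.surj (ρ a)
  have e1 : ρ i * ρ a = ρ a * ρ i := by rw [← map_mul, ← map_mul, ← h1, mul_assoc]
  rw [ha, Q.qu.i_mul, Q.qu.mul_i] at e1
  obtain ⟨-, -, e2, e3⟩ := Q.qu.inj e1
  obtain rfl : x3 = 0 := cancel_nat 2 (by linear_combination (norm := (clear * -; grind)) -e2)
  obtain rfl : x2 = 0 := cancel_nat 2 (by linear_combination (norm := (clear * -; grind)) e3)
  have e4 : ρ a * ρ j = ρ i * (ρ j * ρ a) := by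
    rw [← map_mul, ← map_mul, ← map_mul, ← h1, mul_inv_eq_iff_eq_mul.1 h2]
    congr 1; group
  rw [ha, Q.qu.mul_j, Q.qu.j_mul, Q.qu.i_mul] at e4
  obtain rfl : x1 = x0 := (Q.qu.inj e4).2.2.2
  have e5 : ρ a * ρ a = ρ i := by rw [← map_mul, h1]
  rw [ha, Q.qu.mul] at e5
  have hh : 2 * (x1 * x1) = 1 := by
    linear_combination (norm := (clear * -; grind)) (Q.qu.inj (e5.trans qq_i)).2.1
  have e6 : ρ a⁻¹ = qq (ρ i) (ρ j) x1 (-x1) 0 0 := by
    have : ρ a * qq (ρ i) (ρ j) x1 (-x1) 0 0 = 1 := by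
      rw [ha, Q.qu.mul, qq_one (I := ρ i) (J := ρ j)]
      congr 1
      · linear_combination (norm := (clear * -; grind)) hh
      all_goals (clear * -; grind)
    rw [← mul_one (ρ a⁻¹), ← this, ← mul_assoc, rho_inv_mul, one_mul]
  have e7 : bar ρ (a * y * a⁻¹) =
      qq (ρ i) (ρ j) 0 0 (-(2 * (x1 * f * x1))) (2 * (x1 * f * x1) - 1) := by
    rw [bar_conj, e, ha, e6, Q.qu.mul, Q.qu.mul]
    congr 1
    · clear * -; grind
    · clear * -; grind
    · clear * -; grind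
    · linear_combination (norm := (clear * -; grind)) -hh
  have e8 : Std ρ i j _ (1 - 2 * (x1 * f * x1)) := (Q.conj_i (Q.conj_k e7)).trans (by
    congr 1 <;> (clear * -; grind))
  have e9 := Q.std_unique h (((hy.conj a).conj (i * j)).conj i) hy e8 e
  unfold Std at e8 e
  rw [e9, e] at e8
  have hg := (Q.qu.inj e8).2.2.2.symm
  have hf := Q.std_sq h.free hy e
  have := (norm_zero Q.qu (a := 2 * x1 * (2 * f - 1)) (b := 1) (c := 3) (d := 0) (by simp)
    (by clear * -; grind) (by simp) (by simp) (by simp) (by simp) (by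
      linear_combination (norm := (clear * -; grind)) 2 * hh + 4 * hg - 4 * hh * f - 8 * hg * f -
        8 * hf)).2
  exact one_ne_zero this

theorem isSolvable_of_charP {D : Type*} [DivisionRing D] (H : Subgroup Dˣ) [Finite H] {p : ℕ}
    (hp : p.Prime) [CharP D p] : Group.IsSolvable H := by
  let s : Set D := Set.range fun h : H => ((h : Dˣ) : D)
  have hs : (Submonoid.closure s : Set D) = s := by
    have : s = (MonoidHom.mrange ((Units.coeHom D).comp H.subtype) : Set D) := rfl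
    rw [this, Submonoid.closure_eq]
  have : Finite s := Set.finite_range _
  have : AddGroup.FG (AddSubgroup.closure s) := AddGroup.closure_finite_fg _
  have h1 : Finite (AddSubgroup.closure s) :=
    AddCommGroup.finite_of_fg_isAddTorsion _ (IsAddTorsion.addSubgroup (fun v => by
      rw [isOfFinAddOrder_iff_nsmul_eq_zero]
      exact ⟨p, hp.pos, by rw [nsmul_eq_mul, CharP.cast_eq_zero, zero_mul]⟩) _)
  have : Finite (Subring.closure s) := Finite.of_injective
    (fun x => (⟨x.1, by have := Subring.mem_closure_iff.1 x.2; rwa [hs] at this⟩ :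
      AddSubgroup.closure s)) fun x y e => Subtype.ext (by simpa using e)
  have hF := Finite.isDomain_to_isField (Subring.closure s)
  refine isSolvable_of_comm fun a b => Subtype.ext (Units.ext ?_)
  exact congrArg Subtype.val (hF.mul_comm ⟨_, Subring.subset_closure ⟨a, rfl⟩⟩
    ⟨_, Subring.subset_closure ⟨b, rfl⟩⟩)


/-- A finite non-solvable subgroup of the multiplicative group of a division ring is isomorphic to the binary icosahedral group SL(2,5). -/
theorem result {D : Type*} [DivisionRing D] (H : Subgroup Dˣ) [Finite H] (hH : ¬ Group.IsSolvable H) :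
    Nonempty (H ≃* Matrix.SpecialLinearGroup (Fin 2) (ZMod 5)) := by
  obtain ⟨p, hp⟩ := CharP.exists D
  rcases CharP.char_is_prime_or_zero D p with hp | rfl
  · exact absurd (isSolvable_of_charP H hp) hH
  have := CharP.charP_to_charZero D
  obtain ⟨ρ, hρ⟩ : ∃ ρ : H →* D, IsFree ρ := ⟨(Units.coeHom D).comp H.subtype,
    fun g hg => IsUnit.mk0 _ fun e => hg (Subtype.ext (Units.ext (sub_eq_zero.1 e)))⟩
  let _ : Algebra ℚ D := DivisionRing.toRatAlgebra
  have hF : HasFree ℂ H := hasFree_of_module D (V := D)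
    ((Module.toAddMonoidEnd D D).toMonoidHom.comp ρ) fun g hg v hv =>
      hρ.cancel hg (by rw [sub_mul, one_mul, sub_eq_zero]; exact hv)
  have hpq := hF.pqCond
  have hZ := hF.zs hρ
  obtain ⟨ψ, hψ, -⟩ := hF.exists_normal_SL25 hH
  rcases hZ.trichotomy with h1 | ⟨Q, _, ⟨e⟩⟩ | ⟨i, j, c, y, f, φ, Q, hy, e, hφ, h1, h2⟩
  · exfalso
    have h2 : O3 (ψ slX) := ⟨by rw [← map_pow, slX_pow, map_one], by
      rw [Ne, map_eq_one_iff ψ hψ]; decide⟩
    rcases h1 _ _ h2 (h2.conj (ψ slW)) with e | e <;>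
      simp only [← map_mul, ← map_inv, hψ.eq_iff] at e <;> exact absurd e (by decide)
  · exact absurd (isSolvable_of_normal_Q8 hpq e) hH
  have : φ.range.Normal := h1 ▸ DD_normal H
  have hi := h2 (i_mem_TT i j c)
  have hj := h2 (j_mem_TT i j c)
  have hyr : y ∈ φ.range := h1 ▸ hy.mem_DD
  obtain ⟨M, -, hM, h30, -, -, hC⟩ := exists_complement_centralizer hpq hφ
  have hM1 : M = ⊥ := by
    by_contra hne
    obtain ⟨p, hp, hd⟩ := Nat.exists_prime_and_dvd (M.one_lt_card_iff_ne_bot.2 hne).ne'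
    have := Fact.mk hp
    obtain ⟨m, hm⟩ := exists_prime_orderOf_dvd_card' (G := M) p hd
    have hm1 : (m : H) ≠ 1 := fun e => hp.ne_one (by rw [← hm, ← orderOf_coe, e, orderOf_one])
    have hc : ∀ g ∈ φ.range, ρ g * ρ m = ρ m * ρ g := fun g hg => by
      rw [← map_mul, ← map_mul, hM m.2 g hg]
    let ζ : QC (ρ i) (ρ j) := QC.mk (ρ m) ⟨hc i hi, hc j hj⟩
    have hf := Q.std_sq hρ hy e
    have h3 : ζ * f = f * ζ := by
      have h4 : bar ρ y * ζ = ζ * bar ρ y := by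
        change (2 * ρ y + 1) * ρ m = ρ m * (2 * ρ y + 1)
        linear_combination (norm := (clear * -; grind)) 2 * hc y hyr
      rw [e, coe_mul_qq, qq_coe ζ, Q.qu.mul] at h4
      linear_combination (norm := (clear * -; grind)) -(Q.qu.inj h4).2.2.2
    obtain ⟨a, b, d, h4, h5, h6, h7⟩ := four_squares (R := QC (ρ i) (ρ j)) hp
      (Nat.Coprime.coprime_dvd_left (show 20 ∣ 30 ^ 2 by norm_num)
        ((h30.coprime_dvd_left hd).symm.pow_left 2)) (ζ := ζ) (s := 2 * f - 1)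
      (by linear_combination (norm := (clear * -; grind)) 2 * h3)
      (QC.ext (by
        change ρ m ^ p = 1
        rw [← map_pow, ← hm, ← orderOf_coe, pow_orderOf_eq_one, map_one]))
      (fun x hx => QC.ext (hρ.cancel hm1 (congrArg QC.val hx)))
      (by linear_combination (norm := (clear * -; grind)) 4 * hf)
    exact false_of_nat 2 (norm_zero Q.qu (a := 2) (by clear * -; grind) (by clear * -; grind)
      (by clear * -; grind) h4 h5 h6 h7).1
  have h3 := sup_eq_sup_centralizer hM hC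
  rw [hM1, sup_bot_eq] at h3
  have h4 := index_sup_centralizer hφ
  rw [← h3] at h4
  rcases h4 with h4 | h4
  · exact ⟨(MulEquiv.ofBijective φ ⟨hφ, MonoidHom.range_eq_top.1 (index_eq_one.1 h4)⟩).symm⟩
  exfalso
  obtain ⟨e8⟩ := Q.equiv_Q8 hρ
  obtain ⟨T, hT, hT'⟩ := exists_sqrt hpq (by
    rw [← φ.range.card_mul_index, h4, ← Nat.card_congr (MonoidHom.ofInjective hφ).toEquiv,
      card_SL25]
    norm_num) e8
  have mi : i ∈ zpowers i ⊔ zpowers j := mem_sup_left (mem_zpowers i)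
  have mj : j ∈ zpowers i ⊔ zpowers j := mem_sup_right (mem_zpowers j)
  have i4 : i ^ 4 = 1 := hρ.orderOf_eq_four Q.qu.ii ▸ pow_orderOf_eq_one i
  have j4 : j ^ 4 = 1 := hρ.orderOf_eq_four Q.qu.jj ▸ pow_orderOf_eq_one j
  have ci := Q.conj_ci hρ
  have cj := Q.conj_cj hρ
  have ck : c * (i * j) * c⁻¹ = j := by
    rw [show c * (i * j) * c⁻¹ = c * i * c⁻¹ * (c * j * c⁻¹) by group, ci, cj, mul_assoc,
      mul_inv_eq_iff_eq_mul.1 (Q.conj_ji hρ), mul_inv_cancel_left]
  rcases hT i mi j mj with h5 | h5 | h5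
  · obtain ⟨a, h6, h7⟩ := hT' i mi j mj h5 i4 Q.not_comm
    exact no_sqrt hZ Q hy e h6 h7
  · obtain ⟨a, h6, h7⟩ := hT' j mj _ (mul_mem mi mj) h5 j4 fun e =>
      Q.not_comm (mul_right_cancel (b := j) (by rw [← e, mul_assoc]))
    refine no_sqrt hZ Q hy e (a := c * a * c⁻¹) (by rw [← cj, ← h6]; group) ?_
    conv_lhs => rw [← ck]
    rw [show c * (i * j) * c⁻¹ * (c * a * c⁻¹) * (c * (i * j) * c⁻¹)⁻¹ =
      c * (i * j * a * (i * j)⁻¹) * c⁻¹ by group, h7]
    group
  · obtain ⟨a, h6, h7⟩ := hT' _ (mul_mem mi mj) i mi h5 (by rw [← ci, conj_pow, i4]; simp) fun e =>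
      Q.not_comm (mul_left_cancel (a := i) (by rw [← e, mul_assoc]))
    refine no_sqrt hZ Q hy e (a := c⁻¹ * a * c) (by
      rw [show c⁻¹ * a * c * (c⁻¹ * a * c) = c⁻¹ * (a * a) * c by group, h6, ← ci]; group) ?_
    rw [show j * (c⁻¹ * a * c) * j⁻¹ = c⁻¹ * (c * j * c⁻¹ * a * (c * j * c⁻¹)⁻¹) * c by group, cj,
      h7]
    group

end Cfsg.Agent.S4294
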