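import Cfsg.Statements.S4295
import Cfsg.Agent.Lib.FrobCompl.Quat

set_option autoImplicit false
open Cfsg

namespace Cfsg.Agent.S4295

/-- For a natural number m the following are equivalent: (a) some finite group has a Frobenius complement isomorphic to the quaternion group of order 8 whose Frobenius kernel (the identity together with the elements lying in no conjugate of the complement) has exactly m elements; (b) m is an odd perfect square greater than 1. -/
theorem result (m : ℕ) :
    (∃ (L : Type) (_ : Group L) (_ : Finite L) (H : Subgroup L), Cfsg.IsFrobeniusComplement H ∧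
        Nonempty (H ≃* QuaternionGroup 2) ∧ Nat.card (Cfsg.frobeniusKernel H) = m) ↔
    (Odd m ∧ IsSquare m ∧ 1 < m) := by
  constructor
  · rintro ⟨L, _, _, H, hF, ⟨e⟩, rfl⟩
    obtain ⟨h1, h2⟩ := CfsgLib.FrobCompl.odd_isSquare_of_quaternion hF (m := 1) one_pos
      e.symm.toMonoidHom e.symm.injective
    refine ⟨h1, h2, ?_⟩
    rw [CfsgLib.Frob.card_kernel hF]
    exact Subgroup.one_lt_index_of_ne_top hF.2.1
  · rintro ⟨h1, ⟨n, rfl⟩, h3⟩
    have hn : Odd n := (Nat.odd_mul.mp h1).1
    obtain ⟨L, i1, i2, H, hF, ⟨e⟩, h⟩ := CfsgLib.FrobCompl.isFCI_quaternion hn (by nlinarith)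
    exact ⟨L, i1, i2, H, hF, ⟨e.symm⟩, by rw [CfsgLib.Frob.card_kernel hF, h]⟩

end Cfsg.Agent.S4295
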