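import Cfsg.Statements.S4296
import Cfsg.Agent.S0040
import Cfsg.Agent.Lib.FrobCompl.Quat

set_option autoImplicit false
open Cfsg

namespace Cfsg.Agent.S4296

/-- Let H be a Frobenius complement in a finite group, and suppose some Sylow subgroup of H is not cyclic. Then the number of elements of the Frobenius kernel (the identity together with the elements lying in no conjugate of H) is an odd perfect square. -/
theorem result {L : Type*} [Group L] [Finite L] (H : Subgroup L) (hF : Cfsg.IsFrobeniusComplement H)
    (hZ : ∃ (p : ℕ) (_ : Fact p.Prime) (P : Sylow p H), ¬ IsCyclic P) :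
    Odd (Nat.card (Cfsg.frobeniusKernel H)) ∧ IsSquare (Nat.card (Cfsg.frobeniusKernel H)) := by
  obtain ⟨p, _, P, hP⟩ := hZ
  obtain ⟨N, -, hNn, hc, hN1, hfpf⟩ := CfsgLib.Frob.exists_kernel_fpf hF
  obtain ⟨n, ⟨e⟩⟩ := (Cfsg.Agent.S0040.result N H hc hN1 hfpf p P).resolve_left hP
  cases n with
  | zero =>
    exfalso
    have : IsCyclic (QuaternionGroup (2 ^ 0)) := QuaternionGroup.quaternionGroup_one_isCyclic
    exact hP (isCyclic_of_surjective e.symm e.symm.surjective)
  | succ n =>
    rw [pow_succ'] at e
    exact CfsgLib.FrobCompl.odd_isSquare_of_quaternion hF (m := 2 ^ n) (by positivity)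
      ((P : Subgroup H).subtype.comp e.symm.toMonoidHom)
      ((P : Subgroup H).subtype_injective.comp e.symm.injective)

end Cfsg.Agent.S4296
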