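import Cfsg.Statements.S4297
import Cfsg.Agent.Lib.FrobCompl.Basic

set_option autoImplicit false
open Cfsg

namespace Cfsg.Agent.S4297

open QuaternionGroup

noncomputable def act (n : ℕ) [NeZero n] (e : AddChar (ZMod (2 * n)) ℂ) :
    QuaternionGroup n → ℂ × ℂ → ℂ × ℂ
  | a i, w => (e i * w.1, e (-i) * w.2)
  | xa i, w => (-(e (-i) * w.2), e i * w.1)

theorem act_a (n : ℕ) [NeZero n] (e : AddChar (ZMod (2 * n)) ℂ) (i : ZMod (2 * n)) (w : ℂ × ℂ) :
    act n e (a i) w = (e i * w.1, e (-i) * w.2) := rfl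

theorem act_xa (n : ℕ) [NeZero n] (e : AddChar (ZMod (2 * n)) ℂ) (i : ZMod (2 * n)) (w : ℂ × ℂ) :
    act n e (xa i) w = (-(e (-i) * w.2), e i * w.1) := rfl

theorem act_mul (n : ℕ) [NeZero n] (e : AddChar (ZMod (2 * n)) ℂ) (he : e n = -1)
    (g h : QuaternionGroup n) (w : ℂ × ℂ) : act n e (g * h) w = act n e g (act n e h w) := by
  have he' : e (-(n : ZMod (2 * n))) = -1 := by
    have := e.map_add_eq_mul (n : ZMod (2 * n)) (-n)
    rw [add_neg_cancel, e.map_zero_eq_one, he] at this
    linear_combination this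
  rcases g with i | i <;> rcases h with j | j <;>
    simp only [a_mul_a, a_mul_xa, xa_mul_a, xa_mul_xa, act_a, act_xa, sub_eq_add_neg, neg_add,
      neg_neg, e.map_add_eq_mul, he, he', Prod.mk.injEq] <;> constructor <;> ring

theorem act_add (n : ℕ) [NeZero n] (e : AddChar (ZMod (2 * n)) ℂ)
    (g : QuaternionGroup n) (v w : ℂ × ℂ) : act n e g (v + w) = act n e g v + act n e g w := by
  rcases g with i | i <;> simp only [act_a, act_xa, Prod.fst_add, Prod.snd_add, Prod.mk_add_mk,
    Prod.mk.injEq] <;> constructor <;> ring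

/-- For every n ≥ 2 the dicyclic group of order 4n (generated by an element a of order 2n and an element x with x² = aⁿ and x a x⁻¹ = a⁻¹) occurs as a Frobenius complement of some finite Frobenius group. -/
theorem result (n : ℕ) (hn : 2 ≤ n) :
    ∃ (L : Type) (_ : Group L) (_ : Finite L) (H : Subgroup L), Cfsg.IsFrobeniusComplement H ∧ Nonempty (H ≃* QuaternionGroup n) := by
  have : NeZero n := ⟨by omega⟩
  have : NeZero (2 * n) := ⟨by omega⟩
  let e : AddChar (ZMod (2 * n)) ℂ := ZMod.stdAddChar
  have hinj : Function.Injective e := ZMod.injective_stdAddChar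
  have hn0 : (n : ZMod (2 * n)) ≠ 0 := by
    rw [Ne, ZMod.natCast_eq_zero_iff]
    intro h
    have := Nat.le_of_dvd (by omega) h
    omega
  have hone : ∀ i, e i = 1 → i = 0 := fun i hi => hinj (by rw [hi, e.map_zero_eq_one])
  have he : e n = -1 := by
    have h1 : e n * e n = 1 := by
      rw [← e.map_add_eq_mul, ← Nat.cast_add, ← two_mul, ZMod.natCast_self, e.map_zero_eq_one]
    rcases mul_self_eq_one_iff.1 h1 with h | h
    · exact absurd (hone _ h) hn0
    · exact h
  let ρ : QuaternionGroup n →* AddMonoid.End (ℂ × ℂ) :=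
    { toFun := fun g => AddMonoidHom.mk' (act n e g) (act_add n e g)
      map_one' := by
        refine AddMonoidHom.ext fun w => ?_
        change act n e (a 0) w = w
        rw [act_a]
        simp
      map_mul' := fun g h => AddMonoidHom.ext fun w => act_mul n e he g h w }
  have ha : ∀ i : ZMod (2 * n), i ≠ 0 → ∀ w, act n e (a i) w = w → w = 0 := by
    intro i hi w hw
    rw [act_a, Prod.ext_iff] at hw
    obtain ⟨h1, h2⟩ := hw
    ext
    · by_contra h0
      exact hi (hone _ (mul_right_cancel₀ h0 (by rw [one_mul]; exact h1)))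
    · by_contra h0
      exact hi (neg_eq_zero.1 (hone _ (mul_right_cancel₀ h0 (by rw [one_mul]; exact h2))))
  refine (CfsgLib.FrobCompl.isFC_of_module ℂ ρ ?_).symm_form
  rintro (i | i) hg w hw
  · refine ha i ?_ w hw
    rintro rfl
    exact hg rfl
  · have hw' : act n e (xa i) w = w := hw
    refine ha n hn0 w ?_
    rw [← xa_sq i, sq, act_mul n e he, hw', hw']

end Cfsg.Agent.S4297
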