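import Cfsg.Statements.S4298
import Cfsg.Agent.Lib.FrobCompl.Basic

set_option autoImplicit false
open Cfsg

namespace Cfsg.Agent.S4298

abbrev Q := ZMod 3 × ZMod 3 × ZMod 3 × ZMod 3

def qmul (x y : Q) : Q :=
  (x.1 * y.1 + x.2.1 * y.2.2.1, x.1 * y.2.1 + x.2.1 * y.2.2.2,
   x.2.2.1 * y.1 + x.2.2.2 * y.2.2.1, x.2.2.1 * y.2.1 + x.2.2.2 * y.2.2.2)

def qdet (x : Q) : ZMod 3 := x.1 * x.2.2.2 - x.2.1 * x.2.2.1

def chi (x : Q) : ℤ :=
  if x = (1, 0, 0, 1) then 2 else if x = (2, 0, 0, 2) then -2 else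
    if x.1 + x.2.2.2 = 0 then 0 else if x.1 + x.2.2.2 = 1 then 1 else -1

def toQ (g : Matrix.SpecialLinearGroup (Fin 2) (ZMod 3)) : Q := (g 0 0, g 0 1, g 1 0, g 1 1)

theorem toQ_mul (g h : Matrix.SpecialLinearGroup (Fin 2) (ZMod 3)) :
    toQ (g * h) = qmul (toQ g) (toQ h) := by
  simp [toQ, qmul, Matrix.mul_apply, Fin.sum_univ_two]

theorem toQ_det (g : Matrix.SpecialLinearGroup (Fin 2) (ZMod 3)) : qdet (toQ g) = 1 := by
  have := g.det_coe
  rw [Matrix.det_fin_two] at this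
  exact this

theorem toQ_ne (g : Matrix.SpecialLinearGroup (Fin 2) (ZMod 3)) (hg : g ≠ 1) :
    toQ g ≠ (1, 0, 0, 1) := by
  intro h
  apply hg
  simp only [toQ, Prod.mk.injEq] at h
  obtain ⟨h1, h2, h3, h4⟩ := h
  ext i j
  fin_cases i <;> fin_cases j <;> simp [h1, h2, h3, h4]

def qsum (h : Q) : ℕ → Q → ℤ := fun n => Nat.rec (fun _ => 0) (fun _ ih x => chi x + ih (qmul h x)) n

theorem qsum_eq (h : Matrix.SpecialLinearGroup (Fin 2) (ZMod 3)) (n : ℕ)
    (x : Matrix.SpecialLinearGroup (Fin 2) (ZMod 3)) :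
    ∑ i ∈ Finset.range n, chi (toQ (h ^ i * x)) = qsum (toQ h) n (toQ x) := by
  induction n generalizing x with
  | zero => rfl
  | succ n ih =>
    rw [Finset.sum_range_succ']
    change _ = chi (toQ x) + qsum (toQ h) n (qmul (toQ h) (toQ x))
    rw [← toQ_mul, ← ih, add_comm, pow_zero, one_mul]
    simp only [pow_succ, mul_assoc]

theorem key : ∀ h : Q, qdet h = 1 → h ≠ (1, 0, 0, 1) → ∀ x : Q, qdet x = 1 → qsum h 12 x = 0 := by
  decide +kernel

/-- The group SL(2,3) of order 24 (the binary tetrahedral group) occurs as a Frobenius complement of some finite Frobenius group. -/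
theorem result :
    ∃ (L : Type) (_ : Group L) (_ : Finite L) (H : Subgroup L), Cfsg.IsFrobeniusComplement H ∧ Nonempty (H ≃* Matrix.SpecialLinearGroup (Fin 2) (ZMod 3)) := by
  have : Nontrivial (Matrix.SpecialLinearGroup (Fin 2) (ZMod 3)) := by
    refine ⟨⟨1, -1, fun h => ?_⟩⟩
    have h1 := congrArg toQ h
    revert h1
    simp only [toQ]
    decide
  refine (CfsgLib.FrobCompl.isFC_of_fun_int 12 (by norm_num) (fun x => chi (toQ x)) ?_ ?_).symm_form
  · intro h
    have h1 := congrFun h 1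
    revert h1
    simp only [toQ]
    decide
  · intro h hh x
    rw [qsum_eq]
    exact key _ (toQ_det h) (toQ_ne h hh) _ (toQ_det x)

end Cfsg.Agent.S4298
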