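import Cfsg.Statements.S4301

set_option autoImplicit false
open Cfsg

namespace Cfsg.Agent.S4301

/-- One-point extension of a multiply transitive group. Let X be a set and G a group of permutations of Option X (the set X with one extra point ∗ = none) all of whose elements fix ∗, such that G is k-transitive on the points of X for some k ≥ 2, X having at least k points. Suppose a permutation h of Option X and an element g of G satisfy: h interchanges ∗ with a point x of X and fixes a point y of X; g interchanges x and y; (g h)³ and h² lie in G; and for every f in G fixing x, the product h f h lies in G and fixes x. Then an element of the group generated by G and h fixes ∗ exactly when it lies in G, and that group acts (k+1)-transitively on Option X. -/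
theorem result {X : Type*} (G : Subgroup (Equiv.Perm (Option X))) (hfix : ∀ f ∈ G, f none = none)
    (k : ℕ) (hk : 2 ≤ k) (hkX : Nonempty (Fin k ↪ X))
    (htrans : ∀ a b : Fin k ↪ X, ∃ f ∈ G, ∀ i, f (some (a i)) = some (b i))
    (h g : Equiv.Perm (Option X)) (hg : g ∈ G) (x y : X)
    (h1 : h none = some x) (h2 : h (some x) = none) (h3 : h (some y) = some y)
    (h4 : g (some x) = some y) (h5 : g (some y) = some x)
    (h6 : (g * h) ^ 3 ∈ G) (h7 : h ^ 2 ∈ G)
    (h8 : ∀ f ∈ G, f (some x) = some x → h * f * h ∈ G ∧ (h * f * h) (some x) = some x) :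
    (∀ f ∈ Subgroup.closure ((G : Set (Equiv.Perm (Option X))) ∪ {h}), f none = none ↔ f ∈ G) ∧
      MulAction.IsMultiplyPretransitive (Subgroup.closure ((G : Set (Equiv.Perm (Option X))) ∪ {h})) (Option X) (k + 1) := by
  obtain ⟨e⟩ := hkX
  have hxy : x ≠ y := by
    rintro rfl
    rw [h2] at h3
    exact absurd h3 (by simp)
  -- two-transitivity
  have two : ∀ a b c d : X, a ≠ b → c ≠ d →
      ∃ f ∈ G, f (some a) = some c ∧ f (some b) = some d := by
    intro a b c d hab hcd
    let i0 : Fin k := ⟨0, by omega⟩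
    let i1 : Fin k := ⟨1, by omega⟩
    have h01 : e i0 ≠ e i1 := by
      intro h
      have := e.injective h
      simp [i0, i1] at this
    have hP : ∀ {a b c d : X} (_ : a ≠ b) (_ : c ≠ d), ∃ g : Equiv.Perm X, g • a = c ∧ g • b = d :=
      MulAction.is_two_pretransitive_iff.1 (Equiv.Perm.isMultiplyPretransitive X 2)
    obtain ⟨σ, hσ1, hσ2⟩ := hP h01 hab
    obtain ⟨τ, hτ1, hτ2⟩ := hP h01 hcd
    obtain ⟨f, hf, hf2⟩ := htrans (σ • e) (τ • e)
    refine ⟨f, hf, ?_, ?_⟩
    · have := hf2 i0
      simpa only [Function.Embedding.smul_apply, hσ1, hτ1] using this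
    · have := hf2 i1
      simpa only [Function.Embedding.smul_apply, hσ2, hτ2] using this
  have one : ∀ a : X, ∃ f ∈ G, f (some a) = some x := by
    intro a
    by_cases ha : a = x
    · exact ⟨1, G.one_mem, by simp [ha]⟩
    · obtain ⟨f, hf, hf1, -⟩ := two a x x y ha hxy
      exact ⟨f, hf, hf1⟩
  have hinv2 : h⁻¹ * h⁻¹ ∈ G := by
    have := G.inv_mem h7
    simpa [sq] using this
  -- h f h lies in G ∪ GhG
  have key : ∀ f ∈ G, h * f * h ∈ G ∨ ∃ a ∈ G, ∃ b ∈ G, h * f * h = a * h * b := by
    intro f hf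
    by_cases hfx : f (some x) = some x
    · exact Or.inl (h8 f hf hfx).1
    right
    obtain ⟨z, hz⟩ : ∃ z, f (some x) = some z := by
      rcases hz : f (some x) with _ | z
      · have := f.injective (hz.trans (hfix f hf).symm)
        simp at this
      · exact ⟨z, rfl⟩
    have hzx : x ≠ z := by
      rintro rfl
      exact hfx hz
    obtain ⟨a, ha, ha1, ha2⟩ := two x y x z hxy hzx
    have hb : g⁻¹ * a⁻¹ * f ∈ G := G.mul_mem (G.mul_mem (G.inv_mem hg) (G.inv_mem ha)) hf
    have hb1 : (g⁻¹ * a⁻¹ * f) (some x) = some x := by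
      simp only [Equiv.Perm.mul_apply, hz]
      rw [← ha2, Equiv.Perm.inv_def a, Equiv.symm_apply_apply, ← h4, Equiv.Perm.inv_def g,
        Equiv.symm_apply_apply]
    have hA := (h8 a ha ha1).1
    have hB := (h8 _ hb hb1).1
    refine ⟨(h * a * h) * (h⁻¹ * h⁻¹) * (g⁻¹ * (g * h) ^ 3 * (h⁻¹ * h⁻¹)), ?_,
      g⁻¹ * (h⁻¹ * h⁻¹) * (h * (g⁻¹ * a⁻¹ * f) * h), ?_, ?_⟩
    · exact G.mul_mem (G.mul_mem hA hinv2) (G.mul_mem (G.mul_mem (G.inv_mem hg) h6) hinv2)
    · exact G.mul_mem (G.mul_mem (G.inv_mem hg) hinv2) hB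
    · simp only [pow_succ, pow_zero]
      group
  let S : Subgroup (Equiv.Perm (Option X)) :=
    { carrier := {s | s ∈ G ∨ ∃ a ∈ G, ∃ b ∈ G, s = a * h * b}
      one_mem' := Or.inl G.one_mem
      mul_mem' := by
        rintro s t (hs | ⟨a, ha, b, hb, rfl⟩) (ht | ⟨c, hc, d, hd, rfl⟩)
        · exact Or.inl (G.mul_mem hs ht)
        · exact Or.inr ⟨s * c, G.mul_mem hs hc, d, hd, by group⟩
        · exact Or.inr ⟨a, ha, b * t, G.mul_mem hb ht, by group⟩
        · rcases key (b * c) (G.mul_mem hb hc) with h9 | ⟨u, hu, v, hv, h9⟩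
          · left
            have : a * h * b * (c * h * d) = a * (h * (b * c) * h) * d := by group
            rw [this]
            exact G.mul_mem (G.mul_mem ha h9) hd
          · right
            refine ⟨a * u, G.mul_mem ha hu, v * d, G.mul_mem hv hd, ?_⟩
            have : a * h * b * (c * h * d) = a * (h * (b * c) * h) * d := by group
            rw [this, h9]; group
      inv_mem' := by
        rintro s (hs | ⟨a, ha, b, hb, rfl⟩)
        · exact Or.inl (G.inv_mem hs)
        · exact Or.inr ⟨b⁻¹ * (h⁻¹ * h⁻¹), G.mul_mem (G.inv_mem hb) hinv2, a⁻¹, G.inv_mem ha,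
            by group⟩ }
  have hle : Subgroup.closure ((G : Set (Equiv.Perm (Option X))) ∪ {h}) ≤ S := by
    rw [Subgroup.closure_le]
    rintro s (hs | rfl)
    · exact Or.inl hs
    · exact Or.inr ⟨1, G.one_mem, 1, G.one_mem, by simp⟩
  have hGle : ∀ f ∈ G, f ∈ Subgroup.closure ((G : Set (Equiv.Perm (Option X))) ∪ {h}) :=
    fun f hf => Subgroup.subset_closure (Or.inl hf)
  have hh : h ∈ Subgroup.closure ((G : Set (Equiv.Perm (Option X))) ∪ {h}) :=
    Subgroup.subset_closure (Or.inr rfl)
  refine ⟨fun f hf => ⟨fun hf0 => ?_, hfix f⟩, ?_⟩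
  · rcases hle hf with h9 | ⟨a, ha, b, hb, rfl⟩
    · exact h9
    · simp only [Equiv.Perm.mul_apply, hfix b hb, h1] at hf0
      have := a.injective (hf0.trans (hfix a ha).symm)
      simp at this
  · have toNone : ∀ u : Option X,
        ∃ s ∈ Subgroup.closure ((G : Set (Equiv.Perm (Option X))) ∪ {h}), s u = none := by
      rintro (_ | a)
      · exact ⟨1, Subgroup.one_mem _, rfl⟩
      · obtain ⟨f, hf, hf1⟩ := one a
        exact ⟨h * f, Subgroup.mul_mem _ hh (hGle f hf), by simp [hf1, h2]⟩
    have tl : ∀ a : Fin (k + 1) ↪ Option X, a 0 = none →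
        ∃ a' : Fin k ↪ X, ∀ i, a i.succ = some (a' i) := by
      intro a ha
      have : ∀ i : Fin k, ∃ z, a i.succ = some z := by
        intro i
        rcases hz : a i.succ with _ | z
        · exact absurd (a.injective (hz.trans ha.symm)) (Fin.succ_ne_zero i)
        · exact ⟨z, rfl⟩
      choose z hz using this
      refine ⟨⟨z, fun i j hij => ?_⟩, hz⟩
      have := a.injective ((hz i).trans (hij ▸ (hz j).symm))
      exact Fin.succ_injective _ this
    rw [MulAction.isMultiplyPretransitive_iff]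
    intro a b
    obtain ⟨s, hs, hs0⟩ := toNone (a 0)
    obtain ⟨t, ht, ht0⟩ := toNone (b 0)
    obtain ⟨a', ha'⟩ := tl (s • a) hs0
    obtain ⟨b', hb'⟩ := tl (t • b) ht0
    obtain ⟨f, hf, hf1⟩ := htrans a' b'
    refine ⟨⟨t⁻¹ * f * s, Subgroup.mul_mem _ (Subgroup.mul_mem _ (Subgroup.inv_mem _ ht)
      (hGle f hf)) hs⟩, ?_⟩
    ext1 i
    change t⁻¹ (f (s (a i))) = b i
    rw [Equiv.Perm.inv_def, Equiv.symm_apply_eq]
    refine Fin.cases ?_ (fun j => ?_) i
    · rw [hs0, ht0, hfix f hf]
    · have e1 : s (a j.succ) = some (a' j) := ha' j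
      have e2 : t (b j.succ) = some (b' j) := hb' j
      rw [e1, e2, hf1]

end Cfsg.Agent.S4301
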