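import Cfsg.Statements.S4314
import Cfsg.Agent.Lib.Fgs.ClassSize
import Cfsg.Agent.Lib.Count.Subgroups
import Cfsg.Agent.Lib.Core.Frattini
import Cfsg.Agent.Lib.Core.Commutator
import Cfsg.Agent.Lib.SolvStruct.Util

set_option autoImplicit false
open Cfsg

namespace Cfsg.Agent.S4314

open Subgroup CfsgLib.Fgs

section
variable {G : Type*} [Group G] [Finite G]

omit [Finite G] in
theorem eq_of_le_of_prime {A B : Subgroup G} (hAB : A ≤ B) (hA : A.index.Prime) (hB : B ≠ ⊤) :
    A = B :=
  ((CfsgLib.Core.isCoatom_of_index_prime hA).le_iff.1 hAB).elim (fun h => absurd h hB) Eq.symm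

theorem exists_primePow {x : G} (hx : x ∉ center G) :
    ∃ y ∈ zpowers x, y ∉ center G ∧ ∃ r k : ℕ, r.Prime ∧ orderOf y = r ^ k := by
  by_contra hcon
  push Not at hcon
  have : (center G).subgroupOf (zpowers x) = ⊤ := by
    apply CfsgLib.Count.eq_top_of_primePow_mem
    intro y q k hq hy
    by_contra h
    exact hcon y y.2 h q k hq (by rw [← hy, orderOf_coe])
  exact hx (subgroupOf_eq_top.1 this (mem_zpowers x))

theorem nilp_of_pow {r : ℕ} (hr : r.Prime) (h : ∀ m : G, ∃ k, m ^ r ^ k ∈ center G) :
    Group.IsNilpotent G := by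
  have := Fact.mk hr
  have h1 : IsPGroup r (G ⧸ center G) := by
    intro m
    obtain ⟨m, rfl⟩ := QuotientGroup.mk_surjective m
    obtain ⟨k, hk⟩ := h m
    exact ⟨k, by rw [← QuotientGroup.mk_pow, QuotientGroup.eq_one_iff]; exact hk⟩
  exact Group.of_quotient_center_nilpotent h1.isNilpotent

theorem nilp_cent (h : ∀ x : G, x ∉ center G → ((centralizer ({x} : Set G)).index).Prime)
    {x : G} (hx : x ∉ center G) : Group.IsNilpotent (centralizer ({x} : Set G)) := by
  obtain ⟨y, hy, hyc, r, k, hr, hk⟩ := exists_primePow hx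
  rw [eq_of_le_of_prime (cent_le_cent_of_mem_zpowers hy) (h x hx) (mt cent_eq_top_iff.1 hyc)]
  have := Fact.mk hr
  apply nilp_of_pow hr
  rintro ⟨m, hm⟩
  obtain ⟨a, b, ha, hb, hab, hc, ⟨j, hj⟩, hb'⟩ := exists_p_part r m
  have hbM : b ∈ centralizer ({y} : Set G) := (zpowers_le.2 hm) hb
  have hcop : (orderOf y).Coprime (orderOf b) := by
    rw [hk]; exact Nat.Coprime.pow_left _ ((Nat.Prime.coprime_iff_not_dvd hr).2 hb')
  have h1 := cent_mul_of_coprime (mem_cent_iff.1 hbM) hcop
  have h2 : y * b ∉ center G := by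
    rw [← cent_eq_top_iff, h1]
    intro h3
    exact hyc (cent_eq_top_iff.1 (top_le_iff.1 (h3.symm.le.trans inf_le_left)))
  have h3 := eq_of_le_of_prime (h1.le.trans inf_le_left) (h _ h2) (mt cent_eq_top_iff.1 hyc)
  have h4 : centralizer ({y} : Set G) ≤ centralizer ({b} : Set G) := by
    rw [← h3, h1]; exact inf_le_right
  refine ⟨j, mem_center_iff.2 fun g => Subtype.ext ?_⟩
  have h5 : m ^ r ^ j = b ^ r ^ j := by
    rw [← hab, hc.mul_pow, ← hj, pow_orderOf_eq_one, one_mul]
  simp only [Subgroup.coe_mul, SubmonoidClass.mk_pow, h5]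
  exact ((mem_cent_iff.1 (h4 g.2)).pow_left _).eq.symm

omit [Finite G] in
theorem normal_of_prime [Group.IsNilpotent G] {M : Subgroup G} (h : M.index.Prime) : M.Normal :=
  CfsgLib.Core.normal_of_isCoatom_of_isNilpotent (CfsgLib.Core.isCoatom_of_index_prime h)

end

/-- Let `G` be a finite group every conjugacy class of which has size 1 or a prime. Then either `G` is nilpotent of class at most 2, or `G/Z(G)` is a non-abelian group of order `pq` for distinct primes `p, q` (a Frobenius group of order `pq`). -/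
theorem result {G : Type*} [Group G] [Finite G]
    (h : ∀ x : G, (Subgroup.centralizer ({x} : Set G)).index = 1 ∨ ((Subgroup.centralizer ({x} : Set G)).index).Prime) :
    Subgroup.upperCentralSeries G 2 = ⊤ ∨
      ∃ p q : ℕ, p.Prime ∧ q.Prime ∧ p ≠ q ∧ Nat.card (G ⧸ Subgroup.center G) = p * q ∧ ¬ IsMulCommutative (G ⧸ Subgroup.center G) := by
  have h' : ∀ x : G, x ∉ center G → ((centralizer ({x} : Set G)).index).Prime := fun x hx =>
    (h x).resolve_left (mt index_cent_eq_one_iff.1 hx)
  by_cases hn : ∀ x : G, x ∉ center G → (centralizer ({x} : Set G)).Normal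
  · left
    have h1 : commutator G ≤ center G := by
      intro c hc
      rw [mem_center_iff]
      intro x
      by_cases hx : x ∈ center G
      · exact (mem_center_iff.1 hx c).symm
      · have := hn x hx
        exact (mem_cent_iff.1 (CfsgLib.Core.commutator_le_of_index_prime (h' x hx) hc)).eq
    have := CfsgLib.Core.isNilpotent_of_commutator_le_center h1
    exact Subgroup.upperCentralSeries_eq_top_iff_nilpotencyClass_le.2
      (CfsgLib.Core.nilpotencyClass_le_two_iff.2 h1)
  right
  push Not at hn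
  obtain ⟨y, hy, hL⟩ := hn
  set L := centralizer ({y} : Set G) with hLdef
  have hq := h' y hy
  obtain ⟨x, hx, hpq⟩ : ∃ x : G, x ∉ center G ∧ (centralizer ({x} : Set G)).index ≠ L.index := by
    by_contra hcon
    push Not at hcon
    have : Group.IsNilpotent G := by
      apply nilp_of_pow hq
      intro m
      have := Fact.mk hq
      obtain ⟨a, b, ha, hb, hab, hc, ⟨j, hj⟩, hb'⟩ := exists_p_part L.index m
      refine ⟨j, ?_⟩
      rw [← hab, hc.mul_pow, ← hj, pow_orderOf_eq_one, one_mul]
      apply pow_mem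
      by_contra hbc
      obtain ⟨z, hz, hzc, r, k, hr, hk⟩ := exists_primePow hbc
      have hrq : r ≠ L.index := by
        rintro rfl
        rcases k with _ | k
        · rw [pow_zero, orderOf_eq_one_iff] at hk
          exact hzc (hk ▸ one_mem _)
        · exact hb' (((dvd_pow_self _ k.succ_ne_zero).trans hk.symm.dvd).trans
            (orderOf_dvd_of_mem_zpowers hz))
      have := Fact.mk hr
      apply hzc
      rw [← cent_eq_top_iff]
      apply CfsgLib.Count.eq_top_of_forall_exists_conj_mem
      intro g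
      have h1 : ¬ r ∣ (centralizer ({g} : Set G)).index := by
        by_cases hg : g ∈ center G
        · rw [index_cent_eq_one_iff.2 hg]; exact hr.not_dvd_one
        · rw [hcon g hg]
          exact fun h => hrq ((Nat.prime_dvd_prime_iff_eq hr hq).1 h)
      obtain ⟨P, hP⟩ := exists_sylow_le_of_not_dvd_index h1
      obtain ⟨Q, hQ⟩ := exists_sylow_mem ⟨k, hk⟩
      obtain ⟨u, rfl⟩ := MulAction.exists_smul_eq G P Q
      obtain ⟨w, hw, rfl⟩ : ∃ w ∈ (P : Subgroup G), u * w * u⁻¹ = z := hQ
      refine ⟨u, mem_cent_iff.2 ?_⟩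
      have := (mem_cent_iff.1 (hP hw)).eq
      change u * w * u⁻¹ * (u * g * u⁻¹) = u * g * u⁻¹ * (u * w * u⁻¹)
      calc u * w * u⁻¹ * (u * g * u⁻¹) = u * (w * g) * u⁻¹ := by group
        _ = _ := by rw [← this]; group
    exact hL (normal_of_prime hq)
  set M := centralizer ({x} : Set G) with hMdef
  have hp := h' x hx
  have hcop : M.index.Coprime L.index := (Nat.coprime_primes hp hq).2 hpq
  have hD : (M ⊓ L).index = M.index * L.index := CfsgLib.Core.index_inf_of_coprime_index hcop
  have hDn : (M ⊓ L).Normal := by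
    have h1 : M ≤ normalizer ((M ⊓ L : Subgroup G) : Set G) := by
      have := nilp_cent h' hx
      rw [← normal_subgroupOf_iff_le_normalizer inf_le_left]
      apply normal_of_prime
      have h2 := relIndex_mul_index (inf_le_left : M ⊓ L ≤ M)
      rw [hD, mul_comm] at h2
      rw [← relIndex, Nat.eq_of_mul_eq_mul_left hp.pos h2]
      exact hq
    have h2 : L ≤ normalizer ((M ⊓ L : Subgroup G) : Set G) := by
      have := nilp_cent h' hy
      rw [← normal_subgroupOf_iff_le_normalizer inf_le_right]
      apply normal_of_prime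
      have h2 := relIndex_mul_index (inf_le_right : M ⊓ L ≤ L)
      rw [hD] at h2
      rw [← relIndex, Nat.eq_of_mul_eq_mul_right hq.pos h2]
      exact hp
    rw [← normalizer_eq_top_iff, ← index_eq_one]
    exact Nat.eq_one_of_dvd_coprimes hcop (index_dvd_of_le h1) (index_dvd_of_le h2)
  have hnc : ∀ (D : Subgroup G) [D.Normal], D ≤ L → ¬ IsMulCommutative (G ⧸ D) := by
    intro D _ hDL hc
    apply hL
    have : commutator G ≤ D := Subgroup.Normal.quotient_commutative_iff_commutator_le.1 hc
    exact Subgroup.Normal.of_commutator_le _ (this.trans hDL)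
  have hcard : Nat.card (G ⧸ (M ⊓ L)) = M.index * L.index := hD
  have hZ : center (G ⧸ (M ⊓ L)) = ⊥ := by
    by_contra hne
    apply hnc (M ⊓ L) inf_le_right
    have h1 : (center (G ⧸ (M ⊓ L))).index ∣ M.index * L.index := hcard ▸ index_dvd_card _
    have h2 : (center (G ⧸ (M ⊓ L))).index ≠ M.index * L.index := by
      intro h3
      have := (center (G ⧸ (M ⊓ L))).card_mul_index
      rw [h3, hcard] at this
      exact hne (card_eq_one.1 (Nat.eq_of_mul_eq_mul_right (Nat.mul_pos hp.pos hq.pos)
        (this.trans (one_mul _).symm)))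
    have : IsCyclic ((G ⧸ (M ⊓ L)) ⧸ center _) := by
      obtain ⟨a, b, ha, hb, hab⟩ := (Nat.dvd_mul).1 h1
      rcases (Nat.dvd_prime hp).1 ha with rfl | rfl <;> rcases (Nat.dvd_prime hq).1 hb with rfl | rfl
      · have : Subsingleton ((G ⧸ (M ⊓ L)) ⧸ center _) :=
          (Nat.card_eq_one_iff_unique.1 hab.symm).1
        infer_instance
      · have := Fact.mk hq
        exact isCyclic_of_prime_card (p := L.index) (by rw [one_mul] at hab; exact hab.symm)
      · have := Fact.mk hp
        exact isCyclic_of_prime_card (p := M.index) (by rw [mul_one] at hab; exact hab.symm)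
      · exact absurd hab.symm h2
    exact isMulCommutative_of_isCyclic_quotient_center_self _
  have hout : ∀ g : G, g ∉ M ⊓ L → M ⊓ L ≤ centralizer ({g} : Set G) := by
    intro g hg
    have h1 : (g : G ⧸ (M ⊓ L)) ∉ center _ := by
      rw [hZ, mem_bot, QuotientGroup.eq_one_iff]; exact hg
    have h2 : g ∉ center G := by
      intro h3
      exact hg ⟨center_le_cent x h3, center_le_cent y h3⟩
    have h3 : centralizer ({g} : Set G) ≤
        (centralizer ({(g : G ⧸ (M ⊓ L))} : Set _)).comap (QuotientGroup.mk' (M ⊓ L)) :=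
      map_le_iff_le_comap.1 (map_cent_le _ g)
    rw [eq_of_le_of_prime h3 (h' g h2) ?_]
    · exact CfsgLib.SolvStruct.le_comap_mk' _ _
    · intro h4
      apply h1
      rw [← cent_eq_top_iff, ← CfsgLib.SolvStruct.map_comap_mk' (M ⊓ L) (centralizer _), h4]
      exact map_top_of_surjective _ (QuotientGroup.mk'_surjective _)
  have hZD : center G = M ⊓ L := by
    refine le_antisymm (le_inf (center_le_cent x) (center_le_cent y)) fun d hd => ?_
    obtain ⟨g₀, hg₀⟩ : ∃ g₀, g₀ ∉ M ⊓ L := by
      by_contra hcon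
      push Not at hcon
      exact hy (cent_eq_top_iff.1 ((eq_top_iff' _).2 fun g => (hcon g).2))
    rw [mem_center_iff]
    intro g
    by_cases hg : g ∈ M ⊓ L
    · have h1 : g * g₀ ∉ M ⊓ L := fun h => hg₀ ((mul_mem_cancel_left hg).1 h)
      have h2 := mem_cent_iff.1 (hout _ h1 hd)
      have h3 := mem_cent_iff.1 (hout _ hg₀ hd)
      have := (h2.mul_left h3.inv_left).eq
      rwa [mul_inv_cancel_right] at this
    · exact (mem_cent_iff.1 (hout _ hg hd)).eq
  refine ⟨_, _, hp, hq, hpq, ?_, hnc _ (center_le_cent y)⟩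
  rw [← hD, ← hZD]
  rfl

end Cfsg.Agent.S4314
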