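import Cfsg.Statements.S4316
import Cfsg.Agent.Lib.Fgs.Rank3
import Cfsg.Agent.Lib.Coprime.Aut

set_option autoImplicit false
universe u
open Cfsg

namespace Cfsg.Agent.S4316

/-- There is a function `f` of two natural-number arguments with the following property. Let `q` be a prime and `A` an elementary abelian group of order `q³` acting by automorphisms on a finite group `G` of order prime to `q`, and suppose that for every non-identity `a ∈ A` the derived subgroup of the fixed-point subgroup `C_G(a)` has order at most `m`. Then the derived subgroup of `G` has order at most `f(q, m)`. -/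
theorem result :
    ∃ f : ℕ → ℕ → ℕ, ∀ (q m : ℕ) (A G : Type u) [Group A] [Finite A] [Group G] [Finite G] [MulDistribMulAction A G],
      q.Prime → Nat.card A = q ^ 3 → (∀ a b : A, a * b = b * a) → (∀ a : A, a ^ q = 1) → ¬ q ∣ Nat.card G →
      (∀ a : A, a ≠ 1 → Nat.card ↥(commutator ↥(FixedPoints.subgroup (Subgroup.zpowers a) G)) ≤ m) →
      Nat.card ↥(commutator G) ≤ f q m := by
  refine ⟨CfsgLib.Fgs.rankThreeBound, fun q m A G _ _ _ _ _ hq hA hc hexp hcop h => ?_⟩
  let φ : A →* MulAut G := MulDistribMulAction.toMulAut A G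
  have := CfsgLib.Coprime.finite_sd (φ := φ)
  have key : ∀ H : Subgroup G, Nat.card (commutator H) =
      Nat.card (⁅CfsgLib.Coprime.sdL φ H, CfsgLib.Coprime.sdL φ H⁆ : Subgroup (G ⋊[φ] A)) := by
    intro H
    rw [← CfsgLib.Coprime.sdL_commutator, CfsgLib.Coprime.card_sdL, ← Subgroup.map_subtype_commutator,
      Subgroup.card_map_of_injective H.subtype_injective]
  have : IsMulCommutative (CfsgLib.Coprime.sdR φ ⊤) := ⟨⟨by
    rintro ⟨_, a, -, rfl⟩ ⟨_, b, -, rfl⟩
    apply Subtype.ext
    show SemidirectProduct.inr a * SemidirectProduct.inr b =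
      SemidirectProduct.inr b * SemidirectProduct.inr a
    rw [← map_mul, ← map_mul, hc]⟩⟩
  have h1 := CfsgLib.Fgs.card_commutator_le_rank_three (K := CfsgLib.Coprime.sdL φ ⊤)
    (A := CfsgLib.Coprime.sdR φ ⊤) (m := m) hq
    (by rw [CfsgLib.Coprime.card_sdR, Subgroup.card_top, hA])
    (by rintro _ ⟨a, -, rfl⟩; rw [← map_pow, hexp, map_one])
    (CfsgLib.Coprime.autInv_top.sdR_le ⊤)
    (CfsgLib.Coprime.coprime_sd (by
      rw [hA, Subgroup.card_top]
      exact Nat.Coprime.pow_left _ ((Nat.Prime.coprime_iff_not_dvd hq).2 hcop)))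
    (by
      rintro _ ⟨a, -, rfl⟩ ha
      have h2 := h a (fun h => ha (by rw [h, map_one]))
      rw [key] at h2
      have h5 : CfsgLib.Coprime.sdL φ ⊤ ⊓ Subgroup.centralizer {SemidirectProduct.inr a} =
          CfsgLib.Coprime.sdL φ (FixedPoints.subgroup (Subgroup.zpowers a) G) := by
        refine le_antisymm ?_ ?_
        · rintro _ ⟨⟨g, -, rfl⟩, hg⟩
          refine CfsgLib.Coprime.inl_mem_sdL.2 ?_
          have h3 : φ a g = g := CfsgLib.Coprime.inr_mul_inl_comm_iff.1 (hg _ rfl)
          rintro ⟨_, k, rfl⟩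
          have h4 : a ∈ MulAction.stabilizer A g := h3
          exact (MulAction.stabilizer A g).zpow_mem h4 k
        · rintro _ ⟨g, hg, rfl⟩
          refine ⟨⟨g, trivial, rfl⟩, ?_⟩
          rintro _ rfl
          exact CfsgLib.Coprime.inr_mul_inl_comm_iff.2 (hg ⟨a, Subgroup.mem_zpowers a⟩)
      rw [h5]
      exact h2)
  rw [← Subgroup.card_map_of_injective (CfsgLib.Coprime.sdL φ ⊤).subtype_injective,
    Subgroup.map_subtype_commutator, ← CfsgLib.Coprime.sdL_commutator,
    CfsgLib.Coprime.card_sdL] at h1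
  exact h1

end Cfsg.Agent.S4316
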