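import Cfsg.Statements.S4320


set_option autoImplicit false
open Cfsg

namespace Cfsg.Agent.S4320

open MonoidAlgebra Matrix

theorem exists_det {G R M : Type*} [Group G] [Fintype G] [DecidableEq G] [CommRing R]
    [AddCommGroup M] [Module R M] {A : Type*} [CommGroup A] [Finite A] (π : G →* A)
    (hπ : Function.Surjective π) (hk : π.ker ≤ commutator G) (c : G → R) (ε : R →+* ℤ)
    (hε : ∀ g, ε (c g) = 1) (d : G → M) (hd : ∀ x y, d (x * y) = d x + c x • d y) :
    ∃ δ : R, (ε δ).natAbs = Nat.card A ∧ ∀ g, δ • d g = 0 := by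
  have hd1 : c 1 • d 1 = 0 := by simpa using hd 1 1
  let ψ : (G → ℤ) →+ Additive A :=
    { toFun := fun v => ∑ k, v k • Additive.ofMul (π k)
      map_zero' := by simp
      map_add' := fun v w => by simp [add_smul, Finset.sum_add_distrib] }
  let Γ : Subgroup (G × Multiplicative (G → ℤ)) :=
    { carrier := {p | Additive.ofMul (π p.1) = ψ p.2.toAdd ∧
        ∃ (u : R) (μ : G → R), ε u = 1 ∧ ∑ k, μ k • d k = u • d p.1 ∧ ∀ k, ε (μ k) = p.2.toAdd k}
      one_mem' := ⟨by simp, c 1, 0, hε 1, by simp [hd1], by simp⟩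
      mul_mem' := by
        rintro ⟨x, v⟩ ⟨y, w⟩ ⟨h1, u, μ, hu, h2, h3⟩ ⟨h1', u', ν, hu', h2', h3'⟩
        refine ⟨by simp only [Prod.fst_mul, Prod.snd_mul, map_mul, toAdd_mul, map_add, ofMul_mul, h1, h1'], u * u',
          fun k => u' * μ k + u * c x * ν k, by simp [hu, hu'], ?_, fun k => ?_⟩
        · simp only [add_smul, mul_smul, Finset.sum_add_distrib, ← Finset.smul_sum, h2, h2',
            Prod.fst_mul, hd, smul_add]
          simp only [smul_smul]
          congr 2 <;> ring
        · simp [hu, hu', hε, h3, h3']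
      inv_mem' := by
        rintro ⟨x, v⟩ ⟨h1, u, μ, hu, h2, h3⟩
        refine ⟨by simp only [Prod.fst_inv, Prod.snd_inv, map_inv, toAdd_inv, map_neg, ofMul_inv, h1], u * c 1 * c x,
          fun k => - c 1 * μ k, by simp [hu, hε], ?_, fun k => ?_⟩
        · have h4 := hd x x⁻¹
          rw [mul_inv_cancel] at h4
          have h5 : c 1 • c x • d x⁻¹ = - c 1 • d x := by
            rw [h4, smul_add] at hd1
            rw [neg_smul]
            exact eq_neg_of_add_eq_zero_right hd1
          simp only [mul_smul, ← Finset.smul_sum, h2, Prod.fst_inv, h5]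
          rw [smul_comm]
        · simp [hε, h3] }
  have ha : ∀ k : G, (k, Multiplicative.ofAdd (Pi.single k 1)) ∈ Γ := by
    intro k
    refine ⟨?_, 1, Pi.single k 1, map_one _, ?_, fun j => ?_⟩
    · simp [ψ, Pi.single_apply]
    · simp [Pi.single_apply]
    · simp only [toAdd_ofAdd, Pi.single_apply]
      split_ifs <;> simp
  have hb : commutator G ≤ Γ.comap (MonoidHom.inl _ _) := by
    rw [commutator_def, Subgroup.commutator_le]
    intro g _ h _
    have := Γ.mul_mem (Γ.mul_mem (Γ.mul_mem (ha g) (ha h)) (Γ.inv_mem (ha g))) (Γ.inv_mem (ha h))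
    rw [Subgroup.mem_comap]
    convert this using 1
    ext1
    · rfl
    · simp only [MonoidHom.inl_apply, Prod.snd_mul, Prod.snd_inv]
      rw [mul_right_comm _ _ (Multiplicative.ofAdd _)⁻¹, mul_inv_cancel_right, mul_inv_cancel]
  have hc : ∀ v : G → ℤ, ∃ g, (g, Multiplicative.ofAdd v) ∈ Γ := by
    intro v
    have : Multiplicative.ofAdd v ∈ Γ.map (MonoidHom.snd _ _) := by
      rw [pi_eq_sum_univ' v, ofAdd_sum]
      refine Subgroup.prod_mem _ fun k _ => ?_
      rw [ofAdd_zsmul]
      exact Subgroup.zpow_mem _ (Subgroup.mem_map.2 ⟨_, ha k, rfl⟩) _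
    obtain ⟨⟨g, w⟩, h1, h2⟩ := this
    exact ⟨g, by rw [← h2]; exact h1⟩
  have he : ∀ v ∈ ψ.ker, ∃ μ : G → R, ∑ k, μ k • d k = 0 ∧ ∀ k, ε (μ k) = v k := by
    intro v hv
    obtain ⟨g, hg⟩ := hc v
    have h1 : g ∈ π.ker := by
      have := hg.1
      simp only [toAdd_ofAdd] at this
      rw [hv] at this
      exact this
    obtain ⟨-, u, μ, hu, h2, h3⟩ := Γ.mul_mem hg (Γ.inv_mem (hb (hk h1)))
    simp only [MonoidHom.inl_apply, Prod.fst_mul, Prod.fst_inv, mul_inv_cancel] at h2
    refine ⟨fun k => c 1 * μ k, ?_, fun k => ?_⟩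
    · simp only [mul_smul, ← Finset.smul_sum, h2]
      rw [smul_comm, hd1, smul_zero]
    · simpa [hε] using h3 k
  have hidx : ψ.ker.index = Nat.card A := by
    rw [AddSubgroup.index_ker, AddMonoidHom.range_eq_top.2, AddSubgroup.card_top]
    · rfl
    · intro a
      obtain ⟨k, hk⟩ := hπ a.toMul
      exact ⟨Pi.single k 1, by simp [ψ, Pi.single_apply, hk]⟩
  have hfin : Finite ((G → ℤ) ⧸ ψ.ker.toIntSubmodule) :=
    Nat.finite_of_card_ne_zero (hidx.trans_ne Nat.card_pos.ne')
  let bN := Submodule.smithNormalFormBotBasis (Pi.basisFun ℤ G)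
    ((Submodule.finiteQuotient_iff _).1 hfin)
  have hdet := AddSubgroup.index_eq_natAbs_det (Pi.basisFun ℤ G) ψ.ker bN
  choose μ hμ hμ' using fun i => he (bN i) (bN i).2
  refine ⟨(Matrix.of μ).det, ?_, fun g => ?_⟩
  · rw [← hidx, hdet, RingHom.map_det, Pi.basisFun_det_apply]
    congr 2
    ext i j
    exact hμ' i j
  · have h1 : ∀ j, (Matrix.of μ).det * (if g = j then 1 else 0) =
        ∑ i, (Matrix.of μ).adjugate g i * μ i j := by
      intro j
      have := congrFun (congrFun (Matrix.adjugate_mul (Matrix.of μ)) g) j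
      rw [Matrix.mul_apply, Matrix.smul_apply, Matrix.one_apply] at this
      exact this.symm
    calc (Matrix.of μ).det • d g = ∑ j, ((Matrix.of μ).det * (if g = j then 1 else 0)) • d j := by
          simp
      _ = ∑ i, (Matrix.of μ).adjugate g i • ∑ j, μ i j • d j := by
          simp only [h1, Finset.sum_smul, mul_smul, Finset.smul_sum]
          exact Finset.sum_comm
      _ = 0 := by simp [hμ]

theorem norm_smul_eq_zero {G M : Type*} [Group G] [Finite G] {A : Type*} [CommGroup A] [Fintype A]
    [AddCommGroup M] (ρ : A →* Module.End ℤ M) (π : G →* A)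
    (hπ : Function.Surjective π) (hk : π.ker ≤ commutator G) (d : G → M)
    (hd : ∀ x y, d (x * y) = d x + ρ (π x) (d y)) (g : G) :
    ∑ a, ρ a (d g) = 0 := by
  classical
  let _ : Module (MonoidAlgebra ℤ A) M :=
    Module.compHom _ (MonoidAlgebra.lift ℤ (Module.End ℤ M) A ρ).toRingHom
  have hρ : ∀ (a : A) (f : M), MonoidAlgebra.of ℤ A a • f = ρ a f := by
    intro a f
    change ((MonoidAlgebra.lift ℤ (Module.End ℤ M) A ρ) (MonoidAlgebra.of ℤ A a) f) = _
    rw [MonoidAlgebra.lift_of]
  simp only [← hρ] at hd ⊢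
  have := Fintype.ofFinite G
  let ε : MonoidAlgebra ℤ A →+* ℤ := (MonoidAlgebra.lift ℤ ℤ A 1).toRingHom
  have hε : ∀ a, ε (MonoidAlgebra.of ℤ A a) = 1 := fun a => by simp [ε]
  obtain ⟨δ, h1, h2⟩ := exists_det (M := M × MonoidAlgebra ℤ A) π hπ hk
    (fun g => MonoidAlgebra.of ℤ A (π g)) ε
    (fun g => hε _) (fun g => (d g, MonoidAlgebra.of ℤ A (π g) - 1)) (fun x y => by
      ext1
      · exact hd x y
      · simp only [map_mul, Prod.snd_add, Prod.smul_snd, smul_eq_mul]
        ring)
  have h3 : ∀ a : A, δ.coeff a = δ.coeff 1 := by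
    intro a
    obtain ⟨k, rfl⟩ := hπ a
    have h4 := congrArg Prod.snd (h2 k)
    simp only [Prod.smul_snd, smul_eq_mul, Prod.snd_zero, mul_sub, mul_one, sub_eq_zero] at h4
    conv_lhs => rw [← h4]
    simp [coeff_mul_single_apply]
  have h4 : δ = δ.coeff 1 • ∑ a, MonoidAlgebra.of ℤ A a := by
    ext a
    rw [coeff_smul_apply, coeff_sum, Finsupp.finsetSum_apply, h3 a]
    simp [Finsupp.single_apply]
  have h5 : ε δ = δ.coeff 1 * Nat.card A := by
    conv_lhs => rw [h4]
    rw [map_zsmul, map_sum]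
    simp only [hε]
    simp
  rw [h5, Int.natAbs_mul, Int.natAbs_natCast] at h1
  have h6 : (δ.coeff 1).natAbs = 1 :=
    Nat.eq_of_mul_eq_mul_right Nat.card_pos (h1.trans (one_mul _).symm)
  have h7 : δ • d g = 0 := congrArg Prod.fst (h2 g)
  rw [h4, smul_assoc, Finset.sum_smul] at h7
  rcases Int.natAbs_eq_iff.1 h6 with h | h
  · simpa [h] using h7
  · simpa [h] using h7

/-- The Principal Ideal Theorem of class field theory in its group-theoretic form: for every finite group `G`, the transfer homomorphism from `G` into the abelianization `G'/G''` of its derived subgroup `G'` is the trivial homomorphism. -/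
theorem result {G : Type*} [Group G] [Finite G] :
    MonoidHom.transfer (Abelianization.of : ↥(commutator G) →* Abelianization ↥(commutator G)) =
      (1 : G →* Abelianization ↥(commutator G)) := by
  classical
  ext g
  let A := Abelianization G
  let B := Abelianization ↥(commutator G)
  have : Finite A := inferInstanceAs (Finite (G ⧸ commutator G))
  let _ : Fintype A := (commutator G).fintypeQuotientOfFiniteIndex
  let ρ : A →* Module.End ℤ (A → Additive B) :=
    { toFun := fun a => LinearMap.funLeft ℤ _ fun q => a⁻¹ * q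
      map_one' := by ext; simp
      map_mul' := fun a b => by ext; simp [mul_assoc] }
  have hρ : ∀ (a : A) (f : A → Additive B) (q : A), ρ a f q = f (a⁻¹ * q) := fun _ _ _ => rfl
  let T : (commutator G).LeftTransversal := default
  let s : A → G := fun q => T.2.leftQuotientEquiv q
  have hs : ∀ q, Abelianization.of (s q) = q := fun q => T.2.quotientGroupMk_leftQuotientEquiv q
  have hm : ∀ (x : G) (q : A), (s q)⁻¹ * x * s ((Abelianization.of x)⁻¹ * q) ∈ commutator G := by
    intro x q
    rw [← Abelianization.ker_of, MonoidHom.mem_ker]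
    simp [hs]
  let d : G → A → Additive B := fun x q => Additive.ofMul (Abelianization.of ⟨_, hm x q⟩)
  have h1 := norm_smul_eq_zero ρ Abelianization.of QuotientGroup.mk_surjective
    (Abelianization.ker_of G).le d (fun x y => by
      funext q
      rw [Pi.add_apply, hρ]
      simp only [d]
      rw [← ofMul_mul, ← map_mul]
      congr 2
      ext
      simp [mul_assoc]) g
  have h2 := congrFun h1 1
  rw [Finset.sum_apply] at h2
  simp only [hρ, mul_one] at h2
  replace h2 := (Equiv.sum_comp (Equiv.inv A) (d g)).symm.trans h2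
  rw [MonoidHom.transfer_def _ T, MonoidHom.one_apply]
  refine Eq.trans ?_ (congrArg Additive.toMul h2)
  rw [toMul_sum]
  refine Finset.prod_congr rfl fun q _ => ?_
  simp only [d, toMul_ofMul]
  congr 2
  rw [Subgroup.smul_apply_eq_smul_apply_inv_smul, smul_eq_mul, mul_assoc]
  congr 3

end Cfsg.Agent.S4320
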