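import Cfsg.Statements.S4416
import Cfsg.Agent.Lib.ExtraTwo.Classify

set_option autoImplicit false
open Cfsg

namespace Cfsg.Agent.S4416

/-- Classification of extraspecial 2-groups in intrinsic form. An extraspecial 2-group has order 2^(2m+1) for some m ≥ 1, and the number of its elements squaring to the identity is either 2^(2m) + 2^m or 2^(2m) − 2^m; two extraspecial 2-groups of the same order with the same number of such elements are isomorphic. (The two cases are the central products of m dihedral groups of order 8, and of m − 1 dihedral groups with one quaternion group.) -/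
theorem result (E : Type*) [Group E] [Finite E] (hE : Cfsg.IsExtraspecial 2 E) :
    (∃ m : ℕ, 1 ≤ m ∧ Nat.card E = 2 ^ (2 * m + 1) ∧
      (Nat.card {x : E // x ^ 2 = 1} = 2 ^ (2 * m) + 2 ^ m ∨ Nat.card {x : E // x ^ 2 = 1} = 2 ^ (2 * m) - 2 ^ m)) ∧
    ∀ (E' : Type*) [Group E'] [Finite E'], Cfsg.IsExtraspecial 2 E' → Nat.card E' = Nat.card E →
      Nat.card {x : E' // x ^ 2 = 1} = Nat.card {x : E // x ^ 2 = 1} → Nonempty (E ≃* E') := by
  obtain ⟨z, e⟩ := CfsgLib.ExtraTwo.exists_ES_top hE
  obtain ⟨k, hk, t⟩ := e.exists_plus_or_minus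
  rw [Subgroup.card_top] at hk
  refine ⟨⟨k + 1, by omega, hk, ?_⟩, fun E' _ _ hE' hc h => ?_⟩
  · rcases t with t | t <;> have h1 := t.card_sq <;> rw [CfsgLib.ExtraTwo.card_top_and] at h1
    · exact Or.inl h1
    · exact Or.inr (by omega)
  obtain ⟨z', e'⟩ := CfsgLib.ExtraTwo.exists_ES_top hE'
  obtain ⟨-, t'⟩ := e'.plus_or_minus (n := k + 1) (by rw [Subgroup.card_top, hc, hk])
  have h0 : 0 < 2 ^ (k + 1) := by positivity
  rcases t with t | t <;> rcases t' with t' | t' <;> have h1 := t.card_sq <;>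
    have h2 := t'.card_sq <;> rw [CfsgLib.ExtraTwo.card_top_and] at h1 h2
  · exact CfsgLib.ExtraTwo.nonempty_mulEquiv_of_top (t.nonempty_mulEquiv t')
  · rw [Nat.add_sub_cancel] at h2; omega
  · omega
  · exact CfsgLib.ExtraTwo.nonempty_mulEquiv_of_top (t.nonempty_mulEquiv t')

end Cfsg.Agent.S4416
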