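import Cfsg.Statements.S4422

set_option autoImplicit false
open Cfsg

namespace Cfsg.Agent.S4422

theorem prime_case (q e : ℕ) (hq : 2 ≤ q) (he : 1 ≤ e) (r : ℕ) (hr : r.Prime)
    (hm : r ∣ q ^ e - 1) (hcop : ∀ i : ℕ, 1 ≤ i → i < e → Nat.Coprime r (q ^ i - 1)) :
    r ≡ 1 [MOD e] := by
  haveI : Fact r.Prime := ⟨hr⟩
  have hpow : ∀ i : ℕ, (q : ZMod r) ^ i = 1 ↔ r ∣ q ^ i - 1 := by
    intro i
    have h1 : 1 ≤ q ^ i := Nat.one_le_pow _ _ (by omega)
    rw [← ZMod.natCast_eq_zero_iff, Nat.cast_sub h1, sub_eq_zero]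
    simp
  have h1 : (q : ZMod r) ^ e = 1 := (hpow e).2 hm
  have hq0 : (q : ZMod r) ≠ 0 := by
    intro h
    rw [h, zero_pow (by omega)] at h1
    exact zero_ne_one h1
  have hord : orderOf (q : ZMod r) = e := by
    rw [orderOf_eq_iff (by omega)]
    refine ⟨h1, fun i hi hi0 h => ?_⟩
    have h2 := (hpow i).1 h
    have h3 := hcop i hi0 hi
    exact hr.one_lt.ne' (Nat.Coprime.eq_one_of_dvd h3 h2)
  have h2 : e ∣ r - 1 := hord ▸ ZMod.orderOf_dvd_card_sub_one hq0
  exact ((Nat.modEq_iff_dvd' hr.one_le).2 h2).symm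

/-- Primitive divisors of `q^e - 1` are congruent to 1 modulo `e`. Let `q ≥ 2` and `e ≥ 1` be natural numbers and let `m` be a divisor of `q^e - 1` that is coprime to `q^i - 1` for every `1 ≤ i < e` (so `m` divides the primitive part of `q^e - 1`, the largest such divisor). Then `m ≡ 1 (mod e)`. -/
theorem result (q e m : ℕ) (hq : 2 ≤ q) (he : 1 ≤ e)
    (hm : m ∣ q ^ e - 1) (hcop : ∀ i : ℕ, 1 ≤ i → i < e → Nat.Coprime m (q ^ i - 1)) :
    m % e = 1 % e := by
  have hpos : 0 < q ^ e - 1 := by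
    have : 1 < q ^ e := Nat.one_lt_pow (by omega) (by omega)
    omega
  have hm0 : m ≠ 0 := by
    rintro rfl
    rw [zero_dvd_iff] at hm
    omega
  change m ≡ 1 [MOD e]
  have key : ∀ n : ℕ, n ≠ 0 → n ∣ m → n ≡ 1 [MOD e] := by
    intro n
    induction n using Nat.recOnPrimeCoprime with
    | zero => intro h; exact absurd rfl h
    | prime_pow p k hp =>
      intro _ hd
      rcases Nat.eq_zero_or_pos k with rfl | hk
      · simp [Nat.ModEq.refl]
      · have hpm : p ∣ m := (dvd_pow_self p hk.ne').trans hd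
        have := prime_case q e hq he p hp (hpm.trans hm)
          (fun i h1 h2 => Nat.Coprime.coprime_dvd_left hpm (hcop i h1 h2))
        simpa using this.pow k
    | coprime a b ha hb hab iha ihb =>
      intro _ hd
      have h1 := iha (by omega) ((Dvd.intro _ rfl).trans hd)
      have h2 := ihb (by omega) ((Dvd.intro_left _ rfl).trans hd)
      simpa using h1.mul h2
  exact key m hm0 dvd_rfl

end Cfsg.Agent.S4422
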