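import Cfsg.Statements.S4423
import Cfsg.Agent.Lib.Spec.Zsig

set_option autoImplicit false
open Cfsg

namespace Cfsg.Agent.S4423

open Polynomial Finset CfsgLib.Spec

theorem totient_small {n : ℕ} (h : 2 ^ n.totient ≤ 4 * (n * (3 * n))) : n ≤ 42 := by
  have h1 := (le_two_mul_totient_sq n).1
  have h2 : n.totient ≤ 23 := by
    by_contra h3
    have h4 : ∀ k : ℕ, 24 ≤ k → 4 * (2 * k ^ 2 * (3 * (2 * k ^ 2))) < 2 ^ k := by
      intro k hk
      induction k, hk using Nat.le_induction with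
      | base => norm_num
      | succ k hk ih =>
        rw [pow_succ 2 k]
        refine lt_of_le_of_lt ?_ (Nat.mul_lt_mul_of_pos_right ih two_pos)
        obtain ⟨j, rfl⟩ := Nat.exists_eq_add_of_le hk
        ring_nf
        omega
    have h5 := h4 _ (not_le.1 h3)
    have h6 : n * (3 * n) ≤ 2 * n.totient ^ 2 * (3 * (2 * n.totient ^ 2)) := Nat.mul_le_mul h1 (by omega)
    omega
  have h3 : n < 1059 := by nlinarith
  by_cases h5 : n < 120
  · have h4 : ∀ n < 120, 2 ^ cntCop n n ≤ 4 * (n * (3 * n)) → n ≤ 42 := by decide +kernel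
    exact h4 n h5 (totient_eq_cntCop n ▸ h)
  · have h4 : ∀ n < 1059, 120 ≤ n → 24 ≤ cntCop n 120 := by decide +kernel
    have h6 := h4 n h3 (by omega)
    have h7 : cntCop n 120 ≤ n.totient := by
      rw [cntCop_eq]
      exact card_le_card (filter_subset_filter _ (range_mono (by omega)))
    omega

/-- a candidate for the primitive part -/
def prim (q n : ℕ) : ℕ := (q ^ n - 1) / Nat.gcd (q ^ n - 1) ((∏ i ∈ Ico 1 n, (q ^ i - 1)) ^ 5)

set_option synthInstance.maxSize 2048 in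
theorem small : ∀ n < 43, ∀ q < 21, 2 ≤ q → 3 ≤ n → q ^ cntCop n n ≤ 4 * (n * (3 * n)) →
    (q, n) ∉ [(2, 6), (2, 4), (2, 10), (2, 12), (2, 18), (3, 4), (3, 6), (5, 6), (2, 3), (2, 8), (2, 20), (4, 3), (4, 6)] →
      (∀ i < n, 1 ≤ i → Nat.Coprime (prim q n) (q ^ i - 1)) ∧ 3 * n + 1 ≤ prim q n := by
  decide +kernel

theorem exc : ∀ x ∈ [(2, 6), (2, 4), (2, 10), (2, 12), (2, 18), (3, 4), (3, 6), (5, 6), (2, 3), (2, 8), (2, 20), (4, 3), (4, 6)],
    0 < prim x.1 x.2 ∧ prim x.1 x.2 ≤ 2 * x.2 + 1 ∧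
      x.1 ^ x.2 - 1 ∣ prim x.1 x.2 * (∏ i ∈ Ico 1 x.2, (x.1 ^ i - 1)) ^ 5 := by
  decide +kernel


/-- Size of the primitive part of `q^e - 1`. For a prime power `q` and `e ≥ 3`, call a divisor of `q^e - 1` primitive when it is coprime to `q^i - 1` for every `1 ≤ i < e`; the primitive part is the largest primitive divisor. Apart from thirteen exceptional pairs, the primitive part is at least `3e + 1`: there is a primitive divisor `m ≥ 3e + 1` unless `(q, e)` is `(2, 6)` (where every primitive divisor is 1), one of `(2,4), (2,10), (2,12), (2,18), (3,4), (3,6), (5,6)` (where the primitive part is exactly `e + 1`), or one of `(2,3), (2,8), (2,20), (4,3), (4,6)` (where it is exactly `2e + 1`). The statement asserts the existence of a primitive divisor `m ≥ 3e + 1` outside the thirteen pairs, and that every primitive divisor is at most `2e + 1` for the thirteen pairs. -/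
theorem result (q e : ℕ) (hq : IsPrimePow q) (he : 3 ≤ e) :
    ((q, e) ∉ [(2, 6), (2, 4), (2, 10), (2, 12), (2, 18), (3, 4), (3, 6), (5, 6), (2, 3), (2, 8), (2, 20), (4, 3), (4, 6)] →
      ∃ m : ℕ, m ∣ q ^ e - 1 ∧ (∀ i : ℕ, 1 ≤ i → i < e → Nat.Coprime m (q ^ i - 1)) ∧ 3 * e + 1 ≤ m) ∧
    ((q, e) ∈ [(2, 6), (2, 4), (2, 10), (2, 12), (2, 18), (3, 4), (3, 6), (5, 6), (2, 3), (2, 8), (2, 20), (4, 3), (4, 6)] →
      ∀ m : ℕ, m ∣ q ^ e - 1 → (∀ i : ℕ, 1 ≤ i → i < e → Nat.Coprime m (q ^ i - 1)) → m ≤ 2 * e + 1) := by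
  refine ⟨fun hx => ?_, fun hx m h1 h2 => ?_⟩
  · have hq2 := hq.two_le
    obtain ⟨Φ, hΦ⟩ := Int.eq_ofNat_of_zero_le (cyclotomic_pos he (q : ℤ)).le
    have hcast : ∀ i, ((q ^ i - 1 : ℕ) : ℤ) = (q : ℤ) ^ i - 1 := fun i => by
      rw [Nat.cast_sub (Nat.one_le_pow _ _ (by omega))]; simp
    have hdvd : Φ ∣ q ^ e - 1 := by
      have := map_dvd (evalRingHom (q : ℤ)) (cyclotomic.dvd_X_pow_sub_one e ℤ)
      simp only [coe_evalRingHom, eval_sub, eval_pow, eval_X, eval_one, hΦ] at this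
      rwa [← hcast, Int.natCast_dvd_natCast] at this
    have h0 := Nat.div_mul_cancel (Nat.gcd_dvd_left Φ e)
    by_cases hm : 3 * e + 1 ≤ Φ / Nat.gcd Φ e
    · refine ⟨_, (Dvd.intro _ h0).trans hdvd, fun i hi hi' => Nat.coprime_of_dvd fun r hr h3 h4 => ?_, hm⟩
      have := Fact.mk hr
      have h5 : r ∣ Φ := h3.trans (Dvd.intro _ h0)
      rcases prime_dvd_cyclotomic hq2 he hr (hΦ ▸ Int.natCast_dvd_natCast.2 h5) with h6 | h6
      · rw [← Int.natCast_dvd_natCast, hcast, ← ZMod.intCast_zmod_eq_zero_iff_dvd] at h4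
        push_cast at h4
        have := Nat.le_of_dvd hi (orderOf_dvd_of_pow_eq_one (sub_eq_zero.1 h4))
        omega
      · refine h6.2 ?_
        rw [hΦ, sq, ← h0]
        exact_mod_cast Nat.mul_dvd_mul h3 (Nat.dvd_gcd h5 h6.1)
    · have h6 : q ^ e.totient ≤ 4 * (e * (3 * e)) := by
        have h7 := pow_totient_le_four_mul_cyclotomic (q := q) (by exact_mod_cast hq2) (show 0 < e by omega)
        rw [← map_cyclotomic_int, ← Int.cast_natCast, eval_intCast_map, eq_intCast, Int.cast_id, hΦ] at h7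
        have h8 : q ^ e.totient ≤ 4 * Φ := by exact_mod_cast h7
        refine h8.trans (Nat.mul_le_mul_left _ ?_)
        rw [← h0, mul_comm]
        exact Nat.mul_le_mul (Nat.gcd_le_right _ (by omega)) (by omega)
      have h7 : e ≤ 42 := totient_small ((Nat.pow_le_pow_left hq2 _).trans h6)
      rw [totient_eq_cntCop] at h6
      have h8 : q < 21 := by
        have h9 : ∀ n < 43, 2 < n → 4 * (n * (3 * n)) < 21 ^ cntCop n n := by decide +kernel
        exact lt_of_pow_lt_pow_left₀ _ (by omega) (h6.trans_lt (h9 e (by omega) he))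
      obtain ⟨h9, h10⟩ := small e (by omega) q h8 hq2 he h6 hx
      exact ⟨_, Nat.div_dvd_of_dvd (Nat.gcd_dvd_left _ _), fun i hi hi' => h9 i hi' hi, h10⟩
  · obtain ⟨h3, h4, h5⟩ := exc _ hx
    exact (Nat.le_of_dvd h3 ((Nat.Coprime.pow_right 5 (Nat.Coprime.prod_right fun i hi =>
      h2 i (mem_Ico.1 hi).1 (mem_Ico.1 hi).2)).dvd_of_dvd_mul_right (h1.trans h5))).trans h4

end Cfsg.Agent.S4423
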