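import Cfsg.Statements.S4425
import Cfsg.Agent.Lib.Blk.BF

set_option autoImplicit false
open Cfsg

namespace Cfsg.Agent.S4425

open CfsgLib.Blk CfsgLib.Char CfsgLib.Block

/-- Let χ be an irreducible character of the finite group G, p a prime, p^a the p-part of the order of G and p^b the p-part of the degree χ(1). Let χ̃ be the class function equal to p^a · χ on p-regular elements and zero on p-singular elements. Then p^(−b) · χ̃ is a generalized character of G, while p^(−(b+1)) · χ̃ is not. -/
theorem result {G : Type*} [Group G] [Finite G] (p : ℕ) [Fact p.Prime] (χ : Cfsg.IrrCharacter G) : Cfsg.IsGeneralizedCharacter G (fun x : G => if p ∣ orderOf x then (0 : ℂ) else ((p ^ ((Nat.card G).factorization p - (Cfsg.charDegree (χ : G → ℂ)).factorization p) : ℕ) : ℂ) * (χ : G → ℂ) x) ∧ ¬ Cfsg.IsGeneralizedCharacter G (fun x : G => if p ∣ orderOf x then (0 : ℂ) else ((p ^ (Nat.card G).factorization p : ℕ) : ℂ) / ((p ^ ((Cfsg.charDegree (χ : G → ℂ)).factorization p + 1) : ℕ) : ℂ) * (χ : G → ℂ) x) := by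
  have := Fintype.ofFinite G
  have hp : p.Prime := Fact.out
  have hp0 : (p : ℂ) ≠ 0 := Nat.cast_ne_zero.2 hp.ne_zero
  constructor
  · have : (fun x : G => if p ∣ orderOf x then (0 : ℂ) else ((p ^ ((Nat.card G).factorization p - (Cfsg.charDegree (χ : G → ℂ)).factorization p) : ℕ) : ℂ) * (χ : G → ℂ) x) = ((p : ℂ) ^ ((Nat.card G).factorization p - (Cfsg.charDegree (χ : G → ℂ)).factorization p)) • pRegularPart p (χ : G → ℂ) := by
      ext x
      simp only [Pi.smul_apply, smul_eq_mul, pRegularPart_eq_ite]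
      split_ifs <;> simp
    rw [this]
    refine isGenChar_of_inner_int (isClassFunction_smul _
      (isClassFunction_pRegularPart (irr_isClassFunction χ))) fun ψ hψ => ?_
    rw [classInner_smul_left]
    exact exists_pow_sub_mm_int χ.2 (isGenChar_of_isIrr hψ)
  · intro h
    obtain ⟨k, hk⟩ := pow_dvd_of_genChar_vanish (p := p) h (fun g hg => if_pos hg)
    have h1 : ¬ p ∣ orderOf (1 : G) := by simpa using hp.ne_one
    simp only [if_neg h1] at hk
    rw [← charDegree_eq (irr_isCharacter χ)] at hk
    have h2 : (charDegree (χ : G → ℂ) : ℂ) =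
        ((p ^ ((charDegree (χ : G → ℂ)).factorization p + 1) : ℕ) : ℂ) * k := by
      have h3 : ((p ^ (Nat.card G).factorization p : ℕ) : ℂ) ≠ 0 := by simp [hp.ne_zero]
      have h4 : ((p ^ ((charDegree (χ : G → ℂ)).factorization p + 1) : ℕ) : ℂ) ≠ 0 := by
        simp [hp.ne_zero]
      field_simp at hk
      rw [hk]
    have h5 : (charDegree (χ : G → ℂ) : ℤ) =
        ((p ^ ((charDegree (χ : G → ℂ)).factorization p + 1) : ℕ) : ℤ) * k := by exact_mod_cast h2
    exact Nat.pow_succ_factorization_not_dvd (charDegree_ne_zero χ.2) hp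
      (Int.natCast_dvd_natCast.1 ⟨k, h5⟩)

end Cfsg.Agent.S4425
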