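import Cfsg.Statements.S4426
import Cfsg.Agent.Lib.Blk.BF

set_option autoImplicit false
open Cfsg

namespace Cfsg.Agent.S4426

open CfsgLib.Blk CfsgLib.Char CfsgLib.Block

theorem key {G : Type*} [Group G] [Fintype G] (p : ℕ) [Fact p.Prime] (M : Ideal Cfsg.AlgInt) (hM : Cfsg.IsPModular p M) (B : Set (Cfsg.IrrCharacter G)) (hB : Cfsg.IsPBlock M B) (χ : Cfsg.IrrCharacter G) (hχ : χ ∈ B) (ξ : Cfsg.IrrCharacter G) (hξ : ξ ∈ B) :
    Cfsg.blockHeight p B (χ : G → ℂ) = 0 ↔ ∃ n : ℤ, Cfsg.classInner (fun x : G => if p ∣ orderOf x then (0 : ℂ) else ((p ^ (Nat.card G).factorization p : ℕ) : ℂ) * (χ : G → ℂ) x) (ξ : G → ℂ) = (n : ℂ) ∧ n ≠ 0 ∧ padicValInt p n = (Cfsg.charDegree (ξ : G → ℂ)).factorization p := by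
  have hp : p.Prime := Fact.out
  have hp0 : (p : ℤ) ≠ 0 := Nat.cast_ne_zero.2 hp.ne_zero
  have h1 : (fun x : G => if p ∣ orderOf x then (0 : ℂ) else ((p ^ (Nat.card G).factorization p : ℕ) : ℂ) * (χ : G → ℂ) x) = ((p : ℂ) ^ (Nat.card G).factorization p) • pRegularPart p (χ : G → ℂ) := by
    ext x
    simp only [Pi.smul_apply, smul_eq_mul, pRegularPart_eq_ite]
    split_ifs <;> simp
  obtain ⟨n, hn, hn'⟩ := exists_aa_eq hM hξ (isGenChar_of_isIrr χ.2)
  have h2 : classInner (((p : ℂ) ^ (Nat.card G).factorization p) • pRegularPart p (χ : G → ℂ))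
      (ξ : G → ℂ) = ((p ^ (charDegree (ξ : G → ℂ)).factorization p * n : ℤ) : ℂ) := by
    rw [classInner_smul_left, ← defect_add_minv (p := p) ⟨χ, hχ⟩, ← minv_add_height hξ, add_comm,
      pow_add, mul_assoc]
    change _ * (_ * mm p _ _) = _
    rw [← aa_cast hχ (isGenChar_of_isIrr ξ.2), aa_comm_irr, hn]
    push_cast
    ring
  rw [h1, h2, ← not_li_wt_iff hM hB hχ hξ, ← hn']
  have hval : n ≠ 0 → padicValInt p (p ^ (charDegree (ξ : G → ℂ)).factorization p * n) =
      (charDegree (ξ : G → ℂ)).factorization p + padicValInt p n := by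
    intro hn0
    rw [padicValInt.mul (pow_ne_zero _ hp0) hn0]
    congr 1
    rw [← Nat.cast_pow, padicValInt.of_nat, padicValNat.prime_pow]
  constructor
  · intro h
    have hn0 : n ≠ 0 := by rintro rfl; exact h (dvd_zero _)
    refine ⟨_, rfl, mul_ne_zero (pow_ne_zero _ hp0) hn0, ?_⟩
    rw [hval hn0, padicValInt.eq_zero_of_not_dvd h, add_zero]
  · rintro ⟨m, hm, hm0, hm1⟩ hdvd
    have hm' : p ^ (charDegree (ξ : G → ℂ)).factorization p * n = m := by exact_mod_cast hm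
    subst hm'
    have hn0 : n ≠ 0 := right_ne_zero_of_mul hm0
    rw [hval hn0] at hm1
    have h3 : padicValInt p n = 0 := by omega
    have h4 := (padicValInt_dvd_iff 1 n).1 (by simpa using hdvd)
    omega

/-- Let χ be an irreducible character in the p-block B of the finite group G (relative to a maximal ideal M of the algebraic integers containing p), let p^a be the p-part of the order of G, and let χ̃ be the class function equal to p^a · χ on p-regular elements and zero elsewhere. For ξ ∈ B the inner product [χ̃, ξ] is an integer. The following are equivalent: (a) χ has height zero in B; (b) for some ξ ∈ B the integer [χ̃, ξ] is nonzero and the exact power of p dividing it equals the exact power of p dividing ξ(1); (c) the same holds for every ξ ∈ B. -/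
theorem result {G : Type*} [Group G] [Fintype G] (p : ℕ) [Fact p.Prime] (M : Ideal Cfsg.AlgInt) (hM : Cfsg.IsPModular p M) (B : Set (Cfsg.IrrCharacter G)) (hB : Cfsg.IsPBlock M B) (χ : Cfsg.IrrCharacter G) (hχ : χ ∈ B) : (Cfsg.blockHeight p B (χ : G → ℂ) = 0 ↔ ∃ ξ ∈ B, ∃ n : ℤ, Cfsg.classInner (fun x : G => if p ∣ orderOf x then (0 : ℂ) else ((p ^ (Nat.card G).factorization p : ℕ) : ℂ) * (χ : G → ℂ) x) (ξ : G → ℂ) = (n : ℂ) ∧ n ≠ 0 ∧ padicValInt p n = (Cfsg.charDegree (ξ : G → ℂ)).factorization p) ∧ (Cfsg.blockHeight p B (χ : G → ℂ) = 0 ↔ ∀ ξ ∈ B, ∃ n : ℤ, Cfsg.classInner (fun x : G => if p ∣ orderOf x then (0 : ℂ) else ((p ^ (Nat.card G).factorization p : ℕ) : ℂ) * (χ : G → ℂ) x) (ξ : G → ℂ) = (n : ℂ) ∧ n ≠ 0 ∧ padicValInt p n = (Cfsg.charDegree (ξ : G → ℂ)).factorization p) := by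
  exact ⟨⟨fun h => ⟨χ, hχ, (key p M hM B hB χ hχ χ hχ).1 h⟩,
    fun ⟨ξ, hξ, h⟩ => (key p M hM B hB χ hχ ξ hξ).2 h⟩,
    ⟨fun h ξ hξ => (key p M hM B hB χ hχ ξ hξ).1 h,
    fun h => (key p M hM B hB χ hχ χ hχ).2 (h χ hχ)⟩⟩

end Cfsg.Agent.S4426
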