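import Cfsg.Statements.S4427
import Cfsg.Agent.Lib.Blk.Dec2
import Cfsg.Agent.Lib.Char.Kernel

set_option autoImplicit false
open Cfsg

namespace Cfsg.Agent.S4427

open CfsgLib.Char CfsgLib.Blk CfsgLib.Block CfsgLib.ModRep
open scoped ComplexConjugate

/-- Let G be a finite group of order p^a · q^b · r^c with p, q, r distinct primes, and suppose that G has exactly q^b · r^c elements of order not divisible by p. Then G has a normal p-complement: a normal subgroup of order q^b · r^c. -/
theorem result {G : Type*} [Group G] [Finite G] (p q r a b c : ℕ) (hp : p.Prime) (hq : q.Prime) (hr : r.Prime) (hpq : p ≠ q) (hpr : p ≠ r) (hqr : q ≠ r) (hG : Nat.card G = p ^ a * q ^ b * r ^ c) (hcount : Nat.card {g : G // ¬ p ∣ orderOf g} = q ^ b * r ^ c) : ∃ N : Subgroup G, N.Normal ∧ Nat.card N = q ^ b * r ^ c := by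
  classical
  haveI := Fintype.ofFinite G
  haveI := Fact.mk hq
  haveI := Fact.mk hr
  obtain ⟨M, hM⟩ := exists_isPModular' hp
  obtain ⟨W⟩ := nonempty_wedd (k := K hM) (A := MonoidAlgebra (K hM) G)
  obtain ⟨Q, hQ⟩ := Sylow.exists_subgroup_card_pow_prime (G := G) q (n := b)
    (hG ▸ Dvd.intro (p ^ a * r ^ c) (by ring))
  obtain ⟨R, hR⟩ := Sylow.exists_subgroup_card_pow_prime (G := G) r (n := c)
    (hG ▸ Dvd.intro (p ^ a * q ^ b) (by ring))
  have h1 : IsCharacter G (fun _ => (1 : ℂ)) := isCharacter_one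
  obtain ⟨n, hn⟩ := exists_indFun_hom_eq_sum W Q (by
    rw [hQ]; exact fun h => hpq ((Nat.prime_dvd_prime_iff_eq hp hq).1 (hp.dvd_of_dvd_pow h))) 1
  obtain ⟨m, hm⟩ := exists_indFun_hom_eq_sum W R (by
    rw [hR]; exact fun h => hpr ((Nat.prime_dvd_prime_iff_eq hp hr).1 (hp.dvd_of_dvd_pow h))) 1
  simp only [MonoidHom.one_apply, Units.val_one] at hn hm
  have h2 : ∑ x, W.d x * dn W (fun _ => (1 : ℂ)) x = 1 := by
    exact_mod_cast (char_one_eq_sum W h1).symm
  have h3 : ∀ (T : Subgroup G) (n : Fin W.n → ℕ),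
      indFun T (fun _ => (1 : ℂ)) = ∑ x, (n x : ℂ) • Proj W x →
      ∑ x, n x * dn W (fun _ => (1 : ℂ)) x = 1 := fun T n h => by
    have e := classInner_indFun_left T (fun _ => (1 : ℂ)) (χ := fun _ => 1) (fun _ _ => rfl)
    rw [classInner_one_one, h, classInner_sum_left] at e
    simp only [classInner_smul_left, classInner_Proj W _ h1] at e
    exact_mod_cast e
  obtain ⟨x, -, hx⟩ := Finset.exists_ne_zero_of_sum_ne_zero (h2.trans_ne one_ne_zero)
  have h4 : ∀ y, y ≠ x → dn W (fun _ => (1 : ℂ)) y = 0 := fun y hy => by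
    have e := Finset.add_le_sum (s := Finset.univ) (f := fun x => W.d x * dn W (fun _ => (1 : ℂ)) x)
      (fun _ _ => Nat.zero_le _) (Finset.mem_univ y) (Finset.mem_univ x) hy
    have := W.pos y
    have e2 : W.d y * dn W (fun _ => (1 : ℂ)) y = 0 := by omega
    exact (Nat.mul_eq_zero.1 e2).resolve_left this.ne'
  have h5 : ∀ n : Fin W.n → ℕ, ∑ y, n y * dn W (fun _ => (1 : ℂ)) y = 1 →
      n x = 1 ∧ dn W (fun _ => (1 : ℂ)) x = 1 := fun n h => by
    rw [Finset.sum_eq_single x (fun y _ hy => by rw [h4 y hy, mul_zero]) (by simp)] at h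
    exact ⟨Nat.eq_one_of_mul_eq_one_right h, Nat.eq_one_of_mul_eq_one_left h⟩
  obtain ⟨hnx, hdx⟩ := h5 n (h3 Q n hn)
  have hmx := (h5 m (h3 R m hm)).1
  have hp0 : (p : ℂ) ^ a ≠ 0 := pow_ne_zero _ (Nat.cast_ne_zero.2 hp.ne_zero)
  have hq0 : (q : ℂ) ^ b ≠ 0 := pow_ne_zero _ (Nat.cast_ne_zero.2 hq.ne_zero)
  have hr0 : (r : ℂ) ^ c ≠ 0 := pow_ne_zero _ (Nat.cast_ne_zero.2 hr.ne_zero)
  have h6 : classInner (indFun Q fun _ => (1 : ℂ)) (indFun R fun _ => (1 : ℂ)) = p ^ a := by
    rw [classInner_indFun_left Q _ (isClassFunction_indFun R _), classInner_def,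
      Finset.sum_eq_single 1 (fun y _ hy => ?_) (by simp), OneMemClass.coe_one, indFun_one,
      natCast_index_eq, hQ, hR, hG]
    · simp only [mul_one, one_mul, map_mul, map_inv₀, map_natCast, Nat.cast_mul, Nat.cast_pow,
        map_pow]
      field_simp
    · rw [indFun_eq_zero_of_not_conj R _ fun g hg => hy ?_, map_zero, mul_zero]
      have e1 := R.orderOf_dvd_natCard hg
      have e2 := Q.orderOf_dvd_natCard y.2
      rw [show orderOf (g * y * g⁻¹) = orderOf (y : G) from (MulAut.conj g).orderOf_eq y, hR] at e1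
      rw [hQ] at e2
      exact Subtype.ext (orderOf_eq_one_iff.1 (Nat.eq_one_of_dvd_coprimes
        (Nat.coprime_pow_primes b c hq hr hqr) e2 e1))
  have hc0 : ∀ y z, 0 ≤ cart W y z := fun y z => Finset.sum_nonneg fun _ _ => by positivity
  have h7 : cart W x x ≤ p ^ a := by
    rw [hn, hm, classInner_sum_left] at h6
    simp only [classInner_sum_right, classInner_smul_left, classInner_smul_right, map_natCast,
      classInner_Proj_Proj] at h6
    have e : ∑ y, ∑ z, (m z : ℤ) * (n y * cart W y z) = p ^ a := by exact_mod_cast h6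
    rw [← e]
    refine le_trans ?_ (Finset.single_le_sum (f := fun y => ∑ z, (m z : ℤ) * (n y * cart W y z))
      (fun y _ => Finset.sum_nonneg fun z _ => by have := hc0 y z; positivity) (Finset.mem_univ x))
    refine le_trans ?_ (Finset.single_le_sum (f := fun z => (m z : ℤ) * (n x * cart W x z))
      (fun z _ => by have := hc0 x z; positivity) (Finset.mem_univ x))
    simp [hnx, hmx]
  set θ : G → ℂ := fun g => if p ∣ orderOf g then 0 else p ^ a with hθ
  have h8 : ∀ f : G → ℂ, (∀ g, p ∣ orderOf g → f g = 0) →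
      classInner f θ = p ^ a * classInner f (fun _ => 1) := fun f hf => by
    rw [classInner_def, classInner_def, mul_left_comm]
    congr 1
    rw [Finset.mul_sum]
    refine Finset.sum_congr rfl fun g _ => ?_
    by_cases h : p ∣ orderOf g
    · simp [hf g h]
    · simp [hθ, h, mul_comm]
  have h9 : classInner θ (fun _ => 1) = 1 := by
    rw [classInner_one_right, hθ, Finset.sum_ite, Finset.sum_const_zero, zero_add, Finset.sum_const,
      ← Fintype.card_subtype, ← Nat.card_eq_fintype_card, hcount, hG]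
    simp only [Nat.cast_mul, Nat.cast_pow, nsmul_eq_mul]
    field_simp
  have h10 := h8 _ fun g => Proj_of_sing W x
  rw [classInner_Proj W x h1, hdx, Nat.cast_one, mul_one] at h10
  have h11 : classInner θ (Proj W x) = p ^ a := by rw [← classInner_conj_symm, h10]; simp
  have h12 : classInner (Proj W x - θ) (Proj W x - θ) = ((cart W x x - p ^ a : ℤ) : ℂ) := by
    rw [classInner_sub_left, classInner_sub_right, classInner_sub_right, h10, h11,
      h8 θ fun g hg => if_pos hg, h9, classInner_Proj_Proj]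
    push_cast; ring
  have h13 := classInner_self_re_nonneg (Proj W x - θ)
  rw [h12, Complex.intCast_re] at h13
  have h14 : cart W x x - p ^ a = 0 := le_antisymm (by omega) (by exact_mod_cast h13)
  rw [h14, Int.cast_zero, classInner_self_eq_zero, sub_eq_zero] at h12
  refine ⟨charKer (Proj W x), charKer_normal (isClassFunction_Proj W x), ?_⟩
  rw [← hcount]
  refine Nat.card_congr (Equiv.subtypeEquivRight fun g => ?_)
  rw [mem_charKer (isCharacter_Proj W x), h12]
  by_cases h : p ∣ orderOf g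
  · simp [hθ, h, hp.ne_one, hp.ne_zero, eq_comm]
  · simp [hθ, h, hp.ne_one]

end Cfsg.Agent.S4427
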