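import Cfsg.Statements.S4430
import Cfsg.Agent.Lib.Blk.Sub2
import Cfsg.Agent.Lib.Block.Kul

set_option autoImplicit false
open Cfsg

namespace Cfsg.Agent.S4430

open CfsgLib.Blk CfsgLib.Char CfsgLib.Block
open scoped ComplexConjugate

theorem key {G : Type*} [Group G] [Fintype G] {p : ℕ} {M : Ideal Cfsg.AlgInt} (hM : Cfsg.IsPModular p M) (H : Subgroup G) [Fintype H] (ξ : Cfsg.IrrCharacter H) (B : Set (Cfsg.IrrCharacter G)) :
    ∃ n : ℕ, Cfsg.blockPart B (Cfsg.indFun H (ξ : H → ℂ)) 1 = (n : ℂ) ∧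
      omega (ξ : H → ℂ) (CfsgLib.BrPair.res H.subtype (blockIdem B)) =
        (n : ℂ) / (charDegree (Cfsg.indFun H (ξ : H → ℂ)) : ℂ) := by
  have hc := isCharacter_indFun H (irr_isCharacter ξ)
  obtain ⟨n, hn⟩ := exists_char_one_eq_nat (isCharacter_blockPart B hc)
  refine ⟨n, hn, ?_⟩
  rw [← hn, omega_apply, chiA_res_blockIdem, charDegree_eq hc, indFun_one, blockPart_eq_sum,
    natCast_index_eq, Finset.sum_div, Finset.sum_div]
  refine Finset.sum_congr rfl fun χ _ => ?_
  rw [classInner_indFun_left _ _ (irr_isClassFunction χ)]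
  have h1 : (Nat.card G : ℂ) ≠ 0 := natCard_ne_zero
  have h2 : (Nat.card H : ℂ) ≠ 0 := natCard_ne_zero
  field_simp

/-- Let H be a subgroup of the finite group G, b a block of H whose induced block B₀ in G is defined (relative to a maximal ideal M of the algebraic integers containing p), and ξ ∈ b. For a block B of G let n_B be the value at 1 of the B-part of the induced character ξ^G (a natural number: the sum over χ ∈ B of the multiplicity of χ in ξ^G times χ(1)). Then for B = B₀ the exact power of p dividing n_B equals the exact power of p dividing ξ^G(1), while for every other block B either n_B = 0 or n_B is divisible by a strictly higher power of p than ξ^G(1). -/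
theorem result {G : Type*} [Group G] [Fintype G] (p : ℕ) [Fact p.Prime] (M : Ideal Cfsg.AlgInt) (hM : Cfsg.IsPModular p M) (H : Subgroup G) [Fintype H] (b : Set (Cfsg.IrrCharacter H)) (B₀ : Set (Cfsg.IrrCharacter G)) (hind : Cfsg.IsInducedBlock M H b B₀) (ξ : Cfsg.IrrCharacter H) (hξ : ξ ∈ b) : (∃ n : ℕ, Cfsg.blockPart B₀ (Cfsg.indFun H (ξ : H → ℂ)) 1 = (n : ℂ) ∧ n ≠ 0 ∧ n.factorization p = (Cfsg.charDegree (Cfsg.indFun H (ξ : H → ℂ))).factorization p) ∧ ∀ B : Set (Cfsg.IrrCharacter G), Cfsg.IsPBlock M B → B ≠ B₀ → ∃ n : ℕ, Cfsg.blockPart B (Cfsg.indFun H (ξ : H → ℂ)) 1 = (n : ℂ) ∧ (n = 0 ∨ (Cfsg.charDegree (Cfsg.indFun H (ξ : H → ℂ))).factorization p < n.factorization p) := by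
  have hc := isCharacter_indFun H (irr_isCharacter ξ)
  have hd : charDegree (Cfsg.indFun H (ξ : H → ℂ)) ≠ 0 := by
    rw [CfsgLib.ChDeg.deg_ind H (irr_isCharacter ξ)]
    exact mul_ne_zero Subgroup.index_ne_zero_of_finite (charDegree_ne_zero ξ.2)
  obtain ⟨χ, hχ⟩ := IsPBlock_nonempty hM hind.2.1
  constructor
  · obtain ⟨n, hn, hn'⟩ := key hM H ξ B₀
    have h1 := li_omega_res_sub hM hind hξ hχ (blockIdem_mem_Z B₀) (blockIdem_mem_OG hM hind.2.1)
    rw [omega_blockIdem_of_mem hχ, hn'] at h1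
    have h2 := not_li_of_li_sub hM h1 (not_li_one hM)
    have h3 := lr_of_li_sub hM h1 (lr_one hM)
    have hn0 : n ≠ 0 := by
      rintro rfl
      exact h2 (by simpa using li_zero hM)
    rw [li_div_nat_iff hM hn0 hd] at h2
    rw [lr_div_nat_iff hM hn0 hd] at h3
    exact ⟨n, hn, hn0, by omega⟩
  · intro B hB hne
    obtain ⟨n, hn, hn'⟩ := key hM H ξ B
    have h1 := li_omega_res_sub hM hind hξ hχ (blockIdem_mem_Z B) (blockIdem_mem_OG hM hB)
    rw [omega_blockIdem_of_notMem (fun h => hne (block_eq_of_mem hM hB hind.2.1 h hχ)), hn',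
      sub_zero] at h1
    refine ⟨n, hn, ?_⟩
    by_cases hn0 : n = 0
    · exact Or.inl hn0
    · exact Or.inr ((li_div_nat_iff hM hn0 hd).1 h1)

end Cfsg.Agent.S4430
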