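import Cfsg.Statements.S4431
import Cfsg.Agent.Lib.Blk.BF

set_option autoImplicit false
open Cfsg

namespace Cfsg.Agent.S4431

open CfsgLib.Blk CfsgLib.Char CfsgLib.Block

/-- Let H be a subgroup of the finite group G and b a block of H whose induced block B₀ in G is defined (relative to a maximal ideal M of the algebraic integers containing p). Let χ be an irreducible character of G, ψ ∈ b, and let η be the class function on H equal to p^a · χ on the p-regular elements of H and zero elsewhere, p^a being the p-part of the order of H. Then (a) if χ ∉ B₀, the number [η, ψ]/ψ(1) lies in the local ideal at M; (b) if χ ∈ B₀ has height zero, it does not. -/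
theorem result {G : Type*} [Group G] [Fintype G] (p : ℕ) [Fact p.Prime] (M : Ideal Cfsg.AlgInt) (hM : Cfsg.IsPModular p M) (H : Subgroup G) [Fintype H] (b : Set (Cfsg.IrrCharacter H)) (B₀ : Set (Cfsg.IrrCharacter G)) (hind : Cfsg.IsInducedBlock M H b B₀) (χ : Cfsg.IrrCharacter G) (ψ : Cfsg.IrrCharacter H) (hψ : ψ ∈ b) : (χ ∉ B₀ → Cfsg.MemLocalIdeal M (Cfsg.classInner (fun h : H => if p ∣ orderOf h then (0 : ℂ) else ((p ^ (Nat.card H).factorization p : ℕ) : ℂ) * (χ : G → ℂ) h) (ψ : H → ℂ) / (ψ : H → ℂ) 1)) ∧ (χ ∈ B₀ → Cfsg.blockHeight p B₀ (χ : G → ℂ) = 0 → ¬ Cfsg.MemLocalIdeal M (Cfsg.classInner (fun h : H => if p ∣ orderOf h then (0 : ℂ) else ((p ^ (Nat.card H).factorization p : ℕ) : ℂ) * (χ : G → ℂ) h) (ψ : H → ℂ) / (ψ : H → ℂ) 1)) := by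
  have hp : p.Prime := Fact.out
  have h1 : (fun x : H => if p ∣ orderOf x then (0 : ℂ) else ((p ^ (Nat.card H).factorization p : ℕ) : ℂ) * (χ : G → ℂ) x) = ((p : ℂ) ^ (Nat.card H).factorization p) • pRegularPart p (fun x : H => (χ : G → ℂ) x) := by
    ext x
    simp only [Pi.smul_apply, smul_eq_mul, pRegularPart_eq_ite]
    split_ifs <;> simp
  have hg := isGenChar_restrict H (isGenChar_of_isIrr χ.2)
  have h2 : classInner (((p : ℂ) ^ (Nat.card H).factorization p) •
      pRegularPart p (fun x : H => (χ : G → ℂ) x)) (ψ : H → ℂ) / (ψ : H → ℂ) 1 =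
      (ppr p H : ℂ)⁻¹ * wt (ψ : H → ℂ) (fun x : H => pRegularPart p (χ : G → ℂ) x) := by
    rw [classInner_smul_left, pRegularPart_restrict, wt, ← mm_eq_right,
      mm_comm (isGenChar_of_isIrr ψ.2) hg, mm]
    have h3 : (ppr p H : ℂ) ≠ 0 := Nat.cast_ne_zero.2 (ppr_ne_zero hp)
    conv_rhs => rw [card_eq_pow_mul_ppr (p := p) (G := H)]
    push_cast
    field_simp
  rw [h1, h2]
  obtain ⟨φ, hφ⟩ := IsPBlock_nonempty hM hind.2.1
  have h4 := li_wt_res_sub hM hind hψ hφ (isClassFunction_pRegularPart (p := p)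
    (irr_isClassFunction χ)) (isIntegral_pRegularPart (isIntegral_char (irr_isCharacter χ)))
  constructor
  · intro hχ
    rw [wt_reg_eq_zero hM hind.2.1 hχ hφ, sub_zero] at h4
    exact li_mul_left hM (lr_inv_nat hM (not_dvd_ppr hp)) h4
  · intro hχ h0
    have h5 := not_li_wt_of_height_zero hM hind.2.1 hχ hφ h0
    exact not_li_mul hM (lr_inv_nat hM (not_dvd_ppr hp))
      (lr_of_li_sub hM h4 (lr_wt_reg hM φ.2 (isGenChar_of_isIrr χ.2)))
      (not_li_inv_nat hM (not_dvd_ppr hp)) (not_li_of_li_sub hM h4 h5)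

end Cfsg.Agent.S4431
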