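import Mathlib
import Cfsg.Statements.S4440
import Cfsg.Agent.Lib.Cover.Harada

set_option autoImplicit false
open Cfsg

namespace Cfsg.Agent.S4440

open CfsgLib CfsgLib.Cover CfsgLib.Block CfsgLib.Char CfsgLib.Blk in

/-- Let G be a finite p-solvable group and fix a maximal ideal M of the algebraic integers containing p. Let U be a set of irreducible characters of G such that the class function Σ_{χ ∈ U} χ(1)·χ vanishes at every p-singular element of G. Then U is a union of p-blocks: if χ ∈ U and ψ lies in the same block as χ, then ψ ∈ U. -/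
theorem result {G : Type*} [Group G] [Finite G] (p : ℕ) [Fact p.Prime] (M : Ideal Cfsg.AlgInt) (hM : Cfsg.IsPModular p M) (hsolv : Cfsg.IsPSolvable p G) (U : Set (Cfsg.IrrCharacter G)) (hU : ∀ x : G, p ∣ orderOf x → ∑ᶠ χ ∈ U, (χ : G → ℂ) 1 * (χ : G → ℂ) x = 0) (χ : Cfsg.IrrCharacter G) (hχ : χ ∈ U) (ψ : Cfsg.IrrCharacter G) (hψ : Cfsg.SameBlock M (χ : G → ℂ) (ψ : G → ℂ)) : ψ ∈ U := by
  have := Fintype.ofFinite G
  have h : HHyp p U := fun g hg => by
    rw [thU, Finset.sum_apply, ← hU g hg, finsum_bf]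
    rfl
  exact (hSep_of_isPSolvable hsolv h).mem_of_mem_block hM (isPBlock_blockOf χ) hχ
    (mem_blockOf_self hM χ) hψ

end Cfsg.Agent.S4440
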