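import Cfsg.Statements.S4442
import Cfsg.Agent.Lib.DefectOne.Wrap

set_option autoImplicit false
open Cfsg

namespace Cfsg.Agent.S4442

open CfsgLib.DefectOne CfsgLib.Char CfsgLib.PF CfsgLib.Block

/-- Blocks of defect one. Let p be an odd prime and G a finite group whose Sylow p-subgroup P has order p; let C = C_G(P) and N = N_G(P), and fix a maximal ideal M of the algebraic integers containing p. Let B be a block of G with defect group P, b a block of C inducing B, and θ the member of b having P in its kernel (there is exactly one). Let T be the stabilizer of θ in N (the elements g ∈ N with θ(g c g⁻¹) = θ(c) for all c ∈ C) and e the index of C in T. Then e divides p − 1 and B contains exactly e + (p − 1)/e irreducible characters. Moreover B is the disjoint union of a set X of e characters and a set Y of (p − 1)/e characters such that, with f the index of C in N: every χ ∈ X has χ(1) ≡ ±(f/e)·θ(1) (mod p), there is one sign ε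 with ψ(1) ≡ ε f θ(1) (mod p) for all ψ ∈ Y, and all members of Y agree on the p-regular elements of G. -/
theorem result {G : Type*} [Group G] [Finite G] (p : ℕ) [Fact p.Prime] (M : Ideal Cfsg.AlgInt) (hM : Cfsg.IsPModular p M) (hodd : p ≠ 2) (P : Sylow p G) (hP : Nat.card P = p) (B : Set (Cfsg.IrrCharacter G)) (hB : Cfsg.IsPBlock M B) (hBP : Cfsg.IsDefectGroup p M B P) (b : Set (Cfsg.IrrCharacter (Subgroup.centralizer ((P : Subgroup G) : Set G)))) (hind : Cfsg.IsInducedBlock M (Subgroup.centralizer ((P : Subgroup G) : Set G)) b B) (θ : Cfsg.IrrCharacter (Subgroup.centralizer ((P : Subgroup G) : Set G))) (hθ : θ ∈ b) (hθP : ∀ x : Subgroup.centralizer ((P : Subgroup G) : Set G), (x : G) ∈ (P : Subgroup G) → (θ : Subgroup.centralizer ((P : Subgroup G) : Set G) → ℂ) x = (θ : Subgroup.centralizer ((P : Subgroup G) : Set G) → ℂ) 1) (T : Subgroup G) (hT : ∀ g : G, g ∈ T ↔ (g ∈ Subgroup.normalizer ((P : Subgroup G) : Set G) ∧ ∀ c c'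 : Subgroup.centralizer ((P : Subgroup G) : Set G), (c' : G) = g * c * g⁻¹ → (θ : Subgroup.centralizer ((P : Subgroup G) : Set G) → ℂ) c' = (θ : Subgroup.centralizer ((P : Subgroup G) : Set G) → ℂ) c)) (e f : ℕ) (he : (Subgroup.centralizer ((P : Subgroup G) : Set G)).relIndex T = e) (hf : (Subgroup.centralizer ((P : Subgroup G) : Set G)).relIndex (Subgroup.normalizer ((P : Subgroup G) : Set G)) = f) : e ∣ p - 1 ∧ Nat.card B = e + (p - 1) / e ∧ ∃ X Y : Set (Cfsg.IrrCharacter G), B = X ∪ Y ∧ Disjoint X Y ∧ Nat.card X = e ∧ Nat.card Y = (p - 1) / e ∧ (∀ χ ∈ X, (Cfsg.charDegree (χ : G → ℂ) : ℤ) ≡ ((f / e * Cfsg.charDegree (θ : Subgroup.centralizer ((P : Subgroup G) : Set G) → ℂ) : ℕ) : ℤ) [ZMOD p] ∨ (Cfsg.charDegree (χ : G → ℂ) : ℤ) ≡ -((f / e * Cfsg.charDegree (θ : Subgroup.centralizer ((P : Subgroup G) : Set G) → ℂ) : ℕ) : ℤ) [ZMOD p]) ∧ (∃ ε : ℤ, (ε = 1 ∨ ε = -1) ∧ ∀ ψ ∈ Y, (Cfsg.charDegree (ψ : G → ℂ) : ℤ) ≡ ε * ((f * Cfsg.charDegree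 (θ : Subgroup.centralizer ((P : Subgroup G) : Set G) → ℂ) : ℕ) : ℤ) [ZMOD p]) ∧ ∀ ψ ∈ Y, ∀ ψ' ∈ Y, ∀ g : G, ¬ p ∣ orderOf g → (ψ : G → ℂ) g = (ψ' : G → ℂ) g := by
  classical
  obtain ⟨x, hx, hs⟩ := exists_syl P hP
  obtain ⟨ω, hω⟩ := exists_prim p
  have hC : Subgroup.centralizer ((P : Subgroup G) : Set G) = CC x := by
    rw [hx, CfsgLib.SmallSimple.centralizer_zpowers]
  have hN : Subgroup.normalizer ((P : Subgroup G) : Set G) = NN x := by rw [hx]
  generalize Subgroup.centralizer ((P : Subgroup G) : Set G) = C at *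
  subst hC
  rw [hN] at hT hf
  set θ₀ := extendByZero (CC x) (θ : CC x → ℂ) with hθ₀
  have h1 : θ₀ 1 = (θ : CC x → ℂ) 1 := extendByZero_coe' (CC x) _ 1
  have hθ' : Tr x θ₀ := ⟨isIrr_extendByZero.2 θ.2, by
    rw [h1, ← hθP ⟨x, self_mem_CC x⟩ (hx ▸ Subgroup.mem_zpowers x)]
    exact extendByZero_coe' (CC x) _ ⟨x, self_mem_CC x⟩⟩
  have hTe : T = CfsgLib.PF.inertia (NN x) θ₀ := by
    ext g
    rw [hT, CfsgLib.PF.mem_inertia]
    refine and_congr_right fun hg => ⟨fun h => ?_, fun h c c' e => ?_⟩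
    · refine CF_ext (hθ'.cfJ hg).1.1 hθ'.1.1 fun c hc => ?_
      exact (extendByZero_coe' (CC x) _ ⟨_, conj_mem_CC hg hc⟩).trans
        ((h ⟨c, hc⟩ _ rfl).trans (extendByZero_coe' (CC x) _ ⟨c, hc⟩).symm)
    · rw [← extendByZero_coe' (CC x) (θ : CC x → ℂ) c', ← extendByZero_coe' (CC x) (θ : CC x → ℂ) c, e]
      exact congrFun h c
  rw [hTe, ← hs.card_EE] at he
  obtain rfl := hs.induced_eq_Bl hM hω hind hθ hθ'
  obtain ⟨D⟩ := hs.nonempty_genData hω le_top hθ'
  have hY : ∀ {ψ : IrrCharacter G}, ψ ∈ irrSet (Finset.univ.image D.Y) ↔ ∃ a, D.Y a = ψ := by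
    simp [mem_irrSet]
  have ht : θ₀ 1 = charDegree (θ : CC x → ℂ) := by rw [h1, charDegree_eq (irr_isCharacter θ)]
  have hfe : f / e = (cfclass (NN x) θ₀).card := by
    rw [← hf, ← hs.card_EE_mul hθ', ← he, Nat.mul_div_cancel_left _ Nat.card_pos]
  subst he
  refine ⟨hs.card_EE_dvd _, by
      rw [card_irrSet fun χ h => (hs.mem_Bl.1 h).1, hs.card_Bl hω le_top hθ'],
    irrSet D.X, irrSet (Finset.univ.image D.Y), ?_, ?_, by rw [card_irrSet D.X_irr, D.card_X],
    by rw [card_irrSet (by simpa using D.Y_irr), D.card_Y], fun χ h => ?_,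
    ⟨D.ε, D.ε_sign, fun ψ h => ?_⟩, fun ψ h ψ' h' g hg => ?_⟩
  · ext ψ
    rw [Set.mem_union, hY, mem_irrSet, mem_irrSet, D.mem_Bl]
  · rw [Set.disjoint_right]
    intro ψ h h'
    obtain ⟨a, ha⟩ := hY.1 h
    exact D.Y_notMem a (ha ▸ h')
  · have := D.X_deg hω le_top hθ' h (charDegree_eq (irr_isCharacter χ)).symm ht
    rw [hfe, Nat.cast_mul]
    rcases D.δ_sign _ h with e | e <;> rw [e] at this
    · exact Or.inl (by rwa [one_mul] at this)
    · exact Or.inr (by rwa [neg_one_mul] at this)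
  · obtain ⟨a, ha⟩ := hY.1 h
    rw [← hf, Nat.cast_mul]
    exact D.Y_deg hω le_top hθ' a (ha ▸ (charDegree_eq (irr_isCharacter ψ)).symm) ht
  · obtain ⟨a, ha⟩ := hY.1 h
    obtain ⟨a', ha'⟩ := hY.1 h'
    rw [← ha, ← ha', D.Y_reg a a' hg]

end Cfsg.Agent.S4442
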