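import Cfsg.Statements.S4443
import Cfsg.Agent.Lib.Block.Robin

set_option autoImplicit false
open Cfsg

namespace Cfsg.Agent.S4443

attribute [local implicit_reducible] CfsgLib.Block.K

open CfsgLib CfsgLib.Blk CfsgLib.Block CfsgLib.Char CfsgLib.Fusion MonoidAlgebra in

/-- Let D be a normal p-subgroup of the finite group G, of order p^d, let p^a be the p-part of the order of G, and fix a Sylow p-subgroup S and a maximal ideal M of the algebraic integers containing p. Index by a finite type ι (via an injective map K) exactly the conjugacy classes of p-regular elements x of G for which D is a Sylow p-subgroup of C_G(x). For classes K_i, K_j let ω(i, j) be the number of pairs (y, z) ∈ K_i × K_j with z y⁻¹ ∈ S; this number is divisible by p^(a−d). Then the number of p-blocks of G having D as a defect group equals the rank over ℤ/pℤ of the matrix with (i, j) entry ω(i, j)/p^(a−d) reduced modulo p. -/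
theorem result {G : Type*} [Group G] [Finite G] (p : ℕ) [Fact p.Prime] (M : Ideal Cfsg.AlgInt) (hM : Cfsg.IsPModular p M) (D : Subgroup G) [D.Normal] (hD : IsPGroup p D) (S : Sylow p G) {ι : Type*} [Fintype ι] [DecidableEq ι] (K : ι → ConjClasses G) (hKinj : Function.Injective K) (hK : ∀ C : ConjClasses G, (∃ i, K i = C) ↔ ∃ x ∈ C.carrier, ¬ p ∣ orderOf x ∧ ∃ Q : Sylow p (Subgroup.centralizer ({x} : Set G)), (Q : Subgroup (Subgroup.centralizer ({x} : Set G))).map (Subgroup.centralizer ({x} : Set G)).subtype = D) : Nat.card {B : Set (Cfsg.IrrCharacter G) // Cfsg.IsPBlock M B ∧ Cfsg.IsDefectGroup p M B D} = (Matrix.of fun i j : ι => ((Nat.card {yz : G × G // yz.1 ∈ (K i).carrier ∧ yz.2 ∈ (K j).carrier ∧ yz.2 * yz.1⁻¹ ∈ (S : Subgroup G)} / p ^ ((Nat.card G).factorization p - (Nat.card D).factorization p) : ℕ) : ZMod p)).rank := by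
  classical
  have := Fintype.ofFinite G
  obtain ⟨t, ht, hrob⟩ := robinson hM S D
  have hx : ∀ i, ¬ p ∣ orderOf (crep (K i)) ∧ SylIn p D (BrPair.Ce (crep (K i))) := by
    intro i
    obtain ⟨x, hxC, hxo, Q, hQ⟩ := (hK (K i)).1 ⟨i, rfl⟩
    have hc : IsConj (crep (K i)) x :=
      (isConj_crep_iff _ _).2 (ConjClasses.mem_carrier_iff_mk_eq.1 hxC).symm
    obtain ⟨c, hc'⟩ := isConj_iff.1 hc.symm
    refine ⟨?_, ?_⟩
    · rw [← hc', show c * x * c⁻¹ = MulAut.conj c x from rfl, MulEquiv.orderOf_eq]; exact hxo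
    · have h1 : SylIn p D (BrPair.Ce x) := Block.sylIn_iff_exists_sylow.2 ⟨Q, hQ.symm⟩
      have h2 := h1.map_conj c
      rw [map_conj_eq_of_mem_normalizer (top_le_Nz D (Subgroup.mem_top c))] at h2
      convert h2 using 1
      ext y
      rw [← hc']
      simp only [BrPair.mem_Ce, Subgroup.mem_map, MulEquiv.coe_toMonoidHom, MulAut.conj_apply]
      constructor
      · intro h
        refine ⟨c⁻¹ * y * c, ?_, by group⟩
        calc c⁻¹ * y * c * x * (c⁻¹ * y * c)⁻¹ = c⁻¹ * (y * (c * x * c⁻¹) * y⁻¹) * c := by group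
          _ = x := by rw [h]; group
      · rintro ⟨z, hz, rfl⟩
        calc c * z * c⁻¹ * (c * x * c⁻¹) * (c * z * c⁻¹)⁻¹ = c * (z * x * z⁻¹) * c⁻¹ := by group
          _ = _ := by rw [hz]
  have hinj : ∀ i j, IsConj (crep (K i)) (crep (K j)) → i = j := fun i j h =>
    hKinj (by rw [(isConj_crep_iff _ _).1 h, mk_crep])
  have hall : ∀ g : G, ¬ p ∣ orderOf g → SylIn p D (BrPair.Ce g) →
      ∃ i, IsConj (crep (K i)) g := by
    intro g hg hs
    obtain ⟨Q, hQ⟩ := Block.sylIn_iff_exists_sylow.1 hs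
    obtain ⟨i, hi⟩ := (hK (ConjClasses.mk g)).2
      ⟨g, ConjClasses.mem_carrier_iff_mk_eq.2 rfl, hg, Q, hQ.symm⟩
    exact ⟨i, (isConj_crep_iff _ _).2 hi⟩
  have hinj' : ∀ i j, IsConj (crep (K i))⁻¹ (crep (K j))⁻¹ → i = j := fun i j h =>
    hinj i j (isConj_inv_inv_rb.1 h)
  have hall' : ∀ g : G, ¬ p ∣ orderOf g → SylIn p D (BrPair.Ce g) →
      ∃ i, IsConj (crep (K i))⁻¹ g := by
    intro g hg hs
    obtain ⟨i, hi⟩ := hall g⁻¹ (by rwa [orderOf_inv])
      (by rw [show BrPair.Ce g⁻¹ = BrPair.Ce g from centralizer_singleton_inv g]; exact hs)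
    exact ⟨i, isConj_inv_inv_rb.1 (by rwa [inv_inv])⟩
  rw [← rank_map_field (ZMod.castHom (dvd_refl p) (Block.K hM))]
  have hA : (Matrix.of fun i j : ι => ((Nat.card {yz : G × G // yz.1 ∈ (K i).carrier ∧ yz.2 ∈ (K j).carrier ∧ yz.2 * yz.1⁻¹ ∈ (S : Subgroup G)} / p ^ ((Nat.card G).factorization p - (Nat.card D).factorization p) : ℕ) : ZMod p)).map (ZMod.castHom (dvd_refl p) (Block.K hM)) =
      (Matrix.of fun (i : ι) (B : DB p M D) => wB hM B.1 (crep (K i))⁻¹) * Matrix.diagonal t *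
        (Matrix.of fun (B : DB p M D) (j : ι) => wB hM B.1 (crep (K j))) := by
    ext i j
    have hc : Nat.card {yz : G × G // yz.1 ∈ (K i).carrier ∧ yz.2 ∈ (K j).carrier ∧ yz.2 * yz.1⁻¹ ∈ (S : Subgroup G)} = cnt (S : Subgroup G) (crep (K i)) (crep (K j)) := by
      refine Nat.card_congr (Equiv.subtypeEquivRight fun yz => ?_)
      rw [isConj_crep_iff, isConj_crep_iff, ConjClasses.mem_carrier_iff_mk_eq,
        ConjClasses.mem_carrier_iff_mk_eq, eq_comm, eq_comm (a := ConjClasses.mk yz.2)]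
    rw [Matrix.map_apply, Matrix.of_apply, map_natCast, hc, (hrob _ _ (hx i).2 (hx j).2).2,
      Matrix.mul_apply]
    refine Finset.sum_congr rfl fun B _ => ?_
    rw [Matrix.mul_diagonal, Matrix.of_apply, Matrix.of_apply]
  rw [hA, rank_eq_card_of_factor _ _ t ht
    (Matrix.of fun (B : DB p M D) (i : ι) => (eB hM B.1).coeff (crep (K i))⁻¹)
    (Matrix.of fun (j : ι) (B : DB p M D) => (eB hM B.1).coeff (crep (K j))), Nat.card_eq_fintype_card]
  · ext B B'
    rw [Matrix.mul_apply, Matrix.one_apply, ← (if_congr eq_comm rfl rfl),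
      ← sum_wB_coeff hM D _ hinj' hall' B' B]
    exact Finset.sum_congr rfl fun i _ => mul_comm _ _
  · ext B B'
    rw [Matrix.mul_apply, Matrix.one_apply, ← sum_wB_coeff hM D _ hinj hall B B']
    rfl

end Cfsg.Agent.S4443
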