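import Mathlib
import Cfsg.Statements.S4445
import Cfsg.Agent.Lib.Glaub.Solvable
import Cfsg.Agent.Lib.Coprime.Action

set_option autoImplicit false
open Cfsg

namespace Cfsg.Agent.S4445

open CfsgLib.Glaub CfsgLib.Char


/-- Inside a finite group Γ let the solvable subgroup S normalise G with the orders of G and S coprime. Then the number of S-invariant irreducible characters of G (χ(s g s⁻¹) = χ(g) for all s ∈ S, g ∈ G) equals the number of conjugacy classes of G mapped to themselves by conjugation by every element of S. -/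
theorem result {Γ : Type*} [Group Γ] [Fintype Γ] (G S : Subgroup Γ) [Fintype G] (hnorm : ∀ s ∈ S, ∀ g ∈ G, s * g * s⁻¹ ∈ G) (hcop : (Nat.card G).Coprime (Nat.card S)) (hsolv : Group.IsSolvable S) : Nat.card {χ : Cfsg.IrrCharacter G // (∀ s ∈ S, ∀ g g' : G, (g' : Γ) = s * g * s⁻¹ → (χ : G → ℂ) g' = (χ : G → ℂ) g)} = Nat.card {K : ConjClasses G // ∀ s ∈ S, ∀ g g' : G, (g' : Γ) = s * g * s⁻¹ → ConjClasses.mk g = K → ConjClasses.mk g' = K} := by
  classical
  have map_mk : ∀ {A B : Type _} [Group A] [Group B] (f : A →* B) (a : A),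
      ConjClasses.map f (ConjClasses.mk a) = ConjClasses.mk (f a) := fun _ _ => rfl
  set C : Subgroup Γ := G ⊓ Subgroup.centralizer (S : Set Γ) with hC
  have hCG : C ≤ G := inf_le_left
  have hSN : S ≤ Subgroup.normalizer (G : Set Γ) := by
    intro s hs
    rw [Subgroup.mem_normalizer_iff]
    intro g
    refine ⟨hnorm s hs g, fun h => ?_⟩
    have := hnorm s⁻¹ (S.inv_mem hs) _ h
    simpa [mul_assoc] using this
  have h1 := card_invIrr_eq (conjAut S G hnorm) hcop (Subgroup.inclusion hCG)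
    (Subgroup.inclusion_injective hCG) (range_inclusion_iff hnorm hC hCG)
  rw [card_irr_eq_card_conjClasses] at h1
  rw [Nat.card_congr (Equiv.subtypeEquivRight fun χ => (inv_conjAut_iff S G hnorm _).symm), h1]
  refine Nat.card_congr (Equiv.ofBijective (fun K => ⟨ConjClasses.map (Subgroup.inclusion hCG) K, ?_⟩)
    ⟨?_, ?_⟩)
  · obtain ⟨c, rfl⟩ := ConjClasses.exists_rep K
    intro s hs g g' hg' hg
    rw [map_mk, ConjClasses.mk_eq_mk_iff_isConj] at hg ⊢
    obtain ⟨k, hk⟩ := isConj_iff.mp hg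
    refine isConj_iff.mpr ⟨⟨s * k * s⁻¹, hnorm s hs k k.2⟩, Subtype.ext ?_⟩
    have hk' : (k : Γ) * g * (k : Γ)⁻¹ = c := congrArg Subtype.val hk
    have hc : s * c = c * s := c.2.2 s hs
    change s * k * s⁻¹ * g' * (s * k * s⁻¹)⁻¹ = c
    rw [hg']
    calc s * k * s⁻¹ * (s * g * s⁻¹) * (s * k * s⁻¹)⁻¹ = s * (k * g * (k : Γ)⁻¹) * s⁻¹ := by group
      _ = c := by rw [hk', hc]; group
  · intro K K' h
    obtain ⟨c, rfl⟩ := ConjClasses.exists_rep K
    obtain ⟨c', rfl⟩ := ConjClasses.exists_rep K'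
    have h2 := congrArg Subtype.val h
    simp only [map_mk, ConjClasses.mk_eq_mk_iff_isConj] at h2 ⊢
    obtain ⟨k, hk⟩ := isConj_iff.mp h2
    have hk' : (k : Γ) * c * (k : Γ)⁻¹ = c' := congrArg Subtype.val hk
    obtain ⟨d, hd, hd'⟩ := CfsgLib.Coprime.exists_centralizer_conj_eq hSN hcop.symm (Or.inl hsolv)
      k.2 c.2.2 (hk' ▸ c'.2.2)
    exact isConj_iff.mpr ⟨⟨d, hd⟩, Subtype.ext (hd'.trans hk')⟩
  · rintro ⟨K, hK⟩
    obtain ⟨g, rfl⟩ := ConjClasses.exists_rep K
    obtain ⟨k, hk, hk'⟩ := CfsgLib.Coprime.exists_conj_mem_centralizer hSN hcop.symm (Or.inl hsolv)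
      (g : Γ) (by
        intro s hs
        have := hK s hs g ⟨_, hnorm s hs g g.2⟩ rfl rfl
        rw [ConjClasses.mk_eq_mk_iff_isConj] at this
        obtain ⟨k, hk⟩ := isConj_iff.mp this.symm
        exact ⟨k, k.2, (congrArg Subtype.val hk).symm⟩)
    refine ⟨ConjClasses.mk ⟨k * g * k⁻¹, G.mul_mem (G.mul_mem hk g.2) (G.inv_mem hk), hk'⟩,
      Subtype.ext ?_⟩
    simp only [map_mk, ConjClasses.mk_eq_mk_iff_isConj]
    exact (isConj_iff.mpr ⟨(⟨k, hk⟩ : G), Subtype.ext rfl⟩).symm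

end Cfsg.Agent.S4445
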