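import Mathlib
import Cfsg.Statements.S4448
import Cfsg.Agent.Lib.Glaub.Ext

set_option autoImplicit false
open Cfsg

namespace Cfsg.Agent.S4448

open CfsgLib.Glaub CfsgLib.Char


/-- Inside a finite group Γ let S normalise G and also normalise a normal subgroup N of G, with the order of S coprime to the index of N in G and G/N solvable. Then for every S-invariant irreducible character ϑ of N, the induced character ϑ^G has an S-invariant irreducible constituent. -/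
theorem result {Γ : Type*} [Group Γ] [Fintype Γ] (G S N : Subgroup Γ) [Fintype G] [Fintype N] (hnorm : ∀ s ∈ S, ∀ g ∈ G, s * g * s⁻¹ ∈ G) (hNG : N ≤ G) [hNn : (N.subgroupOf G).Normal] (hNS : ∀ s ∈ S, ∀ n ∈ N, s * n * s⁻¹ ∈ N) (hcop : (N.relIndex G).Coprime (Nat.card S)) (hsolv : Group.IsSolvable (G ⧸ N.subgroupOf G)) (θ : Cfsg.IrrCharacter N) (hinv : (∀ s ∈ S, ∀ g g' : N, (g' : Γ) = s * g * s⁻¹ → (θ : N → ℂ) g' = (θ : N → ℂ) g)) : ∃ χ : Cfsg.IrrCharacter G, Cfsg.classInner (fun n : N => (χ : G → ℂ) ⟨n, hNG n.2⟩) (θ : N → ℂ) ≠ 0 ∧ (∀ s ∈ S, ∀ g g' : G, (g' : Γ) = s * g * s⁻¹ → (χ : G → ℂ) g' = (χ : G → ℂ) g) := by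
  obtain ⟨χ, hχ, hi, h⟩ := exists_inv_over_of_solvable (conjAut S G hnorm) (Subgroup.inclusion hNG)
    (Subgroup.inclusion_injective hNG) (QuotientGroup.mk' (N.subgroupOf G))
    (by rw [QuotientGroup.ker_mk', Subgroup.inclusion_range])
    (by rw [Subgroup.inclusion_range]; exact hcop.symm)
    (conjAut S N hNS) (fun _ _ => Subtype.ext rfl) θ.2
    ((inv_conjAut_iff S N hNS _).mpr hinv)
  have h2 := (mult_ne_zero_iff _ (isCharacter_of_isIrr hχ) (irr_isCharacter θ)).mp h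
  have h3 := (inv_conjAut_iff S G hnorm _).mp hi
  exact ⟨⟨χ, hχ⟩, h2, h3⟩

end Cfsg.Agent.S4448
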