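import Mathlib
import Cfsg.Statements.S4449
import Cfsg.Agent.Lib.Glaub.Solvable

set_option autoImplicit false
open Cfsg

namespace Cfsg.Agent.S4449

open CfsgLib.Glaub CfsgLib.Char


/-- Inside a finite group Γ let the solvable subgroup S normalise G with the orders of G and S coprime, and let N be a normal subgroup of G normalised by S. Then for every S-invariant irreducible character ϑ of N, the induced character ϑ^G has an S-invariant irreducible constituent. -/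
theorem result {Γ : Type*} [Group Γ] [Fintype Γ] (G S N : Subgroup Γ) [Fintype G] [Fintype N] (hnorm : ∀ s ∈ S, ∀ g ∈ G, s * g * s⁻¹ ∈ G) (hNG : N ≤ G) (hNnormal : ∀ g ∈ G, ∀ n ∈ N, g * n * g⁻¹ ∈ N) (hNS : ∀ s ∈ S, ∀ n ∈ N, s * n * s⁻¹ ∈ N) (hcop : (Nat.card G).Coprime (Nat.card S)) (hsolv : Group.IsSolvable S) (θ : Cfsg.IrrCharacter N) (hinv : (∀ s ∈ S, ∀ g g' : N, (g' : Γ) = s * g * s⁻¹ → (θ : N → ℂ) g' = (θ : N → ℂ) g)) : ∃ χ : Cfsg.IrrCharacter G, Cfsg.classInner (fun n : N => (χ : G → ℂ) ⟨n, hNG n.2⟩) (θ : N → ℂ) ≠ 0 ∧ (∀ s ∈ S, ∀ g g' : G, (g' : Γ) = s * g * s⁻¹ → (χ : G → ℂ) g' = (χ : G → ℂ) g) := by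
  have hn : (Subgroup.inclusion hNG).range.Normal := ⟨by
    rintro _ ⟨n, rfl⟩ g
    exact ⟨⟨_, hNnormal g g.2 n n.2⟩, rfl⟩⟩
  obtain ⟨χ, hχ, hi, h⟩ := exists_inv_over (conjAut S G hnorm) hcop (Subgroup.inclusion hNG)
    (Subgroup.inclusion_injective hNG) (conjAut S N hNS) (fun _ _ => Subtype.ext rfl) θ.2
    ((inv_conjAut_iff S N hNS _).mpr hinv)
  have h2 := (mult_ne_zero_iff _ (isCharacter_of_isIrr hχ) (irr_isCharacter θ)).mp h
  have h3 := (inv_conjAut_iff S G hnorm _).mp hi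
  exact ⟨⟨χ, hχ⟩, h2, h3⟩

end Cfsg.Agent.S4449
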