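import Mathlib
import Cfsg.Statements.S4452
import Cfsg.Agent.Lib.Glaub.Ext

set_option autoImplicit false
open Cfsg

namespace Cfsg.Agent.S4452

open CfsgLib.Glaub CfsgLib.Char CfsgLib.CharDeep

theorem quot_equiv {G : Type*} [Group G] [Finite G] (K H : Subgroup G) [K.Normal] (hKH : K ⊔ H = ⊤)
    (hcop : (Nat.card K).Coprime (Nat.card H)) : Nonempty (H ≃* G ⧸ K) := by
  refine ⟨MulEquiv.ofBijective ((QuotientGroup.mk' K).comp H.subtype) ⟨?_, ?_⟩⟩
  · rw [injective_iff_map_eq_one]
    intro h hh
    exact Subtype.ext (CfsgLib.Coprime.eq_one_of_mem_of_coprime hcop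
      ((QuotientGroup.eq_one_iff _).mp hh) h.2)
  · intro q
    induction q using QuotientGroup.induction_on with
    | H g =>
    have : g ∈ K ⊔ H := hKH ▸ Subgroup.mem_top g
    obtain ⟨k, hk, h, hh, rfl⟩ := Subgroup.mem_sup_of_normal_left.mp this
    refine ⟨⟨h, hh⟩, ?_⟩
    simp [(QuotientGroup.eq_one_iff k).mpr hk]

theorem count {G : Type*} [Group G] [Finite G] (K H : Subgroup G) [hK : K.Normal]
    (hKH : K ⊔ H = ⊤) (hcop : (Nat.card K).Coprime (Nat.card H)) :
    Nat.card {χ : IrrCharacter G // (charDegree (χ : G → ℂ)).Coprime (Nat.card H)} =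
      Nat.card (InvIrr (conjAut H K fun s _ g hg => hK.conj_mem g hg s)) *
        (commutator H).index := by
  obtain ⟨e⟩ := quot_equiv K H hKH hcop
  have h1 : Nat.card H = K.index := Nat.card_congr e.toEquiv
  have h2 : (commutator (G ⧸ K)).index = (commutator H).index := by
    rw [← Subgroup.index_map_of_bijective (f := e.toMonoidHom) e.bijective, commutator_def,
      commutator_def, Subgroup.map_commutator, ← MonoidHom.range_eq_map,
      MonoidHom.range_eq_top.mpr e.surjective]
  rw [h1, card_coprime_degree K (h1 ▸ hcop), h2]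
  congr 1
  refine Nat.card_congr (Equiv.subtypeEquivRight fun θ => ⟨fun h a g => h a g, fun h g n => ?_⟩)
  have : g ∈ K ⊔ H := hKH ▸ Subgroup.mem_top g
  obtain ⟨k, hk, x, hx, rfl⟩ := Subgroup.mem_sup_of_normal_left.mp this
  rw [cj_mul]
  exact (irr_isClassFunction θ _ (⟨k, hk⟩ : K)).trans (h ⟨x, hx⟩ n)


/-- Let the finite group G be the product of a normal subgroup K and a solvable subgroup H of coprime orders, and let N = N_G(H). Then the number of irreducible characters of G of degree coprime to the order of H equals the number of irreducible characters of N of degree coprime to the order of H. (The two sets are in fact in a canonical bijection; only the equality of their sizes is stated here.) -/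
theorem result {G : Type*} [Group G] [Finite G] (K H : Subgroup G) [K.Normal] (hKH : K ⊔ H = ⊤) (hcop : (Nat.card K).Coprime (Nat.card H)) (hsolv : Group.IsSolvable H) : Nat.card {χ : Cfsg.IrrCharacter G // (Cfsg.charDegree (χ : G → ℂ)).Coprime (Nat.card H)} = Nat.card {η : Cfsg.IrrCharacter (Subgroup.normalizer (H : Set G)) // (Cfsg.charDegree (η : Subgroup.normalizer (H : Set G) → ℂ)).Coprime (Nat.card H)} := by
  classical
  set N : Subgroup G := Subgroup.normalizer (H : Set G) with hN
  have hHN : H ≤ N := Subgroup.le_normalizer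
  have e : H.subgroupOf N ≃* H := Subgroup.subgroupOfEquivOfLe hHN
  have hc : Nat.card (H.subgroupOf N) = Nat.card H := Nat.card_congr e.toEquiv
  have hcent : ∀ k ∈ K, k ∈ N → ∀ h ∈ H, h * k * h⁻¹ = k := by
    intro k hk hkN h hh
    have h1 : h * k * h⁻¹ * k⁻¹ = 1 := by
      refine CfsgLib.Coprime.eq_one_of_mem_of_coprime hcop
        (K.mul_mem (Subgroup.Normal.conj_mem inferInstance k hk h) (K.inv_mem hk)) ?_
      have := H.mul_mem hh ((Subgroup.mem_normalizer_iff.mp hkN h⁻¹).mp (H.inv_mem hh))
      simpa [mul_assoc] using this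
    exact mul_inv_eq_one.mp h1
  have hsup : K.subgroupOf N ⊔ H.subgroupOf N = ⊤ := by
    rw [eq_top_iff]
    rintro ⟨g, hg⟩ -
    have : g ∈ K ⊔ H := hKH ▸ Subgroup.mem_top g
    obtain ⟨k, hk, x, hx, rfl⟩ := Subgroup.mem_sup_of_normal_left.mp this
    have hkN : k ∈ N := by simpa using N.mul_mem hg (N.inv_mem (hHN hx))
    exact Subgroup.mul_mem_sup (x := (⟨k, hkN⟩ : N)) (y := (⟨x, hHN hx⟩ : N)) hk hx
  have hKc : Nat.card (K.subgroupOf N) ∣ Nat.card K := 
    Subgroup.card_dvd_of_injective
      ((N.subtype.comp (K.subgroupOf N).subtype).codRestrict K fun x => x.2)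
      (fun a b h => Subtype.ext (Subtype.ext (congrArg (fun x : K => (x : G)) h)))
  have h1 := count K H hKH hcop
  have h2 := count (K.subgroupOf N) (H.subgroupOf N) hsup (hc ▸ hcop.coprime_dvd_left hKc)
  rw [hc] at h2
  have h3 : (commutator (H.subgroupOf N)).index = (commutator H).index := by
    rw [← Subgroup.index_map_of_bijective (f := e.toMonoidHom) e.bijective, commutator_def,
      commutator_def, Subgroup.map_commutator, ← MonoidHom.range_eq_map,
      MonoidHom.range_eq_top.mpr e.surjective]
  rw [h1, h2, h3]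
  congr 1
  rw [card_invIrr_eq _ hcop ((N.subtype.comp (K.subgroupOf N).subtype).codRestrict K fun x => x.2)
    (fun a b h => Subtype.ext (Subtype.ext (congrArg (fun x : K => (x : G)) h)))]
  · refine (Nat.card_congr (Equiv.subtypeUnivEquiv ?_)).symm
    intro θ a g
    refine congrArg _ ?_
    apply Subtype.ext
    apply Subtype.ext
    exact hcent _ g.2 g.1.2 _ a.2
  · intro g
    constructor
    · rintro ⟨c, rfl⟩ a
      exact Subtype.ext (hcent _ c.2 c.1.2 _ a.2)
    · intro h
      have : (g : G) ∈ N := by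
        apply Subgroup.centralizer_le_normalizer
        intro x hx
        have := congrArg Subtype.val (h ⟨x, hx⟩)
        exact mul_inv_eq_iff_eq_mul.mp this
      exact ⟨⟨⟨g, this⟩, g.2⟩, rfl⟩

end Cfsg.Agent.S4452
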