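import Mathlib
import Cfsg.Statements.S4453
import Cfsg.Agent.Lib.McKay.Isaacs2

set_option autoImplicit false
open Cfsg

namespace Cfsg.Agent.S4453

open CfsgLib.McKay CfsgLib.Glaub CfsgLib.Char Subgroup

/-- Inside a finite group Γ let S normalise the solvable subgroup G of odd order with the orders of G and S coprime, let C = G ⊓ C(S), and let L ≤ K be S-invariant normal subgroups of G with K/L abelian, G = KC and H = LC (so C ≤ H ≤ G). Then for each S-invariant irreducible character χ of G there is exactly one S-invariant irreducible character ψ of H whose multiplicity in the restriction of χ to H is odd, and χ ↦ ψ is a bijection from the S-invariant irreducible characters of G onto those of H (distinct χ give distinct ψ, and every S-invariant ψ arises). -/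
theorem result {Γ : Type*} [Group Γ] [Fintype Γ] (G S : Subgroup Γ) [Fintype G] (hnorm : ∀ s ∈ S, ∀ g ∈ G, s * g * s⁻¹ ∈ G) (hcop : (Nat.card G).Coprime (Nat.card S)) (hGsolv : Group.IsSolvable G) (hodd : Odd (Nat.card G)) (C : Subgroup Γ) [Fintype C] (hC : C = G ⊓ Subgroup.centralizer (S : Set Γ)) (hCG : C ≤ G) (K L H : Subgroup Γ) [Fintype H] (hLK : L ≤ K) (hKG : K ≤ G) (hKn : ∀ g ∈ G, ∀ k ∈ K, g * k * g⁻¹ ∈ K) (hLn : ∀ g ∈ G, ∀ l ∈ L, g * l * g⁻¹ ∈ L) (hKS : ∀ s ∈ S, ∀ k ∈ K, s * k * s⁻¹ ∈ K) (hLS : ∀ s ∈ S, ∀ l ∈ L, s * l * s⁻¹ ∈ L) (hab : ∀ a ∈ K, ∀ b ∈ K, a * b * a⁻¹ * b⁻¹ ∈ L) (hGKC : K ⊔ C = G) (hH : H = L ⊔ C) (hHG : H ≤ G) : (∀ χ : Cfsg.IrrCharacter G, (∀ s ∈ S, ∀ g g' : G, (g' : Γ) = s * g * s⁻¹ → (χ : G → ℂ) g' = (χ : G → ℂ) g) → ∃! ψ : Cfsg.IrrCharacter H, (∀ s ∈ S, ∀ g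 g' : H, (g' : Γ) = s * g * s⁻¹ → (ψ : H → ℂ) g' = (ψ : H → ℂ) g) ∧ ∃ m : ℕ, Cfsg.classInner (fun h : H => (χ : G → ℂ) ⟨h, hHG h.2⟩) (ψ : H → ℂ) = (m : ℂ) ∧ Odd m) ∧ (∀ χ χ' : Cfsg.IrrCharacter G, (∀ s ∈ S, ∀ g g' : G, (g' : Γ) = s * g * s⁻¹ → (χ : G → ℂ) g' = (χ : G → ℂ) g) → (∀ s ∈ S, ∀ g g' : G, (g' : Γ) = s * g * s⁻¹ → (χ' : G → ℂ) g' = (χ' : G → ℂ) g) → ∀ ψ : Cfsg.IrrCharacter H, (∀ s ∈ S, ∀ g g' : H, (g' : Γ) = s * g * s⁻¹ → (ψ : H → ℂ) g' = (ψ : H → ℂ) g) → ∀ m m' : ℕ, Cfsg.classInner (fun h : H => (χ : G → ℂ) ⟨h, hHG h.2⟩) (ψ : H → ℂ) = (m : ℂ) → Odd m → Cfsg.classInner (fun h : H => (χ' : G → ℂ) ⟨h, hHG h.2⟩) (ψ : H → ℂ) = (m' : ℂ) → Odd m' → χ = χ') ∧ (∀ ψ : Cfsg.IrrCharacter H, (∀ s ∈ S, ∀ g g' : H, (g' : Γ) = s * g * s⁻¹ → (ψ : H → ℂ) g' = (ψ : H → ℂ) g) → ∃ χ : Cfsg.IrrCharacter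 G, (∀ s ∈ S, ∀ g g' : G, (g' : Γ) = s * g * s⁻¹ → (χ : G → ℂ) g' = (χ : G → ℂ) g) ∧ ∃ m : ℕ, Cfsg.classInner (fun h : H => (χ : G → ℂ) ⟨h, hHG h.2⟩) (ψ : H → ℂ) = (m : ℂ) ∧ Odd m) := by
  have hn : ∀ {A B : Subgroup Γ}, (∀ s ∈ A, ∀ g ∈ B, s * g * s⁻¹ ∈ B) →
      A ≤ normalizer (B : Set Γ) := fun h s hs => mem_normalizer_fintype (h s hs)
  have hSG := hn hnorm
  have hSH : S ≤ normalizer (H : Set Γ) := hH ▸ CfsgLib.Coprime.le_normalizer_sup (hn hLS)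
    (hC ▸ (le_centralizer_iff.mp inf_le_right).trans (centralizer_le_normalizer _))
  obtain ⟨h1, h2⟩ := isaacs_section hSG (hn hKS) (hn hKn) (hn hLn) hcop.symm hGsolv hodd hLK
    (hC ▸ hGKC) (hC ▸ hH) (commutator_le.mpr hab) hHG (hn hLS)
  have e : ∀ (χ : IrrCharacter G) (ψ : IrrCharacter H), (∃ m : ℕ, classInner
      (fun h : H => (χ : G → ℂ) ⟨h, hHG h.2⟩) (ψ : H → ℂ) = (m : ℂ) ∧ Odd m) ↔
      ¬ 2 ∣ mult (inclusion hHG) χ.1 ψ.1 := fun χ ψ => by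
    rw [← even_iff_two_dvd, Nat.not_even_iff_odd]
    exact ⟨fun ⟨m, h, h'⟩ => (mult_eq_of_eq (inclusion hHG) h).symm ▸ h', fun h =>
      ⟨_, mult_spec (inclusion hHG) (irr_isCharacter χ) (irr_isCharacter ψ), h⟩⟩
  refine ⟨fun χ hχ => ?_, fun χ χ' hχ hχ' ψ hψ m m' h3 h4 h5 h6 => ?_, fun ψ hψ => ?_⟩
  · obtain ⟨ψ, ⟨hψ, h3⟩, h4⟩ := h1 χ ⟨χ.2, fun s hs => ⟨hSG hs, hχ s hs⟩⟩
    exact ⟨⟨ψ, hψ.1⟩, ⟨fun s hs => (hψ.2 hs).2, (e _ _).mpr h3⟩, fun ψ' h => Subtype.ext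
      (h4 ψ' ⟨⟨ψ'.2, fun s hs => ⟨hSH hs, h.1 s hs⟩⟩, (e _ _).mp h.2⟩)⟩
  · exact Subtype.ext ((h2 ψ ⟨ψ.2, fun s hs => ⟨hSH hs, hψ s hs⟩⟩).unique
      ⟨⟨χ.2, fun s hs => ⟨hSG hs, hχ s hs⟩⟩, (e _ _).mp ⟨m, h3, h4⟩⟩
      ⟨⟨χ'.2, fun s hs => ⟨hSG hs, hχ' s hs⟩⟩, (e _ _).mp ⟨m', h5, h6⟩⟩)
  · obtain ⟨χ, ⟨hχ, h3⟩, -⟩ := h2 ψ ⟨ψ.2, fun s hs => ⟨hSH hs, hψ s hs⟩⟩
    exact ⟨⟨χ, hχ.1⟩, fun s hs => (hχ.2 hs).2, (e _ _).mpr h3⟩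

end Cfsg.Agent.S4453
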