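import Mathlib
import Cfsg.Statements.S4454
import Cfsg.Agent.Lib.Glaub.CyclicCorr

set_option autoImplicit false
open Cfsg

namespace Cfsg.Agent.S4454

open CfsgLib.Glaub CfsgLib.Char CfsgLib.CharDeep CfsgLib.ChDeg Finset


/-- Let N ≤ G be normal subgroups of the finite group Γ with Γ/G cyclic and Γ/N a Frobenius group with kernel G/N: G ≠ Γ, N ≠ G, and no element of Γ outside G fixes a non-identity coset of N in G under conjugation. Let ϑ be an irreducible character of N invariant under conjugation by Γ and suppose ϑ is fully ramified in G: the character of G induced from ϑ equals e·χ for an irreducible character χ of G and a natural number e. Then the index of G in Γ divides e − 1 or e + 1. -/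
theorem result {Γ : Type*} [Group Γ] [Fintype Γ] (G N : Subgroup Γ) [hG : G.Normal] [hN : N.Normal] [Fintype G] [Fintype N] (hNG : N ≤ G) (hGlt : G ≠ ⊤) (hNlt : N ≠ G) (hcyc : IsCyclic (Γ ⧸ G)) (hfrob : ∀ x : Γ, x ∉ G → ∀ g : Γ, g ∈ G → x * g * x⁻¹ * g⁻¹ ∈ N → g ∈ N) (θ : Cfsg.IrrCharacter N) (hinv : ∀ (x : Γ) (n : N), (θ : N → ℂ) ⟨x * n * x⁻¹, hN.conj_mem n n.2 x⟩ = (θ : N → ℂ) n) (χ : Cfsg.IrrCharacter G) (e : ℕ) (hram : Cfsg.indFun (N.subgroupOf G) (fun n : N.subgroupOf G => (θ : N → ℂ) ⟨(n : G), n.2⟩) = fun g => (e : ℂ) * (χ : G → ℂ) g) : (G.index : ℤ) ∣ (e : ℤ) - 1 ∨ (G.index : ℤ) ∣ (e : ℤ) + 1 := by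
  classical
  obtain ⟨tb, htb⟩ := IsCyclic.exists_generator (α := Γ ⧸ G)
  obtain ⟨t, rfl⟩ := QuotientGroup.mk_surjective tb
  have htG : t ∉ G := by
    intro h
    apply hGlt
    rw [eq_top_iff]
    intro x _
    obtain ⟨k, hk⟩ := htb x
    rw [← QuotientGroup.eq_one_iff, ← hk]
    simp [(QuotientGroup.eq_one_iff t).mpr h]
  let H : Subgroup Γ := N ⊔ Subgroup.zpowers t
  have hNH : N ≤ H := le_sup_left
  have hHG : ∀ x ∈ H, x ∈ G → x ∈ N := by
    intro x hx hxG
    obtain ⟨n, hn, _, ⟨k, rfl⟩, rfl⟩ := Subgroup.mem_sup_of_normal_left.mp hx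
    have h1 : t ^ k ∈ G := by simpa using G.mul_mem (G.inv_mem (hNG hn)) hxG
    refine N.mul_mem hn (hfrob t htG _ h1 ?_)
    have : t * t ^ k * t⁻¹ * (t ^ k)⁻¹ = 1 := by group
    rw [this]; exact N.one_mem
  let f : H →* Γ ⧸ G := (QuotientGroup.mk' G).comp H.subtype
  have hf : Function.Surjective f := by
    intro q
    obtain ⟨k, hk⟩ := htb q
    exact ⟨⟨t ^ k, Subgroup.mem_sup_right ⟨k, rfl⟩⟩, by simpa [f] using hk⟩
  have hfk : f.ker = N.subgroupOf H := by
    ext x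
    exact ⟨fun h => hHG x x.2 ((QuotientGroup.eq_one_iff _).mp h),
      fun h => (QuotientGroup.eq_one_iff _).mpr (hNG h)⟩
  -- restriction of `χ` to `N`
  let θ' : N.subgroupOf G → ℂ := fun n => (θ : N → ℂ) ⟨(n : G), n.2⟩
  have hθ' : IsIrrCharacter (N.subgroupOf G) θ' :=
    isIrr_comp_mulEquiv (Subgroup.subgroupOfEquivOfLe hNG) θ.2
  have hθ'i : ∀ (g : G) (n : N.subgroupOf G), θ' (cj (N.subgroupOf G) g n) = θ' n :=
    fun g n => hinv g ⟨(n : G), n.2⟩
  have h1 := classInner_indFun_self_of_invariant (N.subgroupOf G) hθ' hθ'i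
  have h2 := res_indFun_of_invariant (N.subgroupOf G) hθ'i
  have hram' : indFun (N.subgroupOf G) θ' = (e : ℂ) • (χ : G → ℂ) := hram
  rw [hram', classInner_smul_left, classInner_smul_right, classInner_irr_self χ.2, map_natCast,
    mul_one] at h1
  have he : (e : ℂ) ≠ 0 := by
    intro h
    rw [h, mul_zero] at h1
    exact (N.subgroupOf G).index_ne_zero_of_finite (by exact_mod_cast h1.symm)
  have hres : ∀ n : N, (χ : G → ℂ) ⟨n, hNG n.2⟩ = e * (θ : N → ℂ) n := by
    intro n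
    have := congrFun h2 ⟨⟨n, hNG n.2⟩, n.2⟩
    rw [hram', ← h1, Pi.smul_apply, Pi.smul_apply, smul_eq_mul, smul_eq_mul, mul_assoc] at this
    exact mul_left_cancel₀ he this
  have hχi : ∀ (x : Γ) (g : G), (χ : G → ℂ) (cj G x g) = (χ : G → ℂ) g := by
    intro x
    have h3 : IsIrrCharacter G (fun g => (χ : G → ℂ) (cj G x g)) :=
      isIrr_comp_mulEquiv (MulAut.conjNormal x) χ.2
    have h4 : classInner (indFun (N.subgroupOf G) θ') (fun g => (χ : G → ℂ) (cj G x g)) ≠ 0 := by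
      rw [classInner_indFun_left _ _ (isClassFunction_of_isIrr h3)]
      have : (fun n : N.subgroupOf G => (χ : G → ℂ) (cj G x n)) = (e : ℂ) • θ' := by
        funext n
        have := hres (cj N x ⟨(n : G), n.2⟩)
        rw [show (θ : N → ℂ) (cj N x ⟨(n : G), n.2⟩) = _ from hinv x _] at this
        exact this
      rw [this, classInner_smul_right, classInner_irr_self hθ', map_natCast, mul_one]
      exact he
    rw [hram', classInner_smul_left] at h4
    exact fun g => (congrFun (irr_eq_of_classInner_ne_zero χ.2 h3 (right_ne_zero_of_mul h4)) g).symm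
  obtain ⟨X, hX, hXG⟩ := exists_irr_extension_of_isCyclic G χ.2 hχi
  have : IsCyclic (H ⧸ N.subgroupOf H) := isCyclic_of_surjective
    ((QuotientGroup.quotientKerEquivOfSurjective f hf).symm.trans
      (QuotientGroup.quotientMulEquivOfEq hfk)) (MulEquiv.surjective _)
  let θ'' : N.subgroupOf H → ℂ := fun n => (θ : N → ℂ) ⟨(n : H), n.2⟩
  have hθ'' : IsIrrCharacter (N.subgroupOf H) θ'' :=
    isIrr_comp_mulEquiv (Subgroup.subgroupOfEquivOfLe hNH) θ.2
  obtain ⟨E, hE, hEN⟩ := exists_irr_extension_of_isCyclic (N.subgroupOf H) hθ''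
    (fun g n => hinv g ⟨(n : H), n.2⟩)
  have hEN' : IsIrrCharacter (N.subgroupOf H) (fun n => E n) := by rw [funext hEN]; exact hθ''
  obtain ⟨ψ, hψ, hψN, hψE⟩ := exists_char_mul_ext (N.subgroupOf H) (isCharacter_of_isIrr hE) hEN'
    (isCharacter_restrict H (isCharacter_of_isIrr hX)) (e := e) (fun n => by
      rw [hEN]
      exact (hXG ⟨(n : H), hNG n.2⟩).trans (hres ⟨(n : H), n.2⟩))
  obtain ⟨ψ', hψ', hψf⟩ := exists_char_comp_eq f hf hψ (fun g hg => hψN g (hfk ▸ hg))
  have hψ1 : ψ' 1 = e := by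
    have h3 := congrFun hψE 1
    have h4 := hEN 1
    have h5 := (hXG 1).trans (hres 1)
    rw [← map_one f, hψf]
    apply mul_right_cancel₀ (irr_one_ne_zero θ.2)
    rw [← h5]
    exact (congrArg (ψ 1 * ·) h4.symm).trans h3.symm
  have := dvd_of_norm_one hψ' (fun q hq => ?_) hψ1
  · exact this
  obtain ⟨x, rfl⟩ := hf q
  have hxG : (x : Γ) ∉ G := fun h => hq ((QuotientGroup.eq_one_iff _).mpr h)
  have h3 := sum_coset_fibre G N hNG x (fun g hg => hG.conj_mem g hg x) (by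
      intro y hy n hn h
      have h4 := hN.conj_mem _ h y⁻¹
      have h5 : y⁻¹ * (y * n * x * y⁻¹ * (x : Γ)⁻¹) * y⁻¹⁻¹ = n * (x * y⁻¹ * (x : Γ)⁻¹ * y⁻¹⁻¹) := by
        group
      rw [h5] at h4
      have h6 := hfrob x hxG y⁻¹ (G.inv_mem hy) ((N.mul_mem_cancel_left hn).mp h4)
      exact N.inv_mem_iff.mp h6)
    (isClassFunction_mul (isClassFunction_of_isIrr hX)
      (isClassFunction_conj (isClassFunction_of_isIrr hX)))
  simp only [Pi.mul_apply] at h3
  rw [sum_coset_mul_conj G (isCharacter_of_isIrr hX) (by rw [funext hXG]; exact χ.2),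
    inv_mul_cancel₀ natCard_ne_zero] at h3
  have h4 := sum_coset_mul_conj (N.subgroupOf H) (isCharacter_of_isIrr hE) hEN' x
  have h5 : ∑ n : N, X (n * x) * (starRingEnd ℂ) (X (n * x)) =
      ψ x * (starRingEnd ℂ) (ψ x) * Nat.card N := by
    rw [← Nat.card_congr (Subgroup.subgroupOfEquivOfLe hNH).toEquiv, ← h4, mul_sum]
    symm
    refine Fintype.sum_equiv (Subgroup.subgroupOfEquivOfLe hNH).toEquiv _ _ fun n => ?_
    have h6 : X ((n : H) * x) = ψ (n * x) * E (n * x) := congrFun hψE (n * x)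
    rw [char_mul_of_eq_one hψ (hψN n n.2)] at h6
    change _ = X ((n : H) * x) * (starRingEnd ℂ) (X ((n : H) * x))
    rw [h6, map_mul]; ring
  rw [h5, mul_comm, mul_assoc, mul_inv_cancel₀ natCard_ne_zero, mul_one] at h3
  rw [hψf, ← h3]

end Cfsg.Agent.S4454
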