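import Cfsg.Statements.S4459
import Cfsg.Agent.Lib.ChDeg.ThreeDeg

set_option autoImplicit false
open Cfsg

namespace Cfsg.Agent.S4459

open CfsgLib CfsgLib.Char CfsgLib.ChDeg Subgroup
open scoped commutatorElement

theorem cover_count {Λ : Type*} [Group Λ] [Finite Λ] {p : ℕ} (H : Subgroup Λ)
    (K : Fin p → Subgroup Λ) (hH : H ≠ ⊤) (hK : ∀ i, p ≤ (K i).index)
    (cover : ∀ x, x ∉ H → ∃ i, x ∈ K i) (i : Fin p) : (K i).index = p ∧ ¬ K i ≤ H := by
  classical
  have := Fintype.ofFinite Λ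
  have c1 : ∀ L : Subgroup Λ, (Finset.univ.filter (fun x => x ∈ L ∧ x ∉ H)).card +
      Nat.card (H ⊓ L : Subgroup Λ) = Nat.card L := by
    intro L
    rw [Nat.subtype_card (Finset.univ.filter (fun x => x ∈ L ∧ x ∈ H)) (p := (· ∈ H ⊓ L))
      (by simp [and_comm]), Nat.subtype_card (Finset.univ.filter (· ∈ L)) (p := (· ∈ L)) (by simp),
      ← Finset.card_filter_add_card_filter_not (s := Finset.univ.filter (· ∈ L)) (· ∈ H),
      Finset.filter_filter, Finset.filter_filter, add_comm]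
  have c2 : (Finset.univ.filter (fun x => x ∈ (⊤ : Subgroup Λ) ∧ x ∉ H)).card ≤
      ∑ j, (Finset.univ.filter (fun x => x ∈ K j ∧ x ∉ H)).card := by
    refine le_trans (Finset.card_le_card ?_) Finset.card_biUnion_le
    intro x hx
    simp only [Finset.mem_filter, Finset.mem_univ, true_and, Finset.mem_biUnion] at hx ⊢
    obtain ⟨j, hj⟩ := cover x hx.2
    exact ⟨j, hj, hx.2⟩
  set c : Fin p → ℕ := fun j => (Finset.univ.filter (fun x => x ∈ K j ∧ x ∉ H)).card with hc
  have c3 := c1 ⊤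
  rw [inf_top_eq, card_top] at c3
  obtain ⟨r, hr⟩ : ∃ r, H.index = r + 1 := Nat.exists_eq_succ_of_ne_zero H.index_ne_zero_of_finite
  have hr0 : 0 < r := by
    rcases Nat.eq_zero_or_pos r with rfl | h
    · exact absurd (index_eq_one.1 hr) hH
    · exact h
  have hn := H.index_mul_card
  rw [hr] at hn
  have c4 : ∀ j, (r + 1) * c j ≤ r * Nat.card (K j) := by
    intro j
    have e1 := c1 (K j)
    have e2 := Core.card_inf_mul_relIndex H (K j)
    have e3 : H.relIndex (K j) ≤ r + 1 := by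
      rw [← hr, ← relIndex_top_right]
      exact relIndex_le_of_le_right le_top (by
        rw [relIndex_top_right]; exact H.index_ne_zero_of_finite)
    have e4 : Nat.card (K j) ≤ Nat.card (H ⊓ K j : Subgroup Λ) * (r + 1) :=
      e2 ▸ Nat.mul_le_mul_left _ e3
    change c j + _ = _ at e1
    nlinarith
  have c5 : ∀ j, p * Nat.card (K j) ≤ Nat.card Λ := fun j => by
    rw [← (K j).index_mul_card]; exact Nat.mul_le_mul_right _ (hK j)
  have c6 : ∀ j ∈ (Finset.univ : Finset (Fin p)), p * ((r + 1) * c j) ≤ r * Nat.card Λ := by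
    intro j _
    have := c4 j; have := c5 j
    nlinarith
  have c7 : ∑ j, p * ((r + 1) * c j) = ∑ _j : Fin p, r * Nat.card Λ := by
    refine le_antisymm (Finset.sum_le_sum c6) ?_
    rw [Finset.sum_const, ← Finset.mul_sum, ← Finset.mul_sum, Finset.card_univ, Fintype.card_fin,
      smul_eq_mul]
    refine Nat.mul_le_mul_left _ ?_
    nlinarith
  have c8 := (Finset.sum_eq_sum_iff_of_le c6).1 c7 i (Finset.mem_univ _)
  have hpos : 0 < Nat.card Λ := Nat.card_pos
  have hpos' : 0 < Nat.card (K i) := Nat.card_pos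
  constructor
  · have e1 := c4 i; have e2 := c5 i
    have e3 : p * Nat.card (K i) = Nat.card Λ := by
      refine le_antisymm e2 (Nat.le_of_mul_le_mul_left ?_ hr0)
      nlinarith
    rw [← (K i).index_mul_card] at e3
    exact (Nat.eq_of_mul_eq_mul_right hpos' e3).symm
  · intro hle
    have : c i = 0 := by
      simp only [hc, Finset.card_eq_zero, Finset.filter_eq_empty_iff]
      exact fun x _ hx => hx.2 (hle hx.1)
    rw [this] at c8
    have : 0 < r * Nat.card Λ := Nat.mul_pos hr0 hpos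
    omega

theorem comm_Z {G : Type*} [Group G] [Finite G] {p : ℕ} (hp : p.Prime)
    (hcd : ∀ χ, IsIrrCharacter G χ → charDegree χ = 1 ∨ charDegree χ = p)
    {K Z : Subgroup G} [K.Normal] {q : ℕ} {χ : G → ℂ} (h : CaseA G K q Z χ) :
    Z.index = p ^ 2 ∧ ∀ a ∈ Z, ∀ b ∈ Z, a * b = b * a := by
  obtain ⟨-, -, hZ, -, -, -, hχ, hχ1, -, h0, hn, hd⟩ := h
  have := Fintype.ofFinite G
  have := Fintype.ofFinite Z
  have hχp := (hcd χ hχ).resolve_left hχ1
  have hχc := isCharacter_of_isIrr hχ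
  rw [hχp] at hd
  refine ⟨hd.symm, comm_of_forall_deg_eq_one' fun θ hθ => ?_⟩
  by_contra hθ1
  have key : ∀ θ : Z → ℂ, IsIrrCharacter Z θ → charDegree θ ≠ 1 →
      ∃ ξ, IsIrrCharacter G ξ ∧ (fun z : Z => ξ z) = θ := by
    intro θ hθ h1
    obtain ⟨ξ, hξ, hi⟩ := exists_irr_over Z hθ
    refine ⟨ξ, hξ, res_eq_of_deg_eq Z (isCharacter_of_isIrr hξ) hθ hi ?_⟩
    have h2 := deg_dvd_of_over Z hξ hθ hi
    rcases hcd ξ hξ with e | e
    · exact absurd (Nat.dvd_one.1 (e ▸ h2)) h1
    · rw [e] at h2 ⊢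
      exact (((Nat.dvd_prime hp).1 h2).resolve_left h1).ge
  let μ : Z →* ℂ :=
    { toFun := fun z => χ z / χ 1
      map_one' := by simpa using irr_one_ne_zero hχ
      map_mul' := fun a b => by
        rw [coe_mul, char_mul_of_norm_eq hχc (hn a a.2)]; ring }
  have hμ := isCharacter_of_isIrr (isIrr_monoidHom μ)
  have h1 := isIrr_mul_of_one_eq_one hθ hμ (map_one μ)
  obtain ⟨ξ, hξ, e1⟩ := key θ hθ hθ1
  obtain ⟨ξ', hξ', e2⟩ := key _ h1 (by
    rwa [deg_mul (isCharacter_of_isIrr hθ) hμ, (deg_eq_one_iff hμ).2 (map_one μ), mul_one])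
  obtain ⟨k, hk⟩ := exists_classInner_eq_nat (isCharacter_mul hχc (isCharacter_of_isIrr hξ))
    (isCharacter_of_isIrr hξ')
  have h2 := classInner_res_of_vanish Z (f := χ * ξ) (fun g hg => by simp [h0 g hg]) ξ'
  have h3 : (fun z : Z => (χ * ξ) z) = χ 1 • (θ * μ) := by
    ext z
    rw [← e1]
    simp only [Pi.mul_apply, Pi.smul_apply, smul_eq_mul, μ, MonoidHom.coe_mk, OneHom.coe_mk]
    field_simp [irr_one_ne_zero hχ]
  rw [h3, e2, classInner_smul_left, classInner_irr_self h1, hk, ← hd, ← deg_cast hχc, hχp,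
    mul_one] at h2
  have h4 : p = p ^ 2 * k := by exact_mod_cast h2
  have h5 : p * p ∣ p * 1 := ⟨k, by rw [mul_one, ← sq, ← h4]⟩
  exact hp.not_dvd_one (Nat.dvd_of_mul_dvd_mul_left hp.pos h5)

theorem index_eq_of {G : Type*} [Group G] [Finite G] {p : ℕ} (hp : p.Prime) {Z U : Subgroup G}
    (hZ : Z.index = p ^ 2) (hle : Z ≤ U) (h1 : ¬ U ≤ Z) (h2 : U ≠ ⊤) : U.index = p := by
  obtain ⟨k, hk, e⟩ := (Nat.dvd_prime_pow hp).1 (hZ ▸ index_dvd_of_le hle)
  interval_cases k
  · exact absurd (index_eq_one.1 e) h2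
  · simpa using e
  · exact absurd (eq_of_le_of_index_le hle (by rw [hZ, e])).ge h1

theorem main {G : Type*} [Group G] [Finite G] {p : ℕ} (hp : p.Prime)
    (hcd : ∀ χ, IsIrrCharacter G χ → charDegree χ = 1 ∨ charDegree χ = p)
    (hno : ∀ A : Subgroup G, A.Normal → (∀ a ∈ A, ∀ b ∈ A, a * b = b * a) → A.index ≠ p)
    (hG' : IsPGroup p (_root_.commutator G))
    {K Z : Subgroup G} [K.Normal] (hK : ¬ _root_.commutator G ≤ K) {q : ℕ} {χ : G → ℂ}
    (h : CaseA G K q Z χ) : (center G).index = p ^ 3 := by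
  classical
  obtain ⟨hZi, hZc⟩ := comm_Z hp hcd h
  obtain ⟨-, -, hZ, hKZ, hGZ, hZK, -⟩ := h
  have := Fact.mk hp
  have := Fintype.ofFinite G
  have := Fintype.ofFinite Z
  have hU : ∀ w, w ∉ Z → (zpowers w ⊔ Z).index = p := by
    intro w hw
    refine index_eq_of hp hZi le_sup_right (fun e => hw (e (mem_sup_left (mem_zpowers w)))) ?_
    intro e
    apply hK
    rw [_root_.commutator_def, ← e]
    refine commutator_sup_le ?_ fun z hz => (hZK z).1 hz
    rw [(commutator_eq_bot_iff_le_centralizer.2 (le_centralizer _) :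
      ⁅zpowers w, zpowers w⁆ = ⊥)]
    exact bot_le
  let _ : CommGroup Z := { (inferInstance : Group Z) with
    mul_comm := fun a b => Subtype.ext (hZc a a.2 b b.2) }
  let δ : G → Z →* Z := fun w =>
    (MulAut.conjNormal w : MulAut Z).toMonoidHom / MonoidHom.id Z
  have hδ : ∀ (w : G) (z : Z), (δ w z : G) = w * z * w⁻¹ * (z : G)⁻¹ := fun w z => by
    simp [δ, div_eq_mul_inv]
  let H : G → Subgroup (Z →* ℂˣ) := fun w => (MonoidHom.domRestrictHom (δ w).range ℂˣ).ker
  have hH : ∀ (w : G) (lam : Z →* ℂˣ), lam ∈ H w ↔ w ∈ inertia Z (fun z => (lam z : ℂ)) := by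
    intro w lam
    rw [mem_inertia', MonoidHom.mem_ker, MonoidHom.domRestrictHom_apply,
      MonoidHom.domRestrict_eq_one_iff]
    constructor
    · intro h z
      have := h (δ w z) ⟨z, rfl⟩
      simp only [δ, MonoidHom.div_apply, map_div, div_eq_one] at this
      exact congrArg Units.val this
    · rintro h _ ⟨z, rfl⟩
      simp only [δ, MonoidHom.div_apply, map_div, div_eq_one]
      exact Units.ext (h z)
  have hHi : ∀ w, (H w).index = Nat.card (δ w).range := by
    intro w
    have e1 := (H w).index_mul_card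
    rw [CommGroup.card_monoidHom_of_hasEnoughRootsOfUnity, CommGroup.card_domRestrictHom_ker,
      card_eq_card_quotient_mul_card_subgroup (δ w).range, mul_comm] at e1
    exact Nat.eq_of_mul_eq_mul_left Nat.card_pos e1
  have hW : ∀ w, w ∉ Z → p ∣ Nat.card (δ w).range := by
    intro w hw
    refine Core.dvd_card_of_isPGroup_of_ne_bot ?_ fun e => ?_
    · refine (hG'.comap_of_injective Z.subtype Z.subtype_injective).to_le ?_
      rintro _ ⟨z, rfl⟩
      rw [mem_comap, subtype_apply, hδ]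
      exact commutator_mem_commutator (mem_top _) (mem_top _)
    · refine hno _ (Normal.of_commutator_le G (hGZ.trans le_sup_right)) ?_ (hU w hw)
      have : IsMulCommutative Z := Core.isMulCommutative_iff_forall.2 hZc
      refine Core.isMulCommutative_iff_forall.1 (Core.isMulCommutative_sup ?_)
      rw [zpowers_le]
      intro z hz
      have : δ w ⟨z, hz⟩ ∈ (δ w).range := ⟨_, rfl⟩
      rw [e, mem_bot] at this
      have e2 := hδ w ⟨z, hz⟩
      rw [this] at e2
      simp only [coe_one] at e2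
      exact (commutatorElement_eq_one_iff_mul_comm.1 e2.symm).symm
  have hT : ∀ lam : Z →* ℂˣ, ¬ inertia Z (fun z => (lam z : ℂ)) ≤ Z := by
    intro lam e
    have hl := isIrr_unitsHom lam
    have := hcd _ (isIrr_indFun_of_inertia_le Z hl e)
    rw [deg_ind Z (isCharacter_of_isIrr hl), (deg_eq_one_iff (isCharacter_of_isIrr hl)).2
      (by simp), mul_one, hZi] at this
    have := hp.two_le
    rcases ‹p ^ 2 = 1 ∨ _› with e | e <;> nlinarith
  have key : ∀ u v, u ∉ Z → v ∉ zpowers u ⊔ Z → Nat.card (δ v).range = p ∧ ¬ H v ≤ H u := by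
    intro u v hu hv
    have hw : ∀ i : ℕ, v * u ^ i ∉ Z := fun i e => hv (by
      have := (zpowers u ⊔ Z).mul_mem (mem_sup_right e)
        (mem_sup_left ((zpowers u).inv_mem (npow_mem_zpowers u i)))
      simpa using this)
    have := cover_count (H u) (fun i : Fin p => H (v * u ^ (i : ℕ))) ?_ ?_ ?_ ⟨0, hp.pos⟩
    · simpa [hHi] using this
    · intro e
      have := hW u hu
      rw [← hHi, e, index_top] at this
      exact hp.not_dvd_one this
    · intro i
      rw [hHi]
      exact Nat.le_of_dvd Nat.card_pos (hW _ (hw i))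
    · intro lam hl
      simp only [hH] at hl ⊢
      set T := inertia Z (fun z => (lam z : ℂ))
      have hZT : Z ≤ T := le_inertia Z (isClassFunction_of_isIrr (isIrr_unitsHom lam))
      have hTi : T.index = p := index_eq_of hp hZi hZT (hT lam) fun e => hl (e ▸ mem_top u)
      have hTn : T.Normal := Normal.of_commutator_le G (hGZ.trans hZT)
      have hu1 : (u : G ⧸ T) ≠ 1 := fun e => hl ((QuotientGroup.eq_one_iff u).1 e)
      have hm : (v : G ⧸ T)⁻¹ ∈ zpowers (u : G ⧸ T) := mem_zpowers_of_prime_card hTi hu1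
      rw [mem_zpowers_iff_mem_range_orderOf, Finset.mem_image] at hm
      obtain ⟨i, hi, e⟩ := hm
      have ho : orderOf (u : G ⧸ T) ≤ p :=
        Nat.le_of_dvd hp.pos (hTi ▸ orderOf_dvd_natCard (u : G ⧸ T))
      refine ⟨⟨i, (Finset.mem_range.1 hi).trans_le ho⟩, ?_⟩
      rw [← QuotientGroup.eq_one_iff, QuotientGroup.mk_mul, QuotientGroup.mk_pow, e, mul_inv_cancel]
  have hex : ∀ w, w ∉ Z → ∃ u, u ∉ zpowers w ⊔ Z := by
    intro w hw
    by_contra hc
    push Not at hc
    have := hU w hw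
    rw [(eq_top_iff' _).2 hc, index_top] at this
    exact hp.one_lt.ne this
  have hall : ∀ w, w ∉ Z → Nat.card (δ w).range = p := by
    intro w hw
    obtain ⟨u, hu⟩ := hex w hw
    have hu' : u ∉ Z := fun e => hu (mem_sup_right e)
    refine (key u w hu' fun e => hu ?_).1
    rw [eq_of_le_of_index_le (sup_le (zpowers_le.2 e) le_sup_right : zpowers w ⊔ Z ≤ zpowers u ⊔ Z)
      (by rw [hU w hw, hU u hu'])]
    exact mem_sup_left (mem_zpowers u)
  obtain ⟨u, hu⟩ : ∃ u, u ∉ Z := by
    by_contra hc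
    push Not at hc
    rw [(eq_top_iff' _).2 hc, index_top] at hZi
    exact (Nat.one_lt_pow two_ne_zero hp.one_lt).ne hZi
  obtain ⟨v, hv⟩ := hex u hu
  have hdis : (δ u).range ⊓ (δ v).range = ⊥ := by
    refine Core.inf_eq_bot_of_prime_card_of_not_le (by rw [hall u hu]; exact hp) fun e => ?_
    refine (key u v hu hv).2 fun lam hl => ?_
    simp only [H, MonoidHom.mem_ker, MonoidHom.domRestrictHom_apply,
      MonoidHom.domRestrict_eq_one_iff] at hl ⊢
    exact fun x hx => hl x (e hx)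
  have hw : v⁻¹ * u ∉ Z := fun e => hv (by
    have := (zpowers u ⊔ Z).mul_mem (mem_sup_left (mem_zpowers u))
      ((zpowers u ⊔ Z).inv_mem (mem_sup_right e))
    simpa using this)
  have hker : (δ (v⁻¹ * u)).ker = (center G).subgroupOf Z := by
    ext z
    rw [MonoidHom.mem_ker, mem_subgroupOf, ← Subtype.coe_inj, hδ, coe_one]
    constructor
    · intro e
      have e1 : δ u z = δ v z := by
        apply Subtype.ext
        rw [hδ, hδ]
        congr 1
        rw [mul_inv_eq_one] at e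
        conv_rhs => rw [← e]
        group
      have e2 : δ u z ∈ (δ u).range ⊓ (δ v).range := ⟨⟨z, rfl⟩, ⟨z, e1.symm⟩⟩
      rw [hdis, mem_bot] at e2
      have e3 := hδ u z
      have e4 := hδ v z
      rw [← e1] at e4
      rw [e2, coe_one] at e3 e4
      have hc : zpowers u ⊔ Z ≤ centralizer {(z : G)} := by
        refine sup_le (zpowers_le.2 ?_) fun y hy => ?_
        · exact mem_centralizer_singleton_iff.2 (commutatorElement_eq_one_iff_mul_comm.1 e3.symm)
        · exact mem_centralizer_singleton_iff.2 (hZc y hy z z.2)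
      have hco := Core.isCoatom_of_index_prime (M := zpowers u ⊔ Z) (by rw [hU u hu]; exact hp)
      have htop : centralizer {(z : G)} = ⊤ := hco.2 _ (lt_of_le_of_ne hc fun e => hv (e ▸
        mem_centralizer_singleton_iff.2 (commutatorElement_eq_one_iff_mul_comm.1 e4.symm)))
      rw [mem_center_iff]
      intro g
      exact mem_centralizer_singleton_iff.1 (htop ▸ mem_top g)
    · intro e
      rw [mem_center_iff.1 e]
      group
  have hcZ : center G ≤ Z := fun z hz => (hZK z).2 fun x => by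
    rw [commutatorElement_eq_one_iff_mul_comm.2 (mem_center_iff.1 hz x).symm]
    exact K.one_mem
  have e1 := relIndex_mul_index hcZ
  rw [relIndex, ← hker, index_ker, hall _ hw, hZi] at e1
  rw [← e1]; ring

/-- Let G be a non-abelian finite group and p a prime. Then the irreducible character degrees of G are exactly 1 and p if and only if either G has an abelian normal subgroup of index p or the centre of G has index p³. -/
theorem result {G : Type*} [Group G] [Finite G] (hG : ∃ a b : G, a * b ≠ b * a) (p : ℕ) (hp : p.Prime) : ((∀ χ : Cfsg.IrrCharacter G, Cfsg.charDegree (χ : G → ℂ) = 1 ∨ Cfsg.charDegree (χ : G → ℂ) = p) ∧ ∃ χ : Cfsg.IrrCharacter G, Cfsg.charDegree (χ : G → ℂ) = p) ↔ ((∃ A : Subgroup G, A.Normal ∧ (∀ a ∈ A, ∀ b ∈ A, a * b = b * a) ∧ A.index = p) ∨ (Subgroup.center G).index = p ^ 3) := by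
  have hna : ¬ _root_.commutator G ≤ ⊥ := by
    obtain ⟨a, b, hab⟩ := hG
    intro e
    exact hab (commutatorElement_eq_one_iff_mul_comm.1
      (mem_bot.1 (e (commutator_mem_commutator (mem_top _) (mem_top _)))))
  constructor
  · rintro ⟨h1, χ₀, h2⟩
    have hcd : ∀ χ, IsIrrCharacter G χ → charDegree χ = 1 ∨ charDegree χ = p :=
      fun χ hχ => h1 ⟨χ, hχ⟩
    by_cases hA : ∃ A : Subgroup G, A.Normal ∧ (∀ a ∈ A, ∀ b ∈ A, a * b = b * a) ∧ A.index = p
    · exact Or.inl hA
    right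
    obtain ⟨q, e, hq, he, P, A, hP, hAn, hPq, hAc, -, hsup, -⟩ :=
      (two_deg hcd ⟨χ₀, χ₀.2, h2⟩ hp.one_lt.ne').resolve_left hA
    have hqp : p = q := (Nat.prime_dvd_prime_iff_eq hp hq).1 (hp.dvd_of_dvd_pow he.dvd)
    subst hqp
    have hG' : _root_.commutator G ≤ P := by
      rw [_root_.commutator_def, ← hsup, sup_comm]
      refine commutator_sup_le ?_ fun z hz x => ?_
      · rw [commutator_le]
        intro a ha b hb
        rw [commutatorElement_eq_one_iff_mul_comm.2 (hAc a ha b hb)]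
        exact P.one_mem
      · rw [commutatorElement_def, mul_assoc, mul_assoc]
        exact P.mul_mem hz (by simpa [mul_assoc] using hP.conj_mem _ (P.inv_mem hz) x)
    have : Group.IsSolvable G := ⟨⟨2, derived_two_of_two_deg hcd⟩⟩
    obtain ⟨K, hK, -, hK', ⟨r, Z, χ, h⟩ | ⟨r, N, h⟩⟩ := exists_cases (G := G) ⊥ hna
    · exact main hp hcd (fun A a b c => hA ⟨A, a, b, c⟩) (hPq.to_le hG') hK' h
    · exact absurd ⟨N, h.2.1, h.comm_of_two_deg hcd⟩ hA
  · intro h
    have h1 : ∀ χ : Cfsg.IrrCharacter G, Cfsg.charDegree (χ : G → ℂ) = 1 ∨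
        Cfsg.charDegree (χ : G → ℂ) = p := by
      intro χ
      rcases h with ⟨A, hA, hc, hi⟩ | h
      · exact (Nat.dvd_prime hp).1 (hi ▸ deg_dvd_index_of_comm χ.2 A hc)
      · obtain ⟨k, hk, e⟩ := (Nat.dvd_prime_pow hp).1 (h ▸ deg_dvd_index_center χ.2)
        have h2 := deg_sq_le_index_of_le_center χ.2 _ le_rfl
        rw [h, e, ← pow_mul, Nat.pow_le_pow_iff_right hp.one_lt] at h2
        have : k = 0 ∨ k = 1 := by omega
        rcases this with rfl | rfl
        · exact Or.inl e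
        · exact Or.inr (by simpa using e)
    refine ⟨h1, ?_⟩
    obtain ⟨χ, hχ, h2⟩ := exists_irr_deg_ne_one (fun e => hna e.le)
    exact ⟨⟨χ, hχ⟩, (h1 ⟨χ, hχ⟩).resolve_left h2⟩

end Cfsg.Agent.S4459
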