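import Cfsg.Statements.S4460
import Cfsg.Agent.Lib.ChDeg.ThreeDeg

set_option autoImplicit false
open Cfsg

namespace Cfsg.Agent.S4460

/-- A finite group with exactly three distinct irreducible character degrees is solvable of derived length at most 3: its third derived subgroup is trivial. -/
theorem result {G : Type*} [Group G] [Finite G] (hcd : Nat.card {n : ℕ // ∃ χ : Cfsg.IrrCharacter G, Cfsg.charDegree (χ : G → ℂ) = n} = 3) : derivedSeries G 3 = ⊥ := by
  have h1 : {n : ℕ | ∃ χ : Cfsg.IrrCharacter G, Cfsg.charDegree (χ : G → ℂ) = n}.ncard = 3 := hcd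
  obtain ⟨a, b, c, -, -, -, h⟩ := Set.ncard_eq_three.1 h1
  have h2 : ∀ χ, IsIrrCharacter G χ → charDegree χ = a ∨ charDegree χ = b ∨ charDegree χ = c := by
    intro χ hχ
    have : charDegree χ ∈ {n : ℕ | ∃ χ : Cfsg.IrrCharacter G, Cfsg.charDegree (χ : G → ℂ) = n} :=
      ⟨⟨χ, hχ⟩, rfl⟩
    rw [h] at this
    simpa using this
  have h3 := h2 _ CfsgLib.Char.isIrr_one
  rw [CfsgLib.ChDeg.deg_one] at h3
  rcases h3 with rfl | rfl | rfl
  · exact CfsgLib.ChDeg.derived_three_of_three_deg h2
  · exact CfsgLib.ChDeg.derived_three_of_three_deg (m := a) (n := c)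
      fun χ hχ => by have := h2 χ hχ; tauto
  · exact CfsgLib.ChDeg.derived_three_of_three_deg (m := a) (n := b)
      fun χ hχ => by have := h2 χ hχ; tauto

end Cfsg.Agent.S4460
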