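import Cfsg.Statements.S4464
import Cfsg.Agent.Lib.ChDeg.Ito
import Cfsg.Agent.Lib.Char.PermChar

set_option autoImplicit false
open Cfsg

namespace Cfsg.Agent.S4464

open CfsgLib CfsgLib.Char CfsgLib.ChDeg Subgroup MulAction

theorem orbits_bound {P X : Type*} [Group P] [Finite P] [MulAction P X] [Finite X] {p : ℕ}
    [hp : Fact p.Prime] (hP : IsPGroup p P) (x₀ : X) (h : ∀ x ∈ fixedPoints P X, x = x₀) :
    p * (Nat.card (orbitRel.Quotient P X) - 1) + 1 ≤ Nat.card X := by
  classical
  have := Fintype.ofFinite (orbitRel.Quotient P X)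
  rw [Nat.card_congr (selfEquivSigmaOrbits P X), Nat.card_sigma]
  set ω₀ : orbitRel.Quotient P X := Quotient.mk _ x₀
  rw [← Finset.add_sum_erase _ _ (Finset.mem_univ ω₀), add_comm (Nat.card _)]
  have h1 : 1 ≤ Nat.card (orbit P ω₀.out) :=
    haveI : Nonempty (orbit P ω₀.out) := ⟨⟨_, mem_orbit_self _⟩⟩
    Nat.card_pos
  have h2 : ∀ ω ∈ Finset.univ.erase ω₀, p ≤ Nat.card (orbit P ω.out) := by
    intro ω hω
    obtain ⟨n, hn⟩ := hP.card_orbit ω.out
    rcases n with _ | n
    · exfalso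
      have := Fintype.ofFinite (orbit P ω.out)
      have hf : ω.out ∈ fixedPoints P X := by
        rw [mem_fixedPoints_iff_card_orbit_eq_one, ← Nat.card_eq_fintype_card, hn, pow_zero]
      apply Finset.ne_of_mem_erase hω
      rw [← Quotient.out_eq ω, h _ hf]
    · rw [hn]; exact Nat.le_self_pow (by omega) p
  have h3 := Finset.card_nsmul_le_sum _ _ _ h2
  rw [Finset.card_erase_of_mem (Finset.mem_univ _), Finset.card_univ, ← Nat.card_eq_fintype_card,
    smul_eq_mul, mul_comm] at h3
  omega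

/-- Let p be a prime and G a finite group all of whose irreducible character degrees are less than p. Then G has a normal abelian Sylow p-subgroup. -/
theorem result {G : Type*} [Group G] [Finite G] (p : ℕ) (hp : p.Prime) (hb : ∀ χ : Cfsg.IrrCharacter G, Cfsg.charDegree (χ : G → ℂ) < p) : ∃ P : Subgroup G, P.Normal ∧ (∀ x ∈ P, ∀ y ∈ P, x * y = y * x) ∧ IsPGroup p P ∧ ¬ p ∣ P.index := by
  classical
  have := Fact.mk hp
  have := Fintype.ofFinite G
  obtain ⟨P⟩ : Nonempty (Sylow p G) := inferInstance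
  set π : G → ℂ := fun g => (Nat.card (fixedBy (Sylow p G) g) : ℂ) with hπ
  have hπc : IsCharacter G π := isCharacter_perm _
  have hπd : charDegree π = Nat.card (Sylow p G) := by
    apply deg_eq_of_eq
    simp [hπ]
  obtain ⟨a, ha, hsum⟩ := exists_char_eq_sum_nat hπc
  have hdeg : charDegree π = ∑ ψ : IrrCharacter G, a ψ * charDegree (ψ : G → ℂ) := by
    apply deg_eq_of_eq
    rw [hsum]
    simp [Finset.sum_apply, irr_deg_cast]
  have ha1 : a (irrOne G) = 1 := by
    have := ha (irrOne G)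
    rw [irrOne_coe, classInner_perm_one_of_pretransitive] at this
    exact_mod_cast this.symm
  have hr : classInner (fun g : (P : Subgroup G) => π g) (fun _ => 1) =
      Nat.card (orbitRel.Quotient (P : Subgroup G) (Sylow p G)) :=
    classInner_perm_one (G := (P : Subgroup G)) (Sylow p G)
  have hb' : ∀ ψ : IrrCharacter G, ∃ b : ℕ,
      classInner (fun g : (P : Subgroup G) => (ψ : G → ℂ) g) (fun _ => 1) = b ∧ (a ψ ≠ 0 → 1 ≤ b) := by
    intro ψ
    obtain ⟨b, hb⟩ := exists_classInner_eq_nat (isCharacter_restrict (P : Subgroup G)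
      (irr_isCharacter ψ)) (isCharacter_one (G := (P : Subgroup G)))
    refine ⟨b, hb, fun h0 => ?_⟩
    rw [Nat.one_le_iff_ne_zero]
    rintro rfl
    have h1 : classInner π ψ ≠ 0 := by rw [ha]; exact_mod_cast h0
    rw [hπ, perm_char_eq_indFun (Sylow p G) P,
      classInner_indFun_left _ _ (irr_isClassFunction ψ)] at h1
    have h2 : classInner (fun h : stabilizer G P => (ψ : G → ℂ) h) (fun _ => 1) ≠ 0 :=
      fun e => h1 (classInner_eq_zero_symm e)
    have hle : (P : Subgroup G) ≤ stabilizer G P := by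
      rw [Sylow.stabilizer_eq_normalizer]; exact le_normalizer
    refine inner_res_ne_zero_trans hle (irr_isCharacter ψ) isIrr_one isCharacter_one h2 ?_
      (by simpa using hb)
    rw [classInner_one_one]; exact one_ne_zero
  choose b hb1 hb2 using hb'
  have hr2 : Nat.card (orbitRel.Quotient (P : Subgroup G) (Sylow p G)) =
      ∑ ψ : IrrCharacter G, a ψ * b ψ := by
    have : (fun g : (P : Subgroup G) => π g) =
        ∑ ψ : IrrCharacter G, (a ψ : ℂ) • (fun g : (P : Subgroup G) => (ψ : G → ℂ) g) := by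
      ext g; rw [hsum]; simp [Finset.sum_apply]
    rw [this, classInner_sum_left] at hr
    simp only [classInner_smul_left, hb1] at hr
    exact_mod_cast hr.symm
  have hfix : ∀ Q ∈ fixedPoints (P : Subgroup G) (Sylow p G), Q = P := by
    intro Q hQ
    rw [P.isPGroup'.sylow_mem_fixedPoints_iff] at hQ
    exact Sylow.ext (P.is_maximal' Q.isPGroup' hQ)
  have hob := orbits_bound P.isPGroup' P hfix
  set S := Finset.univ.erase (irrOne G)
  have hb0 : b (irrOne G) = 1 := by
    have := hb1 (irrOne G)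
    simp only [irrOne_apply, classInner_one_one] at this
    exact_mod_cast this.symm
  rw [← Finset.add_sum_erase _ _ (Finset.mem_univ (irrOne G)), ha1, hb0] at hr2
  rw [← Finset.add_sum_erase _ _ (Finset.mem_univ (irrOne G)), ha1, irrOne_coe, deg_one] at hdeg
  have h3 : ∑ ψ ∈ S, a ψ * charDegree (ψ : G → ℂ) ≤ (p - 1) * ∑ ψ ∈ S, a ψ * b ψ := by
    rw [Finset.mul_sum]
    refine Finset.sum_le_sum fun ψ _ => ?_
    rcases eq_or_ne (a ψ) 0 with h0 | h0
    · simp [h0]
    · have := hb2 ψ h0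
      have h4 := hb ψ
      calc a ψ * charDegree (ψ : G → ℂ) ≤ a ψ * (p - 1) := Nat.mul_le_mul_left _ (by omega)
        _ = (p - 1) * (a ψ * 1) := by ring
        _ ≤ _ := Nat.mul_le_mul_left _ (Nat.mul_le_mul_left _ this)
  rw [hr2, ← hπd, hdeg] at hob
  have h5 : ∑ ψ ∈ S, a ψ * b ψ = 0 := by
    by_contra h0
    have h6 : 0 < ∑ ψ ∈ S, a ψ * b ψ := Nat.pos_of_ne_zero h0
    have h7 : p = (p - 1) + 1 := by have := hp.pos; omega
    simp only [one_mul, Nat.add_sub_cancel_left] at hob
    change p * ∑ ψ ∈ S, a ψ * b ψ + 1 ≤ 1 + ∑ ψ ∈ S, a ψ * charDegree (ψ : G → ℂ) at hob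
    set t := ∑ ψ ∈ S, a ψ * b ψ
    have : p * t = (p - 1) * t + t := by conv_lhs => rw [h7, add_mul, one_mul]
    omega
  have h8 : Nat.card (Sylow p G) = 1 := by
    rw [← hπd, hdeg]
    rw [h5, mul_zero] at h3
    change 1 * 1 + ∑ ψ ∈ S, a ψ * charDegree (ψ : G → ℂ) = 1
    omega
  have : Subsingleton (Sylow p G) := (Nat.card_eq_one_iff_unique.mp h8).1
  have hN : (P : Subgroup G).Normal := Sylow.normal_of_subsingleton P
  have hPD : PD p G := by
    intro χ hχ hd
    have := hb ⟨χ, hχ⟩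
    exact absurd (Nat.le_of_dvd (deg_pos hχ) hd) (by simpa using this)
  have hPn := hPD.normal (P : Subgroup G)
  refine ⟨P, hN, fun x hx y hy => ?_, P.isPGroup', P.not_dvd_index⟩
  exact congrArg Subtype.val (hPn.comm_of_isPGroup P.isPGroup' ⟨x, hx⟩ ⟨y, hy⟩)

end Cfsg.Agent.S4464
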