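import Cfsg.Statements.S4463
import Cfsg.Agent.Lib.ChDeg.Broline
import Cfsg.Agent.Lib.Char.Burnside
import Cfsg.Agent.S4464

set_option autoImplicit false
open Cfsg

namespace Cfsg.Agent.S4463

open CfsgLib CfsgLib.Char CfsgLib.CharDeep CfsgLib.ChDeg Subgroup
open scoped commutatorElement

universe u

theorem exists_small_class {G : Type*} [Group G] [Finite G] [Nontrivial G] {b : ℕ}
    (hb : ∀ χ, IsIrrCharacter G χ → charDegree χ ≤ b) :
    ∃ x : G, x ≠ 1 ∧ (centralizer {x}).index ≤ b ^ 2 := by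
  classical
  have := Fintype.ofFinite G
  by_contra hc
  push Not at hc
  set k := Fintype.card (IrrCharacter G) with hk
  have h1 : ∑ x : G, Nat.card (centralizer ({x} : Set G)) = k * Nat.card G := by
    have : ∑ x : G, (Nat.card (centralizer ({x} : Set G)) : ℝ) = k * Nat.card G := by
      simp only [← sum_normSq_irr]
      rw [Finset.sum_comm, Finset.sum_congr rfl fun χ _ => sum_norm_sq_irr χ.2]
      simp [hk]
    exact_mod_cast this
  rw [← Finset.add_sum_erase _ _ (Finset.mem_univ 1)] at h1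
  have h2 : centralizer ({1} : Set G) = ⊤ := by
    rw [eq_top_iff']; intro x; rw [mem_centralizer_singleton_iff]; simp
  rw [h2, card_top] at h1
  have h3 : ∑ x ∈ Finset.univ.erase (1 : G), Nat.card (centralizer ({x} : Set G)) * b ^ 2 <
      ∑ _x ∈ Finset.univ.erase (1 : G), Nat.card G := by
    refine Finset.sum_lt_sum_of_nonempty ?_ fun x hx => ?_
    · obtain ⟨x, hx⟩ := exists_ne (1 : G)
      exact ⟨x, by simpa using hx⟩
    · rw [← (centralizer ({x} : Set G)).card_mul_index]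
      exact Nat.mul_lt_mul_of_pos_left (hc x (Finset.ne_of_mem_erase hx)) Nat.card_pos
  rw [← Finset.sum_mul, Finset.sum_const, Finset.card_erase_of_mem (Finset.mem_univ _),
    Finset.card_univ, ← Nat.card_eq_fintype_card, smul_eq_mul] at h3
  have h4 := sum_deg_sq (G := G)
  rw [← Finset.add_sum_erase _ _ (Finset.mem_univ (irrOne G)), irrOne_coe, deg_one] at h4
  have h5 : ∑ χ ∈ Finset.univ.erase (irrOne G), charDegree (χ : G → ℂ) ^ 2 ≤
      ∑ _χ ∈ Finset.univ.erase (irrOne G), b ^ 2 :=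
    Finset.sum_le_sum fun χ _ => Nat.pow_le_pow_left (hb _ χ.2) 2
  rw [Finset.sum_const, Finset.card_erase_of_mem (Finset.mem_univ _), Finset.card_univ, ← hk,
    smul_eq_mul] at h5
  have hk0 : 0 < k := Fintype.card_pos_iff.2 ⟨irrOne G⟩
  clear_value k
  obtain ⟨k, rfl⟩ : ∃ j, k = j + 1 := ⟨k - 1, by omega⟩
  have hn : 0 < Nat.card G := Nat.card_pos
  set S := ∑ x ∈ Finset.univ.erase (1 : G), Nat.card (centralizer ({x} : Set G))
  have h6 : S = k * Nat.card G := by nlinarith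
  rw [h6] at h3
  have h7 : Nat.card G - 1 ≤ k * b ^ 2 := by simp at h5; omega
  have := Nat.mul_le_mul_right (Nat.card G) h7
  nlinarith

theorem deg_le_sub {G : Type*} [Group G] [Finite G] {b : ℕ}
    (hb : ∀ χ, IsIrrCharacter G χ → charDegree χ ≤ b) (H : Subgroup G) (θ : H → ℂ)
    (hθ : IsIrrCharacter H θ) : charDegree θ ≤ b := by
  have := Fintype.ofFinite H
  obtain ⟨χ, hχ, hi⟩ := exists_irr_over H hθ
  exact (deg_le_of_over H (isCharacter_of_isIrr hχ) hθ hi).trans (hb χ hχ)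

theorem deg_le_half {G : Type*} [Group G] [Finite G] {b : ℕ}
    (hb : ∀ χ, IsIrrCharacter G χ → charDegree χ ≤ b) (K : Subgroup G) [K.Normal]
    (hK : ¬ _root_.commutator G ≤ K) (θ : K → ℂ) (hθ : IsIrrCharacter K θ) :
    charDegree θ ≤ b / 2 := by
  have := Fintype.ofFinite G
  have := Fintype.ofFinite K
  obtain ⟨χ, hχ, hi⟩ := exists_irr_over K hθ
  obtain ⟨e, -, he⟩ := exists_deg_eq_mul K hχ hθ hi
  have h0 := deg_pos hχ
  rw [Nat.le_div_iff_mul_le two_pos]
  by_cases h1 : e = 1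
  · have hχc := isCharacter_of_isIrr hχ
    have h2 := res_eq_of_deg_eq K hχc hθ hi (by rw [he, h1, one_mul])
    obtain ⟨β, hβ, hβ1⟩ := exists_irr_deg_ne_one (G := G ⧸ K)
      (fun e => hK ((commutator_quotient_eq_bot_iff K).1 e))
    have hβ' := isIrr_infl K hβ
    have h3 := gallagher_isIrr K hχc (h2 ▸ hθ) hβ' fun n hn =>
      (mem_cker (isCharacter_of_isIrr hβ')).1 (le_cker_infl K (isCharacter_of_isIrr hβ) hn)
    have h4 := hb _ h3
    rw [deg_mul (isCharacter_of_isIrr hβ') hχc, deg_infl, he, h1, one_mul] at h4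
    have := deg_pos hβ
    have : 2 ≤ charDegree β := by omega
    nlinarith
  · have := hb χ hχ
    have : e ≠ 0 := by rintro rfl; omega
    have : 2 ≤ e := by omega
    nlinarith

theorem caseA_lt {G : Type*} [Group G] [Finite G] {b : ℕ}
    (hb : ∀ χ, IsIrrCharacter G χ → charDegree χ ≤ b)
    {K Z : Subgroup G} [K.Normal] {q : ℕ} {χ : G → ℂ} (h : CaseA G K q Z χ) (θ : Z → ℂ)
    (hθ : IsIrrCharacter Z θ) : charDegree θ < b := by
  obtain ⟨-, -, hZ, -, -, -, hχ, hχ1, -, h0, hn, hd⟩ := h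
  have := Fintype.ofFinite G
  have := Fintype.ofFinite Z
  have hχc := isCharacter_of_isIrr hχ
  by_contra hθ1
  have key : ∀ θ : Z → ℂ, IsIrrCharacter Z θ → b ≤ charDegree θ →
      ∃ ξ, IsIrrCharacter G ξ ∧ (fun z : Z => ξ z) = θ := by
    intro θ hθ h1
    obtain ⟨ξ, hξ, hi⟩ := exists_irr_over Z hθ
    exact ⟨ξ, hξ, res_eq_of_deg_eq Z (isCharacter_of_isIrr hξ) hθ hi ((hb ξ hξ).trans h1)⟩
  let μ : Z →* ℂ :=
    { toFun := fun z => χ z / χ 1
      map_one' := by simpa using irr_one_ne_zero hχ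
      map_mul' := fun a b => by
        rw [coe_mul, char_mul_of_norm_eq hχc (hn a a.2)]; ring }
  have hμ := isCharacter_of_isIrr (isIrr_monoidHom μ)
  have h1 := isIrr_mul_of_one_eq_one hθ hμ (map_one μ)
  obtain ⟨ξ, hξ, e1⟩ := key θ hθ (by omega)
  obtain ⟨ξ', hξ', e2⟩ := key _ h1 (by
    rw [deg_mul (isCharacter_of_isIrr hθ) hμ, (deg_eq_one_iff hμ).2 (map_one μ), mul_one]; omega)
  obtain ⟨k, hk⟩ := exists_classInner_eq_nat (isCharacter_mul hχc (isCharacter_of_isIrr hξ))
    (isCharacter_of_isIrr hξ')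
  have h2 := classInner_res_of_vanish Z (f := χ * ξ) (fun g hg => by simp [h0 g hg]) ξ'
  have h3 : (fun z : Z => (χ * ξ) z) = χ 1 • (θ * μ) := by
    ext z
    rw [← e1]
    simp only [Pi.mul_apply, Pi.smul_apply, smul_eq_mul, μ, MonoidHom.coe_mk, OneHom.coe_mk]
    field_simp [irr_one_ne_zero hχ]
  rw [h3, e2, classInner_smul_left, classInner_irr_self h1, hk, ← hd, ← deg_cast hχc,
    mul_one] at h2
  have h4 : charDegree χ = charDegree χ ^ 2 * k := by exact_mod_cast h2
  have h5 : charDegree χ * charDegree χ ∣ charDegree χ * 1 := ⟨k, by rw [mul_one, ← sq, ← h4]⟩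
  exact hχ1 (Nat.dvd_one.1 (Nat.dvd_of_mul_dvd_mul_left (deg_pos hχ) h5))

theorem five_le {G : Type*} [Group G] [Finite G] {b : ℕ}
    (hb : ∀ χ, IsIrrCharacter G χ → charDegree χ ≤ b) (h : JNA G) (hs : ¬ Group.IsSolvable G) :
    5 ≤ b := by
  by_contra hlt
  apply hs
  refine isSolvable_of_card_dvd_pow_mul_pow (a := Nat.card G) (b := Nat.card G)
    Nat.prime_two Nat.prime_three ?_
  rw [← mul_pow]
  refine (Nat.dvd_pow_self_iff Nat.card_pos.ne' (by norm_num)).2 fun q hq => ?_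
  have hqp := Nat.prime_of_mem_primeFactors hq
  have hqd := Nat.dvd_of_mem_primeFactors hq
  by_cases h5 : 5 ≤ q
  · exfalso
    obtain ⟨P, hP, hc, -, hi⟩ := Cfsg.Agent.S4464.result (G := G) q hqp
      (fun χ => by have := hb χ χ.2; omega)
    apply hs
    have hP0 : P ≠ ⊥ := by
      rintro rfl
      rw [index_bot] at hi
      exact hi hqd
    have e := h.le P hP hP0
    refine ⟨⟨2, ?_⟩⟩
    rw [derivedSeries_succ, derivedSeries_one, commutator_eq_bot_iff_le_centralizer]
    exact fun x hx y hy => hc y (e hy) x (e hx)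
  · have := hqp.two_le
    have h4 : q ≠ 4 := by rintro rfl; exact absurd hqp (by norm_num)
    refine Nat.mem_primeFactors.2 ⟨hqp, ?_, by norm_num⟩
    have : q = 2 ∨ q = 3 := by omega
    rcases this with rfl | rfl <;> norm_num

theorem fact1 {b : ℕ} (h : 3 ≤ b) : b ^ 3 * (b / 2).factorial ^ 2 ≤ b.factorial ^ 2 := by
  obtain ⟨c, rfl⟩ : ∃ c, b = c + 2 := ⟨b - 2, by omega⟩
  have h1 : ((c + 2) / 2).factorial ≤ c.factorial := Nat.factorial_le (by omega)
  rw [Nat.factorial_succ, Nat.factorial_succ]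
  have h2 : c + 2 ≤ (c + 1) ^ 2 := by nlinarith
  calc _ = (c + 2) ^ 2 * ((c + 2) * ((c + 2) / 2).factorial ^ 2) := by ring
    _ ≤ (c + 2) ^ 2 * ((c + 1) ^ 2 * c.factorial ^ 2) :=
      Nat.mul_le_mul_left _ (Nat.mul_le_mul h2 (Nat.pow_le_pow_left h1 2))
    _ = _ := by ring

theorem fact2 {b : ℕ} (h : 5 ≤ b) : b ^ 4 * (b / 2).factorial ^ 2 ≤ b.factorial ^ 2 := by
  obtain ⟨c, rfl⟩ : ∃ c, b = c + 3 := ⟨b - 3, by omega⟩
  have h1 : ((c + 3) / 2).factorial ≤ c.factorial := Nat.factorial_le (by omega)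
  rw [Nat.factorial_succ, Nat.factorial_succ, Nat.factorial_succ]
  have h2 : c + 3 ≤ (c + 2) * (c + 1) := by nlinarith
  calc _ = ((c + 3) * ((c + 3) * ((c + 3) / 2).factorial)) ^ 2 := by ring
    _ ≤ ((c + 3) * ((c + 2) * (c + 1) * c.factorial)) ^ 2 :=
      Nat.pow_le_pow_left (Nat.mul_le_mul_left _ (Nat.mul_le_mul h2 h1)) 2
    _ = _ := by ring

theorem main (b : ℕ) : ∀ (G : Type u) [Group G] [Finite G],
    (∀ χ, IsIrrCharacter G χ → charDegree χ ≤ b) →
    ∃ A : Subgroup G, (∀ x ∈ A, ∀ y ∈ A, x * y = y * x) ∧ A.index ≤ b.factorial ^ 2 := by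
  induction b using Nat.strong_induction_on with
  | _ b ih =>
  intro G _ _ hb
  have := Fintype.ofFinite G
  have red : ∀ (H : Subgroup G) (c : ℕ), c < b → (∀ θ, IsIrrCharacter H θ → charDegree θ ≤ c) →
      H.index * c.factorial ^ 2 ≤ b.factorial ^ 2 →
      ∃ A : Subgroup G, (∀ x ∈ A, ∀ y ∈ A, x * y = y * x) ∧ A.index ≤ b.factorial ^ 2 := by
    intro H c hc hH hi
    obtain ⟨A, hA, hAi⟩ := ih c hc H hH
    refine ⟨A.map H.subtype, ?_, ?_⟩
    · rintro _ ⟨x, hx, rfl⟩ _ ⟨y, hy, rfl⟩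
      exact congrArg Subtype.val (hA x hx y hy)
    · rw [index_map_subtype, mul_comm]
      exact (Nat.mul_le_mul_left _ hAi).trans hi
  have red1 : ∀ H : Subgroup G, (∀ θ, IsIrrCharacter H θ → charDegree θ < b) → H.index ≤ b ^ 2 →
      ∃ A : Subgroup G, (∀ x ∈ A, ∀ y ∈ A, x * y = y * x) ∧ A.index ≤ b.factorial ^ 2 := by
    intro H hH hi
    have h1 := hH _ isIrr_one
    refine red H (b - 1) (by omega) (fun θ hθ => by have := hH θ hθ; omega) ?_
    rw [← Nat.mul_factorial_pred (n := b) (by omega), mul_pow]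
    exact Nat.mul_le_mul_right _ hi
  by_cases hc : _root_.commutator G ≤ ⊥
  · refine ⟨⊤, fun x _ y _ => commutatorElement_eq_one_iff_mul_comm.1
      (mem_bot.1 (hc (commutator_mem_commutator (mem_top _) (mem_top _)))), ?_⟩
    rw [index_top]
    exact pow_pos (Nat.factorial_pos b) 2
  obtain ⟨K, hK, -, hJ⟩ := exists_jna_quotient (G := G) ⊥ hc
  have hK' : ¬ _root_.commutator G ≤ K := fun e => hJ.ne ((commutator_quotient_eq_bot_iff K).2 e)
  have hb0 : 0 < b := (deg_pos isIrr_one).trans_le (hb _ isIrr_one)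
  by_cases hs : Group.IsSolvable (G ⧸ K)
  · rcases hJ.cases_quotient K with ⟨p, Z, χ, h⟩ | ⟨p, N, h⟩
    · refine red1 Z (caseA_lt hb h) ?_
      obtain ⟨-, -, -, -, -, -, hχ, -, -, -, -, hd⟩ := h
      exact hd ▸ Nat.pow_le_pow_left (hb χ hχ) 2
    · obtain ⟨hp, hN, hKN, -, -, hnd, h1, hpd, -, -, ⟨χ, hχ, -, hχd⟩, H⟩ := h
      have hNb : N.index ≤ b := hχd ▸ hb χ hχ
      by_cases h2 : ∀ θ, IsIrrCharacter N θ → charDegree θ < b
      · exact red1 N h2 (hNb.trans (Nat.le_self_pow two_ne_zero b))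
      push Not at h2
      obtain ⟨θ, hθ, h2⟩ := h2
      have h3 := le_antisymm (deg_le_sub hb N θ hθ) h2
      have hN0 : N.index ≠ 0 := N.index_ne_zero_of_finite
      have hN2 : 2 ≤ N.index := by omega
      rcases H θ hθ with ⟨ξ, hξ, e⟩ | ⟨-, e⟩
      · have := hb ξ hξ
        rw [e, h3] at this
        nlinarith
      rw [h3] at e
      have hb3 : 3 ≤ b := by
        by_contra hlt
        have e2 : b = 2 := by omega
        have e3 : N.index = 2 := by omega
        rw [e2] at e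
        exact hnd (e3 ▸ hp.dvd_of_dvd_pow (hpd.trans e))
      refine red K (b / 2) (by omega) (deg_le_half hb K hK') (le_trans ?_ (fact1 hb3))
      refine Nat.mul_le_mul_right _ ?_
      rw [← relIndex_mul_index hKN, pow_succ]
      exact Nat.mul_le_mul (Nat.le_of_dvd (by positivity) e) hNb
  · have hbq : ∀ χ, IsIrrCharacter (G ⧸ K) χ → charDegree χ ≤ b := fun χ hχ => by
      have := hb _ (isIrr_infl K hχ); rwa [deg_infl] at this
    have hb5 := five_le hbq hJ hs
    have := hJ.nontrivial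
    obtain ⟨x, hx1, hx⟩ := exists_small_class hbq
    set H := (centralizer {x}).comap (QuotientGroup.mk' K) with hH
    have hHi : H.index ≤ b ^ 2 := by rwa [hH, SolvStruct.index_comap_mk']
    have hKH : K ≤ H := SolvStruct.le_comap_mk' K _
    by_cases h2 : ∀ θ, IsIrrCharacter H θ → charDegree θ < b
    · exact red1 H h2 hHi
    push Not at h2
    obtain ⟨θ, hθ, h2⟩ := h2
    have h3 := le_antisymm (deg_le_sub hb H θ hθ) h2
    have := Fintype.ofFinite H
    have h4 := mem_normalCore_of_forall_ext H hθ fun ξ hξ hi => by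
      rw [classInner_indFun_left H _ (isClassFunction_of_isIrr hξ)] at hi
      refine eq_of_inner_ne_zero_of_deg_le (isCharacter_restrict H (isCharacter_of_isIrr hξ)) hθ
        (fun e => hi (classInner_eq_zero_symm e)) ?_
      rw [deg_res]; exact (hb ξ hξ).trans h2
    have h5 : H.normalCore ≤ K := by
      rw [← SolvStruct.map_mk'_eq_bot_iff]
      by_contra h0
      have e1 := hJ.le _ (Normal.map inferInstance _ (QuotientGroup.mk'_surjective K)) h0
      have e2 : _root_.commutator (G ⧸ K) ≤ centralizer {x} :=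
        e1.trans (map_le_iff_le_comap.2 H.normalCore_le)
      have e3 := hJ.le (centralizer (_root_.commutator (G ⧸ K) : Set (G ⧸ K))) inferInstance
        (fun e => hx1 (by
          rw [← mem_bot, ← e]
          exact fun y hy => mem_centralizer_singleton_iff.1 (e2 hy)))
      exact hs ⟨⟨2, by
        rwa [derivedSeries_succ, derivedSeries_one, commutator_eq_bot_iff_le_centralizer]⟩⟩
    have h6 := index_dvd_deg_sq_of_vanish (K.subgroupOf H) hθ fun y hy => by
      by_contra h0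
      exact hy (h5 (h4 y h0))
    refine red K (b / 2) (by omega) (deg_le_half hb K hK') (le_trans ?_ (fact2 hb5))
    refine Nat.mul_le_mul_right _ ?_
    rw [← relIndex_mul_index hKH, show b ^ 4 = b ^ 2 * b ^ 2 by ring]
    exact Nat.mul_le_mul (Nat.le_of_dvd (by positivity) (h3 ▸ h6)) hHi

/-- Let b be the largest irreducible character degree of the finite group G. Then G has an abelian subgroup of index at most (b!)². -/
theorem result {G : Type*} [Group G] [Finite G] (b : ℕ) (hb : IsGreatest {d : ℕ | ∃ χ : Cfsg.IrrCharacter G, Cfsg.charDegree (χ : G → ℂ) = d} b) : ∃ A : Subgroup G, (∀ x ∈ A, ∀ y ∈ A, x * y = y * x) ∧ A.index ≤ (Nat.factorial b) ^ 2 := by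
  exact main b G fun χ hχ => hb.2 ⟨⟨χ, hχ⟩, rfl⟩

end Cfsg.Agent.S4463
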