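import Cfsg.Statements.S4469
import Cfsg.Agent.Lib.ChDeg.MonoIdx
import Cfsg.Agent.Lib.ChDeg.FrobArc

set_option autoImplicit false
open Cfsg

namespace Cfsg.Agent.S4469

/-- The classical bound for finite linear groups, in explicit form. Let the finite group G have a faithful character of degree n. Then G has an abelian normal subgroup whose index is at most n! · 12^(n·(π(n+1)+1)), π(k) denoting the number of primes not exceeding k. -/
theorem result {G : Type*} [Group G] [Finite G] (χ : G → ℂ) (hχ : Cfsg.IsCharacter G χ) (hfaith : ∀ g : G, χ g = χ 1 → g = 1) (n : ℕ) (hn : Cfsg.charDegree χ = n) : ∃ A : Subgroup G, A.Normal ∧ (∀ x ∈ A, ∀ y ∈ A, x * y = y * x) ∧ A.index ≤ Nat.factorial n * 12 ^ (n * (Nat.primeCounting (n + 1) + 1)) := by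
  open CfsgLib.Char CfsgLib.ChDeg Subgroup in
  obtain ⟨A, hA, hAc, hb⟩ := exists_normal_abelian_index_le_twelve_pow hχ hfaith
  rw [hn] at hb
  have hG : HasFaithful G n := ⟨χ, hχ, (cker_eq_bot_iff hχ).mpr hfaith, hn.le⟩
  obtain ⟨H, hHc, hH⟩ := hG.exists_abelian_hall
  refine ⟨A, hA, hAc, ?_⟩
  have hsplit : ∀ K : Subgroup G, A.index = A.relIndex K * (K ⊔ A).index := fun K => by
    rw [← relIndex_sup_right, relIndex_mul_index le_sup_right]
  set r := (H ⊔ A).index with hr
  have hr0 : r ≠ 0 := index_ne_zero_of_finite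
  have h1 : ∀ p ∈ r.primeFactors, p ^ r.factorization p ≤ p ^ n.factorial.factorization p * 12 ^ n := by
    intro p hp
    have hp' := Nat.prime_of_mem_primeFactors hp
    have : Fact p.Prime := ⟨hp'⟩
    obtain ⟨P⟩ : Nonempty (Sylow p G) := inferInstance
    have := P.isPGroup'.isNilpotent
    obtain ⟨K, -, hKi, hKc⟩ := (hG.subgroup (P : Subgroup G)).exists_abelian_of_isNilpotent
    have e1 : p ^ r.factorization p ∣ A.relIndex P := by
      refine Nat.Coprime.dvd_of_dvd_mul_right (k := p ^ r.factorization p)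
        (n := ((P : Subgroup G) ⊔ A).index) ?_ ?_
      · exact Nat.Coprime.pow_left _ (hp'.coprime_iff_not_dvd.mpr fun e =>
          P.not_dvd_index (e.trans (index_dvd_of_le le_sup_left)))
      · rw [← hsplit, hsplit H]
        exact Dvd.dvd.mul_left (Nat.ordProj_dvd r p) _
    have e2 : A.relIndex P ≤ A.relIndex (K.map (P : Subgroup G).subtype) * K.index := by
      rw [← CfsgLib.SolvStruct.relIndex_map_subtype K]
      have := relIndex_inf_mul_relIndex A (K.map (P : Subgroup G).subtype) P
      rw [inf_eq_left.mpr (map_subtype_le K)] at this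
      rw [this]
      exact relIndex_le_of_le_left inf_le_left index_ne_zero_of_finite
    have e3 : A.relIndex (K.map (P : Subgroup G).subtype) ≤ 12 ^ n := hb _ (by
      rintro _ ⟨a, ha, rfl⟩ _ ⟨b, hb, rfl⟩
      exact congrArg Subtype.val (hKc a ha b hb))
    have e4 : K.index ≤ p ^ n.factorial.factorization p := by
      obtain ⟨j, hj⟩ := P.isPGroup'.index K
      rw [hj] at hKi ⊢
      exact Nat.pow_le_pow_right hp'.pos
        ((hp'.pow_dvd_iff_le_factorization n.factorial_ne_zero).mp hKi)
    calc _ ≤ A.relIndex P := Nat.le_of_dvd (Nat.pos_of_ne_zero index_ne_zero_of_finite) e1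
      _ ≤ _ := e2
      _ ≤ 12 ^ n * p ^ n.factorial.factorization p := Nat.mul_le_mul e3 e4
      _ = _ := mul_comm _ _
  have h2 : r.primeFactors.card ≤ Nat.primeCounting (n + 1) := by
    rw [← Nat.primesLE_card_eq_primeCounting]
    refine Finset.card_le_card fun p hp => Nat.mem_primesLE.mpr ⟨?_, Nat.prime_of_mem_primeFactors hp⟩
    by_contra e
    exact hH.2 p (Nat.prime_of_mem_primeFactors hp) (not_le.mp e)
      ((Nat.dvd_of_mem_primeFactors hp).trans (index_dvd_of_le le_sup_left))
  have h3 : ∏ p ∈ r.primeFactors, p ^ n.factorial.factorization p ≤ n.factorial := by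
    refine Nat.le_of_dvd n.factorial_pos (Finset.prod_dvd_of_isRelPrime ?_
      fun p _ => Nat.ordProj_dvd _ p)
    intro p hp q hq hpq
    exact Nat.coprime_iff_isRelPrime.mp (Nat.Coprime.pow _ _ ((Nat.coprime_primes
      (Nat.prime_of_mem_primeFactors hp) (Nat.prime_of_mem_primeFactors hq)).mpr hpq))
  have h4 : r ≤ n.factorial * (12 ^ n) ^ Nat.primeCounting (n + 1) := by
    calc r = ∏ p ∈ r.primeFactors, p ^ r.factorization p :=
          (Nat.prod_factorization_pow_eq_self hr0).symm
      _ ≤ ∏ p ∈ r.primeFactors, (p ^ n.factorial.factorization p * 12 ^ n) :=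
          Finset.prod_le_prod' h1
      _ = (∏ p ∈ r.primeFactors, p ^ n.factorial.factorization p) *
            (12 ^ n) ^ r.primeFactors.card := by rw [Finset.prod_mul_distrib, Finset.prod_const]
      _ ≤ _ := Nat.mul_le_mul h3 (Nat.pow_le_pow_right (by positivity) h2)
  rw [hsplit H]
  calc _ ≤ 12 ^ n * (n.factorial * (12 ^ n) ^ Nat.primeCounting (n + 1)) :=
        Nat.mul_le_mul (hb H hHc) h4
    _ = _ := by rw [pow_mul, pow_succ]; ring

end Cfsg.Agent.S4469
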