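import Cfsg.Statements.S4484
import Cfsg.Agent.Lib.ChA.Eigen
import Cfsg.Agent.Lib.ChDeg.Deg
import Cfsg.Agent.Lib.Block.Second
import Cfsg.Agent.Lib.Block.Principal
import Cfsg.Agent.Lib.Core.MinNormal

set_option autoImplicit false
open Cfsg

namespace Cfsg.Agent.S4484


open CfsgLib CfsgLib.Char CfsgLib.ChDeg CfsgLib.ChA CfsgLib.Block Subgroup Module
open scoped ComplexConjugate

theorem near {p : ℕ} (hp : 0 < p) {s : ℤ} (h : 6 * |s| < p) :
    ‖Complex.exp (2 * Real.pi * Complex.I / p) ^ s - 1‖ < 1 := by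
  have hp' : (0 : ℝ) < p := by exact_mod_cast hp
  have h1 : Complex.exp (2 * Real.pi * Complex.I / p) ^ s =
      Complex.exp ((2 * Real.pi * s / p : ℝ) * Complex.I) := by
    rw [← Complex.exp_int_mul]; congr 1; push_cast; ring
  have h2 : |2 * Real.pi * s / p| < Real.pi / 3 := by
    have h3 : (6 : ℝ) * |(s : ℝ)| < p := by exact_mod_cast h
    rw [abs_div, abs_mul, abs_of_pos hp', abs_of_pos (by positivity : 0 < 2 * Real.pi),
      div_lt_iff₀ hp']
    nlinarith [Real.pi_pos]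
  set θ := 2 * Real.pi * s / p
  have hcos : 1 / 2 < Real.cos θ := by
    rw [← Real.cos_pi_div_three, ← Real.cos_abs θ]
    exact Real.cos_lt_cos_of_nonneg_of_le_pi (abs_nonneg _) (by linarith [Real.pi_pos]) h2
  have hsq : ‖Complex.exp (θ * Complex.I) - 1‖ ^ 2 < 1 ^ 2 := by
    rw [Complex.sq_norm, Complex.normSq_apply]
    simp only [Complex.sub_re, Complex.exp_ofReal_mul_I_re, Complex.one_re, Complex.sub_im,
      Complex.exp_ofReal_mul_I_im, Complex.one_im, sub_zero]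
    nlinarith [Real.sin_sq_add_cos_sq θ]
  rw [h1]
  exact lt_of_pow_lt_pow_left₀ 2 (by norm_num) hsq

theorem pigeon {p : ℕ} (hp : 0 < p) (I : Finset ℕ) (a : ℕ → ℤ) (h : 6 ^ I.card < p) :
    ∃ t : ℕ, 0 < t ∧ t < p ∧ ∀ i ∈ I, ∃ s : ℤ, 6 * |s| < p ∧ (p : ℤ) ∣ t * a i - s := by
  classical
  have hp' : (0 : ℤ) < p := by exact_mod_cast hp
  let f : Fin p → I → Fin 6 := fun j i => ⟨(6 * (((j : ℕ) * a i) % p) / p).toNat, by
    have h1 := Int.emod_lt_of_pos (((j : ℕ) : ℤ) * a i) hp'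
    have h2 : 6 * (((j : ℕ) * a i) % p) / p < 6 := Int.ediv_lt_of_lt_mul hp' (by linarith)
    omega⟩
  obtain ⟨j, j', hne, e⟩ := Fintype.exists_ne_map_eq_of_card_lt f (by simpa using h)
  wlog hlt : j' < j generalizing j j'
  · exact this j' j hne.symm e.symm (lt_of_le_of_ne (not_lt.1 hlt) hne)
  refine ⟨j - j', by omega, by omega, fun i hi => ⟨((j : ℕ) * a i) % p - ((j' : ℕ) * a i) % p, ?_, ?_⟩⟩
  · have h1 := congrArg Fin.val (congrFun e ⟨i, hi⟩)
    simp only [f] at h1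
    have h2 := Int.emod_nonneg (((j : ℕ) : ℤ) * a i) hp'.ne'
    have h3 := Int.emod_nonneg (((j' : ℕ) : ℤ) * a i) hp'.ne'
    set u := (((j : ℕ) : ℤ) * a i) % p
    set v := (((j' : ℕ) : ℤ) * a i) % p
    have h4 : 0 ≤ 6 * u / p := Int.ediv_nonneg (by linarith) hp'.le
    have h5 : 0 ≤ 6 * v / p := Int.ediv_nonneg (by linarith) hp'.le
    have h6 : 6 * u / p = 6 * v / p := by omega
    have h7 := Int.emod_add_mul_ediv (6 * u) p
    have h8 := Int.emod_add_mul_ediv (6 * v) p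
    have h9 := Int.emod_lt_of_pos (6 * u) hp'
    have h10 := Int.emod_lt_of_pos (6 * v) hp'
    have h11 := Int.emod_nonneg (6 * u) hp'.ne'
    have h12 := Int.emod_nonneg (6 * v) hp'.ne'
    rw [h6] at h7
    rcases abs_cases (u - v) with h | h <;> linarith [h.1]
  · rw [Nat.cast_sub (Fin.le_def.1 hlt.le), Int.emod_def, Int.emod_def]
    exact ⟨(j : ℕ) * a i / p - (j' : ℕ) * a i / p, by ring⟩

theorem exists_char {G : Type*} [Group G] [Finite G] {p q : ℕ} {M : Ideal AlgInt}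
    (hM : IsPModular p M) (hq : q.Prime) {x : G} (hx : p ∣ orderOf x) :
    ∃ χ ∈ principalBlock M G, χ ≠ irrOne G ∧ ¬ q ∣ charDegree (χ : G → ℂ) := by
  classical
  by_contra! H
  obtain ⟨N, hN⟩ := exists_pModular hq
  have h1 := weak_block_orth hM (isPBlock_principalBlock (G := G)) (x := 1)
    (by rw [orderOf_one, Nat.dvd_one]; exact hM.1.ne_one) hx
  set S := Finset.univ.filter (· ∈ principalBlock M G)
  rw [finsum_mem_eq_sum_of_inter_support_eq _ (t := S) (by simp [S]), ← Finset.add_sum_erase _ _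
    (show irrOne G ∈ S by simpa [S] using irrOne_mem_principalBlock hM)] at h1
  simp only [irrOne_apply, map_one, mul_one] at h1
  refine not_li_one hN ?_
  rw [eq_neg_of_add_eq_zero_left h1]
  refine li_neg (li_sum hN fun χ hχ => li_mul_right hN ?_ ?_)
  · rw [← irr_deg_cast, li_natCast_iff hN]
    rw [Finset.mem_erase] at hχ
    exact H χ (by simpa [S] using hχ.2) hχ.1
  · rw [← char_inv (irr_isCharacter χ)]; exact lr_irr hN χ _

/-- A refinement of Burnside's result on simple groups of order divisible by only two primes. Let G be a finite simple group of order p^a · q^b · g₀ with p, q distinct primes, a > 0, g₀ coprime to p and q, and the order of G different from p. Then g₀ − 1 > log p / log 6, that is 6^(g₀ − 1) > p. -/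
theorem result {G : Type*} [Group G] [Finite G] [IsSimpleGroup G] (p q a b g₀ : ℕ) (hp : p.Prime) (hq : q.Prime) (hpq : p ≠ q) (ha : 0 < a) (hg : Nat.card G = p ^ a * q ^ b * g₀) (hcop : ¬ p ∣ g₀) (hcoq : ¬ q ∣ g₀) (hne : Nat.card G ≠ p) : p < 6 ^ (g₀ - 1) := by
  classical
  have := Fact.mk hp
  by_contra! hle
  have hpG : p ∣ Nat.card G := hg ▸ ((dvd_pow_self p ha.ne').mul_right _).mul_right _
  have hZ : center G = ⊥ := by
    refine (inferInstance : (center G).Normal).eq_bot_or_eq_top.resolve_right fun e => hne ?_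
    have : Group.IsSolvable G := Group.isSolvable_of_comm fun a b =>
      mem_center_iff.1 (e ▸ mem_top b : b ∈ center G) a
    exact ((Nat.prime_dvd_prime_iff_eq hp Core.card_prime_of_isSimpleGroup_of_isSolvable).1 hpG).symm
  obtain ⟨P⟩ : Nonempty (Sylow p G) := inferInstance
  have : Nontrivial (P : Subgroup G) := (nontrivial_iff_ne_bot _).2 (P.ne_bot_of_dvd_card hpG)
  have := P.isPGroup'.center_nontrivial
  obtain ⟨x₀, hx₀⟩ := exists_prime_orderOf_dvd_card' (G := center (P : Subgroup G)) p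
    ((P.isPGroup'.to_subgroup _).card_eq_or_dvd.resolve_left Finite.one_lt_card.ne')
  set x : G := ((x₀ : (P : Subgroup G)) : G) with hxd
  have hx : orderOf x = p := by rw [hxd, orderOf_coe, orderOf_coe, hx₀]
  have hxp : x ^ p = 1 := hx ▸ pow_orderOf_eq_one x
  have hidx : ∀ j : ℕ, ¬ p ∣ (centralizer ({x ^ j} : Set G)).index := fun j hd =>
    P.not_dvd_index (hd.trans (index_dvd_of_le fun u hu => mem_centralizer_singleton_iff.2
      (Commute.pow_right (congrArg Subtype.val (mem_center_iff.1 x₀.2 ⟨u, hu⟩)) j)))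
  obtain ⟨M, hM⟩ := exists_pModular hp
  obtain ⟨⟨χ, hχ⟩, hB, hχ1, hqχ⟩ := exists_char (G := G) hM hq hx.symm.dvd
  have hf := charKer_eq_bot_of_simple hχ fun e => hχ1 (Subtype.ext e)
  obtain ⟨n₀, ρ, rfl, hρ⟩ := exists_isometric_rep (isCharacter_of_isIrr hχ)
  have hirr := isIrreducible_of_isIrr_character ρ hχ
  have hinj : ∀ g, ρ g = 1 → g = 1 := fun g h => by
    rw [charKer_rep] at hf; rwa [← MonoidHom.mem_ker, hf, mem_bot] at h
  set n := charDegree ρ.character
  have hn : (n : ℂ) = ρ.character 1 := deg_cast (isCharacter_of_isIrr hχ)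
  have hn0 : n ≠ 0 := (deg_pos hχ).ne'
  have hn0' : (n : ℂ) ≠ 0 := by exact_mod_cast hn0
  set ζ := Complex.exp (2 * Real.pi * Complex.I / p)
  have hζ : IsPrimitiveRoot ζ p := Complex.isPrimitiveRoot_exp p hp.ne_zero
  have hζi : ∀ i, (ζ ^ i) ^ p = 1 := fun i => by rw [← pow_mul, mul_comm, pow_mul, hζ.1, one_pow]
  let d : ℕ → ℕ := fun i => finrank ℂ (End.eigenspace (ρ x) (ζ ^ i))
  have hd : ∀ i, ∑ j ∈ Finset.range p, (ζ ^ i)⁻¹ ^ j * ρ.character (x ^ j) = p * d i := fun i =>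
    sum_eq_finrank ρ hp.ne_zero hxp (hζi i)
  have hsum : ∑ i ∈ Finset.range p, d i = n := by
    have h1 : ∑ i ∈ Finset.range p, (p * d i : ℂ) = p * n := by
      simp only [← hd]
      rw [Finset.sum_comm, Finset.sum_eq_single 0]
      · simp [hn]
      · intro j hj hj0
        have h2 := (hζ.inv.pow_of_coprime j (Nat.coprime_of_lt_prime hj0
          (Finset.mem_range.1 hj) hp).symm).geom_sum_eq_zero hp.one_lt
        rw [← Finset.sum_mul, Finset.sum_congr rfl (g := fun i => (ζ⁻¹ ^ j) ^ i) fun i _ => by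
          rw [← inv_pow, ← pow_mul, ← pow_mul, mul_comm], h2, zero_mul]
      · intro h; exact absurd (Finset.mem_range.2 hp.pos) h
    rw [← Finset.mul_sum] at h1
    exact_mod_cast mul_left_cancel₀ (by exact_mod_cast hp.ne_zero) h1
  have hdiv : ∀ i, d i ≠ 0 → p ^ n.factorization p ≤ d i := by
    intro i hi
    have h1 : MemLocalIdeal M (((p * d i : ℕ) : ℂ) / n) := by
      have h2 : ((p * d i : ℕ) : ℂ) / n = ∑ j ∈ Finset.range p,
          ((ζ ^ i)⁻¹ ^ j * (ρ.character (x ^ j) / n - 1) + ((ζ ^ i)⁻¹ ^ j - 1)) + p := by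
        rw [Nat.cast_mul, ← hd, Finset.sum_div, show (p : ℂ) = ∑ _j ∈ Finset.range p, (1 : ℂ) by simp,
          ← Finset.sum_add_distrib]
        exact Finset.sum_congr rfl fun j _ => by ring
      have h3 : ∀ j, ((ζ ^ i)⁻¹ ^ j) ^ p = 1 := fun j => by
        rw [← pow_mul, mul_comm, pow_mul, inv_pow, hζi, inv_one, one_pow]
      rw [h2]
      refine li_add hM (li_sum hM fun j _ => li_add hM (li_mul_left hM
        (lr_of_isIntegral hM (isIntegral_of_pow_eq_one hp.ne_zero (h3 j))) ?_)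
        (li_sub_one_of_pow hM (k := 1) (by rw [pow_one, h3]))) (li_p hM)
      have h4 := li_mul_left hM (lr_inv_nat hM (hidx j)) (li_sub_comm (hB (x ^ j)))
      have h5 : ((centralizer ({x ^ j} : Set G)).index : ℂ) ≠ 0 := by
        exact_mod_cast index_ne_zero_of_finite
      convert h4 using 1
      simp only [centralChar, ← hn]
      field_simp
    rw [li_div_nat_iff hM (mul_ne_zero hp.ne_zero hi) hn0, Nat.factorization_mul hp.ne_zero hi,
      Finsupp.add_apply, hp.factorization_self] at h1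
    exact Nat.le_of_dvd (Nat.pos_of_ne_zero hi) ((hp.pow_dvd_iff_le_factorization hi).2 (by omega))
  set I := (Finset.range p).filter fun i => d i ≠ 0
  have hI : I.card ≤ g₀ := by
    have h1 : I.card * p ^ n.factorization p ≤ n := by
      rw [← smul_eq_mul]
      refine (Finset.card_nsmul_le_sum I d _ fun i hi => hdiv i (Finset.mem_filter.1 hi).2).trans ?_
      rw [← hsum]; exact Finset.sum_le_sum_of_subset (Finset.filter_subset _ _)
    have h2 : n / p ^ n.factorization p ∣ g₀ := by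
      have h3 : n / p ^ n.factorization p ∣ p ^ a * q ^ b * g₀ :=
        hg ▸ (Nat.ordCompl_dvd n p).trans (deg_dvd_card hχ)
      refine Nat.Coprime.dvd_of_dvd_mul_left (Nat.Coprime.mul_right ?_ ?_) h3
      · exact (Nat.coprime_ordCompl hp hn0).symm.pow_right a
      · exact ((Nat.Prime.coprime_iff_not_dvd hq).2 fun h =>
          hqχ (h.trans (Nat.ordCompl_dvd n p))).symm.pow_right b
    exact ((Nat.le_div_iff_mul_le (pow_pos hp.pos _)).2 h1).trans
      (Nat.le_of_dvd (Nat.pos_of_ne_zero fun e => hcop (e ▸ dvd_zero p)) h2)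
  have hmem : ∀ {μ v}, v ≠ 0 → ρ x v = μ • v → ∃ i ∈ I, ζ ^ i = μ := by
    intro μ v hv h
    have : NeZero p := ⟨hp.ne_zero⟩
    obtain ⟨i, hi, e⟩ := hζ.eq_pow_of_pow_eq_one (pow_eq_one_of_eigen ρ hxp hv h)
    refine ⟨i, Finset.mem_filter.2 ⟨Finset.mem_range.2 hi, fun h0 => hv ?_⟩, e⟩
    have h1 := End.mem_eigenspace_iff.2 h
    rwa [← e, Submodule.finrank_eq_zero.1 h0] at h1
  obtain ⟨i₀, hi₀⟩ : I.Nonempty := by
    by_contra h
    refine hn0 (hsum ▸ Finset.sum_eq_zero fun i hi => ?_)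
    by_contra h1
    exact h ⟨i, Finset.mem_filter.2 ⟨hi, h1⟩⟩
  obtain ⟨v₀, hv₀, hv₀'⟩ := (Submodule.ne_bot_iff _).1 fun e =>
    (Finset.mem_filter.1 hi₀).2 (Submodule.finrank_eq_zero.2 e)
  obtain ⟨t, ht0, htp, ht⟩ := pigeon hp.pos (I.erase i₀) (fun i => i - i₀) (by
    have h1 : 6 ^ (I.erase i₀).card ≤ p := by
      rw [Finset.card_erase_of_mem hi₀]
      exact (Nat.pow_le_pow_right (by norm_num) (by omega)).trans hle
    refine lt_of_le_of_ne h1 fun e => ?_
    have h2 := (e ▸ hp : (6 ^ (I.erase i₀).card).Prime).eq_one_of_pow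
    rw [h2] at e; rw [← e] at hp; norm_num at hp)
  have := nontrivial_of_isIrreducible ρ
  have hcop' : t.Coprime (orderOf x) := hx ▸ (Nat.coprime_of_lt_prime ht0.ne' htp hp).symm
  obtain ⟨s, hs⟩ := exists_pow_eq_self_of_coprime hcop'
  obtain ⟨μ, v, hv, hv', hnorm⟩ := exists_eigen_norm_eq ρ hρ (x ^ t) ((ζ ^ i₀) ^ t)
  have hlt : ‖μ - (ζ ^ i₀) ^ t‖ < 1 := by
    have h1 := pow_apply_of_eigen ρ hv' s
    rw [hs] at h1
    obtain ⟨i, hi, e⟩ := hmem hv h1
    have h2 := pow_apply_of_eigen ρ h1 t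
    rw [hv', ← e] at h2
    rw [smul_left_injective ℂ hv h2]
    by_cases hii : i = i₀
    · simp [hii]
    obtain ⟨s', h3, c, h4⟩ := ht i (Finset.mem_erase.2 ⟨hii, hi⟩)
    have h5 : (ζ ^ i) ^ t = (ζ ^ i₀) ^ t * ζ ^ s' := by
      have h0 := hζ.ne_zero hp.ne_zero
      rw [← pow_mul, ← pow_mul, ← zpow_natCast, ← zpow_natCast, ← zpow_add₀ h0,
        show ((i * t : ℕ) : ℤ) = ((i₀ * t : ℕ) + s') + p * c by push_cast; linear_combination h4,
        zpow_add₀ h0, zpow_mul, zpow_natCast ζ p, hζ.1, one_zpow, mul_one]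
    rw [h5, ← mul_sub_one, norm_mul, norm_pow, norm_pow, hζ.norm'_eq_one hp.ne_zero, one_pow,
      one_pow, one_mul]
    exact near hp.pos h3
  have hx1 : x ^ t ≠ 1 := fun e => by
    rw [e, one_pow] at hs; rw [← hs, orderOf_one] at hx; exact hp.ne_one hx.symm
  obtain ⟨w, hw, hw'⟩ := blichfeldt_sixty ρ hρ (g := x ^ t) (hnorm ▸ hlt)
    (fun w => (repCLM ρ (x ^ t) - (ζ ^ i₀) ^ t • 1).le_opNorm w) hv₀'
    (pow_apply_of_eigen ρ (End.mem_eigenspace_iff.1 hv₀) t)
    ((inferInstance : (normalClosure ({x ^ t} : Set G)).Normal).eq_bot_or_eq_top.resolve_left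
      fun e => hx1 (mem_bot.1 (e ▸ subset_normalClosure rfl)))
  let W := ⨅ h : {h // IsConj (x ^ t) h}, End.eigenspace (ρ h) ((ζ ^ i₀) ^ t)
  have hW : ∀ u, u ∈ W ↔ ∀ h, IsConj (x ^ t) h → ρ h u = (ζ ^ i₀) ^ t • u := fun u => by
    simp [W]
  have hWt : W = ⊤ := (((isIrreducible_iff ρ).1 hirr).2 W fun g u hu => (hW _).2 fun h hh => by
      rw [← End.mul_apply, ← map_mul, show h * g = g * (g⁻¹ * h * g⁻¹⁻¹) by group, map_mul,
        End.mul_apply, (hW _).1 hu _ (hh.trans (isConj_iff.2 ⟨_, rfl⟩)), map_smul]).resolve_left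
    fun e => hw (by have := (hW w).2 hw'; rwa [e] at this)
  refine hx1 (mem_bot.1 (hZ ▸ mem_center_iff.2 fun g => ?_))
  have h1 : ρ (g * x ^ t * (x ^ t * g)⁻¹) = 1 := by
    have h2 : ρ (g * x ^ t) = ρ (x ^ t * g) := by
      ext1 u
      rw [map_mul, map_mul, End.mul_apply, End.mul_apply,
        (hW _).1 (hWt ▸ Submodule.mem_top) _ (IsConj.refl _),
        (hW _).1 (hWt ▸ Submodule.mem_top) _ (IsConj.refl _), map_smul]
    rw [map_mul, h2, ← map_mul, mul_inv_cancel, map_one]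
  exact mul_inv_eq_one.1 (hinj _ h1)

end Cfsg.Agent.S4484
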