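import Cfsg.Statements.S4471
import Cfsg.Agent.S4484
import Cfsg.Agent.Lib.ChDeg.MonoIdx
import Cfsg.Agent.Lib.ChDeg.Avg
import Cfsg.Agent.Lib.ChDeg.Cliff
import Cfsg.Agent.Lib.Core.Cores

set_option autoImplicit false
open Cfsg

namespace Cfsg.Agent.S4471


open CfsgLib CfsgLib.Char CfsgLib.ChDeg CfsgLib.ChA Subgroup Module

theorem geom {p : ℕ} {r : ℂ} (h : r ^ p = 1) (h1 : r ≠ 1) : ∑ i ∈ Finset.range p, r ^ i = 0 := by
  rw [geom_sum_eq h1, h, sub_self, zero_div]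

theorem step1 {P : Type*} [Group P] [Fintype P] {p : ℕ} [hp : Fact p.Prime] (hP : IsPGroup p P)
    {Θ : P → ℂ} (hΘ : IsCharacter P Θ) (hf : cker Θ = ⊥) (hn : charDegree Θ < 2 * p)
    (hc : ¬ ∀ a b : P, a * b = b * a) {ζ : ℂ} (hζ : ζ ^ p = 1) :
    ∃ x : P, x ^ p = 1 ∧ ∀ k : ℕ, Θ (x ^ k) = p * ζ ^ k + (Θ 1 - p) := by
  classical
  obtain ⟨m, hm⟩ := hP.exists_card_eq
  have hdeg : ∀ ψ, IsIrrCharacter P ψ → charDegree ψ = 1 ∨ charDegree ψ = p ∨ 2 * p ≤ charDegree ψ := by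
    intro ψ hψ
    obtain ⟨j, -, hj⟩ := (Nat.dvd_prime_pow hp.out).1 (hm ▸ deg_dvd_card hψ)
    rcases j with _ | _ | j
    · exact .inl hj
    · exact .inr (.inl (by simpa using hj))
    · refine .inr (.inr ?_)
      rw [hj, pow_succ]
      exact Nat.mul_le_mul_right _ (hp.out.two_le.trans (Nat.le_self_pow j.succ_ne_zero p))
  obtain ⟨θ, hθ, hi, hθ1⟩ : ∃ θ, IsIrrCharacter P θ ∧ classInner Θ θ ≠ 0 ∧ charDegree θ ≠ 1 := by
    by_contra! H
    exact hc (comm_of_faithful hΘ hf H)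
  have hθc := isCharacter_of_isIrr hθ
  have hθp : charDegree θ = p := by
    have := deg_le_of_inner_ne_zero hΘ hθ hi
    have := hdeg θ hθ
    omega
  obtain ⟨Ξ, hΞ, rfl⟩ := exists_eq_add_of_inner_ne_zero hΘ hθ hi
  rw [deg_add hθc hΞ] at hn
  have hker : _root_.commutator P ≤ cker Ξ := fun g hg => mem_cker_of_forall hΞ fun ψ hψ h => by
    have := deg_le_of_inner_ne_zero hΞ hψ h
    have := hdeg ψ hψ
    exact (deg_eq_one_iff_commutator_le hψ).1 (by omega) hg
  obtain ⟨y, hy, hyZ, hyp⟩ := Core.exists_mem_center_orderOf_eq hP (N := _root_.commutator P)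
    fun e => hθ1 ((deg_eq_one_iff_commutator_le hθ).2 (e ▸ bot_le))
  have h1 : θ 1 = p := by rw [← deg_cast hθc, hθp]
  have hp0 : (p : ℂ) ≠ 0 := by exact_mod_cast hp.out.ne_zero
  have hpow : ∀ k : ℕ, θ (y ^ k) = p * (θ y / p) ^ k := by
    intro k
    induction k with
    | zero => simp [h1]
    | succ k ih => rw [pow_succ', irr_mul_of_mem_center hθ hyZ, ih, h1]; ring
  have hω : IsPrimitiveRoot (θ y / p) p := by
    have h2 : (θ y / p) ^ p = 1 := by
      have := hpow p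
      rw [← hyp, pow_orderOf_eq_one, hyp, h1] at this
      exact (mul_eq_left₀ hp0).1 this.symm
    refine (IsPrimitiveRoot.iff_orderOf).2 (orderOf_eq_prime h2 fun e => ?_)
    have h3 : y ∈ cker (θ + Ξ) := by
      rw [cker_add hθc hΞ]
      exact ⟨(mem_cker hθc).2 (by rw [h1]; exact (div_eq_one_iff_eq hp0).1 e), hker hy⟩
    rw [hf, mem_bot] at h3
    rw [h3, orderOf_one] at hyp
    exact hp.out.ne_one hyp.symm
  have : NeZero p := ⟨hp.out.ne_zero⟩
  obtain ⟨i, -, e⟩ := hω.eq_pow_of_pow_eq_one hζ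
  refine ⟨y ^ i, by rw [← pow_mul, mul_comm, pow_mul, ← hyp, pow_orderOf_eq_one, one_pow],
    fun k => ?_⟩
  rw [← pow_mul, Pi.add_apply, Pi.add_apply, hpow, (mem_cker hΞ).1 (hker (pow_mem hy _)), h1,
    pow_mul, e]
  ring

theorem part1 {G : Type*} [Group G] [Finite G] {χ : G → ℂ} (hχ : IsIrrCharacter G χ)
    (hf : cker χ = ⊥) {p : ℕ} [hp : Fact p.Prime] (h7 : 7 ≤ p) (hn2 : charDegree χ < 2 * p)
    (hnp : charDegree χ ≠ p) (P : Sylow p G) (hc : ¬ ∀ a b : P, a * b = b * a) :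
    ¬ p ^ 2 ∣ (pCore p G).index := by
  classical
  have := Fintype.ofFinite G
  have hχc := isCharacter_of_isIrr hχ
  set ζ := Complex.exp (2 * Real.pi * Complex.I / p) with hζd
  have hζ : IsPrimitiveRoot ζ p := Complex.isPrimitiveRoot_exp p hp.out.ne_zero
  have hp0 : (p : ℂ) ≠ 0 := by exact_mod_cast hp.out.ne_zero
  have hζ0 := hζ.ne_zero hp.out.ne_zero
  have hζ1 := hζ.ne_one hp.out.one_lt
  obtain ⟨x₀, hx₀, hx⟩ := step1 P.isPGroup' (isCharacter_restrict (P : Subgroup G) hχc)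
    (by rw [cker_res _ hχc, hf, bot_subgroupOf]) (by rwa [deg_res]) hc hζ.1
  set x : G := x₀.1
  have hxp : x ^ p = 1 := congrArg Subtype.val hx₀
  replace hx : ∀ k : ℕ, χ (x ^ k) = p * ζ ^ k + (χ 1 - p) := hx
  have hsum : ∀ μ : ℂ, ∑ i ∈ Finset.range p, μ⁻¹ ^ i * χ (x ^ i) =
      p * ∑ i ∈ Finset.range p, (μ⁻¹ * ζ) ^ i + (χ 1 - p) * ∑ i ∈ Finset.range p, μ⁻¹ ^ i := by
    intro μ
    rw [Finset.mul_sum, Finset.mul_sum, ← Finset.sum_add_distrib]
    exact Finset.sum_congr rfl fun i _ => by rw [hx]; ring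
  have hcomm : ∀ g : G, Commute (g * x * g⁻¹) x := by
    obtain ⟨n₀, ρ, rfl, hρ⟩ := exists_isometric_rep hχc
    have := isIrreducible_of_isIrr_character ρ hχ
    have := nontrivial_of_isIrreducible ρ
    have h1 : ‖ζ - 1‖ < 1 := by simpa using S4484.near (s := 1) hp.out.pos (by simp; omega)
    have hev : ∀ c : ℂ, ‖repCLM ρ x - c • 1‖ = ‖1 - c‖ ∨ ‖repCLM ρ x - c • 1‖ = ‖ζ - c‖ := by
      intro c
      obtain ⟨μ, v, hv, hv', e⟩ := exists_eigen_norm_eq ρ hρ x c
      have h2 := sum_ne_zero_of_eigen ρ hp.out.ne_zero hxp hv hv'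
      have h3 := pow_eq_one_of_eigen ρ hxp hv hv'
      have h4 : μ ≠ 0 := fun e => by simp [e, hp.out.ne_zero] at h3
      by_contra! H
      refine h2 ?_
      rw [hsum, geom (r := μ⁻¹ * ζ) (by rw [mul_pow, inv_pow, h3, hζ.1]; simp) (fun e' => H.2 ?_),
        geom (r := μ⁻¹) (by rw [inv_pow, h3, inv_one]) (fun e' => H.1 ?_)]
      · simp
      · rw [e, inv_eq_one.1 e']
      · rw [e, (inv_mul_eq_one₀ h4).1 e']
    intro g
    refine commute_of_near ρ hρ (injective_of_faithful ρ ((cker_eq_bot_iff hχc).1 hf))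
      (c := (1 + ζ) / 2) ((norm_repCLM_conj_sub ρ hρ x g _).trans_lt ?_) ?_
    · rcases hev ((1 + ζ) / 2) with e | e
      · rw [e, show 1 - (1 + ζ) / 2 = -(ζ - 1) / 2 by ring, norm_div, norm_neg]
        simpa using by linarith
      · rw [e, show ζ - (1 + ζ) / 2 = (ζ - 1) / 2 by ring, norm_div]
        simpa using by linarith
    · rcases hev 1 with e | e <;> rw [one_smul] at e <;> rw [e]
      · simp
      · exact h1
  set A := normalClosure ({x} : Set G)
  have hA : IsMulCommutative A := isMulCommutative_closure fun a ha b hb => by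
    obtain ⟨_, rfl, ha⟩ := Group.mem_conjugatesOfSet_iff.1 ha
    obtain ⟨_, rfl, hb⟩ := Group.mem_conjugatesOfSet_iff.1 hb
    obtain ⟨g, rfl⟩ := isConj_iff.1 ha
    obtain ⟨h, rfl⟩ := isConj_iff.1 hb
    have := (hcomm (h⁻¹ * g)).map (MulAut.conj h)
    simpa [mul_assoc, Commute, SemiconjBy] using this
  obtain ⟨l, hl, hi⟩ := exists_irr_under A hχ
  obtain ⟨e, -, he, hdeg⟩ := exists_deg_clifford A hχ hl hi
  let y : A := ⟨x, subset_normalClosure rfl⟩
  have he1 : e = 1 := by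
    have h1 := hsum ζ
    rw [geom (r := ζ⁻¹) (by rw [inv_pow, hζ.1, inv_one]) (inv_ne_one.2 hζ1), inv_mul_cancel₀ hζ0] at h1
    have h2 : ∀ i : ℕ, χ (x ^ i) = e * ∑ ψ ∈ conjSet A l, ψ y ^ i := fun i => by
      have h3 := congrFun (clifford A hχ hl hi) (y ^ i)
      rw [he, Pi.smul_apply, Finset.sum_apply, smul_eq_mul] at h3
      refine h3.trans (congrArg _ (Finset.sum_congr rfl fun ψ hψ => ?_))
      obtain ⟨g, rfl⟩ := (mem_conjSet A).1 hψ
      obtain ⟨f, hf⟩ := exists_monoidHom_of_one_eq_one (isCharacter_conjChar A g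
        (isCharacter_of_isIrr hl)) (irr_one_eq_one_of_comm (isIrr_conjChar A g hl))
      rw [hf, map_pow]
    have h3 : ∀ ψ ∈ conjSet A l, ∑ i ∈ Finset.range p, ζ⁻¹ ^ i * ψ y ^ i =
        if ψ y = ζ then (p : ℂ) else 0 := fun ψ hψ => by
      simp only [← mul_pow]
      split_ifs with h
      · simp [h, hζ0]
      · obtain ⟨g, rfl⟩ := (mem_conjSet A).1 hψ
        obtain ⟨f, hf⟩ := exists_monoidHom_of_one_eq_one (isCharacter_conjChar A g
          (isCharacter_of_isIrr hl)) (irr_one_eq_one_of_comm (isIrr_conjChar A g hl))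
        refine geom ?_ fun e => h ((inv_mul_eq_one₀ hζ0).1 e).symm
        rw [mul_pow, inv_pow, hζ.1, hf, ← map_pow, show y ^ p = 1 from Subtype.ext hxp]; simp
    simp only [h2, Finset.mul_sum, mul_left_comm _ (e : ℂ)] at h1
    rw [Finset.sum_comm] at h1
    simp only [← Finset.mul_sum] at h1
    rw [Finset.sum_congr rfl h3, ← Finset.sum_filter] at h1
    simp only [Finset.sum_const, nsmul_eq_mul, one_pow, Finset.card_range, mul_one, mul_zero,
      add_zero, ← mul_assoc, mul_left_inj' hp0] at h1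
    have h4 : e ∣ p := Dvd.intro _ (by exact_mod_cast h1)
    refine (hp.out.eq_one_or_self_of_dvd _ h4).resolve_right fun e' => ?_
    have h5 : p ∣ charDegree χ := by rw [hdeg, e', mul_assoc]; exact dvd_mul_right _ _
    obtain ⟨c, hc⟩ := h5
    have := deg_pos hχ
    rw [hc] at hn2 hnp this
    have h6 : c < 2 := by nlinarith
    interval_cases c <;> simp at *
  set T := inertia A l with hT
  obtain ⟨ψ, hψ, hind, -⟩ := clifford_corr A T (le_inertia A (isClassFunction_of_isIrr hl)) hl hT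
    hχ hi
  have hl1 : charDegree l = 1 := (deg_eq_one_iff (isCharacter_of_isIrr hl)).2 (irr_one_eq_one_of_comm hl)
  rw [he1, hl1, one_mul, mul_one] at hdeg
  have hψ1 : charDegree ψ = 1 := by
    have h1 := deg_ind T (isCharacter_of_isIrr hψ)
    rw [hind, hdeg] at h1
    exact (mul_eq_left₀ index_ne_zero_of_finite).1 h1.symm
  obtain ⟨lam, rfl⟩ := exists_unitsHom_of_one_eq_one (isCharacter_of_isIrr hψ)
    ((deg_eq_one_iff (isCharacter_of_isIrr hψ)).1 hψ1)
  have hK := commutator_le_cker_indFun T lam T.normalCore T.normalCore_le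
  rw [hind, hf, le_bot_iff, commutator_eq_bot_iff_le_centralizer] at hK
  set K := T.normalCore
  have hKc : IsMulCommutative K := ⟨⟨fun a b => Subtype.ext (hK b.2 a a.2)⟩⟩
  obtain ⟨Q⟩ : Nonempty (Sylow p K) := inferInstance
  have : (Q : Subgroup K).Normal := normal_of_isMulCommutative _
  have h1 := index_dvd_of_le (Core.map_pCore_le_of_normal (p := p) K)
  rw [Core.pCore_eq_sylow_of_normal Q, index_map_subtype] at h1
  intro h2
  have h3 : p ^ 2 ∣ (charDegree χ).factorial := hdeg ▸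
    ((((Nat.Prime.coprime_iff_not_dvd hp.out).2 Q.not_dvd_index).pow_left 2).dvd_of_dvd_mul_left
      (h2.trans h1)).trans (index_normalCore_dvd_factorial T)
  have h4 := (hp.out.pow_dvd_factorial_iff (b := 2) (Nat.log_lt_of_lt_pow' two_ne_zero
    (by nlinarith))).1 h3
  simp at h4
  have := (Nat.le_div_iff_mul_le hp.out.pos).1 h4
  omega

/-- Let p ≥ 7 be a prime and let the finite group G have a faithful irreducible character of degree n with n < 2p and n ≠ p. If the Sylow p-subgroups of G are non-abelian then p² does not divide the index of O_p(G) in G; consequently, in every case G/O_p(G) has abelian Sylow p-subgroups. -/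
theorem result {G : Type*} [Group G] [Finite G] (χ : Cfsg.IrrCharacter G) (hfaith : ∀ g : G, (χ : G → ℂ) g = (χ : G → ℂ) 1 → g = 1) (n : ℕ) (hn : Cfsg.charDegree (χ : G → ℂ) = n) (p : ℕ) (hp : p.Prime) (h7 : 7 ≤ p) (hn2 : n < 2 * p) (hnp : n ≠ p) : ((∃ P : Sylow p G, ∃ x ∈ (P : Subgroup G), ∃ y ∈ (P : Subgroup G), x * y ≠ y * x) → ¬ p ^ 2 ∣ (Cfsg.pCore p G).index) ∧ ∀ Q : Sylow p (G ⧸ Cfsg.pCore p G), ∀ x ∈ (Q : Subgroup (G ⧸ Cfsg.pCore p G)), ∀ y ∈ (Q : Subgroup (G ⧸ Cfsg.pCore p G)), x * y = y * x := by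
  classical
  have := Fact.mk hp
  subst hn
  have hf := (cker_eq_bot_iff (irr_isCharacter χ)).2 hfaith
  have H := fun P hc => part1 χ.2 hf h7 hn2 hnp P hc
  refine ⟨fun ⟨P, x, hx, y, hy, hxy⟩ => H P fun hc =>
    hxy (congrArg Subtype.val (hc ⟨x, hx⟩ ⟨y, hy⟩)), fun Q x hx y hy => ?_⟩
  obtain ⟨P, hP⟩ := Sylow.mapSurjective_surjective (QuotientGroup.mk'_surjective (pCore p G)) p Q
  by_cases hc : ∀ a b : P, a * b = b * a
  · rw [← hP] at hx hy
    obtain ⟨a, ha, rfl⟩ := hx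
    obtain ⟨b, hb, rfl⟩ := hy
    rw [← map_mul, ← map_mul]
    exact congrArg _ (congrArg Subtype.val (hc ⟨a, ha⟩ ⟨b, hb⟩))
  · have h1 := H P hc
    obtain ⟨k, hk⟩ := Q.isPGroup'.exists_card_eq
    have h2 : k ≤ 1 := by
      by_contra h
      exact h1 ((pow_dvd_pow p (by omega : 2 ≤ k)).trans 
        (hk ▸ card_subgroup_dvd_card (Q : Subgroup (G ⧸ pCore p G))))
    have : IsCyclic (Q : Subgroup (G ⧸ pCore p G)) := isCyclic_of_card_dvd_prime (p := p)
      (by rw [hk]; simpa using pow_dvd_pow p h2)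
    exact congrArg Subtype.val (mul_comm' (⟨x, hx⟩ : (Q : Subgroup _)) ⟨y, hy⟩)

end Cfsg.Agent.S4471
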