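import Cfsg.Statements.S4472
import Cfsg.Agent.S4488
import Cfsg.Agent.Lib.ChDeg.Cliff
import Cfsg.Agent.Lib.Glaub.Ext
import Cfsg.Agent.Lib.PLocal.QuadSep
import Cfsg.Agent.Lib.Core.Cores
import Cfsg.Agent.Lib.Coprime.SchurZassenhaus

set_option autoImplicit false
open Cfsg

namespace Cfsg.Agent.S4472


open CfsgLib CfsgLib.Char CfsgLib.ChDeg Subgroup
open scoped Pointwise

theorem sub_sum {G : Type*} [Group G] [Fintype G] (S : Finset (G → ℂ)) :
    ∀ {φ : G → ℂ}, IsCharacter G φ → (∀ ψ ∈ S, IsIrrCharacter G ψ ∧ classInner φ ψ ≠ 0) →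
      ∃ Ξ, IsCharacter G Ξ ∧ φ = ∑ ψ ∈ S, ψ + Ξ := by
  classical
  induction S using Finset.induction_on with
  | empty => exact fun h _ => ⟨_, h, by simp⟩
  | insert a S ha ih =>
    intro φ hφ h
    obtain ⟨h1, h2⟩ := h a (Finset.mem_insert_self _ _)
    obtain ⟨Ξ, hΞ, rfl⟩ := exists_eq_add_of_inner_ne_zero hφ h1 h2
    obtain ⟨Ξ', hΞ', rfl⟩ := ih hΞ fun ψ hψ => by
      obtain ⟨h3, h4⟩ := h ψ (Finset.mem_insert_of_mem hψ)
      refine ⟨h3, ?_⟩
      rwa [classInner_add_left, classInner_irr_of_ne h1 h3 (by rintro rfl; exact ha hψ),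
        zero_add] at h4
    exact ⟨Ξ', hΞ', by rw [Finset.sum_insert ha, add_assoc]⟩

def Fx {G : Type*} (r : ℕ) (Ψ : G → ℂ) : Prop :=
  ∀ τ : ℂ ≃+* ℂ, (∀ ε : ℂ, ε ^ r = 1 → τ ε = ε) → ∀ g, τ (Ψ g) = Ψ g

theorem ext_irr {G : Type*} [Group G] [Fintype G] (L : Subgroup G) [L.Normal]
    (hc : (Nat.card L).Coprime L.index) {θ : L → ℂ} (hθ : IsIrrCharacter L θ) :
    ∃ η, IsCharacter G η ∧ Fx (Nat.card L) η ∧ (fun l : L => η l) = ∑ ψ ∈ conjSet L θ, ψ := by
  classical
  set T := inertia L θ with hT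
  have hLT : L ≤ T := le_inertia L (isClassFunction_of_isIrr hθ)
  let e := subgroupOfEquivOfLe hLT
  have hc' : (Nat.card (L.subgroupOf T)).Coprime (L.subgroupOf T).index := by
    rw [Nat.card_congr e.toEquiv]
    exact hc.coprime_dvd_right (relIndex_dvd_index_of_normal L T)
  obtain ⟨ψ, ⟨hψ, hres, hdet⟩, huniq⟩ := Glaub.exists_canonical_of_coprime (L.subgroupOf T) hc'
    (isIrr_comp_mulEquiv e hθ) fun g n => (mem_inertia' L).1 g.2 (e n)
  have hfx : Fx (Nat.card L) ψ := fun τ hτ => congrFun (huniq _ (isIrr_ringHom (τ : ℂ →+* ℂ) hψ)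
    (fun n => by
      rw [hres]
      refine (ringHom_char_eq_pow (τ : ℂ →+* ℂ) (isCharacter_of_isIrr hθ) _ (k := 1)
        fun ε hε => ?_).trans (by rw [pow_one])
      obtain ⟨c, hc⟩ := orderOf_dvd_natCard (e n)
      rw [pow_one]
      exact hτ ε (by rw [hc, pow_mul, hε, one_pow]))
    (hc'.symm.coprime_dvd_right ((Cover.detOrder_gal_dvd τ hψ).trans
      (hdet ▸ Glaub.detOrder_dvd_card _))))
  have hres' : (fun n : L => ψ ⟨n, hLT n.2⟩) = θ := funext fun n => hres (e.symm n)
  have h1 : classInner (fun n : L => ψ ⟨n, hLT n.2⟩) θ = 1 := by rw [hres', classInner_irr_self hθ]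
  have hη := isIrr_indFun_inertia L T hLT hθ hT hψ (h1 ▸ one_ne_zero)
  have h2 := (clifford_corr_key L T hLT hθ hT hψ (h1 ▸ one_ne_zero) hη
    (inner_res_indFun_self_ne_zero T hψ)).2
  refine ⟨_, isCharacter_of_isIrr hη, fun τ hτ g => ?_, ?_⟩
  · simp only [indFun_apply, map_mul, map_inv₀, map_natCast, map_sum, extendByZero_eq_dite]
    congr 1
    refine Finset.sum_congr rfl fun x _ => ?_
    split_ifs
    · exact hfx τ hτ _
    · exact map_zero _
  · rw [clifford L hη hθ (h2 ▸ h1 ▸ one_ne_zero), ← h2, h1, one_smul]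

theorem ext_char {G : Type*} [Group G] [Fintype G] (L : Subgroup G) [L.Normal]
    (hc : (Nat.card L).Coprime L.index) (n : ℕ) : ∀ {φ : L → ℂ}, IsCharacter L φ →
    (∀ g, conjChar L g φ = φ) → charDegree φ = n →
    ∃ η, IsCharacter G η ∧ Fx (Nat.card L) η ∧ (fun l : L => η l) = φ := by
  classical
  induction n using Nat.strong_induction_on with
  | _ n ih =>
  intro φ hφ hinv hn
  by_cases h0 : φ 1 = 0
  · exact ⟨0, isCharacter_zero, fun τ _ _ => map_zero τ, (char_eq_zero_of_one_eq_zero hφ h0).symm⟩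
  obtain ⟨θ, hθ, hi⟩ := exists_irr_constituent hφ h0
  obtain ⟨η, hη, hfx, hres⟩ := ext_irr L hc hθ
  obtain ⟨Ξ, hΞ, e⟩ := sub_sum (conjSet L θ) hφ fun ψ hψ => by
    obtain ⟨g, rfl⟩ := (mem_conjSet L).1 hψ
    exact ⟨isIrr_conjChar L g hθ, by rwa [← hinv g, classInner_conjChar]⟩
  have hηL := isCharacter_restrict L hη
  have h1 : charDegree θ ≤ charDegree fun l : L => η l := deg_le_of_inner_ne_zero hηL hθ (by
    obtain ⟨Ξ', hΞ', e'⟩ := sub_sum (G := L) ∅ (isCharacter_sum ((conjSet L θ).erase θ) (f := id)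
      fun ψ hψ => by
        obtain ⟨g, rfl⟩ := (mem_conjSet L).1 (Finset.mem_of_mem_erase hψ)
        exact isCharacter_conjChar L g (isCharacter_of_isIrr hθ)) (by simp)
    obtain ⟨m, hm⟩ := exists_classInner_eq_nat hΞ' (isCharacter_of_isIrr hθ)
    rw [hres, ← Finset.add_sum_erase _ _ (self_mem_conjSet L θ), classInner_add_left,
      classInner_irr_self hθ]
    simp only [id, Finset.sum_empty, zero_add] at e'
    rw [e', hm]
    exact_mod_cast (by omega : 1 + m ≠ 0))
  rw [← hres] at e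
  have h2 := deg_pos hθ
  obtain ⟨η', hη', hfx', hres'⟩ := ih (charDegree Ξ) (by rw [← hn, e, deg_add hηL hΞ]; omega) hΞ
    (fun g => by
      have h3 := hinv g
      have h4 := conjChar_res L g (isClassFunction_of_isCharacter hη)
      ext l
      have h5 := congrFun h3 l
      have h6 := congrFun h4 l
      rw [e] at h5
      simp only [conjChar_apply, Pi.add_apply] at h5 h6 ⊢
      linear_combination h5 - h6) rfl
  exact ⟨η + η', isCharacter_add hη hη', fun τ hτ g => by
    rw [Pi.add_apply, map_add, hfx τ hτ, hfx' τ hτ], by rw [e, ← hres']; rfl⟩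

/-- Let the finite p-solvable group G have a faithful character of degree n, and let p^a be the index of O_p(G) in a Sylow p-subgroup of G (the p-part of [G : O_p(G)]). Then a ≤ Σ_{i ≥ 0} ⌊n / ((p − 1) p^i)⌋ (a finite sum; the terms vanish for p^i > n). -/
theorem result {G : Type*} [Group G] [Finite G] (χ : G → ℂ) (hχ : Cfsg.IsCharacter G χ) (hfaith : ∀ g : G, χ g = χ 1 → g = 1) (n : ℕ) (hn : Cfsg.charDegree χ = n) (p : ℕ) (hp : p.Prime) (hsolv : Cfsg.IsPSolvable p G) : ((Cfsg.pCore p G).index).factorization p ≤ ∑ i ∈ Finset.range (n + 1), n / ((p - 1) * p ^ i) := by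
  classical
  have := Fact.mk hp
  set O := pCore p G
  let π := QuotientGroup.mk' O
  set N := pPrimeCore p (G ⧸ O)
  have hN : (Nat.card N).Coprime p := Core.coprime_card_pPrimeCore p _
  have hCN := PLocal.centralizer_pPrimeCore_le (PLocal.PSolv.quotient hsolv O)
    (Core.pCore_quotient_pCore p G)
  obtain ⟨a, ha⟩ := (Core.isPGroup_pCore p G).exists_card_eq
  have hON : O ≤ N.comap π := fun x hx => by
    rw [mem_comap, show π x = 1 from (QuotientGroup.eq_one_iff x).2 hx]; exact one_mem _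
  have hrel : O.relIndex (N.comap π) = Nat.card N := by
    have h := relIndex_ker (N.comap π) π
    rwa [map_comap_eq_self_of_surjective (QuotientGroup.mk'_surjective O),
      QuotientGroup.ker_mk'] at h
  obtain ⟨H, hH, hOH, hsup, hcard⟩ := Coprime.exists_complement_of_le_normalizer hON
    le_normalizer_of_normal (by rw [hrel, ha]; exact hN.symm.pow_left a)
  let f : H →* N := (π.comp H.subtype).codRestrict N fun h => hH h.2
  have hfi : Function.Injective f := (injective_iff_map_eq_one f).2 fun h e =>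
    Subtype.ext (mem_bot.1 (hOH ▸ ⟨(QuotientGroup.eq_one_iff _).1 (congrArg Subtype.val e), h.2⟩))
  let e := MulEquiv.ofBijective f (hfi.bijective_of_nat_card_le (by rw [hcard, hrel]))
  have hinv : ∀ (q : G ⧸ O) (x : N), χ (e.symm (CharDeep.cj N q x)) = χ (e.symm x) := by
    intro q x
    obtain ⟨g, rfl⟩ := QuotientGroup.mk'_surjective O q
    obtain ⟨y, rfl⟩ := e.surjective x
    obtain ⟨k, hk, h1⟩ := Coprime.exists_conj_smul_le_of_le_sup (K := O) (A := MulAut.conj g • H)
      (S := H) le_normalizer_of_normal (hsup ▸ Coprime.conj_smul_le_iff.2 fun x hx =>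
        (inferInstance : (N.comap π).Normal).conj_mem x (hH hx) g)
      (by rw [Coprime.card_conj_smul, hcard, hrel, ha]; exact hN.pow_right a)
      (.inr (by have := (Core.isPGroup_pCore p G).isNilpotent; infer_instance))
    have h2 := h1 (Coprime.conj_mem_conj_smul (g := k) (Coprime.conj_mem_conj_smul (g := g) y.2))
    have h3 : CharDeep.cj N (QuotientGroup.mk' O g) (e y) = e ⟨_, h2⟩ := Subtype.ext (by
      change π g * π y * (π g)⁻¹ = π (k * (g * y * g⁻¹) * k⁻¹)
      simp only [map_mul, map_inv, show π k = 1 from (QuotientGroup.eq_one_iff k).2 hk]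
      group)
    rw [h3, e.symm_apply_apply, e.symm_apply_apply]
    exact (isClassFunction_of_isCharacter hχ _ _).trans (isClassFunction_of_isCharacter hχ _ _)
  obtain ⟨P⟩ : Nonempty (Sylow p (G ⧸ O)) := inferInstance
  set Γ : Subgroup (G ⧸ O) := N ⊔ P
  have := Fintype.ofFinite Γ
  set L := N.subgroupOf Γ
  let e' := subgroupOfEquivOfLe (le_sup_left : N ≤ Γ)
  have hL : Nat.card L = Nat.card N := Nat.card_congr e'.toEquiv
  have hφ := isCharacter_comp (H.subtype.comp (e'.trans e.symm).toMonoidHom) hχ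
  obtain ⟨η, hη, hfx, hres⟩ := ext_char L (by
      obtain ⟨b, hb⟩ := P.isPGroup'.exists_card_eq
      rw [hL]
      exact (hN.pow_right b).coprime_dvd_right
        (hb ▸ Coprime.relIndex_dvd_of_le_sup le_normalizer_of_normal le_rfl)) n hφ
    (fun g => funext fun l => hinv g (e' l)) ((deg_comp _ χ).trans hn)
  have h1 : η 1 = χ 1 := (congrFun hres 1).trans (by simp)
  have hL1 : ∀ g ∈ L, η g = η 1 → g = 1 := fun g hg h => by
    have h2 := hfaith _ ((congrFun hres ⟨g, hg⟩).symm.trans (h.trans h1))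
    exact congrArg Subtype.val ((e'.trans e.symm).map_eq_one_iff.1 (Subtype.ext h2))
  have h2 := S4488.result p hp η hη (fun g hg => hL1 g (hCN fun x hx => ?_) hg)
    ⟨Nat.card L, Nat.card_pos, hL ▸ (hp.coprime_iff_not_dvd).1 hN.symm, fun g =>
      Cover.mem_adjoin_exp_of_fixed Nat.card_pos.ne' (isIntegral_char hη g) fun τ hτ => hfx τ hτ g⟩
    n ((deg_congr h1).trans hn)
  · refine le_trans ((hp.pow_dvd_iff_le_factorization Nat.card_pos.ne').1 ?_) h2
    rw [index_eq_card, ← P.card_eq_multiplicity]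
    exact card_dvd_of_le le_sup_right
  · exact congrArg Subtype.val (commute_of_normal_of_disjoint L (cker η) inferInstance inferInstance
      (disjoint_def.2 fun h h' => hL1 _ h ((mem_cker hη).1 h')) ⟨x, mem_sup_left hx⟩ g hx
      ((mem_cker hη).2 hg))

end Cfsg.Agent.S4472
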