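import Cfsg.Statements.S4476
import Cfsg.Agent.Lib.Char.PermLemma
import Cfsg.Agent.Lib.Char.Square
import Cfsg.Agent.Lib.Char.ClassCount
import Cfsg.Agent.Lib.ChDeg.Deg

set_option autoImplicit false
open Cfsg

namespace Cfsg.Agent.S4476

open CfsgLib.Char CfsgLib.ChDeg
open scoped ComplexConjugate

section

attribute [local instance] Classical.propDecidable

theorem card_sq {G : Type*} [Group G] [Fintype G] :
    Nat.card {s : G // s * s = 1} = Nat.card {x : G // orderOf x = 2} + 1 := by
  have : Fact (Nat.Prime 2) := ⟨Nat.prime_two⟩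
  rw [Nat.card_eq_fintype_card, Nat.card_eq_fintype_card, Fintype.card_subtype, Fintype.card_subtype,
    ← Finset.card_insert_of_notMem (a := 1) (by simp)]
  congr 1
  ext x
  simp only [Finset.mem_filter, Finset.mem_univ, true_and, Finset.mem_insert, orderOf_eq_prime_iff,
    pow_two]
  by_cases h : x = 1 <;> simp [h]

theorem le_sum {G : Type*} [Group G] [Fintype G] : (Nat.card {x : G // orderOf x = 2} : ℚ) ≤
    ∑ χ ∈ Finset.univ.filter (fun χ : IrrCharacter G => χ ≠ irrOne G ∧ ∀ g, ((χ : G → ℂ) g).im = 0),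
      (charDegree (χ : G → ℂ) : ℚ) := by
  have h := congrArg Complex.re (card_sq_eq_one_eq_sum (G := G))
  rw [card_sq, Complex.re_sum, ← Finset.add_sum_erase _ _ (Finset.mem_univ (irrOne G))] at h
  have h1 : ∑ χ ∈ Finset.univ.erase (irrOne G), (fsInd (χ : G → ℂ) * (χ : G → ℂ) 1).re ≤
      ∑ χ ∈ Finset.univ.filter (fun χ : IrrCharacter G => χ ≠ irrOne G ∧ ∀ g, ((χ : G → ℂ) g).im = 0),
        (charDegree (χ : G → ℂ) : ℝ) := by
    rw [Finset.sum_filter, ← Finset.sum_erase (a := irrOne G) Finset.univ (by simp)]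
    refine Finset.sum_le_sum fun χ hχ => ?_
    rw [← irr_deg_cast]
    split_ifs with h2
    · rcases fsInd_trichotomy χ.2 with e | e | e <;> simp [e]
    · rw [(fsInd_eq_zero_iff χ.2).2 (by
        by_contra h3
        push Not at h3
        exact h2 ⟨Finset.ne_of_mem_erase hχ, h3⟩)]
      simp
  have h2 : ((Nat.card G : ℂ)⁻¹ * ∑ s : G, (irrOne G : G → ℂ) (s * s)) * (irrOne G : G → ℂ) 1 = 1 := by
    simp only [irrOne_apply, Finset.sum_const, Finset.card_univ, ← Nat.card_eq_fintype_card,
      nsmul_eq_mul, mul_one]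
    exact inv_mul_cancel₀ natCard_ne_zero
  rw [h2] at h
  simp only [Complex.natCast_re, Nat.cast_add, Nat.cast_one, Complex.one_re, Complex.add_re] at h
  have h3 : (Nat.card {x : G // orderOf x = 2} : ℝ) ≤ ∑ χ ∈ Finset.univ.filter
      (fun χ : IrrCharacter G => χ ≠ irrOne G ∧ ∀ g, ((χ : G → ℂ) g).im = 0),
        (charDegree (χ : G → ℂ) : ℝ) := by
    unfold fsInd at h1
    linarith
  exact_mod_cast h3

end

/-- Let G be a finite group of even order g with exactly t involutions, and put α = (g − 1)/t (a rational number). Then (a) some non-identity element x of G has at most α² conjugates; and (b) some non-principal real-valued irreducible character of G has degree at most α. -/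
theorem result {G : Type*} [Group G] [Fintype G] (heven : Even (Nat.card G)) (t : ℕ) (ht : Nat.card {x : G // orderOf x = 2} = t) : (∃ x : G, x ≠ 1 ∧ ((Subgroup.centralizer ({x} : Set G)).index : ℚ) ≤ (((Nat.card G : ℚ) - 1) / t) ^ 2) ∧ ∃ χ : Cfsg.IrrCharacter G, (χ : G → ℂ) ≠ (fun _ => 1) ∧ (∀ g : G, ((χ : G → ℂ) g).im = 0) ∧ (Cfsg.charDegree (χ : G → ℂ) : ℚ) ≤ ((Nat.card G : ℚ) - 1) / t := by
  classical
  set S := Finset.univ.filter (fun χ : IrrCharacter G => χ ≠ irrOne G ∧ ∀ g, ((χ : G → ℂ) g).im = 0)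
    with hS
  have h1 : (t : ℚ) ≤ ∑ χ ∈ S, (charDegree (χ : G → ℂ) : ℚ) := by
    convert ht ▸ le_sum (G := G)
  have hsub : S ⊆ Finset.univ.erase (irrOne G) := fun χ hχ =>
    Finset.mem_erase.2 ⟨(Finset.mem_filter.1 hχ).2.1, Finset.mem_univ _⟩
  have h2 : ∑ χ ∈ S, (charDegree (χ : G → ℂ) : ℚ) ^ 2 ≤ Nat.card G - 1 := by
    have e := sum_deg_sq (G := G)
    rw [← Finset.add_sum_erase _ _ (Finset.mem_univ (irrOne G)), irrOne_coe, deg_one] at e
    rw [← e]
    push_cast
    have := Finset.sum_le_sum_of_subset_of_nonneg hsub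
      (f := fun χ : IrrCharacter G => (charDegree (χ : G → ℂ) : ℚ) ^ 2) fun _ _ _ => sq_nonneg _
    linarith
  have : Fact (Nat.Prime 2) := ⟨Nat.prime_two⟩
  obtain ⟨z, hz⟩ := exists_prime_orderOf_dvd_card' (G := G) 2 heven.two_dvd
  have ht0 : (0 : ℚ) < t := by
    have : Nonempty {x : G // orderOf x = 2} := ⟨⟨z, hz⟩⟩
    exact_mod_cast ht ▸ Nat.card_pos
  have hg : (1 : ℚ) < Nat.card G := by
    exact_mod_cast Nat.le_of_dvd Nat.card_pos heven.two_dvd
  set α : ℚ := (Nat.card G - 1) / t with hα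
  have hα0 : 0 < α := div_pos (by linarith) ht0
  have hαt : α * t = Nat.card G - 1 := div_mul_cancel₀ _ ht0.ne'
  constructor
  · by_contra hcon
    push Not at hcon
    have h3 : (S.card : ℚ) + 1 ≤ Nat.card (ConjClasses G) := by
      have := Finset.card_le_card hsub
      rw [Finset.card_erase_of_mem (Finset.mem_univ _), Finset.card_univ, ← Nat.card_eq_fintype_card,
        card_irr_eq_card_conjClasses] at this
      have h0 := Nat.card_pos (α := ConjClasses G)
      exact_mod_cast (by omega : S.card + 1 ≤ Nat.card (ConjClasses G))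
    have h4 := sq_sum_le_card_mul_sum_sq (s := S) (f := fun χ => (charDegree (χ : G → ℂ) : ℚ))
    have h5 := sum_card_centralizer (G := G)
    rw [← Finset.add_sum_erase _ _ (Finset.mem_univ 1),
      (Subgroup.centralizer_eq_top_iff_subset (s := {(1 : G)})).2 (by simp), Subgroup.card_top] at h5
    have h6 : ∑ x ∈ Finset.univ.erase (1 : G),
        α ^ 2 * (Nat.card (Subgroup.centralizer ({x} : Set G)) : ℚ) <
          ∑ _x ∈ Finset.univ.erase (1 : G), (Nat.card G : ℚ) := by
      refine Finset.sum_lt_sum_of_nonempty ⟨z, by simp; rintro rfl; simp at hz⟩ fun x hx => ?_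
      rw [← (Subgroup.centralizer ({x} : Set G)).index_mul_card]
      push_cast
      exact mul_lt_mul_of_pos_right (hcon x (Finset.ne_of_mem_erase hx)) (by exact_mod_cast Nat.card_pos)
    rw [← Finset.mul_sum, Finset.sum_const, Finset.card_erase_of_mem (Finset.mem_univ _),
      Finset.card_univ, ← Nat.card_eq_fintype_card, nsmul_eq_mul, Nat.cast_pred Nat.card_pos] at h6
    have h7 : (Nat.card G : ℚ) + ∑ x ∈ Finset.univ.erase (1 : G),
        (Nat.card (Subgroup.centralizer ({x} : Set G)) : ℚ) = Nat.card (ConjClasses G) * Nat.card G := by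
      exact_mod_cast h5
    have h8 : α ^ 2 * S.card < Nat.card G - 1 := by
      have : α ^ 2 * S.card * Nat.card G < (Nat.card G - 1) * Nat.card G := by
        have := mul_le_mul_of_nonneg_left (mul_le_mul_of_nonneg_right h3 (by linarith : (0 : ℚ) ≤ Nat.card G))
          (sq_nonneg α)
        nlinarith
      exact lt_of_mul_lt_mul_right this (by linarith)
    have h9 : (t : ℚ) ^ 2 ≤ S.card * (Nat.card G - 1) :=
      le_trans (pow_le_pow_left₀ ht0.le h1 2) (h4.trans (mul_le_mul_of_nonneg_left h2 (Nat.cast_nonneg _)))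
    have h10 : α ^ 2 * (t : ℚ) ^ 2 < (Nat.card G - 1) * (Nat.card G - 1) := by
      nlinarith [mul_le_mul_of_nonneg_left h9 (sq_nonneg α)]
    rw [← mul_pow, hαt] at h10
    nlinarith
  · by_contra hcon
    push Not at hcon
    have hne : S.Nonempty := Finset.nonempty_iff_ne_empty.2 fun e => by
      rw [e, Finset.sum_empty] at h1; linarith
    have h3 : ∑ χ ∈ S, α * (charDegree (χ : G → ℂ) : ℚ) < ∑ χ ∈ S, (charDegree (χ : G → ℂ) : ℚ) ^ 2 := by
      refine Finset.sum_lt_sum_of_nonempty hne fun χ hχ => ?_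
      obtain ⟨-, h4, h5⟩ := Finset.mem_filter.1 hχ
      rw [pow_two]
      exact mul_lt_mul_of_pos_right (hcon χ (fun e => h4 (Subtype.ext e)) h5)
        (by exact_mod_cast deg_pos χ.2)
    rw [← Finset.mul_sum] at h3
    nlinarith [mul_le_mul_of_nonneg_left h1 hα0.le]

end Cfsg.Agent.S4476
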