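import Cfsg.Statements.S4478
import Cfsg.Agent.Lib.Char.DefectZero
import Cfsg.Agent.Lib.Char.Square
import Cfsg.Agent.Lib.Char.ClassCount
import Cfsg.Agent.Lib.ChDeg.Deg

set_option autoImplicit false
open Cfsg

namespace Cfsg.Agent.S4478

open CfsgLib.Char CfsgLib.ChDeg
open scoped ComplexConjugate

section

attribute [local instance] Classical.propDecidable

theorem sum_sq_odd {G : Type*} [Group G] [Fintype G] (f : G → ℂ) :
    ∑ g ∈ Finset.univ.filter (fun g : G => Odd (orderOf g)), f (g * g) =
      ∑ g ∈ Finset.univ.filter (fun g : G => Odd (orderOf g)), f g := by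
  have hm : ∀ g ∈ Finset.univ.filter (fun g : G => Odd (orderOf g)),
      g * g ∈ Finset.univ.filter (fun g : G => Odd (orderOf g)) := fun g hg => by
    rw [Finset.mem_filter] at hg ⊢
    exact ⟨Finset.mem_univ _, hg.2.of_dvd_nat (by rw [← pow_two]; exact orderOf_pow_dvd 2)⟩
  have hi : Set.InjOn (fun g : G => g * g) (Finset.univ.filter (fun g : G => Odd (orderOf g))) := by
    intro a ha b hb h
    obtain ⟨k, hk⟩ := (Finset.mem_filter.1 ha).2.mul (Finset.mem_filter.1 hb).2
    have h1 : a ^ (2 * k + 1) = 1 := orderOf_dvd_iff_pow_eq_one.1 (hk ▸ dvd_mul_right _ _)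
    have h2 : b ^ (2 * k + 1) = 1 := orderOf_dvd_iff_pow_eq_one.1 (hk ▸ dvd_mul_left _ _)
    have h3 : a * a = b * b := h
    calc a = a ^ (2 * k + 1) * a := by rw [h1, one_mul]
      _ = (a * a) ^ (k + 1) := by rw [← pow_two, ← pow_mul, ← pow_succ]; rfl
      _ = b ^ (2 * k + 1) * b := by rw [h3, ← pow_two, ← pow_mul, ← pow_succ]; rfl
      _ = b := by rw [h2, one_mul]
  exact Finset.sum_nbij _ hm hi (Finset.surjOn_of_injOn_of_card_le _ hm hi le_rfl) fun _ _ => rfl

end

/-- Let G be a finite group of even order and χ an irreducible character of G whose degree x is divisible by the full power of 2 dividing the order of G and, for every odd prime p such that G has an element of order 2p, by the full power of p dividing the order of G. Then all involutions of G are conjugate, the centralizer of every involution has order exactly x with x coprime to its index, and the Frobenius–Schur indicator of χ equals 1. -/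
theorem result {G : Type*} [Group G] [Fintype G] (heven : Even (Nat.card G)) (χ : Cfsg.IrrCharacter G) (h2 : 2 ^ (Nat.card G).factorization 2 ∣ Cfsg.charDegree (χ : G → ℂ)) (hp : ∀ p : ℕ, p.Prime → p ≠ 2 → (∃ g : G, orderOf g = 2 * p) → p ^ (Nat.card G).factorization p ∣ Cfsg.charDegree (χ : G → ℂ)) : (∀ s t : G, orderOf s = 2 → orderOf t = 2 → IsConj s t) ∧ (∀ s : G, orderOf s = 2 → Nat.card (Subgroup.centralizer ({s} : Set G)) = Cfsg.charDegree (χ : G → ℂ) ∧ (Nat.card (Subgroup.centralizer ({s} : Set G))).Coprime (Subgroup.centralizer ({s} : Set G)).index) ∧ (Nat.card G : ℂ)⁻¹ * ∑ g : G, (χ : G → ℂ) (g * g) = 1 := by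
  classical
  set x := charDegree (χ : G → ℂ) with hx
  have hG0 : Nat.card G ≠ 0 := Nat.card_pos.ne'
  have hdv : ∀ p : ℕ, p.Prime → (p = 2 ∨ ∃ g : G, orderOf g = 2 * p) →
      p ^ (Nat.card G).factorization p ∣ x := fun p hpp h => by
    by_cases e : p = 2
    · rw [e]; exact h2
    · exact hp p hpp e (h.resolve_left e)
  have van : ∀ p : ℕ, p.Prime → (p = 2 ∨ ∃ g : G, orderOf g = 2 * p) → ∀ g, p ∣ orderOf g →
      (χ : G → ℂ) g = 0 := fun p hpp h g hg =>
    irr_eq_zero_of_defect_zero χ.2 hpp (Nat.ordProj_dvd _ p) (Nat.pow_succ_factorization_not_dvd hG0 hpp)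
      (irr_deg_cast χ).symm (hdv p hpp h) hg
  have hC : ∀ s : G, orderOf s = 2 → ∀ p : ℕ, p.Prime →
      p ∣ Nat.card (Subgroup.centralizer ({s} : Set G)) → (p = 2 ∨ ∃ g : G, orderOf g = 2 * p) := by
    intro s hs p hpp hd
    have := Fact.mk hpp
    by_cases e : p = 2
    · exact Or.inl e
    obtain ⟨⟨u, hu⟩, h1⟩ := exists_prime_orderOf_dvd_card' p hd
    rw [Subgroup.orderOf_mk] at h1
    refine Or.inr ⟨s * u, ?_⟩
    rw [Commute.orderOf_mul_eq_mul_orderOf_of_coprime
      (Subgroup.mem_centralizer_singleton_iff.1 hu).symm, hs, h1]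
    rw [hs, h1]
    exact (Nat.coprime_primes Nat.prime_two hpp).2 (Ne.symm e)
  have hχ1 : (χ : G → ℂ) ≠ fun _ => 1 := fun e => by
    have : Fact (Nat.Prime 2) := ⟨Nat.prime_two⟩
    obtain ⟨z, hz⟩ := exists_prime_orderOf_dvd_card' (G := G) 2 heven.two_dvd
    have := van 2 Nat.prime_two (Or.inl rfl) z (by rw [hz])
    rw [e] at this
    exact one_ne_zero this
  have hsum : ∑ g : G, (χ : G → ℂ) (g * g) =
      ((Finset.univ.filter fun g : G => orderOf g = 2).card * x : ℕ) := by
    rw [← Finset.sum_filter_add_sum_filter_not _ (fun g : G => Odd (orderOf g)), sum_sq_odd,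
      Finset.sum_subset (Finset.filter_subset _ _) (fun g _ hg => van 2 Nat.prime_two (Or.inl rfl) g
        (by simpa [even_iff_two_dvd] using hg)), sum_irr_eq_zero χ.2 hχ1, zero_add,
      ← Finset.sum_subset (s₁ := Finset.univ.filter fun g : G => orderOf g = 2)]
    · rw [Finset.sum_congr rfl (g := fun _ => (x : ℂ)) fun g hg => by
        rw [← pow_two, ← (Finset.mem_filter.1 hg).2, pow_orderOf_eq_one, irr_deg_cast]]
      simp
    · intro g hg
      simp only [Finset.mem_filter, Finset.mem_univ, true_and] at hg ⊢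
      rw [hg]; decide
    · intro g hg hg2
      simp only [Finset.mem_filter, Finset.mem_univ, true_and, Nat.not_odd_iff_even] at hg hg2
      obtain ⟨m, hm⟩ := hg.two_dvd
      have h0 := (orderOf_pos g).ne'
      have h1 : orderOf (g * g) = m := by
        rw [← pow_two, orderOf_pow_of_dvd two_ne_zero hg.two_dvd, hm]; simp
      obtain ⟨p, hpp, k, hk⟩ := Nat.exists_prime_and_dvd (show m ≠ 1 by rintro rfl; exact hg2 hm)
      refine van p hpp (Or.inr ⟨g ^ (orderOf g / (2 * p)), orderOf_pow_orderOf_div h0 ⟨k, ?_⟩⟩) _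
        ⟨k, h1.trans hk⟩
      rw [hm, hk, mul_assoc]
  set t := (Finset.univ.filter fun g : G => orderOf g = 2).card with ht
  have hν : fsInd (χ : G → ℂ) = 1 := by
    have : Fact (Nat.Prime 2) := ⟨Nat.prime_two⟩
    obtain ⟨z, hz⟩ := exists_prime_orderOf_dvd_card' (G := G) 2 heven.two_dvd
    have h1 : 0 < t * x := Nat.mul_pos (Finset.card_pos.2 ⟨z, by simpa using hz⟩) (deg_pos χ.2)
    have h3 : fsInd (χ : G → ℂ) * Nat.card G = (t * x : ℕ) := by
      rw [fsInd, hsum, mul_comm, mul_inv_cancel_left₀ natCard_ne_zero]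
    rcases fsInd_trichotomy χ.2 with e | e | e
    · rw [e, zero_mul] at h3
      exact absurd (Nat.cast_eq_zero.1 h3.symm) h1.ne'
    · exact e
    · rw [e] at h3
      have : ((Nat.card G + t * x : ℕ) : ℂ) = 0 := by rw [Nat.cast_add, ← h3]; ring
      have := Nat.cast_eq_zero.1 this
      omega
  have htx : t * x = Nat.card G := by
    have h3 := hν
    rw [fsInd, hsum, inv_mul_eq_one₀ natCard_ne_zero] at h3
    exact_mod_cast h3.symm
  have key : ∀ s : G, orderOf s = 2 → Nat.card (Subgroup.centralizer ({s} : Set G)) = x ∧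
      ∀ u : G, orderOf u = 2 → IsConj s u := by
    intro s hs
    set C := Subgroup.centralizer ({s} : Set G) with hCs
    obtain ⟨m, hm⟩ := exists_classInner_eq_nat (isCharacter_restrict C (irr_isCharacter χ)) isCharacter_one
    rw [classInner_one_right, Finset.sum_eq_single (1 : C), inv_mul_eq_iff_eq_mul₀ natCard_ne_zero,
      OneMemClass.coe_one, ← irr_deg_cast] at hm
    · have h1 : Nat.card C ≤ x := Nat.le_of_dvd (deg_pos χ.2) ⟨m, by exact_mod_cast hm⟩
      have h3 := card_isConj_mul_card_centralizer s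
      rw [Nat.card_eq_fintype_card, Fintype.card_subtype] at h3
      have h4 : (Finset.univ.filter fun u : G => IsConj s u) ⊆
          Finset.univ.filter fun g : G => orderOf g = 2 := fun u hu => by
        obtain ⟨c, rfl⟩ := isConj_iff.1 (Finset.mem_filter.1 hu).2
        simp only [Finset.mem_filter, Finset.mem_univ, true_and]
        rw [← MulAut.conj_apply, MulEquiv.orderOf_eq, hs]
      have h5 := Finset.card_le_card h4
      have h6 : t ≤ (Finset.univ.filter fun u : G => IsConj s u).card :=
        Nat.le_of_mul_le_mul_right (by rw [htx, ← h3]; exact Nat.mul_le_mul_left _ h1) (deg_pos χ.2)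
      have h7 := Finset.eq_of_subset_of_card_le h4 h6
      refine ⟨?_, fun u hu => ?_⟩
      · rw [h7, ← htx] at h3
        exact Nat.eq_of_mul_eq_mul_left (Finset.card_pos.2 ⟨s, by simpa using hs⟩) h3
      · have : u ∈ Finset.univ.filter fun u : G => IsConj s u := by rw [h7]; simpa using hu
        exact (Finset.mem_filter.1 this).2
    · intro c _ hc
      obtain ⟨p, hpp, hd⟩ := Nat.exists_prime_and_dvd (mt orderOf_eq_one_iff.1 hc)
      exact van p hpp (hC s hs p hpp (hd.trans (orderOf_dvd_natCard c))) c (by rwa [Subgroup.orderOf_coe])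
    · simp
  refine ⟨fun s u hs hu => (key s hs).2 u hu, fun s hs => ⟨(key s hs).1, ?_⟩, hν⟩
  refine Nat.coprime_of_dvd fun p hpp h1 h3 => ?_
  apply Nat.pow_succ_factorization_not_dvd hG0 hpp
  have h4 := hdv p hpp (hC s hs p hpp h1)
  rw [← (key s hs).1] at h4
  have := Nat.mul_dvd_mul h4 h3
  rwa [Subgroup.card_mul_index] at this

end Cfsg.Agent.S4478
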