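import Mathlib
import Cfsg.Statements.S4479
import Cfsg.Agent.Lib.Block.Klein2
-- import your own Cfsg.Agent.* helpers here

set_option autoImplicit false
open Cfsg

namespace Cfsg.Agent.S4479

open CfsgLib CfsgLib.Block CfsgLib.Char

/-- An order formula from the principal 2-block. Let G be a finite group of order 4·g₀ with g₀ odd having no normal 2-complement (no normal subgroup of order g₀); let P be a Sylow 2-subgroup, J an involution of P, and fix a maximal ideal M of the algebraic integers containing 2. Suppose the principal 2-block consists of the principal character and three further distinct characters χ₁, χ₂, χ₃ of degrees x₁, x₂, x₃, with χ_i(J) = ε_i = ±1. Then, writing c(J) and c(P) for the orders of the centralizers of J and of P, the order of G equals 8·α·c(J)³/c(P)² with α = x₁x₂x₃ / ((x₁ + ε₁)(x₂ + ε₂)(x₃ + ε₃)). -/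
theorem result {G : Type*} [Group G] [Finite G] (M : Ideal Cfsg.AlgInt) (hM : Cfsg.IsPModular 2 M) (g₀ : ℕ) (hg₀ : Odd g₀) (hG : Nat.card G = 4 * g₀) (hnc : ¬ ∃ N : Subgroup G, N.Normal ∧ Nat.card N = g₀) (P : Sylow 2 G) (J : G) (hJ : J ∈ (P : Subgroup G)) (hJ2 : orderOf J = 2) (χ₁ χ₂ χ₃ : Cfsg.IrrCharacter G) (ε₁ ε₂ ε₃ : ℤ) (hB : Cfsg.principalBlock M G = {χ : Cfsg.IrrCharacter G | (χ : G → ℂ) = (fun _ => 1) ∨ χ = χ₁ ∨ χ = χ₂ ∨ χ = χ₃}) (hdist : (χ₁ : G → ℂ) ≠ (fun _ => 1) ∧ (χ₂ : G → ℂ) ≠ (fun _ => 1) ∧ (χ₃ : G → ℂ) ≠ (fun _ => 1) ∧ χ₁ ≠ χ₂ ∧ χ₁ ≠ χ₃ ∧ χ₂ ≠ χ₃) (hε : (ε₁ = 1 ∨ ε₁ = -1) ∧ (ε₂ = 1 ∨ ε₂ = -1) ∧ (ε₃ = 1 ∨ ε₃ = -1)) (hval : (χ₁ : G → ℂ) J = ε₁ ∧ (χ₂ : G → ℂ) J = ε₂ ∧ (χ₃ : G → ℂ) J = ε₃) : (Nat.card G : ℚ) = 8 * (((Cfsg.charDegree (χ₁ : G → ℂ) : ℚ) * Cfsg.charDegree (χ₂ : G → ℂ) * Cfsg.charDegree (χ₃ : G → ℂ)) / ((Cfsg.charDegree (χ₁ : G → ℂ)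 + ε₁) * (Cfsg.charDegree (χ₂ : G → ℂ) + ε₂) * (Cfsg.charDegree (χ₃ : G → ℂ) + ε₃))) * (Nat.card (Subgroup.centralizer ({J} : Set G)) : ℚ) ^ 3 / (Nat.card (Subgroup.centralizer ((P : Subgroup G) : Set G)) : ℚ) ^ 2 := by
  obtain ⟨hP, hone⟩ := klein_setup hg₀ hG hnc P
  have h := congrArg (Int.cast (R := ℚ)) (klein_eqs hM P hP hone hJ hJ2 hB hdist hε hval).2
  push_cast at h
  have d1 := Nat.pos_of_ne_zero (charDegree_ne_zero χ₁.2)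
  have d2 := Nat.pos_of_ne_zero (charDegree_ne_zero χ₂.2)
  have d3 := Nat.pos_of_ne_zero (charDegree_ne_zero χ₃.2)
  have c1 := Nat.card_pos (α := BrPair.Ce J)
  have c2 : (Nat.card (BrPair.Cz (P : Subgroup G)) : ℚ) ≠ 0 := Nat.cast_ne_zero.2 Nat.card_pos.ne'
  have h0 : ((charDegree (χ₁ : G → ℂ) : ℚ) + ε₁) * (charDegree (χ₂ : G → ℂ) + ε₂) *
      (charDegree (χ₃ : G → ℂ) + ε₃) ≠ 0 := fun h0 => by
    rw [h0, mul_zero, zero_mul] at h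
    exact absurd h (ne_of_lt (by positivity))
  rw [eq_div_iff (pow_ne_zero 2 c2), mul_div_assoc', div_mul_eq_mul_div, eq_div_iff h0]
  linear_combination h

end Cfsg.Agent.S4479
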