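import Mathlib
import Cfsg.Statements.S4480
import Cfsg.Agent.Lib.Block.Klein2
import Cfsg.Agent.S0895
-- import your own Cfsg.Agent.* helpers here

set_option autoImplicit false
open Cfsg

namespace Cfsg.Agent.S4480

open CfsgLib CfsgLib.Block CfsgLib.Char

/-- Same setting as the Klein-four order formula: G of order 4·g₀ (g₀ odd) with no normal 2-complement, P a Sylow 2-subgroup, J an involution of P, M over 2, principal 2-block {1, χ₁, χ₂, χ₃} with χ_i(J) = ε_i = ±1. Suppose ε₁ε₂ε₃ = −1 and ε₃ = −1, and put q = x₃ = χ₃(1). Then there is a natural number m with 4·c(J) = m·c(P)·(q + 1), and the order of G equals (m³·c(P)/4)·(q³ − q)/2, that is 8·#G = m³·c(P)·(q³ − q). -/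
theorem result {G : Type*} [Group G] [Finite G] (M : Ideal Cfsg.AlgInt) (hM : Cfsg.IsPModular 2 M) (g₀ : ℕ) (hg₀ : Odd g₀) (hG : Nat.card G = 4 * g₀) (hnc : ¬ ∃ N : Subgroup G, N.Normal ∧ Nat.card N = g₀) (P : Sylow 2 G) (J : G) (hJ : J ∈ (P : Subgroup G)) (hJ2 : orderOf J = 2) (χ₁ χ₂ χ₃ : Cfsg.IrrCharacter G) (ε₁ ε₂ ε₃ : ℤ) (hB : Cfsg.principalBlock M G = {χ : Cfsg.IrrCharacter G | (χ : G → ℂ) = (fun _ => 1) ∨ χ = χ₁ ∨ χ = χ₂ ∨ χ = χ₃}) (hdist : (χ₁ : G → ℂ) ≠ (fun _ => 1) ∧ (χ₂ : G → ℂ) ≠ (fun _ => 1) ∧ (χ₃ : G → ℂ) ≠ (fun _ => 1) ∧ χ₁ ≠ χ₂ ∧ χ₁ ≠ χ₃ ∧ χ₂ ≠ χ₃) (hε : (ε₁ = 1 ∨ ε₁ = -1) ∧ (ε₂ = 1 ∨ ε₂ = -1) ∧ (ε₃ = 1 ∨ ε₃ = -1)) (hval : (χ₁ : G → ℂ) J = ε₁ ∧ (χ₂ : G → ℂ) J = ε₂ ∧ (χ₃ : G → ℂ) J = ε₃) (hprod : ε₁ * ε₂ * ε₃ = -1) (hε₃ : ε₃ = -1) : ∃ m : ℕ, 4 * Nat.card (Subgroup.centralizer ({J} : Set G)) = m * Nat.card (Subgroup.centralizer ((P : Subgroup G) : Set G))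 * (Cfsg.charDegree (χ₃ : G → ℂ) + 1) ∧ 8 * Nat.card G = m ^ 3 * Nat.card (Subgroup.centralizer ((P : Subgroup G) : Set G)) * (Cfsg.charDegree (χ₃ : G → ℂ) ^ 3 - Cfsg.charDegree (χ₃ : G → ℂ)) := by
  classical
  have := Fintype.ofFinite G
  obtain ⟨hP, hone⟩ := klein_setup hg₀ hG hnc P
  obtain ⟨h1, h2⟩ := klein_eqs hM P hP hone hJ hJ2 hB hdist hε hval
  have d1 := Nat.pos_of_ne_zero (charDegree_ne_zero χ₁.2)
  have d2 := Nat.pos_of_ne_zero (charDegree_ne_zero χ₂.2)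
  subst hε₃
  obtain ⟨rfl, rfl⟩ : ε₁ = 1 ∧ ε₂ = 1 := by
    rcases hε with ⟨rfl | rfl, rfl | rfl, -⟩ <;> omega
  obtain ⟨n, hn, hn4, hn1, -⟩ := klein_principal hM P hP hone
  have hodd : ∀ χ ∈ principalBlock M G, Odd (charDegree (χ : G → ℂ)) := fun χ hχ => by
    have := hn4 χ
    have := hn1 χ hχ
    exact Nat.odd_iff.2 (by omega)
  have hν : ∀ χ ∈ principalBlock M G, irrBar χ = χ → fsInd (χ : G → ℂ) = 1 := fun χ hχ h =>
    S0895.result _ χ.2 (fun g => Complex.conj_eq_iff_im.1 (by rw [← irrBar_apply', h])) _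
      (charDegree_eq (irr_isCharacter χ)).symm (hodd χ hχ)
  have hν' : ∀ χ ∈ principalBlock M G, fsInd (χ : G → ℂ) = 1 ∨ fsInd (χ : G → ℂ) = 0 :=
    fun χ hχ => (em _).imp (hν χ hχ) fsInd_eq_zero_of_irrBar_ne
  have m1 : χ₁ ∈ principalBlock M G := by simp [hB]
  have hx : charDegree (χ₂ : G → ℂ) = charDegree (χ₁ : G → ℂ) := by
    have h3 := klein_sum_fsInd hM P hP hJ2
    rw [sum_four hB hdist, hval.1, hval.2.1, hval.2.2, hν _ (irrOne_mem_principalBlock hM) rfl,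
      irrOne_apply] at h3
    have h4 := irrBar_mem_principalBlock m1
    rw [hB] at h4
    rcases h4 with h4 | h4 | h4 | h4
    · exact absurd (funext fun g => by simpa [irrBar_apply] using congrFun h4 g⁻¹) hdist.1
    · rw [hν _ m1 h4] at h3
      rcases hν' χ₂ (by simp [hB]) with h5 | h5 <;> rcases hν' χ₃ (by simp [hB]) with h6 | h6 <;>
        rw [h5, h6] at h3 <;> norm_num at h3
    · exact_mod_cast (charDegree_eq (irr_isCharacter χ₂)).trans ((h4 ▸ irrBar_one χ₁).trans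
        (charDegree_eq (irr_isCharacter χ₁)).symm)
    · have h5 := hval.2.2
      rw [← h4, irrBar_apply, Invol.inv_of_orderOf_two hJ2, hval.1] at h5
      norm_num at h5
  obtain ⟨k, hk⟩ := hodd χ₁ m1
  have hq : charDegree (χ₃ : G → ℂ) = 4 * k + 3 := by omega
  obtain ⟨r, hr⟩ : Nat.card (BrPair.Cz (P : Subgroup G)) ∣ Nat.card (BrPair.Ce J) :=
    Subgroup.card_dvd_of_le (Subgroup.centralizer_le (Set.singleton_subset_iff.2 hJ))
  have hi := (BrPair.Ce J).card_mul_index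
  have c1 := Nat.card_pos (α := BrPair.Cz (P : Subgroup G))
  have c2 := Nat.card_pos (α := BrPair.Ce J)
  change ∃ m, 4 * Nat.card (BrPair.Ce J) = m * Nat.card (BrPair.Cz (P : Subgroup G)) * _ ∧
    _ = m ^ 3 * Nat.card (BrPair.Cz (P : Subgroup G)) * _
  rw [hx, hk, hq, ← hi, hr] at h2
  rw [hq, ← hi, hr]
  rw [hr] at c2
  generalize Nat.card (BrPair.Cz (P : Subgroup G)) = c at *
  generalize (BrPair.Ce J).index = i at *
  have hr0 : 0 < r := Nat.pos_of_mul_pos_left c2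
  have h3 : i * (k + 1) ^ 2 = r ^ 2 * ((4 * k + 3) * (2 * k + 1)) := by
    have h4 : (0 : ℤ) < 8 * (c ^ 3 * r * (2 * k + 1)) := by positivity
    zify
    refine mul_left_cancel₀ h4.ne' ?_
    push_cast at h2
    linear_combination h2
  have hc : (k + 1).Coprime ((4 * k + 3) * (2 * k + 1)) :=
    Nat.Coprime.mul_right (Nat.isCoprime_iff_coprime.1 ⟨4, -1, by push_cast; ring⟩)
      (Nat.isCoprime_iff_coprime.1 ⟨2, -1, by push_cast; ring⟩)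
  obtain ⟨m, rfl⟩ : k + 1 ∣ r := (Nat.pow_dvd_pow_iff two_ne_zero).1
    ((hc.pow_left 2).dvd_of_dvd_mul_right ⟨i, by rw [← h3, mul_comm]⟩)
  have h4 : i = m ^ 2 * ((4 * k + 3) * (2 * k + 1)) :=
    Nat.eq_of_mul_eq_mul_right (by positivity : 0 < (k + 1) ^ 2) (by rw [h3]; ring)
  refine ⟨m, by ring, ?_⟩
  rw [h4, show (4 * k + 3) ^ 3 - (4 * k + 3) = (4 * k + 3) * (4 * k + 2) * (4 * k + 4) from
    Nat.sub_eq_of_eq_add (by ring)]
  ring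

end Cfsg.Agent.S4480
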