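import Mathlib
import Cfsg.Statements.S4482
import Cfsg.Agent.Lib.Block.DihCount
-- import your own Cfsg.Agent.* helpers here

set_option autoImplicit false
open Cfsg

namespace Cfsg.Agent.S4482

open CfsgLib CfsgLib.Block CfsgLib.Char CfsgLib.DihSyl

/-- An order formula for groups with dihedral Sylow 2-subgroups and one class of involutions. Let G be a finite group whose Sylow 2-subgroup P = ⟨σ, τ⟩ is dihedral of order 2^n ≥ 8 (σ of order 2^(n−1), τ an involution inverting σ), let J be the central involution σ^(2^(n−2)), and suppose J, τ and στ are conjugate in G. Fix M over 2 and let χ₁ be an irreducible character in the principal 2-block taking one constant value δ₁ = ±1 at every non-identity power of σ, with χ₁ ≠ 1. Then, with x₁ = χ₁(1) and c(·) denoting orders of centralizers, x₁ ≠ δ₁ and #G · (x₁ − δ₁)² = 2·x₁(x₁ + δ₁)·c(J)³·(1/c(J, τ) + 1/c(J, στ))², where c(J, y) is the order of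 the joint centralizer of J and y. -/
theorem result {G : Type*} [Group G] [Finite G] (M : Ideal Cfsg.AlgInt) (hM : Cfsg.IsPModular 2 M) (n : ℕ) (hn : 3 ≤ n) (P : Sylow 2 G) (σ τ : G) (hσ : σ ∈ (P : Subgroup G)) (hτ : τ ∈ (P : Subgroup G)) (hσo : orderOf σ = 2 ^ (n - 1)) (hτo : orderOf τ = 2) (hrel : τ * σ * τ⁻¹ = σ⁻¹) (hgen : Subgroup.closure ({σ, τ} : Set G) = (P : Subgroup G)) (hconj : IsConj (σ ^ (2 ^ (n - 2))) τ ∧ IsConj (σ ^ (2 ^ (n - 2))) (σ * τ)) (χ₁ : Cfsg.IrrCharacter G) (hχ₁ : χ₁ ∈ Cfsg.principalBlock M G) (h1 : (χ₁ : G → ℂ) ≠ (fun _ => 1)) (δ₁ : ℤ) (hδ₁ : δ₁ = 1 ∨ δ₁ = -1) (hval : ∀ l : ℕ, 0 < l → l < 2 ^ (n - 1) → (χ₁ : G → ℂ) (σ ^ l) = δ₁) : (Cfsg.charDegree (χ₁ : G → ℂ) : ℤ) ≠ δ₁ ∧ (Nat.card G : ℚ) * ((Cfsg.charDegree (χ₁ : G → ℂ) : ℚ) - δ₁) ^ 2 = 2 * (Cfsg.charDegree (χ₁ : G → ℂ) : ℚ) * ((Cfsg.charDegree (χ₁ : G → ℂ) : ℚ) + δ₁) * (Nat.card (Subgroup.centralizer ({σ ^ (2 ^ (n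 - 2))} : Set G)) : ℚ) ^ 3 * (1 / (Nat.card (Subgroup.centralizer ({σ ^ (2 ^ (n - 2)), τ} : Set G)) : ℚ) + 1 / (Nat.card (Subgroup.centralizer ({σ ^ (2 ^ (n - 2)), σ * τ} : Set G)) : ℚ)) ^ 2 := by
  classical
  have e : 2 ^ (n - 1) = 2 * 2 ^ (n - 2) := by rw [← pow_succ']; congr 1; omega
  obtain ⟨k, hk⟩ : ∃ k, 2 ^ (n - 2) = 2 * k := ⟨2 ^ (n - 3), by rw [← pow_succ']; congr 1; omega⟩
  have hm : 2 ≤ 2 ^ (n - 2) := Nat.le_self_pow (by omega) 2
  rw [e] at hσo hval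
  generalize 2 ^ (n - 2) = m at *
  have hτ2 := Invol.mul_self_of_orderOf_two hτo
  have h : IsDih (P : Subgroup G) (2 * m) σ τ := by
    refine ⟨hσo, hτ2, hrel, ?_, fun g => ?_⟩
    · rintro ⟨i, rfl⟩
      have h1 : σ ^ 2 = 1 := by
        rw [sq]; nth_rw 1 [← inv_inv σ, ← hrel]; group
      have := Nat.le_of_dvd two_pos (hσo ▸ orderOf_dvd_of_pow_eq_one h1)
      omega
    · rw [← hgen, Set.pair_comm, Invol.mem_closure_of_inverts_iff hτ2 hrel]
      constructor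
      · rintro ⟨i, hi | hi⟩
        exacts [⟨i, Or.inl hi⟩, ⟨-i, Or.inr (hi.trans (Invol.mul_zpow_of_inverts hrel i))⟩]
      · rintro ⟨i, hi | hi⟩
        exacts [⟨i, Or.inl hi⟩, ⟨-i, Or.inr (hi.trans (Invol.zpow_mul_of_inverts hrel i))⟩]
  have hc : ∀ i : ℤ, IsConj (σ ^ m) (σ ^ i * τ) := fun i => by
    obtain ⟨j, rfl | rfl⟩ := Int.even_or_odd' i
    · exact hconj.1.trans (isConj_iff.2 ⟨σ ^ j, by simpa using h.rpow_conj_rpows j 0⟩)
    · exact hconj.2.trans (isConj_iff.2 ⟨σ ^ j, by simpa [add_comm] using h.rpow_conj_rpows j 1⟩)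
  have hζ := Complex.isPrimitiveRoot_exp (2 * m) (by omega)
  obtain ⟨-, a, b, c, x, δ, δ₂, δ₃, k1, k2, k3, k4, k5, k6, k7, k8, k9, k10, k11, k12, k13, k14⟩ :=
    dih_principal hm h hM hζ
  have hζm := (hζ.pow (by omega) (mul_comm 2 m)).eq_neg_one_of_two_right
  have hxJ : ∀ j, (x j : G → ℂ) (σ ^ m) = 2 * δ ∨ (x j : G → ℂ) (σ ^ m) = -2 * δ := fun j => by
    rw [(k13 m (by omega) (by omega)).2.2.2 j, mul_comm (j + 1 : ℕ) m, pow_mul, hζm]
    rcases neg_one_pow_eq_or ℂ (j + 1) with h1 | h1 <;> rw [h1]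
    · left; ring
    · right; ring
  obtain rfl : χ₁ = a := by
    have v1 := hval 1 one_pos (by omega)
    have v2 := hval 2 two_pos (by omega)
    have w1 := k13 1 one_pos (by omega)
    have w2 := k13 2 two_pos (by omega)
    have h0 : (δ₁ : ℂ) ≠ 0 := by rcases hδ₁ with rfl | rfl <;> simp
    rcases (k12 χ₁).1 hχ₁ with rfl | rfl | rfl | rfl | ⟨j, rfl⟩
    · exact absurd rfl h1
    · rfl
    · exact absurd (by linear_combination (w1.2.1 + w2.2.1 - v1 - v2) / 2) h0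
    · exact absurd (by linear_combination (w1.2.2.1 + w2.2.2.1 - v1 - v2) / 2) h0
    · have := hxJ j
      rw [hval m (by omega) (by omega)] at this
      norm_cast at this
      omega
  obtain rfl : δ₁ = δ := by
    exact_mod_cast (hval 1 one_pos (by omega)).symm.trans (k13 1 one_pos (by omega)).1
  have hsum : ∀ f : IrrCharacter G → ℂ, ∑ χ ∈ Finset.univ.filter (· ∈ principalBlock M G), f χ =
      f (irrOne G) + (f χ₁ + (f b + (f c + ∑ j, f (x j)))) := fun f => by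
    rw [show Finset.univ.filter (· ∈ principalBlock M G) = insert (irrOne G) (insert χ₁ (insert b
      (insert c (Finset.univ.image x)))) by ext χ; simp [k12, eq_comm], Finset.sum_insert,
      Finset.sum_insert, Finset.sum_insert, Finset.sum_insert, Finset.sum_image k4.injOn]
    · simp [fun j => (k11 j).2.2.1]
    · simp [fun j => (k11 j).2.1, k10]
    · simp [fun j => (k11 j).1, k8, k9]
    · simp [fun j => (k11 j).2.2.2, k5.symm, k6.symm, k7.symm]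
  have hδ : (δ₁ : ℂ) * δ₁ = 1 := by rcases k1 with rfl | rfl <;> simp
  have hδ2 : (δ₂ : ℂ) * δ₂ = 1 := by rcases k2 with rfl | rfl <;> simp
  have hδ3 : (δ₃ : ℂ) * δ₃ = 1 := by rcases k3 with rfl | rfl <;> simp
  have hx1 : ∀ j, (x j : G → ℂ) 1 = (χ₁ : G → ℂ) 1 + δ₁ := fun j => by
    linear_combination -δ₁ * (k14 1 (by simp) j).2 + ((χ₁ : G → ℂ) 1 - (x j : G → ℂ) 1) * hδ
  have hx0 : (χ₁ : G → ℂ) 1 + δ₁ ≠ 0 := hx1 ⟨0, by omega⟩ ▸ irr_one_ne_zero (x _).2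
  have hS : ∀ l : ℕ, 0 < l → l < 2 * m →
      ∑ j, (x j : G → ℂ) (σ ^ l) = -δ₁ * (1 + (-1) ^ l) := fun l h0 hl => by
    have := block_orth hM isPBlock_principalBlock (isPPart_self Nat.prime_two
      (pElt_of_mem_isPGroup Nat.prime_two P.isPGroup' ((P : Subgroup G).pow_mem hσ l)))
      (isPPart_one (y := 1) (by simp)) fun hc => pow_ne_one_of_lt_orderOf h0.ne' (hσo ▸ hl)
        (isConj_one_left.1 hc)
    obtain ⟨w1, w2, w3, -⟩ := k13 l h0 hl
    rw [finsum_mem_irr', inv_one, hsum, w1, w2, w3] at this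
    simp only [hx1, ← Finset.sum_mul, irrOne_apply] at this
    refine mul_right_cancel₀ hx0 ?_
    linear_combination this + (-1) ^ l * (k14 1 (by simp) ⟨0, by omega⟩).1 + (1 + (-1) ^ l) * hδ
  obtain ⟨g, o, ho, hg, hgc, hF⟩ := Dih.local_sum h (by omega) hM hc
  have hJ : (σ ^ m)⁻¹ = σ ^ m := by
    rw [inv_eq_iff_mul_eq_one, ← pow_add, ← two_mul, ← hσo, pow_orderOf_eq_one]
  have hev : (-1 : ℂ) ^ m = 1 := by rw [hk, pow_mul]; simp
  have hFl : ∀ l : ℕ, 0 < l → l < 2 * m → (o : ℂ)⁻¹ * (m * (g 0 * g (0 - l) + g 1 * g (1 - l)) : ℕ)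
      = (Nat.card G : ℂ) / (Nat.card (BrPair.Ce (σ ^ m)) * Nat.card (BrPair.Ce (σ ^ m))) *
      (1 + δ₁ / (χ₁ : G → ℂ) 1 - (-1) ^ l * (δ₂ / (b : G → ℂ) 1 + δ₃ / (c : G → ℂ) 1) -
        4 * δ₁ * (1 + (-1) ^ l) / ((χ₁ : G → ℂ) 1 + δ₁)) := fun l h0 hl => by
    obtain ⟨w1, w2, w3, -⟩ := k13 l h0 hl
    obtain ⟨v1, v2, v3, -⟩ := k13 m (by omega) (by omega)
    rw [← hF l (by simpa using pow_ne_one_of_lt_orderOf h0.ne' (hσo ▸ hl)), blockPart_pairN,
      hsum, hJ, zpow_natCast, w1, w2, w3, v1, v2, v3, Finset.sum_congr rfl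
        (g := fun j => 4 / ((χ₁ : G → ℂ) 1 + δ₁) * (x j : G → ℂ) (σ ^ l)) fun j _ => by
        rcases hxJ j with h2 | h2 <;> rw [h2, hx1] <;>
          linear_combination (4 * (x j : G → ℂ) (σ ^ l) / ((χ₁ : G → ℂ) 1 + δ₁)) * hδ,
      ← Finset.mul_sum, hS l h0 hl, pow_succ, pow_succ, hev]
    simp only [irrOne_apply]
    congr 1
    linear_combination (δ₁ / (χ₁ : G → ℂ) 1) * hδ - (-1) ^ l * (δ₂ / (b : G → ℂ) 1) * hδ2 -
      (-1) ^ l * (δ₃ / (c : G → ℂ) 1) * hδ3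
  have hp : Function.Periodic g 2 := hg
  have F1 := hFl 1 one_pos (by omega)
  have F2 := hFl m (by omega) (by omega)
  have e1 : g (0 - (1 : ℕ)) = g 1 := by simpa using (hg (-1)).symm
  have e2 : ∀ i, g (i - m) = g i := fun i => by
    rw [← hp.sub_int_mul_eq (x := i) k, hk]; congr 1; push_cast; ring
  rw [e1, Nat.cast_one, sub_self] at F1
  rw [e2, e2, hev] at F2
  have c0 := hgc 0
  have c1 := hgc 1
  rw [zpow_zero, one_mul] at c0
  rw [zpow_one] at c1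
  have hx := irr_one_ne_zero χ₁.2
  rw [← charDegree_eq (irr_isCharacter χ₁)] at hx hx0 F1 F2
  have hC := card_Ce_ne_zero (σ ^ m)
  have hC0 : (Nat.card (Subgroup.centralizer ({σ ^ m, τ} : Set G)) : ℂ) ≠ 0 :=
    Nat.cast_ne_zero.2 Nat.card_pos.ne'
  have hC1 : (Nat.card (Subgroup.centralizer ({σ ^ m, σ * τ} : Set G)) : ℂ) ≠ 0 :=
    Nat.cast_ne_zero.2 Nat.card_pos.ne'
  have hm0 : (m : ℂ) ≠ 0 := Nat.cast_ne_zero.2 (by omega)
  have key : (Nat.card G : ℂ) * ((charDegree (χ₁ : G → ℂ) : ℂ) - δ₁) ^ 2 =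
      2 * (charDegree (χ₁ : G → ℂ) : ℂ) * ((charDegree (χ₁ : G → ℂ) : ℂ) + δ₁) *
      (Nat.card (BrPair.Ce (σ ^ m)) : ℂ) ^ 3 *
      (1 / (Nat.card (Subgroup.centralizer ({σ ^ m, τ} : Set G)) : ℂ) +
        1 / (Nat.card (Subgroup.centralizer ({σ ^ m, σ * τ} : Set G)) : ℂ)) ^ 2 := by
    have F := congrArg₂ (· + ·) F1 F2
    have ho' : (o : ℂ) = Nat.card (BrPair.Ce (σ ^ m)) / (4 * m) := by
      rw [← ho]; push_cast; field_simp
    have c0' : (g 0 : ℂ) = Nat.card (BrPair.Ce (σ ^ m)) /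
        (m * Nat.card (Subgroup.centralizer ({σ ^ m, τ} : Set G))) := by
      rw [← c0]; push_cast; field_simp
    have c1' : (g 1 : ℂ) = Nat.card (BrPair.Ce (σ ^ m)) /
        (m * Nat.card (Subgroup.centralizer ({σ ^ m, σ * τ} : Set G))) := by
      rw [← c1]; push_cast; field_simp
    push_cast at F
    rw [ho', c0', c1'] at F
    field_simp at F ⊢
    linear_combination (-1 / 2 : ℂ) * F
  have key' : (Nat.card G : ℚ) * ((charDegree (χ₁ : G → ℂ) : ℚ) - δ₁) ^ 2 =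
      2 * (charDegree (χ₁ : G → ℂ) : ℚ) * ((charDegree (χ₁ : G → ℂ) : ℚ) + δ₁) *
      (Nat.card (BrPair.Ce (σ ^ m)) : ℚ) ^ 3 *
      (1 / (Nat.card (Subgroup.centralizer ({σ ^ m, τ} : Set G)) : ℚ) +
        1 / (Nat.card (Subgroup.centralizer ({σ ^ m, σ * τ} : Set G)) : ℚ)) ^ 2 := by
    apply Rat.cast_injective (α := ℂ)
    push_cast
    exact key
  refine ⟨fun h0 => ?_, key'⟩
  have h2 : (charDegree (χ₁ : G → ℂ) : ℚ) = δ₁ := by exact_mod_cast h0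
  have h3 : (0 : ℚ) < charDegree (χ₁ : G → ℂ) := by
    exact_mod_cast Nat.pos_of_ne_zero (charDegree_ne_zero χ₁.2)
  rw [← h2, sub_self] at key'
  have := Nat.card_pos (α := BrPair.Ce (σ ^ m))
  have := Nat.card_pos (α := Subgroup.centralizer ({σ ^ m, τ} : Set G))
  have := Nat.card_pos (α := Subgroup.centralizer ({σ ^ m, σ * τ} : Set G))
  exact absurd key' (ne_of_lt (by rw [zero_pow two_ne_zero, mul_zero]; positivity))

end Cfsg.Agent.S4482
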