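import Cfsg.Statements.S4485
import Cfsg.Agent.Lib.Exc.Leonard

set_option autoImplicit false
open Cfsg

namespace Cfsg.Agent.S4485

/-- Let G be a finite group and p a prime dividing its order such that every non-identity element of a Sylow p-subgroup P has the same centralizer as P itself (so P is abelian); let p^n be the order of P. If G has a faithful character of degree x with x² < p^n − 1, then P is normal in G. -/
theorem result {G : Type*} [Group G] [Finite G] (p : ℕ) (hp : p.Prime) (hpG : p ∣ Nat.card G) (P : Sylow p G) (hstar : ∀ x ∈ (P : Subgroup G), x ≠ 1 → Subgroup.centralizer ({x} : Set G) = Subgroup.centralizer ((P : Subgroup G) : Set G)) (n : ℕ) (hn : Nat.card P = p ^ n) (χ : G → ℂ) (hχ : Cfsg.IsCharacter G χ) (hfaith : ∀ g : G, χ g = χ 1 → g = 1) (hdeg : Cfsg.charDegree χ ^ 2 + 1 < p ^ n) : (P : Subgroup G).Normal := by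
  classical
  have := Fact.mk hp
  set K := Subgroup.normalClosure ((P : Subgroup G) : Set G) with hK
  have hPK : (P : Subgroup G) ≤ K := Subgroup.le_normalClosure
  let Q : Sylow p K := P.subtype hPK
  have hQ : ∀ x : K, x ∈ (Q : Subgroup K) ↔ (x : G) ∈ (P : Subgroup G) := fun x => Iff.rfl
  have hstar' : ∀ x ∈ (Q : Subgroup K), x ≠ 1 → Subgroup.centralizer ({x} : Set K) =
      Subgroup.centralizer ((Q : Subgroup K) : Set K) := by
    intro x hx hx1
    refine le_antisymm (fun y hy z hz => Subtype.ext ?_)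
      (Subgroup.centralizer_le (Set.singleton_subset_iff.2 hx))
    have : (y : G) ∈ Subgroup.centralizer ({(x : G)} : Set G) :=
      Subgroup.mem_centralizer_singleton_iff.2
        (congrArg Subtype.val (Subgroup.mem_centralizer_singleton_iff.1 hy))
    rw [hstar x hx fun h => hx1 (Subtype.ext h)] at this
    exact this z hz
  have hH : ∀ L : Subgroup K, L.Normal → (Q : Subgroup K) ≤ L → L = ⊤ := by
    intro L hL hQL
    have h1 : K ≤ L.map K.subtype := by
      refine (Subgroup.closure_le _).2 fun y hy => ?_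
      obtain ⟨u, hu, hc⟩ := Group.mem_conjugatesOfSet_iff.1 hy
      obtain ⟨g, rfl⟩ := isConj_iff.1 hc
      have h2 : ((g • P : Sylow p G) : Subgroup G) ≤ K := by
        rintro _ ⟨v, hv, rfl⟩
        exact (inferInstance : K.Normal).conj_mem _ (hPK hv) g
      obtain ⟨k, hk⟩ := MulAction.exists_smul_eq K Q ((g • P).subtype h2)
      have h3 : (⟨g * u * g⁻¹, h2 ⟨u, hu, rfl⟩⟩ : K) ∈ ((k • Q : Sylow p K) : Subgroup K) := by
        rw [hk]; exact ⟨u, hu, rfl⟩
      obtain ⟨v, hv, hv'⟩ := h3
      exact ⟨_, hL.conj_mem _ (hQL hv) k, congrArg Subtype.val hv'⟩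
    exact eq_top_iff.2 fun y _ => (Subgroup.mem_map_iff_mem K.subtype_injective).1 (h1 y.2)
  have := Fintype.ofFinite K
  have hχK := CfsgLib.Char.isCharacter_restrict K hχ
  obtain ⟨x, hx⟩ := CfsgLib.Char.exists_char_one_eq_nat hχ
  have hd : Cfsg.charDegree χ = x := by simp [Cfsg.charDegree, hx]
  have hcomm : commutator K = ⊥ := by
    refine (Subgroup.eq_bot_iff_forall _).2 fun y hy => Subtype.ext (hfaith _ ?_)
    have hcl := CfsgLib.Char.isClassFunction_of_isCharacter hχK
    refine (CfsgLib.Char.classFun_apply_eq_sum hcl y).trans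
      (Eq.trans ?_ (CfsgLib.Char.classFun_apply_eq_sum hcl 1).symm)
    refine Finset.sum_congr rfl fun ψ _ => ?_
    by_cases h1 : Cfsg.classInner (fun h : K => χ h) ψ = 0
    · rw [h1, zero_mul, zero_mul]
    by_cases h2 : (ψ : K → ℂ) = fun _ => 1
    · rw [h2]
    congr 1
    obtain ⟨d, -, hd'⟩ := CfsgLib.Char.exists_irr_one_eq_nat ψ.2
    obtain ⟨Ξ, hΞ, e⟩ := CfsgLib.Char.exists_eq_add_of_inner_ne_zero hχK ψ.2 h1
    obtain ⟨k, hk⟩ := CfsgLib.Char.exists_char_one_eq_nat hΞ
    have h3 := congrFun e 1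
    rw [Pi.add_apply, hd', hk, OneMemClass.coe_one, hx] at h3
    have h4 : x = d + k := by exact_mod_cast h3
    have h5 := (CfsgLib.Exc.linear_of_small_degree Q hstar' hH ψ.2 h2 hd' (by
      have : Nat.card Q = Nat.card P := Nat.card_congr (Subgroup.subgroupOfEquivOfLe hPK).toEquiv
      rw [this, hn]
      rw [hd, h4] at hdeg
      nlinarith)).1
    exact (CfsgLib.Char.mem_charKer (CfsgLib.Char.irr_isCharacter ψ)).1
      ((CfsgLib.Char.irr_one_eq_one_iff ψ.2).1 (by rw [hd', h5, Nat.cast_one]) hy)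
  have hQn : (Q : Subgroup K).Normal := Subgroup.Normal.of_commutator_le _ (hcomm ▸ bot_le)
  have := Q.characteristic_of_normal hQn
  have h6 : ((Q : Subgroup K).map K.subtype).Normal := inferInstance
  rwa [show (Q : Subgroup K).map K.subtype = P from Subgroup.map_subgroupOf_eq_of_le hPK] at h6

end Cfsg.Agent.S4485
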