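import Cfsg.Statements.S4489
import Cfsg.Agent.Lib.ChDeg.Avg
import Cfsg.Agent.Lib.ChDeg.Cliff
import Cfsg.Agent.Lib.Frob.Quaternion
import Cfsg.Agent.Lib.PGroup.Basic

set_option autoImplicit false
open Cfsg

namespace Cfsg.Agent.S4489


open CfsgLib CfsgLib.Char CfsgLib.ChDeg CfsgLib.PGroup Subgroup Module Polynomial
open scoped IntermediateField commutatorElement

theorem geom {p : ℕ} {r : ℂ} (h : r ^ p = 1) :
    ∑ i ∈ Finset.range p, r ^ i = if r = 1 then (p : ℂ) else 0 := by
  split_ifs with h1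
  · simp [h1]
  · rw [geom_sum_eq h1, h, sub_self, zero_div]

theorem field_bound {G : Type*} [Group G] [Finite G] {χ : G → ℂ} (hχ : IsCharacter G χ)
    (hf : cker χ = ⊥) (K : IntermediateField ℚ ℂ) [FiniteDimensional ℚ K] (hK : ∀ g, χ g ∈ K)
    {p m : ℕ} [hp : Fact p.Prime] {x : G} (hx : orderOf x = p ^ (m + 1)) :
    p ^ m * (p - 1) ≤ finrank ℚ K * charDegree χ := by
  classical
  obtain ⟨s, hs1, hs2, hs3⟩ := exists_eigenvalues hχ x
  rw [hx] at hs2
  obtain ⟨ζ, hζs, hζ⟩ : ∃ ζ ∈ s, ζ ^ p ^ m ≠ 1 := by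
    by_contra! H
    have h1 := hs3 (p ^ m : ℕ)
    rw [Multiset.map_congr rfl (g := fun _ => 1) fun ε hε => by rw [zpow_natCast, H ε hε],
      zpow_natCast] at h1
    have h2 := (cker_eq_bot_iff hχ).1 hf _ (h1.trans (by simp [hs1]))
    have h3 := orderOf_dvd_of_pow_eq_one h2
    rw [hx, Nat.pow_dvd_pow_iff_le_right hp.out.one_lt] at h3
    omega
  set N := p ^ (m + 1)
  have hN : N ≠ 0 := pow_ne_zero _ hp.out.ne_zero
  have hprim : IsPrimitiveRoot ζ N :=
    IsPrimitiveRoot.iff_orderOf.2 (orderOf_eq_prime_pow hζ (hs2 ζ hζs))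
  have hint : IsIntegral K ζ := (hprim.isIntegral (Nat.pos_of_ne_zero hN)).tower_top
  let q : K[X] := ∑ i ∈ Finset.range N, C ⟨χ (x ^ (-i : ℤ)), hK _⟩ * X ^ i
  have hq : ∀ μ : ℂ, μ ^ N = 1 → aeval μ q = N * s.count μ := by
    intro μ hμ
    have h1 : ∀ t : Multiset ℂ, (∀ ε ∈ t, ε ^ N = 1) → ∑ i ∈ Finset.range N,
        (t.map fun ε => ε ^ (-i : ℤ)).sum * μ ^ i = N * t.count μ := by
      intro t ht
      induction t using Multiset.induction_on with
      | empty => simp
      | cons ε t ih =>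
        have h2 := ht ε (Multiset.mem_cons_self _ _)
        have h3 : ε ≠ 0 := fun e => by simp [e, hN] at h2
        have h4 := geom (p := N) (r := ε⁻¹ * μ) (by rw [mul_pow, inv_pow, h2, hμ]; simp)
        simp only [Multiset.map_cons, Multiset.sum_cons, add_mul, Finset.sum_add_distrib]
        rw [ih fun ε h => ht ε (Multiset.mem_cons_of_mem h), Multiset.count_cons]
        simp only [zpow_neg, zpow_natCast, ← inv_pow, ← mul_pow, h4, inv_mul_eq_one₀ h3, eq_comm (a := ε)]
        split_ifs <;> simp [mul_add, add_comm]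
    rw [← h1 s hs2]
    simp only [q, map_sum, map_mul, map_pow, aeval_C, aeval_X, ← hs3]
    rfl
  have hdeg : (minpoly K ζ).natDegree ≤ charDegree χ := by
    have h1 : (minpoly K ζ).natDegree = ((minpoly K ζ).aroots ℂ).toFinset.card := by
      rw [Multiset.toFinset_card_of_nodup (nodup_roots ((minpoly.irreducible hint).separable.map)),
        ← (IsAlgClosed.splits _).natDegree_eq_card_roots, natDegree_map]
    rw [h1, deg_eq_of_eq hs1]
    refine (Finset.card_le_card fun μ hμ => ?_).trans (Multiset.toFinset_card_le s)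
    rw [Multiset.mem_toFinset] at hμ ⊢
    have h2 := (mem_aroots.1 hμ).2
    have h3 : μ ^ N = 1 := by
      have := aeval_eq_zero_of_dvd_aeval_eq_zero (minpoly.dvd K ζ (p := X ^ N - 1)
        (by simp [hprim.1])) h2
      simpa [sub_eq_zero] using this
    have h4 := aeval_eq_zero_of_dvd_aeval_eq_zero (minpoly.dvd K ζ
      (p := q - C ((N * s.count ζ : ℕ) : K)) (by rw [map_sub, hq ζ hprim.1]; simp)) h2
    rw [map_sub, hq μ h3, sub_eq_zero] at h4
    have h5 : N * s.count μ = N * s.count ζ := by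
      simp only [aeval_C, map_natCast] at h4
      exact_mod_cast h4
    rw [← Multiset.count_pos, Nat.eq_of_mul_eq_mul_left (Nat.pos_of_ne_zero hN) h5]
    exact Multiset.count_pos.2 hζs
  have := IntermediateField.adjoin.finiteDimensional hint
  have : FiniteDimensional ℚ K⟮ζ⟯ := FiniteDimensional.trans ℚ K K⟮ζ⟯
  have h1 := minpoly.natDegree_le (A := ℚ) (IntermediateField.AdjoinSimple.gen K ζ)
  rw [← minpoly.algebraMap_eq (B' := ℂ) (algebraMap K⟮ζ⟯ ℂ).injective,
    IntermediateField.AdjoinSimple.algebraMap_gen, ← cyclotomic_eq_minpoly_rat hprim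
    (Nat.pos_of_ne_zero hN), natDegree_cyclotomic, Nat.totient_prime_pow_succ hp.out,
    ← finrank_mul_finrank ℚ K, IntermediateField.adjoin.finrank hint] at h1
  exact h1.trans (Nat.mul_le_mul_left _ hdeg)

theorem step {G : Type*} [Group G] [Finite G] {p : ℕ} [hp : Fact p.Prime] (hG : IsPGroup p G)
    {χ : G → ℂ} (hχ : IsIrrCharacter G χ) (hf : cker χ = ⊥) (K : IntermediateField ℚ ℂ)
    (hK : ∀ g, χ g ∈ K) {A : Subgroup G} [A.Normal] (hA : IsMulCommutative A) (hc : ¬ IsCyclic A) :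
    ∃ (C : Subgroup G) (ψ : C → ℂ), C.index = p ∧ IsIrrCharacter C ψ ∧ (∀ c, ψ c ∈ K) ∧
      charDegree χ = p * charDegree ψ ∧ Nat.card C ≤ (cker ψ).index ^ p := by
  classical
  have := Fintype.ofFinite G
  have hχc := isCharacter_of_isIrr hχ
  have hf' := (cker_eq_bot_iff hχc).1 hf
  have h0 : ∀ {H : Type _} [Group H] {η : H → ℂ}, IsIrrCharacter H η → η 1 ≠ 0 := fun {_ _ η} h => by
    rw [← deg_cast (isCharacter_of_isIrr h)]; exact_mod_cast (deg_pos h).ne'
  have hpow : ∀ {H : Type _} [Group H] [Finite H] {η : H → ℂ}, IsIrrCharacter H η →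
      ∀ z ∈ center H, ∀ (i : ℕ) (c : H), η (z ^ i * c) = (η z / η 1) ^ i * η c := by
    intro H _ _ η h z hz i c
    induction i with
    | zero => simp
    | succ i ih => rw [pow_succ', mul_assoc, irr_mul_of_mem_center h hz, ih]; ring
  have hroot : ∀ {H : Type _} [Group H] [Finite H] {η : H → ℂ}, IsIrrCharacter H η →
      ∀ z ∈ center H, z ^ p = 1 → (η z / η 1) ^ p = 1 := fun h z hz hzp => by
    have := hpow h z hz p 1
    rw [hzp, mul_one] at this
    exact (mul_eq_right₀ (h0 h)).1 this.symm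
  obtain ⟨z, -, hzZ, hz⟩ := exists_mem_center_orderOf_eq hG A (by rintro rfl; exact hc inferInstance)
  have hω : IsPrimitiveRoot (χ z / χ 1) p := IsPrimitiveRoot.iff_orderOf.2 (orderOf_eq_prime
    (hroot hχ z hzZ (hz ▸ pow_orderOf_eq_one z)) fun e => by
      rw [hf' z ((div_eq_one_iff_eq (h0 hχ)).1 e), orderOf_one] at hz
      exact hp.out.ne_one hz.symm)
  have : NeZero p := ⟨hp.out.ne_zero⟩
  have : (zpowers z).Normal := ⟨fun a ha g => by
    rwa [mem_center_iff.1 (zpowers_le.2 hzZ ha) g, mul_inv_cancel_right]⟩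
  have := hG.isNilpotent
  let Ω : Subgroup G :=
    { carrier := {a | a ∈ A ∧ a ^ p = 1}
      mul_mem' := fun {a b} ha hb => ⟨mul_mem ha.1 hb.1, by
        rw [Commute.mul_pow (isMulCommutative_iff.1 hA a ha.1 b hb.1), ha.2, hb.2, one_mul]⟩
      one_mem' := ⟨one_mem _, one_pow _⟩
      inv_mem' := fun {a} ha => ⟨inv_mem ha.1, by rw [inv_pow, ha.2, inv_one]⟩ }
  have : Ω.Normal := ⟨fun a ha g => ⟨‹A.Normal›.conj_mem a ha.1 g, by rw [conj_pow, ha.2]; simp⟩⟩
  obtain ⟨v, hv, hvz, hvg⟩ := exists_central_mod_of_not_le (M := Ω)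
    (N := zpowers z) fun h => hc (Frob.isCyclic_subgroup_of_forall_mem_zpowers hA
      fun q hq x hx y hy h1 h2 => by
        obtain ⟨k, hk⟩ := IsPGroup.iff_orderOf.1 hG x
        obtain rfl : q = p := (Nat.prime_dvd_prime_iff_eq hq hp.out).1
          (hq.dvd_of_dvd_pow (hk ▸ h1.symm.dvd))
        rw [eq_of_le_of_card_ge (zpowers_le.2 (h ⟨hx, h1 ▸ pow_orderOf_eq_one x⟩))
          (by rw [Nat.card_zpowers, Nat.card_zpowers, hz, h1])]
        exact h ⟨hy, h2 ▸ pow_orderOf_eq_one y⟩)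
  have hvZ : v ∉ center G := fun h => by
    obtain ⟨i, -, e⟩ := hω.eq_pow_of_pow_eq_one (hroot hχ v h hv.2)
    have h1 := hpow hχ z hzZ i v⁻¹
    have h2 := irr_mul_of_mem_center hχ h v⁻¹
    rw [e, ← h2, mul_inv_cancel] at h1
    exact hvz (mul_inv_eq_one.1 (hf' _ h1) ▸ npow_mem_zpowers z i)
  set C := centralizer ({v} : Set G)
  have hCi : C.index = p := by
    have h1 := index_centralizer_le hvg
    rw [Nat.card_zpowers, hz] at h1
    obtain ⟨k, hk⟩ := hG.index C
    rcases k with _ | k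
    · exact absurd (mem_center_iff.2 fun g => mem_centralizer_singleton_iff.1
        (index_eq_one.1 hk ▸ mem_top g : g ∈ C)) hvZ
    · exact le_antisymm h1 (hk ▸ Nat.le_self_pow k.succ_ne_zero p)
  have hCn := normal_of_index_eq_prime hG hCi
  obtain ⟨ψ, hψ, hi⟩ := exists_irr_under C hχ
  have hψc := isCharacter_of_isIrr hψ
  let v' : C := ⟨v, mem_centralizer_singleton_iff.2 rfl⟩
  have hv' : v' ∈ center C := mem_center_iff.2 fun c =>
    Subtype.ext (mem_centralizer_singleton_iff.1 c.2)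
  have hv'p : v' ^ p = 1 := Subtype.ext hv.2
  have hcl := clifford C hχ hψ hi
  have hker : ∀ c : C, (∀ η ∈ conjSet C ψ, η c = η 1) → c = 1 := fun c h => by
    refine Subtype.ext (hf' _ ((congrFun hcl c).trans (Eq.trans ?_ (congrFun hcl 1).symm)))
    simp only [Pi.smul_apply, Finset.sum_apply, Finset.sum_congr rfl h]
  have hne : ∀ g ∉ C, conjChar C g ψ v' ≠ ψ v' := fun g hg e => by
    have h1 : ⁅v, g⁆⁻¹ ∈ center G := inv_mem (zpowers_le.2 hzZ (hvg g))
    let w : C := ⟨⁅v, g⁆⁻¹, center_le_centralizer _ h1⟩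
    have h2 : w ∈ center C := mem_center_iff.2 fun c => Subtype.ext (mem_center_iff.1 h1 c)
    have h3 : ψ v' ≠ 0 := fun e => by
      have := hroot hψ v' hv' hv'p
      simp [e, hp.out.ne_zero] at this
    have h4 : conjChar C g ψ v' = ψ (w * v') := congrArg ψ (Subtype.ext (by
      simp [w, v', commutatorElement_def, mul_assoc]))
    rw [h4, irr_mul_of_mem_center hψ h2, mul_eq_right₀ h3, div_eq_one_iff_eq (h0 hψ)] at e
    have h5 := hker w fun η hη => by
      obtain ⟨h, rfl⟩ := (mem_conjSet C).1 hη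
      rw [conjChar_apply_one, ← e]
      exact congrArg ψ (Subtype.ext (by simp only [w, mem_center_iff.1 h1 h]; group))
    exact hg (mem_centralizer_singleton_iff.2 (commutatorElement_eq_one_iff_mul_comm.1
      (inv_eq_one.1 (congrArg Subtype.val h5))).symm)
  have hI : inertia C ψ = C := le_antisymm (fun g hg => by
    by_contra h; exact hne g h (congrFun hg v')) (le_inertia C (isClassFunction_of_isIrr hψ))
  obtain ⟨e, he0, he, hdeg⟩ := exists_deg_clifford C hχ hψ hi
  have h1 := deg_le_index_mul_of_inner hχ C hψc hi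
  rw [hI, hCi] at hdeg
  obtain rfl : e = 1 := by
    rw [hdeg, hCi, mul_assoc] at h1
    have := Nat.mul_pos hp.out.pos (deg_pos hψ)
    exact le_antisymm (by nlinarith) he0
  refine ⟨C, ψ, hCi, hψ, fun c => ?_, by rw [hdeg, one_mul], ?_⟩
  · obtain ⟨j, -, hj⟩ := hω.eq_pow_of_pow_eq_one (hroot hψ v' hv' hv'p)
    have h2 : ψ v' / ψ 1 ∈ K := hj ▸ pow_mem (div_mem (hK _) (hK _)) _
    have h3 : ψ v' / ψ 1 ≠ 0 := hj ▸ pow_ne_zero _ (hω.ne_zero hp.out.ne_zero)
    have h4 : ∑ i ∈ Finset.range p, (ψ v' / ψ 1)⁻¹ ^ i * χ (v' ^ i * c : C) = p * ψ c := by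
      have h5 : ∀ i, χ (v' ^ i * c : C) = ∑ η ∈ conjSet C ψ, (η v' / η 1) ^ i * η c := fun i => by
        refine (congrFun hcl _).trans ?_
        rw [he, Nat.cast_one, one_smul, Finset.sum_apply]
        refine Finset.sum_congr rfl fun η hη => ?_
        obtain ⟨h, rfl⟩ := (mem_conjSet C).1 hη
        exact hpow (isIrr_conjChar C h hψ) v' hv' i c
      simp only [h5, Finset.mul_sum, ← mul_assoc, ← mul_pow]
      rw [Finset.sum_comm, Finset.sum_eq_single ψ]
      · rw [inv_mul_cancel₀ h3]; simp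
      · intro η hη hne'
        obtain ⟨h, rfl⟩ := (mem_conjSet C).1 hη
        rw [← Finset.sum_mul, geom (by
          rw [mul_pow, inv_pow, hroot hψ v' hv' hv'p, hroot (isIrr_conjChar C h hψ) v' hv' hv'p]
          simp), if_neg, zero_mul]
        rw [inv_mul_eq_one₀ h3, conjChar_apply_one, div_left_inj' (h0 hψ)]
        exact (hne h fun hh => hne' (conjChar_of_mem C hh (isClassFunction_of_isIrr hψ))).symm
      · exact fun h => absurd (self_mem_conjSet C ψ) h
    have h5 : (p : ℂ) ≠ 0 := by exact_mod_cast hp.out.ne_zero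
    rw [← mul_div_cancel_left₀ (ψ c) h5, ← h4]
    exact div_mem (sum_mem fun i _ => mul_mem (pow_mem (inv_mem h2) _) (hK _)) (natCast_mem K p)
  · have h2 := index_iInf_le fun η : conjSet C ψ => cker η.1
    have h3 : ⨅ η : conjSet C ψ, cker η.1 = ⊥ := eq_bot_iff.2 fun c hc => hker c fun η hη => by
      have h4 := mem_iInf.1 hc ⟨η, hη⟩
      obtain ⟨h, rfl⟩ := (mem_conjSet C).1 hη
      exact (mem_cker (isCharacter_conjChar C h hψc)).1 h4
    rw [h3, index_bot, Finset.prod_congr rfl (g := fun _ => (cker ψ).index) fun η _ => ?_] at h2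
    · simpa [card_conjSet, hI, hCi] using h2
    · obtain ⟨h, e⟩ := (mem_conjSet C).1 η.2
      rw [e, conjChar_eq_comp]
      exact (congrArg index (cker_comp (MulAut.conjNormal h : MulAut C).toMonoidHom hψc)).trans
        (index_comap_of_surjective _ (MulEquiv.surjective _))

universe u

theorem aux {p t : ℕ} [hp : Fact p.Prime] (K : IntermediateField ℚ ℂ) [FiniteDimensional ℚ K]
    (ht : finrank ℚ K = (p - 1) * p ^ t) (a : ℕ) : ∀ (G : Type u) [Group G] [Finite G] (χ : G → ℂ),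
    Nat.card G = p ^ a → IsIrrCharacter G χ → cker χ = ⊥ → (∀ g, χ g ∈ K) →
    (p - 1) * a + 1 ≤ charDegree χ + (p - 1) * (t + 1) * charDegree χ := by
  induction a using Nat.strong_induction_on with
  | _ a ih =>
  intro G _ _ χ ha hχ hf hK
  have hG : IsPGroup p G := IsPGroup.of_card ha
  have hχc := isCharacter_of_isIrr hχ
  have hp1 : 0 < p - 1 := Nat.sub_pos_of_lt hp.out.one_lt
  have hb : ∀ (x : G) (m s : ℕ), orderOf x = p ^ m → charDegree χ = p ^ s → m ≤ t + s + 1 := by
    intro x m s hx hs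
    rcases m with _ | m
    · omega
    have h1 := field_bound hχc hf K hK hx
    rw [ht, hs, mul_assoc, mul_comm (p - 1), ← pow_add] at h1
    exact Nat.succ_le_succ ((Nat.pow_le_pow_iff_right hp.out.one_lt).1
      (Nat.le_of_mul_le_mul_right h1 hp1))
  by_cases hA : ∀ A : Subgroup G, A.Normal → IsMulCommutative A → IsCyclic A
  · by_cases hc : IsCyclic G
    · obtain ⟨x, hx⟩ := hc.exists_ofOrder_eq_natCard
      have h1 : charDegree χ = 1 := (deg_eq_one_iff hχc).2 (irr_one_eq_one_of_comm hχ)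
      have h2 := hb x a 0 (hx.trans ha) h1
      rw [h1]
      nlinarith
    · obtain ⟨rfl, x, -, m, hi, hm, -⟩ :=
        (Frob.exists_gens_of_forall_normal_isCyclic hG hA).resolve_left hc
      have h1 := deg_le_index_of_comm hχ (zpowers x) (isMulCommutative_iff.1 inferInstance)
      have h2 : charDegree χ ≠ 1 := fun e => hc (by
        have h3 := (deg_eq_one_iff_commutator_le hχ).1 e
        rw [hf, le_bot_iff, commutator_def, commutator_eq_bot_iff_le_centralizer] at h3
        exact topEquiv.isCyclic.1 (hA ⊤ inferInstance (isMulCommutative_iff.2 fun a ha b hb =>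
          h3 hb a ha)))
      have h3 := deg_pos hχ
      have h4 : charDegree χ = 2 := by omega
      have h5 := hb x m 1 hm h4
      have h6 := (zpowers x).card_mul_index
      rw [hi, Nat.card_zpowers, hm, ha, ← pow_succ] at h6
      have h7 := Nat.pow_right_injective le_rfl h6
      rw [h4]
      omega
  · push Not at hA
    obtain ⟨A, hn, hA, hc⟩ := hA
    obtain ⟨C, ψ, hC, hψ, hψK, hdeg, hcard⟩ := step hG hχ hf K hK hA hc
    have hψc := isCharacter_of_isIrr hψ
    obtain ⟨b, hb⟩ := (hG.to_subgroup C).index (cker ψ)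
    obtain ⟨c, hc⟩ := (hG.to_subgroup C).exists_card_eq
    have h1 := C.card_mul_index
    rw [hC, hc, ha, ← pow_succ] at h1
    obtain rfl := Nat.pow_right_injective hp.out.two_le h1
    have h2 := (Nat.pow_dvd_pow_iff_le_right hp.out.one_lt).1 (hb ▸ hc ▸ (cker ψ).index_dvd_card)
    have h3 := ih b (by omega) (C ⧸ cker ψ) (defl _ ψ) hb (isIrr_defl hψ le_rfl)
      (cker_defl_cker hψc) fun g => by
        obtain ⟨g, rfl⟩ := QuotientGroup.mk_surjective g
        rw [defl_mk hψc le_rfl]; exact hψK g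
    rw [hb, hc, ← pow_mul, Nat.pow_le_pow_iff_right hp.out.one_lt] at hcard
    rw [deg_defl hψc le_rfl] at h3
    rw [hdeg]
    obtain ⟨q, rfl⟩ : ∃ q, p = q + 1 := ⟨p - 1, by omega⟩
    simp only [Nat.add_sub_cancel] at h3 ⊢
    nlinarith [Nat.mul_le_mul_left q hcard, Nat.mul_le_mul_left (q + 1) h3]

/-- Let P be a finite p-group of order p^a with a > 0, and χ a faithful irreducible character of P of degree f whose field of values ℚ(χ) has degree (p − 1)·p^t over ℚ. Then a ≤ (f − 1)/(p − 1) + (t + 1)·f; in integer form, (p − 1)·a ≤ (f − 1) + (p − 1)(t + 1)·f. -/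
theorem result {P : Type*} [Group P] [Finite P] (p a : ℕ) (hp : p.Prime) (ha : 0 < a) (hP : Nat.card P = p ^ a) (χ : Cfsg.IrrCharacter P) (hfaith : ∀ g : P, (χ : P → ℂ) g = (χ : P → ℂ) 1 → g = 1) (f t : ℕ) (hf : Cfsg.charDegree (χ : P → ℂ) = f) (hfield : Module.finrank ℚ (IntermediateField.adjoin ℚ (Set.range (χ : P → ℂ))) = (p - 1) * p ^ t) : (p - 1) * a ≤ (f - 1) + (p - 1) * (t + 1) * f := by
  have := Fact.mk hp
  have hp1 : 0 < p - 1 := Nat.sub_pos_of_lt hp.one_lt
  have : FiniteDimensional ℚ (IntermediateField.adjoin ℚ (Set.range (χ : P → ℂ))) :=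
    Module.finite_of_finrank_pos (hfield ▸ Nat.mul_pos hp1 (pow_pos hp.pos t))
  have h := aux _ hfield a P χ hP χ.2 ((cker_eq_bot_iff (irr_isCharacter χ)).2 hfaith)
    fun g => IntermediateField.subset_adjoin _ _ ⟨g, rfl⟩
  have h1 := deg_pos χ.2
  rw [hf] at h h1
  omega

end Cfsg.Agent.S4489
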