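import Cfsg.Statements.S4493
import Cfsg.Agent.Lib.ChDeg.Ito

set_option autoImplicit false
open Cfsg

namespace Cfsg.Agent.S4493

/-- Let G be a finite solvable group and p a prime. Then G has a normal abelian Sylow p-subgroup if and only if no irreducible character degree of G is divisible by p. -/
theorem result {G : Type*} [Group G] [Finite G] (hsolv : Group.IsSolvable G) (p : ℕ) (hp : p.Prime) : (∃ P : Subgroup G, P.Normal ∧ (∀ x ∈ P, ∀ y ∈ P, x * y = y * x) ∧ IsPGroup p P ∧ ¬ p ∣ P.index) ↔ ∀ χ : Cfsg.IrrCharacter G, ¬ p ∣ Cfsg.charDegree (χ : G → ℂ) := by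
  open CfsgLib CfsgLib.Char CfsgLib.ChDeg in
  have := Fact.mk hp
  constructor
  · rintro ⟨P, h1, h2, -, h3⟩ χ
    exact PD.of_comm P h2 h3 _ χ.2
  · intro h
    have h' : PD p G := fun χ hχ => h ⟨χ, hχ⟩
    exact ⟨pCore p G, inferInstance, h'.comm_pCore, Core.isPGroup_pCore p G,
      h'.not_dvd_index_pCore PLocal.PSolv.of_isSolvable⟩

end Cfsg.Agent.S4493
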