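import Cfsg.Statements.S4498
import Cfsg.Agent.S4731

set_option autoImplicit false
open Cfsg

namespace Cfsg.Agent.S4498

open CfsgLib.Block CfsgLib.Char in

/-- Let p and q be distinct primes dividing the order of the finite group G, and suppose G has no element of order p·q. Fix maximal ideals M_p over p and M_q over q of the algebraic integers. Then the principal p-block and the principal q-block of G have a non-principal irreducible character in common. -/
theorem result {G : Type*} [Group G] [Finite G] (p q : ℕ) [Fact p.Prime] [Fact q.Prime] (hpq : p ≠ q) (hp : p ∣ Nat.card G) (hq : q ∣ Nat.card G) (hno : ∀ g : G, orderOf g ≠ p * q) (Mp Mq : Ideal Cfsg.AlgInt) (hMp : Cfsg.IsPModular p Mp) (hMq : Cfsg.IsPModular q Mq) : ∃ χ : Cfsg.IrrCharacter G, (χ : G → ℂ) ≠ (fun _ => 1) ∧ χ ∈ Cfsg.principalBlock Mp G ∧ χ ∈ Cfsg.principalBlock Mq G := by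
  by_contra hcon
  push Not at hcon
  obtain ⟨y, hy⟩ := exists_prime_orderOf_dvd_card' p hp
  obtain ⟨ω, hω⟩ := Cfsg.Agent.S4731.result p q hpq Mp Mq hMp hMq hno _ rfl _
    (isPBlock_principalBlock (G := G)) _ (isPBlock_principalBlock (G := G)) y (hy ▸ dvd_rfl)
  have h1 : Cfsg.principalBlock Mp G ∩ Cfsg.principalBlock Mq G = {irrOne G} := by
    ext χ
    constructor
    · rintro ⟨h1, h2⟩
      by_contra h
      exact hcon χ (fun h' => h (Subtype.ext h')) h1 h2
    · rintro rfl
      exact ⟨irrOne_mem_principalBlock hMp, irrOne_mem_principalBlock hMq⟩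
  have h2 : Cfsg.charDegree ((irrOne G : Cfsg.IrrCharacter G) : G → ℂ) = 1 :=
    charDegree_eq_of_eq (n := 1) (by rw [Nat.cast_one]; rfl)
  rw [h1, finsum_mem_singleton, h2] at hω
  have h3 : (1 : ℂ) = (q : ℂ) ^ (Nat.card G).factorization q * ω := by
    rw [← hω, Nat.cast_one, one_mul]; rfl
  apply not_li_one hMq
  rw [h3, ← Nat.cast_pow]
  exact li_mul_right hMq ((li_natCast_iff hMq _).2 (dvd_pow_self q
    (hMq.1.factorization_pos_of_dvd Nat.card_pos.ne' hq).ne')) (lr_coe hMq ω)

end Cfsg.Agent.S4498
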