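import Cfsg.Statements.S4500
import Cfsg.Agent.Lib.Tuan.Deg

set_option autoImplicit false
open Cfsg

namespace Cfsg.Agent.S4500

open CfsgLib.Char CfsgLib.Block CfsgLib.Tuan in
theorem aux {G : Type*} [Group G] [Finite G] [Nontrivial G] (p q r a b c : ℕ) (hp : p.Prime) (hq : q.Prime) (hr : r.Prime) (ha : a ≤ 2) (hpq : p ≠ q) (hpr : p ≠ r) (hG : Nat.card G = p ^ a * q ^ b * r ^ c) : ∃ χ : Cfsg.IrrCharacter G, (χ : G → ℂ) ≠ (fun _ => 1) ∧ ∃ k : ℕ, Cfsg.charDegree (χ : G → ℂ) = q ^ k := by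
  classical
  rcases Nat.eq_zero_or_pos a with rfl | ha0
  · rw [pow_zero, one_mul] at hG
    have := isSolvable_of_card_eq_pow_mul_pow hq hr hG
    have h1 : commutator G ≠ ⊤ := (Group.IsSolvable.commutator_lt_top_of_nontrivial G).ne
    have h2 := card_linear_irr (G := G)
    have h3 : 1 < (commutator G).index := Subgroup.one_lt_index_of_ne_top h1
    rw [← h2, Finite.one_lt_card_iff_nontrivial] at h3
    obtain ⟨χ, hχ⟩ := exists_ne (⟨irrOne G, rfl⟩ : {χ : IrrCharacter G // (χ : G → ℂ) 1 = 1})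
    refine ⟨χ.1, fun h => hχ (Subtype.ext (Subtype.ext h)), 0, ?_⟩
    exact charDegree_eq_of_eq (n := 1) (by rw [χ.2, Nat.cast_one])
  · obtain ⟨M, hM⟩ := exists_isPModular' hp
    have hd : p ∣ Nat.card G := by
      rw [hG, mul_assoc]; exact (dvd_pow_self p ha0.ne').mul_right _
    obtain ⟨χ, hχ, h1, h2⟩ := exists_principal_not_dvd hM hd hr
    have h3 : ¬ p ^ 3 ∣ Nat.card G := by
      rw [hG, mul_assoc]
      intro h
      have h4 : (p ^ 3).Coprime (q ^ b * r ^ c) :=
        Nat.Coprime.pow_left _ (Nat.Coprime.mul_right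
          (Nat.Coprime.pow_right _ ((Nat.coprime_primes hp hq).2 hpq))
          (Nat.Coprime.pow_right _ ((Nat.coprime_primes hp hr).2 hpr)))
      have := (Nat.pow_dvd_pow_iff_le_right hp.one_lt).1 (h4.dvd_of_dvd_mul_right h)
      omega
    have h4 := not_dvd_dg_of_principal hM hd h3 hχ
    have h5 := dg_dvd χ
    rw [hG] at h5
    have h6 := (Nat.Coprime.pow_right c ((Nat.Prime.coprime_iff_not_dvd hr).2 h2).symm).dvd_of_dvd_mul_right h5
    have h7 := (Nat.Coprime.pow_right a ((Nat.Prime.coprime_iff_not_dvd hp).2 h4).symm).dvd_of_dvd_mul_left h6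
    obtain ⟨k, -, hk⟩ := (Nat.dvd_prime_pow hq).1 h7
    exact ⟨χ, ne_one_iff.1 h1, k, hk⟩

/-- Let G be a non-trivial finite group of order p^a · q^b · r^c with p, q, r distinct primes and a ≤ 2. Then G has a non-principal irreducible character whose degree is a power of q, and a non-principal irreducible character whose degree is a power of r; the power may be the zeroth, so a non-principal linear character serves for both. -/
theorem result {G : Type*} [Group G] [Finite G] [Nontrivial G] (p q r a b c : ℕ) (hp : p.Prime) (hq : q.Prime) (hr : r.Prime) (hpq : p ≠ q) (hpr : p ≠ r) (hqr : q ≠ r) (ha : a ≤ 2) (hG : Nat.card G = p ^ a * q ^ b * r ^ c) : (∃ χ : Cfsg.IrrCharacter G, (χ : G → ℂ) ≠ (fun _ => 1) ∧ ∃ k : ℕ, Cfsg.charDegree (χ : G → ℂ) = q ^ k) ∧ ∃ χ : Cfsg.IrrCharacter G, (χ : G → ℂ) ≠ (fun _ => 1) ∧ ∃ k : ℕ, Cfsg.charDegree (χ : G → ℂ) = r ^ k := by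
  exact ⟨aux p q r a b c hp hq hr ha hpq hpr hG,
    aux p r q a c b hp hr hq ha hpr hpq (by rw [hG]; ring)⟩

end Cfsg.Agent.S4500
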