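import Cfsg.Statements.S4502
import Cfsg.Agent.Lib.DefectOne.Wrap

set_option autoImplicit false
open Cfsg

namespace Cfsg.Agent.S4502

open CfsgLib.DefectOne CfsgLib.Char CfsgLib.PF CfsgLib.Block

open Classical in
theorem aux {G : Type*} [Group G] [Finite G] {p : ℕ} [Fact p.Prime] {x : G} (hs : Syl p x)
    {L : Subgroup G} (hL : NN x ≤ L) :
    (((Irr L).filter fun χ => ¬ p ∣ charDegree χ).card : ℚ) =
      ∑ θ ∈ (Irr (CC x)).filter (Tr x), ((Nat.card (hs.EE θ) + (p - 1) / Nat.card (hs.EE θ) : ℕ) : ℚ) /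
        (cfclass (NN x) θ).card := by
  obtain ⟨ω, hω⟩ := exists_prim p
  have hT : ∀ {θ}, θ ∈ (Irr (CC x)).filter (Tr x) ↔ Tr x θ := by
    simp only [Finset.mem_filter, mem_Irr]; exact ⟨fun h => h.2, fun h => ⟨h.1, h⟩⟩
  have hdeg : ∀ {χ}, IsIrr L χ → χ 1 = charDegree χ := fun h => by
    obtain ⟨n, -, hn⟩ := h.one_pos
    rw [charDegree_eq_of_eq hn, hn]
  rw [Finset.sum_congr rfl (g := fun θ => ∑ χ ∈ (Irr L).filter fun χ => ¬ p ∣ charDegree χ,
    if χ ∈ hs.Bl ω L θ then ((cfclass (NN x) θ).card : ℚ)⁻¹ else 0), Finset.sum_comm,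
    Finset.card_eq_sum_ones, Nat.cast_sum]
  · refine Finset.sum_congr rfl fun χ hχ => ?_
    rw [Finset.mem_filter, mem_Irr] at hχ
    obtain ⟨θ, hθ, h1⟩ : ∃ θ, Tr x θ ∧ χ ∈ hs.Bl ω L θ := by
      by_contra hn
      push Not at hn
      exact hχ.2 (hs.dvd_of_not_mem_Bl hω hL hχ.1 hn (hdeg hχ.1))
    rw [← Finset.sum_filter, Finset.sum_congr (s₂ := cfclass (NN x) θ)
      (g := fun _ => ((cfclass (NN x) θ).card : ℚ)⁻¹) ?_ fun ψ hψ => by rw [cfclass_eq_of_mem hψ],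
      Finset.sum_const, nsmul_eq_mul, mul_inv_cancel₀ (Nat.cast_ne_zero.2
        (Finset.card_ne_zero.2 ⟨_, self_mem_cfclass _ _⟩)), Nat.cast_one]
    ext ψ
    rw [Finset.mem_filter, hT]
    exact ⟨fun h => hs.mem_cfclass_of_mem_Bl hω hL hθ h.1 h1 h.2,
      fun h => ⟨hθ.of_mem h, (hs.Bl_of_mem hL h).symm ▸ h1⟩⟩
  · intro θ hθ
    rw [← Finset.sum_filter, Finset.sum_const, nsmul_eq_mul, ← hs.card_Bl hω hL (hT.1 hθ),
      div_eq_mul_inv]
    congr 3
    ext χ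
    simp only [Finset.mem_filter, mem_Irr]
    exact ⟨fun h => ⟨⟨(hs.mem_Bl.1 h).1, hs.not_dvd_of_mem_Bl hω hL (hT.1 hθ) h
      (hdeg (hs.mem_Bl.1 h).1)⟩, h⟩, fun h => h.2⟩

/-- Let G be a finite group whose order is divisible by the prime p exactly once, and let P be a Sylow p-subgroup. Then the number of irreducible characters of G of degree not divisible by p equals the number of conjugacy classes of the normalizer of P. -/
theorem result {G : Type*} [Group G] [Finite G] (p : ℕ) [Fact p.Prime] (hdiv : p ∣ Nat.card G) (hsq : ¬ p ^ 2 ∣ Nat.card G) (P : Sylow p G) : Nat.card {χ : Cfsg.IrrCharacter G // ¬ p ∣ Cfsg.charDegree (χ : G → ℂ)} = Nat.card (ConjClasses (Subgroup.normalizer ((P : Subgroup G) : Set G))) := by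
  classical
  obtain ⟨x, hx, hs⟩ := exists_syl P (card_sylow_eq hdiv hsq P)
  have h1 := (aux hs le_top).trans (aux hs le_rfl).symm
  have h3 : ∀ χ ∈ Irr (NN x), ¬ p ∣ charDegree χ := fun χ hχ hd => by
    obtain ⟨n, -, hn⟩ := (mem_Irr.1 hχ).one_pos
    rw [charDegree_eq_of_eq hn] at hd
    have h2 := (mem_Irr.1 hχ).one_dvd_index_of_comm (A := Subgroup.zpowers x)
      ⟨(zpowers_le_CC x).trans (CC_le_NN x), le_rfl⟩ inferInstance hn
    exact hs.not_dvd_index (Subgroup.mem_zpowers x) ((hd.trans h2).trans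
      (Subgroup.relIndex_dvd_index_of_le ((zpowers_le_CC x).trans (CC_le_NN x))))
  rw [Nat.cast_inj, Finset.filter_true_of_mem h3, card_Irr_eq_card_classes] at h1
  rw [hx, ← h1, ← card_irrSet fun χ h => mem_Irr.1 (Finset.mem_filter.1 h).1]
  exact Nat.card_congr (Equiv.subtypeEquivRight fun χ => by
    simp [mem_irrSet, mem_Irr, isIrr_top, χ.2])

end Cfsg.Agent.S4502
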