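import Mathlib
import Cfsg.Statements.S4505
import Cfsg.Agent.Lib.Block.Span
-- import your own Cfsg.Agent.* helpers here

set_option autoImplicit false
open Cfsg

namespace Cfsg.Agent.S4505

open CfsgLib.Block CfsgLib.Char

attribute [local implicit_reducible] CfsgLib.Block.K

theorem card_le_of_dual {k ι κ : Type*} [Field k] [Fintype ι] [Fintype κ] [DecidableEq ι]
    (a : ι → κ → k) (w : ι → κ → k) (h : ∀ i j, ∑ c, a i c * w j c = if i = j then 1 else 0) :
    Fintype.card ι ≤ Fintype.card κ := by
  have hl : LinearIndependent k a := by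
    rw [Fintype.linearIndependent_iff]
    intro t ht j
    have h1 : ∑ c, (∑ i, t i • a i) c * w j c = 0 := by rw [ht]; simp
    simp only [Finset.sum_apply, Pi.smul_apply, smul_eq_mul, Finset.sum_mul, mul_assoc] at h1
    rw [Finset.sum_comm] at h1
    simpa [← Finset.mul_sum, h] using h1
  simpa using hl.fintype_card_le_finrank

/-- Let G be a finite group, p a prime and M a maximal ideal of the algebraic integers containing p. For every σ, the number of p-blocks of defect exactly σ is at most the number of conjugacy classes of p-regular elements whose centralizer has order divisible by p^σ but not by p^(σ+1). -/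
theorem result {G : Type*} [Group G] [Finite G] (p : ℕ) [Fact p.Prime] (M : Ideal Cfsg.AlgInt) (hM : Cfsg.IsPModular p M) (σ : ℕ) : Nat.card {B : Set (Cfsg.IrrCharacter G) // Cfsg.IsPBlock M B ∧ Cfsg.blockDefect p B = σ} ≤ Nat.card {C : ConjClasses G // ∃ g : G, ConjClasses.mk g = C ∧ ¬ p ∣ orderOf g ∧ (Nat.card (Subgroup.centralizer ({g} : Set G))).factorization p = σ} := by
  classical
  have := Fintype.ofFinite (ConjClasses G)
  have := Fintype.ofFinite {B : Set (IrrCharacter G) // IsPBlock M B ∧ blockDefect p B = σ}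
  rw [Nat.card_eq_fintype_card, Nat.card_eq_fintype_card]
  have hχ : ∀ B : {B : Set (IrrCharacter G) // IsPBlock M B ∧ blockDefect p B = σ}, ∃ χ ∈ B.1,
      (charDegree (χ : G → ℂ)).factorization p =
        sInf ((fun ψ : IrrCharacter G => (charDegree (ψ : G → ℂ)).factorization p) '' B.1) :=
    fun B => exists_sInf_degree_eq (IsPBlock_nonempty hM B.2.1)
  choose χ h1 h2 using hχ
  refine card_le_of_dual (k := K hM) (fun B C => (eB hM B.1).coeff (crep C.1))
    (fun B C => red hM (centralChar (χ B : G → ℂ) (crep C.1))) fun B B' => ?_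
  have h3 : lam hM (χ B' : G → ℂ) (eB hM B.1) = if B = B' then 1 else 0 := by
    split_ifs with e
    · exact lam_eB_of_mem hM B.2.1 (e ▸ h1 B')
    · exact lam_eB_of_notMem hM B.2.1 fun h => e (Subtype.ext (block_eq_of_mem hM B.2.1 B'.2.1 h (h1 B')))
  rw [← h3, lam_apply]
  rw [← Finset.sum_subtype (Finset.univ.filter fun C : ConjClasses G => ∃ g : G,
    ConjClasses.mk g = C ∧ ¬ p ∣ orderOf g ∧
      (Nat.card (Subgroup.centralizer ({g} : Set G))).factorization p = σ) (by simp)
    (fun C => (eB hM B.1).coeff (crep C) * red hM (centralChar (χ B' : G → ℂ) (crep C)))]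
  refine Finset.sum_filter_of_ne fun C _ h0 => ?_
  have h4 : ¬ MemLocalIdeal M (blockCoeff B.1 (crep C)) := fun h =>
    h0 (by rw [(coeff_eB_eq_zero_iff hM B.2.1 _).2 h, zero_mul])
  have h5 : ¬ MemLocalIdeal M (centralChar (χ B' : G → ℂ) (crep C)) := fun h =>
    h0 (by rw [red_eq_zero_of_li hM h, mul_zero])
  refine ⟨crep C, mk_crep C, not_dvd_orderOf_of_not_li_blockCoeff hM B.2.1 h4, ?_⟩
  obtain ⟨ψ, hψ, h6⟩ := exists_not_li_of_not_li_blockCoeff hM B.2.1 h4
  have h7 := factorization_degree_le_of_not_li hM ψ.2 h6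
  rw [centralizer_singleton_inv] at h7
  have h8 := factorization_index_le_of_not_li hM (χ B').2 h5
  have h9 := sInf_degree_le (p := p) hψ
  have h10 := factorization_card_eq_add (p := p) (Subgroup.centralizer ({crep C} : Set G))
  have h11 := B.2.2
  have h12 := B'.2.2
  have h13 := factorization_charDegree_le (p := p) (χ B').2
  have h14 := h2 B'
  unfold blockDefect at h11 h12
  omega

end Cfsg.Agent.S4505
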