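import Mathlib
import Cfsg.Statements.S4506
import Cfsg.Agent.Lib.Blk.Reg
import Cfsg.Agent.Lib.Char.Integral
-- import your own Cfsg.Agent.* helpers here

set_option autoImplicit false
open Cfsg

namespace Cfsg.Agent.S4506

open CfsgLib.Blk CfsgLib.Char CfsgLib.Block

theorem fix_reg {G : Type*} [Group G] [Finite G] {p : ℕ} (hp : p.Prime) {χ : G → ℂ}
    (hχ : IsCharacter G χ) (σ : ℂ ≃+* ℂ)
    (hσ : σ (Complex.exp (2 * Real.pi * Complex.I / ((Nat.card G / p ^ (Nat.card G).factorization p) : ℕ))) =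
      Complex.exp (2 * Real.pi * Complex.I / ((Nat.card G / p ^ (Nat.card G).factorization p) : ℕ)))
    {g : G} (hg : ¬ p ∣ orderOf g) : σ (χ g) = χ g := by
  have hn : Nat.card G / p ^ (Nat.card G).factorization p ≠ 0 :=
    (Nat.ordCompl_pos p Nat.card_pos.ne').ne'
  have hd : orderOf g ∣ Nat.card G / p ^ (Nat.card G).factorization p :=
    Nat.dvd_ordCompl_of_dvd_not_dvd (orderOf_dvd_natCard g) hg
  have hz := Complex.isPrimitiveRoot_exp _ hn
  have := ringHom_char_eq_pow σ.toRingHom hχ g (k := 1) fun ε hε => by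
    have : NeZero (Nat.card G / p ^ (Nat.card G).factorization p) := ⟨hn⟩
    obtain ⟨c, hc⟩ := hd
    obtain ⟨i, -, rfl⟩ := hz.eq_pow_of_pow_eq_one (ξ := ε) (by rw [hc, pow_mul, hε, one_pow])
    rw [pow_one, map_pow]
    exact congrArg (· ^ i) hσ
  rwa [pow_one] at this

theorem sum_eq_nat {G : Type*} [Group G] {χ : G → ℂ} (hχ : IsCharacter G χ) (S : Subgroup G)
    [Fintype S] : ∃ t : ℕ, ∑ s : S, χ s = (Nat.card S * t : ℕ) := by
  obtain ⟨t, ht⟩ := exists_classInner_eq_nat (isCharacter_restrict S hχ) isCharacter_one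
  refine ⟨t, ?_⟩
  rw [Nat.cast_mul, ← ht, card_mul_classInner]
  simp

/-- Let G be a finite group, p a prime, p^a the p-part of the order of G and g′ its p′-part. Call two irreducible characters p-conjugate when one is obtained from the other by applying a field automorphism of ℂ that fixes the g′-th roots of unity, and let r be the number of characters p-conjugate to the irreducible character χ (χ included). Then the exponent of p in r·χ(1) is at most a; and if p^a divides r·χ(1) then p^a already divides χ(1). -/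
theorem result {G : Type*} [Group G] [Finite G] (p : ℕ) (hp : p.Prime) (χ : Cfsg.IrrCharacter G) (r : ℕ) (hr : Nat.card {ψ : Cfsg.IrrCharacter G // ∃ σ : ℂ ≃+* ℂ, σ (Complex.exp (2 * Real.pi * Complex.I / ((Nat.card G / p ^ (Nat.card G).factorization p) : ℕ))) = Complex.exp (2 * Real.pi * Complex.I / ((Nat.card G / p ^ (Nat.card G).factorization p) : ℕ)) ∧ (ψ : G → ℂ) = fun g => σ ((χ : G → ℂ) g)} = r) : (r * Cfsg.charDegree (χ : G → ℂ)).factorization p ≤ (Nat.card G).factorization p ∧ (p ^ (Nat.card G).factorization p ∣ r * Cfsg.charDegree (χ : G → ℂ) → p ^ (Nat.card G).factorization p ∣ Cfsg.charDegree (χ : G → ℂ)) := by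
  classical
  have := Fintype.ofFinite G
  have := Fact.mk hp
  set A : Finset (IrrCharacter G) := Finset.univ.filter fun ψ => ∃ σ : ℂ ≃+* ℂ, σ (Complex.exp (2 * Real.pi * Complex.I / ((Nat.card G / p ^ (Nat.card G).factorization p) : ℕ))) = Complex.exp (2 * Real.pi * Complex.I / ((Nat.card G / p ^ (Nat.card G).factorization p) : ℕ)) ∧ (ψ : G → ℂ) = fun g => σ ((χ : G → ℂ) g) with hA
  have hrA : A.card = r := by rw [← hr, Nat.card_eq_fintype_card, Fintype.card_subtype]
  have hχA : χ ∈ A := Finset.mem_filter.2 ⟨Finset.mem_univ _, RingEquiv.refl ℂ, rfl, rfl⟩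
  have hr0 : 0 < r := hrA ▸ Finset.card_pos.2 ⟨χ, hχA⟩
  have hreg : ∀ ψ ∈ A, classInner (pRegularPart p (χ : G → ℂ)) ψ = mm p (χ : G → ℂ) χ := by
    intro ψ hψ
    obtain ⟨σ, h1, h2⟩ := (Finset.mem_filter.1 hψ).2
    have : pRegularPart p (ψ : G → ℂ) = pRegularPart p (χ : G → ℂ) := by
      ext g
      rw [pRegularPart_eq_ite, pRegularPart_eq_ite, h2]
      split_ifs with h
      exacts [rfl, fix_reg hp (irr_isCharacter χ) σ h1 h]
    change mm p _ _ = _
    rw [mm_eq_both, mm_eq_both, this]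
  have hcf := isClassFunction_pRegularPart (p := p) (irr_isClassFunction χ)
  obtain ⟨n, hn⟩ := exists_pow_sub_mm_int (p := p) χ.2 (isGenChar_of_isIrr χ.2)
  have hle := factorization_deg_le (p := p) χ.2
  have hd0 := charDegree_ne_zero χ.2
  set d := (Nat.card G).factorization p - (charDegree (χ : G → ℂ)).factorization p with hd
  have hpd : (0 : ℝ) < (p : ℝ) ^ d := pow_pos (Nat.cast_pos.2 hp.pos) d
  have hp0 : (p : ℂ) ^ d ≠ 0 := pow_ne_zero _ (Nat.cast_ne_zero.2 hp.ne_zero)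
  have hm : mm p (χ : G → ℂ) χ = ((n / (p : ℝ) ^ d : ℝ) : ℂ) := by
    push_cast
    rw [← hn, mul_div_cancel_left₀ _ hp0]
  have h1 : ¬ p ∣ orderOf (1 : G) := by simpa using hp.ne_one
  have hsum : (n / (p : ℝ) ^ d : ℝ) = r * (n / (p : ℝ) ^ d) ^ 2 +
      ∑ ψ ∈ Aᶜ, ‖classInner (pRegularPart p (χ : G → ℂ)) ψ‖ ^ 2 := by
    have h2 := classInner_self_eq_sum_normSq hcf
    rw [← mm_eq_both, hm, Complex.ofReal_inj, ← Finset.sum_add_sum_compl A,
      Finset.sum_congr rfl fun ψ hψ => by rw [hreg ψ hψ, hm, Complex.norm_real, Real.norm_eq_abs,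
        sq_abs]] at h2
    rwa [Finset.sum_const, hrA, nsmul_eq_mul] at h2
  have hnn : 0 ≤ ∑ ψ ∈ Aᶜ, ‖classInner (pRegularPart p (χ : G → ℂ)) ψ‖ ^ 2 :=
    Finset.sum_nonneg fun _ _ => by positivity
  have hn0 : n ≠ 0 := by
    rintro rfl
    rw [mm_eq_both, Int.cast_zero, zero_div, Complex.ofReal_zero, classInner_self_eq_zero] at hm
    have := congrFun hm 1
    rw [pRegularPart_eq_ite, if_neg h1] at this
    exact irr_one_ne_zero χ.2 this
  have hn1 : (0 : ℝ) < n / (p : ℝ) ^ d := by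
    refine lt_of_le_of_ne (by rw [hsum]; positivity) fun e => hn0 ?_
    exact_mod_cast (div_eq_zero_iff.1 e.symm).resolve_right hpd.ne'
  have hn2 : (1 : ℝ) ≤ n := by
    have : (0 : ℝ) < n := (div_pos_iff_of_pos_right hpd).1 hn1
    have : 0 < n := by exact_mod_cast this
    exact_mod_cast this
  have hrn : (r : ℝ) * n ≤ (p : ℝ) ^ d := by
    have h3 : r * (n / (p : ℝ) ^ d) ≤ 1 := by nlinarith
    rwa [← mul_div_assoc, div_le_one hpd] at h3
  have hrp : r ≤ p ^ d := by
    have : (r : ℝ) ≤ (p : ℝ) ^ d := by nlinarith [(Nat.cast_nonneg r : (0 : ℝ) ≤ r)]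
    exact_mod_cast this
  have hf : r.factorization p ≤ d :=
    (Nat.pow_le_pow_iff_right hp.one_lt).1 ((Nat.ordProj_le p hr0.ne').trans hrp)
  have hfm : (r * charDegree (χ : G → ℂ)).factorization p =
      r.factorization p + (charDegree (χ : G → ℂ)).factorization p := by
    rw [Nat.factorization_mul hr0.ne' hd0]; rfl
  refine ⟨by omega, fun hdvd => ?_⟩
  have h4 := (hp.pow_dvd_iff_le_factorization (mul_ne_zero hr0.ne' hd0)).1 hdvd
  have h5 : r = p ^ d := le_antisymm hrp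
    (Nat.le_of_dvd hr0 ((hp.pow_dvd_iff_le_factorization hr0.ne').2 (by omega)))
  have h6 : (r : ℝ) = (p : ℝ) ^ d := by exact_mod_cast h5
  have h7 : (n : ℝ) = 1 := by
    rw [h6] at hrn
    nlinarith
  have h8 : ∑ ψ ∈ Aᶜ, ‖classInner (pRegularPart p (χ : G → ℂ)) ψ‖ ^ 2 = 0 := by
    rw [h6, h7] at hsum
    have : (p : ℝ) ^ d * (1 / (p : ℝ) ^ d) ^ 2 = 1 / (p : ℝ) ^ d := by field_simp
    linarith
  rw [Finset.sum_eq_zero_iff_of_nonneg fun _ _ => by positivity] at h8
  have h9 : ∀ g, pRegularPart p (χ : G → ℂ) g = ∑ ψ ∈ A, (r : ℂ)⁻¹ * (ψ : G → ℂ) g := fun g => by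
    rw [classFun_apply_eq_sum hcf, ← Finset.sum_add_sum_compl A, Finset.sum_eq_zero (s := Aᶜ)
      fun ψ hψ => by rw [norm_eq_zero.1 (pow_eq_zero_iff two_ne_zero |>.1 (h8 ψ hψ)), zero_mul],
      add_zero]
    refine Finset.sum_congr rfl fun ψ hψ => ?_
    rw [hreg ψ hψ, hm, h7, ← h6]
    simp
  obtain ⟨P⟩ := (inferInstance : Nonempty (Sylow p G))
  obtain ⟨t, ht⟩ := sum_eq_nat (irr_isCharacter χ) (P : Subgroup G)
  have h10 : ∑ s : (P : Subgroup G), pRegularPart p (χ : G → ℂ) s = (χ : G → ℂ) 1 := by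
    rw [Finset.sum_eq_single 1, OneMemClass.coe_one, pRegularPart_eq_ite, if_neg h1]
    · intro s _ hs
      rw [pRegularPart_eq_ite, if_pos]
      rw [Subgroup.orderOf_coe]
      obtain ⟨k, hk⟩ := IsPGroup.iff_orderOf.1 P.2 s
      rcases k with _ | k
      · exact absurd (orderOf_eq_one_iff.1 hk) hs
      · rw [hk]; exact dvd_pow_self p k.succ_ne_zero
    · simp
  rw [Finset.sum_congr rfl fun (s : (P : Subgroup G)) _ => h9 s, Finset.sum_comm,
    Finset.sum_congr rfl (g := fun _ => (r : ℂ)⁻¹ * (Nat.card (P : Subgroup G) * t : ℕ)) fun ψ hψ => by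
      obtain ⟨σ, -, h2⟩ := (Finset.mem_filter.1 hψ).2
      rw [← Finset.mul_sum, h2, ← map_sum, ht, map_natCast],
    Finset.sum_const, hrA, nsmul_eq_mul, mul_inv_cancel_left₀ (Nat.cast_ne_zero.2 hr0.ne'),
    ← charDegree_eq (irr_isCharacter χ), Nat.cast_inj, P.card_eq_multiplicity] at h10
  exact ⟨t, h10.symm⟩

end Cfsg.Agent.S4506
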