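import Cfsg.Statements.S4507
import Cfsg.Agent.Lib.DefectOne.Wrap

set_option autoImplicit false
open Cfsg

namespace Cfsg.Agent.S4507

open CfsgLib.DefectOne CfsgLib.Char CfsgLib.PF CfsgLib.Block

/-- Let G be a finite group whose order g is divisible by the prime p exactly once, g′ = g/p, and fix a maximal ideal M of the algebraic integers containing p. Call two irreducible characters p-conjugate when a field automorphism of ℂ fixing the g′-th roots of unity carries one to the other. Let B be a p-block of positive defect (its defect group is a Sylow p-subgroup). Then B contains a subset Y (the exceptional family) such that: Y is a full p-conjugacy class (its members are pairwise p-conjugate and every p-conjugate of a member of Y lies in Y); every member of B outside Y is p-conjugate only to itself; the size t of Y divides p − 1 and B has exactly t + (p − 1)/t members; and there are signs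 δ_χ = ±1 (χ ∈ B) such that for every p-regular element x and every θ ∈ Y, Σ_{χ ∈ B ∖ Y} δ_χ χ(x) + δ_θ θ(x) = 0. -/
theorem result {G : Type*} [Group G] [Finite G] (p : ℕ) [Fact p.Prime] (M : Ideal Cfsg.AlgInt) (hM : Cfsg.IsPModular p M) (hdiv : p ∣ Nat.card G) (hsq : ¬ p ^ 2 ∣ Nat.card G) (B : Set (Cfsg.IrrCharacter G)) (hB : Cfsg.IsPBlock M B) (hd : 0 < Cfsg.blockDefect p B) : ∃ Y : Set (Cfsg.IrrCharacter G), Y ⊆ B ∧ Y.Nonempty ∧ (∀ θ ∈ Y, ∀ ψ : Cfsg.IrrCharacter G, (∃ σ : ℂ ≃+* ℂ, σ (Complex.exp (2 * Real.pi * Complex.I / ((Nat.card G / p ^ (Nat.card G).factorization p) : ℕ))) = Complex.exp (2 * Real.pi * Complex.I / ((Nat.card G / p ^ (Nat.card G).factorization p) : ℕ)) ∧ (ψ : G → ℂ) = fun g => σ ((θ : G → ℂ) g)) ↔ ψ ∈ Y) ∧ (∀ χ ∈ B, χ ∉ Y → ∀ ψ : Cfsg.IrrCharacter G, (∃ σ : ℂ ≃+* ℂ, σ (Complex.exp (2 * Real.pi * Complex.I / ((Nat.card G / p ^ (Nat.card G).factorization p) : ℕ))) =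 Complex.exp (2 * Real.pi * Complex.I / ((Nat.card G / p ^ (Nat.card G).factorization p) : ℕ)) ∧ (ψ : G → ℂ) = fun g => σ ((χ : G → ℂ) g)) → ψ = χ) ∧ Nat.card Y ∣ p - 1 ∧ Nat.card B = Nat.card Y + (p - 1) / Nat.card Y ∧ ∃ δ : Cfsg.IrrCharacter G → ℤ, (∀ χ ∈ B, δ χ = 1 ∨ δ χ = -1) ∧ ∀ x : G, ¬ p ∣ orderOf x → ∀ θ ∈ Y, (∑ᶠ χ ∈ B \ Y, (δ χ : ℂ) * (χ : G → ℂ) x) + (δ θ : ℂ) * (θ : G → ℂ) x = 0 := by
  classical
  obtain ⟨x, hs⟩ := exists_syl' hdiv hsq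
  obtain ⟨ω, hω⟩ := exists_prim p
  rw [hs.factorization, pow_one]
  have hζ := Complex.isPrimitiveRoot_exp _ hs.div_pos.ne'
  have hconj : ∀ χ ψ : IrrCharacter G, (∃ σ : ℂ ≃+* ℂ,
      σ (Complex.exp (2 * Real.pi * Complex.I / (Nat.card G / p : ℕ))) =
        Complex.exp (2 * Real.pi * Complex.I / (Nat.card G / p : ℕ)) ∧
      (ψ : G → ℂ) = fun g => σ ((χ : G → ℂ) g)) ↔
      ∃ a : (ZMod p)ˣ, (ψ : G → ℂ) = gal (Nat.card G / p) a χ := fun χ ψ => by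
    constructor
    · rintro ⟨σ, h1, h2⟩
      haveI : NeZero (Nat.card G / p) := ⟨hs.div_pos.ne'⟩
      obtain ⟨a, -, ha⟩ := hs.expo.exists_gal (σ : ℂ →+* ℂ) fun ε hε => by
        obtain ⟨i, -, rfl⟩ := hζ.eq_pow_of_pow_eq_one hε
        rw [map_pow]; exact congrArg (· ^ i) h1
      exact ⟨a, h2.trans (funext (ha _ (irr_isCharacter χ)))⟩
    · rintro ⟨a, h⟩
      obtain ⟨σ, h1, h2⟩ := hs.expo.exists_ringEquiv a
      exact ⟨σ, h1 _ hζ.pow_eq_one, h.trans (funext (h2 _ (irr_isCharacter χ))).symm⟩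
  simp only [hconj]
  obtain ⟨χ, hχ, hχ'⟩ : ∃ χ ∈ B, ¬ p ∣ charDegree (χ : G → ℂ) := by
    obtain ⟨χ₀, rfl⟩ := hB
    obtain ⟨χ, hχ, h⟩ := Nat.sInf_mem (s := (fun χ : IrrCharacter G =>
      (charDegree (χ : G → ℂ)).factorization p) '' blockOf M (χ₀ : G → ℂ))
      ⟨_, χ₀, mem_blockOf_self hM χ₀, rfl⟩
    refine ⟨χ, hχ, fun hd' => ?_⟩
    have := hs.prime.factorization_pos_of_dvd (charDegree_ne_zero χ.2) hd'
    rw [blockDefect, hs.factorization, ← h] at hd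
    simp only at hd
    omega
  obtain ⟨θ, hθ, rfl⟩ := hs.exists_eq_Bl hM hω hB hχ hχ'
  obtain ⟨D⟩ := hs.nonempty_genData hω le_top hθ
  have hY : ∀ {ψ : IrrCharacter G}, ψ ∈ irrSet (Finset.univ.image D.Y) ↔ ∃ a, D.Y a = ψ := by
    simp [mem_irrSet]
  have hX : irrSet (hs.Bl ω ⊤ θ) \ irrSet (Finset.univ.image D.Y) = irrSet D.X := by
    ext ψ
    rw [Set.mem_diff, hY, mem_irrSet, mem_irrSet, D.mem_Bl]
    exact ⟨fun h => h.1.resolve_right h.2, fun h => ⟨Or.inl h, fun ⟨a, e⟩ => D.Y_notMem a (e ▸ h)⟩⟩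
  have hcard : Nat.card (irrSet (Finset.univ.image D.Y)) = (p - 1) / Nat.card (hs.EE θ) := by
    rw [card_irrSet (by simpa using D.Y_irr), D.card_Y]
  refine ⟨irrSet (Finset.univ.image D.Y), fun ψ h => D.mem_Bl.2 (Or.inr (hY.1 h)),
    ⟨⟨D.Y 1, isIrr_top.1 (D.Y_irr 1)⟩, hY.2 ⟨1, rfl⟩⟩, fun η hη ψ => ?_, fun η hη hη' ψ => ?_,
    hcard ▸ Nat.div_dvd_of_dvd (hs.card_EE_dvd θ), ?_,
    fun η => if (η : G → ℂ) ∈ D.X then D.δ η else -D.ε, fun η _ => ?_, fun g hg η hη => ?_⟩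
  · obtain ⟨a, ha⟩ := hY.1 hη
    rw [hY, ← ha]
    simp only [D.Y_gal]
    exact ⟨fun ⟨b, h⟩ => ⟨_, h.symm⟩, fun ⟨b, h⟩ => ⟨a⁻¹ * b, by rw [mul_inv_cancel_left, h]⟩⟩
  · rintro ⟨a, h⟩
    exact Subtype.ext (h.trans (D.X_gal _ (show η ∈ irrSet D.X from hX ▸ ⟨hη, hη'⟩) a))
  · rw [hcard, card_irrSet fun χ h => (hs.mem_Bl.1 h).1, hs.card_Bl hω le_top hθ, add_comm,
      Nat.div_div_self (hs.card_EE_dvd θ) (by have := hs.prime.one_lt; omega)]
  · beta_reduce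
    split_ifs with h
    · exact D.δ_sign _ h
    · have := D.ε_sign; omega
  · obtain ⟨a, ha⟩ := hY.1 hη
    beta_reduce
    rw [hX, finsum_mem_congr rfl (g := fun χ : IrrCharacter G => D.δ χ * (χ : G → ℂ) g)
      fun χ h => by rw [if_pos (mem_irrSet.1 h)], finsum_irrSet D.X_irr fun χ => D.δ χ * χ g,
      ← D.reg_eq le_top hθ a hg, if_neg (ha ▸ D.Y_notMem a), ha]
    simp

end Cfsg.Agent.S4507
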