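import Cfsg.Statements.S4510
import Cfsg.Agent.Lib.Block.Vanish
import Cfsg.Agent.Lib.Cover.Passman

set_option autoImplicit false
open Cfsg

namespace Cfsg.Agent.S4510

open CfsgLib CfsgLib.Char CfsgLib.Block CfsgLib.BrPair

/-- Let G be a finite group, p a prime, M a maximal ideal of the algebraic integers containing p, and call the defect of a conjugacy class the exponent of p in the order of the centralizer of its elements. Two irreducible characters lying in p-blocks of defect exactly d lie in the same block if and only if their central characters (class size times χ(x)/χ(1)) agree modulo the local ideal at M at every p-regular element x whose class has defect exactly d. -/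
theorem result {G : Type*} [Group G] [Finite G] (p : ℕ) [Fact p.Prime] (M : Ideal Cfsg.AlgInt) (hM : Cfsg.IsPModular p M) (d : ℕ) (χ ψ : Cfsg.IrrCharacter G) (hχ : Cfsg.blockDefect p (Cfsg.blockOf M (χ : G → ℂ)) = d) (hψ : Cfsg.blockDefect p (Cfsg.blockOf M (ψ : G → ℂ)) = d) : Cfsg.SameBlock M (χ : G → ℂ) (ψ : G → ℂ) ↔ ∀ x : G, ¬ p ∣ orderOf x → (Nat.card (Subgroup.centralizer ({x} : Set G))).factorization p = d → Cfsg.MemLocalIdeal M (Cfsg.centralChar (χ : G → ℂ) x - Cfsg.centralChar (ψ : G → ℂ) x) := by
  refine ⟨fun h x _ _ => h x, fun h => Cover.sameBlock_of_li_on_support hM fun g hg => ?_⟩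
  have h0 : Nat.card (Ce g) ≠ 0 := Nat.card_pos.ne'
  have low : ∀ φ : IrrCharacter G, blockDefect p (blockOf M (φ : G → ℂ)) = d →
      (Nat.card (Ce g)).factorization p < d → MemLocalIdeal M (centralChar (φ : G → ℂ) g) := by
    intro φ hφ hlt
    by_contra hn
    obtain ⟨D, hD⟩ := exists_isDefectGroup hM (isPBlock_blockOf (M := M) φ)
    obtain ⟨x, hx⟩ := exists_cS_le_Ce hM (isPBlock_blockOf φ) hD (mem_blockOf_self hM φ) hn
    have h1 := Subgroup.card_dvd_of_le hx
    rw [card_cS, card_eq_pow_blockDefect hM (isPBlock_blockOf φ) hD, hφ] at h1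
    exact hlt.not_ge ((hM.1.pow_dvd_iff_le_factorization h0).1 h1)
  have up : (Nat.card (Ce g)).factorization p ≤ d := by
    obtain ⟨D, hD⟩ := exists_isDefectGroup hM (isPBlock_blockOf (M := M) χ)
    obtain ⟨P⟩ : Nonempty (Sylow p (Ce g)) := inferInstance
    obtain ⟨x, hx⟩ := le_cS_of_not_li_blockCoeff hM (isPBlock_blockOf χ) hD hg
      (P.isPGroup'.map (Ce g).subtype) (Subgroup.map_subtype_le _)
    have h1 := Subgroup.card_dvd_of_le hx
    rw [card_cS, card_eq_pow_blockDefect hM (isPBlock_blockOf χ) hD, hχ,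
      Subgroup.card_map_of_injective (Ce g).subtype_injective, P.card_eq_multiplicity] at h1
    exact (Nat.pow_dvd_pow_iff_le_right hM.1.one_lt).1 h1
  rcases up.lt_or_eq with h1 | h1
  · exact li_sub hM (low χ hχ h1) (low ψ hψ h1)
  · exact h g (not_dvd_orderOf_of_not_li_blockCoeff hM (isPBlock_blockOf χ) hg) h1

end Cfsg.Agent.S4510
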