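import Mathlib
import Cfsg.Statements.S4512
import Cfsg.Agent.Lib.Block.Klein2
import Cfsg.Agent.Lib.Blk.BF
import Cfsg.Agent.Lib.Block.FrobSyl
-- import your own Cfsg.Agent.* helpers here

set_option autoImplicit false
open Cfsg

namespace Cfsg.Agent.S4512

open CfsgLib CfsgLib.Block CfsgLib.Char
open scoped ComplexConjugate

/-- If G is a finite group with a Sylow 2-subgroup that is a Klein four-group and a single conjugacy class of involutions, then its principal 2-block (relative to a maximal ideal M of the algebraic integers containing 2) has 2-regular rank 3: the restrictions of its irreducible characters to the elements of odd order span a space of dimension 3 (it has three irreducible Brauer characters). -/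
theorem result {G : Type*} [Group G] [Finite G] (M : Ideal Cfsg.AlgInt) (hM : Cfsg.IsPModular 2 M) (P : Sylow 2 G)
    (hP : Nat.card P = 4) (hexp : ∀ x : P, x * x = 1)
    (hone : ∀ s t : G, orderOf s = 2 → orderOf t = 2 → IsConj s t) :
    Cfsg.blockRank 2 (Cfsg.principalBlock M G) = 3 := by
  classical
  have := Fintype.ofFinite G
  have hK : IsKleinFour (P : Subgroup G) := ⟨hP, (not_isCyclic_iff_exponent_eq_prime Nat.prime_two
    hP).1 fun hc => by
      have := Monoid.exponent_dvd_of_forall_pow_eq_one (G := (P : Subgroup G)) (n := 2)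
        fun x => (sq x).trans (hexp x)
      rw [IsCyclic.exponent_eq_card, show Nat.card (P : Subgroup G) = 4 from hP] at this
      omega⟩
  obtain ⟨n, hn, -, hn1, hc, h0⟩ := klein_principal hM P hK hone
  have hs : ∀ χ ∈ principalBlock M G, ∀ g, 2 ∣ orderOf g → (χ : G → ℂ) g = n χ := fun χ hχ g hg => by
    obtain ⟨u, hu⟩ := exists_isPPart Nat.prime_two g
    obtain ⟨a, ha⟩ := exists_conj_mem_sylow P (isPPart_pElt hu)
    have h1 : a * u * a⁻¹ ≠ 1 := fun h => not_dvd_orderOf_of_isPPart_one
      (conj_eq_one_iff.1 h ▸ hu) hg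
    rw [← irr_isClassFunction χ g a, ((fourOmega_of_isKleinFour _ hK).frobSyl P).principal_eq hM hχ
      (isPPart_conj hu a) ha h1, hn χ _ (Invol.orderOf_eq_two h1
        (TwoGrp.mul_self_of_isKleinFour hK ha))]
  set S := Finset.univ.filter (· ∈ principalBlock M G) with hS
  have hsq : ∀ χ ∈ S, (n χ : ℂ) * n χ = 1 := fun χ hχ => by
    rcases hn1 χ (Finset.mem_filter.1 hχ).2 with h | h <;> simp [h]
  set s : ℂ := (Nat.card G : ℂ)⁻¹ * ∑ g : G, if 2 ∣ orderOf g then 1 else 0 with hs'
  have h1 : ∀ χ ∈ S, Blk.mm 2 (χ : G → ℂ) χ = 1 - s := fun χ hχ => by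
    rw [← classInner_irr_self χ.2, Blk.mm, classInner, classInner, hs', ← mul_sub,
      ← Finset.sum_sub_distrib]
    refine congrArg _ (Finset.sum_congr rfl fun g _ => ?_)
    by_cases hg : 2 ∣ orderOf g
    · simp [pRegularPart, IsPRegular, hg, hs χ (Finset.mem_filter.1 hχ).2 g hg, hsq χ hχ]
    · simp [pRegularPart, IsPRegular, hg]
  have h2 : ∑ χ ∈ S, (n χ : ℂ) * classInner (χ : G → ℂ) (irrOne G : G → ℂ) = 4 * s := by
    simp only [classInner, irrOne_apply, map_one, mul_one, Finset.mul_sum, hs']
    rw [Finset.sum_comm]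
    refine Finset.sum_congr rfl fun g _ => ?_
    split_ifs with hg
    · rw [Finset.sum_congr rfl (g := fun _ => (Nat.card G : ℂ)⁻¹) fun χ hχ => by
        rw [hs χ (Finset.mem_filter.1 hχ).2 g hg, mul_left_comm, hsq χ hχ, mul_one],
        Finset.sum_const, hc]
      simp
    · simp only [mul_left_comm _ (Nat.card G : ℂ)⁻¹, ← Finset.mul_sum, h0 g hg, mul_zero]
  obtain ⟨t, -, ht⟩ := (fourOmega_of_isKleinFour _ hK).exists_invol
  rw [Finset.sum_eq_single_of_mem (irrOne G) (Finset.mem_filter.2 ⟨Finset.mem_univ _,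
    irrOne_mem_principalBlock hM⟩) fun χ _ hχ => by rw [classInner_irr_irr, if_neg hχ, mul_zero],
    classInner_irr_self (irrOne G).2, ← hn _ t ht, irrOne_apply] at h2
  have h3 := Blk.blockRank_eq_sum_mm hM (isPBlock_principalBlock (G := G))
  rw [Blk.bf, Finset.sum_congr (by convert hS.symm) h1, Finset.sum_const, hc] at h3
  have h4 : (blockRank 2 (principalBlock M G) : ℂ) = 3 := by
    rw [h3, nsmul_eq_mul]; push_cast; linear_combination h2
  exact_mod_cast h4

end Cfsg.Agent.S4512
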