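import Cfsg.Statements.S4513
import Cfsg.Agent.Lib.Star.Gdn

set_option autoImplicit false
open Cfsg

namespace Cfsg.Agent.S4513

open CfsgLib CfsgLib.Star CfsgLib.Blk CfsgLib.Block CfsgLib.Char CfsgLib.BrPair in

/-- Blocks of defect one for p = 2. Let M be a maximal ideal of the algebraic integers containing 2, B a 2-block of the finite group G whose defect group is the subgroup generated by an involution x, C = C_G(x), b a block of C inducing B and θ a member of b taking the same value at x as at 1 (there is exactly one). Then B consists of exactly two irreducible characters, which agree on every element of odd order, and they can be labelled χ₁, χ₂ with signs ε₁, ε₂ = ±1, ε₁ε₂ = −1, such that χᵢ(x y) = εᵢ θ(y) for every element y of C of odd order. -/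
theorem result {G : Type*} [Group G] [Finite G] (M : Ideal Cfsg.AlgInt) (hM : Cfsg.IsPModular 2 M) (x : G) (hx : orderOf x = 2)
    (B : Set (Cfsg.IrrCharacter G)) (hB : Cfsg.IsPBlock M B) (hBD : Cfsg.IsDefectGroup 2 M B (Subgroup.zpowers x))
    (b : Set (Cfsg.IrrCharacter ↥(Subgroup.centralizer ({x} : Set G)))) (hb : Cfsg.IsInducedBlock M (Subgroup.centralizer ({x} : Set G)) b B)
    (θ : Cfsg.IrrCharacter ↥(Subgroup.centralizer ({x} : Set G))) (hθ : θ ∈ b)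
    (hθx : ∀ z : ↥(Subgroup.centralizer ({x} : Set G)), (z : G) = x → (θ : ↥(Subgroup.centralizer ({x} : Set G)) → ℂ) z = (θ : ↥(Subgroup.centralizer ({x} : Set G)) → ℂ) 1) :
    Nat.card B = 2 ∧ (∀ χ ∈ B, ∀ ψ ∈ B, ∀ g : G, ¬ 2 ∣ orderOf g → (χ : G → ℂ) g = (ψ : G → ℂ) g) ∧
      ∃ χ₁ ∈ B, ∃ χ₂ ∈ B, χ₁ ≠ χ₂ ∧ ∃ ε₁ ε₂ : ℤ, (ε₁ = 1 ∨ ε₁ = -1) ∧ (ε₂ = 1 ∨ ε₂ = -1) ∧ ε₁ * ε₂ = -1 ∧
        ∀ y : ↥(Subgroup.centralizer ({x} : Set G)), ¬ 2 ∣ orderOf y →
          (χ₁ : G → ℂ) (x * y) = (ε₁ : ℂ) * (θ : ↥(Subgroup.centralizer ({x} : Set G)) → ℂ) y ∧ (χ₂ : G → ℂ) (x * y) = (ε₂ : ℂ) * (θ : ↥(Subgroup.centralizer ({x} : Set G)) → ℂ) y := by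
  classical
  have : Fact (Nat.Prime 2) := ⟨Nat.prime_two⟩
  have := Fintype.ofFinite G
  have hx2 : ∃ k : ℕ, orderOf x = 2 ^ k := ⟨1, by rw [hx, pow_one]⟩
  obtain ⟨hbb, hpair⟩ := (isInduced_Cu_iff hM hx2 hB).1 hb
  have h : MaxPair 2 ⊤ ⊤ (eB hM B) (Subgroup.zpowers x) (sB hM (Cu x) b) :=
    ⟨le_rfl, top_le_Nz_top, isBlk_eB hM hB, hpair, (isDefectGroup_iff hM hB).1 hBD⟩
  have hxP := Subgroup.mem_zpowers x
  have hbu : bu hM (Subgroup.zpowers x) (sB hM (Cu x) b) x = b := bu_eq h hbb (SubLE.refl _ _ _ _)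
  have hab : Subgroup.zpowers x ≤ Cz (Subgroup.zpowers x) :=
    le_Cz_of_isMulCommutative inferInstance
  have hx1 : x ≠ 1 := by rintro rfl; simp at hx
  have hmem : ∀ y ∈ Subgroup.zpowers x, y ≠ 1 → y = x := by
    intro y hy hy1
    obtain ⟨n, hn, rfl⟩ := Finset.mem_image.1 (mem_zpowers_iff_mem_range_orderOf.1 hy)
    rw [hx, Finset.mem_range] at hn
    interval_cases n
    · simp at hy1
    · simp
  have hconj : ∀ g, g * x * g⁻¹ ∈ Subgroup.zpowers x → g ∈ Cu x := fun g hg => by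
    have := hmem _ hg (by simpa using hx1)
    rw [mem_Cu]
    conv_lhs => rw [← this]
    group
  have hT : stN ⊤ (Subgroup.zpowers x) (sB hM (Cu x) b) ≤ Cz (Subgroup.zpowers x) := fun t ht => by
    rw [Cz_zpowers]
    exact hconj t ((Subgroup.mem_normalizer_iff.1 ht.1.2 x).1 hxP)
  have hnil := (h.isNil_iff_of_abelian hab).2 hT
  have hcard : Nat.card B = 2 := by rw [ab_card_of_isNil h hab hB hnil, Nat.card_zpowers, hx]
  have hd : blockDefect 2 B ≤ 2 := by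
    have := pow_defect_eq_card' h hB
    rw [Nat.card_zpowers, hx] at this
    have h2 : blockDefect 2 B = 1 := Nat.pow_right_injective le_rfl this
    omega
  have h0 : ∀ χ ∈ B, blockHeight 2 B (χ : G → ℂ) = 0 := fun χ hχ =>
    height_eq_zero_of_defect_le hM hB hd hχ
  have hreg : ∀ χ ∈ B, ∀ ψ ∈ B, pRegularPart 2 (χ : G → ℂ) = pRegularPart 2 (ψ : G → ℂ) := by
    intro χ hχ ψ hψ
    have u1 := uni_of_isNil hB hnil hχ (h0 χ hχ)
    have u2 := uni_of_isNil hB hnil hψ (h0 ψ hψ)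
    have := u2.eq_smul (reg_mem_regSpan hχ)
    rwa [pRegularPart_one Nat.prime_two, ← u1.mdeg_cast, div_self u1.mdeg_ne_zero, one_smul] at this
  refine ⟨hcard, fun χ hχ ψ hψ g hg => ?_, ?_⟩
  · rw [← pRegularPart_of_reg (f := (χ : G → ℂ)) hg, hreg χ hχ ψ hψ, pRegularPart_of_reg hg]
  have hnb : IsNil 2 (Cu x) (Cu x) (sB hM (Cu x) b) := by
    have := ab_isNil_su h hab hxP (inf_le_left.trans hT)
    rwa [su, hbu] at this
  have hθ0 : blockHeight 2 b (θ : Cu x → ℂ) = 0 := height_eq_zero_of_defect_le hM hbb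
    ((defect_le_of_induced hM hb).trans hd) hθ
  have uθ := uni_of_isNil hbb (isNil_top_of_sub hbb hnb) hθ hθ0
  have hsubs : subs M x B = {b} := by
    refine Finset.eq_singleton_iff_unique_mem.2 ⟨mem_subs.2 hb, fun b' hb' => ?_⟩
    have hb'' := mem_subs.1 hb'
    have hb3 := ((isInduced_Cu_iff hM hx2 hB).1 hb'').1
    obtain ⟨g, hg, hg'⟩ := exists_conj_su h hB hx2 hb''
    have hgx := hconj g hg
    have : g * x * g⁻¹ = x := by rw [← mem_Cu.1 hgx]; group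
    rw [this, su, hbu, (isBlk_sB hM hb3).mem.2 g hgx] at hg'
    exact (sB_inj hM hbb hb3 hg').symm
  have hval : ∀ χ ∈ B, ∃ ε : ℤ, (ε = 1 ∨ ε = -1) ∧ gd x b χ = ε ∧
      ∀ y : Cu x, ¬ 2 ∣ orderOf y → (χ : G → ℂ) (x * y) = (ε : ℂ) * (θ : Cu x → ℂ) y := by
    intro χ hχ
    obtain ⟨ε, hε⟩ := exists_int_of_mem_cycInt_two (hx ▸ dvd_rfl)
      (gd_mem_cycInt uθ (isGenChar_of_isIrr χ.2))
    have h1 := nil_au h hnil hB hχ (h0 χ hχ) hxP
    rw [hbu, au_eq_gd uθ (irr_isClassFunction χ) (irr_isClassFunction χ), hε, map_intCast] at h1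
    refine ⟨ε, Int.eq_one_or_neg_one_of_mul_eq_one (by exact_mod_cast h1), hε, fun y hy => ?_⟩
    have h2 := congrFun (sum_subs_sp hM hx2 hB hχ) y
    rw [hsubs, Finset.sum_singleton, sp_eq_gd uθ (irr_isClassFunction χ), Pi.smul_apply,
      pRegularPart_of_reg hy, pRegularPart_of_reg hy, hε] at h2
    exact h2.symm
  obtain ⟨χ₁, χ₂, hne, h12⟩ := Nat.card_eq_two_iff.1 hcard
  obtain ⟨ε₁, a1, b1, c1⟩ := hval χ₁ χ₁.2
  obtain ⟨ε₂, a2, b2, c2⟩ := hval χ₂ χ₂.2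
  refine ⟨χ₁, χ₁.2, χ₂, χ₂.2, fun h' => hne (Subtype.ext h'), ε₁, ε₂, a1, a2, ?_,
    fun y hy => ⟨c1 y hy, c2 y hy⟩⟩
  by_contra hne'
  have hε : ε₁ = ε₂ := by rcases a1 with rfl | rfl <;> rcases a2 with rfl | rfl <;> omega
  refine hne (Subtype.ext (Subtype.ext (eq_of_sp_bu h hB (blockPart_irr_of_mem χ₁.2)
    (blockPart_irr_of_mem χ₂.2) fun u hu => ?_)))
  by_cases hu1 : u = 1
  · subst hu1
    funext c
    rw [sp_one h hB (irr_isClassFunction _), sp_one h hB (irr_isClassFunction _),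
      blockPart_irr_of_mem χ₁.2, blockPart_irr_of_mem χ₂.2, hreg _ χ₁.2 _ χ₂.2]
  · obtain rfl := hmem u hu hu1
    rw [hbu, sp_eq_gd uθ (irr_isClassFunction _), sp_eq_gd uθ (irr_isClassFunction _), b1, b2, hε]

end Cfsg.Agent.S4513
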