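import Mathlib
import Cfsg.Statements.S4633
import Cfsg.Agent.Lib.BrPair.CycGrp
import Cfsg.Agent.Lib.BrPair.Dict2

set_option autoImplicit false
open Cfsg

namespace Cfsg.Agent.S4633

open MonoidAlgebra CfsgLib.BrPair CfsgLib.Block CfsgLib.Char CfsgLib.Fusion

attribute [local implicit_reducible] CfsgLib.Block.K


/-- Let B be a block of the finite group G relative to a maximal ideal M of the algebraic integers containing the prime p, with a nontrivial cyclic defect group P. Let c be a block of C_G(P) inducing B and T the stabilizer of c in N_G(P) (the elements of N_G(P) conjugating c to itself); T contains C_G(P). Then T/C_G(P) is cyclic of order dividing p − 1, and it acts freely on the non-identity elements of P: an element of T fixing some non-identity element of P under conjugation lies in C_G(P). -/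
theorem result {G : Type*} [Group G] [Finite G] (p : ℕ) [Fact p.Prime] (M : Ideal Cfsg.AlgInt) (hM : Cfsg.IsPModular p M) (B : Set (Cfsg.IrrCharacter G)) (hB : Cfsg.IsPBlock M B) (P : Subgroup G) (hPD : Cfsg.IsDefectGroup p M B P) (hP1 : P ≠ ⊥) (hcyc : IsCyclic P) (c : Set (Cfsg.IrrCharacter (Subgroup.centralizer (P : Set G)))) (hc : Cfsg.IsInducedBlock M (Subgroup.centralizer (P : Set G)) c B) (T : Subgroup G) (hT : ∀ g : G, g ∈ T ↔ (g ∈ Subgroup.normalizer (P : Set G) ∧ Cfsg.StabilizesBlock (Subgroup.centralizer (P : Set G)) c g)) [hn : ((Subgroup.centralizer (P : Set G)).subgroupOf T).Normal] : IsCyclic (T ⧸ (Subgroup.centralizer (P : Set G)).subgroupOf T) ∧ (Subgroup.centralizer (P : Set G)).relIndex T ∣ p - 1 ∧ ∀ g ∈ T, ∀ x ∈ P, x ≠ 1 → g * x * g⁻¹ = x → g ∈ Subgroup.centralizer (P : Set G) := by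
  have hP := isPGroup_of_isDefectGroup hPD
  have hcb := ((isInducedBlock_iff hM).1 hc).1
  have MP := maxPair_of_isInducedBlock hM hPD hc
  have hTe := eq_stN hM hcb hT
  have hab : P ≤ Cz P := by
    intro x hx
    rw [mem_Cz]
    intro u hu
    have := hcyc.commGroup.mul_comm ⟨u, hu⟩ ⟨x, hx⟩
    exact congrArg Subtype.val this
  have hB' : ∀ g ∈ T, (∃ n : ℕ, g ^ p ^ n ∈ Cz P) → g ∈ Cz P := by
    rintro g hg ⟨n, hn⟩
    obtain ⟨u, hu, y, hy, rfl, hcom, ⟨m, hm⟩, hpy⟩ := exists_decomp p hg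
    have hu' : u ∈ Cz P := by
      have := MP.mem_sup_of_pow_eq_one (hTe ▸ hu) hm
      rw [stC_top hM hcb, sup_eq_right.2 hab] at this
      exact this
    rw [hcom.mul_pow] at hn
    have : y ^ p ^ n ∈ Cz P := by
      simpa using (Cz P).mul_mem ((Cz P).inv_mem ((Cz P).pow_mem hu' (p ^ n))) hn
    exact (Cz P).mul_mem hu' (mem_of_pow_mem this hpy)
  have h3 : ∀ g ∈ T, ∀ x ∈ P, x ≠ 1 → g * x * g⁻¹ = x → g ∈ Cz P := fun g hg x hx hx1 h =>
    hB' g hg (exists_pow_mem_Cz_of_isCyclic hP hcyc ((hT g).1 hg).1 hx hx1 h)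
  obtain ⟨z, hz, ho⟩ := exists_orderOf_eq_of_ne_bot hP hP1
  set Z := Subgroup.zpowers z with hZ
  have hZP : Z ≤ P := by rwa [hZ, Subgroup.zpowers_le]
  have hcZ : Nat.card Z = p := by rw [hZ, Nat.card_zpowers, ho]
  have hTZ : T ≤ Nz Z := fun g hg => Nz_le_Nz_of_isCyclic hcyc hZP ((hT g).1 hg).1
  let φ : T →* MulAut Z := Z.normalizerMonoidHom.comp (Subgroup.inclusion hTZ)
  have hker : φ.ker = (Cz P).subgroupOf T := by
    ext g
    rw [MonoidHom.mem_ker, Subgroup.mem_subgroupOf]
    have e : φ g = 1 ↔ (g : G) ∈ Cz Z := by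
      have := Z.normalizerMonoidHom_ker
      change Subgroup.inclusion hTZ g ∈ Z.normalizerMonoidHom.ker ↔ _
      rw [this, Subgroup.mem_subgroupOf]
      rfl
    rw [e]
    refine ⟨fun h => h3 g g.2 z hz ?_ ?_, fun h => Cz_anti hZP h⟩
    · rintro rfl
      exact (Fact.out : p.Prime).one_lt.ne (by simpa using ho)
    · rw [mul_inv_eq_iff_eq_mul]
      exact (mem_Cz.1 h z (Subgroup.mem_zpowers z)).symm
  have hZc : IsCyclic Z := inferInstance
  have hA : IsCyclic (MulAut Z) := by
    have : IsCyclic (ZMod (Nat.card Z))ˣ := by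
      rw [hcZ]; exact ZMod.isCyclic_units_prime Fact.out
    exact isCyclic_of_surjective _ (IsCyclic.mulAutMulEquiv Z).symm.surjective
  let e : (T ⧸ (Cz P).subgroupOf T) ≃* φ.range :=
    (QuotientGroup.quotientMulEquivOfEq hker.symm).trans (QuotientGroup.quotientKerEquivRange φ)
  refine ⟨isCyclic_of_surjective _ e.symm.surjective, ?_, h3⟩
  rw [Subgroup.relIndex, Subgroup.index, Nat.card_congr e.toEquiv, ← Nat.totient_prime Fact.out,
    ← hcZ, ← IsCyclic.card_mulAut]
  exact Subgroup.card_subgroup_dvd_card _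

end Cfsg.Agent.S4633
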