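import Cfsg.Statements.S4635
import Cfsg.Agent.Lib.Cyc.Perf

set_option autoImplicit false
open Cfsg

namespace Cfsg.Agent.S4635

open CfsgLib CfsgLib.Cyc CfsgLib.Star CfsgLib.Blk CfsgLib.BrPair

/-- Let B be a block of the finite group G relative to a maximal ideal M of the algebraic integers containing the prime p, with a nontrivial cyclic defect group P; let Z be the subgroup of order p of P and H = N_G(Z), which contains N_G(P). Let c be the block of H with defect group P that induces B. Then B and c contain the same number of irreducible characters, have the same p-regular rank, and there is a perfect isometry from c onto B. -/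
theorem result {G : Type*} [Group G] [Finite G] (p : ℕ) [Fact p.Prime] (M : Ideal Cfsg.AlgInt) (hM : Cfsg.IsPModular p M) (B : Set (Cfsg.IrrCharacter G)) (hB : Cfsg.IsPBlock M B) (P : Subgroup G) (hPD : Cfsg.IsDefectGroup p M B P) (hP1 : P ≠ ⊥) (hcyc : IsCyclic P) (Z : Subgroup G) (hZ : Z ≤ P) (hZcard : Nat.card Z = p) (H : Subgroup G) (hH : H = Subgroup.normalizer (Z : Set G)) (c : Set (Cfsg.IrrCharacter H)) (hcD : Cfsg.IsDefectGroup p M c (P.subgroupOf H)) (hc : Cfsg.IsInducedBlock M H c B) : Nat.card c = Nat.card B ∧ Cfsg.blockRank p c = Cfsg.blockRank p B ∧ ∃ (I : Cfsg.IrrCharacter H → Cfsg.IrrCharacter G) (ε : Cfsg.IrrCharacter H → ℤ), Cfsg.IsPerfectIsometry p M c B I ε := by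
  have := Fintype.ofFinite G
  have := Fintype.ofFinite H
  have : ∀ u : G, Fintype (Cu u) := fun u => Fintype.ofFinite _
  have : ∀ u : H, Fintype (Cu u) := fun u => Fintype.ofFinite _
  have hN : Nz P ≤ H := hH ▸ Nz_le_Nz_of_isCyclic hcyc hZ
  have hPH : P ≤ H := Subgroup.le_normalizer.trans hN
  obtain ⟨e', h'⟩ := exists_maxPair_of_defect hM hc.1 hcD
  obtain ⟨-, h⟩ := maxPair_of_induced hc hPD hPH
    ((Subgroup.centralizer_le_normalizer _).trans hN) h'
  let φ := Subgroup.subgroupOfEquivOfLe hPH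
  have hcyc' : IsCyclic (P.subgroupOf H) := isCyclic_of_surjective _ φ.symm.surjective
  obtain ⟨ε, δ, ζ, a, X, T⟩ := exists_tab h' hc.1 hcyc' fun h0 => hP1 (by
    rw [← Subgroup.map_subgroupOf_eq_of_le hPH, h0, Subgroup.map_bot])
  obtain ⟨h1, h2, I, η, -, h3, -⟩ := perfect_of_tab' h hB hcyc hP1 h' hc.1 hcyc'
    (Nat.card_congr φ.toEquiv) (relIndex_stN_subgroupOf hPH hN e') T
  exact ⟨h1, h2, I, η, h3⟩

end Cfsg.Agent.S4635
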