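import Mathlib
import Cfsg.Statements.S4636
import Cfsg.Agent.Lib.BrPair.CycGrp

set_option autoImplicit false
open scoped Pointwise
open Cfsg

namespace Cfsg.Agent.S4636

open CfsgLib.BrPair



/-- Let P be a nontrivial cyclic p-subgroup of the finite group G and Z its subgroup of order p. For every x outside N_G(Z), P meets its conjugate xPx⁻¹ trivially; consequently N_G(Q) ≤ N_G(Z) for every nontrivial subgroup Q of P. -/
theorem result {G : Type*} [Group G] [Finite G] (p : ℕ) [Fact p.Prime] (P : Subgroup G) (hP : IsPGroup p P) (hP1 : P ≠ ⊥) (hcyc : IsCyclic P) (Z : Subgroup G) (hZ : Z ≤ P) (hZcard : Nat.card Z = p) : (∀ x : G, x ∉ Subgroup.normalizer (Z : Set G) → P ⊓ MulAut.conj x • P = ⊥) ∧ ∀ Q : Subgroup G, Q ≤ P → Q ≠ ⊥ → Subgroup.normalizer (Q : Set G) ≤ Subgroup.normalizer (Z : Set G) := by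
  refine ⟨fun x hx => ?_, fun Q hQ hQ1 => ?_⟩
  · by_contra hc
    apply hx
    have h1 : Z ≤ P ⊓ cS x P := le_of_ne_bot_of_isCyclic hP hcyc hZ hZcard inf_le_left hc
    have h2 : cS x⁻¹ Z ≤ P := le_cS_iff.1 (h1.trans inf_le_right)
    have h3 := eq_of_card_eq_of_isCyclic hcyc h2 hZ (card_cS _ _)
    exact (Subgroup.inv_mem_iff _).1 (mem_Nz_iff_cS.2 h3)
  · have hQc : IsCyclic Q := Subgroup.isCyclic_of_le hQ
    exact Nz_le_Nz_of_isCyclic hQc (le_of_ne_bot_of_isCyclic hP hcyc hZ hZcard hQ hQ1)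

end Cfsg.Agent.S4636
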