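import Cfsg.Statements.S4638
import Cfsg.Agent.Lib.Star.Perf
import Cfsg.Agent.S4637

set_option autoImplicit false
open Cfsg

namespace Cfsg.Agent.S4638

open CfsgLib CfsgLib.Star CfsgLib.Blk CfsgLib.Block CfsgLib.Char CfsgLib.BrPair MonoidAlgebra in
theorem klein {G : Type*} [Group G] [Fintype G] [∀ u : G, Fintype (Cu u)] {M : Ideal AlgInt}
    [Fact (Nat.Prime 2)] {hM : IsPModular 2 M} {B : Set (IrrCharacter G)} {P : Subgroup G}
    {e : (K hM)[G]} (F : Frob hM B P e) (hV : IsKleinFour P) (hn : ¬ IsNil 2 ⊤ ⊤ (eB hM B)) :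
    Nat.card B = 4 ∧ ∃ a : IrrCharacter G → ℤ, (∀ χ ∈ B, a χ = 1 ∨ a χ = -1) ∧
      ∀ u ∈ P, u ≠ 1 → ∀ χ ∈ B, dd hM P e u χ = a χ := by
  classical
  have h := F.mp
  have hB := F.blk
  obtain ⟨R, hR, -⟩ := exists_isFReps h
  obtain ⟨h1, -⟩ := free_count h F.ab hB F.free hR
  have hP : Nat.card P = 4 := hV.card_four
  rw [hP] at h1
  have h3 : (Cz P).relIndex (stN ⊤ P e) ∣ 3 := Dvd.intro_left (R.card - 1) (by omega)
  have h4 := ((Nat.dvd_prime Nat.prime_three).1 h3).resolve_left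
    fun h' => hn ((isNil_iff_relIndex h F.ab).2 h')
  rw [h4] at h1
  obtain ⟨u, hu⟩ : ∃ u, R.erase 1 = {u} := Finset.card_eq_one.1 (by
    rw [Finset.card_erase_of_mem (hR.one_mem h)]; omega)
  have hu' : u ∈ R.erase 1 := hu ▸ Finset.mem_singleton_self u
  have hu1 := Finset.ne_of_mem_erase hu'
  have huP := hR.1 u (Finset.mem_of_mem_erase hu')
  have hfus : ∀ v ∈ P, v ≠ 1 → Fus 2 P e v u := fun v hv hv1 => by
    obtain ⟨w, ⟨hw, hvw⟩, -⟩ := hR.2 v hv
    have : w ∈ R.erase 1 := Finset.mem_erase.2 ⟨fun h => hv1 (Fus.eq_one (h ▸ hvw)), hw⟩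
    rwa [Finset.mem_singleton.1 (hu ▸ this : w ∈ ({u} : Finset G))] at hvw
  have hd : blockDefect 2 B ≤ 2 := by
    have := pow_defect_eq_card' h hB
    rw [hP] at this
    exact (Nat.pow_right_injective le_rfl (show _ = 2 ^ 2 from this)).le
  have ho : orderOf u ∣ 2 := orderOf_dvd_of_pow_eq_one (by
    rw [sq]; exact congrArg Subtype.val (IsKleinFour.mul_self (⟨u, huP⟩ : P)))
  have hint : ∀ χ : IrrCharacter G, ∃ a : ℤ, dd hM P e u χ = a := fun χ =>
    exists_int_of_mem_cycInt_two ho (F.dd_mem huP hu1 (isGenChar_of_isIrr χ.2))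
  choose a ha using hint
  have hs := F.sum_conj_dd_mul huP hu1 huP hu1
  have hs' : ∑ χ ∈ bf B, a χ ^ 2 = 4 := by
    simp only [ha, map_intCast] at hs
    rw [if_pos (fus_refl h huP), hP] at hs
    simp only [sq]
    exact_mod_cast hs
  have hodd : ∀ χ ∈ bf B, ¬ (2 : ℤ) ∣ a χ := fun χ hχ hd' =>
    (F.not_li_dd_iff huP hu1 (mem_bf.1 hχ)).2
      (height_eq_zero_of_defect_le hM hB hd (mem_bf.1 hχ))
      (by rw [ha]; exact (li_intCast_iff hM _).2 hd')
  have h5 : ∀ χ ∈ bf B, a χ ^ 2 = 1 := fun χ hχ => by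
    have h6 := Finset.single_le_sum (f := fun χ => a χ ^ 2) (fun χ _ => sq_nonneg _) hχ
    have h7 := hodd χ hχ
    have h8 : a χ ≤ 2 := by nlinarith
    have h9 : -2 ≤ a χ := by nlinarith
    revert h6 h7 h8 h9
    generalize a χ = n
    intro h6 h7 h8 h9
    interval_cases n <;> omega
  rw [Finset.sum_congr rfl h5, Finset.sum_const, nsmul_eq_mul, mul_one] at hs'
  refine ⟨by rw [card_bf]; exact_mod_cast hs', a, fun χ hχ => sq_eq_one_iff.1 (h5 χ (mem_bf.2 hχ)),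
    fun v hv hv1 χ _ => ?_⟩
  rw [← dd_of_fus h (hfus v hv hv1) (irr_isClassFunction χ), ha]

open CfsgLib CfsgLib.Star CfsgLib.Blk CfsgLib.Block CfsgLib.Char CfsgLib.BrPair MonoidAlgebra in
theorem frob {G : Type*} [Group G] [Fintype G] {M : Ideal AlgInt}
    [Fact (Nat.Prime 2)] {hM : IsPModular 2 M} {B : Set (IrrCharacter G)} {P : Subgroup G}
    {e : (K hM)[G]} (h : MaxPair 2 ⊤ ⊤ (eB hM B) P e) (hB : IsPBlock M B) (hV : IsKleinFour P) :
    Frob hM B P e :=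
  have hab : P ≤ Cz P := le_Cz_of_isMulCommutative IsKleinFour.isMulCommutative
  ⟨h, hB, hab, fun _ hu hu1 _ ht =>
    ab_mem_Cz h hab ht.1 (S4637.sq_mem_Cz hV hu hu1 ht.1.1.2 ht.2)⟩

open CfsgLib CfsgLib.Star CfsgLib.Blk CfsgLib.Block CfsgLib.Char CfsgLib.BrPair in

/-- Let B be a block of the finite group G relative to a maximal ideal M of the algebraic integers containing 2, with a Klein four defect group P, and let c be its Brauer correspondent: the block of N_G(P) with defect group P that induces B. Then there is a perfect isometry from c onto B. -/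
theorem result {G : Type*} [Group G] [Finite G] (M : Ideal Cfsg.AlgInt) (hM : Cfsg.IsPModular 2 M) (B : Set (Cfsg.IrrCharacter G)) (hB : Cfsg.IsPBlock M B) (P : Subgroup G) (hPD : Cfsg.IsDefectGroup 2 M B P) (hV : IsKleinFour P) (c : Set (Cfsg.IrrCharacter (Subgroup.normalizer (P : Set G)))) (hcD : Cfsg.IsDefectGroup 2 M c (P.subgroupOf (Subgroup.normalizer (P : Set G)))) (hc : Cfsg.IsInducedBlock M (Subgroup.normalizer (P : Set G)) c B) : ∃ (I : Cfsg.IrrCharacter (Subgroup.normalizer (P : Set G)) → Cfsg.IrrCharacter G) (ε : Cfsg.IrrCharacter (Subgroup.normalizer (P : Set G)) → ℤ), Cfsg.IsPerfectIsometry 2 M c B I ε := by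
  classical
  have : Fact (Nat.Prime 2) := ⟨Nat.prime_two⟩
  have := Fintype.ofFinite G
  obtain ⟨hcb, -, -⟩ := (isInducedBlock_iff hM).1 hc
  obtain ⟨e', h'⟩ := exists_maxPair_of_isDef le_rfl top_le_Nz_top (isBlk_eB hM hcb)
    ((isDefectGroup_iff hM hcb).1 hcD)
  obtain ⟨h1, h⟩ := maxPair_of_induced hc hPD Subgroup.le_normalizer
    (Subgroup.centralizer_le_normalizer _) h'
  let φ := Subgroup.subgroupOfEquivOfLe (Subgroup.le_normalizer (H := P))
  have hV' : IsKleinFour (P.subgroupOf (Nz P)) :=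
    ⟨(Nat.card_congr φ.toEquiv).trans hV.card_four,
      (Monoid.exponent_eq_of_mulEquiv φ).trans hV.exponent_two⟩
  have F := frob h hB hV
  have F' := frob h' hcb hV'
  have hiff : IsNil 2 ⊤ ⊤ (eB hM B) ↔ IsNil 2 ⊤ ⊤ (eB hM c) := by
    rw [← isNil_emb_iff (Nz P).subtype_injective (b := eB hM c), map_top_subtype,
      h.isNil_iff_of_abelian F.ab]
    refine Iff.trans ?_ (h1.isNil_iff_of_abelian F.ab).symm
    simp only [stN, top_inf_eq, inf_idem]
  by_cases hn : IsNil 2 ⊤ ⊤ (eB hM B)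
  · obtain ⟨I, hI⟩ := perfect_of_nil F F' hn (hiff.1 hn) φ
    exact ⟨I, 1, hI⟩
  obtain ⟨k1, a, ha, ha'⟩ := klein F hV hn
  obtain ⟨k2, a', hb, hb'⟩ := klein F' hV' (mt hiff.2 hn)
  obtain ⟨Φ⟩ : Nonempty (c ≃ B) := Finite.card_eq.1 (k2.trans k1.symm)
  obtain ⟨χ₀, -⟩ := IsPBlock_nonempty hM hB
  let I : IrrCharacter (Nz P) → IrrCharacter G := fun η => if h : η ∈ c then Φ ⟨η, h⟩ else χ₀
  have hI : ∀ η (h : η ∈ c), I η = Φ ⟨η, h⟩ := fun η h => dif_pos h
  have hIB : ∀ η ∈ c, I η ∈ B := fun η h => hI η h ▸ (Φ _).2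
  obtain ⟨v, hv1⟩ : ∃ v : P.subgroupOf (Nz P), v ≠ 1 := by
    have := (Finite.one_lt_card_iff_nontrivial (α := P.subgroupOf (Nz P))).1
      (by rw [hV'.card_four]; omega)
    exact exists_ne 1
  have hsq : ∀ η ∈ c, (a (I η) : ℂ) * a (I η) = 1 := fun η hη => by
    rcases ha _ (hIB η hη) with h | h <;> rw [h] <;> norm_num
  refine ⟨I, fun η => a (I η) * a' η, perfect_of_cols F F' (Nat.card_congr φ.toEquiv)
    ⟨hIB, fun η hη η' hη' h => ?_, fun ψ hψ => ?_⟩ (fun η hη => ?_) (fun u hu hu1 => ?_)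
    fun w hw hw1 => ?_⟩
  · rw [hI η hη, hI η' hη'] at h
    exact congrArg Subtype.val (Φ.injective (Subtype.ext h))
  · obtain ⟨η, hη⟩ := Φ.surjective ⟨ψ, hψ⟩
    exact ⟨η, η.2, by rw [hI _ η.2, hη]⟩
  · rcases ha _ (hIB η hη) with h | h <;> rcases hb η hη with h' | h' <;> simp [h, h']
  · refine ⟨v, v.2, fun h => hv1 (Subtype.ext h), 1, isIntegral_one, fun η hη => ?_⟩
    rw [ha' u hu hu1 _ (hIB η hη), hb' v v.2 (fun h => hv1 (Subtype.ext h)) η hη]
    push_cast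
    linear_combination (a' η : ℂ) * hsq η hη
  · refine ⟨w, hw, fun h => hw1 (Subtype.ext h), 1, isIntegral_one, fun η hη => ?_⟩
    rw [ha' w hw (fun h => hw1 (Subtype.ext h)) _ (hIB η hη), hb' w hw hw1 η hη]
    push_cast
    linear_combination (-a' η : ℂ) * hsq η hη

end Cfsg.Agent.S4638
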