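import Cfsg.Statements.S4641
import Cfsg.Agent.Lib.Blk.Dec2

set_option autoImplicit false
open Cfsg

namespace Cfsg.Agent.S4641

open CfsgLib.Blk CfsgLib.Block CfsgLib.Char CfsgLib.ModRep

/-- Let B be a block of the finite group G relative to a maximal ideal M of the algebraic integers containing the prime p, let p^a be the p-part of the order of G and p^d the order of a defect group D of B, and let g be the greatest common divisor of the degrees of the members of B. Then the p-part of g is exactly p^(a−d), and writing g = p^(a−d)·u there is a positive integer v, prime to p and at least the p-regular rank of B (its number of irreducible Brauer characters), with Σ_{χ ∈ B} χ(1)² = p^(2a−d)·u²·v. -/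
theorem result {G : Type*} [Group G] [Finite G] (p : ℕ) [Fact p.Prime] (M : Ideal Cfsg.AlgInt) (hM : Cfsg.IsPModular p M) (B : Set (Cfsg.IrrCharacter G)) (hB : Cfsg.IsPBlock M B) (D : Subgroup G) (hD : Cfsg.IsDefectGroup p M B D) (a d : ℕ) (ha : (Nat.card G).factorization p = a) (hd : Nat.card D = p ^ d) (g : ℕ) (hg1 : ∀ χ ∈ B, g ∣ Cfsg.charDegree (χ : G → ℂ)) (hg2 : ∀ g' : ℕ, (∀ χ ∈ B, g' ∣ Cfsg.charDegree (χ : G → ℂ)) → g' ∣ g) : g.factorization p = a - d ∧ ∃ v : ℕ, 0 < v ∧ ¬ p ∣ v ∧ Cfsg.blockRank p B ≤ v ∧ ∑ᶠ χ ∈ B, Cfsg.charDegree (χ : G → ℂ) ^ 2 = p ^ (2 * a - d) * (g / p ^ (a - d)) ^ 2 * v := by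
  classical
  have := Fintype.ofFinite G
  have hp : p.Prime := hM.1
  obtain ⟨W⟩ := nonempty_wedd (K hM) (MonoidAlgebra (K hM) G)
  have hne := IsPBlock_nonempty hM hB
  have hdd : Cfsg.blockDefect p B = d := by
    have := card_eq_pow_blockDefect hM hB hD
    rw [hd] at this
    exact (Nat.pow_right_injective hp.two_le this).symm
  have hm : d + minv p B = a := by rw [← hdd, ← ha]; exact defect_add_minv hne
  have hm' : a - d = minv p B := by omega
  obtain ⟨χ₀, hχ₀, h0⟩ := exists_height_zero (p := p) hne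
  have hg0 : g ≠ 0 := fun h => charDegree_ne_zero χ₀.2 (zero_dvd_iff.1 (h ▸ hg1 χ₀ hχ₀))
  have hpg : p ^ minv p B ∣ g := hg2 _ fun χ hχ => ⟨_, (pow_mul_rdeg hp hχ).symm⟩
  have hfac : g.factorization p = minv p B := by
    refine le_antisymm ?_ ((hp.pow_dvd_iff_le_factorization hg0).1 hpg)
    have := (Nat.factorization_le_iff_dvd hg0 (charDegree_ne_zero χ₀.2)).2 (hg1 χ₀ hχ₀) p
    rw [← minv_add_height hχ₀, h0] at this
    exact this
  rw [hm']
  refine ⟨hfac, ?_⟩
  set u := g / p ^ minv p B with hu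
  have hgu : g = p ^ minv p B * u := (Nat.mul_div_cancel' hpg).symm
  have hup : ¬ p ∣ u := by rw [hu, ← hfac]; exact Nat.not_dvd_ordCompl hp hg0
  have h1 : ∀ b ∈ ib W B, ∃ α : ℕ, W.d b = g * α := fun b hb => by
    obtain ⟨n, -, -, hn⟩ := exists_int_reg_eq_ibr hB hb
    have := congrFun hn 1
    rw [ibr_one, Finset.sum_apply] at this
    simp only [Pi.smul_apply, pRegularPart_one hp, smul_eq_mul,
      ← charDegree_eq (irr_isCharacter _)] at this
    have h2 : ∑ χ ∈ bf B, n χ * (Cfsg.charDegree (χ : G → ℂ) : ℤ) = W.d b := by exact_mod_cast this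
    have h3 : (g : ℤ) ∣ W.d b := h2 ▸ Finset.dvd_sum fun χ hχ =>
      (Int.natCast_dvd_natCast.2 (hg1 χ (mem_bf.1 hχ))).mul_left _
    exact Int.natCast_dvd_natCast.1 h3
  have h2 : ∀ b ∈ ib W B, ∃ β : ℕ,
      ∑ χ ∈ bf B, dn W χ b * Cfsg.charDegree (χ : G → ℂ) = p ^ a * u * β := fun b hb => by
    refine Nat.Coprime.mul_dvd_of_dvd_of_dvd
      (((Nat.Prime.coprime_iff_not_dvd hp).2 hup).pow_left a) ?_
      (Finset.dvd_sum fun χ hχ => ((Dvd.intro_left _ hgu.symm).trans (hg1 χ (mem_bf.1 hχ))).mul_left _)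
    obtain ⟨k, hk⟩ := pow_dvd_of_genChar_vanish (isGenChar_Proj W b) fun g hg => Proj_of_sing W b hg
    rw [Proj_eq_sum_bf hB hb, Finset.sum_apply, ha] at hk
    simp only [Pi.smul_apply, smul_eq_mul, ← charDegree_eq (irr_isCharacter _)] at hk
    rw [← Int.natCast_dvd_natCast]
    exact ⟨k, by exact_mod_cast hk⟩
  choose! α hα using h1
  choose! β hβ using h2
  have h3 : ∑ χ ∈ bf B, Cfsg.charDegree (χ : G → ℂ) ^ 2 =
      p ^ (2 * a - d) * u ^ 2 * ∑ b ∈ ib W B, α b * β b := by
    rw [Finset.sum_congr rfl (g := fun χ : Cfsg.IrrCharacter G => ∑ b ∈ ib W B,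
      W.d b * (dn W χ b * Cfsg.charDegree (χ : G → ℂ))) fun χ hχ => by
        conv_lhs => rw [sq]; enter [1]; rw [irr_one_eq_sum (W := W) hB (mem_bf.1 hχ)]
        rw [Finset.sum_mul]
        exact Finset.sum_congr rfl fun b _ => by ring, Finset.sum_comm, Finset.mul_sum]
    refine Finset.sum_congr rfl fun b hb => ?_
    rw [← Finset.mul_sum, hβ b hb, hα b hb, show 2 * a - d = minv p B + a by omega, pow_add]
    conv_lhs => rw [hgu]
    ring
  have h4 : Cfsg.blockRank p B ≤ ∑ b ∈ ib W B, α b * β b := by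
    rw [blockRank_eq_card_ib (W := W) hB, Finset.card_eq_sum_ones]
    refine Finset.sum_le_sum fun b hb => Nat.one_le_iff_ne_zero.2 (mul_ne_zero ?_ ?_)
    · intro h
      have := hα b hb
      rw [h, mul_zero] at this
      exact (W.pos b).ne' this
    · intro h
      have h5 := hβ b hb
      rw [h, mul_zero, Finset.sum_eq_zero_iff] at h5
      have h6 := classInner_Proj_ibr W b b
      rw [Proj_eq_sum_bf hB hb, Finset.sum_eq_zero fun χ hχ => by
        rw [(mul_eq_zero.1 (h5 χ hχ)).resolve_right (charDegree_ne_zero χ.2), Nat.cast_zero,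
          zero_smul], classInner_zero_left, if_pos rfl] at h6
      exact zero_ne_one h6
  refine ⟨_, (blockRank_pos hp hne).trans_le h4, ?_, h4, by rw [finsum_bf, h3]⟩
  obtain ⟨v, hv, hv'⟩ := exists_sum_rdeg_sq hM hB
  rw [sum_deg_sq_eq hp, hv', hdd, ← mul_assoc, ← pow_add, show 2 * a - d = 2 * minv p B + d by omega,
    mul_assoc] at h3
  have h5 := Nat.eq_of_mul_eq_mul_left (pow_pos hp.pos _) h3
  exact fun h => hv (h5 ▸ h.mul_left _)

end Cfsg.Agent.S4641
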