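import Cfsg.Statements.S4644
import Cfsg.Agent.Lib.Star.Wat

set_option autoImplicit false
open Cfsg

namespace Cfsg.Agent.S4644

open CfsgLib CfsgLib.Star CfsgLib.Blk CfsgLib.Block CfsgLib.Char CfsgLib.BrPair MonoidAlgebra in

/-- Let B be a block of the finite group G relative to a maximal ideal M of the algebraic integers containing the prime p, with a commutative defect group P; let c be a block of C_G(P) inducing B and T the stabilizer of c in N_G(P). Let u be an element of P fixed under conjugation by every element of T, H = C_G(u) (so C_G(P) ≤ H), and f the block of H induced by c inside H. Then B and f have the same p-regular rank and the same number of irreducible characters. -/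
theorem result {G : Type*} [Group G] [Finite G] (p : ℕ) [Fact p.Prime] (M : Ideal Cfsg.AlgInt) (hM : Cfsg.IsPModular p M) (B : Set (Cfsg.IrrCharacter G)) (hB : Cfsg.IsPBlock M B) (P : Subgroup G) (hPD : Cfsg.IsDefectGroup p M B P) (hPab : ∀ x ∈ P, ∀ y ∈ P, x * y = y * x) (c : Set (Cfsg.IrrCharacter (Subgroup.centralizer (P : Set G)))) (hc : Cfsg.IsInducedBlock M (Subgroup.centralizer (P : Set G)) c B) (T : Subgroup G) (hT : ∀ g : G, g ∈ T ↔ (g ∈ Subgroup.normalizer (P : Set G) ∧ Cfsg.StabilizesBlock (Subgroup.centralizer (P : Set G)) c g)) (u : G) (hu : u ∈ P) (huT : ∀ g ∈ T, g * u * g⁻¹ = u) (H : Subgroup G) (hH : H = Subgroup.centralizer ({u} : Set G)) (f : Set (Cfsg.IrrCharacter H)) (hf : Cfsg.IsInducedBlockIn M H (Subgroup.centralizer (P : Set G)) c f) : Cfsg.blockRank p B = Cfsg.blockRank p f ∧ Nat.card B = Nat.card f := by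
  classical
  have := Fintype.ofFinite G
  have h := maxPair_of_isInducedBlock hM hPD hc
  obtain rfl := eq_stN hM hc.1 hT
  have hab : P ≤ Cz P := fun x hx y hy => hPab y hy x hx
  rw [← Cz_zpowers] at hH
  subst hH
  have hQ : Subgroup.zpowers u ≤ P := Subgroup.zpowers_le.2 hu
  obtain ⟨-, hfb, hind⟩ := (isInducedBlockIn_iff hM (Cz_anti hQ)).1 hf
  have h1 := fL_eq_of_subLE h hab hQ
    ((h.ind_iff_subLE hQ (le_Cz_of_ab hab hQ) (isBlk_sB' hM hfb)).1 (by simpa using hind))
  have h2 : stN (Cz ⊥) P (sB hM (Cz P) c) ≤ Cu u := fun t ht => mem_Cu.2 (by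
    rw [← mul_inv_eq_iff_eq_mul.1 (huT t ⟨⟨trivial, ht.1.2⟩, ht.2⟩)])
  have h3 := rk_sup_zpowers h hab bot_le hu h2
  have h4 := kk_sup_zpowers h hab bot_le hu h2
  have h5 : fL P (sB hM (Cz P) c) (Cz ⊥) = eB hM B :=
    fL_eq h hab bot_le (by rw [Cz_bot]; exact isBlk_eB hM hB) h.pair.br_mul
  rw [bot_sup_eq, h1, h5, Cz_bot] at h3 h4
  rw [rk_sB hfb, rk_top hB] at h3
  rw [kk_sB hfb, kk_top hB] at h4
  exact ⟨h3.symm, h4.symm⟩

end Cfsg.Agent.S4644
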