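import Cfsg.Statements.S4645
import Cfsg.Agent.Lib.Star.Gdn

set_option autoImplicit false
open Cfsg

namespace Cfsg.Agent.S4645

open CfsgLib CfsgLib.Star CfsgLib.Blk CfsgLib.Block CfsgLib.BrPair in

/-- Let B be a block of the finite group G relative to a maximal ideal M of the algebraic integers containing the prime p, with a nontrivial cyclic defect group P; let c be a block of C_G(P) inducing B and T the stabilizer of c in N_G(P). Let Q be a nontrivial subgroup of P (so C_G(P) ≤ C_G(Q)), f the block of C_G(Q) induced by c inside C_G(Q), and T' the stabilizer of f in N_G(Q). Then T' = T·C_G(Q), the index of C_G(Q) in T' equals the index of C_G(P) in T, f has p-regular rank 1, and f is a nilpotent block of C_G(Q). -/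
theorem result {G : Type*} [Group G] [Finite G] (p : ℕ) [Fact p.Prime] (M : Ideal Cfsg.AlgInt) (hM : Cfsg.IsPModular p M) (B : Set (Cfsg.IrrCharacter G)) (hB : Cfsg.IsPBlock M B) (P : Subgroup G) (hPD : Cfsg.IsDefectGroup p M B P) (hP1 : P ≠ ⊥) (hcyc : IsCyclic P) (c : Set (Cfsg.IrrCharacter (Subgroup.centralizer (P : Set G)))) (hc : Cfsg.IsInducedBlock M (Subgroup.centralizer (P : Set G)) c B) (T : Subgroup G) (hT : ∀ g : G, g ∈ T ↔ (g ∈ Subgroup.normalizer (P : Set G) ∧ Cfsg.StabilizesBlock (Subgroup.centralizer (P : Set G)) c g)) (Q : Subgroup G) (hQP : Q ≤ P) (hQ1 : Q ≠ ⊥) (f : Set (Cfsg.IrrCharacter (Subgroup.centralizer (Q : Set G)))) (hf : Cfsg.IsInducedBlockIn M (Subgroup.centralizer (Q : Set G)) (Subgroup.centralizer (P : Set G)) c f) (T' : Subgroup G) (hT' : ∀ g : G, g ∈ T' ↔ (g ∈ Subgroup.normalizer (Q : Set G) ∧ Cfsg.StabilizesBlock (Subgroup.centralizer (Q : Set G)) f g)) : T' = T ⊔ Subgroup.centralizer (Q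 : Set G) ∧ (Subgroup.centralizer (Q : Set G)).relIndex T' = (Subgroup.centralizer (P : Set G)).relIndex T ∧ Cfsg.blockRank p f = 1 ∧ Cfsg.IsNilpotentBlock p M f := by
  classical
  have h := maxPair_of_isInducedBlock hM hPD hc
  have hab : P ≤ Cz P := le_Cz_of_isMulCommutative inferInstance
  have hcb : IsPBlock M c := ((isInducedBlock_iff hM).1 hc).1
  obtain ⟨-, hfb, hind⟩ := (isInducedBlockIn_iff hM (Subgroup.centralizer_le hQP)).1 hf
  have hsub : SubLE p ⊤ Q (sB hM (Cz Q) f) P (sB hM (Cz P) c) :=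
    (h.ind_iff_subLE hQP (le_Cz_of_ab hab hQP) (isBlk_sB' hM hfb)).1 (by simpa using hind)
  obtain rfl := eq_stN hM hcb hT
  obtain rfl := eq_stN hM hfb hT'
  have hTC : stN ⊤ P (sB hM (Cz P) c) ⊓ Cz Q ≤ Cz P := by
    intro t ht
    obtain ⟨x, hx, hx1⟩ := (Subgroup.ne_bot_iff_exists_ne_one.1 hQ1).imp' Subtype.val
      (q := fun x => x ∈ Q ∧ x ≠ 1) fun x hx => ⟨x.2, fun h => hx (Subtype.ext h)⟩
    obtain ⟨n, hn⟩ := exists_pow_mem_Cz_of_isCyclic h.pgroup hcyc ht.1.1.2 (hQP hx) hx1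
      (by rw [← mem_Cz.1 ht.2 x hx]; group)
    exact ab_mem_Cz h hab ht.1 hn
  have h1 : stN ⊤ Q (sB hM (Cz Q) f) = stN ⊤ P (sB hM (Cz P) c) ⊔ Cz Q := by
    refine le_antisymm (fun x hx => ?_) (sup_le (fun t ht => h.inf_Nz_le_stN hsub
      ⟨ht, Nz_le_Nz_of_isCyclic hcyc hQP ht.1.2⟩) (le_sup_right.trans
        (sup_Cz_le_stN (isBlk_sB' hM hfb))))
    obtain ⟨y, hy, hyx⟩ := h.exists_mul_mem_stN hsub (le_Cz_of_ab hab hQP) hx
    exact (Subgroup.mul_mem_cancel_left _ (Subgroup.mem_sup_right hy.1.2)).1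
      (Subgroup.mem_sup_left hyx)
  have hnil := (ab_isNil_iff h hab hsub).2 hTC
  rw [top_inf_eq] at hnil
  refine ⟨h1, ?_, rank_eq_one_of_isNil_sub hfb hnil, (isNilpotentBlock_sub_iff hM).2 ⟨hfb, hnil⟩⟩
  have h2 : Cz Q ⊓ stN ⊤ P (sB hM (Cz P) c) = Cz P ⊓ stN ⊤ P (sB hM (Cz P) c) :=
    le_antisymm (fun x hx => ⟨hTC ⟨hx.2, hx.1⟩, hx.2⟩)
      (inf_le_inf_right _ (Subgroup.centralizer_le hQP))
  change (Cz Q).relIndex _ = (Cz P).relIndex _
  rw [← Subgroup.inf_relIndex_right (Cz P), ← h2, Subgroup.inf_relIndex_right, h1]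
  have h3 : stN ⊤ P (sB hM (Cz P) c) ≤ Nz (Cz Q) := fun t ht =>
    Nz_le_Nz_Cz Q (Nz_le_Nz_of_isCyclic hcyc hQP ht.1.2)
  have := Subgroup.normal_subgroupOf_of_le_normalizer h3
  have := Subgroup.normal_subgroupOf_sup_of_le_normalizer h3
  exact (Nat.card_congr (QuotientGroup.quotientInfEquivProdNormalizerQuotient _ _ h3).toEquiv).symm

end Cfsg.Agent.S4645
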