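import Cfsg.Statements.S4647
import Cfsg.Agent.Lib.Star.MinDim

set_option autoImplicit false
open Cfsg

namespace Cfsg.Agent.S4647

open CfsgLib CfsgLib.Star CfsgLib.Blk CfsgLib.Block CfsgLib.Char CfsgLib.BrPair MonoidAlgebra in

/-- Let B be a block of the finite group G relative to a maximal ideal M of the algebraic integers containing the prime p, p^a the p-part of the order of G and p^d the order of a defect group D of B. If Σ_{χ ∈ B} χ(1)² = p^(2a−d) (the least possible value), then B is nilpotent. -/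
theorem result {G : Type*} [Group G] [Finite G] (p : ℕ) [Fact p.Prime] (M : Ideal Cfsg.AlgInt) (hM : Cfsg.IsPModular p M) (B : Set (Cfsg.IrrCharacter G)) (hB : Cfsg.IsPBlock M B) (D : Subgroup G) (hD : Cfsg.IsDefectGroup p M B D) (a d : ℕ) (ha : (Nat.card G).factorization p = a) (hd : Nat.card D = p ^ d) (hmin : ∑ᶠ χ ∈ B, Cfsg.charDegree (χ : G → ℂ) ^ 2 = p ^ (2 * a - d)) : Cfsg.IsNilpotentBlock p M B := by
  classical
  have := Fintype.ofFinite G
  have hp : p.Prime := Fact.out
  have hD' := (isDefectGroup_iff hM hB).1 hD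
  obtain ⟨e, h⟩ := exists_maxPair_of_isDef le_rfl top_le_Nz_top (isBlk_eB hM hB) hD'
  obtain ⟨S, hS⟩ := hD'.pgroup.exists_le_sylow
  have h1 : Nat.card S = p ^ a := by rw [S.card_eq_multiplicity, ha]
  have h2 : d ≤ a := by
    have h3 := Subgroup.card_dvd_of_le hS
    rwa [hd, h1, Nat.pow_dvd_pow_iff_le_right hp.one_lt] at h3
  refine (isNilpotentBlock_iff hM).2 ⟨hB, h.isNil_iff_sub.2 fun Q f hf x hx hxp => ?_⟩
  have hxQ : x ∈ Nz Q := hx.1.2
  obtain ⟨s, hs, h3⟩ := exists_conj_eq_of_finrank S.isPGroup' (eB_mem_Z hM B)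
    (isIdempotentElem_eB hM hB) hD' hS (by
      rw [finrank_range_eB hM hB, ← finsum_bf, hmin, hd, h1, ← pow_add, ← pow_mul]
      exact Nat.pow_le_pow_right hp.pos (by omega)) hf.le hxQ
  obtain ⟨n, hn⟩ := exists_pow_eq_one_of_mem S.isPGroup' hs
  exact mem_Cz_of_conj_eq hn hxQ h3 hxp

end Cfsg.Agent.S4647
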