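import Cfsg.Statements.S4648
import Cfsg.Agent.Lib.Star.Sym

set_option autoImplicit false
open Cfsg

namespace Cfsg.Agent.S4648

open CfsgLib CfsgLib.Star CfsgLib.Blk CfsgLib.Block CfsgLib.Char CfsgLib.BrPair CfsgLib.ModRep MonoidAlgebra in

/-- Let B be a block of the finite group G relative to a maximal ideal M of the algebraic integers containing the prime p, with a nontrivial defect group D. If B has p-regular rank 1 and at most four irreducible characters, then B is nilpotent, D has exactly as many elements as B has irreducible characters, and p is 2 or 3. -/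
theorem result {G : Type*} [Group G] [Finite G] (p : ℕ) [Fact p.Prime] (M : Ideal Cfsg.AlgInt) (hM : Cfsg.IsPModular p M) (B : Set (Cfsg.IrrCharacter G)) (hB : Cfsg.IsPBlock M B) (D : Subgroup G) (hD : Cfsg.IsDefectGroup p M B D) (hD1 : D ≠ ⊥) (hl : Cfsg.blockRank p B = 1) (hk : Nat.card B ≤ 4) : Cfsg.IsNilpotentBlock p M B ∧ Nat.card D = Nat.card B ∧ (p = 2 ∨ p = 3) := by
  classical
  have := Fintype.ofFinite G
  have hp : p.Prime := Fact.out
  obtain ⟨e, h⟩ := exists_maxPair_of_isDef le_rfl top_le_Nz_top (isBlk_eB hM hB)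
    ((isDefectGroup_iff hM hB).1 hD)
  obtain ⟨W⟩ := nonempty_wedd (K hM) (MonoidAlgebra (K hM) G)
  obtain ⟨a, ha⟩ := exists_ib_eq_singleton W hB hl
  have hd := dn_eq_one_of_card_le W hB ha hk
  have h1 := card_eq_pow_of_dn W hB ha hd
  have h2 := pow_defect_eq_card' h hB
  have h3 : 1 < Nat.card D := (Subgroup.one_lt_card_iff_ne_bot D).2 hD1
  have h4 : blockDefect p B ≠ 0 := fun h0 => by rw [h0, pow_zero] at h2; omega
  have h5 : p ≤ 4 := (Nat.le_self_pow h4 p).trans (by omega)
  have h6 : blockDefect p B ≤ 2 := by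
    by_contra h6
    have h7 : p ^ 3 ≤ p ^ blockDefect p B := Nat.pow_le_pow_right hp.pos (not_le.1 h6)
    have h8 := Nat.pow_le_pow_left hp.two_le 3
    omega
  have hab : IsMulCommutative D := by
    obtain h7 | h7 : blockDefect p B = 1 ∨ blockDefect p B = 2 := by omega
    · rw [h7, pow_one] at h2
      have := isCyclic_of_prime_card h2.symm
      infer_instance
    · rw [h7] at h2
      exact IsPGroup.isMulCommutative_of_card_eq_prime_sq h2.symm
  refine ⟨(isNilpotentBlock_iff hM).2 ⟨hB, isNil_of_eq_deg h hB (le_Cz_of_isMulCommutative hab)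
    fun χ hχ => deg_eq_of_dn W hB ha hd hχ⟩, by omega, ?_⟩
  have := hp.two_le
  interval_cases p
  · exact Or.inl rfl
  · exact Or.inr rfl
  · exact absurd hp (by decide)

end Cfsg.Agent.S4648
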