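import Cfsg.Statements.S4649
import Cfsg.Agent.Lib.Star.Exc
import Cfsg.Agent.Lib.Cyc.Rank

set_option autoImplicit false
open Cfsg

namespace Cfsg.Agent.S4649

open CfsgLib CfsgLib.Star CfsgLib.Blk CfsgLib.Block CfsgLib.Char CfsgLib.BrPair MonoidAlgebra in

/-- A block with cyclic defect group, of a finite group relative to a maximal ideal M of the algebraic integers containing the prime p, is nilpotent if and only if its p-regular rank is 1 (it has a unique irreducible Brauer character). -/
theorem result {G : Type*} [Group G] [Finite G] (p : ℕ) [Fact p.Prime] (M : Ideal Cfsg.AlgInt) (hM : Cfsg.IsPModular p M) (B : Set (Cfsg.IrrCharacter G)) (hB : Cfsg.IsPBlock M B) (P : Subgroup G) (hPD : Cfsg.IsDefectGroup p M B P) (hcyc : IsCyclic P) : Cfsg.IsNilpotentBlock p M B ↔ Cfsg.blockRank p B = 1 := by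
  classical
  have := Fintype.ofFinite G
  rw [isNilpotentBlock_iff hM]
  refine ⟨fun h => rank_eq_one_of_isNil hB h.2, fun h1 => ⟨hB, ?_⟩⟩
  obtain ⟨e, h⟩ := exists_maxPair_of_isDef le_rfl top_le_Nz_top (isBlk_eB hM hB)
    ((isDefectGroup_iff hM hB).1 hPD)
  have F := Cyc.frob_of_isCyclic h hB hcyc
  by_cases hP : P = ⊥
  · rw [h.isNil_iff_of_abelian F.ab, hP, Cz_bot]
    exact le_top
  · have h2 := Cyc.relIndex_le_blockRank h hB hcyc hP
    have h3 := F.fAct.relIndex_ne_zero
    rw [isNil_iff_relIndex h F.ab]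
    omega

end Cfsg.Agent.S4649
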