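import Mathlib
import Cfsg.Statements.S4650
import Cfsg.Agent.Lib.BrPair.Dict2

set_option autoImplicit false
open Cfsg

namespace Cfsg.Agent.S4650

open MonoidAlgebra CfsgLib.BrPair CfsgLib.Block CfsgLib.Char CfsgLib.Fusion

attribute [local implicit_reducible] CfsgLib.Block.K


/-- Let B be a block of the finite group G relative to a maximal ideal M of the algebraic integers containing the prime p, with a nontrivial commutative defect group P; let c be a block of C_G(P) inducing B and T the stabilizer of c in N_G(P). Then T/C_G(P) acts freely on the non-identity elements of P (an element of T fixing a non-identity element of P under conjugation lies in C_G(P)) if and only if, for every nontrivial subgroup Q of P, the block of C_G(Q) induced by c inside C_G(Q) is a nilpotent block of C_G(Q). -/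
theorem result {G : Type*} [Group G] [Finite G] (p : ℕ) [Fact p.Prime] (M : Ideal Cfsg.AlgInt) (hM : Cfsg.IsPModular p M) (B : Set (Cfsg.IrrCharacter G)) (hB : Cfsg.IsPBlock M B) (P : Subgroup G) (hPD : Cfsg.IsDefectGroup p M B P) (hPab : ∀ x ∈ P, ∀ y ∈ P, x * y = y * x) (hP1 : P ≠ ⊥) (c : Set (Cfsg.IrrCharacter (Subgroup.centralizer (P : Set G)))) (hc : Cfsg.IsInducedBlock M (Subgroup.centralizer (P : Set G)) c B) (T : Subgroup G) (hT : ∀ g : G, g ∈ T ↔ (g ∈ Subgroup.normalizer (P : Set G) ∧ Cfsg.StabilizesBlock (Subgroup.centralizer (P : Set G)) c g)) : (∀ g ∈ T, ∀ x ∈ P, x ≠ 1 → g * x * g⁻¹ = x → g ∈ Subgroup.centralizer (P : Set G)) ↔ ∀ Q : Subgroup G, Q ≤ P → Q ≠ ⊥ → ∀ f : Set (Cfsg.IrrCharacter (Subgroup.centralizer (Q : Set G))), Cfsg.IsInducedBlockIn M (Subgroup.centralizer (Q : Set G)) (Subgroup.centralizer (P : Set G)) c f → Cfsg.IsNilpotentBlock p M f := by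
  have hP := maxPair_of_isInducedBlock hM hPD hc
  obtain rfl := eq_stN hM hc.1 hT
  have hab : P ≤ Cz P := fun x hx => mem_Cz.2 fun u hu => hPab u hu x hx
  have key : ∀ Q ≤ P, ∀ f : Set (IrrCharacter (Cz Q)),
      IsInducedBlockIn M (Cz Q) (Cz P) c f ↔
        IsPBlock M f ∧ SubLE p ⊤ Q (sB hM (Cz Q) f) P (sB hM (Cz P) c) := fun Q hQ f => by
    rw [isInducedBlockIn_iff hM (Cz_anti hQ), and_iff_right hc.1]
    refine and_congr_right fun hf => ?_
    rw [← hP.ind_iff_subLE hQ (hab.trans (Cz_anti hQ)) (isBlk_sB' hM hf), top_inf_eq, top_inf_eq]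
  have key2 : ∀ Q ≤ P, ∀ f : Set (IrrCharacter (Cz Q)), IsPBlock M f →
      SubLE p ⊤ Q (sB hM (Cz Q) f) P (sB hM (Cz P) c) →
      (IsNilpotentBlock p M f ↔ stN ⊤ P (sB hM (Cz P) c) ⊓ Cz Q ≤ Cz P) := fun Q hQ f hf h => by
    rw [isNilpotentBlock_sub_iff hM, and_iff_right hf, ← hP.isNil_stC_iff hab h, stC_top hM hf,
      top_inf_eq]
  constructor
  · intro h Q hQ hQ1 f hf
    obtain ⟨h1, h2⟩ := (key Q hQ f).1 hf
    obtain ⟨⟨x, hx⟩, hx1⟩ := Subgroup.ne_bot_iff_exists_ne_one.1 hQ1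
    refine (key2 Q hQ f h1 h2).2 fun g hg => h g hg.1 x (hQ hx) (by simpa using hx1) ?_
    rw [← mem_Cz.1 hg.2 x hx, mul_inv_cancel_right]
  · intro h g hg x hx hx1 hgx
    have hQ : Subgroup.zpowers x ≤ P := Subgroup.zpowers_le.2 hx
    obtain ⟨f₀, h1⟩ := hP.exists_sub hQ
    obtain ⟨f, hf, rfl⟩ := exists_sB' hM (hP.blk_of h1)
    refine (key2 _ hQ f hf h1).1 (h _ hQ (by simpa using hx1) f ((key _ hQ f).2 ⟨hf, h1⟩))
      ⟨hg, mem_Cz.2 ?_⟩
    rintro _ ⟨n, rfl⟩
    exact (Commute.zpow_left (mul_inv_eq_iff_eq_mul.1 hgx).symm n).eq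

end Cfsg.Agent.S4650
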