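import Mathlib
import Cfsg.Statements.S4653
import Cfsg.Agent.Lib.BrPair.Dict

set_option autoImplicit false
open Cfsg

namespace Cfsg.Agent.S4653

open MonoidAlgebra CfsgLib.BrPair CfsgLib.Block CfsgLib.Char CfsgLib.Fusion

attribute [local implicit_reducible] CfsgLib.Block.K


/-- Fix a prime p and a maximal ideal M of the algebraic integers containing p. Let P be a normal p-subgroup of the finite group G and B a p-block of G. Then the idempotent of B is supported on C_G(P): its coefficient at every element of G outside C_G(P) is zero. -/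
theorem result {G : Type*} [Group G] [Fintype G] (p : ℕ) [Fact p.Prime] (M : Ideal Cfsg.AlgInt) (hM : Cfsg.IsPModular p M) (P : Subgroup G) [P.Normal] (hP : IsPGroup p P) (B : Set (Cfsg.IrrCharacter G)) (hB : Cfsg.IsPBlock M B) (g : G) (hg : g ∉ Subgroup.centralizer (P : Set G)) : Cfsg.blockCoeff B g = 0 := by
  have hN : (⊤ : Subgroup G) ≤ Nz P := (Subgroup.normalizer_eq_top P).ge
  have hb := isBlk_eB hM hB
  have h1 := br_eq_self_of_normal le_rfl le_top hN hP hb.mem hb.idem
  have h2 : Supp (Cz P) (eB hM B) := h1 ▸ supp_trunc _ _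
  exact supp_of_supp_redA hM le_top (hN.trans (Nz_le_Nz_Cz P)) (blockIdem_mem_fixSub B)
    (blockIdem_mem_OG hM hB) (blockIdem_mul_self B) h2 g hg

end Cfsg.Agent.S4653
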