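import Mathlib
import Cfsg.Statements.S4654
import Cfsg.Agent.Lib.BrPair.Dict2

set_option autoImplicit false
open Cfsg

namespace Cfsg.Agent.S4654

open MonoidAlgebra CfsgLib.BrPair CfsgLib.Block CfsgLib.Char CfsgLib.Fusion

attribute [local implicit_reducible] CfsgLib.Block.K


/-- Fix a prime p and a maximal ideal M of the algebraic integers containing p. Let P be a normal p-subgroup of the finite group G, B a p-block of G and e a p-block of C_G(P) such that (P, e) is a Brauer pair of B (as P is normal, this says that e occurs in the idempotent of B, which is supported on C_G(P)). Let T be the stabilizer of e in G under conjugation. Then the idempotent of e is a block idempotent of T: some block E of T has, at every element of T, the same idempotent coefficient as e (zero off C_G(P)); and the idempotent of B is the sum of the distinct G-conjugates of the idempotent of e: its coefficient at g is the sum over all x in G of the coefficient of e at x⁻¹ g x, divided by the order of T. -/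
theorem result {G : Type*} [Group G] [Fintype G] (p : ℕ) [Fact p.Prime] (M : Ideal Cfsg.AlgInt) (hM : Cfsg.IsPModular p M) (P : Subgroup G) [P.Normal] (hP : IsPGroup p P) (B : Set (Cfsg.IrrCharacter G)) (e : Set (Cfsg.IrrCharacter (Subgroup.centralizer (P : Set G)))) (hBe : Cfsg.IsBrauerPairOf p M B P e) (T : Subgroup G) (hT : ∀ x : G, x ∈ T ↔ Cfsg.StabilizesBlock (Subgroup.centralizer (P : Set G)) e x) : (∃ E : Set (Cfsg.IrrCharacter T), Cfsg.IsPBlock M E ∧ ∀ t : T, Cfsg.blockCoeff E t = Cfsg.subgroupBlockCoeff (Subgroup.centralizer (P : Set G)) e (t : G)) ∧ ∀ g : G, Cfsg.blockCoeff B g = (Nat.card T : ℂ)⁻¹ * ∑ x : G, Cfsg.subgroupBlockCoeff (Subgroup.centralizer (P : Set G)) e (x⁻¹ * g * x) := by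
  obtain ⟨hB, he, h⟩ := (isBrauerPairOf_iff hM).1 hBe
  have hN : (⊤ : Subgroup G) ≤ Nz P := (Subgroup.normalizer_eq_top P).ge
  have hN' : (⊤ : Subgroup G) ≤ Nz (Cz P) := hN.trans (Nz_le_Nz_Cz P)
  have hT' : T = stN ⊤ P (sB hM (Cz P) e) :=
    eq_stN hM he fun y => by rw [hT]; exact ⟨fun h => ⟨hN trivial, h⟩, fun h => h.2⟩
  constructor
  · obtain ⟨F, h1, -, h2⟩ := exists_block_stab hM hP he (hT' ▸ sup_Cz_le_stN h.blk) hT'.le
    exact ⟨F, h1, h2⟩
  · intro g
    have hb := isBlk_eB hM hB
    have h1 := br_eq_self_of_normal le_rfl le_top hN hP hb.mem hb.idem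
    have h2 := h.br_mul
    rw [h1] at h2
    have hb' := (isPrim_iff_of_normal le_rfl le_top hN hP).1 hb
    rw [top_inf_eq] at hb'
    have h3 := hb'.eq_orbSum le_rfl le_top hN' hN' (isBlk_sB hM he)
      (by rw [h2]; exact (isBlk_sB hM he).ne)
    obtain ⟨h4, h5, h6⟩ := orbSum_cB hM hN' he
    have h7 : blockIdem B = orbSum ⊤ (cB (Cz P) e) :=
      idem_eq_of_redA hM (blockIdem_mem_fixSub B) ⟨supp_top _, fixed_orbSum _ _⟩
        (blockIdem_mem_OG hM hB) h4 (blockIdem_mul_self B) h5 (h3.trans h6.symm)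
    have h8 : T = ⊤ ⊓ stab (cB (Cz P) e) := by
      ext y
      rw [hT, stabilizesBlock_iff hM he, top_inf_eq, mem_stab_cB_iff hM he (hN' trivial)]
      exact ⟨fun h => h.2, fun h => ⟨hN' trivial, h⟩⟩
    classical
    have h9 := congrArg (fun a : ℂ[G] => a.coeff g) (card_smul_orbSum ⊤ (cB (Cz P) e))
    simp only [← h7, ← h8] at h9
    rw [coeff_sum_apply] at h9
    have h10 : ∑ x : (⊤ : Subgroup G), (cj (x : G) (cB (Cz P) e)).coeff g =
        ∑ x : G, subgroupBlockCoeff (Cz P) e (x⁻¹ * g * x) :=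
      Fintype.sum_equiv Subgroup.topEquiv.toEquiv _ _ fun x => by
        rw [coeff_cj, coeff_cB]
        rfl
    rw [← h10, ← h9, ← Nat.cast_smul_eq_nsmul ℂ, coeff_smul', ← mul_assoc,
      inv_mul_cancel₀ natCard_ne_zero, one_mul]
    rfl

end Cfsg.Agent.S4654
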