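import Mathlib
import Cfsg.Statements.S4656
import Cfsg.Agent.Lib.BrPair.Dict

set_option autoImplicit false
open Cfsg

namespace Cfsg.Agent.S4656

open MonoidAlgebra CfsgLib.BrPair CfsgLib.Block CfsgLib.Char CfsgLib.Fusion

attribute [local implicit_reducible] CfsgLib.Block.K


/-- Fix a prime p and a maximal ideal M of the algebraic integers containing p. Let (P, e) be a Brauer pair of the finite group G and Q a normal subgroup of P. Then there is exactly one p-block f of C_G(Q) that is stable under conjugation by P and such that e occurs in the Brauer-map image at P of the idempotent of f; that is, exactly one f with (Q, f) normally below (P, e). -/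
theorem result {G : Type*} [Group G] [Fintype G] (p : ℕ) [Fact p.Prime] (M : Ideal Cfsg.AlgInt) (hM : Cfsg.IsPModular p M) (P Q : Subgroup G) (e : Set (Cfsg.IrrCharacter (Subgroup.centralizer (P : Set G)))) (hPe : Cfsg.IsBrauerPair p M P e) (hQP : Q ≤ P) (hPN : P ≤ Subgroup.normalizer (Q : Set G)) : ∃! f : Set (Cfsg.IrrCharacter (Subgroup.centralizer (Q : Set G))), Cfsg.IsNormalSubpair p M Q f P e := by
  obtain ⟨hP, he⟩ := hPe
  obtain ⟨f₀, h⟩ := exists_nsub hP (le_Nz_top P) hQP hPN (isBlk_sB' hM he)
  obtain ⟨f, hf, rfl⟩ := exists_sB' hM h.blk_left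
  refine ⟨f, (isNormalSubpair_iff hM).2 ⟨hf, he, h⟩, fun f' h' => ?_⟩
  obtain ⟨hf', -, h'⟩ := (isNormalSubpair_iff hM).1 h'
  exact sB_inj hM hf' hf (h'.unique h)

end Cfsg.Agent.S4656
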