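import Mathlib
import Cfsg.Statements.S4657
import Cfsg.Agent.Lib.BrPair.Dict

set_option autoImplicit false
open Cfsg

namespace Cfsg.Agent.S4657

open MonoidAlgebra CfsgLib.BrPair CfsgLib.Block CfsgLib.Char CfsgLib.Fusion

attribute [local implicit_reducible] CfsgLib.Block.K


/-- Fix a prime p and a maximal ideal M of the algebraic integers containing p. Every Brauer pair (P, e) of the finite group G is a Brauer pair of exactly one p-block B of G. -/
theorem result {G : Type*} [Group G] [Fintype G] (p : ℕ) [Fact p.Prime] (M : Ideal Cfsg.AlgInt) (hM : Cfsg.IsPModular p M) (P : Subgroup G) (e : Set (Cfsg.IrrCharacter (Subgroup.centralizer (P : Set G)))) (hPe : Cfsg.IsBrauerPair p M P e) : ∃! B : Set (Cfsg.IrrCharacter G), Cfsg.IsBrauerPairOf p M B P e := by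
  obtain ⟨hP, he⟩ := hPe
  obtain ⟨b, hb, h⟩ := exists_isPrim_isPair (H := ⊤) le_rfl le_top hP (isBlk_sB' hM he)
  obtain ⟨B, hB, rfl⟩ := exists_eB hM hb
  refine ⟨B, (isBrauerPairOf_iff hM).2 ⟨hB, he, h⟩, fun B' h' => ?_⟩
  obtain ⟨hB', -, h'⟩ := (isBrauerPairOf_iff hM).1 h'
  exact eB_inj hM hB' hB (h'.unique le_rfl (isBlk_eB hM hB') hb h)

end Cfsg.Agent.S4657
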