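import Mathlib
import Cfsg.Statements.S4661
import Cfsg.Agent.Lib.BrPair.Dict2

set_option autoImplicit false
open Cfsg

namespace Cfsg.Agent.S4661

open MonoidAlgebra CfsgLib.BrPair CfsgLib.Block CfsgLib.Char CfsgLib.Fusion

attribute [local implicit_reducible] CfsgLib.Block.K


/-- Fix a prime p and a maximal ideal M of the algebraic integers containing p. Let (P, e) be a maximal Brauer pair of the p-block B of the finite group G, Q ≤ P, and f the p-block of C_G(Q) with (Q, f) ≤ (P, e). Then C_P(Q) is contained in a defect group of f (as a block of the group C_G(Q)); and for some x in G the conjugate pair (x Q x⁻¹, conjugate of f) again lies below (P, e) and C_P(x Q x⁻¹) is a defect group of the conjugate of f in C_G(x Q x⁻¹). -/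
theorem result {G : Type*} [Group G] [Fintype G] (p : ℕ) [Fact p.Prime] (M : Ideal Cfsg.AlgInt) (hM : Cfsg.IsPModular p M) (B : Set (Cfsg.IrrCharacter G)) (P Q : Subgroup G) (e : Set (Cfsg.IrrCharacter (Subgroup.centralizer (P : Set G)))) (f : Set (Cfsg.IrrCharacter (Subgroup.centralizer (Q : Set G)))) (hmax : Cfsg.IsMaximalBrauerPair p M B P e) (hQP : Q ≤ P) (hf : Cfsg.IsPBlock M f) (hle : Cfsg.SubpairLE p M Q f P e) : (∃ D : Subgroup (Subgroup.centralizer (Q : Set G)), Cfsg.IsDefectGroup p M f D ∧ (P ⊓ Subgroup.centralizer (Q : Set G)).subgroupOf (Subgroup.centralizer (Q : Set G)) ≤ D) ∧ ∃ x : G, Cfsg.SubpairLE p M (Q.map (MulAut.conj x).toMonoidHom) (Cfsg.conjBlock Q x f) P e ∧ Cfsg.IsDefectGroup p M (Cfsg.conjBlock Q x f) ((P ⊓ Subgroup.centralizer ((Q.map (MulAut.conj x).toMonoidHom) : Set G)).subgroupOf (Subgroup.centralizer ((Q.map (MulAut.conj x).toMonoidHom) : Set G))) := by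
  obtain ⟨hB, he, hP⟩ := (maxPair_iff hM).1 hmax
  have h := ((subpairLE_iff hM he).1 hle).2
  obtain ⟨D, hD, h1⟩ := hP.exists_isDef_ge_inf h (hP.Cz_le_stC (hP.blk_of h)) stC_le_stN
  obtain ⟨x, hx, h2, -, h3⟩ := hP.exists_conj_isDef (hP.pair_of h) stC_le_stN hD
  rw [stC_top hM hf] at hD h1 h3
  refine ⟨⟨D.subgroupOf _, (isDefectGroup_subgroupOf_iff hM hf hD.le).2 hD,
    Subgroup.comap_mono h1⟩, x, (subpairLE_iff hM he).2 ⟨isPBlock_conjBlock hM x hf,
      by rwa [sB_conjBlock]⟩, ?_⟩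
  rw [isDefectGroup_subgroupOf_iff hM (isPBlock_conjBlock hM x hf) inf_le_right, sB_conjBlock]
  rwa [← Cz_cS] at h3

end Cfsg.Agent.S4661
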