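import Mathlib
import Cfsg.Statements.S4662
import Cfsg.Agent.Lib.BrPair.Dict2

set_option autoImplicit false
open Cfsg

namespace Cfsg.Agent.S4662

open MonoidAlgebra CfsgLib.BrPair CfsgLib.Block CfsgLib.Char CfsgLib.Fusion

attribute [local implicit_reducible] CfsgLib.Block.K


/-- Fix a prime p and a maximal ideal M of the algebraic integers containing p. Let (P, e) be a maximal Brauer pair of the p-block B of the finite group G, Q ≤ P, and f the p-block of C_G(Q) with (Q, f) ≤ (P, e). Let T be the stabilizer of f in N_G(Q). Then the idempotent of f is a block idempotent of T, and N_P(Q) is contained in a defect group of that block of T; moreover for some x in G the conjugate pair (x Q x⁻¹, conjugate of f) again lies below (P, e) and, with T' the stabilizer of the conjugate of f in N_G(x Q x⁻¹), N_P(x Q x⁻¹) is a defect group of the block of T' whose idempotent is that of the conjugate of f. -/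
theorem result {G : Type*} [Group G] [Fintype G] (p : ℕ) [Fact p.Prime] (M : Ideal Cfsg.AlgInt) (hM : Cfsg.IsPModular p M) (B : Set (Cfsg.IrrCharacter G)) (P Q : Subgroup G) (e : Set (Cfsg.IrrCharacter (Subgroup.centralizer (P : Set G)))) (f : Set (Cfsg.IrrCharacter (Subgroup.centralizer (Q : Set G)))) (hmax : Cfsg.IsMaximalBrauerPair p M B P e) (hQP : Q ≤ P) (hf : Cfsg.IsPBlock M f) (hle : Cfsg.SubpairLE p M Q f P e) (T : Subgroup G) (hT : ∀ y : G, y ∈ T ↔ y ∈ Subgroup.normalizer (Q : Set G) ∧ Cfsg.StabilizesBlock (Subgroup.centralizer (Q : Set G)) f y) : (∃ F : Set (Cfsg.IrrCharacter T), Cfsg.IsPBlock M F ∧ (∀ t : T, Cfsg.blockCoeff F t = Cfsg.subgroupBlockCoeff (Subgroup.centralizer (Q : Set G)) f (t : G)) ∧ ∃ D : Subgroup T, Cfsg.IsDefectGroup p M F D ∧ (P ⊓ Subgroup.normalizer (Q : Set G)).subgroupOf T ≤ D) ∧ ∃ x : G, Cfsg.SubpairLE p M (Q.map (MulAut.conj x).toMonoidHom) (Cfsg.conjBlock Q x f) P e ∧ ∀ (T' : Subgroup G), (∀ y :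 G, y ∈ T' ↔ y ∈ Subgroup.normalizer ((Q.map (MulAut.conj x).toMonoidHom) : Set G) ∧ Cfsg.StabilizesBlock (Subgroup.centralizer ((Q.map (MulAut.conj x).toMonoidHom) : Set G)) (Cfsg.conjBlock Q x f) y) → ∃ F' : Set (Cfsg.IrrCharacter T'), Cfsg.IsPBlock M F' ∧ (∀ t : T', Cfsg.blockCoeff F' t = Cfsg.subgroupBlockCoeff (Subgroup.centralizer ((Q.map (MulAut.conj x).toMonoidHom) : Set G)) (Cfsg.conjBlock Q x f) (t : G)) ∧ Cfsg.IsDefectGroup p M F' ((P ⊓ Subgroup.normalizer ((Q.map (MulAut.conj x).toMonoidHom) : Set G)).subgroupOf T') := by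
  obtain ⟨hB, he, hP⟩ := (maxPair_iff hM).1 hmax
  have h := ((subpairLE_iff hM he).1 hle).2
  obtain rfl := eq_stN hM hf hT
  obtain ⟨D, hD, h1⟩ := hP.exists_isDef_ge_inf h (hP.Cz_le_stN (hP.blk_of h)) le_rfl
  obtain ⟨x, hx, h2, -, h3⟩ := hP.exists_conj_isDef (hP.pair_of h) le_rfl hD
  obtain ⟨F, h4, h5, h6⟩ := exists_block_stab hM (hP.pgroup.to_le hQP) hf
    (sup_Cz_le_stN (hP.blk_of h)) le_rfl
  rw [hP.inf_stN h] at h1
  have hf' := isPBlock_conjBlock hM x hf
  rw [cS_stN hx, hP.inf_stN h2] at h3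
  rw [← sB_conjBlock] at h2 h3
  refine ⟨⟨F, h4, h6, D.subgroupOf _, (isDefectGroup_subgroupOf_iff hM h4 hD.le).2 (by rw [h5]; exact hD),
    Subgroup.comap_mono h1⟩, x, (subpairLE_iff hM he).2 ⟨hf', h2⟩, fun T' hT' => ?_⟩
  obtain rfl := eq_stN hM hf' hT'
  obtain ⟨F', h7, h8, h9⟩ := exists_block_stab hM (hP.pgroup.to_le h2.le) hf'
    (sup_Cz_le_stN (hP.blk_of h2)) le_rfl
  exact ⟨F', h7, h9, (isDefectGroup_subgroupOf_iff hM h7 h3.le).2 (by rw [h8]; exact h3)⟩

end Cfsg.Agent.S4662
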