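import Cfsg.Statements.S4664
import Cfsg.Agent.Lib.Block.Second

set_option autoImplicit false
open Cfsg

namespace Cfsg.Agent.S4664

open CfsgLib CfsgLib.Char CfsgLib.Block

/-- Fix a prime p and a maximal ideal M of the algebraic integers containing p, and let B be a p-block of the finite group G. Let m be the p'-part of the order of G and η = exp(2πi/m). Then every coefficient of the idempotent of B lies in the cyclotomic field ℚ(η). -/
theorem result {G : Type*} [Group G] [Fintype G] (p : ℕ) [Fact p.Prime] (M : Ideal Cfsg.AlgInt) (hM : Cfsg.IsPModular p M) (B : Set (Cfsg.IrrCharacter G)) (hB : Cfsg.IsPBlock M B) (g : G) : Cfsg.blockCoeff B g ∈ IntermediateField.adjoin ℚ ({Complex.exp (2 * Real.pi * Complex.I / ((Nat.card G / p ^ (Nat.card G).factorization p : ℕ) : ℂ))} : Set ℂ) := by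
  by_cases hg : p ∣ orderOf g
  · rw [blockCoeff_eq_zero_of_dvd hM hB hg]
    exact zero_mem _
  set m := Nat.card G / p ^ (Nat.card G).factorization p with hm
  have h0 : m ≠ 0 := (Nat.ordCompl_pos p Nat.card_pos.ne').ne'
  have h1 : orderOf g⁻¹ ∣ m := by
    rw [orderOf_inv]
    refine Nat.Coprime.dvd_of_dvd_mul_left (((Nat.Prime.coprime_iff_not_dvd hM.1).2 hg).symm.pow_right
      ((Nat.card G).factorization p)) ?_
    rw [hm, Nat.ordProj_mul_ordCompl_eq_self]
    exact orderOf_dvd_natCard g
  have hη := Complex.isPrimitiveRoot_exp m h0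
  set F := IntermediateField.adjoin ℚ ({Complex.exp (2 * Real.pi * Complex.I / (m : ℂ))} : Set ℂ)
  have : NeZero m := ⟨h0⟩
  rw [blockCoeff, finsum_mem_irr']
  refine mul_mem (inv_mem (natCast_mem F _)) (sum_mem fun χ _ => mul_mem ?_ ?_)
  · rw [← charDegree_eq (irr_isCharacter χ)]
    exact natCast_mem F _
  · obtain ⟨s, -, hs, h2⟩ := exists_eigenvalues (irr_isCharacter χ) g⁻¹
    have h3 := h2 1
    rw [zpow_one] at h3
    rw [← char_inv (irr_isCharacter χ), h3]
    refine multiset_sum_mem _ fun z hz => ?_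
    obtain ⟨ε, hε, rfl⟩ := Multiset.mem_map.1 hz
    obtain ⟨c, hc⟩ := h1
    obtain ⟨i, -, hi⟩ := hη.eq_pow_of_pow_eq_one (ξ := ε) (by rw [hc, pow_mul, hs ε hε, one_pow])
    rw [zpow_one, ← hi]
    exact pow_mem (IntermediateField.mem_adjoin_simple_self ℚ _) _

end Cfsg.Agent.S4664
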