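import Mathlib
import Cfsg.Statements.S4668
import Cfsg.Agent.Lib.BrPair.Dict2
import Cfsg.Agent.Lib.PLocal.Constrained

set_option autoImplicit false
open Cfsg

namespace Cfsg.Agent.S4668

open MonoidAlgebra CfsgLib.BrPair CfsgLib.Block CfsgLib.Char CfsgLib.Fusion

attribute [local implicit_reducible] CfsgLib.Block.K


/-- Fix a prime p and a maximal ideal M of the algebraic integers containing p. Let Q₀ < Q₁ < ⋯ < Q_m be a strictly increasing chain of p-subgroups of the finite group G and N the intersection of their normalizers. Then every block idempotent of N is supported on C_G(Q_m): for every p-block E of N, the idempotent coefficient of E vanishes at every element of N outside C_G(Q_m). -/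
theorem result {G : Type*} [Group G] [Fintype G] (p : ℕ) [Fact p.Prime] (M : Ideal Cfsg.AlgInt) (hM : Cfsg.IsPModular p M) (m : ℕ) (Q : Fin (m + 1) → Subgroup G) (hQ : StrictMono Q) (hQp : ∀ i, IsPGroup p (Q i)) (N : Subgroup G) (hN : ∀ g : G, g ∈ N ↔ ∀ i, g ∈ Subgroup.normalizer (Q i : Set G)) (E : Set (Cfsg.IrrCharacter N)) (hE : Cfsg.IsPBlock M E) (n : N) (hn : (n : G) ∉ Subgroup.centralizer (Q (Fin.last m) : Set G)) : Cfsg.blockCoeff E n = 0 := by
  by_contra h0
  have hp : ¬ p ∣ orderOf (n : G) := fun h =>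
    h0 (CfsgLib.Block.blockCoeff_eq_zero_of_dvd hM hE (by rwa [← Subgroup.orderOf_coe]))
  have hNi : ∀ i, N ≤ Nz (Q i) := fun i g hg => (hN g).1 hg i
  have hR : IsPGroup p (Q (Fin.last m) ⊓ N : Subgroup G) := (hQp _).to_le inf_le_left
  have hRN : N ≤ Nz (Q (Fin.last m) ⊓ N) :=
    (le_inf (hNi _) Subgroup.le_normalizer).trans (inf_Nz_le_Nz_inf _ _)
  have hb := isBlk_sB hM hE
  have h1 := br_eq_self_of_normal le_rfl inf_le_right hRN hR hb.mem hb.idem
  have h2 : Supp (N ⊓ Cz (Q (Fin.last m) ⊓ N)) (redA hM (cB N E)) := by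
    rw [redA_cB]
    exact hb.mem.1.inf (h1 ▸ supp_trunc _ _)
  have h3 := supp_of_supp_redA hM inf_le_left
    ((le_inf Subgroup.le_normalizer (hRN.trans (Nz_le_Nz_Cz _))).trans (inf_Nz_le_Nz_inf _ _))
    (cB_mem N E) (cB_mem_OG hM hE) (idem_cB N E) h2
  have h4 := (h3.mem (x := n) (by rwa [coeff_cB_coe])).2
  have hle : ∀ i, Q i ≤ Q (Fin.last m) := fun i => hQ.monotone (Fin.le_last i)
  apply hn
  suffices ∀ i, (n : G) ∈ Cz (Q i) from this _
  intro i
  induction i using Fin.induction with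
  | zero =>
    refine Cz_anti (le_inf (hle 0) fun g hg => (hN g).2 fun j => ?_) h4
    exact Subgroup.le_normalizer (hQ.monotone (Fin.zero_le j) hg)
  | succ i ih =>
    refine CfsgLib.PLocal.Constr.a_times_b (hQp i.castSucc) (hQp i.succ)
      ((hQ.monotone i.castSucc_lt_succ.le).trans Subgroup.le_normalizer)
      ((Nat.Prime.coprime_iff_not_dvd Fact.out).2 hp).symm (hNi _ n.2) ih fun u hu hc => ?_
    refine mem_Cz.1 h4 u ⟨hle _ hu, (hN u).2 fun j => ?_⟩
    rcases le_or_gt j i.castSucc with h | h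
    · exact Cz_le_Nz _ (Cz_anti (hQ.monotone h) hc)
    · exact Subgroup.le_normalizer (hQ.monotone (Fin.castSucc_lt_iff_succ_le.1 h) hu)

end Cfsg.Agent.S4668
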