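import Mathlib
import Cfsg.Statements.S4669
import Cfsg.Agent.Lib.Cover.Twist

set_option autoImplicit false
open Cfsg

namespace Cfsg.Agent.S4669

open CfsgLib CfsgLib.Cover CfsgLib.Block in

/-- Fix a prime p and a maximal ideal M of the algebraic integers containing p. If the p-block B of the finite group G has a defect group P contained in the centre of G, then B has p-regular rank one (a single irreducible Brauer character). -/
theorem result {G : Type*} [Group G] [Fintype G] (p : ℕ) [Fact p.Prime] (M : Ideal Cfsg.AlgInt) (hM : Cfsg.IsPModular p M) (B : Set (Cfsg.IrrCharacter G)) (hB : Cfsg.IsPBlock M B) (P : Subgroup G) (hD : Cfsg.IsDefectGroup p M B P) (hPZ : P ≤ Subgroup.center G) : Cfsg.blockRank p B = 1 := by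
  haveI := Fintype.ofFinite P
  have hp := hM.1
  have hP := isPGroup_of_isDefectGroup hD
  have hG : P ⊔ BrPair.Cz P = ⊤ := by
    rw [eq_top_iff]
    refine le_sup_of_le_right fun x _ => BrPair.mem_Cz.2 fun u hu => ?_
    exact (Subgroup.mem_center_iff.1 (hPZ hu) x).symm
  haveI := normal_of_sup_Cz hG
  obtain ⟨θ, hθ, hk⟩ := exists_mem_ker_of_isPGroup hM P hP hB
  have h0 : pRegularPart p (θ : G → ℂ) ≠ 0 := fun h => Char.irr_one_ne_zero θ.2 (by
    rw [← Blk.pRegularPart_one hp (θ : G → ℂ), h]; rfl)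
  suffices h : Submodule.span ℂ ((fun χ : IrrCharacter G => pRegularPart p (χ : G → ℂ)) '' B) =
      ℂ ∙ pRegularPart p (θ : G → ℂ) by rw [blockRank, h, finrank_span_singleton h0]
  refine le_antisymm (Submodule.span_le.2 ?_) (Submodule.span_mono ?_)
  · rintro _ ⟨χ, hχ, rfl⟩
    obtain ⟨ζ, rfl⟩ := exists_twistIrr_eq hM hB hG hD hθ hk hχ
    refine Submodule.mem_span_singleton.2 ⟨(ζ : P → ℂ) 1, funext fun g => ?_⟩
    by_cases hg : p ∣ orderOf g
    · simp [Blk.pRegularPart_of_sing hg]
    · simp only [Pi.smul_apply, Blk.pRegularPart_of_reg hg, twistIrr_coe, smul_eq_mul]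
      exact (twist_of_reg hp hP _ _ hg (mem_Cz_of_not_dvd hp hP hG hg)).symm
  · rintro _ rfl
    exact ⟨θ, hθ, rfl⟩

end Cfsg.Agent.S4669
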