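import Mathlib
import Cfsg.Statements.S4670
import Cfsg.Agent.Lib.BrPair.Dict2

set_option autoImplicit false
open Cfsg

namespace Cfsg.Agent.S4670

open MonoidAlgebra CfsgLib.BrPair CfsgLib.Block CfsgLib.Char CfsgLib.Fusion

attribute [local implicit_reducible] CfsgLib.Block.K


/-- Fix a prime p and a maximal ideal M of the algebraic integers containing p. Let P be a p-subgroup of the finite group G and H a subgroup containing N_G(P). For every p-block B of G with defect group P there is exactly one p-block c of H with defect group P whose idempotent agrees with that of B, modulo the local ideal at M, at every element of C_G(P) (their Brauer-map images at P coincide); and every p-block c of H with defect group P arises in this way from exactly one such B. This is the Brauer correspondence over H. -/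
theorem result {G : Type*} [Group G] [Fintype G] (p : ℕ) [Fact p.Prime] (M : Ideal Cfsg.AlgInt) (hM : Cfsg.IsPModular p M) (P H : Subgroup G) (hP : IsPGroup p P) (hH : Subgroup.normalizer (P : Set G) ≤ H) : (∀ B : Set (Cfsg.IrrCharacter G), Cfsg.IsPBlock M B → Cfsg.IsDefectGroup p M B P → ∃! c : Set (Cfsg.IrrCharacter H), Cfsg.IsPBlock M c ∧ Cfsg.IsDefectGroup p M c (P.subgroupOf H) ∧ ∀ x : G, x ∈ Subgroup.centralizer (P : Set G) → Cfsg.MemLocalIdeal M (Cfsg.blockCoeff B x - Cfsg.subgroupBlockCoeff H c x)) ∧ (∀ c : Set (Cfsg.IrrCharacter H), Cfsg.IsPBlock M c → Cfsg.IsDefectGroup p M c (P.subgroupOf H) → ∃! B : Set (Cfsg.IrrCharacter G), Cfsg.IsPBlock M B ∧ Cfsg.IsDefectGroup p M B P ∧ ∀ x : G, x ∈ Subgroup.centralizer (P : Set G) → Cfsg.MemLocalIdeal M (Cfsg.blockCoeff B x - Cfsg.subgroupBlockCoeff H c x)) := by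
  have hPH : P ≤ H := Subgroup.le_normalizer.trans hH
  have e1 : H ⊓ Nz P = ⊤ ⊓ Nz P := by rw [top_inf_eq, inf_eq_right.2 hH]
  have e2 : H ⊓ Cz P = ⊤ ⊓ Cz P := by rw [top_inf_eq, inf_eq_right.2 ((Cz_le_Nz P).trans hH)]
  have key : ∀ (B : Set (IrrCharacter G)) (c : Set (IrrCharacter H)), IsPBlock M B → IsPBlock M c →
      ((∀ x : G, x ∈ Cz P → MemLocalIdeal M (blockCoeff B x - subgroupBlockCoeff H c x)) ↔
        br P (eB hM B) = br P (sB hM H c)) := fun B c hB hc => by
    rw [← redA_cB, eB, trunc_redA_eq_iff hM (blockIdem_mem_OG hM hB) (cB_mem_OG hM hc)]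
    simp only [coeff_cB, coeff_blockIdem]
  constructor
  · intro B hB hD
    rw [isDefectGroup_iff hM hB] at hD
    have h1 := (isBlk_eB hM hB).br_of_isDef le_rfl top_le_Nz_top hD
    have h2 := hD.br
    rw [← e1] at h1 h2
    rw [← e2] at h1
    obtain ⟨c₀, h3, h4, h5⟩ := exists_isPrim_br_eq le_rfl Subgroup.le_normalizer h1 h2
    obtain ⟨c, hc, rfl⟩ := exists_sB hM h3
    refine ⟨c, ⟨hc, (isDefectGroup_subgroupOf_iff hM hc hPH).2 h4, (key B c hB hc).2 h5.symm⟩, ?_⟩
    rintro c' ⟨hc', -, h6⟩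
    refine sB_inj hM hc' hc ((isBlk_sB hM hc').eq_of_br_mul_ne_zero le_rfl h3 hPH hP ?_)
    rw [← (key B c' hB hc').1 h6, h5, h1.idem.eq]
    exact h1.ne
  · intro c hc hD
    rw [isDefectGroup_subgroupOf_iff hM hc hPH] at hD
    have h1 := (isBlk_sB hM hc).br_of_isDef le_rfl Subgroup.le_normalizer hD
    have h2 := hD.br
    rw [e1] at h1 h2
    rw [e2] at h1
    obtain ⟨b, h3, h4, h5⟩ := exists_isPrim_br_eq le_rfl top_le_Nz_top h1 h2
    obtain ⟨B, hB, rfl⟩ := exists_eB hM h3
    refine ⟨B, ⟨hB, (isDefectGroup_iff hM hB).2 h4, (key B c hB hc).2 h5⟩, ?_⟩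
    rintro B' ⟨hB', -, h6⟩
    refine eB_inj hM hB' hB ((isBlk_eB hM hB').eq_of_br_mul_ne_zero le_rfl h3 le_top hP ?_)
    rw [(key B' c hB' hc).1 h6, h5, h1.idem.eq]
    exact h1.ne

end Cfsg.Agent.S4670
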