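import Mathlib
import Cfsg.Statements.S4672
import Cfsg.Agent.Lib.Cover.Graded

set_option autoImplicit false
open Cfsg

namespace Cfsg.Agent.S4672

open CfsgLib CfsgLib.Cover CfsgLib.Block in

/-- Fix a prime p and a maximal ideal M of the algebraic integers containing p. Let N be a normal subgroup of the finite group G of p-power index and c a p-block of N stable under conjugation by G. Then the idempotent of c is a block idempotent of G: there is a p-block B of G whose idempotent coefficients agree with those of c on N and vanish off N; and for every defect group P of such a block B, G = NP and P ∩ N is a defect group of c. -/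
theorem result {G : Type*} [Group G] [Fintype G] (p : ℕ) [Fact p.Prime] (M : Ideal Cfsg.AlgInt) (hM : Cfsg.IsPModular p M) (N : Subgroup G) [N.Normal] (hN : ∃ k : ℕ, N.index = p ^ k) (c : Set (Cfsg.IrrCharacter N)) (hc : Cfsg.IsPBlock M c) (hst : ∀ x : G, Cfsg.StabilizesBlock N c x) : (∃ B : Set (Cfsg.IrrCharacter G), Cfsg.IsPBlock M B ∧ ∀ g : G, Cfsg.blockCoeff B g = Cfsg.subgroupBlockCoeff N c g) ∧ ∀ B : Set (Cfsg.IrrCharacter G), Cfsg.IsPBlock M B → (∀ g : G, Cfsg.blockCoeff B g = Cfsg.subgroupBlockCoeff N c g) → ∀ P : Subgroup G, Cfsg.IsDefectGroup p M B P → N ⊔ P = ⊤ ∧ Cfsg.IsDefectGroup p M c ((P ⊓ N).subgroupOf N) := by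
  have hNn := top_le_Nz N
  have hf := BrPair.isBlk_sB hM hc
  have hfix : BrPair.Fixed ⊤ (BrPair.sB hM N c) :=
    fun x _ => ((BrPair.stabilizesBlock_iff hM hc).1 (hst x)).2
  have hpow : ∀ t ∈ (⊤ : Subgroup G), ∃ n : ℕ, t ^ p ^ n ∈ N :=
    fun t _ => BrPair.exists_pow_mem_of_index hN t
  refine ⟨?_, fun B hB hcoef P hP => ?_⟩
  · obtain ⟨B, hB, he⟩ := BrPair.exists_eB hM
      ((BrPair.isBlk_iff_of_index_pow hM le_top hpow).2 (hf.of_fixed le_top hfix))
    refine ⟨B, hB, fun g => ?_⟩
    have h1 : blockIdem B = BrPair.cB N c := by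
      refine BrPair.idem_eq_of_redA hM (BrPair.blockIdem_mem_fixSub B) ⟨BrPair.supp_top _,
        fun x hx => ?_⟩ (blockIdem_mem_OG hM hB) (BrPair.cB_mem_OG hM hc) (blockIdem_mul_self B)
        (BrPair.idem_cB N c) (by rw [BrPair.redA_cB, ← he, eB])
      exact (BrPair.mem_stab_cB_iff hM hc (hNn hx)).2 (hfix x hx)
    rw [← coeff_blockIdem, h1, BrPair.coeff_cB]
  · have he : eB hM B = BrPair.sB hM N c :=
      BrPair.ext' fun x => by rw [coeff_eB, BrPair.coeff_sB, hcoef]
    have h1 := (isDefectGroup_iff_isDef hM hB).1 hP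
    rw [he] at h1
    obtain ⟨h2, S, hS, hSP⟩ := BrPair.IsDef.inf_of_stable le_rfl le_top hNn hNn hf hfix h1
    refine ⟨?_, (BrPair.isDefectGroup_subgroupOf_iff hM hc inf_le_right).2 h2⟩
    rw [eq_top_iff, ← BrPair.sup_eq_of_index_pow le_top hNn hS hpow, sup_comm N]
    exact sup_le hSP le_sup_right

end Cfsg.Agent.S4672
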