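import Mathlib
import Cfsg.Statements.S4673
import Cfsg.Agent.Lib.Cover.Graded
import Cfsg.Agent.Lib.Cover.Reynolds

set_option autoImplicit false
open Cfsg

namespace Cfsg.Agent.S4673

open CfsgLib CfsgLib.Cover CfsgLib.Block in

/-- Fix a prime p and a maximal ideal M of the algebraic integers containing p. Let N ≤ L be normal subgroups of the finite group G with L/N a p-group, let B be a p-block of G covering the p-block c of N (some member of B has a constituent in c on restriction to N), and suppose that N contains a defect group of B. Then the stabilizer T of c in G satisfies T ∩ L = N. -/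
theorem result {G : Type*} [Group G] [Fintype G] (p : ℕ) [Fact p.Prime] (M : Ideal Cfsg.AlgInt) (hM : Cfsg.IsPModular p M) (N L : Subgroup G) [N.Normal] [L.Normal] [Fintype N] (hNL : N ≤ L) (hLN : ∃ k : ℕ, (N.subgroupOf L).index = p ^ k) (B : Set (Cfsg.IrrCharacter G)) (hB : Cfsg.IsPBlock M B) (c : Set (Cfsg.IrrCharacter N)) (hc : Cfsg.IsPBlock M c) (hcov : (∃ χ ∈ B, ∃ θ ∈ c, Cfsg.classInner (fun n : N => (χ : G → ℂ) n) (θ : N → ℂ) ≠ 0)) (hD : ∃ D : Subgroup G, Cfsg.IsDefectGroup p M B D ∧ D ≤ N) (T : Subgroup G) (hT : ∀ x : G, x ∈ T ↔ Cfsg.StabilizesBlock N c x) : T ⊓ L = N := by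
  have hNn := top_le_Nz N
  have hLn := top_le_Nz L
  have hf := BrPair.isBlk_sB hM hc
  set f := BrPair.sB hM N c with hfdef
  have hTL : T ⊓ L = L ⊓ BrPair.stab f := by
    ext x
    rw [Subgroup.mem_inf, Subgroup.mem_inf, hT, BrPair.stabilizesBlock_iff hM hc]
    exact ⟨fun h => ⟨h.2, h.1.2⟩, fun h => ⟨⟨hNn (Subgroup.mem_top x), h.2⟩, h.1⟩⟩
  have hpow : ∀ t ∈ L, ∃ n : ℕ, t ^ p ^ n ∈ N := fun t ht => by
    obtain ⟨n, hn⟩ := BrPair.exists_pow_mem_of_index hLN ⟨t, ht⟩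
    exact ⟨n, hn⟩
  have hNU : N ≤ L ⊓ BrPair.stab f := le_inf hNL (BrPair.fixed_iff_le_stab.1 hf.mem.2)
  have hUN : L ⊓ BrPair.stab f ≤ BrPair.Nz N := le_top.trans hNn
  have hfix : BrPair.Fixed (L ⊓ BrPair.stab f) f := BrPair.fixed_iff_le_stab.2 inf_le_right
  obtain ⟨E, hE⟩ := BrPair.exists_isDef p hNU hUN (hf.of_fixed hNU hfix)
  obtain ⟨-, S, hS, hSE⟩ := BrPair.IsDef.inf_of_stable le_rfl hNU hUN hUN hf hfix hE
  have hLN' : L ≤ BrPair.Nz N := le_top.trans hNn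
  have h1 := BrPair.IsDef.orbSum le_rfl hLN' hLN' hf hE
  have h2 : BrPair.IsBlk L (BrPair.orbSum L f) :=
    (BrPair.isBlk_iff_of_index_pow hM hNL hpow).2 (BrPair.isPrim_orbSum le_rfl hNL hLN' hLN' hf)
  have h0 := (covers_iff_mul_ne_zero N hM hB hc).1 hcov
  have h3 : eB hM B * BrPair.orbSum L f ≠ 0 := fun h => h0 (by
    rw [← hfdef, ← BrPair.orbSum_mul_self le_rfl hLN' hLN' hf, ← mul_assoc, h, zero_mul])
  obtain ⟨P, hP, hPE⟩ := exists_isDef_inf_eq le_top hLn (BrPair.isBlk_eB hM hB) h2 h3 h1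
  obtain ⟨D, hD, hDN⟩ := hD
  obtain ⟨g, -, rfl⟩ := ((isDefectGroup_iff_isDef hM hB).1 hD).exists_conj hP
  have hEN : E ≤ N := by
    rw [← hPE, ← cS_normal N g]
    exact inf_le_left.trans (BrPair.cS_mono g hDN)
  rw [hTL]
  refine le_antisymm ?_ hNU
  rw [← BrPair.sup_eq_of_index_pow hNU hUN hS fun t ht => hpow t ht.1]
  exact sup_le (hSE.trans (sup_le hEN le_rfl)) le_rfl

end Cfsg.Agent.S4673
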