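import Mathlib
import Cfsg.Statements.S4674
import Cfsg.Agent.Lib.Cover.Graded
import Cfsg.Agent.Lib.Cover.Reynolds

set_option autoImplicit false
open Cfsg

namespace Cfsg.Agent.S4674

open CfsgLib CfsgLib.Cover CfsgLib.Block
open CfsgLib.BrPair (cS Cz Nz Ce br Fixed Supp IsDef fixSub IsPrim cj IsBlk sB)

section generic

variable {k : Type*} [Field k] {G : Type*} [Group G] [Finite G] {p : ℕ} [Fact p.Prime]
  [CharP k p]

theorem isDef_of_Nz_le {H D : Subgroup G} (hND : Nz D ≤ H) {b c : MonoidAlgebra k G}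
    (hb : IsBlk ⊤ b) (hc : IsBlk H c) (hD : IsDef p H D c) (h : br D b * br D c ≠ 0) :
    IsDef p ⊤ D b ∧ br D b = br D c := by
  have e1 : H ⊓ Nz D = ⊤ ⊓ Nz D := by rw [top_inf_eq, inf_eq_right.2 hND]
  have e2 : H ⊓ Cz D = ⊤ ⊓ Cz D := by
    rw [top_inf_eq, inf_eq_right.2 ((BrPair.Cz_le_Nz D).trans hND)]
  have h1 := hc.br_of_isDef le_rfl Subgroup.le_normalizer hD
  have h2 := hD.br
  rw [e1] at h1 h2
  rw [e2] at h1
  have h3 := hb.isDef_of_br_mul_ne_zero le_rfl Subgroup.le_normalizer le_top hD.pgroup h1.mem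
    h1.idem h2.inI h
  refine ⟨h3, (hb.br_of_isDef le_rfl Subgroup.le_normalizer h3).eq_of_mul_ne_zero
    (BrPair.isCom_fixSub (inf_le_inf_left _ (BrPair.Cz_le_Nz D))) h1 h⟩

theorem isDef_of_cover {N Q : Subgroup G} [N.Normal] (hQN : Q ≤ N) {b c e : MonoidAlgebra k G}
    (hb : IsBlk ⊤ b) (hc : IsBlk (Nz Q) c) (he : IsBlk (Nz Q ⊓ N) e)
    (heQ : IsDef p (Nz Q ⊓ N) Q e) (hce : c * e ≠ 0) (h : br Q b * c ≠ 0) :
    ∃ D, IsDef p (Nz Q) D c ∧ D ⊓ N = Q ∧ IsDef p ⊤ D b ∧ br D b = br D c := by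
  have hn : Nz Q ≤ Nz (Nz Q ⊓ N) :=
    (le_inf Subgroup.le_normalizer (le_top.trans (top_le_Nz N))).trans
      (BrPair.inf_Nz_le_Nz_inf _ _)
  obtain ⟨D, hD, hDQ⟩ := exists_isDef_inf_eq inf_le_left hn hc he hce heQ
  have hDN : D ⊓ N = Q := by rw [← hDQ, ← inf_assoc, inf_eq_left.2 hD.le]
  have hND : Nz D ≤ Nz Q := by
    rw [← hDN]
    exact (le_inf le_rfl (le_top.trans (top_le_Nz N))).trans (BrPair.inf_Nz_le_Nz_inf _ _)
  have hQD : Q ≤ D := hDN ▸ inf_le_left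
  have hm : br Q b ∈ fixSub k (Nz Q) (Nz Q) :=
    BrPair.fixSub_mono le_rfl (inf_le_right.trans (BrPair.Cz_le_Nz Q))
      (BrPair.br_mem_fixSub hb.mem le_top le_rfl)
  have h1 := hc.mul_eq_of_ne hm (BrPair.isIdempotentElem_br heQ.pgroup (hb.mem.2.mono le_top)
    hb.idem) h
  refine ⟨D, hD, hDN, isDef_of_Nz_le hND hb hc hD ?_⟩
  rw [← BrPair.br_br_of_le hQD b, ← BrPair.br_mul hD.pgroup (hm.2.mono hD.le)
    (hc.mem.2.mono hD.le), h1]
  exact hD.br_ne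

theorem eq_of_cover {N Q : Subgroup G} [N.Normal] (hQN : Q ≤ N) {b c c' e : MonoidAlgebra k G}
    (hb : IsBlk ⊤ b) (hc : IsBlk (Nz Q) c) (hc' : IsBlk (Nz Q) c') (he : IsBlk (Nz Q ⊓ N) e)
    (heQ : IsDef p (Nz Q ⊓ N) Q e) (hce : c * e ≠ 0) (hce' : c' * e ≠ 0) (h : br Q b * c ≠ 0)
    (h' : br Q b * c' ≠ 0) : c = c' := by
  obtain ⟨D, hD, hDN, hDb, h1⟩ := isDef_of_cover hQN hb hc he heQ hce h
  obtain ⟨D', hD', hDN', hDb', h1'⟩ := isDef_of_cover hQN hb hc' he heQ hce' h'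
  obtain ⟨g, -, rfl⟩ := hDb'.exists_conj hDb
  have hg : g ∈ Nz Q := by
    rw [BrPair.mem_Nz_iff_cS]
    conv_lhs => rw [← hDN']
    rw [BrPair.cS_inf, cS_normal N, hDN]
  have h2 : br (cS g D') b = br (cS g D') c' := by
    rw [← hb.mem.2 g (Subgroup.mem_top g), ← hc'.mem.2 g hg, ← BrPair.cj_br, ← BrPair.cj_br, h1']
  refine hc.eq_of_br_mul_ne_zero le_rfl hc' hD.le hD.pgroup ?_
  rw [← h1, ← h2, ← BrPair.br_mul hD.pgroup (hb.mem.2.mono le_top) (hb.mem.2.mono le_top),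
    hb.idem.eq]
  exact hDb.br_ne

end generic

/-- Fix a prime p and a maximal ideal M of the algebraic integers containing p. Let N be a normal subgroup of the finite group G, Q a p-subgroup of N, H = N_G(Q) and L = H ∩ N = N_N(Q). Let d be a p-block of N with defect group Q and e the p-block of L with defect group Q that induces d inside N (its Brauer correspondent). Then block induction from H to G is a bijection from the p-blocks of H covering e onto the p-blocks of G covering d: every block of H covering e induces exactly one block of G, and that block covers d; and every block of G covering d is induced by exactly one block of H covering e. -/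
theorem result {G : Type*} [Group G] [Fintype G] (p : ℕ) [Fact p.Prime] (M : Ideal Cfsg.AlgInt) (hM : Cfsg.IsPModular p M) (N : Subgroup G) [N.Normal] [Fintype N] (Q : Subgroup G) (hQ : IsPGroup p Q) (hQN : Q ≤ N) [Fintype ↥(Subgroup.normalizer (Q : Set G) ⊓ N)] (d : Set (Cfsg.IrrCharacter N)) (hd : Cfsg.IsPBlock M d) (hdQ : Cfsg.IsDefectGroup p M d (Q.subgroupOf N)) (e : Set (Cfsg.IrrCharacter ↥(Subgroup.normalizer (Q : Set G) ⊓ N))) (he : Cfsg.IsPBlock M e) (heQ : Cfsg.IsDefectGroup p M e (Q.subgroupOf (Subgroup.normalizer (Q : Set G) ⊓ N))) (hed : Cfsg.IsInducedBlockIn M N (Subgroup.normalizer (Q : Set G) ⊓ N) e d) : (∀ c : Set (Cfsg.IrrCharacter ↥(Subgroup.normalizer (Q : Set G))), Cfsg.IsPBlock M c → (∃ ψ ∈ c, ∃ ξ ∈ e, Cfsg.classInner (fun l : ↥(Subgroup.normalizer (Q : Set G) ⊓ N) => (ψ : ↥(Subgroup.normalizer (Q : Set G)) → ℂ) (Subgroup.inclusion inf_le_left l)) (ξ : ↥(Subgroup.normalizer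 (Q : Set G) ⊓ N) → ℂ) ≠ 0) → ∃! B : Set (Cfsg.IrrCharacter G), Cfsg.IsInducedBlock M (Subgroup.normalizer (Q : Set G)) c B ∧ (∃ χ ∈ B, ∃ θ ∈ d, Cfsg.classInner (fun n : N => (χ : G → ℂ) n) (θ : N → ℂ) ≠ 0)) ∧ (∀ B : Set (Cfsg.IrrCharacter G), Cfsg.IsPBlock M B → (∃ χ ∈ B, ∃ θ ∈ d, Cfsg.classInner (fun n : N => (χ : G → ℂ) n) (θ : N → ℂ) ≠ 0) → ∃! c : Set (Cfsg.IrrCharacter ↥(Subgroup.normalizer (Q : Set G))), (Cfsg.IsPBlock M c ∧ ∃ ψ ∈ c, ∃ ξ ∈ e, Cfsg.classInner (fun l : ↥(Subgroup.normalizer (Q : Set G) ⊓ N) => (ψ : ↥(Subgroup.normalizer (Q : Set G)) → ℂ) (Subgroup.inclusion inf_le_left l)) (ξ : ↥(Subgroup.normalizer (Q : Set G) ⊓ N) → ℂ) ≠ 0) ∧ Cfsg.IsInducedBlock M (Subgroup.normalizer (Q : Set G)) c B) := by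
  have hQH : Q ≤ Nz Q := Subgroup.le_normalizer
  have hQL : Q ≤ Nz Q ⊓ N := le_inf hQH hQN
  have hCH := BrPair.Cz_le_Nz Q
  have hn : Nz Q ≤ Nz (Nz Q ⊓ N) :=
    (le_inf Subgroup.le_normalizer (le_top.trans (top_le_Nz N))).trans
      (BrPair.inf_Nz_le_Nz_inf _ _)
  have hsd := BrPair.isBlk_sB hM hd
  have hse := BrPair.isBlk_sB hM he
  have hdQ' := (BrPair.isDefectGroup_subgroupOf_iff hM hd hQN).1 hdQ
  have heQ' := (BrPair.isDefectGroup_subgroupOf_iff hM he hQL).1 heQ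
  have hC : N ⊓ Cz Q ≤ Nz Q ⊓ N := le_inf (inf_le_right.trans hCH) inf_le_left
  have h1 := (BrPair.ind_iff_br_mul inf_le_right hC hse hsd hQL inf_le_left hQ).1
    ((BrPair.isInducedBlockIn_iff hM inf_le_right).1 hed).2.2
  have h2 := hsd.br_of_isDef le_rfl Subgroup.le_normalizer hdQ'
  have h3 := (BrPair.isPrim_iff_of_normal le_rfl hQL inf_le_left hQ).1 hse
  rw [BrPair.inf_Cz_eq_of_le inf_le_right hC] at h3
  rw [inf_comm N (Nz Q)] at h2
  have hes : br Q (sB hM N d) = sB hM (Nz Q ⊓ N) e :=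
    h2.eq_of_mul_ne_zero (BrPair.isCom_fixSub hC) h3 h1
  have hind : ∀ {c : Set (IrrCharacter (Nz Q))} {B : Set (IrrCharacter G)}, IsPBlock M c →
      IsPBlock M B → (IsInducedBlock M (Nz Q) c B ↔ br Q (eB hM B) * sB hM (Nz Q) c ≠ 0) := by
    intro c B hc hB
    rw [BrPair.isInducedBlock_iff hM, BrPair.ind_iff_br_mul le_top (inf_le_right.trans hCH)
      (BrPair.isBlk_sB hM hc) (BrPair.isBlk_eB hM hB) hQH le_rfl hQ]
    simp [hc, hB]
  have hm : ∀ B : Set (IrrCharacter G), br Q (eB hM B) ∈ fixSub (K hM) (Nz Q) (Nz Q) := fun B =>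
    BrPair.fixSub_mono le_rfl (inf_le_right.trans hCH)
      (BrPair.br_mem_fixSub (mem_Z_iff_mem_fixSub.1 (eB_mem_Z hM B)) le_top le_rfl)
  have hmul : ∀ B : Set (IrrCharacter G), br Q (eB hM B * sB hM N d) =
      br Q (eB hM B) * sB hM (Nz Q ⊓ N) e := fun B => by
    rw [BrPair.br_mul hQ (fixed_of_mem_Z (eB_mem_Z hM B) Q) (hsd.mem.2.mono hQN), hes]
  refine ⟨fun c hc hce => ?_, fun B hB hcov => ?_⟩
  · obtain ⟨B, hB⟩ := inducedBlockDefined_of_le hM hQ hQH hCH le_rfl hc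
    refine ⟨B, ⟨hB, (covers_iff_mul_ne_zero N hM hB.2.1 hd).2 fun h0 => ?_⟩,
      fun B' hB' => isInducedBlock_unique hM hB'.1 hB⟩
    have h4 := (BrPair.isBlk_sB hM hc).mul_eq_of_ne (hm B) (BrPair.isIdempotentElem_br hQ
      (fixed_of_mem_Z (eB_mem_Z hM B) Q) (isIdempotentElem_eB hM hB.2.1)) ((hind hc hB.2.1).1 hB)
    refine (covers_in_iff hM inf_le_left hn hc he).1 hce ?_
    rw [← h4, BrPair.fixSub_comm le_rfl _ (hm B) _ (BrPair.isBlk_sB hM hc).mem, mul_assoc,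
      ← hmul, h0, map_zero, mul_zero]
  · have h4 := br_mul_ne_zero_of_mul_ne_zero le_top (top_le_Nz N) (BrPair.isBlk_eB hM hB).mem
      (isIdempotentElem_eB hM hB) hsd ((covers_iff_mul_ne_zero N hM hB hd).1 hcov) hQN hQ
      hdQ'.br_ne
    rw [hmul] at h4
    obtain ⟨f, hf, h5⟩ := exists_blk_mul_ne_zero' (Nz Q) h4
    obtain ⟨c, hc, rfl⟩ := BrPair.exists_sB hM hf
    have h6 : br Q (eB hM B) * sB hM (Nz Q) c ≠ 0 := fun h => h5 (by
      rw [← mul_assoc, BrPair.fixSub_comm le_rfl _ hf.mem _ (hm B), h, zero_mul])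
    have h7 : sB hM (Nz Q) c * sB hM (Nz Q ⊓ N) e ≠ 0 := fun h => h5 (by
      rw [← mul_assoc, BrPair.fixSub_comm le_rfl _ hf.mem _ (hm B), mul_assoc, h, mul_zero])
    refine ⟨c, ⟨⟨hc, (covers_in_iff hM inf_le_left hn hc he).2 h7⟩, (hind hc hB).2 h6⟩, ?_⟩
    rintro c' ⟨⟨hc', h8⟩, h9⟩
    exact BrPair.sB_inj hM hc' hc (eq_of_cover hQN (BrPair.isBlk_eB hM hB)
      (BrPair.isBlk_sB hM hc') hf hse heQ' ((covers_in_iff hM inf_le_left hn hc' he).1 h8) h7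
      ((hind hc' hB).1 h9) h6)

end Cfsg.Agent.S4674
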