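import Mathlib
import Cfsg.Statements.S4681
import Cfsg.Agent.Lib.BrPair.Dict2

set_option autoImplicit false
open Cfsg

namespace Cfsg.Agent.S4681

open MonoidAlgebra CfsgLib.BrPair CfsgLib.Block CfsgLib.Char CfsgLib.Fusion

attribute [local implicit_reducible] CfsgLib.Block.K


/-- Fix a prime p and a maximal ideal M of the algebraic integers containing p. Let B₀ be the principal p-block of the finite group G, P a Sylow p-subgroup and e₀ the principal p-block of C_G(P). Then (P, e₀) is a maximal Brauer pair of B₀, and the fusion system of B₀ on (P, e₀) is the fusion system of G on P: its maps from each subgroup of P are exactly the conjugation maps into P by elements of G. -/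
theorem result {G : Type*} [Group G] [Fintype G] (p : ℕ) [Fact p.Prime] (M : Ideal Cfsg.AlgInt) (hM : Cfsg.IsPModular p M) (S : Sylow p G) : Cfsg.IsMaximalBrauerPair p M (Cfsg.principalBlock M G) (S : Subgroup G) (Cfsg.principalBlock M (Subgroup.centralizer ((S : Subgroup G) : Set G))) ∧ ∀ F : Cfsg.FusionSystem (S : Subgroup G), Cfsg.IsBlockFusionSystemOn p M (Cfsg.principalBlock M G) (S : Subgroup G) (Cfsg.principalBlock M (Subgroup.centralizer ((S : Subgroup G) : Set G))) F → ∀ Q : Subgroup G, F.Hom Q = (Cfsg.groupFusionSystem (S : Subgroup G)).Hom Q := by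
  have hb := isBlk_eB hM (isPBlock_principalBlock (G := G))
  have he := isBlk_sB' hM (isPBlock_principalBlock (G := Cz (S : Subgroup G)))
  have h1 := isPair_of_aug le_rfl hb.mem hb.idem (aug_eB_principal hM) le_top S.isPGroup' he
    (aug_sB_principal hM _)
  have hP : MaxPair p ⊤ ⊤ _ _ _ :=
    ⟨le_rfl, top_le_Nz_top, hb, h1, isDef_of_sylIn (sylIn_top S) h1.br_ne⟩
  refine ⟨(maxPair_iff hM).2 ⟨isPBlock_principalBlock, isPBlock_principalBlock, hP⟩,
    fun F hF Q => hom_eq_iff.2 fun φ => ?_⟩
  rw [((isBlockFusionSystemOn_iff hM).1 hF).2, mor_group_iff]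
  constructor
  · rintro ⟨g, h2, h3⟩
    exact ⟨h2.le, fun x hx => h3 x hx ▸ h2.cS_le (conj_mem_cS.2 hx), g, h3⟩
  · rintro ⟨h2, h3, g, h4⟩
    obtain ⟨f, h5⟩ := hP.exists_sub h2
    refine ⟨g, ⟨trivial, f, h5, subLE_of_aug hP.pgroup hP.PC he (aug_sB_principal hM _) ?_
      ((hP.blk_of h5).cj_blk' (top_le_Nz_top trivial)) ?_⟩, h4⟩
    · rintro _ ⟨x, hx, rfl⟩
      change g * x * g⁻¹ ∈ _
      rw [← h4 x hx]
      exact h3 x hx
    · rw [aug_cj]
      exact h5.aug_eq_one (aug_sB_principal hM _)

end Cfsg.Agent.S4681
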