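import Mathlib
import Cfsg.Statements.S4682
import Cfsg.Agent.Lib.BrPair.Dict2

set_option autoImplicit false
open Cfsg

namespace Cfsg.Agent.S4682

open MonoidAlgebra CfsgLib.BrPair CfsgLib.Block CfsgLib.Char CfsgLib.Fusion

attribute [local implicit_reducible] CfsgLib.Block.K

theorem relIndex_sup_of_le_Nz {G : Type*} [Group G] {A K : Subgroup G} (h : A ≤ Nz K) :
    K.relIndex (A ⊔ K) = K.relIndex A := by
  have h1 : A ⊔ K ≤ Nz K := sup_le h Subgroup.le_normalizer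
  rw [← Subgroup.relIndex_subgroupOf h1, ← Subgroup.relIndex_subgroupOf h,
    Subgroup.subgroupOf_sup h Subgroup.le_normalizer, Subgroup.relIndex_sup_right]

/-- Fix a prime p and a maximal ideal M of the algebraic integers containing p, a p-block B of the finite group G with maximal Brauer pair (P, e), P abelian, and a Brauer pair (Q, f) ≤ (P, e). Let T_Q be the stabilizer of f in N_G(Q) and T_P the stabilizer of e in N_G(P). Then every element of T_Q is a product of an element of T_P and an element of C_G(Q); and the index of C_G(Q) in T_Q equals the index of T_P ∩ C_G(Q) in T_P ∩ N_G(Q). -/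
theorem result {G : Type*} [Group G] [Fintype G] (p : ℕ) [Fact p.Prime] (M : Ideal Cfsg.AlgInt) (hM : Cfsg.IsPModular p M) (B : Set (Cfsg.IrrCharacter G)) (P : Subgroup G) (e : Set (Cfsg.IrrCharacter (Subgroup.centralizer (P : Set G)))) (hmax : Cfsg.IsMaximalBrauerPair p M B P e) (hab : ∀ x ∈ P, ∀ y ∈ P, x * y = y * x) (Q : Subgroup G) (f : Set (Cfsg.IrrCharacter (Subgroup.centralizer (Q : Set G)))) (hQP : Q ≤ P) (hf : Cfsg.IsPBlock M f) (hle : Cfsg.SubpairLE p M Q f P e) (TQ : Subgroup G) (hTQ : ∀ y : G, y ∈ TQ ↔ y ∈ Subgroup.normalizer (Q : Set G) ∧ Cfsg.StabilizesBlock (Subgroup.centralizer (Q : Set G)) f y) (TP : Subgroup G) (hTP : ∀ y : G, y ∈ TP ↔ y ∈ Subgroup.normalizer (P : Set G) ∧ Cfsg.StabilizesBlock (Subgroup.centralizer (P : Set G)) e y) : (∀ x ∈ TQ, ∃ y ∈ TP, ∃ c ∈ Subgroup.centralizer (Q : Set G), x = y * c) ∧ ((Subgroup.centralizer (Q : Set G)).subgroupOf TQ).index = ((TP ⊓ Subgroup.centralizer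 (Q : Set G)).subgroupOf (TP ⊓ Subgroup.normalizer (Q : Set G))).index := by
  obtain ⟨hB, he, hP⟩ := (maxPair_iff hM).1 hmax
  have h := ((subpairLE_iff hM he).1 hle).2
  obtain rfl := eq_stN hM hf hTQ
  obtain rfl := eq_stN hM he hTP
  have hab' : P ≤ Cz Q := fun x hx => mem_Cz.2 fun u hu => hab u (hQP hu) x hx
  have key : ∀ x ∈ stN ⊤ Q (sB hM (Cz Q) f), ∃ y ∈ stN ⊤ P (sB hM (Cz P) e) ⊓ Nz Q,
      ∃ c ∈ Cz Q, x = y * c := by
    intro x hx
    obtain ⟨c, hc, h1⟩ := hP.exists_mul_mem_stN h hab' hx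
    have h2 : c * x ∈ Nz Q := (Nz Q).mul_mem (Cz_le_Nz Q hc.1.2) hx.1.2
    refine ⟨c * x, ⟨h1, h2⟩, (c * x)⁻¹ * c⁻¹ * (c * x)⁻¹⁻¹,
      (mem_Nz.1 (Nz_le_Nz_Cz Q ((Nz Q).inv_mem h2)) _).1 ((Cz Q).inv_mem hc.1.2), by group⟩
  refine ⟨fun x hx => ?_, ?_⟩
  · obtain ⟨y, hy, h1⟩ := key x hx
    exact ⟨y, hy.1, h1⟩
  · have h1 : stN ⊤ Q (sB hM (Cz Q) f) = (stN ⊤ P (sB hM (Cz P) e) ⊓ Nz Q) ⊔ Cz Q := by
      refine le_antisymm (fun x hx => ?_) (sup_le (hP.inf_Nz_le_stN h)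
        (le_sup_right.trans (sup_Cz_le_stN (hP.blk_of h))))
      obtain ⟨y, hy, c, hc, rfl⟩ := key x hx
      exact Subgroup.mul_mem _ (Subgroup.mem_sup_left hy) (Subgroup.mem_sup_right hc)
    change (Cz Q).relIndex _ = Subgroup.relIndex _ _
    rw [h1, relIndex_sup_of_le_Nz (inf_le_right.trans (Nz_le_Nz_Cz Q)),
      ← Subgroup.inf_relIndex_left, inf_assoc, inf_eq_right.2 (Cz_le_Nz Q)]

end Cfsg.Agent.S4682
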