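import Cfsg.Statements.S4683
import Cfsg.Agent.Lib.Block.Induce
import Cfsg.Agent.Lib.Blk.Sub2
import Cfsg.Agent.Lib.BrPair.Dict

set_option autoImplicit false
open Cfsg

namespace Cfsg.Agent.S4683

open CfsgLib.Block CfsgLib.Char CfsgLib.Blk in
theorem aux {G : Type*} [Group G] [Fintype G] {p : ℕ} {M : Ideal Cfsg.AlgInt}
    (hM : Cfsg.IsPModular p M) {B : Set (Cfsg.IrrCharacter G)} {u : G}
    (hu : ∃ k : ℕ, orderOf u = p ^ k) {H : Subgroup G} (hH : H = Cu u)
    {e : Set (Cfsg.IrrCharacter H)} (hind : Cfsg.IsInducedBlock M H e B) :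
    ∑ᶠ χ ∈ B, ∑ᶠ s : H, Cfsg.pRegularPart p (Cfsg.blockPart e (fun c : H => (χ : G → ℂ) (u * c))) s *
      Cfsg.blockPart e (fun c : H => (χ : G → ℂ) (u⁻¹ * c)) s⁻¹ =
      (Nat.card H : ℂ) * (Cfsg.blockRank p e : ℂ) := by
  subst hH
  have := Fintype.ofFinite (Cu u)
  rw [← sum_mu_self hM hu hind, finsum_bf, Finset.mul_sum]
  refine Finset.sum_congr rfl fun χ _ => ?_
  have hχ := isCharacter_of_isIrr χ.2
  have h1 : ∀ s : Cu u, Cfsg.blockPart e (fun c : Cu u => (χ : G → ℂ) (u⁻¹ * c)) s⁻¹ =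
      (starRingEnd ℂ) (Cfsg.blockPart e (sh u (χ : G → ℂ)) s) := by
    intro s
    rw [blockPart_bf, blockPart_bf, Finset.sum_apply, Finset.sum_apply, map_sum]
    refine Finset.sum_congr rfl fun ξ _ => ?_
    have hξ := isCharacter_of_isIrr ξ.2
    rw [Pi.smul_apply, Pi.smul_apply, smul_eq_mul, smul_eq_mul, map_mul, char_inv hξ]
    congr 1
    unfold Cfsg.classInner
    rw [map_mul, map_inv₀, map_natCast, map_sum]
    congr 1
    refine Fintype.sum_equiv (Equiv.inv (Cu u)) _ _ fun c => ?_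
    rw [map_mul, Complex.conj_conj, Equiv.inv_apply, char_inv hξ, sh_apply, ← char_inv hχ,
      Subgroup.coe_inv, mul_inv_rev, inv_inv]
    rw [← (Commute.inv_left (mem_Cu.1 c.2)).eq]
  rw [finsum_eq_sum_of_fintype, mu, sp, classInner_reg_reg]
  unfold Cfsg.classInner
  rw [Nat.card_eq_fintype_card, ← mul_assoc,
    mul_inv_cancel₀ (Nat.cast_ne_zero.2 Fintype.card_ne_zero), one_mul]
  exact Finset.sum_congr rfl fun s _ => by rw [h1]; rfl

open CfsgLib.BrPair in

/-- Fix a prime p and a maximal ideal M of the algebraic integers containing p, a p-block B of the finite group G, a p-element u and a p-block e of C = C_G(u) such that (⟨u⟩, e) is a Brauer pair of B (a Brauer element of B). For χ ∈ B let χ_u be the e-part of the class function c ↦ χ(u c) on C and χ_u' the e-part of c ↦ χ(u⁻¹ c). Then the sum over χ ∈ B and over the p-regular elements s of C of χ_u(s)·χ_u'(s⁻¹) equals the order of C times the p-regular rank of e (the number of irreducible Brauer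 characters of e). -/
theorem result {G : Type*} [Group G] [Fintype G] (p : ℕ) [Fact p.Prime] (M : Ideal Cfsg.AlgInt) (hM : Cfsg.IsPModular p M) (B : Set (Cfsg.IrrCharacter G)) (u : G) (hu : ∃ k : ℕ, orderOf u = p ^ k) (e : Set (Cfsg.IrrCharacter (Subgroup.centralizer (Subgroup.zpowers u : Set G)))) (hBe : Cfsg.IsBrauerPairOf p M B (Subgroup.zpowers u) e) : ∑ᶠ χ ∈ B, ∑ᶠ s : Subgroup.centralizer (Subgroup.zpowers u : Set G), Cfsg.pRegularPart p (Cfsg.blockPart e (fun c : Subgroup.centralizer (Subgroup.zpowers u : Set G) => (χ : G → ℂ) (u * c))) s * Cfsg.blockPart e (fun c : Subgroup.centralizer (Subgroup.zpowers u : Set G) => (χ : G → ℂ) (u⁻¹ * c)) s⁻¹ = (Nat.card (Subgroup.centralizer (Subgroup.zpowers u : Set G)) : ℂ) * (Cfsg.blockRank p e : ℂ) := by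
  obtain ⟨hB, he, h⟩ := (isBrauerPairOf_iff hM).1 hBe
  refine aux hM hu ?_ ((CfsgLib.Block.isInducedBlock_Cz_iff hM h.pgroup rfl he hB).2 h.br_mul)
  ext x
  rw [Subgroup.mem_centralizer_iff, CfsgLib.Blk.mem_Cu]
  constructor
  · intro h
    exact h u (Subgroup.mem_zpowers u)
  · rintro h _ ⟨n, rfl⟩
    exact (Commute.zpow_left h n).eq

end Cfsg.Agent.S4683
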