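import Cfsg.Statements.S4684
import Cfsg.Agent.Lib.Star.Nil
import Cfsg.Agent.S4685

set_option autoImplicit false
open Cfsg

namespace Cfsg.Agent.S4684

open CfsgLib CfsgLib.Star CfsgLib.Blk CfsgLib.Block CfsgLib.Char in

/-- Fix a prime p and a maximal ideal M of the algebraic integers containing p, a p-block B of the finite group G with maximal Brauer pair (P, e) and fusion system F on P. Then the number of irreducible characters of height zero in B is divisible by the index in P of the focal subgroup of F. -/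
theorem result {G : Type*} [Group G] [Fintype G] (p : ℕ) [Fact p.Prime] (M : Ideal Cfsg.AlgInt) (hM : Cfsg.IsPModular p M) (B : Set (Cfsg.IrrCharacter G)) (P : Subgroup G) (e : Set (Cfsg.IrrCharacter (Subgroup.centralizer (P : Set G)))) (hmax : Cfsg.IsMaximalBrauerPair p M B P e) (F : Cfsg.FusionSystem P) (hF : Cfsg.IsBlockFusionSystemOn p M B P e F) : (F.focalSubgroup.subgroupOf P).index ∣ Nat.card {χ : Cfsg.IrrCharacter G // χ ∈ B ∧ Cfsg.blockHeight p B (χ : G → ℂ) = 0} := by
  classical
  obtain ⟨hB, he, hmp⟩ := (BrPair.maxPair_iff hM).1 hmax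
  have hF' := ((BrPair.isBlockFusionSystemOn_iff hM).1 hF).2
  exact relIndex_dvd_card hmp hB (S4685.mem_focal hF') le_rfl
    (fun χ => blockHeight p B (χ : G → ℂ) = 0) (fun χ ψ h1 h2 => (height_eq_of_one_eq (p := p) (B := B) h1).symm.trans h2)
    fun χ hχ h0 u hu => sp_ne_zero_of_height_zero hM (pElt_of_mem hmp hu) (induced_bu hmp hB hu)
      hχ h0

end Cfsg.Agent.S4684
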