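import Mathlib
import Cfsg.Statements.S4687
import Cfsg.Agent.Lib.BrPair.Dict2

set_option autoImplicit false
open Cfsg

namespace Cfsg.Agent.S4687

open MonoidAlgebra CfsgLib.BrPair CfsgLib.Block CfsgLib.Char CfsgLib.Fusion

attribute [local implicit_reducible] CfsgLib.Block.K


/-- Fix a prime p and a maximal ideal M of the algebraic integers containing p, and a p-block B of the finite group G with maximal Brauer pair (P, e), P abelian. Then B is nilpotent if and only if its inertial quotient is trivial: every element of N_G(P) stabilizing e centralizes P. -/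
theorem result {G : Type*} [Group G] [Fintype G] (p : ℕ) [Fact p.Prime] (M : Ideal Cfsg.AlgInt) (hM : Cfsg.IsPModular p M) (B : Set (Cfsg.IrrCharacter G)) (P : Subgroup G) (e : Set (Cfsg.IrrCharacter (Subgroup.centralizer (P : Set G)))) (hmax : Cfsg.IsMaximalBrauerPair p M B P e) (hab : ∀ x ∈ P, ∀ y ∈ P, x * y = y * x) : Cfsg.IsNilpotentBlock p M B ↔ ∀ x : G, x ∈ Subgroup.normalizer (P : Set G) → Cfsg.StabilizesBlock (Subgroup.centralizer (P : Set G)) e x → x ∈ Subgroup.centralizer (P : Set G) := by
  obtain ⟨hB, he, hP⟩ := (maxPair_iff hM).1 hmax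
  rw [isNilpotentBlock_iff hM,
    hP.isNil_iff_of_abelian fun x hx => mem_Cz.2 fun u hu => hab u hu x hx]
  exact ⟨fun h x h1 h2 => h.2 ((mem_stN_iff hM he).2 ⟨h1, h2⟩),
    fun h => ⟨hB, fun x hx => h x ((mem_stN_iff hM he).1 hx).1 ((mem_stN_iff hM he).1 hx).2⟩⟩

end Cfsg.Agent.S4687
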