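import Mathlib
import Cfsg.Statements.S4688
import Cfsg.Agent.Lib.BrPair.Dict2

set_option autoImplicit false
open Cfsg

namespace Cfsg.Agent.S4688

open MonoidAlgebra CfsgLib.BrPair CfsgLib.Block CfsgLib.Char CfsgLib.Fusion

attribute [local implicit_reducible] CfsgLib.Block.K


/-- Fix a prime p and a maximal ideal M of the algebraic integers containing p, and a nilpotent p-block B of the finite group G with maximal Brauer pair (P, e). Then for every Brauer pair (Q, f) of B, f is a nilpotent block of C_G(Q); and if moreover (Q, f) ≤ (P, e), then C_P(Q) is a defect group of f as a block of C_G(Q). -/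
theorem result {G : Type*} [Group G] [Fintype G] (p : ℕ) [Fact p.Prime] (M : Ideal Cfsg.AlgInt) (hM : Cfsg.IsPModular p M) (B : Set (Cfsg.IrrCharacter G)) (P : Subgroup G) (e : Set (Cfsg.IrrCharacter (Subgroup.centralizer (P : Set G)))) (hmax : Cfsg.IsMaximalBrauerPair p M B P e) (hnil : Cfsg.IsNilpotentBlock p M B) (Q : Subgroup G) (f : Set (Cfsg.IrrCharacter (Subgroup.centralizer (Q : Set G)))) (hQf : Cfsg.IsBrauerPairOf p M B Q f) : Cfsg.IsNilpotentBlock p M f ∧ (Cfsg.SubpairLE p M Q f P e → Cfsg.IsDefectGroup p M f ((P ⊓ Subgroup.centralizer (Q : Set G)).subgroupOf (Subgroup.centralizer (Q : Set G)))) := by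
  obtain ⟨hB, he, hP⟩ := (maxPair_iff hM).1 hmax
  obtain ⟨-, hf, h1⟩ := (isBrauerPairOf_iff hM).1 hQf
  have h2 := ((isNilpotentBlock_iff hM).1 hnil).2
  constructor
  · have := h2.local le_rfl hP.prim h1 stC_le_stN
    rw [stC_top hM hf, top_inf_eq] at this
    exact (isNilpotentBlock_sub_iff hM).2 ⟨hf, this⟩
  · intro hle
    have := hP.isDef_stC_of_isNil h2 ((subpairLE_iff hM he).1 hle).2
    rw [stC_top hM hf] at this
    exact (isDefectGroup_subgroupOf_iff hM hf inf_le_right).2 this

end Cfsg.Agent.S4688
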