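import Cfsg.Statements.S4690
import Cfsg.Agent.Lib.Star.Nil

set_option autoImplicit false
open Cfsg

namespace Cfsg.Agent.S4690

open CfsgLib CfsgLib.Star CfsgLib.Blk CfsgLib.Block CfsgLib.Char in

/-- Fix a prime p and a maximal ideal M of the algebraic integers containing p, and a nilpotent p-block B of the finite group G with defect group P. Then there is a bijection from B onto the irreducible characters of P carrying the height of each χ ∈ B to the exponent of p in the degree of its image. -/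
theorem result {G : Type*} [Group G] [Fintype G] (p : ℕ) [Fact p.Prime] (M : Ideal Cfsg.AlgInt) (hM : Cfsg.IsPModular p M) (B : Set (Cfsg.IrrCharacter G)) (hnil : Cfsg.IsNilpotentBlock p M B) (P : Subgroup G) (hP : Cfsg.IsDefectGroup p M B P) : ∃ Φ : B ≃ Cfsg.IrrCharacter P, ∀ χ : B, Cfsg.blockHeight p B ((χ : Cfsg.IrrCharacter G) : G → ℂ) = (Cfsg.charDegree ((Φ χ : Cfsg.IrrCharacter P) : P → ℂ)).factorization p := by
  classical
  obtain ⟨hB, hn⟩ := (BrPair.isNilpotentBlock_iff hM).1 hnil
  obtain ⟨e, h⟩ := BrPair.exists_maxPair_of_isDef le_rfl BrPair.top_le_Nz_top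
    (BrPair.isBlk_eB hM hB) ((BrPair.isDefectGroup_iff hM hB).1 hP)
  obtain ⟨χ, hχ, h0⟩ := exists_height_zero (p := p) (IsPBlock_nonempty hM hB)
  obtain ⟨Φ, hΦ⟩ := exists_nil_equiv h hn hB hχ h0
  refine ⟨Φ.symm, fun ψ => ?_⟩
  obtain ⟨θ, rfl⟩ := Φ.surjective ψ
  rw [Equiv.symm_apply_apply]
  have h1 : charDegree ((Φ θ : IrrCharacter G) : G → ℂ) =
      charDegree (θ : P → ℂ) * charDegree (χ : G → ℂ) := by
    apply charDegree_eq_of_eq
    rw [hΦ, ast_apply_one h hB (irr_isClassFunction χ) (nil_stable h hn (irr_isClassFunction θ)),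
      blockPart_irr_of_mem hχ, extendByZero_one, Nat.cast_mul, charDegree_eq (irr_isCharacter θ),
      charDegree_eq (irr_isCharacter χ)]
  have h2 := minv_add_height (p := p) (Φ θ).2
  have h3 := minv_add_height (p := p) hχ
  rw [h1, Nat.factorization_mul (charDegree_ne_zero θ.2) (charDegree_ne_zero χ.2),
    Finsupp.add_apply] at h2
  omega

end Cfsg.Agent.S4690
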