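import Mathlib
import Cfsg.Statements.S4692
import Cfsg.Agent.Lib.BrPair.Dict2

set_option autoImplicit false
open Cfsg

namespace Cfsg.Agent.S4692

open MonoidAlgebra CfsgLib.BrPair CfsgLib.Block CfsgLib.Char CfsgLib.Fusion

attribute [local implicit_reducible] CfsgLib.Block.K

theorem isNil_iff {G : Type*} [Group G] [Finite G] {p : ℕ} [Fact p.Prime] {M : Ideal AlgInt}
    (hM : IsPModular p M) {N : Subgroup G} [hn : N.Normal] (h : ∀ t : G, ∃ n : ℕ, t ^ p ^ n ∈ N)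
    {b : (K hM)[G]} (hb : IsBlk N b) (hb' : IsBlk ⊤ b) : IsNil p N N b ↔ IsNil p ⊤ ⊤ b := by
  have hNz : ∀ x : G, x ∈ Nz N := fun x => by
    rw [show Nz N = ⊤ from Subgroup.normalizer_eq_top N]; trivial
  have hle : ∀ Q : Subgroup G, N ⊓ Cz Q ≤ ⊤ ⊓ Cz Q := fun Q => inf_le_inf_right _ le_top
  have hnz : ∀ Q : Subgroup G, Nz Q ≤ Nz (N ⊓ Cz Q) := fun Q x hx =>
    inf_Nz_le_Nz_inf _ _ ⟨hNz x, Nz_le_Nz_Cz Q hx⟩
  have hnz' : ∀ Q : Subgroup G, ⊤ ⊓ Cz Q ≤ Nz (N ⊓ Cz Q) := fun Q =>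
    inf_le_right.trans ((Cz_le_Nz Q).trans (hnz Q))
  have hidx : ∀ Q : Subgroup G, ∀ t ∈ ⊤ ⊓ Cz Q, ∃ n : ℕ, t ^ p ^ n ∈ N ⊓ Cz Q := fun Q t ht => by
    obtain ⟨n, hn⟩ := h t
    exact ⟨n, hn, (Cz Q).pow_mem ht.2 _⟩
  constructor
  · intro hc Q f hf x hx hpx
    have hxN : x ∈ N := by
      obtain ⟨n, hn⟩ := h x
      exact mem_of_pow_mem hn hpx
    obtain ⟨f0, hf0⟩ := exists_subLE hf.pgroup (le_Nz_top Q) hf.blk (inf_le_left : Q ⊓ N ≤ Q)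
    have hxQ0 : x ∈ Nz (Q ⊓ N) := inf_Nz_le_Nz_inf _ _ ⟨hx.1.2, hNz x⟩
    have hx0 : x ∈ stab f0 :=
      hf0.mem_stab hf.pgroup (le_Nz_top Q) hf.blk (le_Nz_top ⊤ trivial) hx.1.2 hx.2 hxQ0
    have hp0 := hf.of_subLE le_rfl hb'.mem hb'.idem hf0
    have hpr := (isBlk_iff_of_index_pow hM (hle _) (hidx (Q ⊓ N))).1 hp0.blk
    obtain ⟨f1, hf1, e1⟩ := hpr.exists_eq_orbSum le_rfl (hle _) (hnz' _) (hnz' _)
    have e2 : f0 * f1 = f1 := by rw [e1]; exact orbSum_mul_self le_rfl (hnz' _) (hnz' _) hf1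
    have hf1x : IsBlk (N ⊓ Cz (Q ⊓ N)) (cj x f1) :=
      hf1.cj_of_mem (N := Nz (Q ⊓ N)) (hnz _) (hnz _) hxQ0
    obtain ⟨c, hc', e3⟩ := hpr.exists_cj_eq le_rfl (hle _) (hnz' _) (hnz' _) hf1x hf1
      (by rw [← mem_stab.1 hx0, ← map_mul, e2]; exact hf1x.ne) (by rw [e2]; exact hf1.ne)
    have hpow : ∀ i : ℕ, cj (x ^ i) f1 = cj (c ^ i) f1 := fun i => by
      induction i with
      | zero => simp
      | succ i ih =>
        have h1 : IsBlk (N ⊓ Cz (Q ⊓ N)) (cj (c ^ i * x) f1) :=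
          hf1.cj_of_mem (N := Nz (Q ⊓ N)) (hnz _) (hnz _)
            ((Nz _).mul_mem (Cz_le_Nz _ ((Cz _).pow_mem hc'.2 i)) hxQ0)
        have h2 : x * c ^ i * x⁻¹ * (c ^ i)⁻¹ ∈ N ⊓ Cz (Q ⊓ N) := by
          refine ⟨?_, (Cz _).mul_mem ?_ ((Cz _).inv_mem ((Cz _).pow_mem hc'.2 i))⟩
          · have := N.mul_mem hxN (hn.conj_mem _ (N.inv_mem hxN) (c ^ i))
            simpa [mul_assoc] using this
          · exact (mem_Nz.1 (Nz_le_Nz_Cz _ hxQ0) _).1 ((Cz _).pow_mem hc'.2 i)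
        rw [pow_succ', cj_mul, ih, ← cj_mul,
          show x * c ^ i = x * c ^ i * x⁻¹ * (c ^ i)⁻¹ * (c ^ i * x) by group, cj_mul,
          h1.mem.2 _ h2, cj_mul, ← e3, ← cj_mul, pow_succ]
    have hx1 : x ∈ stab f1 := by
      obtain ⟨n, hn⟩ := hidx _ c hc'
      exact mem_of_pow_mem (n := n) (mem_stab.2 (by rw [hpow, hf1.mem.2 _ hn])) hpx
    have hp1 : IsPair p N N b (Q ⊓ N) f1 :=
      ⟨inf_le_right, hp0.pgroup, hf1, by rw [← e2, ← mul_assoc, hp0.br_mul]⟩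
    have hxC := hc _ _ hp1 x ⟨⟨hxN, hxQ0⟩, hx1⟩ hpx
    refine mem_Cz_of_stabilizes hp0.pgroup hxC (fun y hy => ⟨?_, ?_⟩) hpx
    · exact Q.mul_mem (Q.inv_mem hy) ((mem_Nz.1 hx.1.2 y).1 hy)
    · have := N.mul_mem (hn.conj_mem _ hxN y⁻¹) (N.inv_mem hxN)
      simpa [mul_assoc] using this
  · intro hB Q f1 hf1 x hx hpx
    have hpr := isPrim_orbSum le_rfl (hle Q) (hnz' Q) (hnz' Q) hf1.blk
    have e2 := orbSum_mul_self le_rfl (hnz' Q) (hnz' Q) hf1.blk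
    set f := orbSum (⊤ ⊓ Cz Q) f1
    have hf := (isBlk_iff_of_index_pow hM (hle _) (hidx Q)).2 hpr
    have hp : IsPair p ⊤ ⊤ b Q f := isPair_of_ne le_rfl hb'.mem hb'.idem le_top hf1.pgroup hf
      fun h0 => hf1.blk.ne (by rw [← hf1.br_mul, ← e2, ← mul_assoc, h0, zero_mul])
    have hfx : IsBlk (⊤ ⊓ Cz Q) (cj x f) :=
      hf.cj_of_mem (N := ⊤ ⊓ Nz Q) (inf_Nz_le_Nz_inf_Cz top_le_Nz_top)
        (inf_Nz_le_Nz_inf_Cz top_le_Nz_top) ⟨trivial, hx.1.2⟩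
    have e3 : cj x f * f1 = f1 := by rw [← mem_stab.1 hx.2, ← map_mul, e2]
    have hxf : cj x f = f := hfx.eq_of_mul_ne_zero (isCom_fixSub le_rfl) hf
      fun h0 => hf1.blk.ne (by rw [← e3, ← e2, ← mul_assoc, h0, zero_mul])
    exact hB Q f hp x ⟨⟨trivial, hx.1.2⟩, hxf⟩ hpx

/-- Fix a prime p and a maximal ideal M of the algebraic integers containing p. Let N be a normal subgroup of p-power index in the finite group G and c a p-block of N stable under conjugation by G, and let B be the p-block of G whose idempotent is that of c (it exists and is unique). Then c is nilpotent as a block of N if and only if B is nilpotent as a block of G. -/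
theorem result {G : Type*} [Group G] [Fintype G] (p : ℕ) [Fact p.Prime] (M : Ideal Cfsg.AlgInt) (hM : Cfsg.IsPModular p M) (N : Subgroup G) [N.Normal] (hN : ∃ k : ℕ, N.index = p ^ k) (c : Set (Cfsg.IrrCharacter N)) (hc : Cfsg.IsPBlock M c) (hst : ∀ x : G, Cfsg.StabilizesBlock N c x) (B : Set (Cfsg.IrrCharacter G)) (hB : Cfsg.IsPBlock M B) (hBc : ∀ g : G, Cfsg.blockCoeff B g = Cfsg.subgroupBlockCoeff N c g) : Cfsg.IsNilpotentBlock p M c ↔ Cfsg.IsNilpotentBlock p M B := by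
  have e : eB hM B = sB hM N c := ext' fun g => by
    rw [coeff_sB, ← hBc]; rfl
  rw [isNilpotentBlock_sub_iff hM, isNilpotentBlock_iff hM, e, and_iff_right hc, and_iff_right hB]
  exact isNil_iff hM (exists_pow_mem_of_index hN) (isBlk_sB hM hc) (e ▸ isBlk_eB hM hB)

end Cfsg.Agent.S4692
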