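import Mathlib
import Cfsg.Statements.S4693
import Cfsg.Agent.Lib.BrPair.Dict2

set_option autoImplicit false
open Cfsg

namespace Cfsg.Agent.S4693

open MonoidAlgebra CfsgLib.BrPair CfsgLib.Block CfsgLib.Char CfsgLib.Fusion

attribute [local implicit_reducible] CfsgLib.Block.K


/-- Fix a prime p and a maximal ideal M of the algebraic integers containing p, a p-block B of the finite group G with maximal Brauer pair (P, e) and fusion system F on P, and a Brauer pair (Q, f) ≤ (P, e) with Q centric in F. Suppose every element of G normalizes Q and stabilizes f. Then the idempotent of B agrees with that of f modulo M at every element of G, and f is the idempotent of a nilpotent block of Q·C_G(Q): some p-block of Q·C_G(Q) has the idempotent coefficients of f and is nilpotent. -/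
theorem result {G : Type*} [Group G] [Fintype G] (p : ℕ) [Fact p.Prime] (M : Ideal Cfsg.AlgInt) (hM : Cfsg.IsPModular p M) (B : Set (Cfsg.IrrCharacter G)) (P : Subgroup G) (e : Set (Cfsg.IrrCharacter (Subgroup.centralizer (P : Set G)))) (hmax : Cfsg.IsMaximalBrauerPair p M B P e) (F : Cfsg.FusionSystem P) (hF : Cfsg.IsBlockFusionSystemOn p M B P e F) (Q : Subgroup G) (f : Set (Cfsg.IrrCharacter (Subgroup.centralizer (Q : Set G)))) (hQP : Q ≤ P) (hf : Cfsg.IsPBlock M f) (hle : Cfsg.SubpairLE p M Q f P e) (hcen : F.IsCentric Q) (hG : ∀ x : G, x ∈ Subgroup.normalizer (Q : Set G) ∧ Cfsg.StabilizesBlock (Subgroup.centralizer (Q : Set G)) f x) : (∀ g : G, Cfsg.MemLocalIdeal M (Cfsg.blockCoeff B g - Cfsg.subgroupBlockCoeff (Subgroup.centralizer (Q : Set G)) f g)) ∧ ∃ F' : Set (Cfsg.IrrCharacter ↥(Q ⊔ Subgroup.centralizer (Q : Set G))), Cfsg.IsPBlock M F' ∧ (∀ t : ↥(Q ⊔ Subgroup.centralizer (Q : Set G)), Cfsg.blockCoeff F' t = Cfsg.subgroupBlockCoeff (Subgroup.centralizer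 (Q : Set G)) f (t : G)) ∧ Cfsg.IsNilpotentBlock p M F' := by
  obtain ⟨hB, he, hP⟩ := (maxPair_iff hM).1 hmax
  have h := ((subpairLE_iff hM he).1 hle).2
  have hT : ⊤ ≤ stN ⊤ Q (sB hM (Cz Q) f) := fun x _ => (mem_stN_iff hM hf).2 (hG x)
  have hQ := hP.pgroup.to_le hQP
  have hN : (⊤ : Subgroup G) ≤ Nz Q := hT.trans (inf_le_left.trans inf_le_right)
  constructor
  · have h1 : IsBlk ⊤ (sB hM (Cz Q) f) :=
      (hP.blk_of h).isBlk_stab hQ le_top rfl (hT.trans inf_le_right) hN
    have h2 := (hP.pair_of h).br_mul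
    rw [br_eq_self_of_normal le_rfl le_top hN hQ hP.prim.mem hP.prim.idem] at h2
    have h3 := hP.prim.eq_of_mul_ne_zero (isCom_fixSub le_rfl) h1 (by rw [h2]; exact h1.ne)
    intro g
    rw [← coeff_cB, ← coeff_blockIdem,
      ← red_eq_iff hM (blockIdem_mem_OG hM hB g) (cB_mem_OG hM hf g), ← coeff_redA, ← coeff_redA,
      redA_cB, ← h3, eB]
  · obtain ⟨F', h1, h2, h3⟩ := exists_block_stab hM hQ hf le_rfl (sup_Cz_le_stN (hP.blk_of h))
    refine ⟨F', h1, h3, (isNilpotentBlock_sub_iff hM).2 ⟨h1, isNil_of_le_sup_Cz (Q := Q) ?_ le_rfl⟩⟩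
    have h4 := (hP.centric_iff ((isBlockFusionSystemOn_iff hM).1 hF).2 h).1 hcen
    have hb := isBlk_sB hM h1
    obtain ⟨D, hD⟩ := exists_isDef p le_rfl Subgroup.le_normalizer hb
    have h5 : Q ≤ D := hb.le_of_isDef le_rfl hD le_sup_left (le_top.trans hN) hQ
    rw [h2] at hD ⊢
    have h6 := (hP.isDef_stC_of_isDef (hP.pair_of h) ((stC_top hM hf).le.trans le_sup_right)
      (sup_Cz_le_stN (hP.blk_of h)) hD).1
    have h7 := h4.eq_of_le h6.le h6.pgroup h6.br_ne
      (inf_le_inf h5 (stC_top hM hf).ge)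
    rw [stC_top hM hf] at h7
    have h8 : D = Q := by
      refine le_antisymm (fun x hx => ?_) h5
      obtain ⟨u, hu, c, hc, rfl⟩ :=
        (mem_sup_iff_of_le_Nz (Subgroup.le_normalizer.trans (Nz_le_Nz_Cz Q))).1 (hD.le hx)
      exact Q.mul_mem hu (h7.le ⟨(D.mul_mem_cancel_left (h5 hu)).1 hx, hc⟩).1
    rwa [h8] at hD

end Cfsg.Agent.S4693
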