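import Mathlib
import Cfsg.Statements.S4694
import Cfsg.Agent.Lib.BrPair.Dict2
import Cfsg.Agent.Lib.Cover.Twist
import Cfsg.Agent.Lib.Cover.Graded

set_option autoImplicit false
open Cfsg

namespace Cfsg.Agent.S4694

open MonoidAlgebra CfsgLib.BrPair CfsgLib.Block CfsgLib.Char CfsgLib.Fusion

attribute [local implicit_reducible] CfsgLib.Block.K

theorem le_center {G : Type*} [Group G] (Q : Subgroup G) :
    (Q ⊓ Cz Q).subgroupOf (Cz Q) ≤ Subgroup.center (Cz Q) := fun z hz => by
  rw [Subgroup.mem_center_iff]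
  intro c
  exact Subtype.ext (mem_Cz.1 c.2 z (Subgroup.mem_subgroupOf.1 hz).1).symm

/-- Fix a prime p and a maximal ideal M of the algebraic integers containing p, a p-block B of the finite group G and a Brauer pair (Q, e) of B. Let T be the stabilizer of e in N_G(Q) and suppose that (Q, e) carries a weight: the block of T whose idempotent is that of e contains an irreducible character χ that is constant on the cosets of Q and whose degree has p-part equal to the p-part of the index of Q in T. Then Z(Q) is a defect group of e as a block of C_G(Q), and Q is the largest normal p-subgroup of T: every p-subgroup of T normalized by T lies in Q. -/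
theorem result {G : Type*} [Group G] [Fintype G] (p : ℕ) [Fact p.Prime] (M : Ideal Cfsg.AlgInt) (hM : Cfsg.IsPModular p M) (B : Set (Cfsg.IrrCharacter G)) (Q : Subgroup G) (e : Set (Cfsg.IrrCharacter (Subgroup.centralizer (Q : Set G)))) (hQe : Cfsg.IsBrauerPairOf p M B Q e) (T : Subgroup G) (hT : ∀ y : G, y ∈ T ↔ y ∈ Subgroup.normalizer (Q : Set G) ∧ Cfsg.StabilizesBlock (Subgroup.centralizer (Q : Set G)) e y) (F' : Set (Cfsg.IrrCharacter T)) (hF' : Cfsg.IsPBlock M F') (hF'e : ∀ t : T, Cfsg.blockCoeff F' t = Cfsg.subgroupBlockCoeff (Subgroup.centralizer (Q : Set G)) e (t : G)) (χ : Cfsg.IrrCharacter T) (hχ : χ ∈ F') (hχQ : ∀ q : G, q ∈ Q → ∀ t : T, ∀ t' : T, (t' : G) = q * (t : G) → (χ : T → ℂ) t' = (χ : T → ℂ) t) (hdeg : (Cfsg.charDegree (χ : T → ℂ)).factorization p + (Nat.card Q).factorization p = (Nat.card T).factorization p) : Cfsg.IsDefectGroup p M e ((Q ⊓ Subgroup.centralizer (Q : Set G)).subgroupOf (Subgroup.centralizer (Q : Set G))) ∧ ∀ R : Subgroup G, R ≤ T → IsPGroup p R →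 (∀ t ∈ T, t ∈ Subgroup.normalizer (R : Set G)) → R ≤ Q := by
  classical
  obtain ⟨hB, he, hp⟩ := (isBrauerPairOf_iff hM).1 hQe
  have hQ := hp.pgroup
  have hTe := eq_stN hM he hT
  have hQC : Q ⊔ Cz Q ≤ T := hTe ▸ sup_Cz_le_stN hp.blk
  have hQT : Q ≤ T := le_sup_left.trans hQC
  have hCT : Cz Q ≤ T := le_sup_right.trans hQC
  have hTN : T ≤ Nz Q := fun t ht => ((hT t).1 ht).1
  have hn : (Q.subgroupOf T).Normal := (Subgroup.normal_subgroupOf_iff_le_normalizer hQT).2 hTN
  let π := QuotientGroup.mk' (Q.subgroupOf T)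
  have hπ : Function.Surjective π := QuotientGroup.mk'_surjective _
  obtain ⟨ψ, rfl⟩ := CfsgLib.Cover.exists_infl_eq π hπ (χ := χ) (fun g hg => by
    rw [QuotientGroup.ker_mk'] at hg
    exact hχQ g hg 1 g (by simp))
  have hψ : (charDegree ψ.1).factorization p =
      (Nat.card (T ⧸ Q.subgroupOf T)).factorization p := by
    rw [CfsgLib.Cover.charDegree_infl, factorization_card_eq_add (Q.subgroupOf T),
      Nat.card_congr (Subgroup.subgroupOfEquivOfLe hQT).toEquiv, add_comm] at hdeg
    exact Nat.add_left_cancel hdeg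
  have hb := isPBlock_blockOf (M := M) ψ
  have hd := (isDefectGroup_bot_iff hM hb).2
    ((blockDefect_eq_zero_iff hM hb (mem_blockOf_self hM ψ)).2 hψ)
  constructor
  · let κ : Cz Q →* T ⧸ Q.subgroupOf T := π.comp (Subgroup.inclusion hCT)
    have hκn : κ.range.Normal := by
      have h1 : ((Cz Q).subgroupOf T).Normal :=
        (Subgroup.normal_subgroupOf_iff_le_normalizer hCT).2 (hTN.trans (Nz_le_Nz_Cz Q))
      have h2 : κ.range = ((Cz Q).subgroupOf T).map π := by
        rw [MonoidHom.range_comp, Subgroup.inclusion_range]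
      rw [h2]
      exact h1.map π hπ
    obtain ⟨θ, hθ⟩ := CfsgLib.Cover.exists_under κ.range ψ
    have hcov : CfsgLib.Cover.Covers κ.range (blockOf M ψ.1) (blockOf M θ.1) :=
      ⟨ψ, mem_blockOf_self hM ψ, θ, mem_blockOf_self hM θ, hθ⟩
    have h1 := CfsgLib.Cover.card_inf_eq_of_covers κ.range hM hb (isPBlock_blockOf θ) hcov hd
    rw [bot_inf_eq, Subgroup.card_bot, eq_comm, Nat.pow_eq_one,
      or_iff_right (Fact.out : p.Prime).one_lt.ne',
      blockDefect_eq_zero_iff hM (isPBlock_blockOf θ) (mem_blockOf_self hM θ)] at h1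
    let η := CfsgLib.Cover.infl κ.rangeRestrict κ.rangeRestrict_surjective θ
    have hker : κ.ker = (Q ⊓ Cz Q).subgroupOf (Cz Q) := by
      ext c
      rw [MonoidHom.mem_ker, Subgroup.mem_subgroupOf]
      change π _ = 1 ↔ _
      rw [QuotientGroup.mk'_apply, QuotientGroup.eq_one_iff, Subgroup.mem_subgroupOf]
      exact ⟨fun h => ⟨h, c.2⟩, fun h => h.1⟩
    have h2 := (CfsgLib.Cover.laradji hM ((hQ.to_le inf_le_left).comap_subtype) (le_center Q) η (by
      rw [CfsgLib.Cover.charDegree_infl, h1]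
      change ((Q ⊓ Cz Q).subgroupOf (Cz Q)).index.factorization p ≤ _
      rw [← hker, Subgroup.index_ker])).1
    have h3 := (CfsgLib.Cover.covers_in_iff hM hCT (hTN.trans (Nz_le_Nz_Cz Q)) hF'
      (isPBlock_blockOf η)).1 ⟨_, hχ, η, mem_blockOf_self hM η, by
        have := classInner_comp_of_surjective κ.rangeRestrict κ.rangeRestrict_surjective
          (fun n : κ.range => ψ.1 n) θ.1
        rw [← this] at hθ
        exact hθ⟩
    rw [sB_eq_of_coeff hM hCT hF'e] at h3
    rw [sB_inj hM he (isPBlock_blockOf η) ((isBlk_sB hM he).eq_of_mul_ne_zero (isCom_fixSub le_rfl)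
      (isBlk_sB hM (isPBlock_blockOf η)) h3)]
    exact h2
  · intro R hRT hR hRn
    have hn' : (R.subgroupOf T).Normal := (Subgroup.normal_subgroupOf_iff_le_normalizer hRT).2 hRn
    have hn'' := hn'.map π hπ
    have := (isBlk_eB hM hb).le_of_isDef le_rfl ((isDefectGroup_iff hM hb).1 hd)
      (Q := (R.subgroupOf T).map π) le_top (Subgroup.normalizer_eq_top _).ge
      (hR.comap_subtype.map π)
    intro x hx
    have h1 := this ⟨⟨x, hRT hx⟩, hx, rfl⟩
    rw [Subgroup.mem_bot, QuotientGroup.mk'_apply, QuotientGroup.eq_one_iff] at h1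
    exact h1

end Cfsg.Agent.S4694
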