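import Cfsg.Statements.S4696
import Cfsg.Agent.S4695

set_option autoImplicit false
open Cfsg

namespace Cfsg.Agent.S4696

open CfsgLib CfsgLib.Cyc CfsgLib.Char CfsgLib.Block CfsgLib.BrPair CfsgLib.Blk CfsgLib.Star

/-- Let p be a prime, M a maximal ideal of the algebraic integers containing p, and B a p-block of the finite group G whose defect group D is cyclic of order p^a with a ≥ 1. Let C = C_G(D), let b be a block of C inducing B, let T be the stabilizer of b in N_G(D) (the elements g of N_G(D) such that the g-conjugate of every member of b is again in b), and let e be the index of C in T (the inertial index of B). Then e divides p − 1, every irreducible character in B has height zero, and B is the disjoint union of a set X of e characters and a set Y of (p^a − 1)/e characters, the members of Y agreeing on p-regular elements, for which there are signs δ_χ = ±1 (χ ∈ X) and δ₀ = ±1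 such that: for every ψ ∈ Y and every p-regular g, δ₀ ψ(g) + Σ_{χ ∈ X} δ_χ χ(g) = 0; for all χ, χ' ∈ X the integers δ_χ χ(1) and δ_χ' χ'(1) are congruent modulo p^a; and for ψ ∈ Y and χ ∈ X, ψ(1) ≡ −e δ₀ δ_χ χ(1) modulo p^a. -/
theorem result {G : Type*} [Group G] [Finite G] (p : ℕ) [Fact p.Prime] (M : Ideal Cfsg.AlgInt) (hM : Cfsg.IsPModular p M) (D : Subgroup G) (hD : IsCyclic D) (a : ℕ) (ha : 1 ≤ a) (hDa : Nat.card D = p ^ a) (B : Set (Cfsg.IrrCharacter G)) (hB : Cfsg.IsPBlock M B) (hBD : Cfsg.IsDefectGroup p M B D) (b : Set (Cfsg.IrrCharacter (Subgroup.centralizer (D : Set G)))) (hind : Cfsg.IsInducedBlock M (Subgroup.centralizer (D : Set G)) b B) (T : Subgroup G) (hT : ∀ g : G, g ∈ T ↔ (g ∈ Subgroup.normalizer (D : Set G) ∧ ∀ θ ∈ b, ∀ θ' : Cfsg.IrrCharacter (Subgroup.centralizer (D : Set G)), (∀ h h' : Subgroup.centralizer (D : Set G), (h' : G) = g * h * g⁻¹ → (θ' : Subgroup.centralizer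 (D : Set G) → ℂ) h' = (θ : Subgroup.centralizer (D : Set G) → ℂ) h) → θ' ∈ b)) (e : ℕ) (he : (Subgroup.centralizer (D : Set G)).relIndex T = e) : e ∣ p - 1 ∧ (∀ χ ∈ B, Cfsg.blockHeight p B (χ : G → ℂ) = 0) ∧ ∃ X Y : Set (Cfsg.IrrCharacter G), B = X ∪ Y ∧ Disjoint X Y ∧ Nat.card X = e ∧ Nat.card Y = (p ^ a - 1) / e ∧ (∀ ψ ∈ Y, ∀ ψ' ∈ Y, ∀ g : G, ¬ p ∣ orderOf g → (ψ : G → ℂ) g = (ψ' : G → ℂ) g) ∧ ∃ (δ : Cfsg.IrrCharacter G → ℤ) (δ₀ : ℤ), (∀ χ ∈ X, δ χ = 1 ∨ δ χ = -1) ∧ (δ₀ = 1 ∨ δ₀ = -1) ∧ (∀ ψ ∈ Y, ∀ g : G, ¬ p ∣ orderOf g → (δ₀ : ℂ) * (ψ : G → ℂ) g + ∑ᶠ χ ∈ X, (δ χ : ℂ) * (χ : G → ℂ) g = 0) ∧ (∀ χ ∈ X, ∀ χ' ∈ X, δ χ * (Cfsg.charDegree (χ : G → ℂ) : ℤ) ≡ δ χ' * (Cfsg.charDegree (χ' : G → ℂ) : ℤ) [ZMOD (p : ℤ) ^ a]) ∧ (∀ ψ ∈ Y, ∀ χ ∈ X, (Cfsg.charDegree (ψ : G → ℂ) : ℤ) ≡ -((e : ℤ) * δ₀ * δ χ * (Cfsg.charDegree (χ : G → ℂ) : ℤ)) [ZMOD (p : ℤ) ^ a]) := by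
  classical
  have := Fintype.ofFinite G
  have : ∀ u : G, Fintype (Cu u) := fun u => Fintype.ofFinite _
  obtain rfl := S4695.eq_stN' hM hind.1 hT
  have h := maxPair_of_isInducedBlock hM hBD hind
  have hP := S4695.ne_bot hM.1 ha hDa
  have F := frob_of_isCyclic h hB hD
  obtain ⟨ε, δ, ζ, c, X, Y, S, E, hX, hc⟩ := exists_struct h hB hD hP
  change (Cz D).relIndex _ = e at he
  have hY := E.card_Y_mul F
  have he0 := F.fAct.relIndex_ne_zero
  rw [he] at hX hY he0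
  have hcong : ∀ χ ∈ X, ∀ χ' ∈ X, c χ * (Cfsg.charDegree (χ : G → ℂ) : ℤ) ≡
      c χ' * (Cfsg.charDegree (χ' : G → ℂ) : ℤ) [ZMOD (p : ℤ) ^ a] := by
    intro χ hχ χ' hχ'
    have h1 := card_dvd_of_reg hM (isGenChar_sub (isGenChar_vert _) (isGenChar_vert _))
      (reg_of_mem_regSpan hM hB (vert_sub_mem F S E hc (some ⟨χ', hχ'⟩) (some ⟨χ, hχ⟩))) h.pgroup
      (n := c χ' * Cfsg.charDegree (χ' : G → ℂ) - c χ * Cfsg.charDegree (χ : G → ℂ)) (by
        simp [vert, charDegree_eq (irr_isCharacter _)])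
    rw [hDa] at h1
    exact Int.modEq_iff_dvd.2 (by exact_mod_cast h1)
  refine ⟨he ▸ (cyc_gen h hD hP).1, fun χ hχ => height_zero F S E hc hP hχ, X, Y,
    Set.ext fun χ => by simpa using E.mem_iff χ, Finset.disjoint_coe.2 E.disj,
    by simpa using hX, ?_, fun ψ hψ ψ' hψ' => E.reg ψ hψ ψ' hψ', c, -δ, hc,
    by rcases E.sign with h | h <;> simp [h], fun ψ hψ g hg => ?_, hcong, fun ψ hψ χ hχ => ?_⟩
  · rw [← hDa, ← hY]
    simp [Nat.mul_div_cancel _ (Nat.pos_of_ne_zero he0)]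
  · rw [finsum_mem_coe_finset]
    simpa using E.rel ψ hψ g hg
  · have h1 := E.rel ψ hψ 1 (by simpa using hM.1.ne_one)
    simp only [← charDegree_eq (irr_isCharacter _)] at h1
    have h2 : -δ * (Cfsg.charDegree (ψ : G → ℂ) : ℤ) +
        ∑ ξ ∈ X, c ξ * (Cfsg.charDegree (ξ : G → ℂ) : ℤ) = 0 := by
      apply Int.cast_injective (α := ℂ)
      simpa using h1
    have h3 : ∑ ξ ∈ X, c ξ * (Cfsg.charDegree (ξ : G → ℂ) : ℤ) ≡
        ∑ ξ ∈ X, c χ * (Cfsg.charDegree (χ : G → ℂ) : ℤ) [ZMOD (p : ℤ) ^ a] :=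
      Int.ModEq.sum fun ξ hξ => hcong ξ hξ χ hχ
    rw [Finset.sum_const, hX, nsmul_eq_mul] at h3
    have h4 := h3.mul_left δ
    have h5 : δ * δ = 1 := by rcases E.sign with h | h <;> simp [h]
    convert h4 using 1
    · linear_combination (-δ) * h2 - (Cfsg.charDegree (ψ : G → ℂ) : ℤ) * h5
    · ring

end Cfsg.Agent.S4696
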