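import Cfsg.Statements.S4697
import Cfsg.Agent.Lib.Cyc.Bound

set_option autoImplicit false
open Cfsg

namespace Cfsg.Agent.S4697

open CfsgLib.Cyc CfsgLib.Block

/-- Let p be a prime, M a maximal ideal of the algebraic integers containing p, and B a p-block of the finite group G with an abelian defect group D of order p^d. If D has rank 2 (its least number of generators is 2) then B contains at most p^d irreducible characters; if D has rank 3 then the number k of irreducible characters in B satisfies k^3 ≤ p^(5d). -/
theorem result {G : Type*} [Group G] [Finite G] (p : ℕ) [Fact p.Prime] (M : Ideal Cfsg.AlgInt) (hM : Cfsg.IsPModular p M) (B : Set (Cfsg.IrrCharacter G)) (hB : Cfsg.IsPBlock M B) (D : Subgroup G) (hBD : Cfsg.IsDefectGroup p M B D) (hab : IsMulCommutative D) (d : ℕ) (hDd : Nat.card D = p ^ d) : (Group.rank D = 2 → Nat.card B ≤ p ^ d) ∧ (Group.rank D = 3 → Nat.card B ^ 3 ≤ p ^ (5 * d)) := by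
  classical
  obtain ⟨S, hS, hS'⟩ := Group.rank_spec D
  have hcl : D = Subgroup.closure (D.subtype '' S) := by
    rw [← MonoidHom.map_closure, hS', ← MonoidHom.range_eq_map, Subgroup.range_subtype]
  have hc : ∀ a c : D, (a : G) * c = c * a := fun a c => congrArg Subtype.val (hab.is_comm.comm a c)
  refine ⟨fun h => ?_, fun h => ?_⟩
  · obtain ⟨a, c, -, rfl⟩ := Finset.card_eq_two.1 (hS.trans h)
    exact hDd ▸ card_le_of_two hM hB hBD (hc a c) (by simpa [Set.image_pair] using hcl)
  · obtain ⟨a, ha, hmax⟩ := S.exists_max_image orderOf (Finset.card_pos.1 (by omega))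
    obtain ⟨c, e, -, hce⟩ := Finset.card_eq_two.1
      ((Finset.card_erase_of_mem ha).trans (by rw [hS, h]))
    have h1 := card_mul_le_of_three hM hB hBD (hc a c) (hc a e) (hc c e) (by
      rw [← Finset.insert_erase ha, hce] at hcl
      simpa [Set.image_insert_eq] using hcl)
    have hp : IsPGroup p D := IsPGroup.of_card hDd
    have h2 : ∀ g : D, g ^ orderOf a = 1 := fun g => by
      have hg : g ∈ Subgroup.closure (S : Set D) := hS' ▸ Subgroup.mem_top g
      induction hg using Subgroup.closure_induction with
      | mem x hx =>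
        obtain ⟨i, hi⟩ := IsPGroup.iff_orderOf.1 hp x
        obtain ⟨j, hj⟩ := IsPGroup.iff_orderOf.1 hp a
        have := hmax x hx
        rw [hi, hj, Nat.pow_le_pow_iff_right (Fact.out : p.Prime).one_lt] at this
        rw [← orderOf_dvd_iff_pow_eq_one, hi, hj]
        exact pow_dvd_pow p this
      | one => exact one_pow _
      | mul x y _ _ hx hy =>
        rw [Commute.mul_pow (hab.is_comm.comm x y), hx, hy, mul_one]
      | inv x _ hx => rw [inv_pow, hx, inv_one]
    have h3 := Nat.le_of_dvd (pow_pos (orderOf_pos a) _)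
      (@card_dvd_exponent_pow_rank' D { (inferInstance : Group D) with mul_comm := hab.is_comm.comm }
        _ _ h2)
    change _ ≤ _ ^ Group.rank D at h3
    rw [h, hDd] at h3
    rw [Subgroup.orderOf_coe, hDd] at h1
    have h4 := Nat.pow_le_pow_left h1 3
    rw [mul_pow] at h4
    refine Nat.le_of_mul_le_mul_left ((Nat.mul_le_mul_right _ h3).trans (h4.trans (le_of_eq ?_)))
      (pow_pos hM.1.pos d)
    ring

end Cfsg.Agent.S4697
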