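import Cfsg.Statements.S4699
import Cfsg.Agent.Lib.Cyc.Tr

set_option autoImplicit false
open Cfsg

namespace Cfsg.Agent.S4699

open CfsgLib.Cyc CfsgLib.DefectOne

open scoped IsMulCommutative in
theorem exists_Y {G : Type*} [Group G] [Finite G] {F A : Type*} [Field F] [Ring A] [Algebra F A]
    (ρ : G →* A) (P : Subgroup G) [IsCyclic P] {w : G} (hw : Subgroup.zpowers w = P)
    (hnil : IsNilpotent (ρ w - 1)) :
    ∃ Y c : A, IsNilpotent Y ∧ (∀ g ∈ Subgroup.normalizer (P : Set G), Commute (ρ g) Y) ∧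
      (∀ u ∈ P, Commute (ρ u) c) ∧ (∀ a, (∀ u ∈ P, Commute (ρ u) a) → Commute Y a) ∧
      (ρ w - 1) ^ Nat.card P.normalizerMonoidHom.range = c * Y := by
  classical
  have : IsMulCommutative P := inferInstance
  let E := P.normalizerMonoidHom.range
  have := Fintype.ofFinite E
  let φ : MonoidAlgebra F P →ₐ[F] A := MonoidAlgebra.lift F A P (ρ.comp P.subtype)
  have hφ : ∀ u : P, φ (MonoidAlgebra.single u 1) = ρ u := fun u => by simp [φ]
  let w' : P := ⟨w, hw ▸ Subgroup.mem_zpowers w⟩
  let x : P → MonoidAlgebra F P := fun u => MonoidAlgebra.single u 1 - 1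
  have hx : ∀ u v : P, v ∈ Subgroup.zpowers u → x u ∣ x v := by
    intro u v hv
    obtain ⟨i, rfl⟩ := exists_pow_eq_of_mem_zpowers hv
    have := sub_dvd_pow_sub_pow (MonoidAlgebra.single u (1 : F)) 1 i
    simpa [x, MonoidAlgebra.single_pow] using this
  have hgen : ∀ v : P, v ∈ Subgroup.zpowers w' := by
    rintro ⟨v, hv⟩
    obtain ⟨i, rfl⟩ : v ∈ Subgroup.zpowers w := hw ▸ hv
    exact ⟨i, Subtype.ext (by simp [w'])⟩
  let Y₀ := ∏ σ : E, x (σ.1 w')
  obtain ⟨c, hc⟩ : Y₀ ∣ x w' ^ Nat.card E := by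
    rw [Nat.card_eq_fintype_card, ← Finset.card_univ, ← Finset.prod_const]
    refine Finset.prod_dvd_prod_of_dvd _ _ fun σ _ => hx _ _ ?_
    obtain ⟨i, hi⟩ := hgen (σ.1.symm w')
    refine ⟨i, ?_⟩
    simp only at hi ⊢
    rw [← map_zpow, hi, MulEquiv.apply_symm_apply]
  have hcom : ∀ a b, Commute (φ a) (φ b) := fun a b => (Commute.all a b).map φ
  have hxw : φ (x w') = ρ w - 1 := by simp only [x, map_sub, hφ, map_one, w']
  refine ⟨φ Y₀, φ c, ?_, fun g hg => ?_, fun u hu => hφ ⟨u, hu⟩ ▸ hcom _ _, fun a ha => ?_, ?_⟩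
  · obtain ⟨d, hd⟩ : x w' ∣ Y₀ := by
      simpa using Finset.dvd_prod_of_mem (fun σ : E => x (σ.1 w')) (Finset.mem_univ 1)
    rw [hd, map_mul]
    exact (hcom _ _).isNilpotent_mul_right (hxw ▸ hnil)
  · let τ : E := ⟨P.normalizerMonoidHom ⟨g, hg⟩, ⟨_, rfl⟩⟩
    let ψ : MonoidAlgebra F P →ₐ[F] MonoidAlgebra F P :=
      MonoidAlgebra.mapDomainAlgHom F F τ.1.toMonoidHom
    have h1 : ∀ a, ρ g * φ a * ρ g⁻¹ = φ (ψ a) := by
      intro a
      induction a using MonoidAlgebra.induction_on with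
      | of u =>
        simp only [MonoidAlgebra.of_apply, ψ, MonoidAlgebra.mapDomainAlgHom_apply,
          MonoidAlgebra.mapDomain_single, hφ, ← map_mul]
        rfl
      | add a b ha hb => simp only [map_add, mul_add, add_mul, ha, hb]
      | smul r a ha => simp only [map_smul, mul_smul_comm, smul_mul_assoc, ha]
    apply commute_of_conj_eq
    rw [h1, map_prod]
    congr 1
    refine Fintype.prod_equiv (Equiv.mulLeft τ) _ _ fun σ => ?_
    simp only [x, map_sub, map_one]
    simp [ψ]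
  · generalize Y₀ = y
    induction y using MonoidAlgebra.induction_on with
    | of u => exact (hφ u).symm ▸ ha u u.2
    | add a b h1 h2 => rw [map_add]; exact h1.add_left h2
    | smul r a h1 => rw [map_smul]; exact h1.smul_left r
  · rw [← hxw, ← map_pow, hc, map_mul, (hcom _ _).eq]

theorem card_range_le {G : Type*} [Group G] [Finite G] {p : ℕ} [hp : Fact p.Prime] (P : Sylow p G)
    (hcyc : IsCyclic P) {n : ℕ} (hn : n ≠ 0) (hPn : Nat.card P = p ^ n) :
    Nat.card (P : Subgroup G).normalizerMonoidHom.range ≤ p - 1 := by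
  have h1 : Nat.card (P : Subgroup G).normalizerMonoidHom.range ∣ p ^ (n - 1) * (p - 1) := by
    rw [← Nat.totient_prime_pow hp.out (Nat.pos_of_ne_zero hn), ← hPn, ← IsCyclic.card_mulAut]
    exact Subgroup.card_subgroup_dvd_card _
  have h2 : ¬ p ∣ Nat.card (P : Subgroup G).normalizerMonoidHom.range := by
    rw [← Subgroup.index_ker, Subgroup.normalizerMonoidHom_ker]
    intro h
    have hab : (P : Subgroup G) ≤ Subgroup.centralizer (P : Set G) := by
      intro x hx u hu
      exact congrArg Subtype.val (hcyc.commGroup.mul_comm (⟨u, hu⟩ : P) ⟨x, hx⟩)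
    exact P.not_dvd_index ((h.trans (Subgroup.relIndex_dvd_of_le_left _ hab)).trans
      (Subgroup.relIndex_dvd_index_of_le Subgroup.le_normalizer))
  have h3 := ((hp.out.coprime_iff_not_dvd.2 h2).symm.pow_right (n - 1)).dvd_of_dvd_mul_left h1
  exact Nat.le_of_dvd (Nat.sub_pos_of_lt hp.out.one_lt) h3

/-- Let p be a prime and G a finite group whose Sylow p-subgroup P is cyclic of order p^n with n ≥ 2 and meets every other Sylow p-subgroup trivially. Then every faithful irreducible representation of G on a finite-dimensional space over a finite field of characteristic p has dimension at least p^n − (p − 1). -/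
theorem result {G : Type*} [Group G] [Finite G] (p : ℕ) [Fact p.Prime] (P : Sylow p G) (hcyc : IsCyclic P) (n : ℕ) (hn : 2 ≤ n) (hPn : Nat.card P = p ^ n) (hTI : ∀ Q : Sylow p G, Q ≠ P → (P : Subgroup G) ⊓ (Q : Subgroup G) = ⊥) (F : Type*) [Field F] [Finite F] [CharP F p] (V : Type*) [AddCommGroup V] [Module F V] [FiniteDimensional F V] (ρ : Representation F G V) (hfaith : Function.Injective ρ) (hirr : ρ.IsIrreducible) : p ^ n - (p - 1) ≤ Module.finrank F V := by
  classical
  have hp : p.Prime := Fact.out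
  obtain ⟨w', hw'⟩ := hcyc.exists_generator
  set w : G := w'.1
  have hw : Subgroup.zpowers w = P := by
    refine le_antisymm (Subgroup.zpowers_le.2 w'.2) fun v hv => ?_
    obtain ⟨i, hi⟩ := hw' ⟨v, hv⟩
    exact ⟨i, by simpa using congrArg Subtype.val hi⟩
  have ho : orderOf w = p ^ n := by rw [← Nat.card_zpowers, hw, hPn]
  have hnt : Nontrivial V := by
    have := (Representation.irreducible_iff_isSimpleModule_asModule ρ).1 hirr
    exact IsSimpleModule.nontrivial (MonoidAlgebra F G) ρ.asModule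
  have hch : CharP (Module.End F V) p := charP_of_injective_algebraMap' F p
  have hpow : ∀ m, (ρ w - 1) ^ p ^ m = ρ (w ^ p ^ m) - 1 := fun m => by
    rw [sub_pow_char_pow_of_commute p m (Commute.one_right _), one_pow, map_pow]
  have hnil : IsNilpotent (ρ w - 1) := ⟨p ^ n, by rw [hpow, ← ho, pow_orderOf_eq_one]; simp⟩
  obtain ⟨Y, c, hY, hYN, hc, hYc, hcY⟩ := exists_Y (F := F) ρ (P : Subgroup G) hw hnil
  have he := card_range_le P hcyc (by omega) hPn
  set e := Nat.card (P : Subgroup G).normalizerMonoidHom.range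
  set N := Subgroup.normalizer ((P : Subgroup G) : Set G) with hN
  have hPN : (P : Subgroup G) ≤ N := Subgroup.le_normalizer
  have hΘ : ∀ g, Commute (ρ g) (∑ q ∈ cos N ⊤, rt ρ N Y q) := fun g =>
    commute_sum_rt hYN _ fun q => by simp [mem_cos_top]
  obtain ⟨h, hh⟩ := exists_sum_rt_eq_tr hYN (P : Subgroup G) (cos N ⊤ \ cos N N)
    (fun q hq u hu => by
      simp only [Finset.mem_sdiff, mem_cos_top, true_and] at hq ⊢
      rwa [smul_mem_cos le_rfl (hPN hu)])
    (fun g hg u hu hm => by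
      simp only [Finset.mem_sdiff, mem_cos_top, true_and, mk_mem_cos le_rfl] at hg
      have h1 : g • P ≠ P := fun e => hg (Sylow.smul_eq_iff_mem_normalizer.1 e)
      have h2 : g⁻¹ * u * g ∈ (P : Subgroup G) := by
        have h3 : IsPGroup p (Subgroup.zpowers (g⁻¹ * u * g)) := by
          obtain ⟨k, hk⟩ := P.isPGroup' ⟨u, hu⟩
          refine IsPGroup.of_card_dvd_pow (n := k) ?_
          rw [Nat.card_zpowers, orderOf_dvd_iff_pow_eq_one]
          have : u ^ p ^ k = 1 := by simpa using congrArg Subtype.val hk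
          rw [show g⁻¹ * u * g = g⁻¹ * u * g⁻¹⁻¹ by simp, conj_pow, this]; simp
        have := (h3.inf_normalizer_sylow P)
        have h4 : g⁻¹ * u * g ∈ Subgroup.zpowers (g⁻¹ * u * g) ⊓ N :=
          ⟨Subgroup.mem_zpowers _, hm⟩
        exact (this.le h4).2
      have h3 : u ∈ (P : Subgroup G) ⊓ (g • P : Sylow p G) := ⟨hu, by
        change u ∈ ((g • P : Sylow p G) : Subgroup G)
        rw [Sylow.coe_subgroup_smul, Subgroup.mem_pointwise_smul_iff_inv_smul_mem]
        simpa using h2⟩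
      rwa [hTI _ h1, Subgroup.mem_bot] at h3)
  have hsum : ∑ q ∈ cos N ⊤, rt ρ N Y q = tr ρ P h + Y := by
    rw [← hh, ← Finset.sum_sdiff (cos_mono le_top), cos_self, Finset.sum_singleton, rt_mk hYN]
    simp
  have hx : ∀ u ∈ (P : Subgroup G), Commute (ρ u) (ρ w - 1) := fun u hu => by
    obtain ⟨i, rfl⟩ := exists_pow_eq_of_mem_zpowers (hw ▸ hu : u ∈ Subgroup.zpowers w)
    rw [map_pow]
    exact ((Commute.refl _).sub_right (Commute.one_right _)).pow_left i
  obtain ⟨h', hh'⟩ : ∃ h', (ρ w - 1) ^ e = tr ρ P h' := by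
    rw [hsum] at hΘ
    rcases Representation.IsIrreducible.bijective_or_eq_zero
      (LinearMap.intertwiningMap_of_isIntertwiningMap ρ ρ (tr ρ P h + Y)
        fun g v => (congrArg (fun f => f v) (hΘ g).eq).symm) with hb | hb
    · have hu : IsUnit (tr ρ P h + Y) := (Module.End.isUnit_iff _).2 hb
      have hcm : Commute (-Y) (tr ρ P h + Y) := (hYc _ fun u _ => hΘ u).neg_left
      obtain ⟨a, ha⟩ : IsUnit (tr ρ P h) := by
        simpa using hY.neg.isUnit_add_left_of_commute hu hcm
      refine ⟨(ρ w - 1) ^ e * (a⁻¹ : _ˣ) * h, ?_⟩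
      rw [tr_mul_left ρ _ fun u hu => ((hx u hu).pow_right e).mul_right
        (show Commute (ρ u) a from ha ▸ commute_tr ρ _ h hu).units_inv_right, ← ha,
        Units.inv_mul_cancel_right]
    · have h0 : tr ρ P h + Y = 0 := congrArg Representation.IntertwiningMap.toLinearMap hb
      refine ⟨-c * h, ?_⟩
      rw [tr_mul_left ρ _ fun u hu => (hc u hu).neg_right, hcY, eq_neg_of_add_eq_zero_right h0]
      simp
  rw [← hw, tr_zpowers_eq ρ (p := p) (CharP.cast_eq_zero _ _) ho] at hh'
  obtain ⟨l, hl1, hl2⟩ : ∃ l, (ρ w - 1) ^ l ≠ 0 ∧ (ρ w - 1) ^ (l + 1) = 0 := by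
    have h0 := Nat.find_spec hnil
    have h1 : Nat.find hnil ≠ 0 := fun e => by simp [e] at h0
    exact ⟨Nat.find hnil - 1, Nat.find_min hnil (by omega), by rwa [Nat.sub_add_cancel (by omega)]⟩
  have hz : ∀ m, l < m → (ρ w - 1) ^ m = 0 := fun m hm => pow_eq_zero_of_le hm hl2
  have hd : l < Module.finrank F V := by
    by_contra hlt
    have := LinearMap.aeval_self_charpoly (ρ w - 1)
    rw [(LinearMap.isNilpotent_iff_charpoly _).1 hnil, Polynomial.aeval_X_pow] at this
    exact hl1 (pow_eq_zero_of_le (not_lt.1 hlt) this)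
  have hpl : p ≤ l := by
    by_contra hlt
    have := hz p (not_le.1 hlt)
    rw [← pow_one p, hpow, sub_eq_zero, ← map_one ρ] at this
    have h2 := orderOf_dvd_of_pow_eq_one (hfaith this)
    rw [ho, Nat.pow_dvd_pow_iff_le_right hp.one_lt] at h2
    omega
  by_contra hlt
  apply hl1
  rw [show l = (l - e) + e by omega, pow_add, hh', Finset.mul_sum]
  refine Finset.sum_eq_zero fun i _ => ?_
  by_cases hi : e < i
  · rw [← mul_assoc, ← mul_assoc, ← pow_add, hz _ (by omega), zero_mul, zero_mul]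
  · rw [hz (p ^ n - 1 - i) (by omega), mul_zero, mul_zero]

end Cfsg.Agent.S4699
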