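import Mathlib
import Cfsg.Statements.S4708
import Cfsg.Agent.Lib.Cover.Graded

set_option autoImplicit false
open Cfsg

namespace Cfsg.Agent.S4708

open CfsgLib CfsgLib.Cover CfsgLib.Block CfsgLib.Char Finset
open scoped ComplexConjugate Classical

theorem card_mul_blockCoeff_one {G : Type*} [Group G] [Finite G] (A : Set (IrrCharacter G)) :
    (Nat.card G : ℂ) * blockCoeff A 1 =
      ((∑ χ ∈ univ.filter (· ∈ A), charDegree (χ : G → ℂ) ^ 2 : ℕ) : ℂ) := by
  rw [blockCoeff, finsum_mem_irr', mul_inv_cancel_left₀ natCard_ne_zero, Nat.cast_sum]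
  refine sum_congr rfl fun χ _ => ?_
  rw [← charDegree_eq (irr_isCharacter χ), map_natCast, Nat.cast_pow, sq]

/-- Let p be a prime, M a maximal ideal of the algebraic integers containing p, G a finite group and H a normal subgroup. Write λ(X) for the sum of the squares of the degrees of the irreducible characters in the principal p-block of a group X. Then λ(H) ≤ λ(G) ≤ [G : H]·λ(H). -/
theorem result {G : Type*} [Group G] [Finite G] (p : ℕ) [Fact p.Prime] (M : Ideal Cfsg.AlgInt) (hM : Cfsg.IsPModular p M) (H : Subgroup G) [H.Normal] : (∑ᶠ θ ∈ Cfsg.principalBlock M H, Cfsg.charDegree (θ : H → ℂ) ^ 2) ≤ (∑ᶠ χ ∈ Cfsg.principalBlock M G, Cfsg.charDegree (χ : G → ℂ) ^ 2) ∧ (∑ᶠ χ ∈ Cfsg.principalBlock M G, Cfsg.charDegree (χ : G → ℂ) ^ 2) ≤ H.index * ∑ᶠ θ ∈ Cfsg.principalBlock M H, Cfsg.charDegree (θ : H → ℂ) ^ 2 := by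
  haveI := Fintype.ofFinite H
  have hcov : Covers H (principalBlock M G) (principalBlock M H) :=
    ⟨irrOne G, irrOne_mem_principalBlock hM, irrOne H, irrOne_mem_principalBlock hM, by
      rw [irrOne_coe, irrOne_coe, classInner_one_one]; exact one_ne_zero⟩
  rw [finsum_mem_irr', finsum_mem_irr']
  constructor
  · choose m hm using fun (χ : IrrCharacter G) (θ : IrrCharacter H) =>
      exists_classInner_eq_nat (isCharacter_restrict H (irr_isCharacter χ)) (irr_isCharacter θ)
    have h1 : ∀ χ : IrrCharacter G,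
        charDegree (χ : G → ℂ) = ∑ θ : IrrCharacter H, m χ θ * charDegree (θ : H → ℂ) := by
      intro χ
      have := classFun_apply_eq_sum (isClassFunction_restrict H (irr_isClassFunction χ)) 1
      simp only [hm, Subgroup.coe_one] at this
      apply Nat.cast_injective (R := ℂ)
      rw [charDegree_eq (irr_isCharacter χ), this, Nat.cast_sum]
      refine sum_congr rfl fun θ _ => ?_
      rw [Nat.cast_mul, charDegree_eq (irr_isCharacter θ)]
    calc ∑ θ ∈ univ.filter (· ∈ principalBlock M H), charDegree (θ : H → ℂ) ^ 2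
        ≤ ∑ θ ∈ univ.filter (· ∈ principalBlock M H),
            ∑ χ ∈ univ.filter (· ∈ principalBlock M G), (m χ θ * charDegree (θ : H → ℂ)) ^ 2 := by
          refine sum_le_sum fun θ hθ => ?_
          obtain ⟨χ, hχ, h⟩ := exists_over_of_covers H hM isPBlock_principalBlock
            isPBlock_principalBlock hcov (mem_filter.1 hθ).2
          refine le_trans ?_ (single_le_sum (f := fun χ => (m χ θ * charDegree (θ : H → ℂ)) ^ 2)
            (fun _ _ => Nat.zero_le _) (mem_filter.2 ⟨mem_univ _, hχ⟩))
          rw [hm, Nat.cast_ne_zero] at h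
          exact Nat.pow_le_pow_left (Nat.le_mul_of_pos_left _ (Nat.pos_of_ne_zero h)) 2
      _ ≤ _ := by
          rw [sum_comm]
          refine sum_le_sum fun χ _ => ?_
          rw [h1]
          exact (sum_le_sum_of_subset (filter_subset _ _)).trans
            (sum_sq_le_sq_sum_of_nonneg fun _ _ => Nat.zero_le _)
  · have hinv : ∀ g : G, ∀ θ ∈ principalBlock M H, conjIrr H g θ ∈ principalBlock M H := by
      intro g θ hθ
      have := sameBlock_conjIrr H g (θ := irrOne H) hθ
      rwa [conjIrr_irrOne] at this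
    have h1 := congrFun (extendByZero_blockCoeff_eq H hinv) 1
    rw [extendByZero_one] at h1
    have h2 : H.index * ∑ θ ∈ univ.filter (· ∈ principalBlock M H), charDegree (θ : H → ℂ) ^ 2 =
        ∑ χ ∈ univ.filter (· ∈ overSet H (principalBlock M H)), charDegree (χ : G → ℂ) ^ 2 := by
      apply Nat.cast_injective (R := ℂ)
      rw [Nat.cast_mul, ← card_mul_blockCoeff_one, ← card_mul_blockCoeff_one, h1, ← mul_assoc,
        ← Nat.cast_mul, H.index_mul_card]
      rfl
    rw [h2]
    refine sum_le_sum_of_subset fun χ hχ => mem_filter.2 ⟨mem_univ _, ?_⟩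
    exact exists_under_of_covers H hM isPBlock_principalBlock isPBlock_principalBlock hcov
      (mem_filter.1 hχ).2

end Cfsg.Agent.S4708
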