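import Cfsg.Statements.S4711
import Cfsg.Agent.S0938
import Cfsg.Agent.Lib.ChDeg.Broline
import Cfsg.Agent.Lib.PLen.Basic
import Cfsg.Agent.Lib.Block.Principal
import Cfsg.Agent.Lib.SolvStruct.Util

set_option autoImplicit false
open Cfsg

namespace Cfsg.Agent.S4711


open CfsgLib CfsgLib.Char CfsgLib.ChDeg Subgroup
open scoped ComplexConjugate

variable {G : Type*} [Group G] [Finite G] {p : ℕ} [hp : Fact p.Prime]

theorem norm_sup (h : PLengthLE p 1 G) (P : Sylow p G) :
    normalizer ((P : Subgroup G) : Set G) ⊔ pPrimeCore p G = ⊤ := by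
  have := PLen.pPrimePCore_normal' p G
  have h1 : ¬ p ∣ (pPrimePCore p G).index := by
    rw [PLen.plen_succ_iff, PLen.plen_zero_iff] at h
    rw [index_eq_card]
    exact (Nat.Prime.coprime_iff_not_dvd hp.out).1 h.symm
  have h2 : (P : Subgroup G) ≤ pPrimePCore p G :=
    SolvStruct.sylow_le_of_normal_of_not_dvd_index P.isPGroup' h1
  have h3 := frattini_rel h2 P.isPGroup' fun hd =>
    P.not_dvd_index (hd.trans (relIndex_dvd_index_of_le h2))
  have h4 : pPrimePCore p G ≤ (P : Subgroup G) ⊔ pPrimeCore p G := by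
    have h5 : pCore p (G ⧸ pPrimeCore p G) ≤ (P : Subgroup G).map (QuotientGroup.mk' _) :=
      Core.pCore_le_sylow (P.mapSurjective (QuotientGroup.mk'_surjective _))
    refine (comap_mono h5).trans ?_
    rw [comap_map_eq, QuotientGroup.ker_mk']
  rw [eq_top_iff, ← h3]
  exact sup_le le_sup_left (h4.trans (sup_le_sup_right le_normalizer _))

theorem sum_sylow (P : Sylow p G) [Fintype (P : Subgroup G)] {χ : G → ℂ} (hχ : IsCharacter G χ)
    (h : IsIrrCharacter (normalizer ((P : Subgroup G) : Set G))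
      fun n : normalizer ((P : Subgroup G) : Set G) => χ n)
    (hP : ¬ (P : Subgroup G) ≤ cker χ) : ∑ u : (P : Subgroup G), χ u = 0 := by
  set N := normalizer ((P : Subgroup G) : Set G)
  have := Fintype.ofFinite ((P : Subgroup G).subgroupOf N)
  have h1 := sum_coset_eq_zero h ((P : Subgroup G).subgroupOf N) (fun hle => hP fun u hu => by
    have h2 := hle (show (⟨u, le_normalizer hu⟩ : N) ∈ (P : Subgroup G).subgroupOf N from hu)
    rw [cker_res N hχ] at h2
    exact h2) 1
  rw [← h1]
  refine (Fintype.sum_equiv (subgroupOfEquivOfLe (le_normalizer : (P : Subgroup G) ≤ N)).toEquiv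
    _ _ fun x => ?_).symm
  simp [subgroupOfEquivOfLe]

/-- Let p be a prime, M a maximal ideal of the algebraic integers containing p, G a finite group, P a Sylow p-subgroup and N = N_G(P). Then G has p-length 1 (G = O_{p',p,p'}(G)) if and only if every irreducible character in the principal p-block of G restricts to an irreducible character of N. -/
theorem result {G : Type*} [Group G] [Finite G] (p : ℕ) [Fact p.Prime] (M : Ideal Cfsg.AlgInt) (hM : Cfsg.IsPModular p M) (P : Sylow p G) : Cfsg.PLengthLE p 1 G ↔ ∀ χ ∈ Cfsg.principalBlock M G, Cfsg.IsIrrCharacter ↥(Subgroup.normalizer ((P : Subgroup G) : Set G)) (fun n : ↥(Subgroup.normalizer ((P : Subgroup G) : Set G)) => (χ : G → ℂ) n) := by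
  classical
  constructor
  · intro h χ hχ
    refine isIrr_res_of_sup_cker χ.2 _ ?_
    rw [eq_top_iff, ← norm_sup h P]
    refine sup_le_sup_left (fun v hv => (mem_cker (irr_isCharacter χ)).2 ?_) _
    simpa using Block.principal_mul_of_mem_pPrimeCore hM hχ hv 1
  intro h
  have := Fintype.ofFinite (P : Subgroup G)
  have hB := Block.isPBlock_principalBlock (G := G) (M := M)
  obtain ⟨K, hK, hK1, hK2, -⟩ := S0938.result p M hM _ hB _ (Block.irrOne_mem_principalBlock hM)
  set S := Finset.univ.filter (· ∈ principalBlock M G)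
  have hS : ∀ f : IrrCharacter G → ℂ, ∑ᶠ χ ∈ principalBlock M G, f χ = ∑ χ ∈ S, f χ := fun f =>
    finsum_mem_eq_sum_of_inter_support_eq f (by simp [S])
  set L := normalClosure ((P : Subgroup G) : Set G)
  have key : ∀ g ∈ L, ¬ p ∣ orderOf g → ∑ χ ∈ S, (χ : G → ℂ) g * (χ : G → ℂ) 1 =
      ∑ χ ∈ S, if (P : Subgroup G) ≤ cker (χ : G → ℂ) then
        Nat.card (P : Subgroup G) * (χ : G → ℂ) 1 * (χ : G → ℂ) 1 else 0 := by
    intro g hg hg'
    have h1 : ∑ u : (P : Subgroup G), ∑ χ ∈ S, (χ : G → ℂ) g * conj ((χ : G → ℂ) u) =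
        ∑ χ ∈ S, (χ : G → ℂ) g * (χ : G → ℂ) 1 := by
      rw [Finset.sum_eq_single 1]
      · exact Finset.sum_congr rfl fun χ _ => by
          rw [OneMemClass.coe_one, conj_char_one (irr_isCharacter χ)]
      · intro u _ hu
        rw [← hS]
        refine Block.weak_block_orth hM hB hg' ?_
        obtain ⟨k, hk⟩ := (IsPGroup.iff_orderOf.1 P.isPGroup') u
        rw [orderOf_coe, hk]
        refine dvd_pow_self p fun e => hu ?_
        rw [e, pow_zero, orderOf_eq_one_iff] at hk; exact hk
      · simp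
    rw [← h1, Finset.sum_comm]
    refine Finset.sum_congr rfl fun χ hχ => ?_
    have hc := irr_isCharacter χ
    rw [← Finset.mul_sum, ← map_sum]
    split_ifs with hP
    · have h2 := sum_coset_of_le_cker hc _ hP 1
      simp only [mul_one] at h2
      have h3 : g ∈ cker (χ : G → ℂ) := normalClosure_le_normal hP hg
      rw [h2, map_mul, conj_char_one hc, (mem_cker hc).1 h3, map_natCast]; ring
    · rw [sum_sylow P hc (h χ (by simpa [S] using hχ)) hP]; simp
  have key2 : ∀ g ∈ L, ¬ p ∣ orderOf g → g ∈ K := by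
    intro g hg hg'
    have h1 := (key g hg hg').trans (key 1 L.one_mem (by
      rw [orderOf_one, Nat.dvd_one]; exact (Fact.out : p.Prime).ne_one)).symm
    have h2 : ∀ χ : IrrCharacter G, ((χ : G → ℂ) g).re ≤ charDegree (χ : G → ℂ) := fun χ =>
      (Complex.re_le_norm _).trans (norm_le_deg (irr_isCharacter χ) g)
    have h3 : ∑ χ ∈ S, ((charDegree (χ : G → ℂ) : ℝ) - ((χ : G → ℂ) g).re) *
        charDegree (χ : G → ℂ) = 0 := by
      have h4 := congrArg Complex.re h1
      simp only [← irr_deg_cast, Complex.re_sum, Complex.mul_re, Complex.natCast_re,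
        Complex.natCast_im, mul_zero, sub_zero] at h4
      simp only [sub_mul, Finset.sum_sub_distrib, h4, sub_self]
    rw [Finset.sum_eq_zero_iff_of_nonneg fun χ _ =>
      mul_nonneg (sub_nonneg.2 (h2 χ)) (Nat.cast_nonneg _)] at h3
    rw [← SetLike.mem_coe, hK1]
    intro χ hχ
    have h5 := h3 χ (by simpa [S] using hχ)
    have h6 : (charDegree (χ : G → ℂ) : ℝ) ≠ 0 := by exact_mod_cast (deg_pos χ.2).ne'
    have h7 : ((χ : G → ℂ) g).re = charDegree (χ : G → ℂ) := by
      have := (mul_eq_zero.1 h5).resolve_right h6; linarith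
    have h8 := norm_le_deg (irr_isCharacter χ) g
    rw [← irr_deg_cast]
    have h9 : ((χ : G → ℂ) g).im = 0 := by
      have h10 := Complex.sq_norm ((χ : G → ℂ) g)
      rw [Complex.normSq_apply, h7] at h10
      have h11 := norm_nonneg ((χ : G → ℂ) g)
      nlinarith [mul_self_nonneg ((χ : G → ℂ) g).im]
    apply Complex.ext <;> simp [h7, h9]
  refine PLen.plen_one_of_sylow_le P (le_normalClosure.trans ?_)
  refine PLen.le_pPrimePCore (N := L) (M := K)
    ((Nat.Prime.coprime_iff_not_dvd Fact.out).2 hK2).symm fun x hx => ?_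
  refine ⟨(orderOf x).factorization p, key2 _ (pow_mem hx _) ?_⟩
  rw [orderOf_pow_of_dvd (pow_ne_zero _ (Fact.out : p.Prime).ne_zero) (Nat.ordProj_dvd _ _)]
  exact Nat.not_dvd_ordCompl Fact.out (orderOf_pos x).ne'

end Cfsg.Agent.S4711
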