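import Cfsg.Statements.S4712
import Cfsg.Agent.Lib.Blk.Dec2
import Cfsg.Agent.Lib.Star.Main

set_option autoImplicit false
open Cfsg

namespace Cfsg.Agent.S4712

open MonoidAlgebra CfsgLib.Char CfsgLib.Block CfsgLib.Blk CfsgLib.ModRep CfsgLib.Star
open scoped ComplexConjugate

attribute [local implicit_reducible] CfsgLib.Block.K

theorem exists_gen {p a m : ℕ} (hp : p.Prime) (hodd : p ≠ 2) (hm : ¬ p ∣ m) :
    ∃ k₀ : ℕ, k₀.Coprime (p ^ a * m) ∧ k₀ ≡ 1 [MOD m] ∧ ∀ k : ℕ, k.Coprime (p ^ a * m) →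
      k ≡ 1 [MOD m] → ∃ j, k ≡ k₀ ^ j [MOD p ^ a * m] := by
  have hco : (p ^ a).Coprime m := ((Nat.Prime.coprime_iff_not_dvd hp).2 hm).pow_left a
  have := ZMod.isCyclic_units_of_prime_pow p hp hodd a
  have : NeZero (p ^ a) := ⟨pow_ne_zero a hp.ne_zero⟩
  obtain ⟨γ, hγ⟩ := IsCyclic.exists_generator (α := (ZMod (p ^ a))ˣ)
  obtain ⟨k₀, h1, h2⟩ := Nat.chineseRemainder hco (γ : ZMod (p ^ a)).val 1
  have h3 : (k₀ : ZMod (p ^ a)) = γ := by
    rw [(ZMod.natCast_eq_natCast_iff _ _ _).2 h1, ZMod.natCast_zmod_val]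
  refine ⟨k₀, Nat.Coprime.mul_right ?_ ?_, h2, fun k hk hk1 => ?_⟩
  · rw [← ZMod.isUnit_iff_coprime, h3]
    exact γ.isUnit
  · rw [Nat.Coprime, h2.gcd_eq, Nat.gcd_one_left]
  · obtain ⟨j, hj⟩ := mem_powers_iff_mem_zpowers.2
      (hγ (ZMod.unitOfCoprime k (Nat.Coprime.coprime_mul_right_right hk)))
    refine ⟨j, (Nat.modEq_and_modEq_iff_modEq_mul hco).1 ⟨?_, ?_⟩⟩
    · rw [← ZMod.natCast_eq_natCast_iff, Nat.cast_pow, h3, ← Units.val_pow_eq_pow_val]
      simp only at hj
      rw [hj, ZMod.coe_unitOfCoprime]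
    · exact hk1.trans (by simpa using (h2.pow j).symm)

variable {G : Type*} [Group G] [Fintype G] {p : ℕ} {M : Ideal AlgInt}

theorem exists_nat_comp {hM : IsPModular p M} (W : Wedd (K hM) (K hM)[G]) (φ : G ≃* G)
    (a b : Fin W.n) : ∃ n : ℕ, classInner (fun g => Proj W a (φ g)) (ibr W b) = n := by
  have hι : Function.Injective φ.symm.toMonoidHom := φ.symm.injective
  have hc : ∀ x, (CfsgLib.BrPair.emb φ.symm.toMonoidHom (JJ W a)).coeff x = (JJ W a).coeff (φ x) :=
    fun x => by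
      rw [← CfsgLib.BrPair.coeff_emb_apply hι (JJ W a) (φ x)]
      simp
  obtain ⟨n, -, hn⟩ := exists_pc_eq_sum W (e := CfsgLib.BrPair.emb φ.symm.toMonoidHom (JJ W a))
    (fun x => by rw [hc]; exact JJ_mem W a _) ((JJ_idem W a).map _)
  refine ⟨n b, ?_⟩
  rw [← classInner_sum_Proj_ibr W (fun a => (n a : ℂ)) b, ← hn]
  congr 1
  funext g
  simp only [Proj, pc, hc, map_mul, map_inv]
  exact (Equiv.sum_comp φ.toEquiv fun y => (JJ W a).coeff (y * (φ g)⁻¹ * y⁻¹)).symm

theorem pow_eq_self_of_reg (hp : p.Prime) {k : ℕ} (hk : k ≡ 1 [MOD ppr p G]) {c : G}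
    (hc : ¬ p ∣ orderOf c) : c ^ k = c := by
  have h1 : orderOf c ∣ ppr p G := by
    have h2 := orderOf_dvd_natCard c
    rw [card_eq_pow_mul_ppr (p := p)] at h2
    exact (((Nat.Prime.coprime_iff_not_dvd hp).2 hc).pow_left _).symm.dvd_of_dvd_mul_left h2
  conv_rhs => rw [← pow_one c]
  exact pow_eq_pow_iff_modEq.2 (hk.of_dvd h1)

theorem exists_nat_sec (hM : IsPModular p M) {B : Set (IrrCharacter G)} (hB : IsPBlock M B)
    {k : ℕ} (hk : k.Coprime (Nat.card G)) (hk1 : k ≡ 1 [MOD ppr p G]) {u : G} [Fintype (Cu u)]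
    (hu : ∃ n : ℕ, orderOf u = p ^ n) {b : Set (IrrCharacter (Cu u))} (hb : IsPBlock M b) :
    ∃ n : ℕ, ∑ χ ∈ bf B, mu p u b (fun g => (χ : G → ℂ) (g ^ k)) χ = n := by
  classical
  by_cases hind : IsInducedBlock M (Cu u) b B
  swap
  · refine ⟨0, Finset.sum_eq_zero (fun χ hχ => ?_) |>.trans Nat.cast_zero.symm⟩
    rw [mu, sp_eq_zero_of_not_induced hM hu hb hB hind (mem_bf.1 hχ), classInner_zero_right]
  obtain ⟨W⟩ := nonempty_wedd (K hM) (K hM)[Cu u]
  have key : ∀ a ∈ ib W b, ∃ n : ℕ,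
      classInner (sp p u b fun g => up p u (Proj W a) (g ^ k)) (ibr W a) = n := by
    intro a ha
    rw [sp, ← blockPart_reg hM hb, classInner_blockPart_comm,
      blockPart_of_mem_regSpan hM hb (ibr_mem_regSpan hb ha)]
    have hpow : ∀ c : Cu u, ¬ p ∣ orderOf c → (u * c) ^ k = u ^ k * c := fun c hc => by
      rw [Commute.mul_pow (mem_Cu.1 c.2),
        pow_eq_self_of_reg hM.1 hk1 (c := (c : G)) (by rwa [Subgroup.orderOf_coe])]
    have hco : k.Coprime (orderOf u) := hk.coprime_dvd_right (orderOf_dvd_natCard u)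
    by_cases hc : IsConj (u ^ k) u
    · obtain ⟨g, hg⟩ := isConj_iff.1 hc
      have hCu : Cu (u ^ k) = Cu u := by
        rw [Cu, Cu, ← Cz_zpowers, ← Cz_zpowers]
        congr 1
        refine Subgroup.eq_of_le_of_card_ge (Subgroup.zpowers_le.2 (Subgroup.npow_mem_zpowers u k)) ?_
        rw [Nat.card_zpowers, Nat.card_zpowers, hco.symm.orderOf_pow]
      have hN : g ∈ Subgroup.normalizer (Cu u : Set G) := by
        rw [Subgroup.mem_normalizer_iff]
        intro x
        conv_lhs => rw [← hCu]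
        conv_rhs => rw [← hg]
        rw [mem_Cu, mem_Cu]
        constructor
        · intro h
          calc _ = g * (u ^ k * x) * g⁻¹ := by group
            _ = _ := by rw [h]; group
        · intro h
          calc _ = g⁻¹ * (g * u ^ k * g⁻¹ * (g * x * g⁻¹)) * g := by group
            _ = _ := by rw [h]; group
      obtain ⟨n, hn⟩ := exists_nat_comp W ((Cu u).normalizerMonoidHom ⟨g, hN⟩) a a
      refine ⟨n, ?_⟩
      rw [← hn]
      congr 1
      funext c
      have ho : orderOf ((Cu u).normalizerMonoidHom ⟨g, hN⟩ c) = orderOf c :=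
        MulEquiv.orderOf_eq _ c
      by_cases hc' : p ∣ orderOf c
      · rw [pRegularPart_of_sing hc', Proj_of_sing W a (by rwa [ho])]
      · rw [pRegularPart_of_reg hc', sh_apply, hpow c hc', ← up_apply hM.1 hu
          (isClassFunction_Proj W a) (by rwa [ho]), ← isClassFunction_up u _ _ g]
        congr 1
        calc _ = (g * u ^ k * g⁻¹) * (g * c * g⁻¹) := by group
          _ = _ := by rw [hg]; rfl
    · refine ⟨0, ?_⟩
      rw [Nat.cast_zero, ← classInner_zero_left (ibr W a)]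
      congr 1
      funext c
      by_cases hc' : p ∣ orderOf c
      · rw [pRegularPart_of_sing hc', Pi.zero_apply]
      · rw [pRegularPart_of_reg hc', sh_apply, hpow c hc', Pi.zero_apply]
        refine up_eq_zero hM.1 hu _ (isPPart_mul ((Commute.pow_left (mem_Cu.1 c.2) k)) ?_ ?_) hc
        · rwa [hco.symm.orderOf_pow]
        · rwa [Subgroup.orderOf_coe]
  choose! n hn using key
  refine ⟨∑ a ∈ ib W b, n a, ?_⟩
  rw [Nat.cast_sum, ← Finset.sum_congr rfl hn]
  have h1 : ∀ χ : IrrCharacter G, mu p u b (fun g => (χ : G → ℂ) (g ^ k)) χ =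
      ∑ a ∈ ib W b, classInner (up p u (Proj W a)) χ *
        classInner (sp p u b fun g => (χ : G → ℂ) (g ^ k)) (ibr W a) := fun χ => by
    rw [mu]
    conv_lhs => rw [eq_sum_ibr_of_mem_regSpan (W := W) hb (sp_mem_regSpan u b (χ : G → ℂ))]
    rw [classInner_sum_right]
    refine Finset.sum_congr rfl fun a ha => ?_
    rw [classInner_smul_right, classInner_conj_symm,
      classInner_up_of_mem hM hb (Proj_mem_regSpan hb ha) (irr_isClassFunction χ)]
  simp only [h1]
  rw [Finset.sum_comm]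
  refine Finset.sum_congr rfl fun a ha => ?_
  conv_rhs => rw [← blockPart_up_of_mem hM hu hind (Proj_mem_regSpan hb ha), blockPart_bf]
  have h2 : (fun g => (∑ χ ∈ bf B, classInner (up p u (Proj W a)) (χ : G → ℂ) • (χ : G → ℂ))
      (g ^ k)) = ∑ χ ∈ bf B, classInner (up p u (Proj W a)) (χ : G → ℂ) •
        fun g => (χ : G → ℂ) (g ^ k) := by
    funext g
    simp [Finset.sum_apply]
  rw [h2, sp_sum, classInner_sum_left]
  refine Finset.sum_congr rfl fun χ _ => ?_
  rw [sp_smul, classInner_smul_left]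

open Classical in
theorem rank_le_fixed (hM : IsPModular p M) {B : Set (IrrCharacter G)} (hB : IsPBlock M B)
    {k : ℕ} (hk : k.Coprime (Nat.card G)) (hk1 : k ≡ 1 [MOD ppr p G]) :
    blockRank p B ≤ ((bf B).filter fun χ : IrrCharacter G =>
      (fun g => (χ : G → ℂ) (g ^ k)) = χ).card := by
  have : ∀ u : G, Fintype (Cu u) := fun u => Fintype.ofFinite _
  obtain ⟨X, hX⟩ := exists_isPReps p G
  have h1 : (((bf B).filter fun χ : IrrCharacter G =>
      (fun g => (χ : G → ℂ) (g ^ k)) = χ).card : ℂ) =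
      ∑ χ ∈ bf B, classInner (fun g => (χ : G → ℂ) (g ^ k)) χ := by
    rw [Finset.card_filter, Nat.cast_sum]
    refine Finset.sum_congr rfl fun χ _ => ?_
    rw [classInner_irr (isIrr_pow_of_coprime χ.2 hk) χ.2]
    split_ifs <;> simp
  have h2 : ∀ u ∈ X, ∃ n : ℕ, ∑ χ ∈ bf B, ∑ b ∈ blocks M (Cu u),
      mu p u b (fun g => (χ : G → ℂ) (g ^ k)) χ = n := fun u hu => by
    choose! n hn using fun (b : Set (IrrCharacter (Cu u))) (hb : b ∈ blocks M (Cu u)) =>
      exists_nat_sec hM hB hk hk1 (hX.1 u hu) (mem_blocks.1 hb)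
    exact ⟨∑ b ∈ blocks M (Cu u), n b, by
      rw [Finset.sum_comm, Nat.cast_sum, Finset.sum_congr rfl hn]⟩
  choose! n hn using h2
  have h3 : (1 : G) ∈ X := by
    obtain ⟨x, ⟨hx, hx1⟩, -⟩ := hX.2 1 ⟨0, by simp⟩
    rwa [isConj_one_right.1 hx1] at hx
  have h4 : (n 1 : ℂ) = blockRank p B := by
    rw [← hn 1 h3, blockRank_eq_sum_mm hM hB]
    refine Finset.sum_congr rfl fun χ _ => ?_
    rw [sum_mu_blocks hM (hX.1 1 h3) (isClassFunction_pow (irr_isClassFunction χ) k)
      (irr_isClassFunction χ), sectionPart_one_eq hM.1, mm]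
    congr 1
    funext g
    by_cases hg : p ∣ orderOf g
    · rw [pRegularPart_of_sing hg, pRegularPart_of_sing hg]
    · rw [pRegularPart_of_reg hg, pRegularPart_of_reg hg, pow_eq_self_of_reg hM.1 hk1 hg]
  have h5 : (((bf B).filter fun χ : IrrCharacter G =>
      (fun g => (χ : G → ℂ) (g ^ k)) = χ).card : ℂ) = ((∑ u ∈ X, n u : ℕ) : ℂ) := by
    rw [h1, Nat.cast_sum, ← Finset.sum_congr rfl hn, Finset.sum_comm]
    exact Finset.sum_congr rfl fun χ _ => (sum_sum_mu_blocks hM hX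
      (isClassFunction_pow (irr_isClassFunction χ) k) (irr_isClassFunction χ)).symm
  rw [Nat.cast_injective h5, ← Nat.cast_injective h4]
  exact Finset.single_le_sum (fun _ _ => Nat.zero_le _) h3

/-- Let p be an odd prime, M a maximal ideal of the algebraic integers containing p, G a finite group of order n with p-part p^a, and B a p-block of G. Call an irreducible character χ p-rational when χ(g^k) = χ(g) for every g and every k coprime to n with k ≡ 1 modulo n/p^a (χ is fixed by the Galois automorphisms fixing the roots of unity of order prime to p). Then the number of p-rational irreducible characters in B is at least the p-regular rank of B (the number of irreducible Brauer characters in B). -/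
theorem result {G : Type*} [Group G] [Finite G] (p : ℕ) [Fact p.Prime] (hodd : p ≠ 2) (M : Ideal Cfsg.AlgInt) (hM : Cfsg.IsPModular p M) (B : Set (Cfsg.IrrCharacter G)) (hB : Cfsg.IsPBlock M B) : Cfsg.blockRank p B ≤ Nat.card {χ : Cfsg.IrrCharacter G // χ ∈ B ∧ ∀ k : ℕ, Nat.Coprime k (Nat.card G) → k ≡ 1 [MOD Nat.card G / p ^ (Nat.card G).factorization p] → ∀ g : G, (χ : G → ℂ) (g ^ k) = (χ : G → ℂ) g} := by
  classical
  have : Fintype G := Fintype.ofFinite G
  obtain ⟨k₀, h1, h2, h3⟩ := exists_gen (a := (Nat.card G).factorization p) hM.1 hodd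
    (not_dvd_ppr (G := G) hM.1)
  rw [← card_eq_pow_mul_ppr] at h1 h3
  refine (rank_le_fixed hM hB h1 h2).trans ?_
  rw [← Nat.card_eq_finsetCard]
  refine Nat.card_le_card_of_injective (fun χ => ⟨χ.1, mem_bf.1 (Finset.mem_filter.1 χ.2).1,
    fun k hk hk1 g => ?_⟩) fun χ ψ h => Subtype.ext (Subtype.mk.inj h)
  have h4 := congrFun (Finset.mem_filter.1 χ.2).2
  obtain ⟨j, hj⟩ := h3 k hk hk1
  rw [pow_eq_pow_iff_modEq.2 (hj.of_dvd (orderOf_dvd_natCard g))]
  clear hj
  induction j with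
  | zero => simp
  | succ j ih => rw [pow_succ, pow_mul, h4, ih]

end Cfsg.Agent.S4712
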