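import Cfsg.Statements.S4713
import Cfsg.Agent.Lib.ChDeg.Ito

set_option autoImplicit false
open Cfsg

namespace Cfsg.Agent.S4713

/-- Let p be a prime and G a finite p-solvable group. Then G has a normal abelian Sylow p-subgroup if and only if the degree of every irreducible character of G is prime to p. -/
theorem result {G : Type*} [Group G] [Finite G] (p : ℕ) [Fact p.Prime] (hsolv : Cfsg.IsPSolvable p G) (P : Sylow p G) : ((P : Subgroup G).Normal ∧ IsMulCommutative P) ↔ ∀ χ : Cfsg.IrrCharacter G, ¬ p ∣ Cfsg.charDegree (χ : G → ℂ) := by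
  open CfsgLib CfsgLib.Char CfsgLib.ChDeg in
  constructor
  · rintro ⟨h1, h2⟩ χ
    exact PD.of_comm (P : Subgroup G) (Core.isMulCommutative_iff_forall.mp h2) P.not_dvd_index _ χ.2
  · intro h
    have h' : PD p G := fun χ hχ => h ⟨χ, hχ⟩
    refine ⟨?_, Core.isMulCommutative_iff_forall.mpr (h'.comm_of_pSolvable hsolv P.isPGroup')⟩
    rw [Core.sylow_normal_of_not_dvd_index_pCore (h'.not_dvd_index_pCore hsolv) P]
    infer_instance

end Cfsg.Agent.S4713
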