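import Mathlib
import Cfsg.Statements.S4714
import Cfsg.Agent.Lib.Cover.Twist

set_option autoImplicit false
open Cfsg

namespace Cfsg.Agent.S4714

open CfsgLib CfsgLib.Cover CfsgLib.Block in

/-- Let p be a prime, M a maximal ideal of the algebraic integers containing p, D a p-subgroup of the finite group G with G = D·C_G(D), and B a p-block with defect group D. Let χ be a member of B having D in its kernel (there is exactly one, the canonical character of B). Then the irreducible characters in B are exactly the functions θ on G for which there is an irreducible character ζ of D such that θ(yx) = ζ(y)χ(x) whenever y ∈ D, x has order prime to p and x commutes with y, and θ(z) = 0 whenever the p-part of z does not lie in D. -/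
theorem result {G : Type*} [Group G] [Finite G] (p : ℕ) [Fact p.Prime] (M : Ideal Cfsg.AlgInt) (hM : Cfsg.IsPModular p M) (D : Subgroup G) (hD : IsPGroup p D) (hG : D ⊔ Subgroup.centralizer (D : Set G) = ⊤) (B : Set (Cfsg.IrrCharacter G)) (hB : Cfsg.IsPBlock M B) (hBD : Cfsg.IsDefectGroup p M B D) (χ : Cfsg.IrrCharacter G) (hχ : χ ∈ B) (hχD : ∀ y ∈ D, (χ : G → ℂ) y = (χ : G → ℂ) 1) : (∀ θ : Cfsg.IrrCharacter G, θ ∈ B ↔ ∃ ζ : Cfsg.IrrCharacter D, (∀ (y : D) (x : G), ¬ p ∣ orderOf x → Commute (y : G) x → (θ : G → ℂ) ((y : G) * x) = (ζ : D → ℂ) y * (χ : G → ℂ) x) ∧ (∀ z : G, (∀ y : G, Cfsg.IsPPart p z y → y ∉ D) → (θ : G → ℂ) z = 0)) ∧ ∀ ζ : Cfsg.IrrCharacter D, ∃ θ ∈ B, (∀ (y : D) (x : G), ¬ p ∣ orderOf x → Commute (y : G) x → (θ : G → ℂ) ((y : G) * x) = (ζ : D → ℂ) y * (χ : G → ℂ) x) ∧ (∀ z : G, (∀ y : G, Cfsg.IsPPart p z y → y ∉ D) → (θ : G → ℂ) z = 0) := by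
  haveI := Fintype.ofFinite D
  have hp := hM.1
  have key : ∀ ζ : IrrCharacter D, (∀ (y : D) (x : G), ¬ p ∣ orderOf x → Commute (y : G) x →
      (twistIrr hM hB hG hBD hχ hχD ζ : G → ℂ) ((y : G) * x) = (ζ : D → ℂ) y * (χ : G → ℂ) x) ∧
      (∀ z : G, (∀ y : G, IsPPart p z y → y ∉ D) →
        (twistIrr hM hB hG hBD hχ hχD ζ : G → ℂ) z = 0) := by
    intro ζ
    refine ⟨fun y x hx _ => twist_mul hp hD _ _ y hx (mem_Cz_of_not_dvd hp hD hG hx),
      fun z hz => ?_⟩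
    obtain ⟨y, hy⟩ := exists_isPPart hp z
    exact twist_eq_zero hp hD hG _ _ hy (hz y hy)
  refine ⟨fun θ => ⟨fun hθ => ?_, ?_⟩, fun ζ => ⟨_, twistIrr_mem hM hB hG hBD hχ hχD ζ, key ζ⟩⟩
  · obtain ⟨ζ, rfl⟩ := exists_twistIrr_eq hM hB hG hBD hχ hχD hθ
    exact ⟨ζ, key ζ⟩
  · rintro ⟨ζ, h1, h2⟩
    have : θ = twistIrr hM hB hG hBD hχ hχD ζ := by
      refine Subtype.ext (funext fun g => ?_)
      rcases twist_cases (P := D) hp g with ⟨s, y, hy, rfl⟩ | ⟨x, hx, hxD⟩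
      · have hc : Commute (s : G) y := BrPair.mem_Cz.1 (mem_Cz_of_not_dvd hp hD hG hy) s s.2
        exact (h1 s y hy hc).trans ((key ζ).1 s y hy hc).symm
      · have hz : ∀ y : G, IsPPart p g y → y ∉ D := fun y hy => isPPart_unique hp hx hy ▸ hxD
        exact (h2 g hz).trans ((key ζ).2 g hz).symm
    rw [this]
    exact twistIrr_mem hM hB hG hBD hχ hχD ζ

end Cfsg.Agent.S4714
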