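import Mathlib
import Cfsg.Statements.S4720
import Cfsg.Agent.Lib.Block.FrobSyl
-- import your own Cfsg.Agent.* helpers here

set_option autoImplicit false
open Cfsg

namespace Cfsg.Agent.S4720

open CfsgLib.Char CfsgLib.Block
open CfsgLib.BrPair (Ce)
open scoped ComplexConjugate

open Classical in
theorem col {G : Type*} [Group G] [Finite G] {p : ℕ} {M : Ideal AlgInt} (hM : IsPModular p M)
    {x y : G} (hx : ∃ k : ℕ, orderOf x = p ^ k) (hy : ∃ k : ℕ, orderOf y = p ^ k) :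
    ∑ χ ∈ Finset.univ.filter (· ∈ principalBlock M G), (χ : G → ℂ) x * conj ((χ : G → ℂ) y) =
      if IsConj y x then ∑ ψ ∈ Finset.univ.filter (· ∈ principalBlock M (Ce y)),
        (charDegree (ψ : Ce y → ℂ) : ℂ) ^ 2 else 0 := by
  split_ifs with h
  · have := sum_principal_mul_mul_conj_eq hM hy (y := 1) (y' := 1)
      (by rw [orderOf_one]; exact hM.1.one_lt.ne' ∘ Nat.dvd_one.1)
      (by rw [orderOf_one]; exact hM.1.one_lt.ne' ∘ Nat.dvd_one.1)
    simp only [OneMemClass.coe_one, mul_one] at this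
    simp only [← classFun_eq_of_isConj (irr_isClassFunction _) h, this,
      conj_char_one (irr_isCharacter _), charDegree_eq (irr_isCharacter _), sq]
  · have := block_orth_conj hM isPBlock_principalBlock (isPPart_self hM.1 hx)
      (isPPart_self hM.1 hy) fun h' => h h'.symm
    rwa [finsum_mem_irr'] at this

theorem sum_conj {G : Type*} [Group G] (N : Subgroup G) [Fintype N] (y : G) (f : G → ℂ) :
    ∑ n : N, f (n * y * (n : G)⁻¹) =
      Nat.card ↥(N ⊓ Ce y) * ∑ᶠ z ∈ {z | ∃ n ∈ N, n * y * n⁻¹ = z}, f z := by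
  letI : MulAction N G := MulAction.compHom G ((MulAut.conj (G := G)).comp N.subtype)
  have := sum_smul_eq_card_stabilizer_mul (N := N) y f
  refine this.trans ?_
  symm
  congr 1
  · rw [Nat.cast_inj, ← Nat.card_congr (Subgroup.subgroupOfEquivOfLe inf_le_left).toEquiv]
    congr 2
    ext n
    rw [Subgroup.mem_subgroupOf, MulAction.mem_stabilizer_iff]
    exact ⟨fun h => mul_inv_eq_iff_eq_mul.2 (Subgroup.mem_centralizer_singleton_iff.1 h.2),
      fun h => ⟨n.2, Subgroup.mem_centralizer_singleton_iff.2 (mul_inv_eq_iff_eq_mul.1 h)⟩⟩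
  · refine finsum_mem_congr (Set.ext fun z => ?_) fun _ _ => rfl
    exact ⟨fun ⟨n, hn, h⟩ => ⟨⟨n, hn⟩, h⟩, fun ⟨n, h⟩ => ⟨n, n.2, h⟩⟩

/-- Let p be a prime, M a maximal ideal of the algebraic integers containing p, P a p-subgroup of the finite group G, N a subgroup with P ≤ N ≤ N_G(P), and U a nonempty subset of P normalized by N such that an element of U and an element of P that are conjugate in G are already conjugate in N, and such that λ(C_G(y)) = w·#C_N(y) for every y ∈ U with one rational number w, where λ(X) denotes the sum of the squares of the degrees of the irreducible characters in the principal p-block of X. For a complex function θ on P and χ in the principal block of G put a_χ(θ) = #P⁻¹ Σ_{y ∈ P} χ(y) θ(y⁻¹). Then for generalized characters θ, η of P with θ vanishing outside U, Σ_χ a_χ(θ)·conj(a_χ(η)) = (w/#P²)·Σ_{y ∈ P} θ(y)·conj(Σ_{x ∈ N} η(x y x⁻¹)) (η extended by zero off P; the conjugates lie in P),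 the first sum over the principal p-block of G. -/
theorem result {G : Type*} [Group G] [Finite G] (p : ℕ) [Fact p.Prime] (M : Ideal Cfsg.AlgInt) (hM : Cfsg.IsPModular p M) (P : Subgroup G) (hP : IsPGroup p P) (N : Subgroup G) (hPN : P ≤ N) (hNN : N ≤ Subgroup.normalizer (P : Set G)) (U : Set G) (hUne : U.Nonempty) (hUP : U ⊆ (P : Set G)) (hUN : ∀ n ∈ N, ∀ u ∈ U, n * u * n⁻¹ ∈ U) (hfus : ∀ u ∈ U, ∀ g : G, g * u * g⁻¹ ∈ (P : Set G) → ∃ n ∈ N, n * u * n⁻¹ = g * u * g⁻¹) (w : ℚ) (hw : ∀ y ∈ U, ((∑ᶠ ψ ∈ Cfsg.principalBlock M ↥(Subgroup.centralizer ({y} : Set G)), Cfsg.charDegree (ψ : ↥(Subgroup.centralizer ({y} : Set G)) → ℂ) ^ 2) : ℚ) = w * Nat.card ↥(N ⊓ Subgroup.centralizer ({y} : Set G))) (θ η : ↥P → ℂ) (hθ : Cfsg.IsGeneralizedCharacter ↥P θ) (hη : Cfsg.IsGeneralizedCharacter ↥P η) (hθU : ∀ y : ↥P, (y : G) ∉ U → θ y = 0) : ∑ᶠ χ ∈ Cfsg.principalBlock M G, ((Nat.card ↥P : ℂ)⁻¹ * ∑ᶠ y : ↥P, (χ : G → ℂ) (y : G) * θ y⁻¹) * (starRingEnd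 ℂ) ((Nat.card ↥P : ℂ)⁻¹ * ∑ᶠ y : ↥P, (χ : G → ℂ) (y : G) * η y⁻¹) = ((w : ℂ) / ((Nat.card ↥P : ℂ) ^ 2)) * ∑ᶠ y : ↥P, θ y * (starRingEnd ℂ) (∑ᶠ x : ↥N, Cfsg.extendByZero P η ((x : G) * (y : G) * (x : G)⁻¹)) := by
  classical
  have := Fintype.ofFinite G
  have := Fintype.ofFinite P
  have := Fintype.ofFinite N
  rw [finsum_mem_irr']
  simp only [finsum_eq_sum_of_fintype]
  have hp : ∀ y : P, ∃ k : ℕ, orderOf (y : G) = p ^ k := fun y =>
    pElt_of_mem_isPGroup hM.1 hP y.2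
  have h1 : ∀ (χ : IrrCharacter G) (f : P → ℂ), ∑ y : P, (χ : G → ℂ) y * f y⁻¹ =
      ∑ y : P, conj ((χ : G → ℂ) y) * f y := fun χ f => by
    rw [← Equiv.sum_comp (Equiv.inv P)]
    simp only [Equiv.inv_apply, inv_inv, InvMemClass.coe_inv, char_inv (irr_isCharacter χ)]
  simp only [h1, map_mul, map_inv₀, map_natCast, map_sum, Complex.conj_conj]
  have h2 : ∀ χ : IrrCharacter G, ((Nat.card P : ℂ)⁻¹ * ∑ y : P, conj ((χ : G → ℂ) y) * θ y) *
      ((Nat.card P : ℂ)⁻¹ * ∑ z : P, (χ : G → ℂ) z * conj (η z)) =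
      ((Nat.card P : ℂ) ^ 2)⁻¹ * ∑ y : P, θ y * ∑ z : P, conj (η z) *
        ((χ : G → ℂ) z * conj ((χ : G → ℂ) y)) := fun χ => by
    rw [mul_mul_mul_comm, ← mul_inv, ← sq, Finset.sum_mul_sum]
    simp only [Finset.mul_sum]
    exact Finset.sum_congr rfl fun y _ => Finset.sum_congr rfl fun z _ => by ring
  simp only [h2]
  rw [← Finset.mul_sum, Finset.sum_comm, div_eq_mul_inv, mul_comm (w : ℂ), mul_assoc,
    Finset.mul_sum _ _ (w : ℂ)]
  congr 1
  refine Finset.sum_congr rfl fun y _ => ?_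
  by_cases hy : (y : G) ∈ U
  swap
  · simp [hθU y hy]
  rw [← Finset.mul_sum, Finset.sum_comm, mul_left_comm]
  congr 1
  simp only [← Finset.mul_sum, col hM (hp _) (hp y)]
  have h3 : ∑ ψ ∈ Finset.univ.filter (· ∈ principalBlock M (Ce (y : G))),
      (charDegree (ψ : Ce (y : G) → ℂ) : ℂ) ^ 2 = w * Nat.card ↥(N ⊓ Ce (y : G)) := by
    have := hw y hy
    rw [finsum_mem_irr'] at this
    exact_mod_cast this
  rw [h3, sum_conj N y (fun g => conj (extendByZero P η g)), ← mul_assoc]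
  simp only [mul_comm (conj (η _)), ite_mul, zero_mul]
  rw [← Finset.sum_filter, ← Finset.mul_sum]
  congr 1
  rw [← finsum_mem_coe_finset]
  refine finsum_mem_eq_of_bijOn Subtype.val ⟨fun z hz => ?_, Subtype.val_injective.injOn, ?_⟩
    fun z _ => by rw [CfsgLib.Char.extendByZero_coe]
  · obtain ⟨g, hg⟩ := isConj_iff.1 (Finset.mem_filter.1 hz).2
    obtain ⟨n, hn, h⟩ := hfus y hy g (hg ▸ z.2)
    exact ⟨n, hn, h.trans hg⟩
  · rintro z ⟨n, hn, rfl⟩
    exact ⟨⟨_, hUP (hUN n hn y hy)⟩, Finset.mem_filter.2 ⟨Finset.mem_univ _,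
      isConj_iff.2 ⟨n, rfl⟩⟩, rfl⟩

end Cfsg.Agent.S4720
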