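import Mathlib
import Cfsg.Statements.S4721
import Cfsg.Agent.Lib.Block.FrobSyl3
-- import your own Cfsg.Agent.* helpers here

set_option autoImplicit false
open Cfsg

namespace Cfsg.Agent.S4721

open CfsgLib.Char CfsgLib.Block

/-- Let p be a prime, M a maximal ideal of the algebraic integers containing p, and G a finite group with a nontrivial abelian Sylow p-subgroup P, N = N_G(P), C = C_G(P), such that N/C is cyclic of order 3, #P > 4, and C_G(y) ∩ N = C for every non-identity y ∈ P. Then the principal p-block is the disjoint union of a set X of exactly 3 characters containing the principal character and a set Y of (#P − 1)/3 characters, with signs a_χ = ±1 (χ ∈ X, a = 1 at the principal character) and δ = ±1 such that every χ ∈ X takes the value a_χ at every element whose p-part is a non-identity element of P, and there is a map ζ from the non-principal linear characters of P onto Y, constant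 on N-conjugacy classes, with ζ_ψ(z) = δ·Σ ψ'(y) over the N-orbit of ψ, for z with p-part y ≠ 1 in P. If moreover G has an involution lying in no proper normal subgroup of G, then exactly two of the three numbers −δ and a_χ (χ ∈ X non-principal) equal −1, and the product of the degrees of the two non-principal members of X and of any member of Y is a perfect square. -/
theorem result {G : Type*} [Group G] [Finite G] (p : ℕ) [Fact p.Prime] (M : Ideal Cfsg.AlgInt) (hM : Cfsg.IsPModular p M) (P : Sylow p G) (hab : IsMulCommutative P) (hP1 : Nat.card P ≠ 1) (hCN : (Subgroup.centralizer ((P : Subgroup G) : Set G)).relIndex (Subgroup.normalizer ((P : Subgroup G) : Set G)) = 3) (hcyc : ∃ g : G, g ∈ Subgroup.normalizer ((P : Subgroup G) : Set G) ∧ Subgroup.centralizer ((P : Subgroup G) : Set G) ⊔ Subgroup.zpowers g = Subgroup.normalizer ((P : Subgroup G) : Set G)) (hm2 : 3 + 1 < Nat.card P) (hfrob : ∀ y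 : G, y ∈ (P : Subgroup G) → y ≠ 1 → Subgroup.centralizer ({y} : Set G) ⊓ Subgroup.normalizer ((P : Subgroup G) : Set G) = Subgroup.centralizer ((P : Subgroup G) : Set G)) : ∃ (X Y : Set (Cfsg.IrrCharacter G)), Cfsg.principalBlock M G = X ∪ Y ∧ Disjoint X Y ∧ Nat.card X = 3 ∧ Nat.card Y = (Nat.card P - 1) / 3 ∧ (∃ χ₁ ∈ X, (χ₁ : G → ℂ) = fun _ => 1) ∧ ∃ (a : Cfsg.IrrCharacter G → ℤ) (δ : ℤ) (ζ : (↥(P : Subgroup G) →* ℂˣ) → Cfsg.IrrCharacter G), (δ = 1 ∨ δ = -1) ∧ (∀ χ ∈ X, (a χ = 1 ∨ a χ = -1) ∧ ∀ z y : G, Cfsg.IsPPart p z y → y ∈ (P : Subgroup G) → y ≠ 1 → (χ : G → ℂ) z = (a χ : ℂ)) ∧ (∀ ψ : ↥(P : Subgroup G) →* ℂˣ, ψ ≠ 1 → ζ ψ ∈ Y) ∧ (∀ η ∈ Y, ∃ ψ : ↥(P : Subgroup G) →* ℂˣ, ψ ≠ 1 ∧ ζ ψ = η) ∧ (∀ ψ ψ' : ↥(P : Subgroup G) →* ℂˣ, ψ ≠ 1 → (∃ n : G, n ∈ Subgroup.normalizer ((P : Subgroup G) : Set G) ∧ ∀ w w' : ↥(P : Subgroup G), (w' : G) = n * w * n⁻¹ → ψ' w' = ψ w) → ζ ψ' = ζ ψ) ∧ (∀ ψ : ↥(P : Subgroup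 G) →* ℂˣ, ψ ≠ 1 → ∀ (z : G) (y : ↥(P : Subgroup G)), Cfsg.IsPPart p z (y : G) → (y : G) ≠ 1 → (ζ ψ : G → ℂ) z = (δ : ℂ) * ∑ᶠ ψ' ∈ {ψ' : ↥(P : Subgroup G) →* ℂˣ | ∃ n : G, n ∈ Subgroup.normalizer ((P : Subgroup G) : Set G) ∧ ∀ w w' : ↥(P : Subgroup G), (w' : G) = n * w * n⁻¹ → ψ' w' = ψ w}, ((ψ' y : ℂˣ) : ℂ)) ∧ ((∃ t : G, orderOf t = 2 ∧ ∀ K : Subgroup G, K.Normal → t ∈ K → K = ⊤) → Nat.card {χ : Cfsg.IrrCharacter G // χ ∈ X ∧ (χ : G → ℂ) ≠ (fun _ => 1) ∧ a χ = -1} + (if δ = 1 then 1 else 0) = 2 ∧ ∀ η ∈ Y, IsSquare (Cfsg.charDegree (η : G → ℂ) * ∏ᶠ χ ∈ {χ : Cfsg.IrrCharacter G | χ ∈ X ∧ (χ : G → ℂ) ≠ fun _ => 1}, Cfsg.charDegree (χ : G → ℂ))) := by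
  classical
  have h : FrobSyl P := ⟨hab, hfrob⟩
  obtain ⟨δ, ζ, a, e⟩ := h.exists_isExc_zero hM hCN hm2
  have hc : (excY ζ).card * 3 + 1 = Nat.card P := hCN ▸ e.card_excY_mul h
  have hc1 := Nat.div_eq_of_eq_mul_left (by omega) (Nat.sub_eq_of_eq_add hc.symm)
  obtain ⟨hpm, hX3⟩ := e.exists_excX_eq hM h hCN
  refine ⟨excX M ζ, excY ζ, Set.ext fun χ => e.mem_iff,
    Finset.disjoint_coe.2 (disjoint_excX_excY ζ), by simpa using hX3, by rw [hc1]; simp,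
    ⟨_, e.one_mem_excX hM, rfl⟩, a, δ, ζ, e.sign, fun χ hχ => ⟨hpm χ hχ,
      fun z y hy hyP hy1 => ?_⟩, fun ψ hψ => mem_excY.2 ⟨ψ, hψ, rfl⟩, fun η hη => mem_excY.1 hη,
    fun ψ ψ' hψ hm => (e.eq_iff _ _ hψ (ne_one_of_mem_linOrb hψ hm)).2 hm, fun ψ hψ z y hy hy1 => ?_,
    fun ⟨t, ht, hK⟩ => ?_⟩
  · have hX := mem_excX.1 hχ
    rw [h.principal_eq hM hX.1 hy hyP hy1]
    exact e.val' χ hX.1 hX.2 ⟨y, hyP⟩ fun h0 => hy1 (congrArg Subtype.val h0)
  · rw [h.principal_eq hM (e.mem ψ hψ) hy y.2 hy1,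
      e.val ψ hψ y fun h0 => hy1 (congrArg Subtype.val h0), Int.cast_zero, zero_add]
    rfl
  obtain ⟨χ₂, χ₃, l, u, v, w, h21, h31, h23, hX, hl, hu, hv, hw, e1, e2, e3⟩ :=
    e.three_eqs hM h hCN hm2 ht
  have hne : ∀ (χ : IrrCharacter G) (u : ℤ), χ ≠ irrOne G → (χ : G → ℂ) t = u →
      u ≠ charDegree (χ : G → ℂ) := fun χ u h1 hu h0 =>
    h1 (Subtype.ext (irr_eq_one_of_charKer_eq_top χ.2 (hK _ (charKer_normal (irr_isClassFunction χ))
      ((mem_charKer (irr_isCharacter χ)).2 (by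
        rw [hu, h0, Int.cast_natCast, charDegree_eq (irr_isCharacter χ)])))))
  have hpos : ∀ χ : IrrCharacter G, (0 : ℤ) < charDegree (χ : G → ℂ) := fun χ => by
    exact_mod_cast Nat.pos_of_ne_zero (charDegree_ne_zero χ.2)
  have h2 := hpm χ₂ (by simp [hX])
  have h3 := hpm χ₃ (by simp [hX])
  obtain ⟨hs, hsq⟩ := arith_signs h2 h3 (by rcases e.sign with rfl | rfl <;> simp) (hpos _) (hpos _)
    (hpos _) e1 e2 e3 (hne _ _ h21 hu) (hne _ _ h31 hv)
    (hne _ _ ((mem_excX.1 (e.one_mem_excX hM)).2 l hl) hw)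
  have h1 : ∀ χ : IrrCharacter G, (χ : G → ℂ) = (fun _ => 1) ↔ χ = irrOne G := fun χ =>
    (Subtype.ext_iff (a1 := χ) (a2 := irrOne G)).symm
  have hset : {χ : IrrCharacter G | χ ∈ (excX M ζ : Set (IrrCharacter G)) ∧
      (χ : G → ℂ) ≠ fun _ => 1} = {χ₂, χ₃} := by
    ext χ
    simp only [Set.mem_setOf_eq, Finset.mem_coe, hX, Ne, h1, Set.mem_insert_iff,
      Set.mem_singleton_iff]
    constructor
    · tauto
    · rintro (rfl | rfl) <;> tauto
  refine ⟨?_, fun η hη => ?_⟩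
  · rw [Nat.card_congr (Equiv.subtypeEquivRight (q := (· ∈ ({χ₂, χ₃} : Finset _).filter (a · = -1)))
      fun χ => by
        rw [← and_assoc, Finset.mem_filter, ← Finset.mem_coe (s := {χ₂, χ₃}), Finset.coe_pair, ← hset]
        rfl), Nat.card_eq_fintype_card, Fintype.card_coe, Finset.card_filter, Finset.sum_pair h23]
    rcases h2 with h2 | h2 <;> rcases h3 with h3 | h3 <;> rcases e.sign with rfl | rfl <;>
      simp_all
  · rw [hset, finprod_mem_pair h23, ← Int.isSquare_natCast_iff]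
    have : charDegree (η : G → ℂ) = charDegree (ζ l : G → ℂ) := by
      rw [charDegree, charDegree, e.reg' hη (mem_excY.2 ⟨l, hl, rfl⟩)
        (by rw [orderOf_one]; exact hM.1.one_lt.ne' ∘ Nat.dvd_one.1)]
    rw [this, mul_comm]
    exact_mod_cast hsq

end Cfsg.Agent.S4721
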