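import Mathlib
import Cfsg.Statements.S4722
import Cfsg.Agent.Lib.Block.Pair
import Cfsg.Agent.S0944
import Cfsg.Agent.Lib.Char.Kernel
-- import your own Cfsg.Agent.* helpers here

set_option autoImplicit false
open Cfsg

namespace Cfsg.Agent.S4722

open CfsgLib.Char CfsgLib.Block
open scoped ComplexConjugate

theorem arith {ι : Type*} (S : Finset ι) (n d m : ι → ℤ) (hd : ∀ i ∈ S, 0 < d i) {e : ι}
    (he : e ∈ S) (hne : n e ≠ 0) (hde : d e = 1) (hme : m e = 1)
    (h1 : ∑ i ∈ S, (n i : ℚ) * (m i : ℚ) ^ 2 / d i = 0) (h2 : ∑ i ∈ S, (n i : ℚ) * d i = 0)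
    (h3 : ∑ i ∈ S, (n i : ℚ) * m i = 0)
    (h : ∀ i ∈ S, ∀ j ∈ S, 0 < n i → 0 < n j → i = j) : ∃ i ∈ S, i ≠ e ∧ m i = d i := by
  classical
  have hd' : ∀ i ∈ S, (0 : ℚ) < d i := fun i hi => by exact_mod_cast hd i hi
  obtain ⟨j, hj, hnj⟩ : ∃ j ∈ S, 0 < n j := by
    by_contra hcon
    push Not at hcon
    have := (Finset.sum_eq_zero_iff_of_nonpos fun i hi => mul_nonpos_of_nonpos_of_nonneg
      (by exact_mod_cast hcon i hi) (hd' i hi).le).1 h2 e he
    rw [hde] at this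
    exact hne (by exact_mod_cast (by simpa using this))
  set r : ℚ := m j / d j with hr
  have h4 : ∑ i ∈ S, (n i : ℚ) * (m i - r * d i) ^ 2 / d i = 0 := by
    have : ∀ i ∈ S, (n i : ℚ) * (m i - r * d i) ^ 2 / d i =
        (n i : ℚ) * (m i : ℚ) ^ 2 / d i - 2 * r * (n i * m i) + r ^ 2 * (n i * d i) := fun i hi => by
      have := (hd' i hi).ne'
      field_simp
      ring
    rw [Finset.sum_congr rfl this, Finset.sum_add_distrib, Finset.sum_sub_distrib,
      ← Finset.mul_sum, ← Finset.mul_sum, h1, h2, h3]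
    ring
  have h5 : ∀ i ∈ S, n i ≠ 0 → (m i : ℚ) = r * d i := fun i hi hni => by
    have := (Finset.sum_eq_zero_iff_of_nonpos fun i hi => by
      by_cases hij : i = j
      · subst hij
        have := (hd' i hi).ne'
        rw [hr, div_mul_cancel₀ _ this, sub_self]
        simp
      · have : n i ≤ 0 := not_lt.1 fun h0 => hij (h i hi j hj h0 hnj)
        exact div_nonpos_of_nonpos_of_nonneg (mul_nonpos_of_nonpos_of_nonneg
          (by exact_mod_cast this) (sq_nonneg _)) (hd' i hi).le).1 h4 i hi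
    rw [div_eq_zero_iff, mul_eq_zero, or_assoc] at this
    rcases this with h0 | h0 | h0
    · exact absurd (by exact_mod_cast h0) hni
    · exact sub_eq_zero.1 (pow_eq_zero_iff two_ne_zero |>.1 h0)
    · exact absurd h0 (hd' i hi).ne'
  have hr1 : r = 1 := by
    have := h5 e he hne
    rw [hde, hme] at this
    simpa using this.symm
  by_contra hcon
  push Not at hcon
  rw [Finset.sum_eq_single e (fun i hi hie => ?_) (fun h => absurd he h), hde] at h2
  · exact hne (by exact_mod_cast (by simpa using h2))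
  · by_cases hni : n i = 0
    · rw [hni]; simp
    · have := h5 i hi hni
      rw [hr1, one_mul] at this
      exact absurd (by exact_mod_cast this) (hcon i hi hie)

theorem subsingleton_of_not_two_le {α : Type*} [Finite α] (h : ¬ 2 ≤ Nat.card α) (a b : α) :
    a = b := by
  by_contra hab
  have : Nontrivial α := ⟨⟨a, b, hab⟩⟩
  exact h Finite.one_lt_card

/-- Let M be a maximal ideal of the algebraic integers containing 2, P a 2-subgroup of the finite group G, U a subset of P, and t an involution of G such that no element of U is inverted by any conjugate of t. Let θ be a generalized character of P vanishing outside U, and for χ in the principal 2-block B₀ put a_χ = #P⁻¹ Σ_{y ∈ P} χ(y) θ(y⁻¹). Then Σ_{χ ∈ B₀} a_χ χ(t)^2/χ(1) = 0, Σ_{χ ∈ B₀} a_χ χ(1) = 0 and Σ_{χ ∈ B₀} a_χ χ(t) = 0. If moreover #P⁻¹ Σ_{y ∈ P} θ(y) ≠ 0, then either at least two of the a_χ have positive real part and at least two have negative real part,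 or G has a proper normal subgroup containing O_2'(G) and t. -/
theorem result {G : Type*} [Group G] [Finite G] (M : Ideal Cfsg.AlgInt) (hM : Cfsg.IsPModular 2 M) (P : Subgroup G) (hP : IsPGroup 2 P) (U : Set G) (hUP : U ⊆ (P : Set G)) (t : G) (ht : orderOf t = 2) (hinv : ∀ u ∈ U, ∀ g : G, (g * t * g⁻¹) * u * (g * t * g⁻¹)⁻¹ ≠ u⁻¹) (θ : ↥P → ℂ) (hθ : Cfsg.IsGeneralizedCharacter ↥P θ) (hθU : ∀ y : ↥P, (y : G) ∉ U → θ y = 0) : (∑ᶠ χ ∈ Cfsg.principalBlock M G, ((Nat.card ↥P : ℂ)⁻¹ * ∑ᶠ y : ↥P, (χ : G → ℂ) (y : G) * θ y⁻¹) * (χ : G → ℂ) t ^ 2 / (χ : G → ℂ) 1 = 0) ∧ (∑ᶠ χ ∈ Cfsg.principalBlock M G, ((Nat.card ↥P : ℂ)⁻¹ * ∑ᶠ y : ↥P, (χ : G → ℂ) (y : G) * θ y⁻¹) * (χ : G → ℂ) 1 = 0) ∧ (∑ᶠ χ ∈ Cfsg.principalBlock M G, ((Nat.card ↥P : ℂ)⁻¹ * ∑ᶠ y : ↥P, (χ : G → ℂ) (y : G) * θ y⁻¹) * (χ : G → ℂ) t = 0) ∧ ((Nat.card ↥P : ℂ)⁻¹ * ∑ᶠ y : ↥P, θ y ≠ 0 → (2 ≤ Nat.card {χ : Cfsg.IrrCharacter G // χ ∈ Cfsg.principalBlock M G ∧ 0 < (((Nat.card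 ↥P : ℂ)⁻¹ * ∑ᶠ y : ↥P, (χ : G → ℂ) (y : G) * θ y⁻¹)).re} ∧ 2 ≤ Nat.card {χ : Cfsg.IrrCharacter G // χ ∈ Cfsg.principalBlock M G ∧ (((Nat.card ↥P : ℂ)⁻¹ * ∑ᶠ y : ↥P, (χ : G → ℂ) (y : G) * θ y⁻¹)).re < 0}) ∨ ∃ K : Subgroup G, K.Normal ∧ K ≠ ⊤ ∧ Cfsg.pPrimeCore 2 G ≤ K ∧ t ∈ K) := by
  classical
  have := Fintype.ofFinite G
  have := Fintype.ofFinite P
  rw [finsum_mem_irr', finsum_mem_irr', finsum_mem_irr']
  simp only [finsum_eq_sum_of_fintype]
  have ht2 := CfsgLib.Invol.mul_self_of_orderOf_two ht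
  have hB := isPBlock_principalBlock (M := M) (G := G)
  have key : ∀ F : IrrCharacter G → ℂ, (∀ y : P, (y : G)⁻¹ ∈ U →
      ∑ χ ∈ Finset.univ.filter (· ∈ principalBlock M G), (χ : G → ℂ) y * F χ = 0) →
      ∑ χ ∈ Finset.univ.filter (· ∈ principalBlock M G),
        ((Nat.card P : ℂ)⁻¹ * ∑ y : P, (χ : G → ℂ) y * θ y⁻¹) * F χ = 0 := fun F hF => by
    simp only [mul_assoc, ← Finset.mul_sum, Finset.sum_mul]
    rw [Finset.sum_comm, Finset.sum_eq_zero, mul_zero]
    intro y _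
    by_cases hy : (y : G)⁻¹ ∈ U
    · rw [← mul_zero (θ y⁻¹), ← hF y hy, Finset.mul_sum]
      exact Finset.sum_congr rfl fun χ _ => by ring
    · simp [hθU y⁻¹ hy]
  have hninv : ∀ y : P, (y : G)⁻¹ ∈ U → ∀ a, IsConj t a → a * y * a⁻¹ ≠ (y : G)⁻¹ := by
    intro y hy a ha h
    obtain ⟨g, rfl⟩ := isConj_iff.1 ha
    refine hinv _ hy g ?_
    have := congrArg (·⁻¹) h
    simpa only [mul_inv_rev, inv_inv, mul_assoc] using this
  have hp : ∀ y : P, IsPPart 2 (y : G) y := fun y =>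
    isPPart_self Nat.prime_two (pElt_of_mem_isPGroup Nat.prime_two hP y.2)
  have e1 := key (fun χ => (χ : G → ℂ) t ^ 2 / (χ : G → ℂ) 1) fun y hy => by
    rw [← sum_block_invol_eq_zero hM hB ht2 ht2 (hp y) (hninv y hy)]
    exact Finset.sum_congr rfl fun χ _ => by ring
  have e2 := key (fun χ => (χ : G → ℂ) 1) fun y hy => by
    have := block_orth hM hB (hp y) (isPPart_one (p := 2) (y := (1 : G)) (by simp)) fun h =>
      hninv y hy t (IsConj.refl t) (by rw [isConj_one_right.1 h.symm]; group)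
    rwa [finsum_mem_irr', inv_one] at this
  have e3 := key (fun χ => (χ : G → ℂ) t) fun y hy => by
    have := block_orth hM hB (hp y) (isPPart_self Nat.prime_two ⟨1, ht⟩) fun h =>
      hninv y hy y h.symm (by
        rw [mul_inv_cancel_right, inv_eq_of_mul_eq_one_right (mul_self_of_isConj ht2 h.symm)])
    rwa [finsum_mem_irr', CfsgLib.Invol.inv_of_orderOf_two ht] at this
  refine ⟨by simpa only [mul_div_assoc] using e1, e2, e3, fun h0 => ?_⟩
  have hint : ∀ χ : IrrCharacter G, ∃ n : ℤ,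
      (Nat.card P : ℂ)⁻¹ * ∑ y : P, (χ : G → ℂ) y * θ y⁻¹ = n := fun χ => by
    obtain ⟨n, hn⟩ := exists_classInner_eq_int
      (isGenChar_of_isCharacter (isCharacter_restrict P (irr_isCharacter χ))) hθ
    refine ⟨n, ?_⟩
    rw [← hn, classInner]
    simp only [genChar_inv hθ]
  choose n hn using hint
  choose m hm _ using fun χ : IrrCharacter G => Cfsg.Agent.S0944.result χ t ht
  have hn1 : n (irrOne G) ≠ 0 := fun h => h0 (by
    have := hn (irrOne G)
    simp only [irrOne_apply, one_mul, h, Int.cast_zero] at this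
    rw [← this, ← Equiv.sum_comp (Equiv.inv P)]
    rfl)
  simp only [hn, hm, ← charDegree_eq (irr_isCharacter _)] at e1 e2 e3 ⊢
  simp only [Complex.intCast_re, Int.cast_pos, Int.cast_lt_zero]
  have f1 : ∑ χ ∈ Finset.univ.filter (· ∈ principalBlock M G),
      (n χ : ℚ) * (m χ : ℚ) ^ 2 / ((charDegree (χ : G → ℂ) : ℤ) : ℚ) = 0 := by
    simp only [← mul_div_assoc] at e1
    exact_mod_cast e1
  have f2 : ∑ χ ∈ Finset.univ.filter (· ∈ principalBlock M G),
      (n χ : ℚ) * ((charDegree (χ : G → ℂ) : ℤ) : ℚ) = 0 := by exact_mod_cast e2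
  have f3 : ∑ χ ∈ Finset.univ.filter (· ∈ principalBlock M G), (n χ : ℚ) * (m χ : ℚ) = 0 := by
    exact_mod_cast e3
  have h1S : irrOne G ∈ Finset.univ.filter (· ∈ principalBlock M G) :=
    Finset.mem_filter.2 ⟨Finset.mem_univ _, irrOne_mem_principalBlock hM⟩
  have hd1 : ((charDegree (irrOne G : G → ℂ) : ℕ) : ℤ) = 1 := by
    rw [charDegree_eq_of_eq (n := 1) (by simp [irrOne_apply])]; rfl
  have hm1 : m (irrOne G) = 1 := by exact_mod_cast (hm (irrOne G)).symm.trans (irrOne_apply t)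
  have hd : ∀ χ ∈ Finset.univ.filter (· ∈ principalBlock M G),
      (0 : ℤ) < charDegree (χ : G → ℂ) := fun χ _ => by
    exact_mod_cast Nat.pos_of_ne_zero (charDegree_ne_zero χ.2)
  rw [or_iff_not_imp_left]
  intro hcon
  obtain ⟨χ, hχ, hχ1, hχt⟩ : ∃ χ ∈ Finset.univ.filter (· ∈ principalBlock M G),
      χ ≠ irrOne G ∧ m χ = charDegree (χ : G → ℂ) := by
    rcases not_and_or.1 hcon with h | h
    · exact arith _ n _ m hd h1S hn1 hd1 hm1 f1 f2 f3 fun i hi j hj h1 h2 =>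
        congrArg Subtype.val (subsingleton_of_not_two_le h ⟨i, (Finset.mem_filter.1 hi).2, h1⟩
          ⟨j, (Finset.mem_filter.1 hj).2, h2⟩)
    · refine arith _ (fun χ => - n χ) _ m hd h1S (neg_ne_zero.2 hn1) hd1 hm1 ?_ ?_ ?_
        fun i hi j hj h1 h2 => congrArg Subtype.val (subsingleton_of_not_two_le h
          ⟨i, (Finset.mem_filter.1 hi).2, neg_pos.1 h1⟩ ⟨j, (Finset.mem_filter.1 hj).2, neg_pos.1 h2⟩)
      · simp only [Int.cast_neg, neg_mul, neg_div, Finset.sum_neg_distrib, f1, neg_zero]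
      · simp only [Int.cast_neg, neg_mul, Finset.sum_neg_distrib, f2, neg_zero]
      · simp only [Int.cast_neg, neg_mul, Finset.sum_neg_distrib, f3, neg_zero]
  refine ⟨charKer (χ : G → ℂ), charKer_normal (irr_isClassFunction χ), fun h => hχ1
    (Subtype.ext (irr_eq_one_of_charKer_eq_top χ.2 h)), fun v hv => ?_, ?_⟩
  · rw [mem_charKer (irr_isCharacter χ), ← one_mul v,
      principal_mul_of_mem_pPrimeCore hM (Finset.mem_filter.1 hχ).2 hv]
  · rw [mem_charKer (irr_isCharacter χ), hm, hχt, Int.cast_natCast,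
      charDegree_eq (irr_isCharacter χ)]

end Cfsg.Agent.S4722
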