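import Mathlib
import Cfsg.Statements.S4723
import Cfsg.Agent.Lib.Cover.FongReynolds

set_option autoImplicit false
open Cfsg

namespace Cfsg.Agent.S4723

open CfsgLib CfsgLib.Cover CfsgLib.Block CfsgLib.Char in

/-- Let p be a prime, M a maximal ideal of the algebraic integers containing p, H a normal subgroup of the finite group G and b a p-block of H. Let T be the stabilizer of b in G. Then b contains a character θ of height zero whose own stabilizer in G (the elements g with θ(g h g⁻¹) = θ(h) for all h ∈ H) has index prime to p in T, i.e. contains a Sylow p-subgroup of T. -/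
theorem result {G : Type*} [Group G] [Finite G] (p : ℕ) [Fact p.Prime] (M : Ideal Cfsg.AlgInt) (hM : Cfsg.IsPModular p M) (H : Subgroup G) [H.Normal] (b : Set (Cfsg.IrrCharacter ↥H)) (hb : Cfsg.IsPBlock M b) (T : Subgroup G) (hT : (∀ g : G, g ∈ T ↔ ∀ θ ∈ b, ∀ θ' : Cfsg.IrrCharacter ↥H, (∀ h h' : ↥H, (h' : G) = g * h * g⁻¹ → (θ' : ↥H → ℂ) h' = (θ : ↥H → ℂ) h) → θ' ∈ b)) : ∃ θ ∈ b, Cfsg.blockHeight p b (θ : ↥H → ℂ) = 0 ∧ ∃ S : Subgroup G, S ≤ T ∧ (∀ g : G, g ∈ S ↔ (g ∈ T ∧ ∀ h h' : ↥H, (h' : G) = g * h * g⁻¹ → (θ : ↥H → ℂ) h' = (θ : ↥H → ℂ) h)) ∧ ¬ p ∣ S.relIndex T := by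
  haveI := Fintype.ofFinite H
  haveI := Fintype.ofFinite (H.subgroupOf T)
  have hp := hM.1
  have hHn := top_le_Nz H
  have hf := BrPair.isBlk_sB hM hb
  have hT' : T = BrPair.stab (BrPair.sB hM H b) := by
    ext g
    rw [hT, forall_conj_mem_iff hM hb (hHn (Subgroup.mem_top g))]
  have hfix : BrPair.Fixed T (BrPair.sB hM H b) := BrPair.fixed_iff_le_stab.2 hT'.le
  have hHT : H ≤ T := hT' ▸ BrPair.fixed_iff_le_stab.1 hf.mem.2
  have hTH : T ≤ BrPair.Nz H := le_top.trans hHn
  obtain ⟨P, hP⟩ := BrPair.exists_isDef p hHT hTH (hf.of_fixed hHT hfix)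
  obtain ⟨h1, S, hS, hSP⟩ := BrPair.IsDef.inf_of_stable le_rfl hHT hTH hTH hf hfix hP
  obtain ⟨e, he, h2⟩ := BrPair.exists_isPrim_br_mul_ne_zero (H := T) le_rfl P hP.br_ne
  obtain ⟨B, hB, rfl⟩ := BrPair.exists_sB hM he
  have h3 : BrPair.sB hM T B * BrPair.sB hM H b ≠ 0 := fun h => h2 (by
    rw [← BrPair.br_mul hP.pgroup (he.mem.2.mono hP.le) (hfix.mono hP.le), h, map_zero])
  obtain ⟨E, hE⟩ := exists_isDefectGroup hM hB
  have h4 := ((BrPair.isDefectGroup_iff_map hM hB).1 hE).card_le hP.le hP.pgroup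
    (left_ne_zero_of_mul h2)
  rw [Core.card_map_subtype, card_eq_pow_blockDefect hM hB hE] at h4
  obtain ⟨a, ha⟩ := hP.pgroup.exists_card_eq
  rw [ha, Nat.pow_le_pow_iff_right hp.one_lt] at h4
  have h5 := card_eq_pow_blockDefect hM hb
    ((BrPair.isDefectGroup_subgroupOf_iff hM hb inf_le_right).2 h1)
  rw [Core.card_subgroupOf_of_le inf_le_right] at h5
  obtain ⟨χ, hχ, h0⟩ := exists_blockHeight_eq_zero (p := p) (IsPBlock_nonempty hM hB)
  obtain ⟨θ, hθ, h6⟩ := exists_under_of_covers_hom hM (Subgroup.inclusion_injective hHT)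
    (range_inclusion_normal hHT hTH) hB hb ((covers_in_iff hM hHT hTH hB hb).2 h3) hχ
  rw [← classInner_comp_mulEquiv (Subgroup.subgroupOfEquivOfLe hHT)] at h6
  have h7 := ChDeg.index_inertia_mul_dvd (H.subgroupOf T) χ.2
    (isIrr_comp_mulEquiv (Subgroup.subgroupOfEquivOfLe hHT) θ.2) h6
  set I := inertia (H.subgroupOf T) fun x => (θ : H → ℂ) (Subgroup.subgroupOfEquivOfLe hHT x)
    with hI
  have h8 : charDegree (fun x => (θ : H → ℂ) (Subgroup.subgroupOfEquivOfLe hHT x)) =
      charDegree (θ : H → ℂ) := ChDeg.deg_congr (by rw [map_one])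
  rw [h8] at h7
  have h9 := (Nat.factorization_le_iff_dvd (mul_ne_zero Subgroup.index_ne_zero_of_finite
    (charDegree_ne_zero θ.2)) (charDegree_ne_zero χ.2)).2 h7 p
  rw [Nat.factorization_mul Subgroup.index_ne_zero_of_finite (charDegree_ne_zero θ.2),
    Finsupp.add_apply] at h9
  have h10 := factorization_charDegree_add_blockDefect (p := p) hχ
  have h11 := factorization_charDegree_add_blockDefect (p := p) hθ
  have h12 : (Nat.card T).factorization p ≤ (Nat.card (P ⊔ H : Subgroup G)).factorization p := by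
    rw [← Core.card_mul_relIndex_of_le hS.le, Nat.factorization_mul Nat.card_pos.ne'
      fun h : S.relIndex T = 0 => hS.not_dvd_relIndex (h ▸ dvd_zero p), Finsupp.add_apply,
      Nat.factorization_eq_zero_of_not_dvd hS.not_dvd_relIndex, add_zero]
    exact (Nat.factorization_le_iff_dvd Nat.card_pos.ne' Nat.card_pos.ne').2
      (Subgroup.card_dvd_of_le hSP) p
  have h13 := congrArg (fun n => n.factorization p) (Core.card_sup_mul_card_inf_of_normal P H)
  simp only [Nat.factorization_mul Nat.card_pos.ne' Nat.card_pos.ne', Finsupp.add_apply] at h13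
  rw [h5, ha, hp.factorization_pow, hp.factorization_pow, Finsupp.single_eq_same,
    Finsupp.single_eq_same] at h13
  refine ⟨θ, hθ, by omega, I.map T.subtype, Subgroup.map_subtype_le I, fun g => ?_, ?_⟩
  · constructor
    · rintro ⟨t, ht, rfl⟩
      refine ⟨t.2, fun h h' e => ?_⟩
      have := (mem_inertia' _).1 ht ⟨⟨h, hHT h.2⟩, h.2⟩
      refine Eq.trans (congrArg _ (Subtype.ext e)) this
    · rintro ⟨hg, h⟩
      exact ⟨⟨g, hg⟩, (mem_inertia' _).2 fun n => h _ _ rfl, rfl⟩
  · rw [Subgroup.relIndex, Subgroup.subgroupOf, Subgroup.comap_map_eq_self_of_injective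
      T.subtype_injective]
    intro h
    have := hp.factorization_pos_of_dvd Subgroup.index_ne_zero_of_finite h
    omega

end Cfsg.Agent.S4723
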