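import Cfsg.Statements.S4725
import Cfsg.Agent.Lib.Blk.Sub2

set_option autoImplicit false
open Cfsg

namespace Cfsg.Agent.S4725

open CfsgLib.Blk CfsgLib.Char CfsgLib.Block

/-- Let p be a prime, M a maximal ideal of the algebraic integers containing p, H a subgroup of the finite group G, and b a p-block of H inducing the p-block B of G, with b and B of the same defect. Then for every height-zero ζ ∈ b there is a height-zero χ ∈ B whose multiplicity in the character induced from ζ is not divisible by p. -/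
theorem result {G : Type*} [Group G] [Fintype G] (p : ℕ) [Fact p.Prime] (M : Ideal Cfsg.AlgInt) (hM : Cfsg.IsPModular p M) (H : Subgroup G) (b : Set (Cfsg.IrrCharacter ↥H)) (B : Set (Cfsg.IrrCharacter G)) (hind : Cfsg.IsInducedBlock M H b B) (hdef : Cfsg.blockDefect p b = Cfsg.blockDefect p B) (ζ : Cfsg.IrrCharacter ↥H) (hζ : ζ ∈ b) (hζ0 : Cfsg.blockHeight p b (ζ : ↥H → ℂ) = 0) : ∃ χ ∈ B, Cfsg.blockHeight p B (χ : G → ℂ) = 0 ∧ ∃ a : ℕ, Cfsg.classInner (Cfsg.indFun H (ζ : ↥H → ℂ)) (χ : G → ℂ) = (a : ℂ) ∧ ¬ p ∣ a := by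
  have := Fintype.ofFinite H
  have hp : p.Prime := Fact.out
  obtain ⟨χ, hχ, hχ0⟩ := exists_height_zero (p := p) (IsPBlock_nonempty hM hind.2.1)
  have hg := isGenChar_restrict H (isGenChar_of_isIrr χ.2)
  have hc := isCharacter_indFun H (irr_isCharacter ζ)
  have hg' := isGenChar_of_isCharacter hc
  have h1 : ¬ MemLocalIdeal M (aa p b ζ (fun h : H => (χ : G → ℂ) h) : ℂ) := by
    obtain ⟨n, hn, hn'⟩ := exists_aa_eq hM hζ hg
    rw [hn, hζ0, pow_zero, one_mul, li_intCast_iff hM, hn', li_wt_reg_iff_li_rb hM hind.1 hζ hg]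
    exact (not_li_rb_res_iff hM hind χ).2 ⟨hχ, hχ0⟩
  have h2 : mm p (ζ : H → ℂ) (fun h : H => (χ : G → ℂ) h) =
      mm p (χ : G → ℂ) (indFun H (ζ : H → ℂ)) := by
    rw [mm_comm (isGenChar_of_isIrr ζ.2) hg, mm, mm, classInner_indFun_right _ _
      (isClassFunction_pRegularPart (irr_isClassFunction χ)), pRegularPart_restrict]
  rw [aa_cast hζ hg, h2, hdef, ← aa_cast hχ hg', aa_eq_sum_inner hM hind.2.1 hχ hg'] at h1
  by_contra hcon
  apply h1
  refine li_sum hM fun η hη => ?_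
  rw [mem_bf] at hη
  obtain ⟨a, ha⟩ := exists_classInner_eq_nat hc (irr_isCharacter η)
  by_cases hη0 : blockHeight p B (η : G → ℂ) = 0
  · refine li_mul_left hM (lr_intCast hM _) ?_
    rw [ha, li_natCast_iff hM]
    by_contra hpa
    exact hcon ⟨η, hη, hη0, a, ha, hpa⟩
  · refine li_mul_right hM ?_ (by rw [ha]; exact lr_natCast hM a)
    rw [li_intCast_iff hM, aa_comm_irr]
    exact (dvd_pow_self _ hη0).trans (pow_height_dvd_aa hη (isGenChar_of_isIrr χ.2))

end Cfsg.Agent.S4725
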