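import Mathlib
import Cfsg.Statements.S4726
import Cfsg.Agent.Lib.Block.Defic
-- import your own Cfsg.Agent.* helpers here

set_option autoImplicit false
open Cfsg

namespace Cfsg.Agent.S4726

open CfsgLib CfsgLib.Block

/-- Let p be a prime, M a maximal ideal of the algebraic integers containing p, H a subgroup of the finite group G and b a p-block of H with defect group D₀ such that C_G(D₀) ≤ H. Then b induces a block of G, and for every block B of G induced by b there is a defect group D of B with Z(D) ≤ Z(D₀) ≤ D₀ ≤ D (as subgroups of G). In particular, if the defect groups of B are abelian then D₀ is a defect group of B. -/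
theorem result {G : Type*} [Group G] [Finite G] (p : ℕ) [Fact p.Prime] (M : Ideal Cfsg.AlgInt) (hM : Cfsg.IsPModular p M) (H : Subgroup G) (b : Set (Cfsg.IrrCharacter ↥H)) (hb : Cfsg.IsPBlock M b) (D₀ : Subgroup ↥H) (hD₀ : Cfsg.IsDefectGroup p M b D₀) (hC : Subgroup.centralizer ((D₀.map H.subtype : Subgroup G) : Set G) ≤ H) : Cfsg.InducedBlockDefined M H b ∧ ∀ B : Set (Cfsg.IrrCharacter G), Cfsg.IsInducedBlock M H b B → (∃ D : Subgroup G, Cfsg.IsDefectGroup p M B D ∧ (Subgroup.center ↥D).map D.subtype ≤ ((Subgroup.center ↥D₀).map D₀.subtype).map H.subtype ∧ ((Subgroup.center ↥D₀).map D₀.subtype).map H.subtype ≤ D₀.map H.subtype ∧ D₀.map H.subtype ≤ D) ∧ (∀ D : Subgroup G, Cfsg.IsDefectGroup p M B D → IsMulCommutative ↥D → Cfsg.IsDefectGroup p M B (D₀.map H.subtype)) := by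
  refine ⟨inducedBlockDefined_of_Cz_le hM hb hD₀ hC, fun B hB => ?_⟩
  obtain ⟨D, hD, h1, h2⟩ := exists_isDefectGroup_centric hM hB hD₀ hC
  refine ⟨⟨D, hD, ?_, Subgroup.map_mono (Subgroup.map_subtype_le _), h1⟩, fun D' hD' hab => ?_⟩
  · rintro _ ⟨z, hz, rfl⟩
    have h3 : (z : G) ∈ BrPair.Cz (D₀.map H.subtype) := fun x hx =>
      congrArg Subtype.val (Subgroup.mem_center_iff.1 hz ⟨x, h1 hx⟩)
    obtain ⟨w, hw, hwz⟩ := h2 ⟨z.2, h3⟩
    exact ⟨w, ⟨⟨w, hw⟩, Subgroup.mem_center_iff.2 fun g => Subtype.ext (Subtype.ext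
      (by simpa [← hwz] using h3 _ ⟨g, g.2, rfl⟩)), rfl⟩, hwz⟩
  · obtain ⟨x, rfl⟩ := exists_cS_of_isDefectGroup hM hB.2.1 hD' hD
    refine le_antisymm h1 (fun z hz => h2 ⟨hz, fun y hy => ?_⟩) ▸ hD
    obtain ⟨a, ha, rfl⟩ := hz
    obtain ⟨b, hb, rfl⟩ := h1 hy
    rw [← map_mul, ← map_mul]
    exact congrArg _ (congrArg Subtype.val (hab.is_comm.comm (⟨b, hb⟩ : D') ⟨a, ha⟩))

end Cfsg.Agent.S4726
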