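import Mathlib
import Cfsg.Statements.S4727
import Cfsg.Agent.Lib.Block.Flat
-- import your own Cfsg.Agent.* helpers here

set_option autoImplicit false
open Cfsg

namespace Cfsg.Agent.S4727

open CfsgLib CfsgLib.Block CfsgLib.BrPair CfsgLib.Char

attribute [local implicit_reducible] CfsgLib.Block.K

/-- Let p be a prime, π a set of primes containing p, M a maximal ideal of the algebraic integers containing p, and B a p-block of the finite group G with defect group D; let B₁ be the block of N_G(D) with defect group D that induces B (the Brauer correspondent of B). Suppose every element of O_π'(N_G(D)), the largest normal subgroup of N_G(D) whose order has no prime divisor in π, lies in the kernel of every member of B₁. If y is a p-element whose centralizer C has a normal Hall π'-subgroup (every element of C whose order has no prime divisor in π lies in O_π'(C)), then χ(y x) = χ(y) for every χ ∈ B and every x ∈ C whose order has no prime divisor in π. -/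
theorem result {G : Type*} [Group G] [Finite G] (p : ℕ) [Fact p.Prime] (M : Ideal Cfsg.AlgInt) (hM : Cfsg.IsPModular p M) (π : Set ℕ) (hpπ : p ∈ π) (B : Set (Cfsg.IrrCharacter G)) (hB : Cfsg.IsPBlock M B) (D : Subgroup G) (hBD : Cfsg.IsDefectGroup p M B D) (B₁ : Set (Cfsg.IrrCharacter ↥(Subgroup.normalizer (D : Set G)))) (hB₁ : Cfsg.IsInducedBlock M (Subgroup.normalizer (D : Set G)) B₁ B) (hB₁D : Cfsg.IsDefectGroup p M B₁ (D.subgroupOf (Subgroup.normalizer (D : Set G)))) (hker : ∀ n : ↥(Subgroup.normalizer (D : Set G)), n ∈ Cfsg.piCore {q | q ∉ π} ↥(Subgroup.normalizer (D : Set G)) → n ∈ Cfsg.blockKer B₁) (y : G) (hy : ∃ k : ℕ, orderOf y = p ^ k) (hC : ∀ x : ↥(Subgroup.centralizer ({y} : Set G)), (∀ q : ℕ, q.Prime → q ∣ orderOf x → q ∉ π) → x ∈ Cfsg.piCore {q | q ∉ π} ↥(Subgroup.centralizer ({y} : Set G))) : ∀ χ ∈ B, ∀ x : G, x ∈ Subgroup.centralizer ({y} : Set G) → (∀ q : ℕ, q.Prime → q ∣ orderOf x → q ∉ π) → (χ : G → ℂ) (y * x) = (χ : G → ℂ) y := by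
  classical
  intro χ hχ x hx hxπ
  have hQc := Core.isOrdClass_pi {q | q ∉ π}
  have hp : ∀ n, (∀ q : ℕ, q.Prime → q ∣ n → q ∈ {q | q ∉ π}) → ¬ p ∣ n :=
    fun n h h' => h p hM.1 h' hpπ
  have hyC : y ∈ Ce y := Subgroup.mem_centralizer_singleton_iff.2 rfl
  have hxy := Subgroup.mem_centralizer_singleton_iff.1 hx
  have key : ∀ C : Subgroup G, C = Cz (Subgroup.zpowers y) → ∀ z ∈ piCore {q | q ∉ π} C,
      ∀ b, IsInducedBlock M C b B → z ∈ blockKer b := by
    rintro _ rfl z hz b hb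
    exact (flat_of_isPair hM hQc hp hBD hB₁ hker (isPair_of_isInducedBlock hM
      (isPGroup_zpowers_of_pElt hM.1 hy) hb)).mem_blockKer hM hQc hp hb.1 hz
  have := Fintype.ofFinite (Ce y)
  have h1 := blockPart_eq_sum_induced hM hB (irr_isClassFunction χ)
    (⟨y, hyC⟩ * ⟨x, hx⟩ : Ce y) (isPPart_mul hxy.symm hy (hp _ hxπ))
  have h2 := blockPart_eq_sum_induced hM hB (irr_isClassFunction χ)
    (⟨y, hyC⟩ : Ce y) (isPPart_self hM.1 hy)
  rw [blockPart_irr_of_mem hχ] at h1 h2
  refine h1.trans (Eq.trans (Finset.sum_congr rfl fun b hb => ?_) h2.symm)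
  rw [blockPart_eq_sum, blockPart_eq_sum]
  refine Finset.sum_congr rfl fun θ hθ => ?_
  rw [show (⟨y, hyC⟩ * ⟨x, hx⟩ : Ce y) = ⟨x, hx⟩ * ⟨y, hyC⟩ from Subtype.ext hxy.symm,
    char_mul_of_eq_one (irr_isCharacter θ) (key _ (Ce_eq_Cz_zpowers y) _ (hC ⟨x, hx⟩ (by
      simpa using hxπ)) b (Finset.mem_filter.1 hb).2 θ (Finset.mem_filter.1 hθ).2)]

end Cfsg.Agent.S4727
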