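import Mathlib
import Cfsg.Statements.S4728
import Cfsg.Agent.Lib.Block.Flat
-- import your own Cfsg.Agent.* helpers here

set_option autoImplicit false
open Cfsg

namespace Cfsg.Agent.S4728

open CfsgLib CfsgLib.Block CfsgLib.BrPair CfsgLib.Char MonoidAlgebra

attribute [local implicit_reducible] CfsgLib.Block.K

/-- Let p be a prime, π a set of primes containing p, M a maximal ideal of the algebraic integers containing p, B a p-block of the finite group G with defect group D, and B₁ the block of N_G(D) with defect group D inducing B. Let D₀ be a p-subgroup, H₀ = D₀·C_G(D₀), and b a block of H₀ inducing B. Write O_π'(X) for the largest normal subgroup of X whose order has no prime divisor in π. Suppose that O_π'(C_G(D₀)) is a normal Hall π'-subgroup of C_G(D₀) (it contains every element of C_G(D₀) whose order has no prime divisor in π) and that every element of it lies in the kernel of every member of b. Then every element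 of O_π'(N_G(D)) lies in the kernel of every member of B₁. -/
theorem result {G : Type*} [Group G] [Finite G] (p : ℕ) [Fact p.Prime] (M : Ideal Cfsg.AlgInt) (hM : Cfsg.IsPModular p M) (π : Set ℕ) (hpπ : p ∈ π) (B : Set (Cfsg.IrrCharacter G)) (hB : Cfsg.IsPBlock M B) (D : Subgroup G) (hBD : Cfsg.IsDefectGroup p M B D) (B₁ : Set (Cfsg.IrrCharacter ↥(Subgroup.normalizer (D : Set G)))) (hB₁ : Cfsg.IsInducedBlock M (Subgroup.normalizer (D : Set G)) B₁ B) (hB₁D : Cfsg.IsDefectGroup p M B₁ (D.subgroupOf (Subgroup.normalizer (D : Set G)))) (D₀ : Subgroup G) (hD₀ : IsPGroup p D₀) (H₀ : Subgroup G) (hH₀ : H₀ = D₀ ⊔ Subgroup.centralizer (D₀ : Set G)) (b : Set (Cfsg.IrrCharacter ↥H₀)) (hb : Cfsg.IsInducedBlock M H₀ b B) (hcompl : ∀ x : ↥(Subgroup.centralizer (D₀ : Set G)), (∀ q : ℕ, q.Prime → q ∣ orderOf x → q ∉ π) → x ∈ Cfsg.piCore {q | q ∉ π} ↥(Subgroup.centralizer (D₀ : Set G))) (hkerb : ∀ x : ↥(Subgroup.centralizer (D₀ : Set G)),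 x ∈ Cfsg.piCore {q | q ∉ π} ↥(Subgroup.centralizer (D₀ : Set G)) → ∀ θ ∈ b, ∀ h : ↥H₀, (h : G) = (x : G) → (θ : ↥H₀ → ℂ) h = (θ : ↥H₀ → ℂ) 1) : ∀ n : ↥(Subgroup.normalizer (D : Set G)), n ∈ Cfsg.piCore {q | q ∉ π} ↥(Subgroup.normalizer (D : Set G)) → n ∈ Cfsg.blockKer B₁ := by
  intro n hn
  have hQc := Core.isOrdClass_pi {q | q ∉ π}
  have hp : ∀ n, (∀ q : ℕ, q.Prime → q ∣ n → q ∈ {q | q ∉ π}) → ¬ p ∣ n :=
    fun n h h' => h p hM.1 h' hpπ
  obtain ⟨hb', -, hI⟩ := (isInducedBlock_iff hM).1 hb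
  have hC : Cz D₀ ≤ H₀ := hH₀ ▸ le_sup_right
  have hD : D₀ ≤ H₀ := hH₀ ▸ le_sup_left
  have ha := isBlk_sB hM hb'
  obtain ⟨f, hf⟩ := exists_isPair le_rfl ha.mem ha.idem hD hD₀ (by
    rw [br_eq_self_of_normal le_rfl hD (hH₀ ▸ sup_le Subgroup.le_normalizer (Cz_le_Nz _)) hD₀ ha.mem
      ha.idem]
    exact ha.ne)
  have hf' := hI.isPair_of_isPair le_top (inf_le_right.trans hC) ha (isBlk_eB hM hB) hf
  obtain ⟨e, Me⟩ := exists_maxPair_of_isDef le_rfl top_le_Nz_top (isBlk_eB hM hB)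
    ((BrPair.isDefectGroup_iff hM hB).1 hBD)
  obtain ⟨g, -, hg⟩ := Me.exists_conj_subLE hf'
  have h1 := hQc.normalizer_le_normalizer_map_ordCore (Nz D)
  have h2 := hQc.card_map_ordCore (Nz D)
  have := Core.ordCore_normal (fun n => ∀ q : ℕ, q.Prime → q ∣ n → q ∈ {q | q ∉ π}) (Nz D)
  have ha₁ := isBlk_sB hM hB₁.1
  refine mem_blockKer_of_abs hM hB₁.1 (hp _ (hQc.card_ordCore _)) (abs_of_br (g := e) ha₁
    (ind_mem (Subgroup.map_subtype_le _) (Subgroup.le_normalizer.trans h1)) (hp _ h2) Me.isDef.pgroup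
    (ha₁.mem.2.mono Subgroup.le_normalizer)
    (Subgroup.le_normalizer.trans (Subgroup.le_normalizer.trans h1)) ?_ Me.pair.blk.ne ?_) hn
  · rw [sB, ← br_eB_eq_emb_of_isInducedBlock hM hB₁ hBD, br_br_of_le le_rfl, Me.pair.br_mul]
  · intro x hx
    refine single_mul_of_subLE hg hx.2 ?_
    obtain ⟨y, hy, rfl⟩ : x ∈ cS g (Cz D₀) := Cz_cS g D₀ ▸ Cz_anti hg.le hx.2
    refine single_mul_cj.2 (single_mul_of_br hf.br_mul hy (single_mul_sB hM (n := ⟨y, hC hy⟩)
      fun θ hθ => hkerb ⟨y, hy⟩ (hcompl _ fun q hq h => h2 q hq (h.trans ?_)) θ hθ _ rfl))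
    rw [Subgroup.orderOf_mk, ← (MulAut.conj g).orderOf_eq y]
    exact Subgroup.orderOf_dvd_natCard _ hx.1

end Cfsg.Agent.S4728
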