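import Mathlib
import Cfsg.Statements.S4730
import Cfsg.Agent.Lib.Block.Pair
-- import your own Cfsg.Agent.* helpers here

set_option autoImplicit false
open Cfsg

namespace Cfsg.Agent.S4730

open CfsgLib CfsgLib.Block CfsgLib.Char

/-- Let p be a prime, M a maximal ideal of the algebraic integers containing p, and G a finite group with trivial centre, Sylow p-subgroup P of order p^a and centre Z(P) of order p^b. If χ is a faithful irreducible character of G whose degree is a power of p, then the p-block of χ has defect at most a − b; in particular, if P is abelian then χ lies in a block of defect zero. -/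
theorem result {G : Type*} [Group G] [Finite G] (p : ℕ) [Fact p.Prime] (M : Ideal Cfsg.AlgInt) (hM : Cfsg.IsPModular p M) (hZ : Subgroup.center G = ⊥) (P : Sylow p G) (a b : ℕ) (ha : Nat.card P = p ^ a) (hb : Nat.card (Subgroup.center ↥(P : Subgroup G)) = p ^ b) (χ : Cfsg.IrrCharacter G) (hfaith : ∀ g : G, (χ : G → ℂ) g = (χ : G → ℂ) 1 → g = 1) (n : ℕ) (hdeg : Cfsg.charDegree (χ : G → ℂ) = p ^ n) : Cfsg.blockDefect p (Cfsg.blockOf M (χ : G → ℂ)) ≤ a - b ∧ (IsMulCommutative ↥(P : Subgroup G) → Cfsg.blockDefect p (Cfsg.blockOf M (χ : G → ℂ)) = 0) := by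
  classical
  have key : blockDefect p (blockOf M (χ : G → ℂ)) ≤ a - b := by
    obtain ⟨ψ, hψ, e⟩ := exists_sInf_degree_eq (p := p) ⟨χ, mem_blockOf_self hM χ⟩
    set Z := (Subgroup.center (P : Subgroup G)).map (P : Subgroup G).subtype
    have := Fintype.ofFinite Z
    obtain ⟨m, hm⟩ := exists_sum_restrict_eq_nat Z (irr_isCharacter ψ)
    rw [Subgroup.card_map_of_injective (P : Subgroup G).subtype_injective, hb] at hm
    have h1 := irr_one_ne_zero ψ.2
    have hu : MemLocalIdeal M (∑ z : Z, (ψ : G → ℂ) z / (ψ : G → ℂ) 1 - 1) := by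
      rw [← Finset.add_sum_erase _ _ (Finset.mem_univ 1), OneMemClass.coe_one, div_self h1,
        add_sub_cancel_left]
      refine li_sum hM ?_
      rintro ⟨_, z, hz, rfl⟩ h
      have hi : ¬ p ∣ (Subgroup.centralizer ({(z : G)} : Set G)).index := fun h => P.not_dvd_index
        (h.trans (Subgroup.index_dvd_of_le fun g hg => Subgroup.mem_centralizer_singleton_iff.2
          (congrArg Subtype.val (Subgroup.mem_center_iff.1 hz ⟨g, hg⟩))))
      have h0 : (χ : G → ℂ) z = 0 := (irr_eq_zero_or_norm_eq_of_coprime χ.2 z (n := p ^ n)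
        (by rw [← hdeg, charDegree_eq (irr_isCharacter χ)])
        (((Nat.Prime.coprime_iff_not_dvd hM.1).2 hi).pow_left n)).resolve_right fun h' =>
          (Finset.mem_erase.1 h).1 (Subtype.ext (Subgroup.mem_bot.1 (hZ ▸
            charCenter_le_center_of_faithful (irr_isClassFunction χ) (eq_bot_iff.2 fun g hg =>
              hfaith g ((mem_charKer (irr_isCharacter χ)).1 hg))
              ((mem_charCenter (irr_isCharacter χ)).2 h'))))
      have h2 := li_mul_left hM (lr_inv_nat hM hi) (li_sub_comm (hψ z))
      rwa [centralChar, centralChar, h0, mul_zero, zero_div, sub_zero, mul_div_assoc,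
        inv_mul_cancel_left₀ (Nat.cast_ne_zero.2 Subgroup.index_ne_zero_of_finite)] at h2
    have hu' := not_li_of_li_sub hM hu (not_li_one hM)
    have h3 := lr_mul hM (lr_natCast hM m) (lr_inv_of_not_li (lr_of_li_sub hM hu (lr_one hM)) hu')
    have hp0 : p ^ b ≠ 0 := pow_ne_zero _ hM.1.ne_zero
    have h4 := (lr_div_nat_iff hM (charDegree_ne_zero ψ.2) hp0).1 (by
      have := ne_zero_of_not_li hM hu'
      rw [← Finset.sum_div, hm] at h3 this
      convert h3 using 1
      rw [charDegree_eq (irr_isCharacter ψ)]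
      have : (m : ℂ) ≠ 0 := fun h => this (by simp [h])
      field_simp)
    have h5 := P.card_eq_multiplicity
    rw [ha, Nat.pow_right_inj hM.1.one_lt] at h5
    rw [hM.1.factorization_pow, Finsupp.single_eq_same] at h4
    rw [blockDefect, ← e, ← h5]
    omega
  refine ⟨key, fun h => ?_⟩
  rw [Subgroup.center_eq_top_iff.2 h, Subgroup.card_top] at hb
  have : p ^ a = p ^ b := ha.symm.trans hb
  rw [Nat.pow_right_inj hM.1.one_lt] at this
  omega

end Cfsg.Agent.S4730
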