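import Mathlib
import Cfsg.Statements.S4734
import Cfsg.Agent.Lib.Block.Flat
-- import your own Cfsg.Agent.* helpers here

set_option autoImplicit false
open Cfsg

namespace Cfsg.Agent.S4734

open CfsgLib CfsgLib.Block CfsgLib.BrPair

attribute [local implicit_reducible] CfsgLib.Block.K

/-- Let p be a prime, π a set of primes containing p, M a maximal ideal of the algebraic integers containing p, B a p-block of the finite group G with defect group D, and B₁ the block of N_G(D) with defect group D inducing B. Write O_π'(X) for the largest normal subgroup of X whose order has no prime divisor in π, and suppose every element of O_π'(N_G(D)) lies in the kernel of every member of B₁. Let G₀ be a subgroup and B₀ a block of G₀ with defect group D₀ such that C_G(D₀) ≤ G₀ and B₀ induces B. Then every element of O_π'(G₀) lies in the kernel of every member of B₀. -/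
theorem result {G : Type*} [Group G] [Finite G] (p : ℕ) [Fact p.Prime] (M : Ideal Cfsg.AlgInt) (hM : Cfsg.IsPModular p M) (π : Set ℕ) (hpπ : p ∈ π) (B : Set (Cfsg.IrrCharacter G)) (hB : Cfsg.IsPBlock M B) (D : Subgroup G) (hBD : Cfsg.IsDefectGroup p M B D) (B₁ : Set (Cfsg.IrrCharacter ↥(Subgroup.normalizer (D : Set G)))) (hB₁ : Cfsg.IsInducedBlock M (Subgroup.normalizer (D : Set G)) B₁ B) (hB₁D : Cfsg.IsDefectGroup p M B₁ (D.subgroupOf (Subgroup.normalizer (D : Set G)))) (hker : ∀ n : ↥(Subgroup.normalizer (D : Set G)), n ∈ Cfsg.piCore {q | q ∉ π} ↥(Subgroup.normalizer (D : Set G)) → n ∈ Cfsg.blockKer B₁) (G₀ : Subgroup G) (B₀ : Set (Cfsg.IrrCharacter ↥G₀)) (hB₀ : Cfsg.IsInducedBlock M G₀ B₀ B) (D₀ : Subgroup ↥G₀) (hD₀ : Cfsg.IsDefectGroup p M B₀ D₀) (hC : Subgroup.centralizer ((D₀.map G₀.subtype : Subgroup G) : Set G) ≤ G₀) : ∀ x : ↥G₀, x ∈ Cfsg.piCore {q | q ∉ π} ↥G₀ → x ∈ Cfsg.blockKer B₀ := by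
  intro x hx
  have hQc := Core.isOrdClass_pi {q | q ∉ π}
  have hp : ∀ n, (∀ q : ℕ, q.Prime → q ∣ n → q ∈ {q | q ∉ π}) → ¬ p ∣ n :=
    fun n h h' => h p hM.1 h' hpπ
  obtain ⟨hb, -, hI⟩ := (isInducedBlock_iff hM).1 hB₀
  have h := (isDefectGroup_iff_map hM hb).1 hD₀
  generalize D₀.map G₀.subtype = Q at *
  obtain ⟨f, hf⟩ := exists_isPair le_rfl (isBlk_sB hM hb).mem (isBlk_sB hM hb).idem h.le h.pgroup
    h.br_ne
  have hf' := hI.isPair_of_isPair le_top (inf_le_right.trans hC) (isBlk_sB hM hb) (isBlk_eB hM hB) hf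
  exact ((flat_of_isPair hM hQc hp hBD hB₁ hker hf').of_br hQc hp (isBlk_sB hM hb) rfl h.pgroup
    ((isBlk_sB hM hb).mem.2.mono h.le) (h.le.trans Subgroup.le_normalizer) hC hf.br_mul
    hf.blk.ne).mem_blockKer hM hQc hp hb hx

end Cfsg.Agent.S4734
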