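import Mathlib
import Cfsg.Statements.S4736
import Cfsg.Agent.Lib.Cover.PSolvHt

set_option autoImplicit false
open Cfsg

namespace Cfsg.Agent.S4736

open CfsgLib CfsgLib.Cover CfsgLib.Block CfsgLib.Char CfsgLib.Fusion in

/-- Let p be a prime, M a maximal ideal of the algebraic integers containing p, and G a finite p-solvable group with Sylow p-subgroup P. Then P is abelian if and only if every irreducible character in the principal p-block of G has height zero. -/
theorem result {G : Type*} [Group G] [Finite G] (p : ℕ) [Fact p.Prime] (M : Ideal Cfsg.AlgInt) (hM : Cfsg.IsPModular p M) (hsolv : Cfsg.IsPSolvable p G) (P : Sylow p G) : IsMulCommutative P ↔ ∀ χ ∈ Cfsg.principalBlock M G, Cfsg.blockHeight p (Cfsg.principalBlock M G) (χ : G → ℂ) = 0 := by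
  constructor
  · intro h χ hχ
    have h1 := blockHeight_le_of_isPSolvable hM hsolv isPBlock_principalBlock
      (isDefectGroup_principalBlock_sylow hM P) hχ
    have h2 : Subgroup.center (P : Subgroup G) = ⊤ :=
      eq_top_iff.2 fun x _ => Subgroup.mem_center_iff.2 fun y => h.1.1 y x
    rw [h2, Subgroup.index_top, Nat.factorization_one, Finsupp.zero_apply] at h1
    omega
  · intro h
    set N := Cfsg.pPrimeCore p G with hN
    have hPD : ChDeg.PD p (G ⧸ N) := by
      intro χ hχ hd
      have h1 := h ⟨_, ChDeg.isIrr_infl N hχ⟩ ((principalBlock_eq_of_isPSolvable hM hsolv _).2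
        fun n hn => by
          change χ (n : G ⧸ N) = χ ((1 : G) : G ⧸ N)
          rw [(QuotientGroup.eq_one_iff n).2 hn, QuotientGroup.mk_one])
      rw [blockHeight_principalBlock hM] at h1
      change (Cfsg.charDegree fun g : G => χ (g : G ⧸ N)).factorization p = 0 at h1
      rw [ChDeg.deg_infl] at h1
      have := (hM.1.dvd_iff_one_le_factorization (charDegree_ne_zero hχ)).1 hd
      omega
    have h2 := hPD.comm_of_pSolvable (PLocal.PSolv.quotient hsolv N)
      (P.2.map (QuotientGroup.mk' N))
    refine ⟨⟨fun a b => Subtype.ext ?_⟩⟩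
    have h3 := h2 _ ⟨a, a.2, rfl⟩ _ ⟨b, b.2, rfl⟩
    have h4 : ((a : G) * b) * ((b : G) * a)⁻¹ ∈ (P : Subgroup G) ⊓ N := by
      refine ⟨(P : Subgroup G).mul_mem ((P : Subgroup G).mul_mem a.2 b.2)
        ((P : Subgroup G).inv_mem ((P : Subgroup G).mul_mem b.2 a.2)), ?_⟩
      rw [← QuotientGroup.ker_mk' N]
      change QuotientGroup.mk' N _ = 1
      rw [map_mul, map_inv, map_mul, map_mul, h3, mul_inv_cancel]
    rw [(PLocal.PSolv.disjoint_of_isPGroup_of_coprime P.2
      PLocal.PSolv.coprime_card_pPrimeCore).eq_bot, Subgroup.mem_bot, mul_inv_eq_one] at h4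
    exact h4

end Cfsg.Agent.S4736
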