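import Cfsg.Statements.S4955
import Cfsg.Agent.Lib.KGV.Basic

set_option autoImplicit false
open Cfsg

namespace Cfsg.Agent.S4955

open CfsgLib.KGV
open scoped ComplexConjugate


/-- Let X be a finite group with an abelian normal Sylow p-subgroup V (a normal p-subgroup of index prime to p in which any two elements commute), and let G be a complement to V in X. Then for every v in V, writing C for the centralizer of v in G, the number k(X) of conjugacy classes of X satisfies k(X) ≤ (order of C)·(order of V) − ((order of G) − k(G)); the statement is written with the subtracted term moved to the left. In particular, if some v in V is centralized by no nonidentity element of G, then k(X) is at most the order of V. -/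
theorem result {X : Type*} [Group X] [Finite X] (p : ℕ) [Fact p.Prime] (V : Subgroup X) [V.Normal] (hVp : IsPGroup p V) (hidx : ¬ p ∣ V.index) (hab : ∀ a ∈ V, ∀ b ∈ V, a * b = b * a) (G : Subgroup X) (hGV : Subgroup.IsComplement' V G) (v : X) (hv : v ∈ V) : Nat.card (ConjClasses X) + Nat.card G ≤ Nat.card ↥(G ⊓ Subgroup.centralizer ({v} : Set X)) * Nat.card V + Nat.card (ConjClasses G) := by
  have h := card_conj_add_index_le Fact.out V hVp hidx hab hv
  rwa [card_centralizer_of_complement V hab G hGV hv,
    card_conjClasses_congr hGV.symm.QuotientMulEquiv, hGV.symm.index_eq_card] at h

end Cfsg.Agent.S4955
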