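import Mathlib
import Cfsg.Statements.S4956
import Cfsg.Agent.Lib.Coprime.Abelian

set_option autoImplicit false
open Cfsg

namespace Cfsg.Agent.S4956


/-- Let X be a finite group, V an abelian normal subgroup of X (any two elements of V commute) and G a complement to V in X whose order is coprime to that of V. Let S be a set of representatives of the orbits of G on V under conjugation: S lies in V and every element of V is conjugate under G to exactly one member of S. Then the number of conjugacy classes of X equals the sum, over s in S, of the number of conjugacy classes of the centralizer of s in G. -/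
theorem result {X : Type*} [Group X] [Finite X] (V : Subgroup X) [V.Normal] (hab : ∀ a ∈ V, ∀ b ∈ V, a * b = b * a) (G : Subgroup X) (hGV : Subgroup.IsComplement' V G) (hcop : (Nat.card V).Coprime (Nat.card G)) (S : Finset X) (hSV : ∀ s ∈ S, s ∈ V) (hrep : ∀ v ∈ V, ∃! s, s ∈ S ∧ ∃ g ∈ G, g * v * g⁻¹ = s) : Nat.card (ConjClasses X) = ∑ s ∈ S, Nat.card (ConjClasses ↥(G ⊓ Subgroup.centralizer ({s} : Set X))) := by
  classical
  have hVc : IsMulCommutative V := ⟨⟨fun a b => Subtype.ext (hab _ a.2 _ b.2)⟩⟩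
  have hdec : ∀ x : X, ∃ v ∈ V, ∃ g ∈ G, x = v * g := by
    intro x
    obtain ⟨⟨v, g⟩, h⟩ := hGV.2 x
    exact ⟨v, v.2, g, g.2, h.symm⟩
  have hdisj : ∀ x : X, x ∈ V → x ∈ G → x = 1 := fun x h1 h2 =>
    Subgroup.disjoint_def.mp hGV.disjoint h1 h2
  let F : (Σ s : S, ConjClasses ↥(G ⊓ Subgroup.centralizer ({(s : X)} : Set X))) →
      ConjClasses X := fun z =>
    Quotient.lift (fun g : ↥(G ⊓ Subgroup.centralizer ({(z.1 : X)} : Set X)) =>
      ConjClasses.mk ((z.1 : X) * (g : X))) (by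
        intro a b hab'
        obtain ⟨c, hc⟩ := isConj_iff.mp hab'
        refine ConjClasses.mk_eq_mk_iff_isConj.mpr (isConj_iff.mpr ⟨(c : X), ?_⟩)
        have h1 : (z.1 : X) * c = c * z.1 := (Subgroup.mem_centralizer_iff.mp c.2.2) _ rfl
        have h2 : (c : X) * a * (c : X)⁻¹ = b := by
          have := congrArg Subtype.val hc
          simpa using this
        rw [← h2, ← mul_assoc, ← h1]; group) z.2
  have hF : Function.Bijective F := by
    constructor
    · rintro ⟨s, cg⟩ ⟨s', cg'⟩ h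
      obtain ⟨g, rfl⟩ := ConjClasses.exists_rep cg
      obtain ⟨g', rfl⟩ := ConjClasses.exists_rep cg'
      have h' : ConjClasses.mk ((s : X) * (g : X)) = ConjClasses.mk ((s' : X) * (g' : X)) := h
      obtain ⟨y, hy⟩ := isConj_iff.mp (ConjClasses.mk_eq_mk_iff_isConj.mp h')
      obtain ⟨w, hw, k, hk, rfl⟩ := hdec y
      have hs : (s : X) ∈ V := hSV _ s.2
      have hs' : (s' : X) ∈ V := hSV _ s'.2
      have ht : k * s * k⁻¹ ∈ V := (‹V.Normal›).conj_mem _ hs k
      have hg1 : k * g * k⁻¹ ∈ G := G.mul_mem (G.mul_mem hk g.2.1) (G.inv_mem hk)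
      have hcg : (s : X) * g = g * s := (Subgroup.mem_centralizer_iff.mp g.2.2) _ rfl
      have hcg' : (s' : X) * g' = g' * s' := (Subgroup.mem_centralizer_iff.mp g'.2.2) _ rfl
      have hgg : k * g * k⁻¹ = g' := by
        have h1 : (g' : X) * (k * g * k⁻¹)⁻¹ ∈ G := G.mul_mem g'.2.1 (G.inv_mem hg1)
        have h2 : (g' : X) * (k * g * k⁻¹)⁻¹ ∈ V := by
          have e : (g' : X) * (k * g * k⁻¹)⁻¹ = (s' : X)⁻¹ * w * (k * s * k⁻¹) *
              ((k * g * k⁻¹) * w⁻¹ * (k * g * k⁻¹)⁻¹) := by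
            have : (g' : X) = (s' : X)⁻¹ * (w * k * (s * g) * (w * k)⁻¹) := by
              rw [hy]; group
            rw [this]; group
          rw [e]
          exact V.mul_mem (V.mul_mem (V.mul_mem (V.inv_mem hs') hw) ht)
            ((‹V.Normal›).conj_mem _ (V.inv_mem hw) _)
        have h3 := hdisj _ h2 h1
        exact (mul_inv_eq_one.mp h3).symm
      have hgn : (g : X) ^ Nat.card G = 1 := by
        have := pow_card_eq_one' (x := (⟨g, g.2.1⟩ : G))
        exact congrArg Subtype.val this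
      have hgn' : (g' : X) ^ Nat.card G = 1 := by
        have := pow_card_eq_one' (x := (⟨g', g'.2.1⟩ : G))
        exact congrArg Subtype.val this
      have hpow : (k * s * k⁻¹) ^ Nat.card G = (s' : X) ^ Nat.card G := by
        have e1 : (w * k * (s * g) * (w * k)⁻¹) ^ Nat.card G =
            w * (k * s * k⁻¹) ^ Nat.card G * w⁻¹ := by
          rw [conj_pow, Commute.mul_pow hcg, hgn, conj_pow]; group
        have e2 : ((s' : X) * g') ^ Nat.card G = (s' : X) ^ Nat.card G := by
          rw [Commute.mul_pow hcg', hgn', mul_one]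
        rw [← e2, ← hy, e1, hab w hw _ (V.pow_mem ht _)]; group
      have hts : k * s * k⁻¹ = s' := by
        have h1 : (⟨k * s * k⁻¹, ht⟩ : V) ^ Nat.card G = (⟨s', hs'⟩ : V) ^ Nat.card G :=
          Subtype.ext hpow
        have h2 := (powCoprime hcop).injective (a₁ := ⟨k * s * k⁻¹, ht⟩) (a₂ := ⟨s', hs'⟩) h1
        exact congrArg Subtype.val h2
      have hss : s = s' := by
        obtain ⟨u, -, hu⟩ := hrep s hs
        exact Subtype.ext ((hu s ⟨s.2, 1, G.one_mem, by simp⟩).trans
          (hu s' ⟨s'.2, k, hk, hts⟩).symm)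
      subst hss
      have hkc : k ∈ G ⊓ Subgroup.centralizer ({(s : X)} : Set X) := by
        refine ⟨hk, Subgroup.mem_centralizer_iff.mpr ?_⟩
        rintro _ rfl
        rw [← mul_inv_eq_iff_eq_mul.mp hts]
      have : ConjClasses.mk g = ConjClasses.mk g' :=
        ConjClasses.mk_eq_mk_iff_isConj.mpr (isConj_iff.mpr ⟨⟨k, hkc⟩, Subtype.ext hgg⟩)
      rw [this]
    · intro c
      obtain ⟨x, rfl⟩ := ConjClasses.exists_rep c
      obtain ⟨v, hv, g, hg, hx⟩ := hdec x
      obtain ⟨k, hk, hkc⟩ := CfsgLib.Coprime.exists_conj_mem_centralizer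
        (K := V) (A := Subgroup.zpowers g) Subgroup.le_normalizer_of_normal
        (CfsgLib.Coprime.coprime_card_zpowers hcop.symm hg)
        (Or.inl (CfsgLib.Coprime.isSolvable_zpowers g)) x (by
          rintro a ⟨n, rfl⟩
          refine ⟨g ^ n * (x ^ n)⁻¹, ?_, ?_⟩
          · have h1 : (x : X ⧸ V) = (g : X ⧸ V) := by
              rw [hx, QuotientGroup.mk_mul, (QuotientGroup.eq_one_iff v).mpr hv, one_mul]
            rw [← QuotientGroup.eq_one_iff, QuotientGroup.mk_mul, QuotientGroup.mk_inv,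
              QuotientGroup.mk_zpow, QuotientGroup.mk_zpow, h1, mul_inv_cancel]
          · show g ^ n * x * (g ^ n)⁻¹ = _
            group)
      have hc : g * (k * x * k⁻¹) = (k * x * k⁻¹) * g :=
        Subgroup.mem_centralizer_iff.mp hkc g (Subgroup.mem_zpowers g)
      have hv' : k * x * k⁻¹ * g⁻¹ ∈ V := by
        have e : k * x * k⁻¹ * g⁻¹ = k * v * (g * k⁻¹ * g⁻¹) := by rw [hx]; group
        rw [e]
        exact V.mul_mem (V.mul_mem hk hv) ((‹V.Normal›).conj_mem _ (V.inv_mem hk) _)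
      obtain ⟨s, ⟨hsS, h, hh, hs⟩, -⟩ := hrep _ hv'
      have hmem : h * g * h⁻¹ ∈ G ⊓ Subgroup.centralizer ({s} : Set X) := by
        refine ⟨G.mul_mem (G.mul_mem hh hg) (G.inv_mem hh), Subgroup.mem_centralizer_iff.mpr ?_⟩
        rintro _ rfl
        rw [← hs]
        calc h * (k * x * k⁻¹ * g⁻¹) * h⁻¹ * (h * g * h⁻¹) = h * (k * x * k⁻¹) * h⁻¹ := by group
          _ = h * (g * (k * x * k⁻¹) * g⁻¹) * h⁻¹ := by rw [hc]; group
          _ = h * g * h⁻¹ * (h * (k * x * k⁻¹ * g⁻¹) * h⁻¹) := by group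
      refine ⟨⟨⟨s, hsS⟩, ConjClasses.mk ⟨h * g * h⁻¹, hmem⟩⟩, ?_⟩
      show ConjClasses.mk (s * (h * g * h⁻¹)) = ConjClasses.mk x
      refine (ConjClasses.mk_eq_mk_iff_isConj.mpr (isConj_iff.mpr ⟨h * k, ?_⟩)).symm
      rw [← hs]; group
  rw [← Nat.card_eq_of_bijective F hF, Nat.card_sigma]
  exact Finset.sum_coe_sort S
    (fun s => Nat.card (ConjClasses ↥(G ⊓ Subgroup.centralizer ({s} : Set X))))

end Cfsg.Agent.S4956
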