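import Mathlib
import Cfsg.Statements.S4965


set_option autoImplicit false
open Cfsg

namespace Cfsg.Agent.S4965


/-- Let X be a finite group with an abelian normal subgroup V (any two elements of V commute), and let φ be the action of X ⧸ V on V induced by conjugation (well defined because V is abelian; the hypothesis hφ says that the class of x acts as conjugation by x). Then X has at most as many conjugacy classes as the semidirect product of V by X ⧸ V formed with this action: the split extension has the largest class number among extensions with the given action. -/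
theorem result {X : Type*} [Group X] [Finite X] (V : Subgroup X) [V.Normal] (hab : ∀ a ∈ V, ∀ b ∈ V, a * b = b * a) (φ : X ⧸ V →* MulAut ↥V) (hφ : ∀ (x : X) (v : ↥V), ((φ (QuotientGroup.mk x) v : ↥V) : X) = x * v * x⁻¹) : Nat.card (ConjClasses X) ≤ Nat.card (ConjClasses (SemidirectProduct ↥V (X ⧸ V) φ)) := by
  classical
  have hfinY : Finite (SemidirectProduct ↥V (X ⧸ V) φ) :=
    Finite.of_equiv _ (SemidirectProduct.equivProd (φ := φ)).symm
  have hcard : Nat.card (SemidirectProduct ↥V (X ⧸ V) φ) = Nat.card X := by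
    rw [SemidirectProduct.card, Subgroup.card_eq_card_quotient_mul_card_subgroup V, mul_comm]
  have h1 := card_comm_eq_card_conjClasses_mul_card X
  have h2 := card_comm_eq_card_conjClasses_mul_card (SemidirectProduct ↥V (X ⧸ V) φ)
  -- choose a commuting pair above each pair of cosets
  have hch : ∀ ab : (X ⧸ V) × (X ⧸ V), ∃ q : X × X,
      (∃ p : { p : X × X // Commute p.1 p.2 },
        ((p.1.1 : X ⧸ V), (p.1.2 : X ⧸ V)) = ab) →
      Commute q.1 q.2 ∧ (q.1 : X ⧸ V) = ab.1 ∧ (q.2 : X ⧸ V) = ab.2 := by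
    intro ab
    by_cases h : ∃ p : { p : X × X // Commute p.1 p.2 },
        ((p.1.1 : X ⧸ V), (p.1.2 : X ⧸ V)) = ab
    · obtain ⟨p, hp⟩ := h
      exact ⟨p.1, fun _ => ⟨p.2, by rw [← hp], by rw [← hp]⟩⟩
    · exact ⟨(1, 1), fun h' => absurd h' h⟩
  choose q hq using hch
  have hmem : ∀ x y : X, (y : X ⧸ V) = (x : X ⧸ V) → x * y⁻¹ ∈ V := by
    intro x y h
    have h' := QuotientGroup.eq.mp h
    have h'' := (‹V.Normal›).conj_mem _ h' y
    simpa [mul_assoc] using h''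
  let F : { p : X × X // Commute p.1 p.2 } →
      { p : SemidirectProduct ↥V (X ⧸ V) φ × SemidirectProduct ↥V (X ⧸ V) φ //
        Commute p.1 p.2 } := fun p =>
    ⟨(⟨⟨p.1.1 * (q ((p.1.1 : X ⧸ V), (p.1.2 : X ⧸ V))).1⁻¹,
          hmem _ _ (hq _ ⟨p, rfl⟩).2.1⟩, (p.1.1 : X ⧸ V)⟩,
      ⟨⟨p.1.2 * (q ((p.1.1 : X ⧸ V), (p.1.2 : X ⧸ V))).2⁻¹,
          hmem _ _ (hq _ ⟨p, rfl⟩).2.2⟩, (p.1.2 : X ⧸ V)⟩), by
      obtain ⟨hc, ha, hb⟩ := hq _ ⟨p, rfl⟩
      have hp : p.1.1 * p.1.2 = p.1.2 * p.1.1 := p.2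
      refine SemidirectProduct.ext ?_ ?_
      · apply Subtype.ext
        simp only [SemidirectProduct.mul_left, Subgroup.coe_mul]
        set x0 := (q ((p.1.1 : X ⧸ V), (p.1.2 : X ⧸ V))).1 with hx0
        set y0 := (q ((p.1.1 : X ⧸ V), (p.1.2 : X ⧸ V))).2 with hy0
        have ha' : (p.1.1 : X ⧸ V) = (x0 : X ⧸ V) := ha.symm
        have hb' : (p.1.2 : X ⧸ V) = (y0 : X ⧸ V) := hb.symm
        have e1 : ∀ w : V, ((φ (p.1.1 : X ⧸ V) w : V) : X) = x0 * w * x0⁻¹ := fun w => by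
          rw [ha', hφ]
        have e2 : ∀ w : V, ((φ (p.1.2 : X ⧸ V) w : V) : X) = y0 * w * y0⁻¹ := fun w => by
          rw [hb', hφ]
        rw [e1, e2]
        have hc' : x0 * y0 = y0 * x0 := hc
        have hc'' : y0⁻¹ * x0⁻¹ = x0⁻¹ * y0⁻¹ := by
          rw [← mul_inv_rev, hc', mul_inv_rev]
        calc p.1.1 * x0⁻¹ * (x0 * (p.1.2 * y0⁻¹) * x0⁻¹)
            = p.1.1 * p.1.2 * (y0⁻¹ * x0⁻¹) := by group
          _ = p.1.2 * p.1.1 * (x0⁻¹ * y0⁻¹) := by rw [hp, hc'']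
          _ = p.1.2 * y0⁻¹ * (y0 * (p.1.1 * x0⁻¹) * y0⁻¹) := by group
      · simp only [SemidirectProduct.mul_right]
        rw [← QuotientGroup.mk_mul, hp, QuotientGroup.mk_mul]⟩
  have hF : Function.Injective F := by
    intro p p' h
    have h0 := congrArg Subtype.val h
    have ha : (p.1.1 : X ⧸ V) = (p'.1.1 : X ⧸ V) := congrArg (fun z => z.1.right) h0
    have hb : (p.1.2 : X ⧸ V) = (p'.1.2 : X ⧸ V) := congrArg (fun z => z.2.right) h0
    have hv : p.1.1 * (q ((p.1.1 : X ⧸ V), (p.1.2 : X ⧸ V))).1⁻¹ =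
        p'.1.1 * (q ((p'.1.1 : X ⧸ V), (p'.1.2 : X ⧸ V))).1⁻¹ :=
      congrArg (fun z => (z.1.left : X)) h0
    have hw : p.1.2 * (q ((p.1.1 : X ⧸ V), (p.1.2 : X ⧸ V))).2⁻¹ =
        p'.1.2 * (q ((p'.1.1 : X ⧸ V), (p'.1.2 : X ⧸ V))).2⁻¹ :=
      congrArg (fun z => (z.2.left : X)) h0
    rw [ha, hb] at hv hw
    exact Subtype.ext (Prod.ext (mul_right_cancel hv) (mul_right_cancel hw))
  have hle := Nat.card_le_card_of_injective F hF
  rw [h1, h2, hcard] at hle
  exact Nat.le_of_mul_le_mul_right hle Nat.card_pos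

end Cfsg.Agent.S4965
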