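import Mathlib
import Cfsg.Statements.S4966


set_option autoImplicit false
open Cfsg

namespace Cfsg.Agent.S4966

section aux
variable {F : Type*} [Field F] {G : Type*} [Group G] {V : Type*} [AddCommGroup V] [Module F V]
  (ρ : Representation F G V)

/-- invariant subspace -/
def InvS (U : Submodule F V) : Prop := ∀ g : G, ∀ u ∈ U, ρ g u ∈ U

/-- invariant and nondegenerate on `U` -/
def Good (U : Submodule F V) (A : LinearMap.BilinForm F V) : Prop :=
  (∀ g : G, ∀ x ∈ U, ∀ y ∈ U, A (ρ g x) (ρ g y) = A x y) ∧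
    (∀ x ∈ U, (∀ y ∈ U, A x y = 0) → x = 0)

theorem maschke [Finite G] [NeZero (Nat.card G : F)] {U : Submodule F V} (hU : InvS ρ U) :
    ∃ K, IsCompl U K ∧ InvS ρ K := by
  obtain ⟨K, hK⟩ := exists_isCompl (⟨U, fun g _ hv => hU g _ hv⟩ : Subrepresentation ρ)
  refine ⟨K.toSubmodule, ⟨?_, ?_⟩, fun g _ hv => K.apply_mem_toSubmodule g hv⟩
  · rw [disjoint_iff]
    exact congrArg Subrepresentation.toSubmodule hK.inf_eq_bot
  · rw [codisjoint_iff]
    exact congrArg Subrepresentation.toSubmodule hK.sup_eq_top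

theorem invS_sup {U X : Submodule F V} (hU : InvS ρ U) (hX : InvS ρ X) : InvS ρ (U ⊔ X) := by
  intro g v hv
  obtain ⟨u, hu, x, hx, rfl⟩ := Submodule.mem_sup.mp hv
  rw [map_add]
  exact Submodule.add_mem_sup (hU g u hu) (hX g x hx)

theorem exists_proj {U X : Submodule F V} (hd : Disjoint U X) :
    ∃ π : V →ₗ[F] V, (∀ u ∈ U, π u = u) ∧ (∀ x ∈ X, π x = 0) := by
  obtain ⟨X', hX', hc⟩ := hd.symm.exists_isCompl
  refine ⟨U.subtype ∘ₗ U.projectionOnto X' hc.symm, fun u hu => ?_, fun x hx => ?_⟩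
  · exact congrArg Subtype.val (Submodule.projectionOnto_apply_left hc.symm ⟨u, hu⟩)
  · exact congrArg Subtype.val (Submodule.projectionOnto_apply_right hc.symm ⟨x, hX' hx⟩)

theorem combine {U X : Submodule F V} (hd : Disjoint U X) (hU : InvS ρ U) (hX : InvS ρ X)
    {A γ : LinearMap.BilinForm F V} (hA : Good ρ U A) (hγ : Good ρ X γ) :
    ∃ C : LinearMap.BilinForm F V, Good ρ (U ⊔ X) C ∧
      ((∀ x, A x x = 0) → (∀ x, γ x x = 0) → ∀ x, C x x = 0) ∧
      ((∀ x y, A x y = A y x) → (∀ x y, γ x y = γ y x) → ∀ x y, C x y = C y x) := by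
  obtain ⟨π, hπ1, hπ2⟩ := exists_proj hd
  obtain ⟨π', hπ1', hπ2'⟩ := exists_proj hd.symm
  let C : LinearMap.BilinForm F V := A.comp π π + γ.comp π' π'
  have hC : ∀ x y, C x y = A (π x) (π y) + γ (π' x) (π' y) := fun x y => rfl
  have hC' : ∀ u ∈ U, ∀ x ∈ X, ∀ u' ∈ U, ∀ x' ∈ X, C (u + x) (u' + x') = A u u' + γ x x' := by
    intro u hu x hx u' hu' x' hx'
    rw [hC]
    simp only [map_add π, map_add π', hπ1 _ hu, hπ1 _ hu', hπ2 _ hx, hπ2 _ hx', hπ1' _ hx,
      hπ1' _ hx', hπ2' _ hu, hπ2' _ hu', add_zero, zero_add]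
  refine ⟨C, ⟨?_, ?_⟩, ?_, ?_⟩
  · intro g v hv w hw
    obtain ⟨u, hu, x, hx, rfl⟩ := Submodule.mem_sup.mp hv
    obtain ⟨u', hu', x', hx', rfl⟩ := Submodule.mem_sup.mp hw
    rw [map_add (ρ g), map_add (ρ g), hC' _ (hU g _ hu) _ (hX g _ hx) _ (hU g _ hu') _ (hX g _ hx'),
      hC' _ hu _ hx _ hu' _ hx', hA.1 g _ hu _ hu', hγ.1 g _ hx _ hx']
  · intro v hv h
    obtain ⟨u, hu, x, hx, rfl⟩ := Submodule.mem_sup.mp hv
    have h1 : u = 0 := hA.2 u hu fun y hy => by
      have := h (y + 0) (Submodule.add_mem_sup hy X.zero_mem)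
      rw [hC' _ hu _ hx _ hy _ X.zero_mem] at this
      simpa using this
    have h2 : x = 0 := hγ.2 x hx fun y hy => by
      have := h (0 + y) (Submodule.add_mem_sup U.zero_mem hy)
      rw [hC' _ hu _ hx _ U.zero_mem _ hy] at this
      simpa using this
    rw [h1, h2, add_zero]
  · intro h1 h2 x
    rw [hC, h1, h2, add_zero]
  · intro h1 h2 x y
    rw [hC, hC, h1, h2]

theorem rho_inv_apply (g : G) (v : V) : ρ g (ρ g⁻¹ v) = v := by
  rw [← Module.End.mul_apply, ← map_mul, mul_inv_cancel, map_one, Module.End.one_apply]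

theorem exists_form [Finite G] [NeZero (Nat.card G : F)] [FiniteDimensional F V]
    {B : LinearMap.BilinForm F V} (hB : B.Nondegenerate)
    (hBinv : ∀ g : G, ∀ x y : V, B (ρ g x) (ρ g y) = B x y)
    {N : Submodule F V} (hN : InvS ρ N) {C : LinearMap.BilinForm F V} (hC : Good ρ N C)
    (hne : N ≠ ⊤) :
    ∃ β : LinearMap.BilinForm F V, β ≠ 0 ∧ (∀ g : G, ∀ x y : V, β (ρ g x) (ρ g y) = β x y) ∧
      ∀ n ∈ N, ∀ v, β n v = 0 ∧ β v n = 0 := by
  classical
  have hCN : (C.restrict N).Nondegenerate := by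
    refine LinearMap.BilinForm.Nondegenerate.ofSeparatingLeft ?_
    intro x hx
    exact Subtype.ext (hC.2 x x.2 fun y hy => hx ⟨y, hy⟩)
  let T : V →ₗ[F] V := N.subtype ∘ₗ ((C.restrict N).toDual hCN).symm.toLinearMap ∘ₗ
    (LinearMap.domRestrict₂ B N)
  have hTN : ∀ v, T v ∈ N := fun v => Submodule.coe_mem _
  have hT : ∀ v, ∀ n ∈ N, C (T v) n = B v n := by
    intro v n hn
    exact LinearMap.BilinForm.apply_toDual_symm_apply (hB := hCN) (LinearMap.domRestrict₂ B N v)
      ⟨n, hn⟩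
  have hTg : ∀ g v, T (ρ g v) = ρ g (T v) := by
    intro g v
    rw [← sub_eq_zero]
    refine hC.2 _ (N.sub_mem (hTN _) (hN g _ (hTN _))) fun y hy => ?_
    have hy' : ρ g⁻¹ y ∈ N := hN _ _ hy
    rw [map_sub, LinearMap.sub_apply, hT _ _ hy, ← rho_inv_apply ρ g y, hBinv,
      hC.1 g _ (hTN _) _ hy', hT _ _ hy', sub_self]
  obtain ⟨K, hK, hKinv⟩ := maschke ρ hN
  let E : Submodule F (V →ₗ[F] V) :=
    { carrier := {f | (∀ g v, f (ρ g v) = ρ g (f v)) ∧ ∀ n ∈ N, f n = 0}
      add_mem' := by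
        rintro f f' ⟨h1, h2⟩ ⟨h1', h2'⟩
        exact ⟨fun g v => by simp [h1, h1'], fun n hn => by simp [h2 n hn, h2' n hn]⟩
      zero_mem' := ⟨fun g v => by simp, fun n _ => rfl⟩
      smul_mem' := by
        rintro c f ⟨h1, h2⟩
        exact ⟨fun g v => by simp [h1], fun n hn => by simp [h2 n hn]⟩ }
  let Φ : E →ₗ[F] E :=
    { toFun := fun f => ⟨T ∘ₗ f.1, fun g v => by simp [f.2.1, hTg], fun n hn => by
        simp [f.2.2 n hn]⟩
      map_add' := fun f f' => Subtype.ext (by ext; simp)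
      map_smul' := fun c f => Subtype.ext (by ext; simp) }
  obtain ⟨π, hπ1, hπ2⟩ := exists_proj hK.disjoint.symm
  have hπE : π ∈ E := by
    refine ⟨fun g v => ?_, hπ2⟩
    have hv : v ∈ N ⊔ K := by rw [hK.sup_eq_top]; trivial
    obtain ⟨n, hn, k, hk, rfl⟩ := Submodule.mem_sup.mp hv
    rw [map_add, map_add, map_add, hπ2 _ hn, hπ2 _ (hN g _ hn), hπ1 _ hk, hπ1 _ (hKinv g _ hk),
      zero_add, zero_add]
  have hns : ¬ Function.Surjective Φ := by
    intro hs
    obtain ⟨f, hf⟩ := hs ⟨π, hπE⟩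
    apply hne
    have hKN : K ≤ N := fun k hk => by
      have h1 : T (f.1 k) = π k := congrArg (fun z : E => z.1 k) hf
      rw [← hπ1 k hk, ← h1]; exact hTN _
    rw [← hK.sup_eq_top, sup_eq_left.mpr hKN]
  have hni : ¬ Function.Injective Φ := fun h => hns (LinearMap.injective_iff_surjective.mp h)
  rw [injective_iff_map_eq_zero] at hni
  push Not at hni
  obtain ⟨f, hf0, hf⟩ := hni
  refine ⟨B.compLeft f.1, ?_, ?_, ?_⟩
  · intro h
    apply hf
    apply Subtype.ext
    ext v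
    exact hB.1 _ fun y => by
      have := congrArg (fun β : LinearMap.BilinForm F V => β v y) h
      simpa using this
  · intro g x y
    simp only [LinearMap.BilinForm.compLeft_apply]
    rw [f.2.1, hBinv]
  · intro n hn v
    simp only [LinearMap.BilinForm.compLeft_apply]
    refine ⟨by rw [f.2.2 n hn]; simp, ?_⟩
    have h1 : T (f.1 v) = 0 := congrArg (fun z : E => z.1 v) hf0
    rw [← hT _ _ hn, h1]; simp

theorem exists_piece [Finite G] [NeZero (Nat.card G : F)] {N : Submodule F V}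
    {γ : LinearMap.BilinForm F V} (h0 : γ ≠ 0)
    (hinv : ∀ g : G, ∀ x y : V, γ (ρ g x) (ρ g y) = γ x y)
    (hrefl : ∀ x y, γ x y = 0 → γ y x = 0) (hN : ∀ n ∈ N, ∀ v, γ n v = 0) :
    ∃ X : Submodule F V, X ≠ ⊥ ∧ InvS ρ X ∧ Disjoint N X ∧ Good ρ X γ := by
  have hR : InvS ρ (LinearMap.ker γ) := by
    intro g v hv
    rw [LinearMap.mem_ker] at hv ⊢
    ext y
    rw [← rho_inv_apply ρ g y, hinv, hv]; rfl
  obtain ⟨X, hX, hXinv⟩ := maschke ρ hR
  refine ⟨X, ?_, hXinv, ?_, fun g x _ y _ => hinv g x y, ?_⟩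
  · intro h
    apply h0
    have := hX.sup_eq_top
    rw [h, sup_bot_eq] at this
    exact LinearMap.ker_eq_top.mp this
  · refine hX.disjoint.mono_left fun n hn => ?_
    rw [LinearMap.mem_ker]
    ext y
    exact hN n hn y
  · intro x hx h
    refine Submodule.disjoint_def.mp hX.disjoint x ?_ hx
    rw [LinearMap.mem_ker]
    ext y
    have hy : y ∈ LinearMap.ker γ ⊔ X := by rw [hX.sup_eq_top]; trivial
    obtain ⟨r, hr, z, hz, rfl⟩ := Submodule.mem_sup.mp hy
    have h1 : γ x r = 0 := hrefl _ _ (by rw [LinearMap.mem_ker.mp hr]; rfl)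
    rw [map_add, h1, h z hz]; simp

end aux

/-- Let F be a finite field of characteristic p, G a finite group of order prime to p, and V a finite-dimensional representation of G over F carrying a nondegenerate G-invariant bilinear form (equivalently, V is self-dual). Then V is the direct sum of two G-invariant subspaces U and W such that U carries a G-invariant alternating bilinear form that is nondegenerate on U and W carries a G-invariant symmetric bilinear form that is nondegenerate on W; moreover when p = 2 the decomposition can be chosen with G acting trivially on W. -/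
theorem result {F : Type*} [Field F] [Fintype F] (p : ℕ) [Fact p.Prime] [CharP F p] {G : Type*} [Group G] [Finite G] (hcop : ¬ p ∣ Nat.card G) {V : Type*} [AddCommGroup V] [Module F V] [FiniteDimensional F V] (ρ : Representation F G V) (B : LinearMap.BilinForm F V) (hB : B.Nondegenerate) (hBinv : ∀ g : G, ∀ x y : V, B (ρ g x) (ρ g y) = B x y) : ∃ U W : Submodule F V, IsCompl U W ∧ (∀ g : G, ∀ u ∈ U, ρ g u ∈ U) ∧ (∀ g : G, ∀ w ∈ W, ρ g w ∈ W) ∧ (∃ A : LinearMap.BilinForm F V, (∀ x : V, A x x = 0) ∧ (∀ g : G, ∀ x ∈ U, ∀ y ∈ U, A (ρ g x) (ρ g y) = A x y) ∧ (∀ x ∈ U, (∀ y ∈ U, A x y = 0) → x = 0)) ∧ (∃ S : LinearMap.BilinForm F V, (∀ x y : V, S x y = S y x) ∧ (∀ g : G, ∀ x ∈ W, ∀ y ∈ W, S (ρ g x) (ρ g y) = S x y) ∧ (∀ x ∈ W, (∀ y ∈ W, S x y = 0) → x = 0)) ∧ (p = 2 → ∀ g : G, ∀ w ∈ W, ρ g w = w) := by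
  classical
  have : NeZero (Nat.card G : F) := ⟨fun h => hcop ((CharP.cast_eq_zero_iff F p _).mp h)⟩
  let P : Submodule F V → Submodule F V → Prop := fun U W =>
    Disjoint U W ∧ InvS ρ U ∧ InvS ρ W ∧ (∃ A : LinearMap.BilinForm F V, (∀ x, A x x = 0) ∧
      Good ρ U A) ∧ (∃ S : LinearMap.BilinForm F V, (∀ x y, S x y = S y x) ∧ Good ρ W S) ∧
      (p = 2 → ∀ g : G, ∀ w ∈ W, ρ g w = w)
  have hstep : ∀ U W, P U W → U ⊔ W ≠ ⊤ → ∃ U' W', P U' W' ∧ U ⊔ W < U' ⊔ W' := by
    rintro U W ⟨hd, hU, hW, ⟨A, hA0, hA⟩, ⟨S, hS0, hS⟩, h2⟩ hne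
    obtain ⟨C, hC, -, -⟩ := combine ρ hd hU hW hA hS
    obtain ⟨β, hβ0, hβinv, hβN⟩ := exists_form ρ hB hBinv (invS_sup ρ hU hW) hC hne
    have hlt : ∀ X : Submodule F V, X ≠ ⊥ → Disjoint (U ⊔ W) X → U ⊔ W < (U ⊔ W) ⊔ X := by
      intro X hX hdX
      refine lt_of_le_of_ne le_sup_left fun h => hX ?_
      have : X ≤ U ⊔ W := by rw [h]; exact le_sup_right
      exact hdX.symm.eq_bot_of_le this
    have halt : ∀ γ : LinearMap.BilinForm F V, γ ≠ 0 →
        (∀ g : G, ∀ x y : V, γ (ρ g x) (ρ g y) = γ x y) → (∀ x, γ x x = 0) →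
        (∀ n ∈ U ⊔ W, ∀ v, γ n v = 0) → ∃ U' W', P U' W' ∧ U ⊔ W < U' ⊔ W' := by
      intro γ h0 hinv ha hN
      have hrefl : ∀ x y, γ x y = 0 → γ y x = 0 := fun x y h => by
        have := LinearMap.IsAlt.neg (B := γ) ha x y
        rw [← this, h, neg_zero]
      obtain ⟨X, hX0, hX, hdX, hg⟩ := exists_piece ρ h0 hinv hrefl hN
      obtain ⟨C', hC', hC1, -⟩ := combine ρ (hdX.mono_left le_sup_left) hU hX hA hg
      refine ⟨U ⊔ X, W, ⟨?_, invS_sup ρ hU hX, hW, ⟨C', hC1 hA0 ha, hC'⟩, ⟨S, hS0, hS⟩, h2⟩, ?_⟩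
      · exact (Disjoint.disjoint_sup_right_of_disjoint_sup_left hd.symm
          (by rw [sup_comm]; exact hdX)).symm
      · rw [sup_right_comm]; exact hlt X hX0 hdX
    have hsym : ∀ X : Submodule F V, X ≠ ⊥ → InvS ρ X → Disjoint (U ⊔ W) X → Good ρ X β →
        (∀ x y, β x y = β y x) → (p = 2 → ∀ g : G, ∀ w ∈ X, ρ g w = w) →
        ∃ U' W', P U' W' ∧ U ⊔ W < U' ⊔ W' := by
      intro X hX0 hX hdX hg hs hX2
      obtain ⟨C', hC', -, hC1⟩ := combine ρ (hdX.mono_left le_sup_right) hW hX hS hg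
      refine ⟨U, W ⊔ X, ⟨?_, hU, invS_sup ρ hW hX, ⟨A, hA0, hA⟩, ⟨C', hC1 hS0 hs, hC'⟩, ?_⟩, ?_⟩
      · exact Disjoint.disjoint_sup_right_of_disjoint_sup_left hd hdX
      · intro hp g v hv
        obtain ⟨w, hw, x, hx, rfl⟩ := Submodule.mem_sup.mp hv
        rw [map_add, h2 hp g w hw, hX2 hp g x hx]
      · rw [← sup_assoc]; exact hlt X hX0 hdX
    by_cases hs : ∀ x y, β x y = β y x
    · by_cases hp : p = 2
      · by_cases ha : ∀ x, β x x = 0
        · exact halt β hβ0 hβinv ha fun n hn v => (hβN n hn v).1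
        · push Not at ha
          obtain ⟨x, hx⟩ := ha
          have := Fintype.ofFinite G
          subst hp
          have hadd : ∀ s : Finset G, β (∑ g ∈ s, ρ g x) (∑ g ∈ s, ρ g x) = s.card * β x x := by
            intro s
            induction s using Finset.induction_on with
            | empty => simp
            | insert a s ha ih =>
              rw [Finset.sum_insert ha, Finset.card_insert_of_notMem ha]
              simp only [map_add, LinearMap.add_apply]
              rw [ih, hβinv, hs (ρ a x) (∑ g ∈ s, ρ g x)]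
              have h2' : (2 : F) = 0 := CharTwo.two_eq_zero
              push_cast
              linear_combination (β (∑ g ∈ s, ρ g x) (ρ a x)) * h2'
          set w := ∑ g : G, ρ g x with hw
          have hww : β w w ≠ 0 := by
            rw [hw, hadd, Finset.card_univ, ← Nat.card_eq_fintype_card]
            exact mul_ne_zero (NeZero.ne _) hx
          have hfix : ∀ g : G, ρ g w = w := by
            intro g
            rw [hw, map_sum]
            refine Fintype.sum_equiv (Equiv.mulLeft g) _ _ fun h => ?_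
            rw [Equiv.coe_mulLeft, map_mul, Module.End.mul_apply]
          have hfix' : ∀ g : G, ∀ v ∈ Submodule.span F {w}, ρ g v = v := by
            intro g v hv
            obtain ⟨c, rfl⟩ := Submodule.mem_span_singleton.mp hv
            rw [map_smul, hfix]
          have hw0 : w ≠ 0 := fun h => hww (by rw [h]; simp)
          refine hsym (Submodule.span F {w}) (fun h => hw0 (Submodule.span_singleton_eq_bot.mp h))
            (fun g v hv => by rw [hfix' g v hv]; exact hv) ?_ ⟨fun g x _ y _ => hβinv g x y, ?_⟩ hs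
            (fun _ => hfix')
          · exact (Submodule.disjoint_span_singleton' hw0).mpr fun h => hww (hβN w h w).1
          · intro v hv h
            obtain ⟨c, rfl⟩ := Submodule.mem_span_singleton.mp hv
            have := h w (Submodule.mem_span_singleton_self w)
            simp only [map_smul, LinearMap.smul_apply, smul_eq_mul, mul_eq_zero] at this
            rcases this with h | h
            · rw [h, zero_smul]
            · exact absurd h hww
      · obtain ⟨X, hX0, hX, hdX, hg⟩ := exists_piece ρ hβ0 hβinv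
          (fun x y h => by rw [hs, h]) fun n hn v => (hβN n hn v).1
        exact hsym X hX0 hX hdX hg hs fun h => absurd h hp
    · refine halt (β - β.flip) ?_ ?_ ?_ ?_
      · intro h
        apply hs
        intro x y
        have := congrArg (fun γ : LinearMap.BilinForm F V => γ x y) h
        simpa [sub_eq_zero] using this
      · intro g x y
        simp [hβinv]
      · intro x
        simp
      · intro n hn v
        simp [(hβN n hn v).1, (hβN n hn v).2]
  have hP0 : P ⊥ ⊥ := by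
    have hg : Good ρ (⊥ : Submodule F V) 0 := ⟨fun _ _ _ _ _ => rfl, fun x hx _ => hx⟩
    have hi : InvS ρ (⊥ : Submodule F V) := fun g u hu => by
      rw [(Submodule.mem_bot F).mp hu]; simp
    exact ⟨disjoint_bot_left, hi, hi, ⟨0, fun _ => rfl, hg⟩, ⟨0, fun _ _ => rfl, hg⟩,
      fun _ g w hw => by rw [(Submodule.mem_bot F).mp hw]; simp⟩
  have hfin : ∀ N : Submodule F V, ∀ U W, P U W → U ⊔ W = N → ∃ U' W', P U' W' ∧ U' ⊔ W' = ⊤ := by
    intro N
    induction N using WellFoundedGT.induction with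
    | ind N ih =>
      intro U W hP hN
      by_cases h : U ⊔ W = ⊤
      · exact ⟨U, W, hP, h⟩
      · obtain ⟨U', W', hP', hlt⟩ := hstep U W hP h
        exact ih _ (hN ▸ hlt) U' W' hP' rfl
  obtain ⟨U, W, ⟨hd, hU, hW, ⟨A, hA0, hA⟩, ⟨S, hS0, hS⟩, h2⟩, htop⟩ := hfin _ ⊥ ⊥ hP0 rfl
  exact ⟨U, W, ⟨hd, codisjoint_iff.mpr htop⟩, hU, hW, ⟨A, hA0, hA.1, hA.2⟩,
    ⟨S, hS0, hS.1, hS.2⟩, h2⟩

end Cfsg.Agent.S4966
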