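import Mathlib
import Cfsg.Statements.S4967


set_option autoImplicit false
open Cfsg

namespace Cfsg.Agent.S4967

section aux
variable {F : Type*} [Field F] [Fintype F] {H : Type*} [CommGroup H] [Finite H]

theorem key {E : Type*} [Field E] [Algebra F E] [Finite E] (ι : H →* E)
    (hinj : Function.Injective ι) (hspan : Submodule.span F (Set.range ι) = ⊤)
    (hn : 2 ≤ Module.finrank F E) :
    (∃ B : LinearMap.BilinForm F E, B.Nondegenerate ∧
      ∀ h : H, ∀ x y : E, B (ι h * x) (ι h * y) = B x y) ↔
    (Even (Module.finrank F E) ∧ Nat.card H ∣ Fintype.card F ^ (Module.finrank F E / 2) + 1) := by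
  classical
  have hinv : ∀ h : H, ι h * ι h⁻¹ = 1 := fun h => by rw [← map_mul, mul_inv_cancel, map_one]
  have hfrob : ∀ (k : ℕ) (x : E),
      (FiniteField.frobeniusAlgHom F E ^ k) x = x ^ (Fintype.card F ^ k) := by
    intro k x
    rw [AlgHom.coe_pow, FiniteField.coe_frobeniusAlgHom, pow_iterate]
  constructor
  · rintro ⟨B, hB, hBinv⟩
    let σ₀ : E →ₗ[F] E := (B.flip.toDual hB.flip).symm.toLinearMap ∘ₗ
      ((LinearMap.mul F E).compr₂ (B.flip 1))
    have hσ₀ : ∀ a x, B x (σ₀ a) = B (a * x) 1 := by
      intro a x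
      exact LinearMap.BilinForm.apply_toDual_symm_apply (hB := hB.flip)
        (((LinearMap.mul F E).compr₂ (B.flip 1)) a) x
    have hσι : ∀ h : H, σ₀ (ι h) = ι h⁻¹ := by
      intro h
      rw [← sub_eq_zero]
      refine hB.2 _ fun x => ?_
      rw [map_sub, hσ₀, ← hBinv h x (ι h⁻¹), hinv, sub_self]
    have hmul : ∀ a b, σ₀ (a * b) = σ₀ a * σ₀ b := by
      have h1 : ∀ (h : H) (b : E), σ₀ (ι h * b) = σ₀ (ι h) * σ₀ b := by
        intro h b
        have : σ₀ ∘ₗ LinearMap.mulLeft F (ι h) = LinearMap.mulLeft F (σ₀ (ι h)) ∘ₗ σ₀ := by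
          refine LinearMap.ext_on_range hspan fun k => ?_
          simp only [LinearMap.comp_apply, LinearMap.mulLeft_apply]
          rw [← map_mul, hσι, hσι, hσι, ← map_mul, mul_inv]
        exact LinearMap.congr_fun this b
      intro a b
      have : σ₀ ∘ₗ LinearMap.mulRight F b = LinearMap.mulRight F (σ₀ b) ∘ₗ σ₀ := by
        refine LinearMap.ext_on_range hspan fun k => ?_
        simp only [LinearMap.comp_apply, LinearMap.mulRight_apply]
        exact h1 k b
      exact LinearMap.congr_fun this a
    have hone : σ₀ 1 = 1 := by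
      have := hσι 1
      rwa [inv_one, map_one] at this
    let σ : E →ₐ[F] E := AlgHom.ofLinearMap σ₀ hone hmul
    obtain ⟨k, hk⟩ := (FiniteField.bijective_frobeniusAlgHom_pow F E).2 σ
    have hk' : FiniteField.frobeniusAlgHom F E ^ k.1 = σ := hk
    have hσσ : σ * σ = 1 := by
      apply AlgHom.toLinearMap_injective
      refine LinearMap.ext_on_range hspan fun h => ?_
      show σ₀ (σ₀ (ι h)) = ι h
      rw [hσι, hσι, inv_inv]
    have hdvd : Module.finrank F E ∣ k.1 + k.1 := by
      have h1 : orderOf (FiniteField.frobeniusAlgHom F E) ∣ k.1 + k.1 := by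
        apply orderOf_dvd_of_pow_eq_one
        rw [pow_add, hk', hσσ]
      rwa [FiniteField.orderOf_frobeniusAlgHom F E] at h1
    have hk0 : k.1 ≠ 0 := by
      intro h0
      rw [h0, pow_zero] at hk'
      have h1 : Submodule.span F (Set.range ι) ≤ Submodule.span F {(1 : E)} := by
        refine Submodule.span_le.mpr ?_
        rintro _ ⟨h, rfl⟩
        have h2 : ι h = ι h⁻¹ := by
          rw [← hσι]
          exact congrArg (fun f : E →ₐ[F] E => f (ι h)) hk'
        have h3 : ι h * ι h = 1 := by
          conv_lhs => rw [h2]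
          rw [← h2]
          nth_rewrite 2 [h2]
          exact hinv h
        rcases mul_self_eq_one_iff.mp h3 with h4 | h4
        · rw [h4]; exact Submodule.mem_span_singleton_self _
        · rw [h4]; exact Submodule.neg_mem _ (Submodule.mem_span_singleton_self _)
      rw [hspan] at h1
      have h2 := Submodule.finrank_mono h1
      rw [finrank_top, finrank_span_singleton one_ne_zero] at h2
      omega
    have hk2 : Module.finrank F E = k.1 + k.1 := by
      obtain ⟨c, hc⟩ := hdvd
      have := k.2
      have hc2 : c < 2 := by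
        by_contra hc2
        have : Module.finrank F E * 2 ≤ Module.finrank F E * c :=
          Nat.mul_le_mul_left _ (by omega)
        omega
      interval_cases c <;> omega
    refine ⟨⟨k.1, hk2⟩, ?_⟩
    have hk3 : Module.finrank F E / 2 = k.1 := by omega
    rw [hk3]
    have hcyc : IsCyclic H := isCyclic_of_injective_ringHom ι hinj
    rw [← IsCyclic.exponent_eq_card]
    refine Monoid.exponent_dvd_of_forall_pow_eq_one fun h => hinj ?_
    have h1 : ι h ^ (Fintype.card F ^ k.1) = ι h⁻¹ := by
      rw [← hfrob, hk']; exact hσι h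
    rw [map_pow, pow_succ, h1, mul_comm, hinv, map_one]
  · rintro ⟨-, hdvd⟩
    set m := Module.finrank F E / 2
    let σ := FiniteField.frobeniusAlgHom F E ^ m
    have hσs : Function.Surjective σ :=
      Finite.surjective_of_injective (RingHom.injective σ.toRingHom)
    obtain ⟨l, hl⟩ : ∃ l : Module.Dual F E, l 1 ≠ 0 :=
      Module.Projective.exists_dual_ne_zero F (one_ne_zero : (1 : E) ≠ 0)
    let B : LinearMap.BilinForm F E := ((LinearMap.mul F E).compr₂ l).compl₂ σ.toLinearMap
    have hB : ∀ x y, B x y = l (x * σ y) := fun x y => rfl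
    refine ⟨B, LinearMap.BilinForm.Nondegenerate.ofSeparatingLeft fun x hx => ?_, ?_⟩
    · by_contra h0
      obtain ⟨y, hy⟩ := hσs x⁻¹
      have := hx y
      rw [hB, hy, mul_inv_cancel₀ h0] at this
      exact hl this
    · intro h x y
      have h1 : ι h * σ (ι h) = 1 := by
        rw [hfrob, ← pow_succ', ← map_pow,
          orderOf_dvd_iff_pow_eq_one.mp ((orderOf_dvd_natCard h).trans hdvd), map_one]
      rw [hB, hB, map_mul σ]
      refine congrArg l ?_
      linear_combination (x * σ y) * h1

end aux

/-- Let F be a finite field with r elements and of characteristic p, H a finite abelian group of order prime to p, and V a faithful irreducible representation of H over F of dimension n (faithful: distinct elements act differently; irreducible: the only H-invariant subspaces are 0 and V). Call V self-dual when it carries a nondegenerate H-invariant bilinear form. If n = 1 and V is self-dual then H has order at most 2. If n ≥ 2 then V is self-dual if and only if n is even and the order of H divides r^(n/2) + 1. -/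
theorem result {F : Type*} [Field F] [Fintype F] (p : ℕ) [Fact p.Prime] [CharP F p] {H : Type*} [CommGroup H] [Finite H] (hcop : ¬ p ∣ Nat.card H) {V : Type*} [AddCommGroup V] [Module F V] [FiniteDimensional F V] (ρ : Representation F H V) (hfaith : Function.Injective ρ) (hirr : ∀ U : Submodule F V, (∀ h : H, ∀ u ∈ U, ρ h u ∈ U) → U = ⊥ ∨ U = ⊤) : (Module.finrank F V = 1 → (∃ B : LinearMap.BilinForm F V, B.Nondegenerate ∧ ∀ h : H, ∀ x y : V, B (ρ h x) (ρ h y) = B x y) → Nat.card H ≤ 2) ∧ (2 ≤ Module.finrank F V → ((∃ B : LinearMap.BilinForm F V, B.Nondegenerate ∧ ∀ h : H, ∀ x y : V, B (ρ h x) (ρ h y) = B x y) ↔ (Even (Module.finrank F V) ∧ Nat.card H ∣ Fintype.card F ^ (Module.finrank F V / 2) + 1))) := by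
  classical
  refine ⟨?_, ?_⟩
  · rintro h1 ⟨B, hB, hBinv⟩
    obtain ⟨v, hv0, hv⟩ := finrank_eq_one_iff'.mp h1
    have hBv : B v v ≠ 0 := by
      intro h
      refine hv0 (hB.1 v fun y => ?_)
      obtain ⟨c, rfl⟩ := hv y
      rw [map_smul, h, smul_zero]
    have hpm : ∀ h : H, ρ h v = v ∨ ρ h v = -v := by
      intro h
      obtain ⟨c, hc⟩ := hv (ρ h v)
      have h2 := hBinv h v v
      rw [← hc] at h2
      simp only [map_smul, LinearMap.smul_apply, smul_eq_mul] at h2
      have h3 : c * c = 1 := by
        apply mul_right_cancel₀ hBv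
        rw [mul_assoc, h2, one_mul]
      rcases mul_self_eq_one_iff.mp h3 with h4 | h4
      · left; rw [← hc, h4, one_smul]
      · right; rw [← hc, h4, neg_one_smul]
    let f : H → Bool := fun h => decide (ρ h v = v)
    have hf : Function.Injective f := by
      intro a b hab
      apply hfaith
      have h2 : ρ a v = ρ b v := by
        have hab' : (ρ a v = v) ↔ (ρ b v = v) := by simpa [f] using hab
        by_cases ha : ρ a v = v
        · rw [ha, hab'.mp ha]
        · have hb : ¬ ρ b v = v := fun h => ha (hab'.mpr h)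
          rw [(hpm a).resolve_left ha, (hpm b).resolve_left hb]
      ext y
      obtain ⟨c, rfl⟩ := hv y
      rw [map_smul, map_smul, h2]
    have := Nat.card_le_card_of_injective f hf
    simpa using this
  · intro hn
    have hnt : Nontrivial V := Module.nontrivial_of_finrank_pos (R := F) (by omega)
    obtain ⟨v, hv⟩ := exists_ne (0 : V)
    let φ : MonoidAlgebra F H →ₐ[F] Module.End F V := ρ.asAlgebraHom
    have hφ : ∀ h : H, φ (MonoidAlgebra.of F H h) = ρ h := fun h => ρ.asAlgebraHom_of h
    have hcomm : ∀ a b (x : V), φ a (φ b x) = φ b (φ a x) := by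
      intro a b x
      rw [← Module.End.mul_apply, ← map_mul, mul_comm, map_mul, Module.End.mul_apply]
    have hker : ∀ a (x : V), x ≠ 0 → φ a x = 0 → φ a = 0 := by
      intro a x hx h
      rcases hirr (LinearMap.ker (φ a)) (fun g u hu => by
        rw [LinearMap.mem_ker] at hu ⊢
        rw [← hφ, hcomm, hu, map_zero]) with h' | h'
      · exact absurd ((Submodule.eq_bot_iff _).mp h' x h) hx
      · exact LinearMap.ker_eq_top.mp h'
    let I : Ideal (MonoidAlgebra F H) := RingHom.ker φ
    have hI : I.IsPrime := by
      refine ⟨fun h => ?_, fun {a b} hab => ?_⟩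
      · have h1 : (1 : MonoidAlgebra F H) ∈ I := by rw [h]; trivial
        have h2 : φ 1 = 0 := h1
        rw [map_one] at h2
        exact one_ne_zero h2
      · have h1 : φ (a * b) = 0 := hab
        by_cases hb : φ b v = 0
        · exact Or.inr (hker b v hv hb)
        · refine Or.inl (hker a _ hb ?_)
          rw [← Module.End.mul_apply, ← map_mul, h1]; rfl
    have hfinA : Finite (MonoidAlgebra F H) := Module.finite_of_finite F
    have hfinE : Finite (MonoidAlgebra F H ⧸ I) := Finite.of_surjective _ Ideal.Quotient.mk_surjective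
    letI : Field (MonoidAlgebra F H ⧸ I) := (Finite.isField_of_domain _).toField
    let ι : H →* (MonoidAlgebra F H ⧸ I) :=
      (Ideal.Quotient.mk I).toMonoidHom.comp (MonoidAlgebra.of F H)
    let ψ : (MonoidAlgebra F H ⧸ I) →ₐ[F] Module.End F V :=
      Ideal.Quotient.liftₐ I φ (fun _ h => h)
    have hψ : ∀ a, ψ (Ideal.Quotient.mk I a) = φ a := fun a => rfl
    have hψι : ∀ h, ψ (ι h) = ρ h := fun h => hφ h
    let e₀ : (MonoidAlgebra F H ⧸ I) →ₗ[F] V := (LinearMap.applyₗ v) ∘ₗ ψ.toLinearMap
    have he₀ : ∀ a, e₀ a = ψ a v := fun a => rfl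
    have hmul : ∀ (h : H) a, e₀ (ι h * a) = ρ h (e₀ a) := by
      intro h a
      rw [he₀, he₀, map_mul, hψι, Module.End.mul_apply]
    have hbij : Function.Bijective e₀ := by
      constructor
      · rw [injective_iff_map_eq_zero]
        intro a ha
        obtain ⟨a, rfl⟩ := Ideal.Quotient.mk_surjective a
        exact Ideal.Quotient.eq_zero_iff_mem.mpr (hker a v hv ha)
      · rcases hirr (LinearMap.range e₀) (fun g u hu => by
          obtain ⟨a, rfl⟩ := hu
          exact ⟨_, hmul g a⟩) with h' | h'
        · exfalso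
          apply hv
          refine (Submodule.eq_bot_iff _).mp h' v ⟨1, ?_⟩
          rw [he₀, map_one, Module.End.one_apply]
        · exact LinearMap.range_eq_top.mp h'
    let e : (MonoidAlgebra F H ⧸ I) ≃ₗ[F] V := LinearEquiv.ofBijective e₀ hbij
    have he : ∀ (h : H) a, e (ι h * a) = ρ h (e a) := hmul
    have hinj : Function.Injective ι := fun a b hab => hfaith (by rw [← hψι, ← hψι, hab])
    have hspan : Submodule.span F (Set.range ι) = ⊤ := by
      rw [eq_top_iff]
      rintro a -
      obtain ⟨a, rfl⟩ := Ideal.Quotient.mk_surjective a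
      induction a using MonoidAlgebra.induction_on with
      | of g => exact Submodule.subset_span ⟨g, rfl⟩
      | add a b ha hb => rw [map_add]; exact Submodule.add_mem _ ha hb
      | smul c a ha =>
        have : Ideal.Quotient.mk I (c • a) = c • Ideal.Quotient.mk I a :=
          (Ideal.Quotient.mkₐ F I).toLinearMap.map_smul c a
        rw [this]; exact Submodule.smul_mem _ _ ha
    have hrk : Module.finrank F (MonoidAlgebra F H ⧸ I) = Module.finrank F V := e.finrank_eq
    have hkey := key (F := F) ι hinj hspan (by rw [hrk]; exact hn)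
    rw [hrk] at hkey
    rw [← hkey]
    constructor
    · rintro ⟨B, hB, hBinv⟩
      refine ⟨LinearMap.BilinForm.congr e.symm B, hB.congr e.symm, fun h x y => ?_⟩
      simp only [LinearMap.BilinForm.congr_apply, LinearEquiv.symm_symm]
      rw [he, he, hBinv]
    · rintro ⟨B, hB, hBinv⟩
      refine ⟨LinearMap.BilinForm.congr e B, hB.congr e, fun h x y => ?_⟩
      simp only [LinearMap.BilinForm.congr_apply]
      have h1 : ∀ z, e.symm (ρ h z) = ι h * e.symm z := fun z => by
        apply e.injective
        rw [he, e.apply_symm_apply, e.apply_symm_apply]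
      rw [h1, h1, hBinv]

end Cfsg.Agent.S4967
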