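import Cfsg.Statements.S5015
import Cfsg.Agent.Lib.RootSub.RankOne

set_option autoImplicit false
open Cfsg

namespace Cfsg.Agent.S5015

open CfsgLib.RootSub

/-- Let a group Y act doubly transitively on a set Ω with at least three points, and suppose that the stabilizer of a point α contains a nilpotent subgroup A, normalized by that stabilizer, which acts regularly on the points other than α. Then for any y in Y moving α, the subgroups A and y A y⁻¹ are the unipotent subgroups of a rank one group, and the normal closure of A in Y (the subgroup generated by all conjugates of A) is generated by A and y A y⁻¹ alone. -/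
theorem result {Y Ω : Type*} [Group Y] [MulAction Y Ω]
    (h2 : MulAction.IsMultiplyPretransitive Y Ω 2) (hΩ : 3 ≤ ENat.card Ω) (α : Ω) (A : Subgroup Y)
    (hA : A ≤ MulAction.stabilizer Y α) (hAn : ∀ y ∈ MulAction.stabilizer Y α, Cfsg.conjBy A y = A)
    (hnil : Group.IsNilpotent A) (hreg : ∀ β γ : Ω, β ≠ α → γ ≠ α → ∃! a : Y, a ∈ A ∧ a • β = γ)
    (y : Y) (hy : y ∉ MulAction.stabilizer Y α) :
    Cfsg.IsRankOnePair A (Cfsg.conjBy A y) ∧ Subgroup.normalClosure (A : Set Y) = A ⊔ Cfsg.conjBy A y := by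
  have hfix : ∀ a ∈ A, a • α = α := fun a ha => hA ha
  have hone : ∀ a ∈ A, ∀ β, β ≠ α → a • β = β → a = 1 := fun a ha β hβ e =>
    (hreg β β hβ hβ).unique ⟨ha, e⟩ ⟨A.one_mem, one_smul _ _⟩
  have hy' : y • α ≠ α := hy
  have hex : ∃ a ∈ A, a ≠ 1 := by
    have : ∃ γ : Ω, γ ≠ α ∧ γ ≠ y • α := by
      by_contra hcon
      push Not at hcon
      have hsub : (Set.univ : Set Ω) ⊆ {α, y • α} := fun γ _ => by
        by_cases h : γ = α
        · exact Or.inl h
        · exact Or.inr (hcon γ h)
      have h1 := Set.encard_le_encard hsub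
      rw [Set.encard_univ, Set.encard_pair hy'.symm] at h1
      exact absurd (hΩ.trans h1) (by norm_num)
    obtain ⟨γ, h1, h2⟩ := this
    obtain ⟨a, ⟨ha, e⟩, -⟩ := hreg (y • α) γ hy' h1
    exact ⟨a, ha, by rintro rfl; rw [one_smul] at e; exact h2 e.symm⟩
  have key : ∀ g g' : Y, conjBy A g = conjBy A g' ↔ g • α = g' • α := by
    intro g g'
    rw [conjBy_eq_conjBy_iff]
    constructor
    · intro e
      obtain ⟨a, ha, ha1⟩ := hex
      have h1 : (g'⁻¹ * g)⁻¹ * a * (g'⁻¹ * g) ∈ A := mem_conjBy.1 (e.symm ▸ ha)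
      have h2 := hfix _ h1
      rw [mul_smul, mul_smul, inv_smul_eq_iff] at h2
      by_contra hne
      refine ha1 (hone a ha _ (fun h3 => hne ?_) h2)
      rw [mul_smul, inv_smul_eq_iff] at h3
      exact h3
    · intro e
      refine hAn _ ?_
      rw [MulAction.mem_stabilizer_iff, mul_smul, e, inv_smul_smul]
  have hyi : y⁻¹ • α ≠ α := fun e => hy' (by rw [inv_smul_eq_iff] at e; exact e.symm)
  refine ⟨r1_of_partner ?_ hnil (isNilpotent_conjBy hnil y) ?_ ?_, ?_⟩
  · intro e
    have := (key 1 y).1 (by rw [conjBy_one]; exact e)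
    rw [one_smul] at this
    exact hy' this.symm
  · intro a ha ha1
    have h1 : y⁻¹ • a • y • α ≠ α := by
      intro e
      rw [inv_smul_eq_iff] at e
      exact ha1 (hone a ha _ hy' e)
    obtain ⟨a', ⟨ha', e⟩, -⟩ := hreg _ _ hyi h1
    refine ⟨y * a' * y⁻¹, conj_mem_conjBy ha' y, ?_, ?_⟩
    · intro h2
      have h3 : a' = 1 := by simpa using h2
      rw [h3, one_smul, smul_left_cancel_iff, ← inv_smul_eq_iff, hfix _ (A.inv_mem ha)] at e
      exact hy' e.symm
    · rw [conjBy_conjBy, key, mul_smul, mul_smul, e, smul_inv_smul, mul_smul]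
  · intro b hb hb1
    obtain ⟨a', ha', rfl⟩ := mem_conjBy'.1 hb
    have ha1 : a' ≠ 1 := by rintro rfl; simp at hb1
    have h1 : (y * a' * y⁻¹) • α ≠ α := by
      intro e
      rw [mul_smul, mul_smul, ← eq_inv_smul_iff] at e
      exact ha1 (hone a' ha' _ hyi e)
    obtain ⟨a, ⟨ha, e⟩, -⟩ := hreg _ _ hy' h1
    refine ⟨a, ha, ?_, ?_⟩
    · rintro rfl
      rw [one_smul, mul_smul, mul_smul, smul_left_cancel_iff, ← inv_smul_eq_iff,
        hfix _ (A.inv_mem ha')] at e
      exact hyi e.symm
    · rw [conjBy_conjBy, key, ← e, mul_smul]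
  · refine le_antisymm ?_ (sup_le Subgroup.le_normalClosure ?_)
    · rw [Subgroup.normalClosure, Subgroup.closure_le]
      intro x hx
      obtain ⟨a, ha, hc⟩ := Group.mem_conjugatesOfSet_iff.1 hx
      obtain ⟨g, rfl⟩ := isConj_iff.1 hc
      have h1 : g * a * g⁻¹ ∈ conjBy A g := conj_mem_conjBy ha g
      by_cases hg : g • α = α
      · rw [hAn g hg] at h1
        exact Subgroup.mem_sup_left h1
      · obtain ⟨a', ⟨ha', e⟩, -⟩ := hreg _ _ hy' hg
        rw [(key g (a' * y)).2 (by rw [mul_smul, e]), ← conjBy_conjBy] at h1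
        exact conjBy_le_of_mem le_sup_right (Subgroup.mem_sup_left ha') h1
    · intro x hx
      obtain ⟨a, ha, rfl⟩ := mem_conjBy'.1 hx
      exact (Subgroup.normalClosure_normal).conj_mem a (Subgroup.le_normalClosure ha) y

end Cfsg.Agent.S5015
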