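import Cfsg.Statements.S5020
import Cfsg.Agent.Lib.RootSub.SL2Pres

set_option autoImplicit false
open Cfsg

namespace Cfsg.Agent.S5020

open CfsgLib.RootSub

/-- Let X be a special rank one group with abelian unipotent subgroups A and B, and H = N(A) ∩ N(B) its diagonal subgroup. Then either A has at most three elements and X is isomorphic to SL₂(2), SL₂(3) or PSL₂(3); or X = X' A with the commutator subgroup X' quasisimple and the commutator subgroup ⁅A, H⁆ having more than three elements. -/
theorem result {X : Type*} [Group X] {A B : Subgroup X} (h : Cfsg.IsRankOneGroup X A B)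
    (hs : Cfsg.IsSpecialRankOnePair A B) (hab : Cfsg.HasAbelianUnipotents A B) :
    (ENat.card A ≤ 3 ∧ (Nonempty (X ≃* Matrix.SpecialLinearGroup (Fin 2) (ZMod 2)) ∨
        Nonempty (X ≃* Matrix.SpecialLinearGroup (Fin 2) (ZMod 3)) ∨
        Nonempty (X ≃* Matrix.ProjectiveSpecialLinearGroup (Fin 2) (ZMod 3)))) ∨
    (commutator X ⊔ A = ⊤ ∧ Cfsg.IsQuasisimple (commutator X) ∧
      3 < ENat.card ↥(⁅A, Cfsg.rankOneDiagonal A B⁆ : Subgroup X)) := by
  have hc : Comm A A := comm_self_iff.2 hab.1
  by_cases h3 : 3 < ENat.card A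
  · right
    have hp : commutator X = ⊤ := by
      have := sp_perfect hs hc h3
      rwa [h.1] at this
    refine ⟨by rw [hp, top_sup_eq], ?_, by rwa [sp_commutator_diag hs hc h3]⟩
    rw [hp]
    refine r1g_quasisimple (A := A.subgroupOf ⊤) (B := B.subgroupOf ⊤)
      ⟨?_, r1_subgroupOf h.2 le_top le_top⟩ (Group.IsPerfect.top_iff.2 ⟨hp⟩)
    have := (r1_group h.2).1
    rwa [h.1] at this
  · left
    refine ⟨not_lt.1 h3, ?_⟩
    obtain ⟨a, ha, ha1⟩ := r1_exists h.2
    obtain ⟨b, hb, hb1, e⟩ := r1_partner h.2 ha ha1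
    have hno : ∀ x ∈ A, ∀ y ∈ A, ∀ z ∈ A, x ≠ 1 → y ≠ 1 → z ≠ 1 → x ≠ y → x ≠ z → y ≠ z →
        False := by
      intro x hx y hy z hz h1 h2 h4 h5 h6 h7
      apply h3
      have hsub : ({1, x, y, z} : Set X) ⊆ A := by
        rintro _ (rfl | rfl | rfl | rfl)
        exacts [A.one_mem, hx, hy, hz]
      have := Set.encard_le_encard hsub
      rw [Set.encard_insert_of_notMem (by simp [h1.symm, h2.symm, h4.symm]),
        Set.encard_insert_of_notMem (by simp [h5, h6]), Set.encard_pair h7] at this
      exact lt_of_lt_of_le (by norm_num) this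
    have hgen : (∀ x ∈ A, x ∈ Subgroup.zpowers a) → Subgroup.zpowers a ⊔ Subgroup.zpowers b = ⊤ := by
      intro hA
      have hAe : A = Subgroup.zpowers a := le_antisymm hA (Subgroup.zpowers_le.2 ha)
      have br := sp_braid hs ha ha1 hb e
      have hsw := sw_of_braid h.2 ha ha1 (B.inv_mem hb) br
      rw [eq_top_iff, ← h.1]
      refine sup_le (hAe ▸ le_sup_left) ?_
      rw [← hsw.1]
      refine conjBy_le_of_mem (hAe ▸ le_sup_left) ?_
      have h1 : a ∈ Subgroup.zpowers a ⊔ Subgroup.zpowers b :=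
        Subgroup.mem_sup_left (Subgroup.mem_zpowers a)
      exact Subgroup.mul_mem _ (Subgroup.mul_mem _ h1 (Subgroup.inv_mem _
        (Subgroup.mem_sup_right (Subgroup.mem_zpowers b)))) h1
    by_cases h2 : a ^ (1 + 1) = 1
    · left
      have hA := sp_exponent hs hc ha ha1 h2
      have hg := hgen fun x hx => by
        by_cases hx1 : x = 1
        · rw [hx1]; exact Subgroup.one_mem _
        by_cases hxa : x = a
        · rw [hxa]; exact Subgroup.mem_zpowers a
        exfalso
        refine hno a ha x hx (a * x) (A.mul_mem ha hx) ha1 hx1 (fun h0 => hxa ?_) (Ne.symm hxa)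
          (by simpa using hx1) (by simpa using ha1)
        rw [pow_succ, pow_one, ← h0] at h2
        exact (mul_left_cancel h2).symm
      have : Fact (Nat.Prime 2) := ⟨Nat.prime_two⟩
      obtain ⟨φ, hr, hk, -, -⟩ := sp_psl2_prime (p := 2) hs hA ha ha1 hb e
      rw [hg, MonoidHom.range_eq_top] at hr
      have hinj : Function.Injective φ := by
        rw [← MonoidHom.ker_eq_bot_iff, eq_bot_iff]
        intro g hg
        rcases (CfsgLib.SL2.mem_center_iff g).1 (hk hg) with rfl | rfl
        · exact Subgroup.one_mem _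
        · rw [Subgroup.mem_bot]
          apply CfsgLib.SL2.ext2 <;> rw [CfsgLib.SL2.neg_ap]
          exacts [rfl, neg_zero, neg_zero, rfl]
      exact ⟨(MulEquiv.ofBijective φ ⟨hinj, hr⟩).symm⟩
    · right
      have haa : a * a ≠ 1 := by rwa [pow_succ, pow_one] at h2
      have h4 : a ^ (2 + 1) = 1 := by
        by_contra h4
        refine hno a ha (a * a) (A.mul_mem ha ha) (a ^ (2 + 1)) (A.pow_mem ha _) ha1 haa h4
          (by simpa using ha1) (fun h0 => haa ?_) (fun h0 => ha1 ?_)
        · rw [pow_succ, pow_two] at h0; simpa using h0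
        · rw [pow_succ, pow_two] at h0; simpa using h0
      have hA := sp_exponent hs hc ha ha1 h4
      have hg := hgen fun x hx => by
        by_cases hx1 : x = 1
        · rw [hx1]; exact Subgroup.one_mem _
        by_cases hxa : x = a
        · rw [hxa]; exact Subgroup.mem_zpowers a
        by_cases hxa' : x = a * a
        · rw [hxa']; exact Subgroup.mul_mem _ (Subgroup.mem_zpowers a) (Subgroup.mem_zpowers a)
        exact (hno a ha (a * a) (A.mul_mem ha ha) x hx ha1 haa hx1 (by simpa using ha1)
          (Ne.symm hxa) (Ne.symm hxa')).elim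
      have : Fact (Nat.Prime 3) := ⟨Nat.prime_three⟩
      have := psl2_iso (sp_psl2_prime (p := 3) hs hA ha ha1 hb e)
      rw [hg] at this
      exact this.imp (fun ⟨f⟩ => ⟨Subgroup.topEquiv.symm.trans f⟩)
        (fun ⟨f⟩ => ⟨Subgroup.topEquiv.symm.trans f⟩)

end Cfsg.Agent.S5020
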