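import Cfsg.Statements.S5021
import Cfsg.Agent.Lib.RootSub.Special

set_option autoImplicit false
open Cfsg

namespace Cfsg.Agent.S5021

open CfsgLib.RootSub

/-- In a special rank one group with abelian unipotent subgroups A and B, either A is an elementary abelian p-group for some prime p, or A is torsion-free and divisible (every element of A has an n-th root in A for every positive n). -/
theorem result {X : Type*} [Group X] {A B : Subgroup X} (h : Cfsg.IsRankOneGroup X A B)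
    (hs : Cfsg.IsSpecialRankOnePair A B) (hab : Cfsg.HasAbelianUnipotents A B) :
    (∃ p : ℕ, p.Prime ∧ Cfsg.IsElementaryAbelian p A) ∨
    ((∀ a ∈ A, a ≠ 1 → ¬ IsOfFinOrder a) ∧ ∀ a ∈ A, ∀ n : ℕ, 0 < n → ∃ c ∈ A, c ^ n = a) := by
  have hc : Comm A A := comm_self_iff.2 hab.1
  by_cases hfin : ∃ a ∈ A, a ≠ 1 ∧ IsOfFinOrder a
  · left
    obtain ⟨a, ha, ha1, hf⟩ := hfin
    have hpos := hf.orderOf_pos
    have hne : orderOf a ≠ 1 := fun h1 => ha1 (orderOf_eq_one_iff.1 h1)
    obtain ⟨p, hp, m, hm⟩ := Nat.exists_prime_and_dvd hne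
    have hm0 : 0 < m := Nat.pos_of_ne_zero (by rintro rfl; omega)
    have h1 : a ^ m ≠ 1 := pow_ne_one_of_lt_orderOf hm0.ne' (by
      rw [hm]; exact lt_mul_left hm0 hp.one_lt)
    have h2 : (a ^ m) ^ (p - 1 + 1) = 1 := by
      rw [Nat.sub_add_cancel hp.one_le, ← pow_mul, mul_comm, ← hm, pow_orderOf_eq_one]
    refine ⟨p, hp, hab.1, fun b hb => ?_⟩
    have := sp_exponent hs hc (A.pow_mem ha m) h1 h2 b hb
    rwa [Nat.sub_add_cancel hp.one_le] at this
  · right
    push Not at hfin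
    refine ⟨hfin, fun a ha n hn => ?_⟩
    by_cases ha1 : a = 1
    · exact ⟨1, A.one_mem, by rw [ha1, one_pow]⟩
    obtain ⟨m, rfl⟩ : ∃ m, n = m + 1 := ⟨n - 1, by omega⟩
    exact sp_exists_root hs ha fun h0 =>
      hfin a ha ha1 (isOfFinOrder_iff_pow_eq_one.2 ⟨m + 1, hn, h0⟩)

end Cfsg.Agent.S5021
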