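import Cfsg.Statements.S5023
import Cfsg.Agent.Lib.RootSub.Special

set_option autoImplicit false
open Cfsg

namespace Cfsg.Agent.S5023

open CfsgLib.RootSub

/-- Let X be a rank one group with unipotent subgroups A and B that acts faithfully on an abelian group V (written additively) with A acting quadratically: a' • (a • v − v) = a • v − v for all a, a' in A and v in V. Then A is either torsion-free or an elementary abelian p-group for some prime p. -/
theorem result {X : Type*} [Group X] {A B : Subgroup X} (h : Cfsg.IsRankOneGroup X A B)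
    {V : Type*} [AddCommGroup V] [DistribMulAction X V] (hf : ∀ x : X, (∀ v : V, x • v = v) → x = 1)
    (hq : ∀ a ∈ A, ∀ a' ∈ A, ∀ v : V, a' • (a • v - v) = a • v - v) :
    (∀ a ∈ A, a ≠ 1 → ¬ IsOfFinOrder a) ∨ ∃ p : ℕ, p.Prime ∧ Cfsg.IsElementaryAbelian p A := by
  let ρ := DistribMulAction.toAddMonoidEnd X V
  have hq' : ∀ a ∈ A, ∀ a' ∈ A, (ρ a' - 1) * (ρ a - 1) = 0 := fun a ha a' ha' => by
    ext n
    have := hq a ha a' ha' n
    change a' • (a • n - n) - (a • n - n) = 0
    rw [this, sub_self]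
  have hcomm : ∀ x y : X, (ρ y - 1) * (ρ x - 1) = 0 → (ρ x - 1) * (ρ y - 1) = 0 →
      x * y = y * x := by
    intro x y h1 h2
    have h3 : ρ (x * y) = ρ (y * x) := by
      have e1 : ρ (x * y) = (ρ x - 1) * (ρ y - 1) + ρ x + ρ y - 1 := by
        rw [map_mul]; noncomm_ring
      have e2 : ρ (y * x) = (ρ y - 1) * (ρ x - 1) + ρ x + ρ y - 1 := by
        rw [map_mul]; noncomm_ring
      rw [e1, e2, h1, h2]
    have h4 : (y * x)⁻¹ * (x * y) = 1 := hf _ fun v => by
      have : (x * y) • v = (y * x) • v := DFunLike.congr_fun h3 v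
      rw [mul_smul, this, inv_smul_smul]
    exact (inv_mul_eq_one.1 h4).symm
  have hX : ∃ x y : X, (ρ y - 1) * (ρ x - 1) ≠ 0 := by
    by_contra hcon
    push Not at hcon
    exact r1_not_comm h.2 fun a _ b _ => hcomm a b (hcon a b) (hcon b a)
  by_cases hfin : ∃ a ∈ A, a ≠ 1 ∧ IsOfFinOrder a
  · right
    obtain ⟨a, ha, ha1, hf⟩ := hfin
    have hpos := hf.orderOf_pos
    have hne : orderOf a ≠ 1 := fun h1 => ha1 (orderOf_eq_one_iff.1 h1)
    obtain ⟨p, hp, m, hm⟩ := Nat.exists_prime_and_dvd hne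
    have hm0 : 0 < m := Nat.pos_of_ne_zero (by rintro rfl; omega)
    have h1 : a ^ m ≠ 1 := pow_ne_one_of_lt_orderOf hm0.ne' (by
      rw [hm]; exact lt_mul_left hm0 hp.one_lt)
    have h2 : (a ^ m) ^ p = 1 := by
      rw [← pow_mul, mul_comm, ← hm, pow_orderOf_eq_one]
    exact ⟨p, hp, comm_self_iff.1 fun a ha a' ha' => hcomm a a' (hq' a ha a' ha') (hq' a' ha' a ha),
      quad_exponent ρ h hq' hX (A.pow_mem ha m) h1 h2⟩
  · left
    push Not at hfin
    exact hfin

end Cfsg.Agent.S5023
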