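import Cfsg.Statements.S5026
import Cfsg.Agent.Lib.RootSub.Roots

set_option autoImplicit false
open Cfsg

namespace Cfsg.Agent.S5026

open CfsgLib.RootSub
open scoped commutatorElement

/-- Let S be a degenerate set of abstract root subgroups of G (a set of abstract transvection groups) and let a, b be commuting non-identity elements of members of S with a b ≠ 1. Then the members of S centralizing a b are exactly those centralizing both a and b. -/
theorem result {G : Type*} [Group G] {S : Set (Subgroup G)} (hS : Cfsg.IsRootSubgroupSet S) (hdeg : Cfsg.IsDegenerateRootSet S)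
    {a b : G} (ha : a ∈ Cfsg.rootElements S) (hb : b ∈ Cfsg.rootElements S) (hab : a * b = b * a) (hab1 : a * b ≠ 1) :
    Cfsg.centralizingMembers S (Subgroup.zpowers (a * b)) =
      Cfsg.centralizingMembers S (Subgroup.zpowers a) ∩ Cfsg.centralizingMembers S (Subgroup.zpowers b) := by
  have h := rs_of hS
  have hz : ∀ (x : G) (C : Subgroup G), C ≤ Subgroup.centralizer (Subgroup.zpowers x : Set G) ↔
      ∀ c ∈ C, x * c = c * x := by
    intro x C
    constructor
    · exact fun h' c hc => h' hc x (Subgroup.mem_zpowers x)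
    · rintro h' c hc _ ⟨n, rfl⟩
      exact (Commute.zpow_left (h' c hc) n)
  have key : ∀ {a b : G}, a ∈ rootElements S → b ∈ rootElements S → a * b = b * a → a * b ≠ 1 →
      ∀ C ∈ S, (∀ c ∈ C, a * b * c = c * (a * b)) → ∀ c ∈ C, a * c = c * a := by
    rintro a b ⟨ha1, A, hA, ha⟩ ⟨hb1, B, hB, hb⟩ hab hab1 C hC hc
    rcases h.pair A hA C hC with h1 | h1 | ⟨E, hE, h1⟩
    · exact h1 a ha
    · exfalso
      have e : conjBy C b⁻¹ = conjBy C a := by
        rw [eq_comm, conjBy_eq_conjBy_iff, inv_inv, ← hab]; exact conjBy_of_comm hc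
      have h2 := (h.mem_omega_of_conj_eq hC h1 hB (B.inv_mem hb) ha ha1 e).2
      have h3 : A = conjBy A b := h.ti ⟨C, hC, h1⟩ (hS.conj_mem A hA b) ha
        (by rw [mem_conjBy, mul_assoc, hab, inv_mul_cancel_left]; exact ha) ha1
      have h4 := r1_ti h1 h2 mem_omega_self hb hb1 h3.symm
      exact hab1 (r1_eq_one_of_comm h1 (A.mul_mem ha (h4 ▸ hb)) hc)
    · exact absurd (h1.rootCommutatorCase hE) (hdeg A hA C hC)
  ext C
  simp only [centralizingMembers, Set.mem_inter_iff, Set.mem_setOf_eq, hz]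
  constructor
  · rintro ⟨hC, hc⟩
    exact ⟨⟨hC, key ha hb hab hab1 C hC hc⟩, hC, key hb ha hab.symm (hab ▸ hab1) C hC (hab ▸ hc)⟩
  · rintro ⟨⟨hC, h1⟩, -, h2⟩
    exact ⟨hC, fun c hc => by rw [mul_assoc, h2 c hc, ← mul_assoc, h1 c hc, mul_assoc]⟩

end Cfsg.Agent.S5026
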