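import Cfsg.Statements.S5027
import Cfsg.Agent.Lib.RootSub.Roots

set_option autoImplicit false
open Cfsg

namespace Cfsg.Agent.S5027

open CfsgLib.RootSub
open scoped commutatorElement

/-- Let S be a set of abstract root subgroups of G such that every member of S has a rank one partner in S (the graph of rank one pairs on S has no isolated vertex). Then the second centre of G equals its centre. -/
theorem result {G : Type*} [Group G] {S : Set (Subgroup G)} (hS : Cfsg.IsRootSubgroupSet S)
    (hF : ∀ A ∈ S, ¬ Cfsg.IsIsolatedIn (Cfsg.FAdj S) S A) : Subgroup.upperCentralSeries G 2 = Subgroup.center G := by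
  have h := rs_of hS
  refine le_antisymm (fun z hz => ?_) ?_
  · rw [Subgroup.mem_center_iff]
    intro g
    refine gen_induction (S := S) (p := fun g => g * z = z * g) (by simp) ?_ ?_ g
      (hS.generates ▸ Subgroup.mem_top g)
    · intro A hA a ha
      by_cases ha1 : a = 1
      · simp [ha1]
      obtain ⟨B, hB, hAB⟩ := (ni_iff hA).1 (hF A hA)
      have h1 := Subgroup.mem_upperCentralSeries_succ_iff.1 hz a
      rw [Subgroup.upperCentralSeries_one, Subgroup.mem_center_iff] at h1
      have := h.central_translate hB hAB (fun x _ => (h1 x).symm) (fun x _ => (h1 x).symm) ha ha1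
        (hS.conj_mem A hA z) (conj_eq_comm_mul z a ▸ conj_mem_conjBy ha z)
      exact (commutatorElement_eq_one_iff_mul_comm.1 this).symm
    · intro x y hx hy
      rw [mul_assoc, hy, ← mul_assoc, hx, mul_assoc]
  · rw [← Subgroup.upperCentralSeries_one]
    exact Subgroup.upperCentralSeries_mono G (by norm_num)

end Cfsg.Agent.S5027
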