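import Cfsg.Statements.S5030
import Cfsg.Agent.Lib.RootSub.Roots3

set_option autoImplicit false
open Cfsg

namespace Cfsg.Agent.S5030

open CfsgLib.RootSub
open scoped commutatorElement

/-- Let S be a set of abstract root subgroups of G and A, B, C ∈ S with ⁅A, B⁆ ∈ S and ⁅B, C⁆ ∈ S, where A and C are different and commute. For a non-identity b ∈ B put X = ⟨A, b⁻¹ C b⟩ and Y = ⟨b⁻¹ A b, C⟩ and R = ⟨A, B, C⟩. Then X and Y are either both abelian or both nilpotent of class exactly two; X and Y commute elementwise; XY is normal in R with R = (XY) B; and R is nilpotent. -/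
theorem result {G : Type*} [Group G] {S : Set (Subgroup G)} (hS : Cfsg.IsRootSubgroupSet S)
    {A B C : Subgroup G} (hA : A ∈ S) (hB : B ∈ S) (hC : C ∈ S) (hAB : ⁅A, B⁆ ∈ S) (hBC : ⁅B, C⁆ ∈ S)
    (hAC : C ∈ Cfsg.commutingPartners S A)
    {b : G} (hb : b ∈ B) (hb1 : b ≠ 1) :
    ((IsMulCommutative ↥(A ⊔ Cfsg.conjBy C b⁻¹) ∧ IsMulCommutative ↥(Cfsg.conjBy A b⁻¹ ⊔ C)) ∨
      ((¬ IsMulCommutative ↥(A ⊔ Cfsg.conjBy C b⁻¹) ∧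
          ⁅⁅A ⊔ Cfsg.conjBy C b⁻¹, A ⊔ Cfsg.conjBy C b⁻¹⁆, A ⊔ Cfsg.conjBy C b⁻¹⁆ = ⊥) ∧
        (¬ IsMulCommutative ↥(Cfsg.conjBy A b⁻¹ ⊔ C) ∧
          ⁅⁅Cfsg.conjBy A b⁻¹ ⊔ C, Cfsg.conjBy A b⁻¹ ⊔ C⁆, Cfsg.conjBy A b⁻¹ ⊔ C⁆ = ⊥))) ∧
    ⁅A ⊔ Cfsg.conjBy C b⁻¹, Cfsg.conjBy A b⁻¹ ⊔ C⁆ = ⊥ ∧
    (∀ r ∈ A ⊔ B ⊔ C, Cfsg.conjBy ((A ⊔ Cfsg.conjBy C b⁻¹) ⊔ (Cfsg.conjBy A b⁻¹ ⊔ C)) r =
      (A ⊔ Cfsg.conjBy C b⁻¹) ⊔ (Cfsg.conjBy A b⁻¹ ⊔ C)) ∧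
    ((A ⊔ Cfsg.conjBy C b⁻¹) ⊔ (Cfsg.conjBy A b⁻¹ ⊔ C)) ⊔ B = A ⊔ B ⊔ C ∧
    Group.IsNilpotent ↥(A ⊔ B ⊔ C) := by
  have hS' := rs_of hS
  have h1 := hS'.cc_of_mem hA hB hAB
  have h2 := (hS'.cc_of_mem hB hC hBC).symm
  have hc : Comm A C := comm_iff.1 hAC.2.2
  have hb' := B.inv_mem hb
  have hb1' := inv_ne_one.2 hb1
  have cA := hS'.comm A hA
  have cB := hS'.comm B hB
  have cC := hS'.comm C hC
  have hXY : Comm (A ⊔ conjBy C b⁻¹) (conjBy A b⁻¹ ⊔ C) :=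
    ((h1.comm_conj cA hb').sup_right hc).sup_left ((hc.symm.conj _).sup_right (h2.comm_conj cC hb').symm)
  have e1 : (A ⊔ conjBy C b⁻¹) ⊔ (conjBy A b⁻¹ ⊔ C) = (A ⊔ ⁅A, B⁆) ⊔ (C ⊔ ⁅B, C⁆) := by
    rw [← h1.sup_conj hb' hb1', ← h2.sup_conj hb' hb1']
    ac_rfl
  have pX : Comm A (conjBy C b⁻¹) ∨ ∃ E, Cc A (conjBy C b⁻¹) E := by
    rcases hS'.pair A hA _ (hS.conj_mem C hC b⁻¹) with h | h | ⟨E, -, h⟩
    · exact Or.inl h
    · exact absurd h (hS'.triple_not_r1 hA hB hC hAB h1 hc hb')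
    · exact Or.inr ⟨E, h⟩
  have pY : Comm C (conjBy A b⁻¹) ∨ ∃ E, Cc C (conjBy A b⁻¹) E := by
    rcases hS'.pair C hC _ (hS.conj_mem A hA b⁻¹) with h | h | ⟨E, -, h⟩
    · exact Or.inl h
    · exact absurd h (hS'.triple_not_r1 hC hB hA hBC h2 hc.symm hb')
    · exact Or.inr ⟨E, h⟩
  have ab : ∀ {P Q : Subgroup G}, Comm P P → Comm Q Q → (Comm (P ⊔ Q) (P ⊔ Q) ↔ Comm P Q) :=
    fun hP hQ => ⟨fun h => h.mono le_sup_left le_sup_right,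
      fun h => (hP.sup_right h).sup_left (h.symm.sup_right hQ)⟩
  have cX : Cl2 (A ⊔ conjBy C b⁻¹) := by
    rcases pX with h | ⟨E, h⟩
    · exact ((ab cA (cC.conj _)).2 h).cl2
    · exact h.cl2 cA (cC.conj _)
  have cY : Cl2 (conjBy A b⁻¹ ⊔ C) := by
    rcases pY with h | ⟨E, h⟩
    · exact ((ab (cA.conj _) cC).2 h.symm).cl2
    · exact h.symm.cl2 (cA.conj _) cC
  refine ⟨?_, comm_iff.2 hXY, ?_, ?_, triple_nilpotent cA cB cC h1 h2 hc (e1 ▸ cX.sup cY hXY)⟩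
  · rw [← comm_self_iff, ← comm_self_iff, ab cA (cC.conj _), ab (cA.conj _) cC]
    by_cases h : Comm A (conjBy C b⁻¹)
    · exact Or.inl ⟨h, (triple_comm h2 hc hb' hb1' h).symm⟩
    · exact Or.inr ⟨⟨h, cX.eq_bot⟩, fun h' => h (triple_comm h1 hc.symm hb' hb1' h'.symm), cY.eq_bot⟩
  · rw [e1]
    refine conjBy_eq_of_mem_sup (conjBy_eq_of_mem_sup (fun x hx => conjBy_of_mem ?_) fun x hx => ?_)
      fun x hx => conjBy_of_mem ?_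
    · exact Subgroup.mem_sup_left (Subgroup.mem_sup_left hx)
    · rw [conjBy_sup, h1.conj_sup hx, h2.conj_sup hx]
    · exact Subgroup.mem_sup_right (Subgroup.mem_sup_left hx)
  · rw [e1]
    refine le_antisymm (sup_le (sup_le (sup_le ?_ ?_) (sup_le le_sup_right ?_)) ?_)
      (sup_le (sup_le ?_ le_sup_right) ?_)
    · exact le_sup_of_le_left le_sup_left
    · exact h1.le_sup.trans le_sup_left
    · exact h2.le_sup.trans (sup_le le_sup_right (le_sup_of_le_left le_sup_right))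
    · exact le_sup_of_le_left le_sup_right
    · exact le_sup_of_le_left (le_sup_of_le_left le_sup_left)
    · exact le_sup_of_le_left (le_sup_of_le_right le_sup_left)

end Cfsg.Agent.S5030
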