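import Cfsg.Statements.S5032
import Cfsg.Agent.Lib.RootSub.Roots2

set_option autoImplicit false
open Cfsg

namespace Cfsg.Agent.S5032

open CfsgLib.RootSub
open scoped commutatorElement

/-- Let S be a set of abstract root subgroups of G with more than one member. Then the graph of rank one pairs on S is connected if and only if S is a single conjugacy class of G and some member of S has a rank one partner in S. -/
theorem result {G : Type*} [Group G] {S : Set (Subgroup G)} (hS : Cfsg.IsRootSubgroupSet S) (h2 : ∃ A ∈ S, ∃ B ∈ S, A ≠ B) :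
    Cfsg.IsConnectedFamily (Cfsg.FAdj S) S ↔
      (Cfsg.IsConjClassOfSubgroups S ∧ ∃ A ∈ S, ¬ Cfsg.IsIsolatedIn (Cfsg.FAdj S) S A) := by
  constructor
  · intro hc
    have h := rc_of_connected hS h2 hc
    obtain ⟨A, hA, -⟩ := h2
    exact ⟨⟨⟨A, hA⟩, h.cls⟩, A, hA, (ni_iff hA).2 (h.ni A hA)⟩
  · rintro ⟨h, A, hA, hn⟩
    obtain ⟨B, hB, hr⟩ := (ni_iff hA).1 hn
    exact (rc_of ⟨hS, h⟩ ⟨A, hA, B, hB, hr⟩).connected

end Cfsg.Agent.S5032
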