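import Cfsg.Statements.S5033
import Cfsg.Agent.Lib.RootSub.Roots3

set_option autoImplicit false
open Cfsg

namespace Cfsg.Agent.S5033

open CfsgLib.RootSub
open scoped commutatorElement

/-- Quasisimplicity criterion for groups generated by abstract root subgroups. Let S be a set of abstract root subgroups of G with more than one member such that: the graph of rank one pairs on S is connected; no two different members of S have the same set of commuting members of S; if S is degenerate then every member of S has more than three elements; and every rank one pair in S is special. Then for every A ∈ S one has G = G' A with A ∩ G' ≠ 1, and the commutator subgroup G' is quasisimple. Moreover G is perfect if S is non-degenerate, or if some rank one pair A, B in S generates a perfect group. -/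
theorem result {G : Type*} [Group G] {S : Set (Subgroup G)} (hS : Cfsg.IsRootSubgroupSet S) (h2 : ∃ A ∈ S, ∃ B ∈ S, A ≠ B)
    (h1 : Cfsg.IsConnectedFamily (Cfsg.FAdj S) S)
    (h2' : ∀ A ∈ S, ∀ C ∈ S, A ≠ C → Cfsg.centralizingMembers S A ≠ Cfsg.centralizingMembers S C)
    (h3 : Cfsg.IsDegenerateRootSet S → ∀ A ∈ S, 3 < ENat.card A)
    (h4 : ∀ A ∈ S, ∀ B ∈ Cfsg.rankOnePartners S A, Cfsg.IsSpecialRankOnePair A B) :
    (∀ A ∈ S, commutator G ⊔ A = ⊤ ∧ A ⊓ commutator G ≠ ⊥) ∧ Cfsg.IsQuasisimple ↥(commutator G) ∧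
    (Cfsg.IsNondegenerateRootSet S → commutator G = ⊤) ∧
    ((∃ A ∈ S, ∃ B ∈ Cfsg.rankOnePartners S A, Group.IsPerfect ↥(A ⊔ B)) → commutator G = ⊤) := by
  have h := rc_of_connected hS h2 h1
  have hd : (∃ A ∈ S, ∃ B ∈ S, RootCommutatorCase S A B) ∨ (IsDegenerateRootSet S ∧
      ∀ A ∈ S, ∀ B ∈ S, IsRankOnePair A B → A ≤ ⁅A ⊔ B, A ⊔ B⁆) := by
    by_cases hd : IsDegenerateRootSet S
    · exact Or.inr ⟨hd, fun A hA B hB hr =>
        sp_le_commutator (h4 A hA B ⟨hB, hr⟩) (h.comm A hA) (h3 hd A hA)⟩
    · left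
      by_contra hcon
      exact hd fun A hA B hB hc => hcon ⟨A, hA, B, hB, hc⟩
  obtain ⟨A, hA, -⟩ := h2
  obtain ⟨B, hB, hr⟩ := h.ni A hA
  have hp : commutator G = ⊤ := by
    rcases hd with ⟨P, hP, Q, hQ, hc⟩ | ⟨-, hd⟩
    · exact h.eq_top_of_le inferInstance hc.1 (Subgroup.commutator_mono le_top le_top)
    · exact h.eq_top_of_le inferInstance hA ((hd A hA B hB hr).trans
        (Subgroup.commutator_mono le_top le_top))
  have hq : IsQuasisimple G := by
    refine quasisimple_of_normal ⟨hp⟩ (fun e => r1_not_comm hr fun a _ b _ => ?_)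
      (h.normal_dichotomy hp h2' hd)
    exact (Subgroup.mem_center_iff.1 (e ▸ Subgroup.mem_top b) a)
  refine ⟨fun A hA => ?_, ?_, fun _ => hp, fun _ => hp⟩
  · rw [hp, top_sup_eq, inf_top_eq]
    exact ⟨rfl, h.ne_bot A hA⟩
  · rw [hp]
    exact quasisimple_congr Subgroup.topEquiv.symm hq

end Cfsg.Agent.S5033
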