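import Cfsg.Statements.S5035
import Cfsg.Agent.Lib.RootSub.Roots2

set_option autoImplicit false
open Cfsg

namespace Cfsg.Agent.S5035

open CfsgLib.RootSub
open scoped commutatorElement

/-- Let S be a set of abstract root subgroups of G whose graph of rank one pairs is connected, and f a homomorphism from G onto a group H. Then either the images of the members of S form a set of abstract root subgroups of H whose graph of rank one pairs is again connected, or H equals the image of a member of S. -/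
theorem result {G H : Type*} [Group G] [Group H] {S : Set (Subgroup G)} (hS : Cfsg.IsRootSubgroupSet S)
    (hc : Cfsg.IsConnectedFamily (Cfsg.FAdj S) S) (f : G →* H) (hf : Function.Surjective f) :
    (Cfsg.IsRootSubgroupSet ((fun A : Subgroup G => A.map f) '' S) ∧
      Cfsg.IsConnectedFamily (Cfsg.FAdj ((fun A : Subgroup G => A.map f) '' S)) ((fun A : Subgroup G => A.map f) '' S)) ∨
    ∃ A ∈ S, A.map f = ⊤ := by
  by_cases hb : ∃ A ∈ S, A.map f = ⊥
  · right
    obtain ⟨A, hA, e⟩ := hb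
    refine ⟨A, hA, ?_⟩
    have h1 : (⨆ B ∈ S, B : Subgroup G) ≤ f.ker := iSup₂_le fun B hB => by
      obtain ⟨g, rfl⟩ := conj_of_rch (hc A hA B hB)
      rw [← Subgroup.map_eq_bot_iff, map_conjBy, e, conjBy_bot]
    rw [hS.generates, ← Subgroup.map_eq_bot_iff, Subgroup.map_top_of_surjective f hf] at h1
    rw [e, h1]
  push Not at hb
  have hS' := rs_of hS
  have hcomm : ∀ {A B : Subgroup G}, Comm A B → Comm (A.map f) (B.map f) := by
    rintro A B h _ ⟨a, ha, rfl⟩ _ ⟨b, hb, rfl⟩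
    rw [← map_mul, h a ha b hb, map_mul]
  have hconj : ∀ A ∈ (fun A : Subgroup G => A.map f) '' S, ∀ y : H,
      conjBy A y ∈ (fun A : Subgroup G => A.map f) '' S := by
    rintro _ ⟨A, hA, rfl⟩ y
    obtain ⟨g, rfl⟩ := hf y
    exact ⟨_, hS.conj_mem A hA g, map_conjBy f A g⟩
  have hgen : (⨆ A ∈ (fun A : Subgroup G => A.map f) '' S, A) = ⊤ := by
    rw [eq_top_iff, ← Subgroup.map_top_of_surjective f hf, ← hS.generates, Subgroup.map_le_iff_le_comap]
    exact iSup₂_le fun A hA => Subgroup.map_le_iff_le_comap.1 (le_gen ⟨A, hA, rfl⟩)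
  have hT : RS ((fun A : Subgroup G => A.map f) '' S) := by
    refine ⟨?_, ?_, fun A hA _ _ b _ => hconj A hA b, ?_⟩
    · rintro _ ⟨A, hA, rfl⟩
      exact hcomm (hS'.comm A hA)
    · rintro _ ⟨A, hA, rfl⟩
      exact hb A hA
    · rintro _ ⟨A, hA, rfl⟩ _ ⟨B, hB, rfl⟩
      rcases hS'.pair A hA B hB with h | h | ⟨C, hC, h⟩
      · exact Or.inl (hcomm h)
      · rcases r1_map h f with e | e
        · left
          show Comm (A.map f) (B.map f)
          rw [← e]; exact hcomm (hS'.comm A hA)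
        · exact Or.inr (Or.inl e.1)
      · refine Or.inr (Or.inr ⟨_, ⟨C, hC, rfl⟩, ?_, hb C hC, hcomm h.cA, hcomm h.cB, ?_, ?_⟩)
        · rw [← Subgroup.map_commutator, h.eq]
        · rintro _ ⟨a, ha, rfl⟩ ha1 _ ⟨c, hc, rfl⟩
          obtain ⟨b, hb, rfl⟩ := h.surjB a ha (by rintro rfl; exact ha1 (map_one f)) c hc
          exact ⟨_, ⟨b, hb, rfl⟩, map_commutatorElement f a b⟩
        · rintro _ ⟨b, hb, rfl⟩ hb1 _ ⟨c, hc, rfl⟩
          obtain ⟨a, ha, rfl⟩ := h.surjA b hb (by rintro rfl; exact hb1 (map_one f)) c hc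
          exact ⟨_, ⟨a, ha, rfl⟩, map_commutatorElement f a b⟩
  have hT' := hT.isRootSubgroupSet hgen hconj
  left
  refine ⟨hT', ?_⟩
  rintro _ ⟨A, hA, rfl⟩ _ ⟨B, hB, rfl⟩
  induction hc A hA B hB with
  | refl => exact .refl
  | @tail P Q _ h ih =>
    rcases r1_map h.2.2 f with e | e
    · have := ih h.1
      simp only at this ⊢
      rwa [← e]
    · exact (ih h.1).tail ⟨⟨P, h.1, rfl⟩, ⟨Q, h.2.1, rfl⟩, e.1⟩

end Cfsg.Agent.S5035
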