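import Cfsg.Statements.S5036
import Cfsg.Agent.Lib.RootSub.Roots2

set_option autoImplicit false
open Cfsg

namespace Cfsg.Agent.S5036

open CfsgLib.RootSub
open scoped commutatorElement

/-- Let S be a set of abstract root subgroups of G, A, B ∈ S with C = ⁅A, B⁆ ∈ S, and D ∈ S with ⁅D, C⁆ = A. Put X = ⟨B, D⟩ and N = AC. Then B, D form a rank one pair; the conjugates of A under X are the conjugates of C under X, namely the conjugates of A by elements of B together with C, equally the conjugates of C by elements of D together with A, and they partition N; and the centralizer of N in X is central in X. -/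
theorem result {G : Type*} [Group G] {S : Set (Subgroup G)} (hS : Cfsg.IsRootSubgroupSet S)
    {A B D : Subgroup G} (hA : A ∈ S) (hB : B ∈ S) (hC : ⁅A, B⁆ ∈ S) (hD : D ∈ S) (hDC : ⁅D, ⁅A, B⁆⁆ = A) :
    Cfsg.IsRankOnePair B D ∧
    {E | ∃ x ∈ B ⊔ D, E = Cfsg.conjBy A x} = {E | ∃ x ∈ B ⊔ D, E = Cfsg.conjBy ⁅A, B⁆ x} ∧
    {E | ∃ x ∈ B ⊔ D, E = Cfsg.conjBy A x} = (fun b : G => Cfsg.conjBy A b) '' (B : Set G) ∪ {⁅A, B⁆} ∧
    {E | ∃ x ∈ B ⊔ D, E = Cfsg.conjBy A x} = (fun d : G => Cfsg.conjBy ⁅A, B⁆ d) '' (D : Set G) ∪ {A} ∧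
    Cfsg.IsSubgroupPartition (A ⊔ ⁅A, B⁆) {E | ∃ x ∈ B ⊔ D, E = Cfsg.conjBy A x} ∧
    ∀ x ∈ (B ⊔ D) ⊓ Subgroup.centralizer ((A ⊔ ⁅A, B⁆ : Subgroup G) : Set G), ∀ y ∈ B ⊔ D, x * y = y * x := by
  have hS' := rs_of hS
  have h1 := hS'.cc_of_mem hA hB hC
  set C := ⁅A, B⁆ with hCdef
  have h2 : Cc C D A := (hS'.cc_of_eq hD hC hA hDC).symm
  have hr := hS'.r1_of_cc_cc hA hB hD h1 h2
  have hconj : ∀ b ∈ B, ∀ d ∈ D, conjBy D b = conjBy B d → conjBy A b = conjBy C d :=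
    fun b hb d hd e => le_antisymm (hS'.cc_cc_conj hA hB hC hD h1 h2 hb hd e)
      (hS'.cc_cc_conj hC hD hA hB h2 h1 hd hb e.symm)
  have hT : (fun b : G => Cfsg.conjBy A b) '' (B : Set G) ∪ {C} =
      (fun d : G => Cfsg.conjBy C d) '' (D : Set G) ∪ {A} := by
    apply Set.Subset.antisymm
    · rintro _ (⟨b, hb, rfl⟩ | rfl)
      · by_cases hb1 : b = 1
        · right; rw [hb1]; exact conjBy_one A
        · obtain ⟨d, hd, -, e⟩ := r1_partner hr hb hb1
          exact Or.inl ⟨d, hd, (hconj b hb d hd e.symm).symm⟩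
      · exact Or.inl ⟨1, D.one_mem, conjBy_one _⟩
    · rintro _ (⟨d, hd, rfl⟩ | rfl)
      · by_cases hd1 : d = 1
        · right; rw [hd1]; exact conjBy_one C
        · obtain ⟨b, hb, -, e⟩ := r1_partner' hr hd hd1
          exact Or.inl ⟨b, hb, hconj b hb d hd e.symm⟩
      · exact Or.inl ⟨1, B.one_mem, conjBy_one _⟩
  have hx0 : ∃ x ∈ B ⊔ D, C = conjBy A x := by
    obtain ⟨b, hb, hb1⟩ := hS'.exists_ne_one hB
    obtain ⟨d, hd, -, e⟩ := r1_partner hr hb hb1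
    refine ⟨d⁻¹ * b, Subgroup.mul_mem _ (Subgroup.mem_sup_right (D.inv_mem hd))
      (Subgroup.mem_sup_left hb), ?_⟩
    rw [← conjBy_conjBy, hconj b hb d hd e.symm, conjBy_inv_conjBy]
  have hO : {E | ∃ x ∈ B ⊔ D, E = Cfsg.conjBy A x} =
      (fun b : G => Cfsg.conjBy A b) '' (B : Set G) ∪ {C} := by
    apply Set.Subset.antisymm
    · rintro _ ⟨x, hx, rfl⟩
      refine sup_induction (p := fun x => ∀ E ∈ (fun b : G => Cfsg.conjBy A b) '' (B : Set G) ∪ {C},
        conjBy E x ∈ (fun b : G => Cfsg.conjBy A b) '' (B : Set G) ∪ {C}) ?_ ?_ ?_ x hx A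
        (Or.inl ⟨1, B.one_mem, conjBy_one _⟩)
      · rintro b hb _ (⟨b', hb', rfl⟩ | rfl)
        · exact Or.inl ⟨b * b', B.mul_mem hb hb', (conjBy_conjBy _ _ _).symm⟩
        · exact Or.inr (h1.cB.symm.conjBy_eq hb)
      · rw [hT]
        rintro d hd _ (⟨d', hd', rfl⟩ | rfl)
        · exact Or.inl ⟨d * d', D.mul_mem hd hd', (conjBy_conjBy _ _ _).symm⟩
        · exact Or.inr (h2.cB.symm.conjBy_eq hd)
      · intro x _ y _ hx hy E hE
        rw [← conjBy_conjBy]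
        exact hx _ (hy E hE)
    · rintro _ (⟨b, hb, rfl⟩ | rfl)
      · exact ⟨b, Subgroup.mem_sup_left hb, rfl⟩
      · exact hx0
  have hinf : ∀ x ∈ A, x ∈ C → x = 1 := fun x hx hx' => h1.eq_one_of_comm hx (h1.cB x hx')
  refine ⟨hr, ?_, hO, hO.trans hT, ?_, ?_⟩
  · obtain ⟨y, hy, e⟩ := hx0
    ext E
    constructor
    · rintro ⟨x, hx, rfl⟩
      refine ⟨x * y⁻¹, Subgroup.mul_mem _ hx (Subgroup.inv_mem _ hy), ?_⟩
      rw [e, conjBy_conjBy, inv_mul_cancel_right]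
    · rintro ⟨x, hx, rfl⟩
      exact ⟨x * y, Subgroup.mul_mem _ hx hy, by rw [e, conjBy_conjBy]⟩
  · rw [hO]
    have aux : ∀ b ∈ B, ∀ x ∈ conjBy A b, x ∈ C → x = 1 := by
      intro b hb x hx hx'
      rw [← h1.cB.symm.conjBy_eq hb] at hx'
      have := hinf _ (mem_conjBy.1 hx) (mem_conjBy.1 hx')
      calc x = b * (b⁻¹ * x * b) * b⁻¹ := by group
        _ = 1 := by rw [this]; group
    refine ⟨?_, fun x hx hx1 => ?_, ?_⟩
    · rintro _ (⟨b, hb, rfl⟩ | rfl)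
      · exact h1.conj_le hb
      · exact le_sup_right
    · obtain ⟨c, hc, a, ha, rfl⟩ := (mem_sup_of_comm h1.cA).1 (sup_comm A C ▸ hx)
      by_cases ha1 : a = 1
      · exact ⟨C, Or.inr rfl, by simpa [ha1] using hc⟩
      · obtain ⟨b, hb, e⟩ := h1.mem_conj ha ha1 hc
        exact ⟨_, Or.inl ⟨b, hb, rfl⟩, e ▸ conj_mem_conjBy ha b⟩
    · rintro _ (⟨b, hb, rfl⟩ | rfl) _ (⟨b', hb', rfl⟩ | rfl) hne <;> rw [eq_bot_iff] <;>
        rintro x ⟨hx, hx'⟩
      · obtain ⟨a, ha, rfl⟩ := mem_conjBy'.1 hx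
        have hb'' := B.mul_mem (B.inv_mem hb') hb
        have e1 : ⁅b'⁻¹ * b, a⁆ = 1 := by
          refine hinf _ ?_ (h1.symm.mem hb'' ha)
          have := A.mul_mem (mem_conjBy.1 hx') (A.inv_mem ha)
          simp only [commutatorElement_def, mul_inv_rev, inv_inv, mul_assoc] at this ⊢
          exact this
        rcases hS'.cc_inj hB hA hC ⟨D, hD, hr⟩ h1.symm hb'' ha
          (commutatorElement_eq_one_iff_mul_comm.1 e1) with e | e
        · exact absurd (by rw [inv_mul_eq_one.1 e]) hne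
        · simp [e]
      · exact aux b hb x hx hx'
      · exact aux b' hb' x hx' hx
      · exact absurd rfl hne
  · have hN : ∀ x ∈ B ⊔ D, conjBy (Subgroup.centralizer ((A ⊔ C : Subgroup G) : Set G)) x =
        Subgroup.centralizer ((A ⊔ C : Subgroup G) : Set G) := fun x hx =>
      conjBy_eq_of_le (E := B ⊔ D) (fun y hy => by
        rw [← comm_iff_le_centralizer]
        conv_rhs => rw [← cc_cc_norm h1 h2 y hy]
        exact (comm_iff_le_centralizer.2 le_rfl).conj y) hx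
    rcases r1_normal_dichotomy hr hN with ⟨n, hn, -, e⟩ | h
    · exfalso
      obtain ⟨c, hc, hc1⟩ := hS'.exists_ne_one hC
      refine hc1 (h2.eq_one_of_comm hc fun d hd => ?_)
      obtain ⟨b, hb, rfl⟩ := mem_conjBy'.1 (e ▸ hd)
      have e1 : c * n = n * c := hn c (Subgroup.mem_sup_right hc)
      calc c * (n * b * n⁻¹) = n * (c * b) * n⁻¹ := by rw [← mul_assoc, ← mul_assoc, e1]; group
        _ = n * b * n⁻¹ * (n * c) * n⁻¹ := by rw [h1.cB c hc b hb]; group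
        _ = _ := by rw [← e1]; group
    · exact fun x hx => h x hx.2 hx.1

end Cfsg.Agent.S5036
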