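import Cfsg.Statements.S5037
import Cfsg.Agent.Lib.RootSub.Roots2

set_option autoImplicit false
open Cfsg

namespace Cfsg.Agent.S5037

open CfsgLib.RootSub
open scoped commutatorElement

/-- Let S be a class of abstract root subgroups of G that is either degenerate or non-degenerate (so either the commutator case never occurs, or all three cases occur), and A ≠ C members of S. If every member of S commuting with A commutes with C, then A and C have the same commuting members of S; and if every rank one partner of A is a rank one partner of C, then A and C commute and have the same rank one partners. -/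
theorem result {G : Type*} [Group G] {S : Set (Subgroup G)} (hS : Cfsg.IsRootSubgroupClass S)
    (hdn : Cfsg.IsDegenerateRootSet S ∨ Cfsg.IsNondegenerateRootSet S)
    {A C : Subgroup G} (hA : A ∈ S) (hC : C ∈ S) (hAC : A ≠ C) :
    (Cfsg.centralizingMembers S A ⊆ Cfsg.centralizingMembers S C →
      Cfsg.centralizingMembers S A = Cfsg.centralizingMembers S C) ∧
    (Cfsg.rankOnePartners S A ⊆ Cfsg.rankOnePartners S C →
      ⁅A, C⁆ = ⊥ ∧ Cfsg.rankOnePartners S A = Cfsg.rankOnePartners S C) := by
  have hS' := rs_of hS.1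
  by_cases hr : ∃ A ∈ S, ∃ B ∈ S, IsRankOnePair A B
  · have h := rc_of hS hr
    constructor
    · intro h1
      refine Set.Subset.antisymm h1 fun P hP => ?_
      rw [mem_centralizingMembers] at hP ⊢
      exact ⟨hP.1, h.cent_symm hA hC (fun Q hQ hc =>
        (mem_centralizingMembers.1 (h1 (mem_centralizingMembers.2 ⟨hQ, hc⟩))).2) P hP.1 hP.2⟩
    · intro h1
      obtain ⟨h2, h3⟩ := h.opp_symm hA hC fun Q hQ hc => (h1 ⟨hQ, hc⟩).2
      exact ⟨comm_iff.2 h2, Set.Subset.antisymm h1 fun P hP => ⟨hP.1, h3 P hP.1 hP.2⟩⟩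
  · have hd : IsDegenerateRootSet S := hdn.resolve_right fun h => hr h.2.1
    have hc : ∀ P ∈ S, ∀ Q ∈ S, Comm P Q := fun P hP Q hQ => by
      rcases hS'.pair P hP Q hQ with h | h | ⟨E, hE, h⟩
      · exact h
      · exact absurd ⟨P, hP, Q, hQ, h⟩ hr
      · exact absurd (h.rootCommutatorCase hE) (hd P hP Q hQ)
    refine ⟨fun h1 => Set.Subset.antisymm h1 fun P hP => ?_, fun h1 =>
      ⟨comm_iff.2 (hc A hA C hC), Set.Subset.antisymm h1 fun P hP => ?_⟩⟩
    · exact mem_centralizingMembers.2 ⟨hP.1, hc P hP.1 A hA⟩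
    · exact absurd ⟨C, hC, P, hP.1, hP.2⟩ hr

end Cfsg.Agent.S5037
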