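import Cfsg.Statements.S5039
import Cfsg.Agent.Lib.RootSub.Roots3
import Cfsg.Agent.Lib.RootSub.SL2Pres

set_option autoImplicit false
universe u
open Cfsg

namespace Cfsg.Agent.S5039

open CfsgLib.RootSub
open scoped commutatorElement

/-- Let S be a class of abstract root subgroups of G containing two different commuting members. Suppose that, in case S is degenerate and every element of every member of S has order at most 3, the following holds: for every A ∈ S and every rank one partner B of A there are subgroups A₀ ≤ A and B₀ ≤ B generating an image of SL₂(k) with central kernel, k a field with at least four elements, A₀ and B₀ being the images of the unitriangular subgroups. Then every rank one pair A, B in S is special. -/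
theorem result {G : Type u} [Group G] {S : Set (Subgroup G)} (hS : Cfsg.IsRootSubgroupClass S)
    (hcomm : ∃ A ∈ S, ∃ C ∈ S, A ≠ C ∧ ⁅A, C⁆ = ⊥)
    (hH : Cfsg.IsDegenerateRootSet S → (∀ A ∈ S, ∀ a ∈ A, 0 < orderOf a ∧ orderOf a ≤ 3) →
      ∀ A ∈ S, ∀ B ∈ Cfsg.rankOnePartners S A, ∃ A₀ B₀ : Subgroup G, A₀ ≤ A ∧ B₀ ≤ B ∧
        ∃ (k : Type u) (_ : Field k), 3 < ENat.card k ∧ Cfsg.IsPSL2PairOver k A₀ B₀)
    {A B : Subgroup G} (hA : A ∈ S) (hB : B ∈ Cfsg.rankOnePartners S A) : Cfsg.IsSpecialRankOnePair A B := by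
  have h := rc_of hS ⟨A, hA, B, hB.1, hB.2⟩
  by_cases hd : IsDegenerateRootSet S
  · refine h.special_of_degenerate hd hcomm ?_ hA hB.1 hB.2
    have key : ∃ P ∈ S, 3 < ENat.card P := by
      by_cases ho : ∀ A ∈ S, ∀ a ∈ A, 0 < orderOf a ∧ orderOf a ≤ 3
      · obtain ⟨A₀, B₀, h1, -, k, _, h3, h4⟩ := hH hd ho A hA B hB
        refine ⟨A, hA, h3.trans_le ?_⟩
        rw [← psl2_card h4]
        exact ENat.card_le_card_of_injective (Subgroup.inclusion_injective h1)
      · push Not at ho
        obtain ⟨P, hP, a, ha, ho⟩ := ho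
        refine ⟨P, hP, ?_⟩
        have hle : ENat.card (Subgroup.zpowers a) ≤ ENat.card P :=
          ENat.card_le_card_of_injective (Subgroup.inclusion_injective ((Subgroup.zpowers_le).2 ha))
        refine lt_of_lt_of_le ?_ hle
        by_cases hf : Finite (Subgroup.zpowers a)
        · rw [ENat.card_eq_coe_natCard, Nat.card_zpowers]
          have : 0 < orderOf a := (finite_zpowers.1 hf).orderOf_pos
          exact_mod_cast ho this
        · rw [not_finite_iff_infinite] at hf
          rw [ENat.card_eq_top_of_infinite]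
          exact ENat.coe_lt_top 3
    obtain ⟨P, hP, h3⟩ := key
    intro Q hQ
    obtain ⟨g, rfl⟩ := h.cls P hP Q hQ
    rwa [card_conjBy]
  · have hc : ∃ A ∈ S, ∃ B ∈ S, RootCommutatorCase S A B := by
      by_contra hcon
      exact hd fun A hA B hB hc => hcon ⟨A, hA, B, hB, hc⟩
    obtain ⟨C, hC⟩ := h.exists_line hc hA
    obtain ⟨-, -, -, -, -, -, -, hs⟩ := h.toRS.line_point hA hB.1 hB.2 hC
    exact hs

end Cfsg.Agent.S5039
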