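import Cfsg.Statements.S5040
import Cfsg.Agent.Lib.RootSub.Roots2

set_option autoImplicit false
open Cfsg

namespace Cfsg.Agent.S5040

open CfsgLib.RootSub
open scoped commutatorElement

/-- Let S be a non-degenerate class of abstract root subgroups of G and Δ a weak TI-subset of S. Then the members of Δ commute with one another elementwise. -/
theorem result {G : Type*} [Group G] {S : Set (Subgroup G)} (hS : Cfsg.IsRootSubgroupClass S) (hnd : Cfsg.IsNondegenerateRootSet S)
    {Δ : Set (Subgroup G)} (hΔ : Cfsg.IsWeakTISubset S Δ) : Cfsg.IsAbelianFamily Δ := by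
  refine (rc_of hS hnd.2.1).abelian_of_weakTI hnd.2.2 hΔ.1 hΔ.2.2.1 fun A hA B hB b hb e => ?_
  by_cases hb1 : b = 1
  · rw [hb1]; exact Subgroup.one_mem _
  rcases hΔ.2.2.2 b ⟨hb1, B, hB, hb⟩ with h | h
  · intro P
    constructor
    · intro hP
      rw [← h]; exact ⟨P, hP, rfl⟩
    · intro hP
      rw [← h] at hP
      obtain ⟨Q, hQ, e⟩ := hP
      exact conjBy_inj.1 e ▸ hQ
  · exact absurd hA (Set.disjoint_left.1 h ⟨A, hA, e⟩)

end Cfsg.Agent.S5040
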