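import Cfsg.Statements.S5043
import Cfsg.Agent.Lib.RootSub.LinEx

set_option autoImplicit false
open Matrix
open Cfsg

namespace Cfsg.Agent.S5043

open CfsgLib.RootSub
open scoped commutatorElement

/-- Let k be a field and n a natural number. In SL_{n+3}(k) (so in every dimension at least 3) the conjugates of the root subgroup of elementary transvections 1 + c E₁₂ (c ∈ k) — that is, the groups of transvections attached to an incident point–hyperplane pair — form a non-degenerate class of abstract k-root subgroups of SL_{n+3}(k) whose graph of rank one pairs is connected. -/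
theorem result (k : Type*) [Field k] (n : ℕ) :
    Cfsg.IsRootSubgroupClass {A : Subgroup (Matrix.SpecialLinearGroup (Fin (n + 3)) k) |
        ∃ g : Matrix.SpecialLinearGroup (Fin (n + 3)) k,
          A = Cfsg.conjBy (Subgroup.closure {t : Matrix.SpecialLinearGroup (Fin (n + 3)) k |
            ∃ c : k, (t : Matrix (Fin (n + 3)) (Fin (n + 3)) k) = Matrix.transvection 0 1 c}) g} ∧
    Cfsg.IsNondegenerateRootSet {A : Subgroup (Matrix.SpecialLinearGroup (Fin (n + 3)) k) |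
        ∃ g : Matrix.SpecialLinearGroup (Fin (n + 3)) k,
          A = Cfsg.conjBy (Subgroup.closure {t : Matrix.SpecialLinearGroup (Fin (n + 3)) k |
            ∃ c : k, (t : Matrix (Fin (n + 3)) (Fin (n + 3)) k) = Matrix.transvection 0 1 c}) g} ∧
    Cfsg.IsKRootSubgroupSet k {A : Subgroup (Matrix.SpecialLinearGroup (Fin (n + 3)) k) |
        ∃ g : Matrix.SpecialLinearGroup (Fin (n + 3)) k,
          A = Cfsg.conjBy (Subgroup.closure {t : Matrix.SpecialLinearGroup (Fin (n + 3)) k |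
            ∃ c : k, (t : Matrix (Fin (n + 3)) (Fin (n + 3)) k) = Matrix.transvection 0 1 c}) g} ∧
    Cfsg.IsConnectedFamily (Cfsg.FAdj {A : Subgroup (Matrix.SpecialLinearGroup (Fin (n + 3)) k) |
        ∃ g : Matrix.SpecialLinearGroup (Fin (n + 3)) k,
          A = Cfsg.conjBy (Subgroup.closure {t : Matrix.SpecialLinearGroup (Fin (n + 3)) k |
            ∃ c : k, (t : Matrix (Fin (n + 3)) (Fin (n + 3)) k) = Matrix.transvection 0 1 c}) g})
      {A : Subgroup (Matrix.SpecialLinearGroup (Fin (n + 3)) k) |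
        ∃ g : Matrix.SpecialLinearGroup (Fin (n + 3)) k,
          A = Cfsg.conjBy (Subgroup.closure {t : Matrix.SpecialLinearGroup (Fin (n + 3)) k |
            ∃ c : k, (t : Matrix (Fin (n + 3)) (Fin (n + 3)) k) = Matrix.transvection 0 1 c}) g} := by
  have h01 : (0 : Fin (n + 3)) ≠ 1 := by simp
  obtain ⟨t, h02, h12⟩ : ∃ t : Fin (n + 3), 0 ≠ t ∧ 1 ≠ t :=
    ⟨⟨2, by omega⟩, by simp [Fin.ext_iff], by simp [Fin.ext_iff]⟩
  rw [sl_fam h01]
  have hl := sl_lin (n := Fin (n + 3)) (F := k)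
  have h := hl.rs.isRootSubgroupSet sl_gen fun _ hA g => hl.fam_conj hA g
  let e : Fin (n + 3) → Fin (n + 3) → Module.End k (Fin (n + 3) → k) := fun i j =>
    ro (LinearMap.proj j) (Pi.single i 1)
  have hc : e 0 1 * e 1 t - e 1 t * e 0 1 = e 0 t := by
    simp [e, ro_mul, h02.symm]
  have hcc := hl.cc (proj_mem h01) (proj_mem h12) (by simp [ro_mul_mul, h02.symm]) (by simp [ro_mul_mul, h02.symm])
    (hc ▸ proj_mem h02)
  refine ⟨⟨h, Lin.conjClass ⟨_, _, proj_mem h01, rfl⟩ sl_conn⟩, ⟨⟨_, ⟨_, proj_mem h01, rfl⟩, _, ⟨_, hc ▸ proj_mem h02, rfl⟩,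
    hcc.ne_left, comm_iff.2 hcc.cA.symm⟩, ?_, ⟨_, ⟨_, proj_mem h01, rfl⟩, _, ⟨_, proj_mem h12, rfl⟩,
      hcc.rootCommutatorCase ⟨_, hc ▸ proj_mem h02, rfl⟩⟩⟩, hl.kroot h, sl_conn⟩
  obtain ⟨b, hb, ho⟩ := nsl_ni _ (proj_mem (F := k) h01)
  exact ⟨_, ⟨_, proj_mem h01, rfl⟩, _, ⟨b, hb, rfl⟩, psl2_r1 (hl.psl2 (proj_mem h01) hb ho)⟩

end Cfsg.Agent.S5043
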