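import Cfsg.Statements.S5045
import Cfsg.Agent.Lib.RootInv.Global

set_option autoImplicit false
open Cfsg

namespace Cfsg.Agent.S5045

open CfsgLib CfsgLib.RootInv
open scoped commutatorElement

/-- Let G be a finite group generated by a set D of root involutions, and W the set of members of D whose product with every other member of D has even order or is trivial (the isolated vertices of the odd-order-product graph on D). Then W is conjugation-invariant and generates a normal 2-subgroup of G meeting D in exactly W; the commutator of two members of D lying in different connected components of that graph, each with more than one member, lies in the subgroup generated by W; and for a in such a component, every member of D commuting with a, different from a and with product with a in D, lies in that component or in W. -/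
theorem result {G : Type*} [Group G] [Finite G] {D : Set G} (hD : Cfsg.IsRootInvolutionSet D) :
    (∀ w ∈ {w | Cfsg.IsIsolatedElem (Cfsg.OddAdj D) D w}, ∀ g : G, g * w * g⁻¹ ∈ {w | Cfsg.IsIsolatedElem (Cfsg.OddAdj D) D w}) ∧
    (Subgroup.closure {w | Cfsg.IsIsolatedElem (Cfsg.OddAdj D) D w}).Normal ∧
    IsPGroup 2 ↥(Subgroup.closure {w | Cfsg.IsIsolatedElem (Cfsg.OddAdj D) D w}) ∧
    (Subgroup.closure {w | Cfsg.IsIsolatedElem (Cfsg.OddAdj D) D w} : Set G) ∩ D = {w | Cfsg.IsIsolatedElem (Cfsg.OddAdj D) D w} ∧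
    (∀ a ∈ D, ∀ b ∈ D, (∃ a' ∈ Cfsg.elemComponentOf (Cfsg.OddAdj D) D a, a' ≠ a) →
      (∃ b' ∈ Cfsg.elemComponentOf (Cfsg.OddAdj D) D b, b' ≠ b) →
      Cfsg.elemComponentOf (Cfsg.OddAdj D) D a ≠ Cfsg.elemComponentOf (Cfsg.OddAdj D) D b →
        a * b * a⁻¹ * b⁻¹ ∈ Subgroup.closure {w | Cfsg.IsIsolatedElem (Cfsg.OddAdj D) D w}) ∧
    (∀ a ∈ D, (∃ a' ∈ Cfsg.elemComponentOf (Cfsg.OddAdj D) D a, a' ≠ a) →
      Cfsg.productPartners D a ⊆ Cfsg.elemComponentOf (Cfsg.OddAdj D) D a ∪ {w | Cfsg.IsIsolatedElem (Cfsg.OddAdj D) D w}) := by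
  have h := ri_of hD
  have hg : ∀ g : G, g ∈ Subgroup.closure D := fun g => hD.generates ▸ Subgroup.mem_top g
  rw [iso_eq]
  have hN : (Subgroup.closure (Iso D)).Normal := ⟨fun v hv g => by
    refine (Subgroup.closure_le ((Subgroup.closure (Iso D)).comap (MulAut.conj g).toMonoidHom)).2 ?_ hv
    exact fun w hw => Subgroup.subset_closure (h.iso_conj hw (hg g))⟩
  have h6 : ∀ a ∈ D, (∃ a' ∈ Cfsg.elemComponentOf (Cfsg.OddAdj D) D a, a' ≠ a) →
      Cfsg.productPartners D a ⊆ Cfsg.elemComponentOf (Cfsg.OddAdj D) D a ∪ Iso D := by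
    rintro a ha ⟨a', h1, h2⟩ b hb
    obtain ⟨x, hx, ho⟩ := exists_od_of_path h1.2 h2
    exact (h.ln_comp ((mem_prod_iff ha).1 hb) hx ho).imp_left fun e => ⟨hb.1.1, e⟩
  have hs : ∀ {a b : G}, Relation.ReflTransGen (OddAdj D) a b → Relation.ReflTransGen (OddAdj D) b a :=
    fun hp => by
      induction hp with
      | refl => exact .refl
      | tail _ h2 ih => exact .head (oddAdj_symm h2) ih
  have he : ∀ {a b : G}, Relation.ReflTransGen (OddAdj D) a b →
      Cfsg.elemComponentOf (Cfsg.OddAdj D) D a = Cfsg.elemComponentOf (Cfsg.OddAdj D) D b := fun hp =>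
    Set.ext fun _ => and_congr_right fun _ => ⟨(hs hp).trans, hp.trans⟩
  refine ⟨fun w hw g => h.iso_conj hw (hg g), hN, h.isPGroup_iso, ?_, fun a ha b hb h1 h2 hne => ?_, h6⟩
  · refine Set.ext fun d => ⟨fun hd => ⟨hd.2, fun x hx => h.not_od_of_sq_mem h.isPGroup_iso hx ?_⟩,
      fun hd => ⟨Subgroup.subset_closure hd, hd.1⟩⟩
    have := Subgroup.mul_mem _ hd.1 (hN.conj_mem d hd.1 x)
    rwa [h.inv hx, ← mul_assoc, ← mul_assoc, ← cm, cm_eq_sq] at this
  · rw [h.inv ha, h.inv hb, ← cm]
    rcases h.pair a ha b hb with e | e | e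
    · rw [h.cm_eq_one ha hb e]
      exact Subgroup.one_mem _
    · exact absurd (he (.single ⟨ha, hb, e⟩)) hne
    rcases h6 a ha h1 ((mem_prod_iff ha).2 (h.fo_ln ha hb e.1)) with h3 | h3
    · rcases h6 b hb h2 ((mem_prod_iff hb).2 (h.fo_ln' ha hb e.1)) with h4 | h4
      · exact absurd (he (h3.2.trans (hs h4.2))) hne
      · exact Subgroup.subset_closure h4
    · exact Subgroup.subset_closure h3

end Cfsg.Agent.S5045
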