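import Cfsg.Statements.S5046
import Cfsg.Agent.Lib.RootInv.Global

set_option autoImplicit false
open Cfsg

namespace Cfsg.Agent.S5046

open CfsgLib CfsgLib.RootInv
open scoped commutatorElement

/-- Let G be a finite group generated by a set D of root involutions whose odd-order-product graph is connected, and d ∈ D. Then the members e of D with the same commuting members as d are exactly those for which the union of the commuting members of d and the members whose product with d has order 4 equals the corresponding union for e. -/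
theorem result {G : Type*} [Group G] [Finite G] {D : Set G} (hD : Cfsg.IsRootInvolutionSet D)
    (hc : Cfsg.IsConnectedSet (Cfsg.OddAdj D) D) {d : G} (hd : d ∈ D) :
    Cfsg.sameCommutingClass D d =
      {e | e ∈ D ∧ Cfsg.commutingMembers D d ∪ Cfsg.fourPartners D d = Cfsg.commutingMembers D e ∪ Cfsg.fourPartners D e} := by
  have h := ri_of hD
  have key : ∀ a ∈ D, commutingMembers D a ∪ fourPartners D a = D \ Ao D a := fun a ha => by
    ext y
    constructor
    · rintro (hy | hy)
      · exact ⟨hy.1, fun ho => h.od_not_comm ha hy.1 ho.2 hy.2.symm⟩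
      · exact ⟨hy.1, fun ho => ho.2.not_fo hy.2⟩
    · rintro ⟨hy, hn⟩
      rcases h.pair a ha y hy with e | e | e
      · exact Or.inl ⟨hy, e.symm⟩
      · exact absurd ⟨hy, e⟩ hn
      · exact Or.inr ⟨hy, e.1⟩
  ext e
  by_cases hde : e = d
  · subst hde
    exact ⟨fun _ => ⟨hd, rfl⟩, fun _ => ⟨hd, rfl⟩⟩
  refine ⟨fun he => ?_, fun he => ?_⟩
  · obtain ⟨x, hx, ho⟩ := exists_od_of_path (hc d hd e he.1) hde
    exact ⟨he.1, by rw [key d hd, key e he.1, ((h.mem_same_iff (h.cl_of_conn hc) hx ho hd).1 he).2]⟩
  · obtain ⟨x, hx, ho⟩ := exists_od_of_path (hc d hd e he.1) hde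
    refine (h.mem_same_iff (h.cl_of_conn hc) hx ho hd).2 ⟨he.1, ?_⟩
    have h1 := he.2
    rw [key d hd, key e he.1] at h1
    exact Set.ext fun y => ⟨fun hy => by_contra fun hn => (h1.subset ⟨hy.1, hn⟩).2 hy,
      fun hy => by_contra fun hn => (h1.symm.subset ⟨hy.1, hn⟩).2 hy⟩

end Cfsg.Agent.S5046
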