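import Cfsg.Statements.S5048
import Cfsg.Agent.Lib.RootInv.Global

set_option autoImplicit false
open Cfsg

namespace Cfsg.Agent.S5048

open CfsgLib CfsgLib.RootInv
open scoped commutatorElement

/-- Let G be a finite group generated by a set D of root involutions whose odd-order-product graph is connected, with some product of two different commuting members of D again in D. Then the largest solvable normal subgroup of G is the preimage of the centre of G/O₂(G), and the quotient of G by it is a simple group. -/
theorem result {G : Type*} [Group G] [Finite G] {D : Set G} (hD : Cfsg.IsRootInvolutionSet D)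
    (hc : Cfsg.IsConnectedSet (Cfsg.OddAdj D) D) (hDD : (D ∩ Cfsg.commutingProducts D).Nonempty) :
    Cfsg.solvableRadical G = Cfsg.twoZCore G ∧ IsSimpleGroup (G ⧸ Cfsg.twoZCore G) := by
  have h := ri_of hD
  have hcl := h.cl_of_conn hc
  obtain ⟨a, b, hl⟩ := h.exists_line hDD
  obtain ⟨x, hx, ho⟩ := exists_od_of_path (hc a hl.1 b hl.2.1) hl.2.2.1.symm
  refine ⟨le_antisymm (sSup_le fun N hN => ?_) (le_sSup ⟨inferInstance, ?_⟩),
    h.simple_quot hD.generates hcl hl hx ho⟩
  · have := hN.1
    refine (h.eq_top_or_le hD.generates hcl hl N).resolve_left fun e => ?_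
    have h1 := hN.2
    rw [e] at h1
    have : Group.IsSolvable G := Group.isSolvable_of_surjective (f := (⊤ : Subgroup G).subtype)
      fun g => ⟨⟨g, trivial⟩, rfl⟩
    have : Nontrivial G := ⟨⟨a, 1, h.ne a hl.1⟩⟩
    exact (Group.IsSolvable.commutator_lt_top_of_nontrivial G).ne (h.perfect hD.generates hcl hl)
  · have := Fact.mk Nat.prime_two
    have : Group.IsNilpotent (QuotientGroup.mk' (pCore 2 G)).ker := by
      rw [QuotientGroup.ker_mk']
      exact (Core.isPGroup_pCore 2 G).isNilpotent
    have : Group.IsSolvable (Subgroup.center (G ⧸ pCore 2 G)) := Core.isSolvable_of_isMulCommutative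
    exact Core.isSolvable_comap _ _

end Cfsg.Agent.S5048
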