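import Cfsg.Statements.S5049
import Cfsg.Agent.Lib.RootInv.Global

set_option autoImplicit false
open Cfsg

namespace Cfsg.Agent.S5049

open CfsgLib CfsgLib.RootInv
open scoped commutatorElement

/-- Let G be a finite group generated by a set D of odd transpositions (root involutions with no product of order 4), Q = O₂(G), and for a ∈ D let Q_a be the commutator subgroup of Q with a. Then every member of D commuting with a centralizes Q_a; and for b ∈ D with ab of odd order greater than 1, the centralizer of ab in Q is the intersection of the centralizers of a and b in Q. -/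
theorem result {G : Type*} [Group G] [Finite G] {D : Set G} (hD : Cfsg.IsOddTranspositionSet D) {a : G} (ha : a ∈ D) :
    (∀ e ∈ Cfsg.commutingMembers D a, ∀ q ∈ ⁅Cfsg.pCore 2 G, Subgroup.zpowers a⁆, e * q = q * e) ∧
    (∀ b ∈ Cfsg.oddPartners D a,
      Cfsg.pCore 2 G ⊓ Subgroup.centralizer {a * b} = Cfsg.pCore 2 G ⊓ Subgroup.centralizer {a} ⊓ Subgroup.centralizer {b}) := by
  have h := ri_of hD.1
  have hg : ∀ g : G, g ∈ Subgroup.closure D := fun g => hD.1.generates ▸ Subgroup.mem_top g
  have key : ∀ a ∈ D, ∀ e ∈ D, e * a = a * e → ∀ q ∈ pCore 2 G, e * (q * a * q⁻¹) = q * a * q⁻¹ * e := by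
    intro a ha e he hc q hq
    have ha' := h.conj_mem ha (hg q)
    rcases h.pair e he _ ha' with h1 | h1 | h1
    · exact h1
    · refine absurd h1 (h.not_od_of_sq_mem (Core.isPGroup_pCore 2 G) ha' ((QuotientGroup.eq_one_iff _).1 ?_))
      have hq' : QuotientGroup.mk' (pCore 2 G) q = 1 := (QuotientGroup.eq_one_iff _).2 hq
      change QuotientGroup.mk' _ _ = 1
      rw [map_pow, map_mul, map_mul, map_mul, map_inv, hq', one_mul, inv_one, mul_one, ← map_mul, ← map_pow,
        ← cm_eq_sq, h.cm_eq_one he ha hc, map_one]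
    · exact absurd h1.1 (hD.2 e he _ ha')
  refine ⟨fun e he q hq => ?_, fun b hb => le_antisymm (fun q hq => ?_) fun q hq => ⟨hq.1.1, ?_⟩⟩
  · refine Subgroup.mem_centralizer_singleton_iff.1 (Subgroup.commutator_le.2 ?_ hq) |>.symm
    rintro q hq _ ⟨k, rfl⟩
    refine Subgroup.mem_centralizer_singleton_iff.2 ?_
    rw [commutatorElement_def, ← conj_zpow]
    exact ((Commute.zpow_left (key a ha e he.1 he.2 q hq).symm k).mul_left
      (Commute.zpow_left he.2.symm k).inv_left).eq
  · obtain ⟨hb, ho⟩ := mem_odd_iff.1 hb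
    have h1 := Subgroup.mem_centralizer_singleton_iff.1 hq.2
    have h2 : q * a * q⁻¹ * a = q * b * q⁻¹ * b := by
      have : q * a * q⁻¹ * (q * b * q⁻¹) = a * b := by rw [conj_mul, h1, mul_inv_cancel_right]
      calc q * a * q⁻¹ * a = q * a * q⁻¹ * (a * b) * b := by rw [mul_assoc _ _ b, h.mm' hb]
        _ = _ := by rw [← this, h.mm (h.conj_mem ha (hg q))]
    have h3 : q * a * q⁻¹ * a = 1 := h.ct ha hb ho (by rw [← mul_assoc a, key a ha a ha rfl q hq.1])
      (by rw [h2, ← mul_assoc b, key b hb b hb rfl q hq.1])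
      (by rw [h.mm' ha]; exact h.conj_mem ha (hg q))
    refine ⟨⟨hq.1, Subgroup.mem_centralizer_singleton_iff.2 ?_⟩, Subgroup.mem_centralizer_singleton_iff.2 ?_⟩
    · exact mul_inv_eq_iff_eq_mul.1 (h.eq_of_mul_eq_one ha h3)
    · exact mul_inv_eq_iff_eq_mul.1 (h.eq_of_mul_eq_one hb (h2 ▸ h3))
  · exact Subgroup.mem_centralizer_singleton_iff.2 (Commute.mul_right
      (Subgroup.mem_centralizer_singleton_iff.1 hq.1.2) (Subgroup.mem_centralizer_singleton_iff.1 hq.2))

end Cfsg.Agent.S5049
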