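import Cfsg.Statements.S5057
import Cfsg.Agent.Lib.RootInv.Basic

set_option autoImplicit false
open Cfsg

namespace Cfsg.Agent.S5057

open CfsgLib CfsgLib.RootInv Equiv Equiv.Perm
open scoped commutatorElement

set_option maxRecDepth 100000 in
theorem ords : ∀ g : Perm (Fin 6), sign g = 1 → g ^ 3 = 1 ∨ g ^ 4 = 1 ∨ g ^ 5 = 1 := by
  decide +kernel

set_option maxRecDepth 100000 in
theorem supp : ∀ g : Perm (Fin 6), sign g = 1 → g * g = 1 → g ≠ 1 → g.support.card = 4 := by
  decide +kernel

theorem ords' (g : alternatingGroup (Fin 6)) : orderOf g ∣ 3 ∨ orderOf g ∣ 4 ∨ orderOf g ∣ 5 := by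
  simp only [orderOf_dvd_iff_pow_eq_one, Subtype.ext_iff]
  exact ords g g.2

theorem ctype {g : alternatingGroup (Fin 6)} (h : orderOf g = 2) :
    (g : Perm (Fin 6)).support.card = 4 ∧ (g : Perm (Fin 6)).cycleType = Multiset.replicate 2 2 := by
  have h1 := supp g g.2 (congrArg Subtype.val (Invol.mul_self_of_orderOf_two h))
    fun e => Invol.ne_one_of_orderOf_two h (Subtype.ext e)
  refine ⟨h1, ?_⟩
  have h2 : orderOf (g : Perm (Fin 6)) = 2 := (Subgroup.orderOf_coe g).trans h
  obtain ⟨n, hn⟩ := cycleType_prime_order (σ := (g : Perm (Fin 6))) (by rw [h2]; exact Nat.prime_two)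
  rw [h2] at hn
  rw [← sum_cycleType, hn, Multiset.sum_replicate, smul_eq_mul] at h1
  rw [hn, show n + 1 = 2 by omega]

/-- The involutions of the alternating group of degree 6 form a class of root involutions (a single conjugacy class of involutions generating the group, any two of which commute, have product of odd order, or have product of order 4 whose square is again an involution of the class), and the product of any two of them has order at most 5. -/
theorem result :
    Cfsg.IsRootInvolutionClass {g : ↥(alternatingGroup (Fin 6)) | orderOf g = 2} ∧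
    ∀ d ∈ {g : ↥(alternatingGroup (Fin 6)) | orderOf g = 2}, ∀ e ∈ {g : ↥(alternatingGroup (Fin 6)) | orderOf g = 2},
      orderOf (d * e) ≤ 5 := by
  have hs := alternatingGroup.isSimpleGroup (α := Fin 6) (by simp)
  have hc : ∀ d ∈ {g : ↥(alternatingGroup (Fin 6)) | orderOf g = 2}, ∀ g,
      g * d * g⁻¹ ∈ {g : ↥(alternatingGroup (Fin 6)) | orderOf g = 2} :=
    fun d hd g => (Invol.orderOf_conj g d).trans hd
  let t : alternatingGroup (Fin 6) := ⟨swap 0 1 * swap 2 3, by simp⟩
  have ht : orderOf t = 2 := Invol.orderOf_eq_two (by decide) (by decide)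
  have hN : (Subgroup.closure {g : ↥(alternatingGroup (Fin 6)) | orderOf g = 2}).Normal := ⟨fun v hv g => by
    refine (Subgroup.closure_le ((Subgroup.closure _).comap (MulAut.conj g).toMonoidHom)).2 ?_ hv
    exact fun w hw => Subgroup.subset_closure (hc w hw g)⟩
  refine ⟨⟨⟨fun _ h => h, (hs.eq_bot_or_eq_top_of_normal _ hN).resolve_left fun e => ?_, hc, fun a ha b hb => ?_⟩,
    ⟨t, ht⟩, fun a ha b hb => ?_⟩, fun d _ e _ => ?_⟩
  · exact Invol.ne_one_of_orderOf_two ht (Subgroup.mem_bot.1 (e ▸ Subgroup.subset_closure ht))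
  · rcases ords' (a * b) with h | h | h
    · exact Or.inr (Or.inl (Odd.of_dvd_nat (by decide) h))
    · by_cases h4 : orderOf (a * b) = 4
      · exact Or.inr (Or.inr ⟨h4, by change orderOf _ = 2; rw [orderOf_pow, h4]; rfl⟩)
      · left
        have h2 : orderOf (a * b) ∣ 2 := by
          have := Nat.le_of_dvd (by decide) h
          interval_cases orderOf (a * b) <;> simp_all
        have h3 := orderOf_dvd_iff_pow_eq_one.1 h2
        rw [pow_two, mul_eq_one_iff_eq_inv, mul_inv_rev, Invol.inv_of_orderOf_two ha,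
          Invol.inv_of_orderOf_two hb] at h3
        exact h3
    · exact Or.inr (Or.inl (Odd.of_dvd_nat (by decide) h))
  · obtain ⟨g, hg⟩ := isConj_iff.1 (alternatingGroup.isConj_of (isConj_iff_cycleType_eq.2
      ((ctype ha).2.trans (ctype hb).2.symm)) (by rw [(ctype ha).1]; simp))
    exact ⟨g, hg.symm⟩
  · rcases ords' (d * e) with h | h | h <;> have := Nat.le_of_dvd (by decide) h <;> omega

end Cfsg.Agent.S5057
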