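import Cfsg.Statements.S5058
import Cfsg.Agent.Lib.RootSub.LinEx
import Cfsg.Agent.Lib.RootInv.Basic

set_option autoImplicit false
open Matrix
open Cfsg

namespace Cfsg.Agent.S5058

open CfsgLib CfsgLib.RootInv CfsgLib.RootSub CfsgLib.SL2
open scoped commutatorElement

section

open scoped MatrixGroups

variable {k R G : Type*} [Field k] [CharP k 2] [Ring R] [Algebra k R] [Group G] {ι : G →* R} {N : Set R}

theorem sl2_odd [Finite k] {l : k} (hl : l ≠ 0) : Odd (orderOf (uu (1 : k) * ll l)) := by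
  have h2 : ∀ x : k, x + x = 0 := CharTwo.add_self_eq_zero
  refine Nat.not_even_iff_odd.1 fun he => ?_
  obtain ⟨h1, h3, h4⟩ := Invol.central_involution (x := uu (1 : k)) (y := ll l)
    (by rw [← uu_add, h2, uu_zero]) (by rw [← ll_add, h2, ll_zero]) he
  generalize (uu (1 : k) * ll l) ^ (orderOf (uu (1 : k) * ll l) / 2) = z at h1 h3 h4
  have e1 := congrArg (fun g : SL(2, k) => g 0 0) h3.eq
  have e2 := congrArg (fun g : SL(2, k) => g 0 1) h3.eq
  have e3 := congrArg (fun g : SL(2, k) => g 0 0) h4.eq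
  have e4 := congrArg (fun g : SL(2, k) => g 0 0) (Invol.mul_self_of_orderOf_two h1)
  simp [mul_ap, hl] at e1 e2 e3 e4
  rw [e3, zero_mul, add_zero, mul_self_eq_one_iff, CharTwo.neg_eq, or_self] at e4
  refine Invol.ne_one_of_orderOf_two h1 (ext2 ?_ ?_ ?_ ?_) <;> simp [one_00, one_01, one_10, one_11, e1, e3, e4]
  linear_combination e4 - e2

theorem pair [Finite k] (h : Lin k ι N) {x y : G} {a b : R} (ha : a ∈ N) (hb : b ∈ N) (hx : ι x = 1 + a)
    (hy : ι y = 1 + b) : x * x = 1 ∧ x ≠ 1 ∧ (x * y = y * x ∨ (Odd (orderOf (x * y)) ∧ (Nat.card k = 2 →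
      (x * y) ^ 3 = 1)) ∨ ∃ c ∈ N, ι ((x * y) ^ 2) = 1 + c) := by
  have h2 : (1 : k) + 1 = 0 := CharTwo.add_self_eq_zero 1
  have hsq : ∀ {x : G} {a : R}, a ∈ N → ι x = 1 + a → x * x = 1 := fun {x a} ha hx => h.inj (by
    have := one_add_mul (h.sq a ha) (1 : k) 1
    rw [map_mul, hx, map_one]
    simpa [h2] using this)
  have hx' : ι x = 1 + (1 : k) • a := by rwa [one_smul]
  have hy' : ι y = 1 + (1 : k) • b := by rwa [one_smul]
  refine ⟨hsq ha hx, fun e => one_ne_zero ((h.eq_one_iff ha hx').1 e), ?_⟩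
  rcases h.pair a ha b hb with e | ⟨l, hl, e1, e2⟩ | ⟨e1, e2, e3⟩
  · exact Or.inl ((h.comm_iff ha hb).2 e x (Subgroup.subset_closure ⟨1, hx'⟩) y (Subgroup.subset_closure ⟨1, hy'⟩))
  · obtain ⟨φ, hu, hv⟩ := h.exists_hom ha hb hl e1 e2
    have e : x * y = φ (uu 1 * ll l) := by
      rw [map_mul, h.inj (hx'.trans (hu 1).symm), h.inj (hy'.trans (mul_inv_cancel₀ hl ▸ hv l).symm)]
    refine Or.inr (Or.inl ⟨e ▸ (sl2_odd hl).of_dvd_nat (orderOf_map_dvd φ _), fun hk => ?_⟩)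
    have hl1 : l = 1 := by
      obtain ⟨c, -, hc⟩ := (Nat.card_eq_two_iff' (0 : k)).1 hk
      exact (hc l hl).trans (hc 1 one_ne_zero).symm
    have h3 : (2 : k) = 0 := CharTwo.two_eq_zero
    rw [e, hl1, ← map_pow, ← φ.map_one]
    congr 1
    refine ext2 ?_ ?_ ?_ ?_ <;> simp [pow_succ, mul_ap, one_00, one_01, one_10, one_11]
    · linear_combination 6 * h3
    · linear_combination 4 * h3
    · linear_combination 4 * h3
    · linear_combination 2 * h3
  · refine Or.inr (Or.inr ⟨_, e3, ?_⟩)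
    have := map_comm_eq (h.sq a ha) (h.sq b hb) e1 e2 hx' hy'
    rwa [commutatorElement_def, inv_eq_of_mul_eq_one_right (hsq ha hx), inv_eq_of_mul_eq_one_right (hsq hb hy),
      mul_one, one_smul, mul_assoc, ← pow_two] at this

end

/-- Let F be a finite field of characteristic 2 and n a natural number. Then the transvections of SL_{n+3}(F) (so in every dimension at least 3) (the conjugates of the elementary matrices 1 + c E₁₂, c ≠ 0) form a class of root involutions of SL_{n+3}(F); when F has two elements they form a class of {3,4}⁺-transpositions (every product of odd order has order 1 or 3). -/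
theorem result (F : Type*) [Field F] [Fintype F] [CharP F 2] (n : ℕ) :
    Cfsg.IsRootInvolutionClass {t : Matrix.SpecialLinearGroup (Fin (n + 3)) F | ∃ c : F, c ≠ 0 ∧
        ∃ g : Matrix.SpecialLinearGroup (Fin (n + 3)) F, ((g⁻¹ * t * g : Matrix.SpecialLinearGroup (Fin (n + 3)) F) :
          Matrix (Fin (n + 3)) (Fin (n + 3)) F) = Matrix.transvection 0 1 c} ∧
    (Fintype.card F = 2 → Cfsg.IsThreeFourPlusTranspositionSet {t : Matrix.SpecialLinearGroup (Fin (n + 3)) F | ∃ c : F, c ≠ 0 ∧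
        ∃ g : Matrix.SpecialLinearGroup (Fin (n + 3)) F, ((g⁻¹ * t * g : Matrix.SpecialLinearGroup (Fin (n + 3)) F) :
          Matrix (Fin (n + 3)) (Fin (n + 3)) F) = Matrix.transvection 0 1 c}) := by
  have h01 : (0 : Fin (n + 3)) ≠ 1 := by simp
  obtain ⟨t, h02, h12⟩ : ∃ t : Fin (n + 3), 0 ≠ t ∧ 1 ≠ t :=
    ⟨⟨2, by omega⟩, by simp [Fin.ext_iff], by simp [Fin.ext_iff]⟩
  have hl := sl_lin (n := Fin (n + 3)) (F := F)
  have hs : ∀ a ∈ NSL F (Fin (n + 3) → F), ∀ c : F, c ≠ 0 → c • a ∈ NSL F (Fin (n + 3) → F) := by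
    rintro _ ⟨φ, p, h1, h2, h3, rfl⟩ c hc
    exact ⟨φ, c • p, h1, smul_ne_zero hc h2, by simp [h3], LinearMap.ext fun v => by simp [smul_comm c]⟩
  have hD : {t : Matrix.SpecialLinearGroup (Fin (n + 3)) F | ∃ c : F, c ≠ 0 ∧
        ∃ g : Matrix.SpecialLinearGroup (Fin (n + 3)) F, ((g⁻¹ * t * g : Matrix.SpecialLinearGroup (Fin (n + 3)) F) :
          Matrix (Fin (n + 3)) (Fin (n + 3)) F) = Matrix.transvection 0 1 c} =
      {x | ∃ a ∈ NSL F (Fin (n + 3) → F), slι _ F x = 1 + a} := by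
    ext x
    simp only [slι_transvection]
    constructor
    · rintro ⟨c, hc, g, hg⟩
      refine ⟨_, hs _ (hl.conj _ (proj_mem h01) g) c hc, ?_⟩
      rw [← map_conj hg g]
      congr 1
      group
    · rintro ⟨a, ha, hx⟩
      obtain ⟨g, hg⟩ := (Lin.conjClass (S := Fam F (slι _ F) (NSL F _)) ⟨_, a, ha, rfl⟩ sl_conn).2 _ ⟨_, proj_mem h01, rfl⟩ _ ⟨a, ha, rfl⟩
      have hx' : slι _ F x = 1 + (1 : F) • a := by rwa [one_smul]
      obtain ⟨c, hc⟩ := (mem_UU (hl.sq _ (proj_mem h01))).1 (mem_conjBy.1 (hg.le (Subgroup.subset_closure ⟨1, hx'⟩)))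
      refine ⟨c, fun e => one_ne_zero ((hl.eq_one_iff ha hx').1 ?_), g, hc⟩
      have := (hl.eq_one_iff (proj_mem h01) hc).2 e
      rwa [mul_assoc, inv_mul_eq_one, right_eq_mul] at this
  have hcl : ∀ c : F, c ≠ 0 → ∀ x : Matrix.SpecialLinearGroup (Fin (n + 3)) F,
      (x : Matrix (Fin (n + 3)) (Fin (n + 3)) F) = Matrix.transvection 0 1 c →
      IsConj (Matrix.SpecialLinearGroup.transvection h01 1) x := fun c hc x hx => by
    refine isConj_iff.2 ⟨Matrix.SpecialLinearGroup.diag2n h02 c hc, ?_⟩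
    rw [mul_inv_eq_iff_eq_mul]
    refine Subtype.ext ?_
    simp only [Matrix.SpecialLinearGroup.coe_mul, hx, Classical.sl_diag2n_coe_eq,
      Matrix.SpecialLinearGroup.transvection_coe, Matrix.transvection]
    simp only [mul_add, add_mul, one_mul, mul_one, Matrix.single_mul_single_same, Matrix.single_mul_single_of_ne _ _ _ _ h01.symm,
      Matrix.single_mul_single_of_ne _ _ _ _ h02.symm, Matrix.single_mul_single_of_ne _ _ _ _ h12, add_zero]
    rw [← sub_add_cancel c 1, Matrix.single_add, add_sub_cancel_right]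
    abel
  have hR : IsRootInvolutionSet {x | ∃ a ∈ NSL F (Fin (n + 3) → F), slι _ F x = 1 + a} := by
    have ho : ∀ d ∈ {x | ∃ a ∈ NSL F (Fin (n + 3) → F), slι _ F x = 1 + a}, orderOf d = 2 := by
      rintro x ⟨a, ha, hx⟩
      exact Invol.orderOf_eq_two (pair hl ha ha hx hx).2.1 (pair hl ha ha hx hx).1
    refine ⟨ho, eq_top_iff.2 (sl_gen.ge.trans (iSup₂_le ?_)), ?_, ?_⟩
    · rintro _ ⟨a, ha, rfl⟩ x hx
      obtain ⟨c, hc⟩ := (mem_UU (hl.sq a ha)).1 hx
      by_cases h0 : c = 0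
      · rw [(hl.eq_one_iff ha hc).2 h0]
        exact Subgroup.one_mem _
      · exact Subgroup.subset_closure ⟨_, hs a ha c h0, hc⟩
    · rintro x ⟨a, ha, hx⟩ g
      exact ⟨_, hl.conj a ha g, by simpa using map_conj (k := F) (c := 1) (a := a) (hx.trans (by rw [one_smul])) g⟩
    · rintro x ⟨a, ha, hx⟩ y ⟨b, hb, hy⟩
      refine (pair hl ha hb hx hy).2.2.imp_right (Or.imp And.left fun e => ⟨?_, e⟩)
      have := Fact.mk Nat.prime_two
      exact orderOf_eq_prime_pow (p := 2) (n := 1) (Invol.ne_one_of_orderOf_two (ho _ e))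
        (by rw [show 2 ^ (1 + 1) = 2 * 2 from rfl, pow_mul, Invol.sq_of_orderOf_two (ho _ e)])
  refine ⟨⟨hD ▸ hR, ⟨Matrix.SpecialLinearGroup.transvection h01 1, 1, one_ne_zero, 1, by simp; rfl⟩, ?_⟩,
    fun h2 => ⟨hD ▸ hR, ?_⟩⟩
  · rintro x ⟨c, hc, g, hx⟩ y ⟨d, hd, g', hy⟩
    obtain ⟨u, hu⟩ := isConj_iff.1 ((hcl c hc _ hx).symm.trans (hcl d hd _ hy))
    exact ⟨g' * u * g⁻¹, by rw [← mul_left_inj g', ← mul_right_inj g'⁻¹, ← mul_assoc, ← hu]; group⟩
  · rw [hD]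
    rintro x ⟨a, ha, hx⟩ y ⟨b, hb, hy⟩ ho
    have h := ri_of hR
    rcases (pair hl ha hb hx hy).2.2 with e | e | e
    · exact Or.inl (orderOf_eq_one_iff.2 (eq_one_of_odd (n := 1) ho (by
        rw [pow_one, ← cm_eq_sq, h.cm_eq_one ⟨a, ha, hx⟩ ⟨b, hb, hy⟩ e])))
    · exact (Nat.dvd_prime Nat.prime_three).1 (orderOf_dvd_of_pow_eq_one (e.2 (Nat.card_eq_fintype_card.trans h2)))
    · exact Or.inl (orderOf_eq_one_iff.2 (eq_one_of_odd (n := 2) ho (by
        rw [show 2 ^ 2 = 2 * 2 from rfl, pow_mul, pow_two, h.sq _ e])))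

end Cfsg.Agent.S5058
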