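import Cfsg.Statements.S5060
import Cfsg.Agent.Lib.RootSub.QuadSL2

set_option autoImplicit false
open Cfsg

namespace Cfsg.Agent.S5060

open CfsgLib.RootSub
open scoped commutatorElement

open CfsgLib.SL2 in
theorem two_ne_zero_of_ringChar {k : Type*} [Field k] (h : ringChar k ≠ 2) : (2 : k) ≠ 0 :=
  Ring.two_ne_zero h

/-- Let k ⊆ K be fields with the characteristic of k not 2 and k not of order 3, and let α ∈ K be a non-zero element algebraic over k. Then the subgroup of SL₂(K) generated by the upper unitriangular matrices with entry c and the lower unitriangular matrices with entry cα, c ranging over k, is exactly the group of matrices of SL₂(K) with all entries in k(α). -/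
theorem result {k K : Type*} [Field k] [Field K] [Algebra k K] (hk2 : ringChar k ≠ 2) (hk3 : Nat.card k ≠ 3)
    (α : K) (hα : IsAlgebraic k α) (hα0 : α ≠ 0) :
    (Subgroup.closure ({g : Matrix.SpecialLinearGroup (Fin 2) K | ∃ c : k, (g : Matrix (Fin 2) (Fin 2) K) = !![1, algebraMap k K c; 0, 1]} ∪
        {g : Matrix.SpecialLinearGroup (Fin 2) K | ∃ c : k, (g : Matrix (Fin 2) (Fin 2) K) = !![1, 0; algebraMap k K c * α, 1]}) :
      Set (Matrix.SpecialLinearGroup (Fin 2) K)) =
    {g : Matrix.SpecialLinearGroup (Fin 2) K | ∀ i j : Fin 2, (g : Matrix (Fin 2) (Fin 2) K) i j ∈ IntermediateField.adjoin k ({α} : Set K)} := by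
  open CfsgLib.SL2 in
  set K' := IntermediateField.adjoin k ({α} : Set K) with hK'
  let φ : Matrix.SpecialLinearGroup (Fin 2) K' →* Matrix.SpecialLinearGroup (Fin 2) K :=
    Matrix.SpecialLinearGroup.map (algebraMap K' K)
  have hα' : α ∈ K' := IntermediateField.mem_adjoin_simple_self k α
  have hr : (φ.range : Set (Matrix.SpecialLinearGroup (Fin 2) K)) =
      {g : Matrix.SpecialLinearGroup (Fin 2) K | ∀ i j : Fin 2, (g : Matrix (Fin 2) (Fin 2) K) i j ∈ K'} := by
    ext g
    constructor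
    · rintro ⟨g', rfl⟩ i j
      exact (g' i j).2
    · intro hg
      refine ⟨CfsgLib.SL2.mk2 ⟨_, hg 0 0⟩ ⟨_, hg 0 1⟩ ⟨_, hg 1 0⟩ ⟨_, hg 1 1⟩
        (Subtype.ext (CfsgLib.SL2.det_eq g)), ?_⟩
      apply CfsgLib.SL2.ext2 <;> rfl
  rw [← hr]
  apply Set.Subset.antisymm
  · refine (Subgroup.closure_le _).2 ?_
    rw [hr]
    rintro g (⟨c, hc⟩ | ⟨c, hc⟩) i j <;> rw [hc] <;> fin_cases i <;> fin_cases j <;>
      simp [K'.mul_mem, hα']
  · rintro _ ⟨g, rfl⟩
    have hint : IsIntegral k (⟨α, hα'⟩ : K') :=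
      (isIntegral_algHom_iff K'.val Subtype.val_injective).1 hα.isIntegral
    have hgen : Algebra.adjoin k {(⟨α, hα'⟩ : K')} = ⊤ :=
      (IntermediateField.adjoin.powerBasis hα.isIntegral).adjoin_gen_eq_top
    have := sl2_gen_top (two_ne_zero_of_ringChar hk2) hk3 hint (fun e => hα0 (congrArg Subtype.val e)) hgen
      ((Subgroup.closure ({g : Matrix.SpecialLinearGroup (Fin 2) K | ∃ c : k, (g : Matrix (Fin 2) (Fin 2) K) = !![1, algebraMap k K c; 0, 1]} ∪
        {g : Matrix.SpecialLinearGroup (Fin 2) K | ∃ c : k, (g : Matrix (Fin 2) (Fin 2) K) = !![1, 0; algebraMap k K c * α, 1]})).comap φ)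
      (fun c => Subgroup.subset_closure (Or.inl ⟨c, by
        ext i j; fin_cases i <;> fin_cases j <;> rfl⟩))
      (fun c => Subgroup.subset_closure (Or.inr ⟨c, by
        ext i j; fin_cases i <;> fin_cases j <;> rfl⟩))
    exact (this ▸ Subgroup.mem_top g : g ∈ Subgroup.comap φ _)

end Cfsg.Agent.S5060
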