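import Cfsg.Statements.S5064
import Cfsg.Agent.Lib.RootSub.QuadPair3

set_option autoImplicit false
universe u
open Cfsg

namespace Cfsg.Agent.S5064

open CfsgLib.RootSub
open scoped commutatorElement

/-- Let k be a field of characteristic not 2 with k not of order 3, M a finite-dimensional k-vector space and G ≤ GL(M) such that (G, M) is a quadratic pair (M irreducible for G, and G generated by its quadratically acting elements σ whose scalar family 1 + c(σ − 1), c ∈ k, lies in G). Write 𝒬_d for the quadratic elements of G of minimal commutator rank, E(σ) for the subgroup generated by the members of 𝒬_d with the same fixed space and commutator space as σ, and Σ for the set of these subgroups. If σ, τ ∈ 𝒬_d and the subgroup H generated by their two scalar families does not act unipotently on M, then H is isomorphic to SL₂ over a simple algebraic extension k(λ) of k. -/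
theorem result {k : Type u} [Field k] (hk2 : ringChar k ≠ 2) (hk3 : Nat.card k ≠ 3)
    {M : Type u} [AddCommGroup M] [Module k M] [FiniteDimensional k M]
    {G : Subgroup (LinearMap.GeneralLinearGroup k M)} (hG : Cfsg.IsQuadraticPair G)
    {σ τ : LinearMap.GeneralLinearGroup k M} (hσ : σ ∈ Cfsg.minimalQuadraticElements G) (hτ : τ ∈ Cfsg.minimalQuadraticElements G)
    (hH : ¬ Cfsg.IsUnipotentOn (Subgroup.closure (Cfsg.scalarFamily σ ∪ Cfsg.scalarFamily τ))) :
    ∃ (K : Type u) (_ : Field K) (_ : Algebra k K) (lam : K), IsAlgebraic k lam ∧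
      IntermediateField.adjoin k ({lam} : Set K) = ⊤ ∧
      Nonempty (↥(Subgroup.closure (Cfsg.scalarFamily σ ∪ Cfsg.scalarFamily τ)) ≃* Matrix.SpecialLinearGroup (Fin 2) K) := by
  have h2 : (2 : k) ≠ 0 := Ring.two_ne_zero hk2
  have ha := mem_minimalQuadraticElements.1 hσ
  have hb := mem_minimalQuadraticElements.1 hτ
  have key : ∀ {ρ : LinearMap.GeneralLinearGroup k M} {K : Subgroup (LinearMap.GeneralLinearGroup k M)},
      Mn G ((ρ : M →ₗ[k] M) - 1) → (QF K ((ρ : M →ₗ[k] M) - 1) ↔ Cfsg.scalarFamily ρ ⊆ K) :=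
    fun h => ⟨fun h1 _ ⟨c, hc⟩ => coe_mem_mon.1 (hc ▸ h1.mem c),
      fun h1 => ⟨h.sq, fun t => ⟨qu _ (h.smul t).sq, h1 ⟨t, rfl⟩, rfl⟩⟩⟩
  have hgen : ∀ K : Subgroup (LinearMap.GeneralLinearGroup k M), QF K ((σ : M →ₗ[k] M) - 1) →
      QF K ((τ : M →ₗ[k] M) - 1) → Subgroup.closure (Cfsg.scalarFamily σ ∪ Cfsg.scalarFamily τ) ≤ K :=
    fun K h1 h3 => (Subgroup.closure_le _).2 (Set.union_subset ((key ha).1 h1) ((key hb).1 h3))
  have hle : ∀ {α : M →ₗ[k] M}, Mn G α → QF (EG G α) α := fun h =>
    ⟨h.sq, fun t => ⟨_, qu_mem_EG (Submodule.smul_mem _ t h.mem_eS), rfl⟩⟩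
  have ho := (opp_or_np h2 hk3 ha hb).resolve_right fun h => hH (unip_mono (h.unip ha.toQF hb.toQF)
    (hgen _ ((hle ha).mono le_sup_left) ((hle hb).mono le_sup_right)))
  obtain ⟨m, hm, e⟩ := exists_sl2_equiv h2 hk3 ha (ho.ne ha.ne) (hgen G ha.toQF hb.toQF)
    ((key ha).2 (Set.subset_union_left.trans Subgroup.subset_closure))
    ((key hb).2 (Set.subset_union_right.trans Subgroup.subset_closure)) hb (ho.symm.ne hb.ne) hgen
  exact ⟨AdjoinRoot m, inferInstance, inferInstance, AdjoinRoot.root m,
    (AdjoinRoot.isIntegral_root hm.out.ne_zero).isAlgebraic, IntermediateField.adjoin_root_eq_top m, e⟩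

end Cfsg.Agent.S5064
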