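import Cfsg.Statements.S5065
import Cfsg.Agent.Lib.RootSub.QuadPair3

set_option autoImplicit false
universe u
open Cfsg

namespace Cfsg.Agent.S5065

open CfsgLib.RootSub
open scoped commutatorElement

/-- Let k be a field of characteristic not 2 with k not of order 3, M a finite-dimensional k-vector space and G ≤ GL(M) such that (G, M) is a quadratic pair (M irreducible for G, and G generated by its quadratically acting elements σ whose scalar family 1 + c(σ − 1), c ∈ k, lies in G). Write 𝒬_d for the quadratic elements of G of minimal commutator rank, E(σ) for the subgroup generated by the members of 𝒬_d with the same fixed space and commutator space as σ, and Σ for the set of these subgroups. For σ, τ ∈ 𝒬_d put A = E(σ), B = E(τ) and X = ⟨A, B⟩. Then either X acts unipotently on M, or A and B are the unipotent subgroups of a special rank one group X; in the latter case X contains exactly one central involution acting as −1 on the commutator space [M, X] and trivially on the fixed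 space C_M(X), and M is the direct sum of C_M(X) and [M, X]. -/
theorem result {k : Type u} [Field k] (hk2 : ringChar k ≠ 2) (hk3 : Nat.card k ≠ 3)
    {M : Type u} [AddCommGroup M] [Module k M] [FiniteDimensional k M]
    {G : Subgroup (LinearMap.GeneralLinearGroup k M)} (hG : Cfsg.IsQuadraticPair G)
    {σ τ : LinearMap.GeneralLinearGroup k M} (hσ : σ ∈ Cfsg.minimalQuadraticElements G) (hτ : τ ∈ Cfsg.minimalQuadraticElements G) :
    Cfsg.IsUnipotentOn (Cfsg.sameActionSubgroup G σ ⊔ Cfsg.sameActionSubgroup G τ) ∨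
    (Cfsg.IsSpecialRankOnePair (Cfsg.sameActionSubgroup G σ) (Cfsg.sameActionSubgroup G τ) ∧
      (∃! i : LinearMap.GeneralLinearGroup k M, i ∈ Cfsg.sameActionSubgroup G σ ⊔ Cfsg.sameActionSubgroup G τ ∧ i ≠ 1 ∧ i * i = 1 ∧
        (∀ x ∈ Cfsg.sameActionSubgroup G σ ⊔ Cfsg.sameActionSubgroup G τ, i * x = x * i) ∧
        (∀ m ∈ Cfsg.commutatorSubmodule (Cfsg.sameActionSubgroup G σ ⊔ Cfsg.sameActionSubgroup G τ), (i : M →ₗ[k] M) m = -m) ∧
        (∀ m ∈ Cfsg.fixedSubmodule (Cfsg.sameActionSubgroup G σ ⊔ Cfsg.sameActionSubgroup G τ), (i : M →ₗ[k] M) m = m)) ∧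
      IsCompl (Cfsg.fixedSubmodule (Cfsg.sameActionSubgroup G σ ⊔ Cfsg.sameActionSubgroup G τ))
        (Cfsg.commutatorSubmodule (Cfsg.sameActionSubgroup G σ ⊔ Cfsg.sameActionSubgroup G τ))) := by
  have h2 : (2 : k) ≠ 0 := Ring.two_ne_zero hk2
  have ha := mem_minimalQuadraticElements.1 hσ
  have hb := mem_minimalQuadraticElements.1 hτ
  rw [sameActionSubgroup_eq ha, sameActionSubgroup_eq hb]
  refine (opp_or_np h2 hk3 ha hb).symm.imp (fun h => h.unip ha.toQF hb.toQF) fun h => ?_
  obtain ⟨ε, e1, e0, ⟨i, hi, e2⟩, h4, h5, h6⟩ := h.central h2 hk3 ha hb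
  have hc : IsCompl (LinearMap.ker ε) (LinearMap.range ε) := (LinearMap.IsIdempotentElem.isCompl e1).symm
  rw [h5, h6]
  have f1 : ∀ m ∈ LinearMap.range ε, (i : M →ₗ[k] M) m = -m := by
    rintro _ ⟨v, rfl⟩
    rw [← Module.End.mul_apply, e2, sub_mul, mul_assoc, e1, two_mul]; simp
  have f2 : ∀ m ∈ LinearMap.ker ε, (i : M →ₗ[k] M) m = m := fun m hm => by
    rw [e2, two_mul]; simp [LinearMap.mem_ker.1 hm]
  refine ⟨h.sp h2 hk3 ha hb, ⟨i, ⟨hi, fun e => e0 ?_, Units.ext ?_, fun x hx => Units.ext ?_, f1, f2⟩,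
    fun j hj => Units.ext (LinearMap.ext_on_codisjoint hc.codisjoint (fun m hm => ?_) fun m hm => ?_)⟩, hc⟩
  · rw [e, Units.val_one, eq_comm, sub_eq_self, two_mul, ← two_smul k] at e2
    exact (smul_eq_zero.1 e2).resolve_left h2
  · rw [Units.val_mul, e2, Units.val_one, ← sub_eq_zero]
    calc _ = 4 * (ε * ε - ε) := by noncomm_ring
      _ = 0 := by rw [e1]; simp
  · rw [Units.val_mul, Units.val_mul, e2, ← sub_eq_zero]
    calc _ = 2 * (((x : M →ₗ[k] M) - 1) * ε - ε * ((x : M →ₗ[k] M) - 1)) := by noncomm_ring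
      _ = 0 := by rw [(h4 x hx).1, (h4 x hx).2]; simp
  · rw [hj.2.2.2.2.2 m hm, f2 m hm]
  · rw [hj.2.2.2.2.1 m hm, f1 m hm]

end Cfsg.Agent.S5065
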