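import Cfsg.Statements.S5067


set_option autoImplicit false
open Cfsg

namespace Cfsg.Agent.S5067

open Subgroup
open scoped commutatorElement

theorem aux {P : Type*} [Group P] [Group.IsNilpotent P] (hna : ¬ IsMulCommutative P) {E : Subgroup P}
    (hE : IsMulCommutative ↥E) :
    Group.nilpotencyClass ↥(Subgroup.normalClosure (E : Set P)) < Group.nilpotencyClass P := by
  set N := normalClosure (E : Set P)
  set L := (⊤ : Subgroup P).lowerCentralSeries 2
  let π := QuotientGroup.mk' L
  have hc : ∀ x ∈ commutator P, ∀ y, Commute (π x) (π y) := fun x hx y => by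
    rw [← commutatorElement_eq_one_iff_commute, ← map_commutatorElement]
    exact (QuotientGroup.eq_one_iff _).2 (commutator_mem_commutator hx (mem_top y))
  have h0 : N ≤ E ⊔ commutator P := by
    have : (E ⊔ commutator P).Normal := Subgroup.Normal.of_commutator_le _ le_sup_right
    exact normalClosure_le_normal (le_sup_left (a := E))
  have h1 : N.lowerCentralSeries 1 ≤ L := by
    refine commutator_le.2 fun x hx y hy => (QuotientGroup.eq_one_iff _).1 ?_
    change π _ = 1
    rw [map_commutatorElement, commutatorElement_eq_one_iff_commute]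
    obtain ⟨e, he, x', hx', rfl⟩ := mem_sup_of_normal_right.1 (h0 hx)
    obtain ⟨f, hf, y', hy', rfl⟩ := mem_sup_of_normal_right.1 (h0 hy)
    rw [map_mul π e]
    refine Commute.mul_left ?_ (hc x' hx' _)
    rw [map_mul]
    exact Commute.mul_right (Commute.map (setLike_mul_comm he hf) π) (hc y' hy' e).symm
  have h2 : ∀ n, N.lowerCentralSeries (n + 1) ≤ (⊤ : Subgroup P).lowerCentralSeries (n + 2) := fun n => by
    induction n with
    | zero => exact h1
    | succ n ih => exact commutator_mono ih le_top
  have h3 : ¬ Group.nilpotencyClass P ≤ 1 := fun h => hna (by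
    have := Subgroup.lowerCentralSeries_eq_bot_iff_nilpotencyClass_le.2 h
    refine ⟨⟨fun x y => commutatorElement_eq_one_iff_mul_comm.1 ?_⟩⟩
    exact mem_bot.1 (this ▸ commutator_mem_commutator (mem_top x) (mem_top y)))
  obtain ⟨n, hn⟩ : ∃ n, Group.nilpotencyClass P = n + 2 := ⟨Group.nilpotencyClass P - 2, by omega⟩
  have h4 := h2 n
  rw [← hn, Subgroup.lowerCentralSeries_nilpotencyClass, le_bot_iff, ← top_subtype_lowerCentralSeries,
    map_eq_bot_iff_of_injective _ N.subtype_injective, Subgroup.lowerCentralSeries_eq_bot_iff_nilpotencyClass_le] at h4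
  omega

/-- Let P be a non-abelian nilpotent p-group (every element of p-power order; P possibly infinite) generated by two abelian subgroups E and F. Then the normal closure of E in P, and likewise that of F, has nilpotency class strictly smaller than that of P. -/
theorem result {P : Type*} [Group P] {p : ℕ} [Fact p.Prime] (hP : IsPGroup p P) [Group.IsNilpotent P]
    (hna : ¬ IsMulCommutative P) {E F : Subgroup P} (hE : IsMulCommutative ↥E) (hF : IsMulCommutative ↥F) (hgen : E ⊔ F = ⊤) :
    Group.nilpotencyClass ↥(Subgroup.normalClosure (E : Set P)) < Group.nilpotencyClass P ∧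
    Group.nilpotencyClass ↥(Subgroup.normalClosure (F : Set P)) < Group.nilpotencyClass P := by
  exact ⟨aux hna hE, aux hna hF⟩

end Cfsg.Agent.S5067
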