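import Cfsg.Statements.S5069
import Cfsg.Agent.Lib.RootSub.QuadPair4

set_option autoImplicit false
universe u
open Cfsg

namespace Cfsg.Agent.S5069

open CfsgLib.RootSub
open scoped commutatorElement

/-- Let k be a field of characteristic not 2 with k not of order 3, M a finite-dimensional k-vector space and G ≤ GL(M) such that (G, M) is a quadratic pair (M irreducible for G, and G generated by its quadratically acting elements σ whose scalar family 1 + c(σ − 1), c ∈ k, lies in G). Write 𝒬_d for the quadratic elements of G of minimal commutator rank, E(σ) for the subgroup generated by the members of 𝒬_d with the same fixed space and commutator space as σ, and Σ for the set of these subgroups. Then Σ is a disjoint union of finitely many parts Σ₁, …, Σ_r such that the subgroups G_i generated by the Σ_i commute pairwise, each G_i is quasisimple, and inside G_i the members of Σ_i form a class of abstract root subgroups in which every rank one pair A, B contains subgroups A₀ ≤ A, B₀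 ≤ B generating an image of SL₂(k₁) with central kernel on unitriangular subgroups for some field k₁ with at least four elements. -/
theorem result {k : Type u} [Field k] (hk2 : ringChar k ≠ 2) (hk3 : Nat.card k ≠ 3)
    {M : Type u} [AddCommGroup M] [Module k M] [FiniteDimensional k M]
    {G : Subgroup (LinearMap.GeneralLinearGroup k M)} (hG : Cfsg.IsQuadraticPair G) :
    ∃ (r : ℕ) (part : Fin r → Set (Subgroup (LinearMap.GeneralLinearGroup k M))),
      (⋃ i, part i) = Cfsg.quadraticRootSubgroups G ∧ (∀ i j, i ≠ j → Disjoint (part i) (part j)) ∧ (∀ i, (part i).Nonempty) ∧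
      (∀ i j, i ≠ j → ⁅(⨆ A ∈ part i, A), (⨆ A ∈ part j, A)⁆ = ⊥) ∧
      (∀ i, Cfsg.IsQuasisimple ↥(⨆ A ∈ part i, A) ∧
        Cfsg.IsRootSubgroupClass ((fun A : Subgroup (LinearMap.GeneralLinearGroup k M) => A.subgroupOf (⨆ B ∈ part i, B)) '' (part i)) ∧
        ∀ A ∈ part i, ∀ B ∈ Cfsg.rankOnePartners (part i) A, ∃ A₀ B₀ : Subgroup (LinearMap.GeneralLinearGroup k M), A₀ ≤ A ∧ B₀ ≤ B ∧
          ∃ (k₁ : Type u) (_ : Field k₁), 3 < ENat.card k₁ ∧ Cfsg.IsPSL2PairOver k₁ A₀ B₀) := by
  have h2 : (2 : k) ≠ 0 := Ring.two_ne_zero hk2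
  have hN := nu_of_pair hG
  have hS := hN.rs h2 hk3
  have hn := fun A => hN.ni h2 hk3 (A := A)
  obtain ⟨r, f, hf, e⟩ := exists_fin_enum (hN.finite_cmp h2 hk3)
  have h1 : ∀ i, ∃ A ∈ Cfsg.quadraticRootSubgroups G, f i = cmp (Cfsg.quadraticRootSubgroups G) A :=
    fun i => by
      obtain ⟨A, hA, e'⟩ := e.le ⟨i, rfl⟩
      exact ⟨A, hA, e'.symm⟩
  choose A hA hA' using h1
  refine ⟨r, f, le_antisymm (Set.iUnion_subset fun i B hB => (hA' i ▸ hB).1) fun B hB => ?_,
    fun i j hij => Set.disjoint_left.2 fun B h3 h4 => hij (hf ?_), fun i => ⟨_, hA' i ▸ mem_cmp_self (hA i)⟩,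
    fun i j hij => ?_, fun i => ?_⟩
  · obtain ⟨i, e'⟩ := e.ge ⟨B, hB, rfl⟩
    exact Set.mem_iUnion.2 ⟨i, e' ▸ mem_cmp_self hB⟩
  · rw [hA'] at h3 h4
    rw [hA', hA', ← cmp_eq h3, cmp_eq h4]
  · rw [hA', hA']
    exact comm_iff.2 (hS.comm_cmpG hn fun e' => hij (hf (by rwa [hA', hA'])))
  · rw [hA']
    refine ⟨hN.quasisimple h2 hk3 (hA i), hS.cmp_class hn (hA i), fun B hB C hC => ?_⟩
    obtain ⟨A₀, B₀, h3, h4, h5⟩ := (hN.r1_data h2 hk3 hB.1 hC.1.1 hC.2).2
    exact ⟨A₀, B₀, h3, h4, k, inferInstance, three_lt_card h2 hk3, h5⟩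

end Cfsg.Agent.S5069
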