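import Cfsg.Statements.S5071
import Cfsg.Agent.Lib.RootSub.LinEx
import Cfsg.Agent.Lib.Unitary.Basic

set_option autoImplicit false
open Matrix
open Cfsg

namespace Cfsg.Agent.S5071

open CfsgLib CfsgLib.RootSub CfsgLib.Unitary
open scoped commutatorElement

section

variable {F L : Type*} [Field F] [Fintype F] [Field L] [Algebra L F] {q n : ℕ} (hF : Fintype.card F = q ^ 2)
  {ε : F}

/-- The natural action. -/
def suι (n : ℕ) (F : Type*) [Field F] (q : ℕ) : SU n F q →* Module.End F (Fin n → F) :=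
  (slι (Fin n) F).comp (SU n F q).subtype

/-- The rank one maps. -/
def NU (n : ℕ) (ε : F) : Set (Module.End F (Fin n → F)) :=
  {a | ∃ p, p ≠ 0 ∧ hermForm n F q p p = 0 ∧ a = ro (ε • hermSesq hF n p) p}

theorem phi_ne (h0 : ε ≠ 0) {p : Fin n → F} (hp : p ≠ 0) : ε • hermSesq hF n p ≠ 0 := fun e => by
  obtain ⟨u, hu⟩ := exists_herm_eq_one hF hp
  simpa [hermSesq_apply, hu, h0] using LinearMap.congr_fun e u

theorem op (hL : ∀ x : F, x ^ q = x ↔ ∃ c : L, algebraMap L F c = x) (h0 : ε ≠ 0) (hε : ε + ε ^ q = 0)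
    {p v : Fin n → F} (h : hermForm n F q v p ≠ 0) :
    Op L (ro (ε • hermSesq hF n p) p) (ro (ε • hermSesq hF n v) v) := by
  obtain ⟨l, hl⟩ := (hL (ε * hermForm n F q v p * (ε * hermForm n F q p v))).1 (by
    rw [mul_pow, mul_pow, mul_pow, herm_conj hF, herm_conj hF, eq_neg_of_add_eq_zero_right hε]; ring)
  refine ⟨l, fun e => ?_, ?_, ?_⟩
  · rw [e, map_zero] at hl
    exact mul_ne_zero (mul_ne_zero h0 h) (mul_ne_zero h0 (mt (herm_eq_zero_comm hF).1 h)) hl.symm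
  · rw [ro_mul_mul, ← algebraMap_smul F l, hl]
    rfl
  · rw [ro_mul_mul, ← algebraMap_smul F l, hl, mul_comm]
    rfl

theorem pair (hL : ∀ x : F, x ^ q = x ↔ ∃ c : L, algebraMap L F c = x) (h0 : ε ≠ 0) (hε : ε + ε ^ q = 0) :
    ∀ a ∈ NU hF n ε, ∀ b ∈ NU hF n ε, a * b = b * a ∨ Op L a b := by
  rintro _ ⟨p, -, -, rfl⟩ _ ⟨v, -, -, rfl⟩
  by_cases h : hermForm n F q v p = 0
  · exact Or.inl (by simp [ro_mul, hermSesq_apply, h, (herm_eq_zero_comm hF).1 h])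
  · exact Or.inr (op hF hL h0 hε h)

theorem lin (hL : ∀ x : F, x ^ q = x ↔ ∃ c : L, algebraMap L F c = x) (h0 : ε ≠ 0) (hε : ε + ε ^ q = 0) :
    Lin L (suι n F q) (NU hF n ε) := by
  refine ⟨sl_lin.inj.comp Subtype.val_injective, ?_, ?_, ?_, ?_,
    fun a ha b hb => (pair hF hL h0 hε a ha b hb).imp_right Or.inl⟩
  · rintro _ ⟨p, -, h, rfl⟩
    simp [ro_mul, hermSesq_apply, h]
  · rintro _ ⟨p, h, -, rfl⟩
    exact ro_ne (phi_ne hF h0 h) h
  · rintro _ ⟨p, -, h, rfl⟩ c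
    obtain ⟨g, hg⟩ := exists_sl (φ := ε • hermSesq hF n p) (p := p) (by simp [hermSesq_apply, h]) (algebraMap L F c)
    refine ⟨⟨g, (mem_SU_iff' g).2 fun u v => ?_⟩, by rw [← algebraMap_smul F c]; exact hg⟩
    rw [← slι_apply, ← slι_apply, hg]
    simp only [LinearMap.add_apply, Module.End.one_apply, LinearMap.smul_apply, LinearMap.smulRight_apply,
      hermSesq_apply, smul_eq_mul, herm_add_left, herm_add_right hF, herm_smul_left, herm_smul_right, h, mul_pow,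
      herm_conj hF, (hL _).2 ⟨c, rfl⟩, eq_neg_of_add_eq_zero_right hε]
    ring
  · rintro _ ⟨p, h, h1, rfl⟩ g
    refine ⟨_, ι_ne (suι n F q) g h, ((mem_SU_iff' _).1 g.2 p p).trans h1, (ro_conj _ _).trans ?_⟩
    congr 1
    refine LinearMap.ext fun v => congrArg (ε * ·) ?_
    have := (mem_SU_iff' _).1 g.2 (suι n F q g⁻¹ v) p
    change hermForm n F q (suι n F q g _) _ = _ at this
    rw [ι_cancel_inv] at this
    exact this.symm

include hF in
theorem exists_iso {p p' : Fin n → F} (h : p ≠ 0) (h' : p' ≠ 0) (h1 : hermForm n F q p p = 0)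
    (h2 : hermForm n F q p p' = 0) : ∃ v, v ≠ 0 ∧ hermForm n F q v v = 0 ∧ hermForm n F q v p ≠ 0 ∧
      hermForm n F q v p' ≠ 0 := by
  obtain ⟨w, e1, e2⟩ := exists_ne_two (phi_ne hF one_ne_zero h) (phi_ne hF one_ne_zero h')
  rw [one_smul, hermSesq_apply] at e1 e2
  obtain ⟨x, hx⟩ := exists_trace_eq hF (μ := -hermForm n F q w w) (by rw [neg_pow_q hF, herm_conj hF])
  have e3 : hermForm n F q (w + (x / hermForm n F q p w) • p) p ≠ 0 := by
    simpa [herm_add_left, herm_smul_left, h1] using e1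
  refine ⟨w + (x / hermForm n F q p w) • p, fun e => e3 (by rw [e, herm_zero_left]), ?_, e3,
    by simpa [herm_add_left, herm_smul_left, h2] using e2⟩
  have e4 := mt (herm_eq_zero_comm hF).1 e1
  simp only [herm_add_left, herm_add_right hF, herm_smul_left, herm_smul_right, h1, div_pow, herm_conj hF]
  field_simp
  linear_combination hermForm n F q p w * hermForm n F q w p * hx

theorem conn (hL : ∀ x : F, x ^ q = x ↔ ∃ c : L, algebraMap L F c = x) (h0 : ε ≠ 0) (hε : ε + ε ^ q = 0)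
    {G : Type*} [Group G] {ι : G →* Module.End F (Fin n → F)} (hl : Lin L ι (NU hF n ε)) :
    IsConnectedFamily (FAdj (Fam L ι (NU hF n ε))) (Fam L ι (NU hF n ε)) := by
  refine hl.conn ?_ ?_
  · rintro _ ⟨p, h, h1, rfl⟩
    obtain ⟨v, e0, e1, e2, -⟩ := exists_iso hF h h h1 h1
    exact ⟨_, ⟨v, e0, e1, rfl⟩, op hF hL h0 hε e2⟩
  · rintro _ ⟨p, h, h1, rfl⟩ _ ⟨p', h', h2, rfl⟩
    by_cases e : hermForm n F q p p' = 0
    · obtain ⟨v, e0, e1, e2, e3⟩ := exists_iso hF h h' h1 e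
      exact (Relation.ReflTransGen.single ⟨⟨v, e0, e1, rfl⟩, hl.op_not_comm ⟨p, h, h1, rfl⟩ (op hF hL h0 hε e2)⟩).tail
        ⟨⟨p', h', h2, rfl⟩, (hl.op_not_comm ⟨p', h', h2, rfl⟩ (op hF hL h0 hε e3)).symm⟩
    · exact .single ⟨⟨p', h', h2, rfl⟩, (hl.op_not_comm ⟨p', h', h2, rfl⟩ (op hF hL h0 hε e)).symm⟩

theorem fam (hL : ∀ x : F, x ^ q = x ↔ ∃ c : L, algebraMap L F c = x) (h0 : ε ≠ 0) (hε : ε + ε ^ q = 0) :
    {A : Subgroup (SU n F q) | ∃ p : Fin n → F, p ≠ 0 ∧ hermForm n F q p p = 0 ∧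
      A = Subgroup.closure {g : SU n F q |
        (∀ v : Fin n → F, ∃ c : F, ((g : SpecialLinearGroup (Fin n) F) : Matrix (Fin n) (Fin n) F) *ᵥ v = v + c • p) ∧
        ∀ v : Fin n → F, hermForm n F q v p = 0 →
          ((g : SpecialLinearGroup (Fin n) F) : Matrix (Fin n) (Fin n) F) *ᵥ v = v}} =
    Fam L (suι n F q) (NU hF n ε) := by
  have : ∀ (p : Fin n → F), p ≠ 0 → hermForm n F q p p = 0 → ∀ g : SU n F q,
      ((∀ v : Fin n → F, ∃ c : F, suι n F q g v = v + c • p) ∧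
        ∀ v : Fin n → F, hermForm n F q v p = 0 → suι n F q g v = v) ↔
      ∃ c : L, suι n F q g = 1 + c • ro (ε • hermSesq hF n p) p := fun p hp h1 g => by
    refine ⟨fun ⟨h2, h3⟩ => ?_, fun ⟨c, hc⟩ => ⟨fun v => ⟨algebraMap L F c * (ε * hermForm n F q v p), ?_⟩,
      fun v hv => by simp [hc, hermSesq_apply, hv]⟩⟩
    · obtain ⟨u, hu⟩ := exists_herm_eq_one hF hp
      obtain ⟨d, hd⟩ := h2 u
      have h4 := (mem_SU_iff' _).1 g.2 u u
      change hermForm n F q (suι n F q g _) (suι n F q g _) = _ at h4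
      simp only [hd, herm_add_left, herm_add_right hF, herm_smul_left, herm_smul_right, h1, hu,
        ← herm_conj hF u p, one_pow] at h4
      obtain ⟨c, hc⟩ := (hL (d / ε)).1 (by
        rw [div_pow, eq_neg_of_add_eq_zero_right hε, show d ^ q = -d by linear_combination h4, neg_div_neg_eq])
      refine ⟨c, LinearMap.ext fun v => ?_⟩
      have h5 := h3 (v - hermForm n F q v p • u) (by simp [herm_sub_left, herm_smul_left, hu])
      rw [map_sub, map_smul, hd, sub_eq_iff_eq_add] at h5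
      rw [h5, ← algebraMap_smul F c, hc]
      simp only [LinearMap.add_apply, Module.End.one_apply, LinearMap.smul_apply, LinearMap.smulRight_apply,
        hermSesq_apply, smul_eq_mul, smul_smul, smul_add]
      rw [← mul_assoc, div_mul_cancel₀ _ h0, mul_comm d]
      abel
    · rw [hc, ← algebraMap_smul F c, mul_smul]
      rfl
  ext A
  exact ⟨fun ⟨p, h, h1, e⟩ => ⟨_, ⟨p, h, h1, rfl⟩, e.trans (congrArg _ (Set.ext (this p h h1)))⟩,
    fun ⟨_, ⟨p, h, h1, rfl⟩, e⟩ => ⟨p, h, h1, e.trans (congrArg _ (Set.ext (this p h h1))).symm⟩⟩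

end

/-- Let F be a finite field with q² elements, n a natural number, and h the Hermitian form Σ uᵢ vᵢ^q on F^{n+2}. For a non-zero isotropic vector p let T(p) be the group of unitary transvections with centre ⟨p⟩: the elements of SU_{n+2}(q) moving every vector by a multiple of p and fixing every vector perpendicular to p. Let Σ be the set of these T(p) and G₀ the subgroup they generate. Then, viewed inside G₀, the members of Σ form a degenerate class of abstract k-root subgroups of G₀ for some field k with q elements (any two commute or are the unipotent subgroups of a rank one group that is an image of SL₂(k) with central kernel, never the commutator case), and their graph of rank one pairs is connected. -/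
theorem result (F : Type*) [Field F] [Fintype F] (q n : ℕ) (hF : Fintype.card F = q ^ 2) :
    Cfsg.IsRootSubgroupClass ((fun A : Subgroup ↥(Cfsg.SU (n + 2) F q) => A.subgroupOf (⨆ B ∈ {A : Subgroup ↥(Cfsg.SU (n + 2) F q) | ∃ p : Fin (n + 2) → F, p ≠ 0 ∧ Cfsg.hermForm (n + 2) F q p p = 0 ∧
          A = Subgroup.closure {g : ↥(Cfsg.SU (n + 2) F q) |
            (∀ v : Fin (n + 2) → F, ∃ c : F, ((g : Matrix.SpecialLinearGroup (Fin (n + 2)) F) : Matrix (Fin (n + 2)) (Fin (n + 2)) F) *ᵥ v = v + c • p) ∧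
            ∀ v : Fin (n + 2) → F, Cfsg.hermForm (n + 2) F q v p = 0 →
              ((g : Matrix.SpecialLinearGroup (Fin (n + 2)) F) : Matrix (Fin (n + 2)) (Fin (n + 2)) F) *ᵥ v = v}}, B)) ''
      {A : Subgroup ↥(Cfsg.SU (n + 2) F q) | ∃ p : Fin (n + 2) → F, p ≠ 0 ∧ Cfsg.hermForm (n + 2) F q p p = 0 ∧
          A = Subgroup.closure {g : ↥(Cfsg.SU (n + 2) F q) |
            (∀ v : Fin (n + 2) → F, ∃ c : F, ((g : Matrix.SpecialLinearGroup (Fin (n + 2)) F) : Matrix (Fin (n + 2)) (Fin (n + 2)) F) *ᵥ v = v + c • p) ∧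
            ∀ v : Fin (n + 2) → F, Cfsg.hermForm (n + 2) F q v p = 0 →
              ((g : Matrix.SpecialLinearGroup (Fin (n + 2)) F) : Matrix (Fin (n + 2)) (Fin (n + 2)) F) *ᵥ v = v}}) ∧
    Cfsg.IsDegenerateRootSet ((fun A : Subgroup ↥(Cfsg.SU (n + 2) F q) => A.subgroupOf (⨆ B ∈ {A : Subgroup ↥(Cfsg.SU (n + 2) F q) | ∃ p : Fin (n + 2) → F, p ≠ 0 ∧ Cfsg.hermForm (n + 2) F q p p = 0 ∧
          A = Subgroup.closure {g : ↥(Cfsg.SU (n + 2) F q) |
            (∀ v : Fin (n + 2) → F, ∃ c : F, ((g : Matrix.SpecialLinearGroup (Fin (n + 2)) F) : Matrix (Fin (n + 2)) (Fin (n + 2)) F) *ᵥ v = v + c • p) ∧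
            ∀ v : Fin (n + 2) → F, Cfsg.hermForm (n + 2) F q v p = 0 →
              ((g : Matrix.SpecialLinearGroup (Fin (n + 2)) F) : Matrix (Fin (n + 2)) (Fin (n + 2)) F) *ᵥ v = v}}, B)) ''
      {A : Subgroup ↥(Cfsg.SU (n + 2) F q) | ∃ p : Fin (n + 2) → F, p ≠ 0 ∧ Cfsg.hermForm (n + 2) F q p p = 0 ∧
          A = Subgroup.closure {g : ↥(Cfsg.SU (n + 2) F q) |
            (∀ v : Fin (n + 2) → F, ∃ c : F, ((g : Matrix.SpecialLinearGroup (Fin (n + 2)) F) : Matrix (Fin (n + 2)) (Fin (n + 2)) F) *ᵥ v = v + c • p) ∧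
            ∀ v : Fin (n + 2) → F, Cfsg.hermForm (n + 2) F q v p = 0 →
              ((g : Matrix.SpecialLinearGroup (Fin (n + 2)) F) : Matrix (Fin (n + 2)) (Fin (n + 2)) F) *ᵥ v = v}}) ∧
    (∃ (L : Type) (_ : Field L) (_ : Fintype L), Fintype.card L = q ∧ Cfsg.IsKRootSubgroupSet L ((fun A : Subgroup ↥(Cfsg.SU (n + 2) F q) => A.subgroupOf (⨆ B ∈ {A : Subgroup ↥(Cfsg.SU (n + 2) F q) | ∃ p : Fin (n + 2) → F, p ≠ 0 ∧ Cfsg.hermForm (n + 2) F q p p = 0 ∧
          A = Subgroup.closure {g : ↥(Cfsg.SU (n + 2) F q) |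
            (∀ v : Fin (n + 2) → F, ∃ c : F, ((g : Matrix.SpecialLinearGroup (Fin (n + 2)) F) : Matrix (Fin (n + 2)) (Fin (n + 2)) F) *ᵥ v = v + c • p) ∧
            ∀ v : Fin (n + 2) → F, Cfsg.hermForm (n + 2) F q v p = 0 →
              ((g : Matrix.SpecialLinearGroup (Fin (n + 2)) F) : Matrix (Fin (n + 2)) (Fin (n + 2)) F) *ᵥ v = v}}, B)) ''
      {A : Subgroup ↥(Cfsg.SU (n + 2) F q) | ∃ p : Fin (n + 2) → F, p ≠ 0 ∧ Cfsg.hermForm (n + 2) F q p p = 0 ∧
          A = Subgroup.closure {g : ↥(Cfsg.SU (n + 2) F q) |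
            (∀ v : Fin (n + 2) → F, ∃ c : F, ((g : Matrix.SpecialLinearGroup (Fin (n + 2)) F) : Matrix (Fin (n + 2)) (Fin (n + 2)) F) *ᵥ v = v + c • p) ∧
            ∀ v : Fin (n + 2) → F, Cfsg.hermForm (n + 2) F q v p = 0 →
              ((g : Matrix.SpecialLinearGroup (Fin (n + 2)) F) : Matrix (Fin (n + 2)) (Fin (n + 2)) F) *ᵥ v = v}})) ∧
    Cfsg.IsConnectedFamily (Cfsg.FAdj ((fun A : Subgroup ↥(Cfsg.SU (n + 2) F q) => A.subgroupOf (⨆ B ∈ {A : Subgroup ↥(Cfsg.SU (n + 2) F q) | ∃ p : Fin (n + 2) → F, p ≠ 0 ∧ Cfsg.hermForm (n + 2) F q p p = 0 ∧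
          A = Subgroup.closure {g : ↥(Cfsg.SU (n + 2) F q) |
            (∀ v : Fin (n + 2) → F, ∃ c : F, ((g : Matrix.SpecialLinearGroup (Fin (n + 2)) F) : Matrix (Fin (n + 2)) (Fin (n + 2)) F) *ᵥ v = v + c • p) ∧
            ∀ v : Fin (n + 2) → F, Cfsg.hermForm (n + 2) F q v p = 0 →
              ((g : Matrix.SpecialLinearGroup (Fin (n + 2)) F) : Matrix (Fin (n + 2)) (Fin (n + 2)) F) *ᵥ v = v}}, B)) ''
      {A : Subgroup ↥(Cfsg.SU (n + 2) F q) | ∃ p : Fin (n + 2) → F, p ≠ 0 ∧ Cfsg.hermForm (n + 2) F q p p = 0 ∧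
          A = Subgroup.closure {g : ↥(Cfsg.SU (n + 2) F q) |
            (∀ v : Fin (n + 2) → F, ∃ c : F, ((g : Matrix.SpecialLinearGroup (Fin (n + 2)) F) : Matrix (Fin (n + 2)) (Fin (n + 2)) F) *ᵥ v = v + c • p) ∧
            ∀ v : Fin (n + 2) → F, Cfsg.hermForm (n + 2) F q v p = 0 →
              ((g : Matrix.SpecialLinearGroup (Fin (n + 2)) F) : Matrix (Fin (n + 2)) (Fin (n + 2)) F) *ᵥ v = v}})) ((fun A : Subgroup ↥(Cfsg.SU (n + 2) F q) => A.subgroupOf (⨆ B ∈ {A : Subgroup ↥(Cfsg.SU (n + 2) F q) | ∃ p : Fin (n + 2) → F, p ≠ 0 ∧ Cfsg.hermForm (n + 2) F q p p = 0 ∧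
          A = Subgroup.closure {g : ↥(Cfsg.SU (n + 2) F q) |
            (∀ v : Fin (n + 2) → F, ∃ c : F, ((g : Matrix.SpecialLinearGroup (Fin (n + 2)) F) : Matrix (Fin (n + 2)) (Fin (n + 2)) F) *ᵥ v = v + c • p) ∧
            ∀ v : Fin (n + 2) → F, Cfsg.hermForm (n + 2) F q v p = 0 →
              ((g : Matrix.SpecialLinearGroup (Fin (n + 2)) F) : Matrix (Fin (n + 2)) (Fin (n + 2)) F) *ᵥ v = v}}, B)) ''
      {A : Subgroup ↥(Cfsg.SU (n + 2) F q) | ∃ p : Fin (n + 2) → F, p ≠ 0 ∧ Cfsg.hermForm (n + 2) F q p p = 0 ∧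
          A = Subgroup.closure {g : ↥(Cfsg.SU (n + 2) F q) |
            (∀ v : Fin (n + 2) → F, ∃ c : F, ((g : Matrix.SpecialLinearGroup (Fin (n + 2)) F) : Matrix (Fin (n + 2)) (Fin (n + 2)) F) *ᵥ v = v + c • p) ∧
            ∀ v : Fin (n + 2) → F, Cfsg.hermForm (n + 2) F q v p = 0 →
              ((g : Matrix.SpecialLinearGroup (Fin (n + 2)) F) : Matrix (Fin (n + 2)) (Fin (n + 2)) F) *ᵥ v = v}}) := by
  obtain ⟨ε, h0, hε⟩ := exists_trace_zero hF
  let e := Shrink.ringEquiv.{0} (fixedSubfield hF)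
  let _ : Algebra (Shrink.{0} (fixedSubfield hF)) F := ((fixedSubfield hF).subtype.comp e.toRingHom).toAlgebra
  have hL : ∀ x : F, x ^ q = x ↔ ∃ c : Shrink.{0} (fixedSubfield hF), algebraMap _ F c = x := fun x =>
    ⟨fun h => ⟨e.symm ⟨x, h⟩, congrArg Subtype.val (e.apply_symm_apply _)⟩, fun ⟨c, hc⟩ => hc ▸ (e c).2⟩
  have hl := lin hF (n := n + 2) hL h0 hε
  rw [fam hF hL h0 hε, hl.image_eq]
  obtain ⟨x, hx⟩ := exists_norm_eq hF (μ := -1) (by rw [neg_pow_q hF, one_pow])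
  have hc := conn hF hL h0 hε hl.sub
  let _ : Fintype (Shrink.{0} (fixedSubfield hF)) := Fintype.ofFinite _
  refine ⟨⟨hl.sub_rs, Lin.conjClass ⟨_, _, ⟨Pi.single 0 1 + Pi.single 1 x, fun e => ?_, ?_, rfl⟩, rfl⟩ hc⟩,
    hl.sub.degenerate (pair hF hL h0 hε), ⟨_, _, inferInstance, ?_, hl.sub.kroot hl.sub_rs⟩, hc⟩
  · simpa using congrFun e 0
  · simp [herm_add_left, herm_single_left, q_ne_zero hF, ← pow_succ', hx]
  · rw [← Nat.card_eq_fintype_card, Nat.card_congr e.toEquiv, card_fixedSubfield]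

end Cfsg.Agent.S5071
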