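import Cfsg.Statements.S5072
import Cfsg.Agent.Lib.RootSub.LinEx
import Cfsg.Agent.Lib.Orth.Matrix

set_option autoImplicit false
open Matrix
open Cfsg

namespace Cfsg.Agent.S5072

open CfsgLib CfsgLib.RootSub CfsgLib.Orth QuadraticMap
open scoped commutatorElement

section

variable {F V : Type*} [Field F] [AddCommGroup V] [Module F V] {Q : QuadraticForm F V} {p r x y : V}

/-- The map `v ↦ B(x, v) y - B(y, v) x`. -/
def wd (Q : QuadraticForm F V) (x y : V) : Module.End F V := ro (Q.polarBilin x) y - ro (Q.polarBilin y) x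

theorem wd_apply (x y v : V) : wd Q x y v = polar Q x v • y - polar Q y v • x := rfl

/-- The maps attached to singular lines. -/
def NO (Q : QuadraticForm F V) : Set (Module.End F V) :=
  {a | ∃ p r, LinearIndependent F ![p, r] ∧ Q p = 0 ∧ Q r = 0 ∧ polar Q p r = 0 ∧ a = wd Q p r}

theorem pself (h : Q p = 0) : polar Q p p = 0 := by rw [polar_self, h, smul_zero]

theorem Q_add (x y : V) : Q (x + y) = Q x + Q y + polar Q x y := by rw [polar]; ring

theorem Q_comb (h1 : Q p = 0) (h2 : Q r = 0) (h3 : polar Q p r = 0) (s t : F) : Q (s • p - t • r) = 0 := by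
  simp [sub_eq_add_neg, Q_add, QuadraticMap.map_smul, h1, h2, h3]

theorem wd_mul_mul (p r x y : V) : wd Q p r * wd Q x y * wd Q p r =
    (polar Q p y * polar Q r x - polar Q p x * polar Q r y) • wd Q p r := by
  refine LinearMap.ext fun v => ?_
  simp only [Module.End.mul_apply, LinearMap.smul_apply, wd_apply, polar_sub_right, polar_smul_right,
    polar_comm Q x p, polar_comm Q y p, polar_comm Q x r, polar_comm Q y r, smul_eq_mul]
  module

theorem wd_eq_zero (h : ¬ LinearIndependent F ![x, y]) : wd Q x y = 0 := by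
  rw [linearIndependent_fin2] at h
  refine LinearMap.ext fun v => ?_
  by_cases h1 : y = 0
  · simp [wd_apply, h1]
  · obtain ⟨c, rfl⟩ : ∃ c : F, c • y = x := by simpa [h1] using h
    simp [wd_apply, smul_smul, mul_comm]

theorem exists_dual (hQ : Q.polarBilin.Nondegenerate) (h : LinearIndependent F ![p, r]) :
    ∃ x y, polar Q p x = 1 ∧ polar Q r x = 0 ∧ polar Q p y = 0 ∧ polar Q r y = 1 := by
  have key : ∀ {z : V}, z ≠ 0 → ∃ u, polar Q z u = 1 := fun {z} hz =>
    LinearMap.surjective_of_ne_zero (f := Q.polarBilin z) (fun e => hz (eq_zero_of_polar hQ fun y =>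
      LinearMap.congr_fun e y)) 1
  rw [linearIndependent_fin2] at h
  obtain ⟨u, hu⟩ := key h.1
  obtain ⟨u', hu'⟩ := key (sub_ne_zero.2 (h.2 (polar Q p u)).symm)
  simp only [Matrix.cons_val_one, Matrix.cons_val_zero, polar_sub_left, polar_smul_left, smul_eq_mul] at hu hu'
  refine ⟨u' - polar Q r u' • u, u - polar Q p u • (u' - polar Q r u' • u), ?_, ?_, ?_, ?_⟩ <;>
    simp only [polar_sub_right, polar_smul_right, smul_eq_mul, hu]
  · linear_combination hu'
  · ring
  · linear_combination (-polar Q p u) * hu'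
  · ring

theorem li_of_dual (h1 : polar Q p x = 1) (h2 : polar Q r x = 0) (h3 : polar Q p y = 0) (h4 : polar Q r y = 1) :
    LinearIndependent F ![x, y] :=
  LinearIndependent.pair_iff.2 fun s t e => ⟨by simpa [h1, h3] using congrArg (polar Q p) e,
    by simpa [h2, h4] using congrArg (polar Q r) e⟩

theorem rank_one {a b c d : F} (h : b * c - a * d = 0) : ∃ u1 u2 w1 w2, a = u1 * w1 ∧ b = u1 * w2 ∧ c = u2 * w1 ∧
    d = u2 * w2 := by
  by_cases ha : a = 0
  · by_cases hb : b = 0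
    · exact ⟨0, 1, c, d, by simp [ha], by simp [hb], by simp, by simp⟩
    · exact ⟨1, d / b, 0, b, by simp [ha], by simp, by simpa [ha, hb] using h, by simp [hb]⟩
  · exact ⟨1, c / a, a, b, by simp, by simp, by simp [ha], by field_simp; linear_combination -h⟩

theorem op (h : polar Q p y * polar Q r x - polar Q p x * polar Q r y ≠ 0) : Op F (wd Q p r) (wd Q x y) :=
  ⟨_, h, wd_mul_mul .., by
    rw [wd_mul_mul, polar_comm Q x, polar_comm Q x, polar_comm Q y, polar_comm Q y, mul_comm (polar Q r x)]⟩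

theorem pair : ∀ a ∈ NO Q, ∀ b ∈ NO Q,
    a * b = b * a ∨ Op F a b ∨ (a * b * a = 0 ∧ b * a * b = 0 ∧ a * b - b * a ∈ NO Q) := by
  rintro _ ⟨p, r, -, h1, h2, h3, rfl⟩ _ ⟨x, y, -, h4, h5, h6, rfl⟩
  by_cases h : polar Q p y * polar Q r x - polar Q p x * polar Q r y = 0
  swap
  · exact Or.inr (Or.inl (op h))
  obtain ⟨u1, u2, w1, w2, e1, e2, e3, e4⟩ := rank_one h
  have e : wd Q p r * wd Q x y - wd Q x y * wd Q p r = wd Q (w2 • x - w1 • y) (u1 • r - u2 • p) := by
    refine LinearMap.ext fun v => ?_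
    simp only [Module.End.mul_apply, LinearMap.sub_apply, wd_apply, polar_sub_right, polar_smul_right,
      polar_sub_left, polar_smul_left, polar_comm Q x p, polar_comm Q y p, polar_comm Q x r, polar_comm Q y r,
      smul_eq_mul, e1, e2, e3, e4]
    module
  by_cases hi : LinearIndependent F ![w2 • x - w1 • y, u1 • r - u2 • p]
  · refine Or.inr (Or.inr ⟨by rw [wd_mul_mul, h, zero_smul], ?_, _, _, hi, Q_comb h4 h5 h6 _ _,
      Q_comb h2 h1 (polar_comm Q p r ▸ h3) _ _, ?_, e⟩)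
    · rw [wd_mul_mul, polar_comm Q x, polar_comm Q x, polar_comm Q y, polar_comm Q y, mul_comm (polar Q r x), h,
        zero_smul]
    · simp only [polar_sub_right, polar_smul_right, polar_sub_left, polar_smul_left, polar_comm Q x p,
        polar_comm Q y p, polar_comm Q x r, polar_comm Q y r, smul_eq_mul, e1, e2, e3, e4]
      ring
  · exact Or.inl (sub_eq_zero.1 (e.trans (wd_eq_zero hi)))

theorem ni (hQ : Q.polarBilin.Nondegenerate) : ∀ a ∈ NO Q, ∃ b ∈ NO Q, Op F a b := by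
  rintro _ ⟨p, r, h0, h1, h2, h3, rfl⟩
  obtain ⟨x, y, e1, e2, e3, e4⟩ := exists_dual hQ h0
  have h4 := pself h1
  have h5 := pself h2
  have h6 : polar Q r p = 0 := polar_comm Q p r ▸ h3
  obtain ⟨x', f1, f2, f3⟩ : ∃ x', polar Q p x' = 1 ∧ polar Q r x' = 0 ∧ Q x' = 0 :=
    ⟨x + (-Q x) • p, by simp [e1, h4], by simp [e2, h6], by
      simp [Q_add, QuadraticMap.map_smul, h1, polar_comm Q x p, e1]⟩
  obtain ⟨y', g1, g2, g3⟩ : ∃ y', polar Q p y' = 0 ∧ polar Q r y' = 1 ∧ polar Q x' y' = 0 :=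
    ⟨y - polar Q x' y • p, by simp [e3, h4], by simp [e4, h6], by simp [polar_comm Q x' p, f1]⟩
  have k1 : polar Q p (y' + (-Q y') • r) = 0 := by simp [g1, h3]
  have k2 : polar Q r (y' + (-Q y') • r) = 1 := by simp [g2, h5]
  exact ⟨_, ⟨x', y' + (-Q y') • r, li_of_dual f1 f2 k1 k2, f3, by
    simp [Q_add, QuadraticMap.map_smul, h2, polar_comm Q y' r, g2], by simp [g3, polar_comm Q x' r, f2], rfl⟩,
    op (by rw [k1, k2, f1]; simp)⟩

theorem sq : ∀ a ∈ NO Q, a * a = 0 := by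
  rintro _ ⟨p, r, -, h1, h2, h3, rfl⟩
  refine LinearMap.ext fun v => ?_
  simp [wd_apply, pself h1, pself h2, h3, polar_comm Q r p]

theorem fix_iff (hQ : Q.polarBilin.Nondegenerate) (h0 : LinearIndependent F ![p, r]) (h1 : Q p = 0) (h2 : Q r = 0)
    (h3 : polar Q p r = 0) {g : Module.End F V} (hg : ∀ v, Q (g v) = Q v) :
    (∀ v, polar Q v p = 0 → polar Q v r = 0 → g v = v) ↔ ∃ c : F, g = 1 + c • wd Q p r := by
  refine ⟨fun h => ?_, fun ⟨c, hc⟩ v e1 e2 => by simp [hc, wd_apply, polar_comm Q p, polar_comm Q r, e1, e2]⟩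
  obtain ⟨x, y, e1, e2, e3, e4⟩ := exists_dual hQ h0
  have hB : ∀ u v, polar Q (g u) (g v) = polar Q u v := fun u v => by simp only [polar, ← map_add, hg]
  have h4 : ∀ v, g (v - polar Q p v • x - polar Q r v • y) = v - polar Q p v • x - polar Q r v • y := fun v =>
    h _ (by simp [polar_comm Q _ p, e1, e3]) (by simp [polar_comm Q _ r, e2, e4])
  have h5 : ∀ u, g u = u + (polar Q (g u - u) x • p + polar Q (g u - u) y • r) := fun u => by
    rw [← sub_eq_iff_eq_add', ← sub_eq_zero]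
    refine eq_zero_of_polar hQ fun v => ?_
    have := hB u (v - polar Q p v • x - polar Q r v • y)
    rw [h4] at this
    simp only [polar_sub_right, polar_smul_right, polar_sub_left, polar_smul_left, polar_add_left, smul_eq_mul]
      at this ⊢
    linear_combination this
  obtain ⟨a, b, hx⟩ : ∃ a b : F, g x = x + (a • p + b • r) := ⟨_, _, h5 x⟩
  obtain ⟨c, d, hy⟩ : ∃ a b : F, g y = y + (a • p + b • r) := ⟨_, _, h5 y⟩
  have f1 := hg x
  have f2 := hg y
  have f3 := hB x y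
  simp [hx, hy, Q_add, QuadraticMap.map_smul, h1, h2, h3, polar_comm Q x p, polar_comm Q x r, polar_comm Q y p,
    polar_comm Q y r, e1, e2, e3, e4, pself h1, pself h2, polar_comm Q r p] at f1 f2 f3
  refine ⟨b, LinearMap.ext fun v => ?_⟩
  have := h4 v
  rw [map_sub, map_sub, map_smul, map_smul, hx, hy, f1, f2, show c = -b by linear_combination f3] at this
  simp only [LinearMap.add_apply, Module.End.one_apply, LinearMap.smul_apply, wd_apply]
  linear_combination (norm := module) this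

variable {n : ℕ} {u d : Fin n → V}

/-- Dual families of singular vectors. -/
structure Du (Q : QuadraticForm F V) (u d : Fin n → V) : Prop where
  q : ∀ i, Q (u i) = 0
  uu : ∀ i j, polar Q (u i) (u j) = 0
  ud : ∀ i j, polar Q (u i) (d j) = if i = j then 1 else 0
  du : ∀ i j, polar Q (d i) (u j) = if i = j then 1 else 0

theorem Du.mem (h : Du Q u d) {i j : Fin n} (hij : i ≠ j) : wd Q (u i) (u j) ∈ NO Q :=
  ⟨_, _, li_of_dual (Q := Q) (p := d i) (r := d j) (by simp [h.du]) (by simp [h.du, hij.symm]) (by simp [h.du, hij])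
    (by simp [h.du]), h.q i, h.q j, h.uu i j, rfl⟩

theorem Du.ne (h : Du Q u d) (i : Fin n) : u i ≠ 0 := fun e => by simpa [e] using h.du i i

theorem Du.path (h : Du Q u d) (h' : Du Q d u) {i j k l : Fin n} (hij : i ≠ j) (hkl : k ≠ l) :
    Relation.ReflTransGen (fun a b => b ∈ NO Q ∧ a * b ≠ b * a) (wd Q (u i) (u j)) (wd Q (u k) (u l)) ∧
    Relation.ReflTransGen (fun a b => b ∈ NO Q ∧ a * b ≠ b * a) (wd Q (d i) (d j)) (wd Q (u k) (u l)) := by
  have s1 : ∀ {u d : Fin n → V}, Du Q u d → Du Q d u → ∀ {i j k}, i ≠ j → j ≠ k → wd Q (d j) (d k) ∈ NO Q ∧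
      wd Q (u i) (u j) * wd Q (d j) (d k) ≠ wd Q (d j) (d k) * wd Q (u i) (u j) :=
    fun {u d} h h' {i j k} hij hjk => ⟨h'.mem hjk, fun e => h.ne i (by
      simpa [wd_apply, h.uu, h.ud, h.du, hij, hjk] using LinearMap.congr_fun e (u k))⟩
  have s2 : ∀ {u d : Fin n → V}, Du Q u d → Du Q d u → ∀ {i j k}, i ≠ j → i ≠ k → wd Q (d i) (d k) ∈ NO Q ∧
      wd Q (u i) (u j) * wd Q (d i) (d k) ≠ wd Q (d i) (d k) * wd Q (u i) (u j) :=
    fun {u d} h h' {i j k} hij hik => ⟨h'.mem hik, fun e => h.ne j (by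
      simpa [wd_apply, h.uu, h.ud, h.du, hij.symm, hik] using LinearMap.congr_fun e (u k))⟩
  have s3 : ∀ {i j}, i ≠ j → Relation.ReflTransGen (fun a b => b ∈ NO Q ∧ a * b ≠ b * a)
      (wd Q (u i) (u j)) (wd Q (u k) (u l)) := fun {i j} hij => by
    by_cases e : j = k
    · exact .head (s2 h h' hij (e ▸ hij)) (.single (s1 h' h (e ▸ hij) hkl))
    · exact .head (s1 h h' hij e) (.single (s1 h' h e hkl))
  exact ⟨s3 hij, .head (s1 h' h hij hij.symm) (s3 hij.symm)⟩

theorem Du.kill (h : Du Q u d) (hn : 3 ≤ n) {a : Module.End F V} (ha : a * a = 0)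
    (hc : ∀ i j, i ≠ j → a * wd Q (u i) (u j) = wd Q (u i) (u j) * a) (j : Fin n) : a (u j) = 0 := by
  have h1 : ∀ i, i ≠ j → ∃ s t : F, a (u j) = s • u j - t • u i := fun i hi =>
    ⟨_, _, by simpa [wd_apply, h.ud, hi.symm] using LinearMap.congr_fun (hc i j hi) (d i)⟩
  obtain ⟨i, i', hi, hi', hii⟩ : ∃ i i' : Fin n, i ≠ j ∧ i' ≠ j ∧ i ≠ i' := by
    have : 1 < (Finset.univ.erase j).card := by simp; omega
    obtain ⟨i, hi, i', hi', e⟩ := Finset.one_lt_card.1 this
    exact ⟨i, i', Finset.ne_of_mem_erase hi, Finset.ne_of_mem_erase hi', e⟩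
  obtain ⟨s, t, e⟩ := h1 i hi
  obtain ⟨s', t', e'⟩ := h1 i' hi'
  have ht : t = 0 := by simpa [h.du, hi, hii] using congrArg (polar Q (d i)) (e.symm.trans e')
  rw [ht, zero_smul, sub_zero] at e
  have := LinearMap.congr_fun ha (u j)
  rw [Module.End.mul_apply, e, map_smul, e, smul_smul, LinearMap.zero_apply, smul_eq_zero, mul_self_eq_zero] at this
  rw [e, this.resolve_right (h.ne j), zero_smul]

end

section

variable {F : Type*} [Field F] {n : ℕ}

/-- The natural action. -/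
def oι (n : ℕ) (F : Type*) [Field F] : isometryGroup F (quadFormPlus n F) →* Module.End F (Fin n ⊕ Fin n → F) :=
  matι ((Units.coeHom _).comp (isometryGroup F (quadFormPlus n F)).subtype)

theorem oι_iso (g : isometryGroup F (quadFormPlus n F)) (v : Fin n ⊕ Fin n → F) :
    qPlus n F (oι n F g v) = qPlus n F v := mem_isometryGroup.1 g.2 v

theorem lin : Lin F (oι n F) (NO (qPlus n F)) := by
  have hB : ∀ g u v, polar (qPlus n F) (oι n F g u) (oι n F g v) = polar (qPlus n F) u v := fun g u v => by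
    simp only [polar, ← map_add, oι_iso]
  refine ⟨matι_inj (Units.val_injective.comp Subtype.val_injective), sq, ?_, fun a ha c => ?_, ?_, pair⟩
  · rintro _ ⟨p, r, h0, -, -, -, rfl⟩ e
    obtain ⟨x, -, e1, e2, -⟩ := exists_dual (qPlus_nondegenerate n) h0
    exact (linearIndependent_fin2.1 h0).1 (by simpa [wd_apply, e1, e2] using LinearMap.congr_fun e x)
  · have h1 := one_add_mul (sq a ha) c (-c)
    have h2 := one_add_mul (sq a ha) (-c) c
    rw [add_neg_cancel, zero_smul, add_zero] at h1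
    rw [neg_add_cancel, zero_smul, add_zero] at h2
    let e : (Fin n ⊕ Fin n → F) ≃ₗ[F] (Fin n ⊕ Fin n → F) := LinearEquiv.ofLinear (1 + c • a) (1 + (-c) • a) h1 h2
    refine ⟨⟨(glEquiv _ F).symm e, mem_isometryGroup.2 fun v => ?_⟩, LinearMap.ext (glEquiv_symm_mulVec e)⟩
    rw [glEquiv_symm_mulVec]
    obtain ⟨p, r, -, h3, h4, h5, rfl⟩ := ha
    change qPlus n F (v + c • wd (qPlus n F) p r v) = qPlus n F v
    rw [Q_add, QuadraticMap.map_smul, wd_apply, Q_comb h4 h3 ((polar_comm _ r p).trans h5)]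
    simp [polar_comm _ v, mul_comm]
  · rintro _ ⟨p, r, h0, h1, h2, h3, rfl⟩ g
    obtain ⟨x, y, e1, e2, e3, e4⟩ := exists_dual (qPlus_nondegenerate n) h0
    refine ⟨oι n F g p, oι n F g r, li_of_dual (Q := qPlus n F) (p := oι n F g x) (r := oι n F g y)
      (by rwa [hB, polar_comm]) (by rwa [hB, polar_comm]) (by rwa [hB, polar_comm]) (by rwa [hB, polar_comm]),
      (oι_iso g p).trans h1, (oι_iso g r).trans h2, (hB g p r).trans h3, LinearMap.ext fun v => ?_⟩
    simp only [Module.End.mul_apply, wd_apply, map_sub, map_smul]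
    rw [← hB g p, ← hB g r, ι_cancel_inv]

theorem conn (hn : 3 ≤ n) : ∀ a ∈ NO (qPlus n F), ∀ b ∈ NO (qPlus n F),
    Relation.ReflTransGen (fun a b => b ∈ NO (qPlus n F) ∧ a * b ≠ b * a) a b := by
  have h1 : Du (qPlus n F) (fun i => Pi.single (.inl i) 1) (fun i => Pi.single (.inr i) 1) :=
    ⟨fun i => by simp [qPlus_apply], fun i j => by simp [polar_qPlus_single_inl],
      fun i j => by simp [polar_qPlus_single_inr, Pi.single_apply, eq_comm],
      fun i j => by simp [polar_qPlus_single_inl, Pi.single_apply, eq_comm]⟩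
  have h2 : Du (qPlus n F) (fun i => Pi.single (.inr i) 1) (fun i => Pi.single (.inl i) 1) :=
    ⟨fun i => by simp [qPlus_apply], fun i j => by simp [polar_qPlus_single_inr], h1.du, h1.ud⟩
  have key : ∀ a ∈ NO (qPlus n F), ∃ u d : Fin n → Fin n ⊕ Fin n → F, ∃ i j, Du (qPlus n F) u d ∧ Du (qPlus n F) d u ∧
      i ≠ j ∧ a * wd (qPlus n F) (u i) (u j) ≠ wd (qPlus n F) (u i) (u j) * a ∧
      ((u = (fun i => Pi.single (.inl i) 1) ∧ d = fun i => Pi.single (.inr i) 1) ∨
        (u = (fun i => Pi.single (.inr i) 1) ∧ d = fun i => Pi.single (.inl i) 1)) := fun a ha => by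
    by_contra hc
    refine lin.ne a ha ((Pi.basisFun F _).ext ?_)
    rintro (j | j)
    · simpa using h1.kill hn (sq a ha) (fun i j hij => by_contra fun e => hc ⟨_, _, i, j, h1, h2, hij, e, .inl ⟨rfl, rfl⟩⟩) j
    · simpa using h2.kill hn (sq a ha) (fun i j hij => by_contra fun e => hc ⟨_, _, i, j, h2, h1, hij, e, .inr ⟨rfl, rfl⟩⟩) j
  intro a ha b hb
  obtain ⟨u, d, i, j, e1, e2, hij, e3, e4⟩ := key a ha
  obtain ⟨u', d', k, l, f1, f2, hkl, f3, f4⟩ := key b hb
  refine .head ⟨e1.mem hij, e3⟩ (.tail ?_ ⟨hb, f3.symm⟩)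
  rcases e4 with ⟨rfl, rfl⟩ | ⟨rfl, rfl⟩ <;> rcases f4 with ⟨rfl, rfl⟩ | ⟨rfl, rfl⟩
  exacts [(h1.path h2 hij hkl).1, (h2.path h1 hij hkl).2, (h1.path h2 hij hkl).2, (h2.path h1 hij hkl).1]

theorem fam : {A : Subgroup (isometryGroup F (quadFormPlus n F)) | ∃ p r : Fin n ⊕ Fin n → F,
      LinearIndependent F ![p, r] ∧ quadFormPlus n F p = 0 ∧ quadFormPlus n F r = 0 ∧ quadFormPlus n F (p + r) = 0 ∧
      A = Subgroup.closure {σ : isometryGroup F (quadFormPlus n F) | ∀ v : Fin n ⊕ Fin n → F,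
        quadFormPlus n F (v + p) - quadFormPlus n F v - quadFormPlus n F p = 0 →
        quadFormPlus n F (v + r) - quadFormPlus n F v - quadFormPlus n F r = 0 →
          ((σ : Matrix.GeneralLinearGroup (Fin n ⊕ Fin n) F) : Matrix (Fin n ⊕ Fin n) (Fin n ⊕ Fin n) F) *ᵥ v = v}} =
    Fam F (oι n F) (NO (qPlus n F)) := by
  ext A
  constructor
  · rintro ⟨p, r, h0, h1, h2, h3, e⟩
    have h4 : polar (qPlus n F) p r = 0 := by simp [polar, coe_qPlus, h1, h2, h3]
    exact ⟨_, ⟨p, r, h0, h1, h2, h4, rfl⟩, e.trans (congrArg _ (Set.ext fun g =>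
      fix_iff (qPlus_nondegenerate n) h0 h1 h2 h4 (oι_iso g)))⟩
  · rintro ⟨_, ⟨p, r, h0, h1, h2, h4, rfl⟩, e⟩
    exact ⟨p, r, h0, h1, h2, (Q_add (Q := qPlus n F) p r).trans (by rw [h1, h2, h4, add_zero, add_zero]), e.trans (congrArg Subgroup.closure (Set.ext fun g =>
      fix_iff (qPlus_nondegenerate n) h0 h1 h2 h4 (oι_iso g))).symm⟩

end

/-- Let F be a field, m a natural number and V = F^{2(m+3)} with the hyperbolic quadratic form q(x, y) = Σ xᵢ yᵢ (non-degenerate, Witt index m + 3 ≥ 3). For a singular line ℓ (a 2-dimensional subspace on which q vanishes) let T(ℓ) be the group of isometries of q fixing every vector of ℓ^⊥ (the Siegel transvection group of ℓ), let Σ be the set of these groups and G₀ the subgroup they generate. Then, viewed inside G₀, the members of Σ form a set of abstract F-root subgroups of G₀ (any two commute, or are the unipotent subgroups of a rank one group that is an image of SL₂(F) with central kernel, or satisfy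 the commutator case), and their graph of rank one pairs is connected. -/
theorem result (F : Type*) [Field F] (m : ℕ) :
    Cfsg.IsKRootSubgroupSet F ((fun A : Subgroup ↥(Cfsg.isometryGroup F (Cfsg.quadFormPlus (m + 3) F)) => A.subgroupOf (⨆ B ∈ {A : Subgroup ↥(Cfsg.isometryGroup F (Cfsg.quadFormPlus (m + 3) F)) | ∃ p r : Fin (m + 3) ⊕ Fin (m + 3) → F, LinearIndependent F ![p, r] ∧
          Cfsg.quadFormPlus (m + 3) F p = 0 ∧ Cfsg.quadFormPlus (m + 3) F r = 0 ∧
          Cfsg.quadFormPlus (m + 3) F (p + r) = 0 ∧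
          A = Subgroup.closure {σ : ↥(Cfsg.isometryGroup F (Cfsg.quadFormPlus (m + 3) F)) | ∀ v : Fin (m + 3) ⊕ Fin (m + 3) → F,
            Cfsg.quadFormPlus (m + 3) F (v + p) - Cfsg.quadFormPlus (m + 3) F v - Cfsg.quadFormPlus (m + 3) F p = 0 →
            Cfsg.quadFormPlus (m + 3) F (v + r) - Cfsg.quadFormPlus (m + 3) F v - Cfsg.quadFormPlus (m + 3) F r = 0 →
              ((σ : Matrix.GeneralLinearGroup (Fin (m + 3) ⊕ Fin (m + 3)) F) : Matrix (Fin (m + 3) ⊕ Fin (m + 3)) (Fin (m + 3) ⊕ Fin (m + 3)) F) *ᵥ v = v}}, B)) ''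
      {A : Subgroup ↥(Cfsg.isometryGroup F (Cfsg.quadFormPlus (m + 3) F)) | ∃ p r : Fin (m + 3) ⊕ Fin (m + 3) → F, LinearIndependent F ![p, r] ∧
          Cfsg.quadFormPlus (m + 3) F p = 0 ∧ Cfsg.quadFormPlus (m + 3) F r = 0 ∧
          Cfsg.quadFormPlus (m + 3) F (p + r) = 0 ∧
          A = Subgroup.closure {σ : ↥(Cfsg.isometryGroup F (Cfsg.quadFormPlus (m + 3) F)) | ∀ v : Fin (m + 3) ⊕ Fin (m + 3) → F,
            Cfsg.quadFormPlus (m + 3) F (v + p) - Cfsg.quadFormPlus (m + 3) F v - Cfsg.quadFormPlus (m + 3) F p = 0 →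
            Cfsg.quadFormPlus (m + 3) F (v + r) - Cfsg.quadFormPlus (m + 3) F v - Cfsg.quadFormPlus (m + 3) F r = 0 →
              ((σ : Matrix.GeneralLinearGroup (Fin (m + 3) ⊕ Fin (m + 3)) F) : Matrix (Fin (m + 3) ⊕ Fin (m + 3)) (Fin (m + 3) ⊕ Fin (m + 3)) F) *ᵥ v = v}}) ∧
    Cfsg.IsConnectedFamily (Cfsg.FAdj {A : Subgroup ↥(Cfsg.isometryGroup F (Cfsg.quadFormPlus (m + 3) F)) | ∃ p r : Fin (m + 3) ⊕ Fin (m + 3) → F, LinearIndependent F ![p, r] ∧
          Cfsg.quadFormPlus (m + 3) F p = 0 ∧ Cfsg.quadFormPlus (m + 3) F r = 0 ∧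
          Cfsg.quadFormPlus (m + 3) F (p + r) = 0 ∧
          A = Subgroup.closure {σ : ↥(Cfsg.isometryGroup F (Cfsg.quadFormPlus (m + 3) F)) | ∀ v : Fin (m + 3) ⊕ Fin (m + 3) → F,
            Cfsg.quadFormPlus (m + 3) F (v + p) - Cfsg.quadFormPlus (m + 3) F v - Cfsg.quadFormPlus (m + 3) F p = 0 →
            Cfsg.quadFormPlus (m + 3) F (v + r) - Cfsg.quadFormPlus (m + 3) F v - Cfsg.quadFormPlus (m + 3) F r = 0 →
              ((σ : Matrix.GeneralLinearGroup (Fin (m + 3) ⊕ Fin (m + 3)) F) : Matrix (Fin (m + 3) ⊕ Fin (m + 3)) (Fin (m + 3) ⊕ Fin (m + 3)) F) *ᵥ v = v}})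
      {A : Subgroup ↥(Cfsg.isometryGroup F (Cfsg.quadFormPlus (m + 3) F)) | ∃ p r : Fin (m + 3) ⊕ Fin (m + 3) → F, LinearIndependent F ![p, r] ∧
          Cfsg.quadFormPlus (m + 3) F p = 0 ∧ Cfsg.quadFormPlus (m + 3) F r = 0 ∧
          Cfsg.quadFormPlus (m + 3) F (p + r) = 0 ∧
          A = Subgroup.closure {σ : ↥(Cfsg.isometryGroup F (Cfsg.quadFormPlus (m + 3) F)) | ∀ v : Fin (m + 3) ⊕ Fin (m + 3) → F,
            Cfsg.quadFormPlus (m + 3) F (v + p) - Cfsg.quadFormPlus (m + 3) F v - Cfsg.quadFormPlus (m + 3) F p = 0 →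
            Cfsg.quadFormPlus (m + 3) F (v + r) - Cfsg.quadFormPlus (m + 3) F v - Cfsg.quadFormPlus (m + 3) F r = 0 →
              ((σ : Matrix.GeneralLinearGroup (Fin (m + 3) ⊕ Fin (m + 3)) F) : Matrix (Fin (m + 3) ⊕ Fin (m + 3)) (Fin (m + 3) ⊕ Fin (m + 3)) F) *ᵥ v = v}} := by
  rw [fam, lin.image_eq]
  exact ⟨lin.sub.kroot lin.sub_rs, lin.conn (ni (qPlus_nondegenerate _)) (conn (by omega))⟩

end Cfsg.Agent.S5072
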