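import Cfsg.Statements.S5073
import Cfsg.Agent.Lib.RootSub.QuadPair3

set_option autoImplicit false
universe u
open Cfsg

namespace Cfsg.Agent.S5073

open CfsgLib.RootSub
open scoped commutatorElement

/-- Let k be a field of characteristic not 2 with k not of order 3, M a finite-dimensional k-vector space and G ≤ GL(M) such that (G, M) is a quadratic pair (M irreducible for G, and G generated by its quadratically acting elements σ whose scalar family 1 + c(σ − 1), c ∈ k, lies in G). Write 𝒬_d for the quadratic elements of G of minimal commutator rank, E(σ) for the subgroup generated by the members of 𝒬_d with the same fixed space and commutator space as σ, and Σ for the set of these subgroups. Let E, F ∈ Σ. If some non-identity element of E commutes with some non-identity element of F, or some non-identity element of E normalizes F, then E and F commute elementwise. -/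
theorem result {k : Type u} [Field k] (hk2 : ringChar k ≠ 2) (hk3 : Nat.card k ≠ 3)
    {M : Type u} [AddCommGroup M] [Module k M] [FiniteDimensional k M]
    {G : Subgroup (LinearMap.GeneralLinearGroup k M)} (hG : Cfsg.IsQuadraticPair G)
    {E F : Subgroup (LinearMap.GeneralLinearGroup k M)} (hE : E ∈ Cfsg.quadraticRootSubgroups G) (hF : F ∈ Cfsg.quadraticRootSubgroups G)
    (h : (∃ e ∈ E, e ≠ 1 ∧ ∃ f ∈ F, f ≠ 1 ∧ e * f = f * e) ∨ E ⊓ Subgroup.normalizer (F : Set (LinearMap.GeneralLinearGroup k M)) ≠ ⊥) :
    ⁅E, F⁆ = ⊥ := by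
  have h2 : (2 : k) ≠ 0 := Ring.two_ne_zero hk2
  have hN := nu_of_pair hG
  have hS := hN.rs h2 hk3
  rw [comm_iff]
  rcases h with ⟨e, he, he1, f, hf, hf1, h⟩ | h
  · exact hS.comm_of_elem hE hF (hN.ni h2 hk3 hE) he he1 hf hf1 h
  obtain ⟨e, ⟨he, he'⟩, he1⟩ := exists_ne_one_of_ne_bot h
  have h3 := conjBy_eq_self_iff.2 he'
  rcases hS.pair E hE F hF with h4 | h4 | ⟨C, hC, h4⟩
  · exact h4
  · exact absurd (r1_eq_one h4 he h3) he1
  · exact absurd h3 (mem_linePartners.1 (hS.cc_line_conj hF hE hC (hN.ni h2 hk3 hF) h4.symm he he1)).2.1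

end Cfsg.Agent.S5073
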