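import Mathlib
import Cfsg.Statements.S5081
import Cfsg.Agent.Lib.Fusion.Alperin

set_option autoImplicit false
open Cfsg

namespace Cfsg.Agent.S5081

open CfsgLib.Fusion Cfsg.FusionSystem



/-- Let F be a saturated fusion system over a finite p-group S, P a proper subgroup of S that is fully normalized, and H the subgroup of Aut_F(P) generated by the automorphisms that extend to maps of the system defined on strictly larger subgroups of S. Then either P is not essential and H is all of Aut_F(P), or P is essential and the image of H in Out_F(P) = Aut_F(P)/Inn(P) is strongly p-embedded there. -/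
theorem result {Ω : Type*} [Group Ω] {S : Subgroup Ω} [Finite S] (p : ℕ) [Fact p.Prime] (hS : IsPGroup p S) (F : Cfsg.FusionSystem S) (hF : F.IsSaturated p) (P : Subgroup Ω) (hPS : P < S) (hPn : F.IsFullyNormalized P) (H : Subgroup (MulAut P)) (hH : H = Subgroup.closure {α : MulAut P | ∃ (Q : Subgroup Ω) (hPQ : P < Q) (φ : Q →* Ω), φ ∈ F.Hom Q ∧ ∀ x : P, φ (Subgroup.inclusion hPQ.le x) = α x}) : (¬ F.IsEssential p P ∧ H = F.autGroup P) ∨ (F.IsEssential p P ∧ ∃ _ : ((Cfsg.Inn P).subgroupOf (F.autGroup P)).Normal, Cfsg.IsStronglyPEmbedded p ((H.subgroupOf (F.autGroup P)).map (QuotientGroup.mk' ((Cfsg.Inn P).subgroupOf (F.autGroup P))))) := by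
  have hH' : H = extendableAuts F P := by
    rw [hH, extendableAuts]
    congr 1
    ext α
    constructor
    · rintro ⟨Q, hPQ, φ, hφ, e⟩
      refine ⟨Q, _, hPQ, mor_of_mem hφ, fun x hx => ?_⟩
      rw [extFun_apply φ (hPQ.le hx), extAut_apply α hx]
      exact e ⟨x, hx⟩
    · rintro ⟨Q, g, hPQ, hg, e⟩
      refine ⟨Q, hPQ, hg.hom.toHom, hg.toHom_mem, fun x => ?_⟩
      rw [coe_eq_extAut, ← e x x.2]
      rfl
  subst hH'
  by_cases hess : F.IsEssential p P
  · refine Or.inr ⟨hess, inferInstance, ?_⟩
    have := finite_autGroup F P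
    have h := (speMod_extendableAuts hS hPS (sat_fullyAutomized hS hF hPn)
      (sat_receptive_of_fullyNormalized hS hF hPn)
      ((essential_iff_not_le_extendableAuts hS hF hPS hPn).1 hess)).2
    exact (spe_map_mk_iff h.le h.le').2 h
  · refine Or.inl ⟨hess, le_antisymm (extendableAuts_le F P) ?_⟩
    by_contra h
    exact hess ((essential_iff_not_le_extendableAuts hS hF hPS hPn).2 h)

end Cfsg.Agent.S5081
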