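import Mathlib
import Cfsg.Statements.S5087
import Cfsg.Agent.Lib.Fusion.Normal

set_option autoImplicit false
open Cfsg

namespace Cfsg.Agent.S5087

open CfsgLib.Fusion Cfsg.FusionSystem



/-- In a saturated fusion system over a finite p-group S, a subgroup Q is normal in the system if and only if every subgroup P that equals S or is essential contains Q and every element of Aut_F(P) maps Q onto itself. -/
theorem result {Ω : Type*} [Group Ω] {S : Subgroup Ω} [Finite S] (p : ℕ) [Fact p.Prime] (hS : IsPGroup p S) (F : Cfsg.FusionSystem S) (hF : F.IsSaturated p) (Q : Subgroup Ω) : F.IsNormal Q ↔ ∀ P : Subgroup Ω, (P = S ∨ F.IsEssential p P) → (Q ≤ P ∧ ∀ α ∈ F.autGroup P, (Q.subgroupOf P).map α.toMonoidHom = Q.subgroupOf P) := by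
  refine ⟨fun h P hP => ?_, fun h => isNormal_of_alperin hS hF fun R hR => ⟨(h R hR).1, fun α hα => (map_aut_subgroupOf_eq_iff α (h R hR).1).1 ((h R hR).2 α hα)⟩⟩
  obtain ⟨hc, hr, -⟩ := top_or_essential_crf hS hF hP
  have hQP := le_of_isNormal_of_cr hS h hc hr
  exact ⟨hQP, fun α hα => (map_aut_subgroupOf_eq_iff α hQP).2 ((((mem_autGroup hc.1).1 hα).mono hQP).img_eq_of_weaklyClosed (weaklyClosed_of_isNormal h))⟩

end Cfsg.Agent.S5087
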