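import Mathlib
import Cfsg.Statements.S5088
import Cfsg.Agent.Lib.Fusion.Normal

set_option autoImplicit false
open Cfsg

namespace Cfsg.Agent.S5088

open CfsgLib.Fusion Cfsg.FusionSystem



/-- In a saturated fusion system over a finite p-group, a subgroup Q is normal in the system if and only if there is a chain of subgroups 1 = Q₀ ≤ Q₁ ≤ ⋯ ≤ Qₙ = Q such that each Qᵢ with i ≥ 1 is strongly closed in the system and [Q, Qᵢ] ≤ Qᵢ₋₁. -/
theorem result {Ω : Type*} [Group Ω] {S : Subgroup Ω} [Finite S] (p : ℕ) [Fact p.Prime] (hS : IsPGroup p S) (F : Cfsg.FusionSystem S) (hF : F.IsSaturated p) (Q : Subgroup Ω) : F.IsNormal Q ↔ ∃ (n : ℕ) (Qs : Fin (n + 1) → Subgroup Ω), Qs 0 = ⊥ ∧ Qs (Fin.last n) = Q ∧ Monotone Qs ∧ ∀ i : Fin n, F.StronglyClosed (Qs i.succ) ∧ ⁅Q, Qs i.succ⁆ ≤ Qs (Fin.castSucc i) := by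
  constructor
  · intro h
    have := finite_of_le_S h.1
    obtain ⟨n, hn⟩ := exists_ucs_eq (hS.to_le h.1)
    refine ⟨n, fun i => ucs Q i, ucs_zero Q, hn, fun i j hij => ucs_mono Q hij, fun i => ⟨stronglyClosed_of_isNormal (isNormal_ucs h _), ?_⟩⟩
    rw [Subgroup.commutator_comm]
    exact commutator_ucs_le Q i
  · rintro ⟨n, Qs, h0, hn, -, h⟩
    have hsc : ∀ i : Fin (n + 1), F.StronglyClosed (Qs i) := fun i => by
      refine Fin.cases ?_ (fun j => (h j).1) i
      rw [h0]; exact stronglyClosed_bot F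
    refine isNormal_of_chain hS hF (hn ▸ hsc _) (fun i => if hi : i < n + 1 then Qs ⟨i, hi⟩ else Q) n (fun i hi => ?_) ?_ ?_ fun a ha i hi x hx => ?_
    · simp only [show i < n + 1 by omega, dif_pos]; exact hsc _
    · simp only [show 0 < n + 1 by omega, dif_pos]; exact h0
    · simp only [show n < n + 1 by omega, dif_pos]; exact hn
    · simp only [show i < n + 1 by omega, show i + 1 < n + 1 by omega, dif_pos] at hx ⊢
      have := (h ⟨i, hi⟩).2
      rw [Subgroup.commutator_comm] at this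
      exact step_of_commutator_le this hx ha

end Cfsg.Agent.S5088
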