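import Cfsg.Statements.S5094
import Cfsg.Agent.Lib.ZStarApp.Basic

set_option autoImplicit false
open Cfsg

namespace Cfsg.Agent.S5094

open CfsgLib CfsgLib.SylTools CfsgLib.ZStarApp Subgroup

/-- Glauberman's Z*-Theorem in fusion language: for a finite group G with Sylow 2-subgroup S, the centre of the fusion system of G on S is the set of elements of S whose image in G/O(G) is central, O(G) being the largest normal subgroup of odd order. -/
theorem result {G : Type*} [Group G] [Finite G] (S : Sylow 2 G) : (Cfsg.groupFusionSystem (S : Subgroup G)).center = (S : Subgroup G) ⊓ (Subgroup.center (G ⧸ Cfsg.oddCore G)).comap (QuotientGroup.mk' (Cfsg.oddCore G)) := by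
  apply le_antisymm
  · refine sSup_le fun Q hQ x hx => ?_
    have hxS : x ∈ (S : Subgroup G) := hQ.1 hx
    refine ⟨hxS, mk_mem_center_of_weaklyClosed S hxS fun g hg => ?_⟩
    obtain ⟨ψ, -, h1, h2⟩ := hQ.2 (zpowers x) (conjHom (zpowers x) g)
      ⟨zpowers_le_of_mem hxS, by
        rintro ⟨_, k, rfl⟩
        change g * x ^ k * g⁻¹ ∈ (S : Subgroup G)
        rw [← conj_zpow]; exact zpow_mem hg k, g, fun _ => rfl⟩
    exact (h1 ⟨x, mem_zpowers x⟩).symm.trans (h2 ⟨x, hx⟩)
  · set Z := (S : Subgroup G) ⊓ (Subgroup.center (G ⧸ Cfsg.oddCore G)).comap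
      (QuotientGroup.mk' (Cfsg.oddCore G)) with hZ
    have hw : ∀ z ∈ Z, ∀ g : G, g * z * g⁻¹ ∈ (S : Subgroup G) → g * z * g⁻¹ = z :=
      fun z hz => weaklyClosed_of_mk_mem_center S _ (Core.coprime_card_pPrimeCore 2 G) hz.1 hz.2
    refine le_sSup ⟨inf_le_left, ?_⟩
    rintro P φ ⟨hP, hφ, g, hg⟩
    have hZp : IsPGroup 2 Z := S.isPGroup'.to_le inf_le_left
    have hZS : ∀ z ∈ Z, ∀ s ∈ (S : Subgroup G), s * z = z * s := fun z hz s hs =>
      mul_inv_eq_iff_eq_mul.1 (hw z hz s (mul_mem (mul_mem hs hz.1) (inv_mem hs)))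
    obtain ⟨c, hc, R, hR, h1, -, -, h2⟩ := exists_conj_le_common
      (H := centralizer ((P.map (MulAut.conj g).toMonoidHom : Subgroup G) : Set G)) hZp
      (by
        intro z hz
        rw [mem_centralizer_iff]
        rintro _ ⟨x, hx, rfl⟩
        exact hZS z hz (g * x * g⁻¹) (hg ⟨x, hx⟩ ▸ hφ ⟨x, hx⟩))
      (isPGroup_map_conj hZp g)
      (by
        rintro _ ⟨z, hz, rfl⟩
        rw [mem_centralizer_iff]
        rintro _ ⟨x, hx, rfl⟩
        rw [← map_mul, ← map_mul, hZS z hz x (hP hx)])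
    obtain ⟨k, hk⟩ := exists_conj_le_sylow hR S
    have h3 : ∀ z ∈ Z, c * g * z * (c * g)⁻¹ = z := by
      intro z hz
      have a1 := hw z hz k (hk z (h1 hz))
      have a2 := hw z hz (k * c * g) (by
        convert hk _ (h2 _ (conj_mem_map_conj (g := g) hz)) using 1; group)
      calc c * g * z * (c * g)⁻¹ = k⁻¹ * (k * c * g * z * (k * c * g)⁻¹) * k := by group
        _ = k⁻¹ * (k * z * k⁻¹) * k := by rw [a2, a1]
        _ = z := by group
    have h4 : ∀ x ∈ P, c * g * x * (c * g)⁻¹ = g * x * g⁻¹ := by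
      intro x hx
      have := mem_centralizer_iff.1 hc _ (conj_mem_map_conj (g := g) hx)
      calc c * g * x * (c * g)⁻¹ = c * (g * x * g⁻¹) * c⁻¹ := by group
        _ = _ := by rw [← this]; group
    have h5 : (P ⊔ Z).map (MulAut.conj (c * g)).toMonoidHom ≤ S := by
      rw [Subgroup.map_sup, sup_le_iff, map_conj_le_iff, map_conj_le_iff]
      exact ⟨fun x hx => h4 x hx ▸ hg ⟨x, hx⟩ ▸ hφ ⟨x, hx⟩, fun z hz => (h3 z hz).symm ▸ hz.1⟩
    refine ⟨conjHom _ (c * g), ⟨sup_le hP inf_le_left, fun x => map_conj_le_iff.1 h5 x x.2,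
      c * g, fun _ => rfl⟩, fun x => ?_, fun z => h3 z z.2⟩
    rw [hg]; exact h4 x x.2

end Cfsg.Agent.S5094
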