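import Mathlib
import Cfsg.Statements.S5107
import Cfsg.Agent.Lib.Fusion.Constr

set_option autoImplicit false
open Cfsg

namespace Cfsg.Agent.S5107

open CfsgLib.Fusion Cfsg.FusionSystem

/-- If a Sylow p-subgroup S of a finite group G has nilpotency class at most two and its centre is strongly closed in S with respect to G, then every map of the fusion system of G on S is conjugation by an element of N_G(S), and S is the largest subgroup normal in that fusion system. -/
theorem result {G : Type*} [Group G] [Finite G] (p : ℕ) [Fact p.Prime] (S : Sylow p G) (hcl : ⁅(S : Subgroup G), (S : Subgroup G)⁆ ≤ (S : Subgroup G) ⊓ Subgroup.centralizer ((S : Subgroup G) : Set G)) (hZ : Cfsg.IsStronglyClosed ((S : Subgroup G) ⊓ Subgroup.centralizer ((S : Subgroup G) : Set G)) (S : Subgroup G)) : (∀ (P : Subgroup G) (φ : P →* G), φ ∈ (Cfsg.groupFusionSystem (S : Subgroup G)).Hom P → ∃ g ∈ Subgroup.normalizer ((S : Subgroup G) : Set G), ∀ x : P, φ x = g * (x : G) * g⁻¹) ∧ (Cfsg.groupFusionSystem (S : Subgroup G)).core = S := by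
  have hF := groupFusion_saturated S
  have hn : (Cfsg.groupFusionSystem (S : Subgroup G)).IsNormal S :=
    isNormal_of_chain₂ S.2 hF (stronglyClosed_top _)
      (stronglyClosed_iff.2 ⟨inf_le_left, fun P f hf x hx hxZ => by
        obtain ⟨-, h2, g, hg⟩ := mor_group_iff.1 hf
        have := h2 x hx
        rw [hg x hx] at this ⊢
        exact hZ.2 x hxZ g this⟩) (fun a ha x hx => Subgroup.mem_centralizer_iff.1 (Subgroup.mem_inf.1 hx).2 a ha)
      fun a ha x hx => step_of_commutator_le hcl hx ha
  refine ⟨fun P φ hφ => ?_, le_antisymm (core_le _) (le_core hn)⟩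
  obtain ⟨f, hf, e, hS⟩ := (mor_of_mem hφ).extend_normal hn
  obtain ⟨-, -, g, hg⟩ := mor_group_iff.1 hf
  refine ⟨g, mem_normalizer_of_img_conj ?_, fun x => ?_⟩
  · rw [← img_congr fun x hx => hg x (Subgroup.mem_sup_right hx), hS]
  · rw [← hg x (Subgroup.mem_sup_left x.2), e x x.2, extFun_coe]

end Cfsg.Agent.S5107
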