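import Mathlib
import Cfsg.Statements.S5112
import Cfsg.Agent.Lib.Fusion.Resist

set_option autoImplicit false
open Cfsg

namespace Cfsg.Agent.S5112

open CfsgLib CfsgLib.Fusion Cfsg.FusionSystem

/-- If S is a dihedral or generalized quaternion 2-group of order at least 16, then in every saturated fusion system over S (at the prime 2) the automorphism group Aut_F(S) consists of the inner automorphisms of S. -/
theorem result {Ω : Type*} [Group Ω] {S : Subgroup Ω} [Finite S] (n : ℕ) (hn : 4 ≤ n) (hshape : Nonempty (S ≃* DihedralGroup (2 ^ (n - 1))) ∨ Nonempty (S ≃* QuaternionGroup (2 ^ (n - 2)))) (F : Cfsg.FusionSystem S) (hF : F.IsSaturated 2) : F.autGroup S = Cfsg.Inn S := by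
  have : Fact (Nat.Prime 2) := ⟨Nat.prime_two⟩
  obtain ⟨k, rfl⟩ := Nat.exists_eq_add_of_le' hn
  have hc : Nat.card S = 2 ^ (k + 4) := by
    rcases hshape with ⟨⟨e⟩⟩ | ⟨⟨e⟩⟩
    · rw [Nat.card_congr e.toEquiv, DihedralGroup.nat_card]
      exact (pow_succ' 2 (k + 3)).symm
    · have : NeZero (2 ^ (k + 4 - 2)) := ⟨by positivity⟩
      rw [Nat.card_congr e.toEquiv, Nat.card_eq_fintype_card, QuaternionGroup.card]
      change 4 * 2 ^ (k + 2) = _
      ring
  have hS : IsPGroup 2 S := IsPGroup.of_card hc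
  obtain ⟨a, b, h1, h2, h3⟩ : ∃ a b : S, a ^ 2 ≠ 1 ∧ b * a * b⁻¹ = a⁻¹ ∧
      ∀ g, ∃ i : ℤ, g = a ^ i ∨ g = a ^ i * b := by
    rcases hshape with ⟨⟨e⟩⟩ | ⟨⟨e⟩⟩
    · obtain ⟨a, b, h1, -, h2, -, h3⟩ := TwoGrp.exists_gens_of_dihedral (Subgroup.topEquiv.trans e)
      refine ⟨a, b, pow_ne_one_of_lt_orderOf two_ne_zero ?_, h2, fun g => (h3 g).1 trivial⟩
      rw [h1]
      exact Nat.pow_lt_pow_right (a := 2) (m := 1) one_lt_two (by omega)
    · obtain ⟨a, b, h1, -, h2, -, h3⟩ := TwoGrp.exists_gens_of_quaternion (Subgroup.topEquiv.trans e)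
      refine ⟨a, b, pow_ne_one_of_lt_orderOf two_ne_zero ?_, h2, fun g => (h3 g).1 trivial⟩
      rw [h1, ← pow_succ']
      exact Nat.pow_lt_pow_right (a := 2) (m := 1) one_lt_two (by omega)
  have hn : (Subgroup.zpowers a).Normal := by
    rw [← Subgroup.normalizer_eq_top_iff, eq_top_iff]
    intro g _
    obtain ⟨i, rfl | rfl⟩ := h3 g
    · exact Subgroup.le_normalizer (Subgroup.zpow_mem_zpowers a i)
    · exact Subgroup.mul_mem _ (Subgroup.le_normalizer (Subgroup.zpow_mem_zpowers a i))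
        (TwoGrp.mem_normalizer_zpowers_of_inv h2)
  have hm : Cfsg.IsMetacyclic S := ⟨_, hn, inferInstance, ⟨QuotientGroup.mk b, fun q => by
    obtain ⟨g, rfl⟩ := QuotientGroup.mk_surjective q
    obtain ⟨i, rfl | rfl⟩ := h3 g
    · exact ⟨0, (zpow_zero _).trans ((QuotientGroup.eq_one_iff _).2 (Subgroup.zpow_mem_zpowers a i)).symm⟩
    · exact ⟨1, by
        rw [QuotientGroup.mk_mul, (QuotientGroup.eq_one_iff _).2 (Subgroup.zpow_mem_zpowers a i), one_mul]
        exact zpow_one _⟩⟩⟩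
  rcases autDiag_of_isMetacyclic hS hm with ⟨n, -, ⟨e⟩⟩ | ⟨-, ⟨e⟩⟩ | h
  · have : b * a = a * b := e.injective (by rw [map_mul, map_mul, mul_comm])
    rw [this, mul_inv_cancel_right, eq_inv_iff_mul_eq_one, ← sq] at h2
    exact absurd h2 h1
  · rw [Nat.card_congr e.toEquiv, Nat.card_eq_fintype_card, QuaternionGroup.card] at hc
    have := Nat.pow_le_pow_right two_pos (Nat.le_add_left 4 k)
    omega
  · exact ((sat_sylIn_top hS hF).eq_of_isPGroup (h.isPGroup.to_subgroup _)).symm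

end Cfsg.Agent.S5112
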