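import Mathlib
import Cfsg.Statements.S5114
import Cfsg.Agent.Lib.Fusion.OppRes

set_option autoImplicit false
open Cfsg

namespace Cfsg.Agent.S5114

open CfsgLib.Fusion Cfsg.FusionSystem



/-- Let F be a saturated fusion system over a finite p-group S and E a fusion system over S contained in F. If Aut_E(P) contains the subgroup of Aut_F(P) generated by its elements of p-power order for every subgroup P that is centric in F, then the same holds for every subgroup of S (E has index prime to p in F), every map of F with source a subgroup P of S is an element of Aut_F(S) composed with a map of E, and a subgroup is centric in E exactly when it is centric in F. -/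
theorem result {Ω : Type*} [Group Ω] {S : Subgroup Ω} [Finite S] (p : ℕ) [Fact p.Prime] (hS : IsPGroup p S) (F : Cfsg.FusionSystem S) (hF : F.IsSaturated p) (E : Cfsg.FusionSystem S) (hEF : E.IsSubsystemOf F) (h : ∀ P : Subgroup Ω, F.IsCentric P → (Subgroup.closure {α : ↥(F.autGroup P) | ∃ k : ℕ, orderOf α = p ^ k}).map (F.autGroup P).subtype ≤ E.autGroup P) : E.HasPrimeToPIndexIn F p ∧ (∀ (P : Subgroup Ω) (φ : P →* Ω), φ ∈ F.Hom P → ∃ α ∈ F.autGroup S, ∃ φ₀ ∈ E.Hom P, ∀ (x : P) (hx : φ₀ x ∈ S), φ x = ((α ⟨φ₀ x, hx⟩ : S) : Ω)) ∧ ∀ P : Subgroup Ω, E.IsCentric P ↔ F.IsCentric P := by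
  have h1 : (oppStar F p F.IsCentric).IsSubsystemOf E :=
    oppStar_isSubsystemOf le_rfl fun R hR hRS α hα ⟨k, hk⟩ => (mem_autGroup hRS).1
      (h R hR (by rw [map_closure_pElts_eq_oppRes]; exact mem_oppRes_of hα hk))
  refine ⟨hasPrimeToPIndexIn_of_le (hasPrimeToPIndexIn_of_invariant hS hF
    (oppStar_isInvariantIn hS hF (isConj_centric F) fun _ h => essential_centric h)) h1 hEF,
    fun P φ hφ => ?_, fun P => centric_iff_of_index hS hF h1 hEF⟩
  obtain ⟨α, hα, f₀, hf₀, e⟩ := frattini_of_index hS hF h1 (mor_of_mem hφ)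
  refine ⟨α, hα, _, hf₀.toHom_mem, fun x hx => ?_⟩
  rw [coe_eq_extFun φ x, e x x.2, ← extAut_apply α hx]
  rfl

end Cfsg.Agent.S5114
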