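import Mathlib
import Cfsg.Statements.S5119
import Cfsg.Agent.Lib.Fusion.Frattini

set_option autoImplicit false
open Cfsg

namespace Cfsg.Agent.S5119

open CfsgLib.Fusion Cfsg.FusionSystem



/-- Let F be a saturated fusion system over a finite p-group S and E a subsystem of F over a subgroup T that is strongly closed in F. Then E is invariant in F (invariance under Aut_F(T) plus the Frattini condition) if and only if the strong invariance condition holds: for P ≤ Q ≤ T, every map φ of E from P into Q and every map ψ of F with source Q, the transported map ψ φ ψ⁻¹ on ψ(P) is a map of E. -/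
theorem result {Ω : Type*} [Group Ω] {S : Subgroup Ω} [Finite S] (p : ℕ) [Fact p.Prime] (hS : IsPGroup p S) (F : Cfsg.FusionSystem S) (hF : F.IsSaturated p) {T : Subgroup Ω} (E : Cfsg.FusionSystem T) (hE : E.IsSubsystemOf F) (hT : F.StronglyClosed T) : E.IsInvariantIn F ↔ ∀ (P Q : Subgroup Ω) (hPQ : P ≤ Q) (_ : Q ≤ T) (φ : P →* Ω) (_ : φ ∈ E.Hom P) (hφQ : ∀ x : P, φ x ∈ Q) (ψ : Q →* Ω) (_ : ψ ∈ F.Hom Q), ∃ χ ∈ E.Hom ((P.subgroupOf Q).map ψ), ∀ (x : P) (hx : ψ (Subgroup.inclusion hPQ x) ∈ (P.subgroupOf Q).map ψ), χ ⟨ψ (Subgroup.inclusion hPQ x), hx⟩ = ψ ⟨φ x, hφQ x⟩ := by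
  constructor
  · intro h P Q hPQ _ φ hφ hφQ ψ hψ
    obtain ⟨g, hg, e⟩ := inv_conj_exists h (mor_of_mem hφ) (mor_of_mem hψ) hPQ fun x hx => by
      rw [extFun_apply φ hx]; exact hφQ _
    rw [← map_subgroupOf_eq_img ψ (coe_eq_extFun ψ) hPQ] at hg
    refine ⟨_, hg.toHom_mem, fun x hx => ?_⟩
    have h1 := e x x.2
    rw [extFun_apply ψ (hPQ x.2), extFun_coe, extFun_apply ψ (hφQ x)] at h1
    exact h1
  · intro h
    refine isInvariantIn_of_strongInv hS hF hE hT fun P Q f k hf hk hQ hPQ hfQ => ?_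
    obtain ⟨χ, hχ, e⟩ := h P Q hPQ hQ _ hf.toHom_mem (fun x => hfQ x x.2) _ hk.toHom_mem
    have e0 := map_subgroupOf_eq_img hk.hom.toHom hk.hom.toHom_apply hPQ
    refine ⟨extFun χ, e0 ▸ mor_of_mem hχ, fun x hx => ?_⟩
    have hm : k x ∈ (P.subgroupOf Q).map hk.hom.toHom := e0 ▸ mem_img_of_mem k hx
    rw [extFun_apply χ hm]
    exact e ⟨x, hx⟩ hm

end Cfsg.Agent.S5119
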