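import Mathlib
import Cfsg.Statements.S5121
import Cfsg.Agent.Lib.Fusion.NormalModel2

set_option autoImplicit false
open Cfsg

namespace Cfsg.Agent.S5121

section Aux

open CfsgLib.Fusion Cfsg.FusionSystem
open scoped commutatorElement

theorem rMor_iff {G : Type*} [Group G] {S T H : Subgroup G} (hTS : T ≤ S) (hTH : T ≤ H) (P : Subgroup G)
    (f : G → G) : RMor S.subtype H T P f ↔ Mor (Cfsg.fusionSystemOfSubgroup H T hTH) P f := by
  rw [mor_ofSubgroup_iff]
  refine and_congr_right fun hP => and_congr_right fun hf => exists_congr fun g => and_congr_right fun _ =>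
    forall₂_congr fun x hx => ?_
  rw [extFun_apply _ (hTS (hf x hx)), extFun_apply _ (hTS (hP hx))]
  rfl

theorem pre_eq {G : Type*} [Group G] (S H : Subgroup G) : pre S (extFun S.subtype) H = S ⊓ H := by
  ext x
  rw [(isHomOn_extFun _).mem_pre]
  exact and_congr_right fun hx => by rw [extFun_apply _ hx]; rfl

end Aux

/-- Let G be a finite group with Sylow p-subgroup S and C_G(O_p(G)) ≤ O_p(G). For every subgroup T ≤ S and every normal subsystem E over T of the fusion system of G on S there is exactly one normal subgroup H of G containing T as a Sylow p-subgroup whose fusion system on T is E. -/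
theorem result {G : Type*} [Group G] [Finite G] (p : ℕ) [Fact p.Prime] (S : Sylow p G) (hG : Subgroup.centralizer ((Cfsg.pCore p G : Subgroup G) : Set G) ≤ Cfsg.pCore p G) (T : Subgroup G) (hTS : T ≤ S) (E : Cfsg.FusionSystem T) (hE : E.IsNormalIn (Cfsg.groupFusionSystem (S : Subgroup G)) p) : ∃ H : Subgroup G, (∃ hTH : T ≤ H, H.Normal ∧ (∃ R : Sylow p H, (R : Subgroup H) = T.subgroupOf H) ∧ ∀ P : Subgroup G, E.Hom P = (Cfsg.fusionSystemOfSubgroup H T hTH).Hom P) ∧ ∀ H' : Subgroup G, (∃ hTH' : T ≤ H', H'.Normal ∧ (∃ R : Sylow p H', (R : Subgroup H') = T.subgroupOf H') ∧ ∀ P : Subgroup G, E.Hom P = (Cfsg.fusionSystemOfSubgroup H' T hTH').Hom P) → H' = H := by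
  open CfsgLib.Fusion in
  have hM : (Cfsg.groupFusionSystem (S : Subgroup G)).IsModel p G (S : Subgroup G).subtype :=
    ⟨inferInstance, groupFusion_isRealizedBy _, ⟨S, by simp⟩, hG⟩
  obtain ⟨H, hn, hpre, hm⟩ := normalIn_exists_model S.isPGroup' hM hE
  have hT : (S : Subgroup G) ⊓ H = T := (pre_eq _ _).symm.trans hpre
  have hTH : T ≤ H := hT ▸ inf_le_right
  refine ⟨H, ⟨hTH, hn, (hT ▸ sylIn_inf_normal S H : SylIn p T H).2, fun P => hom_eq_iff.2 fun f => ?_⟩, ?_⟩
  · rw [hm, rMor_iff hTS hTH]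
  · rintro H' ⟨hTH', hn', hs, he⟩
    have hT' : pre (S : Subgroup G) (extFun (S : Subgroup G).subtype) H' = T := by
      rw [pre_eq]
      exact SylIn.eq_of_le ⟨hTH', hs⟩ (S.isPGroup'.to_le inf_le_left) (le_inf hTS hTH') inf_le_right
    have e : ∀ R f, RMor (S : Subgroup G).subtype H' T R f ↔ RMor (S : Subgroup G).subtype H T R f := fun R f => by
      rw [← hm, rMor_iff hTS hTH', hom_eq_iff.1 (he R)]
    exact le_antisymm (normal_le_of_rMor hM hT' hpre fun R f => (e R f).1)
      (normal_le_of_rMor hM hpre hT' fun R f => (e R f).2)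

end Cfsg.Agent.S5121
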