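import Mathlib
import Cfsg.Statements.S5130
import Cfsg.Agent.Lib.Fusion.Grun

set_option autoImplicit false
open Cfsg

namespace Cfsg.Agent.S5130

/-- Let F be a saturated fusion system over a finite p-group S that is the direct product of two subgroups S₁ and S₂, each strongly closed in F. Let R be the full subsystem of F over S₁ (all maps of F between subgroups of S₁) and R′ the subsystem over S₁ of those maps that extend to the subgroup generated with S₂ fixing S₂ elementwise. Then R and R′ are saturated, R′ is normal in F and in R, and R is weakly normal in F. -/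
theorem result {Ω : Type*} [Group Ω] {S : Subgroup Ω} [Finite S] (p : ℕ) [Fact p.Prime] (hS : IsPGroup p S) (F : Cfsg.FusionSystem S) (hF : F.IsSaturated p) (S₁ S₂ : Subgroup Ω) (hprod : Cfsg.IsInternalDirectProduct S₁ S₂ S) (h₁ : F.StronglyClosed S₁) (h₂ : F.StronglyClosed S₂) (R R' : Cfsg.FusionSystem S₁) (hR : ∀ P : Subgroup Ω, P ≤ S₁ → R.Hom P = F.Hom P) (hR' : ∀ P : Subgroup Ω, P ≤ S₁ → R'.Hom P = F.centralizerHom S₂ P) : R.IsSaturated p ∧ R'.IsSaturated p ∧ R'.IsNormalIn F p ∧ R'.IsNormalIn R p ∧ R.IsWeaklyNormalIn F p := by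
  open CfsgLib.Fusion in
  obtain ⟨hle₁, hle₂, hc, hi, hs⟩ := hprod
  open CfsgLib.Fusion in
  have mR : ∀ P f, P ≤ S₁ → (Mor R P f ↔ Mor F P f) := fun P f hP => hom_eq_iff.1 (hR P hP) f
  open CfsgLib.Fusion in
  have mR' : ∀ P f, P ≤ S₁ → (Mor R' P f ↔ CMor F S₂ P f) := fun P f hP =>
    hom_eq_centralizerHom_iff.1 (hR' P hP) f
  open CfsgLib.Fusion in
  have hRs : R.IsSaturated p := saturated_of_direct hS hF h₁ h₂ hc hi hs mR
  open CfsgLib.Fusion in
  have hC₁ : S₁ ≤ FusionSystem.centralizerIn S S₂ := fun a ha =>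
    mem_centralizerIn'.2 ⟨hle₁ ha, fun b hb => (hc a ha b hb).symm⟩
  have f₁ : Finite S₁ := CfsgLib.Fusion.finite_of_le hle₁
  have f₂ : Finite S₂ := CfsgLib.Fusion.finite_of_le hle₂
  open CfsgLib.Fusion in
  have hR's : R'.IsSaturated p := by
    have := finite_centralizerIn S S₂
    have hfc : F.IsFullyCentralized S₂ := sat_fullyCentralized hS hF
      (fullyNormalized_of_le_normalizer hle₂ (le_normalizer_of_stronglyClosed h₂))
    refine saturated_of_direct (S₂ := S₂ ⊓ FusionSystem.centralizerIn S S₂) (hS.to_le (centralizerIn_le _ _))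
      (centSys_saturated hS hF hfc) (stronglyClosed_sub_of_le (centSys_sub F hle₂) h₁ hC₁)
      (stronglyClosed_sub (centSys_sub F hle₂) h₂) (fun a ha b hb => hc a ha b hb.1)
      (by rw [← inf_assoc, hi, bot_inf_eq]) (le_antisymm (sup_le hC₁ inf_le_right) fun x hx => ?_)
      (fun P f hP => by rw [mR' P f hP, mor_centSys])
    have hx' := centralizerIn_le _ _ hx
    rw [← hs] at hx'
    obtain ⟨a, ha, b, hb, rfl⟩ := (mem_sup_of_comm hc).1 hx'
    refine Subgroup.mul_mem_sup ha ⟨hb, ?_⟩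
    simpa using Subgroup.mul_mem _ (Subgroup.inv_mem _ (hC₁ ha)) hx
  open CfsgLib.Fusion in
  have hsub : R'.IsSubsystemOf F := isSubsystemOf_iff.2 fun P f hf => ((mR' P f hf.le).1 hf).mor
  open CfsgLib.Fusion in
  have hinv : ∀ P f a, Mor R' P f → Mor F S₁ a → ∃ g, Mor R' (img P a) g ∧ ∀ x ∈ P, g (a x) = a (f x) := by
    intro P f a hf ha
    have hP := hf.le
    obtain ⟨b, hb, eb⟩ := ha.extend_direct hS hF h₁ h₂ hi le_rfl
    rw [hs] at hb
    obtain ⟨-, g, hg, eg, eg'⟩ := (mR' P f hP).1 hf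
    obtain ⟨k, hk, ek⟩ := (isFactor_aut hb hb.img_top).iso_ind hg
    have hb2 : img S₂ b = S₂ := (hb.mono hle₂).img_eq_of_stronglyClosed h₂
    have hPa : img P b = img P a := img_congr fun x hx => eb x (hP hx)
    rw [(hb.mono hg.le).img_sup, hb2, hPa] at hk
    have hle : img P a ≤ S₁ := (ha.mono hP).img_le_of_stronglyClosed h₁ hP
    refine ⟨k, (mR' _ _ hle).2 (cMor_of hk le_sup_right le_sup_left (hle.trans hC₁) fun y hy => ?_),
      fun x hx => ?_⟩
    · rw [← hb2] at hy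
      obtain ⟨x, hx, rfl⟩ := (hb.mono hle₂).mem_img.1 hy
      rw [ek x (Subgroup.mem_sup_right hx), eg' x hx]
    · rw [← eb x (hP hx), ek x (Subgroup.mem_sup_left hx), eg x hx, eb _ (hf.mem hx)]
  open CfsgLib.Fusion in
  have hfr : ∀ P f, P ≤ S₁ → Mor F P f → ∃ a f₀, Mor F S₁ a ∧ Mor R' P f₀ ∧ ∀ x ∈ P, f x = a (f₀ x) := by
    intro P f hP hf
    obtain ⟨g, hg, eg⟩ := hf.extend_direct hS hF h₁ h₂ hi hP
    obtain ⟨b, hb, eb⟩ := (hg.mono le_sup_right).extend_direct hS hF h₂ h₁ (by rw [inf_comm, hi]) le_rfl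
    rw [sup_comm, hs] at hb
    obtain ⟨k, hk, ek, ek', -⟩ := hb.exists_inv' hb.img_top
    refine ⟨b, k ∘ g, hb.mono hle₁, (mR' _ _ hP).2 (cMor_of (hg.comp hk fun x hx => hg.mem hx) le_sup_right
      le_sup_left (hP.trans hC₁) fun x hx => ?_), fun x hx => ?_⟩
    · rw [Function.comp_apply, ← eb x hx, ek x (hle₂ hx)]
    · rw [Function.comp_apply, ek' _ (hg.mem (Subgroup.mem_sup_left hx)), eg x hx]
  open CfsgLib.Fusion in
  refine ⟨hRs, hR's, isNormalIn_iff.2 ⟨⟨hR's, hF, isInvariantIn_of hsub h₁ hinv hfr⟩, fun a ha => ?_⟩,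
    normalIn_top_of_wnormal ⟨hR's, hRs, isInvariantIn_of
      (isSubsystemOf_iff.2 fun P f hf => (mR P f hf.le).2 (hf.sub hsub)) (stronglyClosed_top R)
      (fun P f a hf ha => hinv P f a hf ((mR _ _ le_rfl).1 ha)) (fun P f hP hf => ?_)⟩,
    ⟨hRs, hF, isInvariantIn_of (isSubsystemOf_iff.2 fun P f hf => (mR P f hf.le).1 hf) h₁
      (fun P f a hf ha => ?_) (fun P f hP hf => ⟨id, f, Mor.id F hle₁, (mR P f hP).2 hf, fun _ _ => rfl⟩)⟩⟩
  · open CfsgLib.Fusion in
    obtain ⟨-, g, hg, eg, eg'⟩ := (mR' _ a le_rfl).1 ha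
    rw [hs] at hg
    open CfsgLib.Fusion in
    refine ⟨g, hg.mono (sup_le hle₁ (centralizerIn_le _ _)), eg, fun c hc' => ?_⟩
    open CfsgLib.Fusion in
    have hx' := centralizerIn_le _ _ hc'
    rw [← hs] at hx'
    open CfsgLib.Fusion in
    obtain ⟨u, hu, v, hv, rfl⟩ := (mem_sup_of_comm hc).1 hx'
    have h1 := hg.mem_of_stronglyClosed h₁ (hle₁ hu) hu
    rw [hg.map_mul (hle₁ hu) (hle₂ hv), eg' v hv, hc u hu v hv, hc _ h1 v hv]
    simpa [mul_assoc] using S₁.mul_mem (S₁.inv_mem hu) h1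
  · open CfsgLib.Fusion in
    obtain ⟨a, f₀, ha, hf₀, e⟩ := hfr P f hP ((mR P f hP).1 hf)
    exact ⟨a, f₀, (mR _ _ le_rfl).2 ha, hf₀, e⟩
  · open CfsgLib.Fusion in
    have hP := hf.le
    obtain ⟨k, hk, ek, -, hk', -⟩ := (ha.mono hP).exists_inv
    open CfsgLib.Fusion in
    refine ⟨a ∘ f ∘ k, (mR _ _ ((ha.mono hP).img_le_of_stronglyClosed h₁ hP)).2
      ((hk.comp ((mR P f hP).1 hf) hk').comp ha fun y hy => hf.mem (hk' y hy)), fun x hx => ?_⟩
    simp only [Function.comp_apply, ek x hx]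

end Cfsg.Agent.S5130
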