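import Mathlib
import Cfsg.Statements.S5139
import Cfsg.Agent.Lib.Fusion.HypGroup

set_option autoImplicit false
open Cfsg

namespace Cfsg.Agent.S5139

open CfsgLib.Fusion Cfsg.FusionSystem

/-- Let G be a finite group with Sylow p-subgroup S and O^p(G) the subgroup generated by the elements of order prime to p. Then the p-residual subsystem of the fusion system of G on S — the saturated subsystem of p-power index over the hyperfocal subgroup — is the fusion system of O^p(G) on S ∩ O^p(G): its maps are exactly the conjugation maps by elements of O^p(G) between subgroups of S ∩ O^p(G). -/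
theorem result {G : Type*} [Group G] [Finite G] (p : ℕ) [Fact p.Prime] (S : Sylow p G) (E : Cfsg.FusionSystem ((Cfsg.groupFusionSystem (S : Subgroup G)).hyperfocalSubgroup p)) (hE : (Cfsg.groupFusionSystem (S : Subgroup G)).IsPResidual p E) : ∃ h : (S : Subgroup G) ⊓ Cfsg.pResidual p G ≤ Cfsg.pResidual p G, ∀ P : Subgroup G, E.Hom P = (Cfsg.fusionSystemOfSubgroup (Cfsg.pResidual p G) ((S : Subgroup G) ⊓ Cfsg.pResidual p G) h).Hom P := by
  have := CfsgLib.Transfer.pResidual_characteristic p G
  have e := hyperfocal_group S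
  have hT := sylIn_inf_normal S (pResidual p G)
  obtain ⟨h1, -, h3⟩ := hasPPowerIndexIn_iff.1 hE.2
  refine ⟨inf_le_right, fun P => subset_antisymm ?_ ?_⟩
  · refine sub_of_opRes_le (e ▸ hT.isPGroup) hE.1 e.le (fun P hP α hα hc => ?_) P
    have hP' := hP.trans e.le
    have := autGroup_mono h1 P hα
    rw [groupFusion_autGroup (hP'.trans inf_le_left)] at this
    obtain ⟨g, -, hg, e'⟩ := exists_coprime_of_mem_autInducedBy this hc
    rw [fusionOfSubgroup_autGroup _ hP']
    exact mem_autInducedBy.2 ⟨g, CfsgLib.Transfer.mem_pResidual_of_coprime hg, e'⟩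
  · refine sub_of_opRes_le hT.isPGroup (fusionOfSubgroup_saturated hT) e.ge
      (fun P hP α hα hc => h3 P (hP.trans e.ge) (mem_opRes_of ?_ hc)) P
    rw [fusionOfSubgroup_autGroup _ hP] at hα
    rw [groupFusion_autGroup (hP.trans inf_le_left)]
    exact autInducedBy_mono le_top P hα

end Cfsg.Agent.S5139
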