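import Mathlib
import Cfsg.Statements.S5159
import Cfsg.Agent.Lib.Fusion.Solvable

set_option autoImplicit false
open Cfsg

namespace Cfsg.Agent.S5159

/-- Let F be a saturated fusion system over a finite p-group S, E a normal subsystem over T, and D the factor system of F modulo T (read through any homomorphism on S with kernel T). Then F is solvable if and only if E and D are solvable (solvable, for a system over a subgroup S: for every subgroup R other than S that is strongly closed in F, the factor system of F modulo R has a nontrivial subgroup normal in it). -/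
theorem result {Ω : Type*} [Group Ω] {S : Subgroup Ω} [Finite S] (p : ℕ) [Fact p.Prime] (hS : IsPGroup p S) (F : Cfsg.FusionSystem S) (hF : F.IsSaturated p) {T : Subgroup Ω} (E : Cfsg.FusionSystem T) (hE : E.IsNormalIn F p) {Ω' : Type*} [Group Ω'] {S' : Subgroup Ω'} (θ : S →* Ω') (D : Cfsg.FusionSystem S') (hD : F.IsFactorSystem T θ D) : F.IsSolvableSystem ↔ (E.IsSolvableSystem ∧ D.IsSolvableSystem) := by
  open CfsgLib.Fusion in
  have hT := normalIn_stronglyClosed hE
  open CfsgLib.Fusion in
  have := finite_of_le hT.1
  open CfsgLib.Fusion in
  have hD' := isFactorSystem_iff.1 hD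
  have := hD'.finite
  open CfsgLib.Fusion in
  rw [isSolvableSystem_iff hS hF, isSolvableSystem_iff (hS.to_le hT.1) (normalIn_saturated hE),
    isSolvableSystem_iff (hD'.isPGroup hS) (hD'.saturated hS hF hT)]
  open CfsgLib.Fusion in
  exact ⟨fun h => ⟨h.sub hS (normalIn_sub hE) (normalIn_saturated hE), h.factor hS hF hD' hT⟩,
    fun h => solvStep_of_wnormal hS hE.1 hD' h.1 h.2⟩

end Cfsg.Agent.S5159
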