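import Mathlib
import Cfsg.Statements.S5164
import Cfsg.Agent.Lib.PGroup.Basic
import Cfsg.Agent.Lib.Fusion.Mor

set_option autoImplicit false
open Cfsg

namespace Cfsg.Agent.S5164

open CfsgLib.Fusion Cfsg.FusionSystem

open Equiv in
theorem not_comm_of_sub {α : Type} [Fintype α] [DecidableEq α] {n p : ℕ} [Fact p.Prime]
    (H : Subgroup (Perm α)) (hH : IsPGroup p H) (hs : ∀ σ ∈ H, Perm.sign σ = 1) {x y : Perm α}
    (hx : x ∈ H) (hy : y ∈ H) (hxy : x * y ≠ y * x) (hc : Fintype.card α ≤ n)
    (S : Sylow p (alternatingGroup (Fin n))) : ¬ IsMulCommutative S := fun hS => by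
  classical
  obtain ⟨ι⟩ : Nonempty (α ↪ Fin n) := Function.Embedding.nonempty_of_card_le (by simpa using hc)
  let φ : H →* alternatingGroup (Fin n) := ((Perm.viaEmbeddingHom ι).comp H.subtype).codRestrict _
    fun σ => Perm.mem_alternatingGroup.2 (by
      rw [← hs σ σ.2]
      convert Perm.sign_extendDomain (σ : Perm α) (ofInjective ι.1 ι.2)
      change Perm.viaEmbedding _ _ = _
      unfold Perm.viaEmbedding
      congr!)
  obtain ⟨Q, hQ⟩ := (hH.of_surjective _ φ.rangeRestrict_surjective).exists_le_sylow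
  obtain ⟨g, rfl⟩ := MulAction.exists_smul_eq (alternatingGroup (Fin n)) S Q
  obtain ⟨a, ha, e1⟩ := hQ ⟨⟨x, hx⟩, rfl⟩
  obtain ⟨b, hb, e2⟩ := hQ ⟨⟨y, hy⟩, rfl⟩
  have h1 : a * b = b * a := congrArg Subtype.val (hS.is_comm.comm ⟨a, ha⟩ ⟨b, hb⟩)
  have h2 : φ (⟨x, hx⟩ * ⟨y, hy⟩) = φ (⟨y, hy⟩ * ⟨x, hx⟩) := by
    have e3 : MulAut.conj g a = φ ⟨x, hx⟩ := e1
    have e4 : MulAut.conj g b = φ ⟨y, hy⟩ := e2
    rw [map_mul, map_mul, ← e3, ← e4, ← map_mul, ← map_mul, h1]
  exact hxy (Perm.viaEmbeddingHom_injective ι (congrArg Subtype.val h2))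

open Equiv in
def wr (p : ℕ) : Subgroup (Perm (ZMod p × ZMod p)) where
  carrier := {σ | ∃ (a : ZMod p) (f : ZMod p → ZMod p), ∀ x y, σ (x, y) = (x + a, y + f x)}
  one_mem' := ⟨0, 0, fun x y => by simp⟩
  mul_mem' := by
    rintro σ τ ⟨a, f, h⟩ ⟨b, g, h'⟩
    exact ⟨b + a, fun x => g x + f (x + b), fun x y => by simp [h, h', add_assoc]⟩
  inv_mem' := by
    rintro σ ⟨a, f, h⟩
    exact ⟨-a, fun x => - f (x - a), fun x y => by
      rw [Perm.inv_eq_iff_eq, h]; simp [sub_eq_add_neg]⟩

theorem isPGroup_wr (p : ℕ) : IsPGroup p (wr p) := by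
  rintro ⟨σ, a, f, h⟩
  have h1 : ∀ k : ℕ, ∃ g : ZMod p → ZMod p, ∀ x y, (σ ^ k) (x, y) = (x + k * a, y + g x) := by
    intro k
    induction k with
    | zero => exact ⟨0, fun x y => by simp⟩
    | succ k ih =>
      obtain ⟨g, hg⟩ := ih
      exact ⟨fun x => g x + f (x + k * a), fun x y => by
        simp [pow_succ', hg, h, add_assoc, add_mul]⟩
  obtain ⟨g, hg⟩ := h1 p
  have h2 : ∀ k : ℕ, ∀ x y, ((σ ^ p) ^ k) (x, y) = (x, y + k * g x) := by
    intro k
    induction k with
    | zero => simp
    | succ k ih => intro x y; rw [pow_succ', Equiv.Perm.mul_apply, ih, hg]; simp [add_assoc, add_mul]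
  refine ⟨2, Subtype.ext (Equiv.ext fun ⟨x, y⟩ => ?_)⟩
  simp [pow_two, pow_mul, h2]

open Equiv in
def d8 : Subgroup (Perm (Fin 6)) where
  carrier := {σ | σ ∈ [1, swap 0 1 * swap 2 3, swap 0 2 * swap 1 3, swap 0 3 * swap 1 2,
    swap 0 1 * swap 4 5, swap 2 3 * swap 4 5, swap 0 2 * swap 1 3 * (swap 0 1 * swap 4 5),
    swap 0 3 * swap 1 2 * (swap 0 1 * swap 4 5)]}
  one_mem' := by simp
  mul_mem' := by
    intro a b ha hb
    revert a b
    simp only [Set.mem_setOf_eq]
    intro a b ha hb
    revert b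
    revert a
    decide +kernel
  inv_mem' := by
    simp only [Set.mem_setOf_eq]
    decide +kernel

/-- For n ≥ 6 and a prime p, a nontrivial Sylow p-subgroup of the alternating group of degree n is abelian if and only if n < p². -/
theorem result (n p : ℕ) (hn : 6 ≤ n) [Fact p.Prime] (S : Sylow p (alternatingGroup (Fin n))) (hS : (S : Subgroup (alternatingGroup (Fin n))) ≠ ⊥) : IsMulCommutative S ↔ n < p ^ 2 := by
    constructor
    · intro hc
      by_contra hlt
      push Not at hlt
      by_cases hp : p = 2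
      · subst hp
        refine not_comm_of_sub d8 (fun ⟨σ, h⟩ => ⟨2, Subtype.ext ?_⟩) (fun σ h => ?_)
          (x := Equiv.swap 0 2 * Equiv.swap 1 3) (y := Equiv.swap 0 1 * Equiv.swap 4 5)
          (by simp [d8]) (by simp [d8]) (by decide) (by simpa using hn) S hc
        · change σ ^ 4 = 1
          revert σ
          simp only [d8, Subgroup.mem_mk, Submonoid.mem_mk, Subsemigroup.mem_mk, Set.mem_setOf_eq]
          decide +kernel
        · revert σ
          simp only [d8, Subgroup.mem_mk, Submonoid.mem_mk, Subsemigroup.mem_mk, Set.mem_setOf_eq]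
          decide +kernel
      · have : Fact (1 < p) := ⟨(Fact.out : p.Prime).one_lt⟩
        refine not_comm_of_sub (wr p) (isPGroup_wr p) (fun σ h => ?_)
          (x := Equiv.prodCongr (Equiv.addRight 1) (Equiv.refl _))
          (y := Equiv.prodShear (Equiv.refl _) fun x => Equiv.addRight x)
          ⟨1, 0, fun x y => by simp⟩ ⟨0, id, fun x y => by simp⟩ (fun e => ?_)
          (by simpa [pow_two] using hlt) S hc
        · obtain ⟨k, hk⟩ := isPGroup_wr p ⟨σ, h⟩
          have h1 := congrArg Equiv.Perm.sign (congrArg Subtype.val hk)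
          simp only [SubmonoidClass.coe_pow, map_pow, OneMemClass.coe_one, map_one] at h1
          rcases Int.units_eq_one_or (Equiv.Perm.sign σ) with h2 | h2
          · exact h2
          · rw [h2, (((Fact.out : p.Prime).odd_of_ne_two hp).pow).neg_one_pow] at h1
            exact absurd h1 (by decide)
        · simpa using congrArg (fun σ : Equiv.Perm (ZMod p × ZMod p) => σ (0, 0)) e
    · intro hlt
      have hP := S.isPGroup'
      refine ⟨⟨fun x y => ?_⟩⟩
      rw [← commutatorElement_eq_one_iff_mul_comm]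
      refine Subtype.ext (Subtype.ext (Equiv.ext fun i => ?_))
      have hi : (MulAction.stabilizer S i).index ≤ p := by
        obtain ⟨k, hk⟩ := IsPGroup.index hP (MulAction.stabilizer S i)
        have : p ^ k < p ^ 2 := by
          rw [← hk, MulAction.index_stabilizer]
          exact lt_of_le_of_lt (by simpa using Set.ncard_le_card (MulAction.orbit S i)) hlt
        rw [hk]
        simpa using Nat.pow_le_pow_right (Fact.out : p.Prime).pos
          (Nat.lt_succ_iff.1 ((Nat.pow_lt_pow_iff_right (Fact.out : p.Prime).one_lt).1 this))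
      have := CfsgLib.PGroup.normal_of_index_le_prime hP hi
      have hcy : IsCyclic (S ⧸ MulAction.stabilizer S i) := by
        obtain ⟨k, hk⟩ := IsPGroup.index hP (MulAction.stabilizer S i)
        refine isCyclic_of_card_dvd_prime (p := p) ?_
        rw [← Subgroup.index_eq_card, hk]
        rw [hk] at hi
        rcases k with _ | _ | k
        · simp
        · simp
        · exact absurd hi (not_le.2 (lt_self_pow₀ (Fact.out : p.Prime).one_lt (by omega)))
      have h1 : x * y * x⁻¹ * y⁻¹ ∈ MulAction.stabilizer S i := by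
        rw [← QuotientGroup.eq_one_iff]
        change QuotientGroup.mk' _ _ = 1
        have : QuotientGroup.mk' (MulAction.stabilizer S i) x * QuotientGroup.mk' _ y =
            QuotientGroup.mk' _ y * QuotientGroup.mk' _ x :=
          (IsCyclic.commGroup (α := S ⧸ MulAction.stabilizer S i)).mul_comm _ _
        simp only [map_mul, map_inv, this]
        group
      exact h1

end Cfsg.Agent.S5164
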