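import Mathlib
import Cfsg.Statements.S5171
import Cfsg.Agent.Lib.Fusion.LieSimple

set_option autoImplicit false
open Cfsg

namespace Cfsg.Agent.S5171

open CfsgLib CfsgLib.Fusion Cfsg.FusionSystem

/-- For a finite field K of characteristic p and m ≥ 2, excluding the case m = 2 with K of two elements, the p-fusion system of the projective symplectic group PSp_{2m}(K) on a Sylow p-subgroup is simple. -/
theorem result {K : Type*} [Field K] [Fintype K] (p : ℕ) [Fact p.Prime] [CharP K p] (m : ℕ) (hm : 2 ≤ m) (hex : m = 2 → 3 ≤ Fintype.card K) (S : Sylow p (Cfsg.PSp m K)) : (Cfsg.groupFusionSystem (S : Subgroup (Cfsg.PSp m K))).IsSimple p := by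
  have : Nontrivial (Fin m) := Fin.nontrivial_iff_two_le.2 hm
  refine lie_simple ClSys.pspSys_nondeg ClSys.pspSys_grp ClSys.pspSys_r3 (ClSys.rootBC_connected _)
    (rootFull_psp hm fun h c => ?_) S
  classical
  by_contra H
  push Not at H
  have : (Finset.univ : Finset K) ⊆ {0, -c} := fun t _ => by
    by_cases ht : t = 0
    · simp [ht]
    · simp [eq_neg_of_add_eq_zero_left (H t ht)]
  have h1 := (Finset.card_le_card this).trans Finset.card_le_two
  have h2 := hex h
  rw [Finset.card_univ] at h1
  omega
end Cfsg.Agent.S5171
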