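import Mathlib
import Cfsg.Statements.S5311
import Cfsg.Agent.Lib.Fusion.Grun

set_option autoImplicit false
open Cfsg

namespace Cfsg.Agent.S5311

/-- The layer of a saturated fusion system F over a finite p-group S is characteristic in F: for every automorphism α of S that is an automorphism of F (α and its inverse are morphisms from F to F) and every layer E of F over T, α carries T onto T and, for every map φ of E with source P, the map induced by α on α(P) (that is, α ∘ φ ∘ α⁻¹) is a map of E. -/
theorem result {Ω : Type*} [Group Ω] {S : Subgroup Ω} [Finite S] (p : ℕ) [Fact p.Prime] (hS : IsPGroup p S) (F : Cfsg.FusionSystem S) (hF : F.IsSaturated p)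
    (α : ↥S ≃* ↥S) (hα : F.IsMorphism F (S.subtype.comp α.toMonoidHom))
    (hα' : F.IsMorphism F (S.subtype.comp α.symm.toMonoidHom))
    {T : Subgroup Ω} (E : Cfsg.FusionSystem T) (hE : E.IsLayerOf F p) :
    Cfsg.FusionSystem.imageAlong (S.subtype.comp α.toMonoidHom) T = T ∧
      ∀ (P : Subgroup Ω) (φ : ↥P →* Ω), φ ∈ E.Hom P →
        ∀ φ' : ↥(Cfsg.FusionSystem.imageAlong (S.subtype.comp α.toMonoidHom) P) →* Ω,
          Cfsg.FusionSystem.InducedAlong (S.subtype.comp α.toMonoidHom) φ φ' →
            φ' ∈ E.Hom (Cfsg.FusionSystem.imageAlong (S.subtype.comp α.toMonoidHom) P) := by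
  open CfsgLib.Fusion in
  have key : ∀ (β : S ≃* S), F.IsMorphism F (S.subtype.comp β.toMonoidHom) →
      F.IsMorphism F (S.subtype.comp β.symm.toMonoidHom) →
      IsFactor F ⊥ (extFun (S.subtype.comp β.toMonoidHom)) F := by
    intro β h h'
    have h1 := isMorphism_iff.1 h
    have h2 := isMorphism_iff.1 h'
    have e1 : ∀ x ∈ S, extFun (S.subtype.comp β.symm.toMonoidHom) (extFun (S.subtype.comp β.toMonoidHom) x) = x :=
      fun x hx => by
        rw [extFun_apply _ (h1.mem x hx)]
        simp [extFun_apply _ hx]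
    have e2 : ∀ x ∈ S, extFun (S.subtype.comp β.toMonoidHom) (extFun (S.subtype.comp β.symm.toMonoidHom) x) = x :=
      fun x hx => by
        rw [extFun_apply _ (h2.mem x hx)]
        simp [extFun_apply _ hx]
    have hi : Set.InjOn (extFun (S.subtype.comp β.toMonoidHom)) S := fun x hx y hy e => by
      rw [← e1 x hx, e, e1 y hy]
    refine isFactor_bot_of h1.hom hi (h1.hom.img_eq_self hi h1.mem) (fun P f hf => h1.ind hf)
      (fun P f' hP hf' => ?_)
    obtain ⟨f, hf, e⟩ := h2.ind hf'
    rw [h1.hom.img_img_inv e1 hP] at hf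
    refine ⟨f, hf, fun x hx => ?_⟩
    have := e _ (mem_img_of_mem _ hx)
    rw [e1 x (hP hx)] at this
    rw [this, e2 _ (hf'.mem (mem_img_of_mem _ hx))]
  open CfsgLib.Fusion in
  have h := key α hα hα'
  open CfsgLib.Fusion in
  have hT := le_of_isSubsystemOf (normalIn_sub hE.1)
  open CfsgLib.Fusion in
  obtain ⟨E', hE'⟩ := h.iso_exists_img_sub E hT
  open CfsgLib.Fusion in
  have hL := h.iso_isLayerOf hS hE hE'
  open CfsgLib.Fusion in
  refine ⟨?_, fun P φ hφ φ' hφ' => ?_⟩
  · open CfsgLib.Fusion in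
    rw [imageAlong_eq_img _ hT]
    open CfsgLib.Fusion in
    exact le_antisymm (le_of_isSubsystemOf (isLayerOf_sub hL hE)) (le_of_isSubsystemOf (isLayerOf_sub hE hL))
  · open CfsgLib.Fusion in
    have hf := mor_of_mem hφ
    open CfsgLib.Fusion in
    have e := ((inducedAlong_iff _ φ φ' (coe_eq_extFun φ) (coe_eq_extFun φ')).1 hφ').2.2.2
    open CfsgLib.Fusion in
    have := (hE'.iso_mor hf e).sub (isLayerOf_sub hL hE)
    open CfsgLib.Fusion in
    rw [mem_hom_iff]
    open CfsgLib.Fusion in
    rw [← imageAlong_eq_img _ (hf.le.trans hT)] at this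
    exact this

end Cfsg.Agent.S5311
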