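import Mathlib
import Cfsg.Statements.S5346
import Cfsg.Agent.Lib.ThreeTrans.ZInst
import Cfsg.Agent.Lib.ThreeTrans.Width

set_option autoImplicit false
open Cfsg

namespace Cfsg.Agent.S5346



/-- Let D be a conjugation-invariant generating set of 3-transpositions of a finite group G and d a member of D. Then D has width 1 (no two different members of D commute) if and only if G is the product of the subgroup generated by d with the largest normal 3-subgroup of G. -/
theorem result {G : Type*} [Group G] [Finite G] {D : Set G} (hD : Cfsg.IsThreeTranspositionGroup D) {d : G} (hd : d ∈ D) : Cfsg.commutingWidth D = 1 ↔ Subgroup.zpowers d ⊔ Cfsg.pCore 3 G = ⊤ := by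
  rw [CfsgLib.ThreeTrans.width_eq_one_iff hd]
  constructor
  · intro h
    have hP := CfsgLib.ThreeTrans.widthOne G D (CfsgLib.ThreeTrans.TT.of_group hD) h
    have hN : (CfsgLib.ThreeTrans.prodClosure D).Normal :=
      ⟨fun x hx g => CfsgLib.ThreeTrans.conj_mem_prodClosure (hD.2.1 g) hx⟩
    have hle : CfsgLib.ThreeTrans.prodClosure D ≤ Cfsg.pCore 3 G := CfsgLib.Core.le_pCore hP
    rw [eq_top_iff, ← hD.2.2, Subgroup.closure_le]
    intro a ha
    have h1 : a = d * (d * a) := (CfsgLib.ThreeTrans.cancel hD.1 hd a).symm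
    rw [h1]
    exact Subgroup.mul_mem_sup (Subgroup.mem_zpowers d) (hle (CfsgLib.ThreeTrans.mul_mem_prodClosure hd ha))
  · intro h
    have key : ∀ a ∈ D, d * a ∈ Cfsg.pCore 3 G := by
      intro a ha
      have h1 : a ∈ ((Subgroup.zpowers d ⊔ Cfsg.pCore 3 G : Subgroup G) : Set G) := by
        rw [h]; trivial
      rw [Subgroup.mul_normal] at h1
      obtain ⟨x, ⟨k, rfl⟩, y, hy, e⟩ := h1
      have hk : d ^ k = 1 ∨ d ^ k = d := by
        have h2 : d ^ (2 : ℤ) = 1 := by rw [zpow_two, CfsgLib.ThreeTrans.sq hD.1 hd]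
        rcases Int.even_or_odd' k with ⟨j, rfl | rfl⟩
        · left; rw [zpow_mul, h2, one_zpow]
        · right; rw [zpow_add, zpow_mul, h2, one_zpow, one_mul, zpow_one]
      have e' : d ^ k * y = a := e
      rcases hk with hk | hk
      · exfalso
        rw [hk, one_mul] at e'
        obtain ⟨m, hm⟩ := CfsgLib.Core.isPGroup_pCore 3 G ⟨y, hy⟩
        have h3 : a ^ 3 ^ m = 1 := by rw [← e']; exact congrArg Subtype.val hm
        have h4 := orderOf_dvd_of_pow_eq_one h3
        rw [hD.1.1 a ha] at h4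
        exact absurd (Nat.prime_two.dvd_of_dvd_pow h4) (by norm_num)
      · rw [← e', hk, CfsgLib.ThreeTrans.cancel hD.1 hd]
        exact hy
    intro a ha b hb hc
    refine CfsgLib.ThreeTrans.eq_of_mul_mem_odd hD.1 ha hb (p := 3) (by norm_num)
      (CfsgLib.Core.isPGroup_pCore _ G) ?_ hc
    have := (Cfsg.pCore 3 G).mul_mem ((Cfsg.pCore 3 G).inv_mem (key a ha)) (key b hb)
    rwa [mul_inv_rev, mul_assoc, inv_mul_cancel_left, CfsgLib.ThreeTrans.inv_eq hD.1 ha] at this

end Cfsg.Agent.S5346
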