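import Mathlib
import Cfsg.Statements.S5347
import Cfsg.Agent.Lib.ThreeTrans.Basic

set_option autoImplicit false
open Cfsg

namespace Cfsg.Agent.S5347

open CfsgLib.ThreeTrans

/-- Let D be a conjugation-invariant generating set of 3-transpositions of a finite group G, p a prime bigger than 3, and P a p-subgroup of G. If a member d of D normalizes P then d centralizes P. -/
theorem result {G : Type*} [Group G] [Finite G] {D : Set G} (hD : Cfsg.IsThreeTranspositionGroup D) {p : ℕ} (hp : p.Prime) (hp3 : 3 < p) (P : Subgroup G) (hP : IsPGroup p P) {d : G} (hd : d ∈ D) (hnorm : d ∈ Subgroup.normalizer (P : Set G)) : ∀ x ∈ P, Commute d x := by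
  intro x hx
  have h1 : d * (x * d * x⁻¹) ∈ P := by
    have h2 : d * x * d⁻¹ ∈ P := (Subgroup.mem_normalizer_iff.1 hnorm x).1 hx
    rw [inv_eq hD.1 hd] at h2
    have := P.mul_mem h2 (P.inv_mem hx)
    simpa [mul_assoc] using this
  have h2 : ¬ 2 ∣ p := fun h => by
    have := (Nat.prime_dvd_prime_iff_eq Nat.prime_two hp).1 h
    omega
  have h3 : ¬ 3 ∣ p := fun h => by
    have := (Nat.prime_dvd_prime_iff_eq Nat.prime_three hp).1 h
    omega
  have h4 := eq_of_mul_mem_large hD.1 hd (hD.2.1 x d hd) h2 h3 hP h1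
  have : d * x = x * d := by
    conv_lhs => rw [h4]
    simp
  exact this

end Cfsg.Agent.S5347
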