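import Mathlib
import Cfsg.Statements.S5349
import Cfsg.Agent.Lib.ThreeTrans.ZInst
import Cfsg.Agent.Lib.ThreeTrans.Width

set_option autoImplicit false
open Cfsg

namespace Cfsg.Agent.S5349



/-- Let D be a conjugacy class of 3-transpositions generating the finite group G, with at least two members, and d a member of D. Then the set of members of D commuting with exactly the same members of D as d coincides with the set of members of D lying in the coset of d modulo the largest normal 2-subgroup of G, and also with the orbit of d under conjugation by that normal 2-subgroup. -/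
theorem result {G : Type*} [Group G] [Finite G] {D : Set G} (hD : Cfsg.IsThreeTranspositionClass D) (hD2 : ∃ a ∈ D, ∃ b ∈ D, a ≠ b) {d : G} (hd : d ∈ D) : {v : G | v ∈ D ∧ ∀ e ∈ D, Commute v e ↔ Commute d e} = {v : G | v ∈ D ∧ d⁻¹ * v ∈ Cfsg.pCore 2 G} ∧ {v : G | v ∈ D ∧ ∀ e ∈ D, Commute v e ↔ Commute d e} = {v : G | ∃ g ∈ Cfsg.pCore 2 G, v = g * d * g⁻¹} := by
  have hG := CfsgLib.ThreeTrans.group_of_class hD
  constructor
  · ext v
    constructor
    · rintro ⟨hv, h⟩
      refine ⟨hv, ?_⟩
      rw [CfsgLib.ThreeTrans.inv_eq hD.1 hd]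
      exact CfsgLib.ThreeTrans.mul_mem_pCore_two_of_veq hG hd hv (CfsgLib.ThreeTrans.Veq.symm h)
    · rintro ⟨hv, h⟩
      rw [CfsgLib.ThreeTrans.inv_eq hD.1 hd] at h
      exact ⟨hv, (CfsgLib.ThreeTrans.veq_of_mul_mem hD.1 (CfsgLib.Core.isPGroup_pCore _ G) hd hv h).symm⟩
  · ext v
    exact CfsgLib.ThreeTrans.veq_iff_orbit hD hD2 hd

end Cfsg.Agent.S5349
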