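import Mathlib
import Cfsg.Statements.S5350
import Cfsg.Agent.Lib.ThreeTrans.ZInst
import Cfsg.Agent.Lib.ThreeTrans.Width

set_option autoImplicit false
open Cfsg

namespace Cfsg.Agent.S5350



/-- Let D be a conjugacy class of 3-transpositions generating the finite group G, with at least two members, and d a member of D. Then the set of members w of D whose commuting partners in D (other than w) are exactly those of d (other than d) coincides with the set of members of D lying in the coset of d modulo the largest normal 3-subgroup of G, and also with the orbit of d under conjugation by that normal 3-subgroup. -/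
theorem result {G : Type*} [Group G] [Finite G] {D : Set G} (hD : Cfsg.IsThreeTranspositionClass D) (hD2 : ∃ a ∈ D, ∃ b ∈ D, a ≠ b) {d : G} (hd : d ∈ D) : {w : G | w ∈ D ∧ {y : G | y ∈ D ∧ y ≠ d ∧ Commute d y} = {y : G | y ∈ D ∧ y ≠ w ∧ Commute w y}} = {w : G | w ∈ D ∧ d⁻¹ * w ∈ Cfsg.pCore 3 G} ∧ {w : G | w ∈ D ∧ {y : G | y ∈ D ∧ y ≠ d ∧ Commute d y} = {y : G | y ∈ D ∧ y ≠ w ∧ Commute w y}} = {w : G | ∃ g ∈ Cfsg.pCore 3 G, w = g * d * g⁻¹} := by
  have hG := CfsgLib.ThreeTrans.group_of_class hD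
  constructor
  · ext v
    constructor
    · rintro ⟨hv, h⟩
      refine ⟨hv, ?_⟩
      rw [CfsgLib.ThreeTrans.inv_eq hD.1 hd]
      exact CfsgLib.ThreeTrans.mul_mem_pCore_three_of_weq hG CfsgLib.ThreeTrans.widthOne hd hv
        (CfsgLib.ThreeTrans.weq_iff.2 h)
    · rintro ⟨hv, h⟩
      rw [CfsgLib.ThreeTrans.inv_eq hD.1 hd] at h
      exact ⟨hv, CfsgLib.ThreeTrans.weq_iff.1
        (CfsgLib.ThreeTrans.weq_of_mul_mem hD.1 (CfsgLib.Core.isPGroup_pCore _ G) hd hv h)⟩
  · ext v
    rw [Set.mem_ofPred_eq, ← CfsgLib.ThreeTrans.weq_iff, Set.mem_ofPred_eq,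
      ← CfsgLib.ThreeTrans.weq_iff_orbit hD CfsgLib.ThreeTrans.widthOne hd]
    exact and_congr_right fun _ => ⟨CfsgLib.ThreeTrans.Weq.symm, CfsgLib.ThreeTrans.Weq.symm⟩

end Cfsg.Agent.S5350
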