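import Mathlib
import Cfsg.Statements.S5351
import Cfsg.Agent.Lib.ThreeTrans.Layer

set_option autoImplicit false
open Cfsg

namespace Cfsg.Agent.S5351



/-- Let D be a conjugacy class of 3-transpositions generating the finite group G, with at least two members. Then for every prime p > 3 the largest normal p-subgroup of G is central, and exactly one of the following holds: the largest normal 2-subgroup of G is not central; the largest normal 3-subgroup of G is not central; the layer of G (the product of its components) is non-trivial. -/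
theorem result {G : Type*} [Group G] [Finite G] {D : Set G} (hD : Cfsg.IsThreeTranspositionClass D) (hD2 : ∃ a ∈ D, ∃ b ∈ D, a ≠ b) : (∀ p : ℕ, p.Prime → 3 < p → Cfsg.pCore p G ≤ Subgroup.center G) ∧ ((¬ Cfsg.pCore 2 G ≤ Subgroup.center G ∧ Cfsg.pCore 3 G ≤ Subgroup.center G ∧ Cfsg.layer G = ⊥) ∨ (Cfsg.pCore 2 G ≤ Subgroup.center G ∧ ¬ Cfsg.pCore 3 G ≤ Subgroup.center G ∧ Cfsg.layer G = ⊥) ∨ (Cfsg.pCore 2 G ≤ Subgroup.center G ∧ Cfsg.pCore 3 G ≤ Subgroup.center G ∧ Cfsg.layer G ≠ ⊥)) := by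
  refine ⟨fun p hp h3 => CfsgLib.ThreeTrans.pCore_le_center_of_large (CfsgLib.ThreeTrans.group_of_class hD) hp h3, ?_⟩
  by_cases h2 : Cfsg.pCore 2 G ≤ Subgroup.center G
  · by_cases h3 : Cfsg.pCore 3 G ≤ Subgroup.center G
    · exact Or.inr (Or.inr ⟨h2, h3, CfsgLib.ThreeTrans.layer_ne_bot hD hD2 h2 h3⟩)
    · exact Or.inr (Or.inl ⟨h2, h3, CfsgLib.ThreeTrans.layer_eq_bot_of_three hD h3⟩)
  · exact Or.inl ⟨h2, (CfsgLib.ThreeTrans.pCore_two_or_three_le_center hD).resolve_left h2,
      CfsgLib.ThreeTrans.layer_eq_bot_of_two hD h2⟩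

end Cfsg.Agent.S5351
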