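import Cfsg.Statements.S5355
import Cfsg.Agent.Lib.ThreeTrans.Small

set_option autoImplicit false
open Cfsg

namespace Cfsg.Agent.S5355

open CfsgLib.ThreeTrans

/-- Let D be a conjugacy class of 3-transpositions generating the finite group G, with at least two members, and d a member of D. Suppose that every member of D commuting with d commutes with exactly the same members of D as d does, and that exactly one member of D other than d commutes with d. Then G is isomorphic to the symmetric group of degree 4. -/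
theorem result {G : Type*} [Group G] [Finite G] {D : Set G} (hD : Cfsg.IsThreeTranspositionClass D) (hD2 : ∃ a ∈ D, ∃ b ∈ D, a ≠ b) {d : G} (hd : d ∈ D) (hV : {y : G | y ∈ D ∧ Commute d y} = {v : G | v ∈ D ∧ ∀ e ∈ D, Commute v e ↔ Commute d e}) (hm : {y : G | y ∈ D ∧ Commute d y}.ncard = 2) : Nonempty (G ≃* Equiv.Perm (Fin 4)) := by
  have hG := group_of_class hD
  have hT := TT.of_group hG
  obtain ⟨s, t, hst, he⟩ := Set.ncard_eq_two.1 hm
  have hU0 : ∀ p ∈ perp D d, ∀ q ∈ perp D d, p = q := by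
    intro p hp q hq
    have h1 : p ∈ ({s, t} : Set G) := he ▸ ⟨hp.1, hp.2.2⟩
    have h2 : q ∈ ({s, t} : Set G) := he ▸ ⟨hq.1, hq.2.2⟩
    have h3 : d ∈ ({s, t} : Set G) := he ▸ ⟨hd, Commute.refl d⟩
    have n1 := hp.2.1
    have n2 := hq.2.1
    rcases h1 with rfl | rfl <;> rcases h2 with rfl | h2 <;> rcases h3 with h3 | h3 <;> simp_all
  have hU : ∀ a ∈ D, ∀ p ∈ perp D a, ∀ q ∈ perp D a, p = q := by
    intro a ha p hp q hq
    obtain ⟨g, rfl⟩ := exists_conj_of_class hD ha hd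
    have k : ∀ p ∈ perp D a, g * p * g⁻¹ ∈ perp D (g * a * g⁻¹) := fun p hp =>
      ⟨hG.2.1 g p hp.1, fun e => hp.2.1 (by simpa using e), (commute_conj_iff g a p).2 hp.2.2⟩
    simpa using hU0 _ (k p hp) _ (k q hq)
  obtain ⟨c, hc⟩ : ∃ c, c ∈ perp D d := by
    have h1 : s ∈ {y : G | y ∈ D ∧ Commute d y} := he ▸ by simp
    have h2 : t ∈ {y : G | y ∈ D ∧ Commute d y} := he ▸ by simp
    by_cases e : s = d
    · exact ⟨t, h2.1, fun e' => hst (e.trans e'.symm), h2.2⟩
    · exact ⟨s, h1.1, e, h1.2⟩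
  have hv : c ∈ {v : G | v ∈ D ∧ ∀ e ∈ D, Commute v e ↔ Commute d e} := hV ▸ ⟨hc.1, hc.2.2⟩
  obtain ⟨b, hb, hbd⟩ := exists_not_commute hD hD2 hd
  obtain ⟨e⟩ := sym4_of_perp hT hU hd hb hc.1 hc.2.1.symm hc.2.2 (fun h => hbd h.symm)
    (fun h => hbd ((hv.2 b hb).1 h.symm).symm)
  exact ⟨Subgroup.topEquiv.symm.trans ((MulEquiv.subgroupCongr hG.2.2.symm).trans e)⟩

end Cfsg.Agent.S5355
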