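import Cfsg.Statements.S5356
import Cfsg.Agent.Lib.ThreeTrans.TwoRad

set_option autoImplicit false
open Cfsg

namespace Cfsg.Agent.S5356

open CfsgLib CfsgLib.ThreeTrans

/-- Let D be a conjugacy class of 3-transpositions generating the finite group G, with at least two members, and d a member of D such that every member of D commuting with d commutes with exactly the same members of D as d. Then there is a Sylow 3-subgroup P of G normalized by d such that G is generated by d, P and the largest normal 2-subgroup of G. -/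
theorem result {G : Type*} [Group G] [Finite G] {D : Set G} (hD : Cfsg.IsThreeTranspositionClass D) (hD2 : ∃ a ∈ D, ∃ b ∈ D, a ≠ b) {d : G} (hd : d ∈ D) (hV : {y : G | y ∈ D ∧ Commute d y} = {v : G | v ∈ D ∧ ∀ e ∈ D, Commute v e ↔ Commute d e}) : ∃ P : Sylow 3 G, d ∈ Subgroup.normalizer (P : Set G) ∧ Subgroup.zpowers d ⊔ (P : Subgroup G) ⊔ Cfsg.pCore 2 G = ⊤ := by
  have hG := group_of_class hD
  have hW : ∀ a ∈ D, ∀ b ∈ D, Commute a b → a * b ∈ pCore 2 G := by
    intro a ha b hb hc
    obtain ⟨g, rfl⟩ := exists_conj_of_class hD hd hb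
    have h1 : g⁻¹ * a * g ∈ {y : G | y ∈ D ∧ Commute d y} :=
      ⟨conj_mem'' hG g a ha, (commute_conj_left_iff' g d a).1 hc.symm⟩
    rw [hV] at h1
    have := (pCore_normal 2 G).conj_mem _ (mul_mem_pCore_two_of_veq hG h1.1 hd h1.2) g
    rwa [show g * (g⁻¹ * a * g * d) * g⁻¹ = a * (g * d * g⁻¹) by group] at this
  obtain ⟨P, h1, h2, -⟩ := exists_complement hD hD2 (Core.isPGroup_pCore 2 G) hW hd
  exact ⟨P, h1, h2⟩

end Cfsg.Agent.S5356
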