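import Cfsg.Statements.S5358
import Cfsg.Agent.Lib.ThreeTrans.Refl3Mat

set_option autoImplicit false
open scoped MatrixGroups
open Cfsg

namespace Cfsg.Agent.S5358

/-- Let Q be a non-degenerate quadratic form on the n-dimensional coordinate space over the field with three elements and u, v vectors of the same non-zero norm Q(u) = Q(v) spanning different lines (v ≠ u and v ≠ −u). Then the reflection matrices of u and v commute if and only if u and v are orthogonal for the polar form of Q. -/
theorem result (n : ℕ) (Q : QuadraticForm (ZMod 3) (Fin n → ZMod 3)) (hQ : (QuadraticMap.polarBilin Q).Nondegenerate) (u v : Fin n → ZMod 3) (hu : Q u ≠ 0) (huv : Q u = Q v) (h1 : v ≠ u) (h2 : v ≠ -u) : Commute (Cfsg.reflectionMatrix (⇑Q) u) (Cfsg.reflectionMatrix (⇑Q) v) ↔ QuadraticMap.polar (⇑Q) u v = 0 := by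
  have h := CfsgLib.ThreeTrans.refl3_commute_iff (Q := Q) hu (huv ▸ hu)
  have k : Commute (Cfsg.reflectionMatrix (⇑Q) u) (Cfsg.reflectionMatrix (⇑Q) v) ↔
      Commute (CfsgLib.Orth.refl Q u) (CfsgLib.Orth.refl Q v) := by
    constructor
    · intro h
      refine CfsgLib.Orth.OG.ext fun z => ?_
      simp only [CfsgLib.Orth.OG.mul_apply, ← CfsgLib.Orth.reflectionMatrix_mulVec,
        Matrix.mulVec_mulVec, h.eq]
    · intro h
      refine CfsgLib.Orth.matrix_eq_of_mulVec fun z => ?_
      simp only [← Matrix.mulVec_mulVec, CfsgLib.Orth.reflectionMatrix_mulVec,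
        ← CfsgLib.Orth.OG.mul_apply, h.eq]
  rw [k, h]
  tauto

end Cfsg.Agent.S5358
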