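import Mathlib
import Cfsg.Statements.S5361
import Cfsg.Agent.Lib.ThreeTrans.Rank3

set_option autoImplicit false
open Cfsg

namespace Cfsg.Agent.S5361

open CfsgLib.ThreeTrans

/-- Let D be a conjugacy class of 3-transpositions generating the finite group G, and suppose the centre of G is trivial and some two different members of D commute. Then the following are equivalent: (1) the commutator subgroup of G is simple (possibly of prime order); (2) G acts primitively on D by conjugation; (3) the largest normal 2-subgroup and the largest normal 3-subgroup of G are trivial and the commuting graph of D is connected. -/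
theorem result {G : Type*} [Group G] [Finite G] {D : Set G} (hD : Cfsg.IsThreeTranspositionClass D) (hZ : Subgroup.center G = ⊥) (hw : ∃ a ∈ D, ∃ b ∈ D, a ≠ b ∧ Commute a b) : (IsSimpleGroup (commutator G) ↔ Cfsg.IsPrimitiveUnderConj D) ∧ (Cfsg.IsPrimitiveUnderConj D ↔ (Cfsg.pCore 2 G = ⊥ ∧ Cfsg.pCore 3 G = ⊥ ∧ (Cfsg.commutingGraph D).Connected)) := by
  have hG := group_of_class hD
  refine ⟨⟨fun h => (prim_of_simple hD hw h).prim, fun h => Prim.simple_commutator ⟨hG, h, hw⟩ hZ⟩,
    fun h => ?_, fun h => ?_⟩
  · have hp : Prim D := ⟨hG, h, hw⟩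
    obtain ⟨a, ha, -⟩ := hw
    exact ⟨le_bot_iff.1 (hZ ▸ hp.two_le_center), le_bot_iff.1 (hZ ▸ hp.three_le_center),
      connected_of_cconn ⟨a, ha⟩ hp.cconn⟩
  · exact (prim_of_cconn hD hw (h.1 ▸ bot_le) (h.2.1 ▸ bot_le) (cconn_of_connected h.2.2)).prim

end Cfsg.Agent.S5361
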