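import Mathlib
import Cfsg.Statements.S5364
import Cfsg.Agent.Lib.ThreeTrans.Basic

set_option autoImplicit false
open Cfsg

namespace Cfsg.Agent.S5364

open CfsgLib.ThreeTrans

/-- Let D be a conjugation-invariant set of involutions of a finite group G and t an involution in the centre of G such that d t does not lie in D for any d in D. If the images of the members of D in G modulo the subgroup generated by t satisfy the 3-transposition order conditions (each has order 2 and any two have product of order at most 3), then so do the members of D. -/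
theorem result {G : Type*} [Group G] [Finite G] {D : Set G} (hinv : ∀ d ∈ D, orderOf d = 2) (hconj : ∀ g : G, ∀ d ∈ D, g * d * g⁻¹ ∈ D) (t : G) (ht : orderOf t = 2) (htZ : t ∈ Subgroup.center G) (hDt : ∀ d ∈ D, d * t ∉ D) [(Subgroup.zpowers t).Normal] (himg : Cfsg.IsThreeTranspositionSet ((QuotientGroup.mk : G → G ⧸ Subgroup.zpowers t) '' D)) : Cfsg.IsThreeTranspositionSet D := by
  classical
  refine ⟨hinv, fun a ha b hb => ?_⟩
  have sq' : ∀ x ∈ D, x * x = 1 := fun x hx => by
    have h := pow_orderOf_eq_one x
    rwa [hinv x hx, pow_two] at h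
  have ht2 : t * t = 1 := by
    have h := pow_orderOf_eq_one t
    rwa [ht, pow_two] at h
  have hmem : ∀ x : G, (QuotientGroup.mk x : G ⧸ Subgroup.zpowers t) = 1 → x = 1 ∨ x = t := by
    intro x hx
    rw [QuotientGroup.eq_one_iff] at hx
    rw [mem_zpowers_iff_mem_range_orderOf, ht] at hx
    simp only [Finset.mem_image, Finset.mem_range] at hx
    obtain ⟨k, hk, rfl⟩ := hx
    interval_cases k <;> simp
  have ha2 := sq' a ha
  have hb2 := sq' b hb
  have hai : a⁻¹ = a := inv_eq_of_mul_eq_one_right ha2
  have hbi : b⁻¹ = b := inv_eq_of_mul_eq_one_right hb2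
  rcases himg.2 _ ⟨a, ha, rfl⟩ _ ⟨b, hb, rfl⟩ with h | h
  · rw [← QuotientGroup.mk_mul, ← QuotientGroup.mk_pow] at h
    rcases hmem _ h with h | h
    · exact Or.inl h
    · exfalso
      apply hDt b hb
      have h1 := hconj a b hb
      have : a * b * a⁻¹ = b * t := by
        rw [hai, ← Subgroup.mem_center_iff.1 htZ b |>.symm, ← h, pow_two]
        simp only [mul_assoc, hb2, mul_one]
      rwa [this] at h1
  · rw [← QuotientGroup.mk_mul, ← QuotientGroup.mk_pow] at h
    rcases hmem _ h with h | h
    · exact Or.inr h
    · exfalso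
      apply hDt (b * a * b⁻¹) (hconj b a ha)
      have h1 := hconj a b hb
      have : a * b * a⁻¹ = b * a * b⁻¹ * t := by
        rw [hai, hbi, ← Subgroup.mem_center_iff.1 htZ (b * a * b) |>.symm, ← h]
        have : ∀ x, b * (b * x) = x := fun x => by rw [← mul_assoc, hb2, one_mul]
        have this' : ∀ x, a * (a * x) = x := fun x => by rw [← mul_assoc, ha2, one_mul]
        simp only [pow_succ, pow_zero, one_mul, mul_assoc, this, this', hb2, mul_one]
      rwa [this] at h1

end Cfsg.Agent.S5364
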