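import Cfsg.Statements.S5368
import Cfsg.Agent.Lib.FTHM.Gen
import Cfsg.Agent.Lib.FTHM.IdentF

set_option autoImplicit false
open scoped MatrixGroups
open Cfsg

namespace Cfsg.Agent.S5368

open CfsgLib.ThreeTrans CfsgLib.FTHM

/-- Fischer's Theorem on 3-transposition groups. Let D be a conjugacy class of 3-transpositions generating the finite group G, and suppose the centre of G is trivial and the commutator subgroup of G is simple (possibly of prime order). Then one of the following holds: (1) G is isomorphic to a symmetric group with D going to the transpositions; (2) G is isomorphic to a symplectic group over the field with two elements with D going to the transvections (elements g with g − 1 of rank one); (3) G is isomorphic to a projective special unitary group over the field with four elements with D going to the images of the unitary transvections; (4) G is isomorphic to the full isometry group of a hyperbolic or elliptic quadratic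 form over the field with two elements with D going to the orthogonal transvections; (5) G is isomorphic to the subgroup of the isometry group of a non-degenerate quadratic form over the field with three elements generated by the reflections in vectors of a fixed non-zero norm, taken modulo its centre, with D going to the images of those reflections; (6) G with D is of type M(22), M(23) or M(24). -/
theorem result {G : Type*} [Group G] [Finite G] {D : Set G} (hD : Cfsg.IsThreeTranspositionClass D) (hZ : Subgroup.center G = ⊥) (hsimple : IsSimpleGroup (commutator G)) : (∃ n : ℕ, ∃ e : G ≃* Equiv.Perm (Fin n), e '' D = {σ : Equiv.Perm (Fin n) | σ.IsSwap}) ∨ (∃ m : ℕ, ∃ e : G ≃* Matrix.symplecticGroup (Fin m) (ZMod 2), e '' D = {g : Matrix.symplecticGroup (Fin m) (ZMod 2) | ((g : Matrix (Fin m ⊕ Fin m) (Fin m ⊕ Fin m) (ZMod 2)) - 1).rank = 1}) ∨ (∃ (n : ℕ) (F : Type) (_ : Field F) (_ : Fintype F), Fintype.card F = 4 ∧ ∃ e : G ≃* Cfsg.PSU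 n F 2, e '' D = (QuotientGroup.mk : ↥(Cfsg.SU n F 2) → Cfsg.PSU n F 2) '' {g : ↥(Cfsg.SU n F 2) | (((g : Matrix.SpecialLinearGroup (Fin n) F) : Matrix (Fin n) (Fin n) F) - 1).rank = 1}) ∨ ((∃ m : ℕ, ∃ e : G ≃* ↥(Cfsg.isometryGroup (ZMod 2) (Cfsg.quadFormPlus m (ZMod 2))), e '' D = {g : ↥(Cfsg.isometryGroup (ZMod 2) (Cfsg.quadFormPlus m (ZMod 2))) | (((g : GL (Fin m ⊕ Fin m) (ZMod 2)) : Matrix (Fin m ⊕ Fin m) (Fin m ⊕ Fin m) (ZMod 2)) - 1).rank = 1}) ∨ (∃ m : ℕ, ∃ e : G ≃* ↥(Cfsg.isometryGroup (ZMod 2) (Cfsg.quadFormMinus m (ZMod 2) 1 1)), e '' D = {g : ↥(Cfsg.isometryGroup (ZMod 2) (Cfsg.quadFormMinus m (ZMod 2) 1 1)) | (((g : GL ((Fin m ⊕ Fin m) ⊕ Fin 2) (ZMod 2)) : Matrix ((Fin m ⊕ Fin m) ⊕ Fin 2) ((Fin m ⊕ Fin m) ⊕ Fin 2) (ZMod 2)) - 1).rank = 1})) ∨ (∃ n : ℕ, ∃ Q : QuadraticForm (ZMod 3) (Fin n → ZMod 3), (QuadraticMap.polarBilin Q).Nondegenerate ∧ ∃ c : ZMod 3, c ≠ 0 ∧ ∃ e : G ≃* ↥(Cfsg.reflectionSubgroup (⇑Q) c) ⧸ Subgroup.center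 ↥(Cfsg.reflectionSubgroup (⇑Q) c), e '' D = (QuotientGroup.mk : ↥(Cfsg.reflectionSubgroup (⇑Q) c) → _) '' {g : ↥(Cfsg.reflectionSubgroup (⇑Q) c) | (g : ↥(Cfsg.isometryGroup (ZMod 3) (⇑Q))) ∈ Cfsg.reflectionsOfNorm (⇑Q) c}) ∨ (Cfsg.IsOfTypeM22 G D ∨ Cfsg.IsOfTypeM23 G D ∨ Cfsg.IsOfTypeM24 G D) := by
  have ht : Subgroup.closure D = ⊤ := hD.2.2
  by_cases hw : ∃ a ∈ D, ∃ b ∈ D, a ≠ b ∧ Commute a b
  swap
  · refine Or.inl ⟨3, (symT_three hD hZ hsimple fun a ha b hb hc => ?_).ident ht⟩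
    by_contra hne
    exact hw ⟨a, ha, b, hb, hne, hc⟩
  have hK := kprim_of_prim (prim_of_simple hD hw hsimple)
  rcases cls' hK with T | (⟨n, hn, T⟩ | ⟨n, hn, T⟩) | ⟨n, hn, T⟩ | ⟨n, hn, T⟩ | ⟨n, hn, T⟩ | ⟨n, hn, T⟩ | T | T | T
  · exact Or.inl ⟨5, T.ident ht⟩
  · exact Or.inr (Or.inl ⟨n, T.ident (by omega) hK.tt ht hZ⟩)
  · exact Or.inr (Or.inr (Or.inl ⟨n, _, inferInstance, inferInstance, CfsgLib.Classical.card_GF4,
      T.ident hn hK.tt ht hZ⟩))
  · exact Or.inl ⟨n, T.ident ht⟩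
  · exact Or.inr (Or.inr (Or.inr (Or.inl (Or.inl ⟨n, T.ident hn hK.tt ht hZ⟩))))
  · exact Or.inr (Or.inr (Or.inr (Or.inl (Or.inr ⟨n, T.ident hn hK.tt ht hZ⟩))))
  · exact Or.inr (Or.inr (Or.inr (Or.inr (Or.inl ⟨n, T.ident hn ht hZ⟩))))
  · exact Or.inr (Or.inr (Or.inr (Or.inr (Or.inr (Or.inl (T.type22 ht hZ))))))
  · exact Or.inr (Or.inr (Or.inr (Or.inr (Or.inr (Or.inr (Or.inl (T.type23 ht hZ)))))))
  · exact Or.inr (Or.inr (Or.inr (Or.inr (Or.inr (Or.inr (Or.inr (T.type24 ht hZ)))))))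

end Cfsg.Agent.S5368
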