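import Cfsg.Statements.S5369
import Cfsg.Agent.Lib.FTHM.Gen
import Cfsg.Agent.Lib.FTHM.IdentF

set_option autoImplicit false
open scoped MatrixGroups
open Cfsg

namespace Cfsg.Agent.S5369

open CfsgLib.ThreeTrans CfsgLib.FTHM

/-- Let D be a conjugation-invariant generating set of 3-transpositions of the finite group G on which G acts primitively by conjugation, with trivial centre; let d be a member of D commuting with some other member of D (width at least 2), and let H be the subgroup generated by the members of D other than d commuting with d; suppose the largest normal 3-subgroup and the largest normal 2-subgroup of H are central in H. Then one of the following holds: G is isomorphic to a symmetric group of degree at least 7 with D going to the transpositions; G is isomorphic to the full isometry group of a hyperbolic or elliptic quadratic form in dimension at least 6 over the field with two elements with D going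 to the orthogonal transvections; G is isomorphic to the reflection group of a non-degenerate quadratic form in dimension at least 5 over the field with three elements for one non-zero norm, modulo its centre, with D going to the images of those reflections; or G with D is of type M(22), M(23) or M(24). -/
theorem result {G : Type*} [Group G] [Finite G] {D : Set G} (hD : Cfsg.IsThreeTranspositionGroup D) (hprim : Cfsg.IsPrimitiveUnderConj D) (hZ : Subgroup.center G = ⊥) (d : G) (hd : d ∈ D) (hw : ∃ b ∈ D, b ≠ d ∧ Commute d b) (h3 : Cfsg.pCore 3 ↥(Subgroup.closure {y : G | y ∈ D ∧ y ≠ d ∧ Commute d y}) ≤ Subgroup.center ↥(Subgroup.closure {y : G | y ∈ D ∧ y ≠ d ∧ Commute d y})) (h2 : Cfsg.pCore 2 ↥(Subgroup.closure {y : G | y ∈ D ∧ y ≠ d ∧ Commute d y}) ≤ Subgroup.center ↥(Subgroup.closure {y : G | y ∈ D ∧ y ≠ d ∧ Commute d y})) : (∃ n : ℕ, 7 ≤ n ∧ ∃ e : G ≃* Equiv.Perm (Fin n), e '' D = {σ : Equiv.Perm (Fin n) | σ.IsSwap})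 ∨ ((∃ m : ℕ, 3 ≤ m ∧ ∃ e : G ≃* ↥(Cfsg.isometryGroup (ZMod 2) (Cfsg.quadFormPlus m (ZMod 2))), e '' D = {g : ↥(Cfsg.isometryGroup (ZMod 2) (Cfsg.quadFormPlus m (ZMod 2))) | (((g : GL (Fin m ⊕ Fin m) (ZMod 2)) : Matrix (Fin m ⊕ Fin m) (Fin m ⊕ Fin m) (ZMod 2)) - 1).rank = 1}) ∨ (∃ m : ℕ, 2 ≤ m ∧ ∃ e : G ≃* ↥(Cfsg.isometryGroup (ZMod 2) (Cfsg.quadFormMinus m (ZMod 2) 1 1)), e '' D = {g : ↥(Cfsg.isometryGroup (ZMod 2) (Cfsg.quadFormMinus m (ZMod 2) 1 1)) | (((g : GL ((Fin m ⊕ Fin m) ⊕ Fin 2) (ZMod 2)) : Matrix ((Fin m ⊕ Fin m) ⊕ Fin 2) ((Fin m ⊕ Fin m) ⊕ Fin 2) (ZMod 2)) - 1).rank = 1})) ∨ (∃ n : ℕ, 5 ≤ n ∧ ∃ Q : QuadraticForm (ZMod 3) (Fin n → ZMod 3), (QuadraticMap.polarBilin Q).Nondegenerate ∧ ∃ c : ZMod 3, c ≠ 0 ∧ ∃ e : G ≃* ↥(Cfsg.reflectionSubgroup (⇑Q) c) ⧸ Subgroup.center ↥(Cfsg.reflectionSubgroup (⇑Q) c), e '' D = (QuotientGroup.mk : ↥(Cfsg.reflectionSubgroup (⇑Q) c) → _) '' {g : ↥(Cfsg.reflectionSubgroup (⇑Q)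 c) | (g : ↥(Cfsg.isometryGroup (ZMod 3) (⇑Q))) ∈ Cfsg.reflectionsOfNorm (⇑Q) c}) ∨ (Cfsg.IsOfTypeM22 G D ∨ Cfsg.IsOfTypeM23 G D ∨ Cfsg.IsOfTypeM24 G D) := by
  obtain ⟨b, hb, hne, hc⟩ := hw
  have hK := kprim_of_prim (⟨hD, hprim, d, hd, b, hb, hne.symm, hc⟩ : Prim D)
  have ht : Subgroup.closure D = ⊤ := hD.2.2
  rcases gen' hK (fun h => (hK.locV_iff hd).1 h h2) (hK.not_locW hd h3) with
    ⟨n, hn, T⟩ | ⟨n, hn, T⟩ | ⟨n, hn, T⟩ | ⟨n, hn, T⟩ | T | T | T
  · exact Or.inl ⟨n, hn, T.ident ht⟩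
  · exact Or.inr (Or.inl (Or.inl ⟨n, hn, T.ident hn hK.tt ht hZ⟩))
  · exact Or.inr (Or.inl (Or.inr ⟨n, hn, T.ident hn hK.tt ht hZ⟩))
  · exact Or.inr (Or.inr (Or.inl ⟨n, hn, T.ident hn ht hZ⟩))
  · exact Or.inr (Or.inr (Or.inr (Or.inl (T.type22 ht hZ))))
  · exact Or.inr (Or.inr (Or.inr (Or.inr (Or.inl (T.type23 ht hZ)))))
  · exact Or.inr (Or.inr (Or.inr (Or.inr (Or.inr (T.type24 ht hZ)))))

end Cfsg.Agent.S5369
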