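import Cfsg.Statements.S5374
import Cfsg.Agent.Lib.FiTool.MType

set_option autoImplicit false
open Cfsg

namespace Cfsg.Agent.S5374

/-- Let G be a finite group with trivial centre generated by a conjugation-invariant set D of 3-transpositions on which it acts primitively, of type M(23), and suppose some finite primitive 3-transposition group of type M(24) exists. Then G is simple, D has exactly 31671 members, G has order 2^18 · 3^13 · 5^2 · 7 · 11 · 13 · 17 · 23, the width of D is 23, and for every d in D the subgroup H generated by the members of D other than d commuting with d is the centralizer of d and is quasisimple with centre generated by d. -/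
theorem result {G : Type*} [Group G] [Finite G] {D : Set G} (hD : Cfsg.IsThreeTranspositionGroup D) (hprim : Cfsg.IsPrimitiveUnderConj D) (ht : Cfsg.IsOfTypeM23 G D) (hex : ∃ (X : Type) (_ : Group X) (_ : Finite X) (E : Set X), Cfsg.IsThreeTranspositionClass E ∧ Cfsg.IsPrimitiveUnderConj E ∧ Cfsg.IsOfTypeM24 X E) : IsSimpleGroup G ∧ D.ncard = 31671 ∧ Nat.card G = 2 ^ 18 * 3 ^ 13 * 5 ^ 2 * 7 * 11 * 13 * 17 * 23 ∧ Cfsg.commutingWidth D = 23 ∧ ∀ d ∈ D, Subgroup.closure {y : G | y ∈ D ∧ y ≠ d ∧ Commute d y} = Subgroup.centralizer ({d} : Set G) ∧ Cfsg.IsQuasisimple ↥(Subgroup.closure {y : G | y ∈ D ∧ y ≠ d ∧ Commute d y}) ∧ Subgroup.center ↥(Subgroup.closure {y : G | y ∈ D ∧ y ≠ d ∧ Commute d y}) = (Subgroup.zpowers d).subgroupOf (Subgroup.closure {y : G | y ∈ D ∧ y ≠ d ∧ Commute d y}) := by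
  obtain ⟨g, pt, M⟩ := CfsgLib.FiTool.m23_of_type hD hprim ht
  exact ⟨M.simple, M.fm.tm.ncard_eq, by rw [M.card]; norm_num, M.bm.width, fun d hd =>
    ⟨(M.cent d hd).symm, M.quasisimple hd, (M.zp d hd).center_eq⟩⟩

end Cfsg.Agent.S5374
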