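import Cfsg.Statements.S5377
import Cfsg.Agent.Lib.M22T.I22
import Cfsg.Agent.Lib.FiType.TypeG

set_option autoImplicit false
open Cfsg

namespace Cfsg.Agent.S5377

/-- Let G be a finite group with an involution d whose centralizer C is quasisimple with C modulo the subgroup generated by d isomorphic to the projective special unitary group of dimension 6 over the field with four elements, and suppose some conjugate of d other than d commutes with d. Then the conjugacy class of d is a class of 3-transpositions generating G, and G with this class is of type M(22). -/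
theorem result {G : Type*} [Group G] [Finite G] (d : G) (hd : orderOf d = 2) (hq : Cfsg.IsQuasisimple (Subgroup.centralizer ({d} : Set G))) [((Subgroup.zpowers d).subgroupOf (Subgroup.centralizer ({d} : Set G))).Normal] (K : Type) [Field K] [Fintype K] (hK : Fintype.card K = 4) (e : (Subgroup.centralizer ({d} : Set G)) ⧸ (Subgroup.zpowers d).subgroupOf (Subgroup.centralizer ({d} : Set G)) ≃* Cfsg.PSU 6 K 2) (hnwc : ∃ g : G, g * d * g⁻¹ ∈ Subgroup.centralizer ({d} : Set G) ∧ g * d * g⁻¹ ≠ d) : Cfsg.IsThreeTranspositionClass (conjugatesOf d) ∧ Cfsg.IsOfTypeM22 G (conjugatesOf d) := by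
  obtain ⟨L, R⟩ := CfsgLib.M22T.cor22 hK hd e
  obtain ⟨f, hf⟩ := CfsgLib.M22T.main22 R hq.1 hnwc
  have h : f.symm '' conjugatesOf (CfsgLib.Fischer.g22 0) = conjugatesOf d := by rw [← hf, Set.image_image]; simp
  have M := CfsgLib.Fischer.model22.map f.symm
  rw [h] at M
  exact ⟨M.cls, CfsgLib.FiType.typeM22_of_model M fun m hm => by rw [CfsgLib.Fischer.pt22_gen' m hm]⟩

end Cfsg.Agent.S5377
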