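import Cfsg.Statements.S5378
import Cfsg.Agent.Lib.Co1Rec.Close

set_option autoImplicit false
open Cfsg

namespace Cfsg.Agent.S5378

open CfsgLib.Co1Rec

/-- Let G be a finite group of Conway type: it has an involution z whose centralizer C has generalized Fitting subgroup Q extraspecial of order 2^9 with C/Q isomorphic to the commutator subgroup of the isometry group of the hyperbolic quadratic form in dimension 8 over the field with two elements, and some conjugate of z other than z lies in Q. Then G has exactly three conjugacy classes of involutions. -/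
theorem result {G : Type*} [Group G] [Finite G] (z : G) (hz : orderOf z = 2) (Q : Subgroup (Subgroup.centralizer ({z} : Set G))) [Q.Normal] (hF : Cfsg.generalizedFittingSubgroup (Subgroup.centralizer ({z} : Set G)) = Q) (hQ : Cfsg.IsExtraspecial 2 Q) (hcard : Nat.card Q = 2 ^ 9) (e : (Subgroup.centralizer ({z} : Set G)) ⧸ Q ≃* Cfsg.Omega (ZMod 2) (Cfsg.quadFormPlus 4 (ZMod 2))) (hnwc : ∃ g : G, (∃ hq : g * z * g⁻¹ ∈ Subgroup.centralizer ({z} : Set G), (⟨g * z * g⁻¹, hq⟩ : Subgroup.centralizer ({z} : Set G)) ∈ Q) ∧ g * z * g⁻¹ ≠ z) : ∃ a b c : G, orderOf a = 2 ∧ orderOf b = 2 ∧ orderOf c = 2 ∧ ¬ IsConj a b ∧ ¬ IsConj a c ∧ ¬ IsConj b c ∧ ∀ x : G, orderOf x = 2 → IsConj x a ∨ IsConj x b ∨ IsConj x c := by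
  obtain ⟨ψ, -⟩ := exists_iso hz Q hF hQ hcard e hnwc
  have k : ∀ {a b}, ¬IsConj a b → ¬IsConj (ψ a) (ψ b) := fun h e =>
    h (by simpa using ψ.symm.toMonoidHom.map_isConj e)
  have o : ∀ {a}, a ≠ 1 → a * a = 1 → orderOf (ψ a) = 2 := fun h1 h2 =>
    (ψ.orderOf_eq _).trans (CfsgLib.Invol.orderOf_eq_two h1 h2)
  refine ⟨ψ zz, ψ cc, ψ uu, o es_QQ.ne_one es_QQ.mul_self, o cc_ne (AA_sq cc_AA), o uu_ne uu_sq,
    k not_zz_cc, k not_zz_uu, k not_cc_uu, fun x hx => ?_⟩
  obtain ⟨x, rfl⟩ := ψ.surjective x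
  rw [ψ.orderOf_eq, CfsgLib.Invol.orderOf_eq_two_iff] at hx
  exact (inv3 hx.2 hx.1).imp (fun h => ψ.toMonoidHom.map_isConj h.symm)
    (·.imp (fun h => ψ.toMonoidHom.map_isConj h.symm) fun h => ψ.toMonoidHom.map_isConj h.symm)

end Cfsg.Agent.S5378
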