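import Mathlib
import Cfsg.Statements.S5379
import Cfsg.Agent.Lib.SuzRec.Final

set_option autoImplicit false
open Cfsg

namespace Cfsg.Agent.S5379

/-- Let G be a finite group of Suzuki sporadic type: it has an involution z whose centralizer C has generalized Fitting subgroup Q extraspecial of order 2^7 with C/Q isomorphic to the commutator subgroup of the isometry group of the elliptic quadratic form in dimension 6 over the field with two elements, and some conjugate of z other than z lies in Q. Then G has exactly two conjugacy classes of involutions. -/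
theorem result {G : Type*} [Group G] [Finite G] (z : G) (hz : orderOf z = 2) (Q : Subgroup (Subgroup.centralizer ({z} : Set G))) [Q.Normal] (hF : Cfsg.generalizedFittingSubgroup (Subgroup.centralizer ({z} : Set G)) = Q) (hQ : Cfsg.IsExtraspecial 2 Q) (hcard : Nat.card Q = 2 ^ 7) (e : (Subgroup.centralizer ({z} : Set G)) ⧸ Q ≃* Cfsg.Omega (ZMod 2) (Cfsg.quadFormMinus 2 (ZMod 2) 1 1)) (hnwc : ∃ g : G, (∃ hq : g * z * g⁻¹ ∈ Subgroup.centralizer ({z} : Set G), (⟨g * z * g⁻¹, hq⟩ : Subgroup.centralizer ({z} : Set G)) ∈ Q) ∧ g * z * g⁻¹ ≠ z) : ∃ a b : G, orderOf a = 2 ∧ orderOf b = 2 ∧ ¬ IsConj a b ∧ ∀ x : G, orderOf x = 2 → IsConj x a ∨ IsConj x b := by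
  obtain ⟨Φ, P, s, -, rfl⟩ := CfsgLib.SuzRec.exists_equiv hz Q hF hQ hcard e hnwc
  have : Fact (Nat.Prime 2) := ⟨Nat.prime_two⟩
  refine ⟨_, _, hz, orderOf_eq_prime ?_ ?_, s.not_conj (Φ := Φ.toMonoidHom) Φ.injective,
    fun w hw => ?_⟩
  · simpa [CfsgLib.CosetEnum.ev, CfsgLib.CosetEnum.evL, pow_two] using
      s.tm.id (w := [8, 8]) (by decide +kernel)
  · simpa [CfsgLib.CosetEnum.ev, CfsgLib.CosetEnum.evL] using s.tm.ne (w := [8]) (by decide +kernel)
  · rcases s.classes (Φ := Φ.toMonoidHom) Φ.injective (Φ.surjective w)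
      (by rw [← pow_two, ← hw, pow_orderOf_eq_one]) with rfl | ⟨h, -, h1⟩
    · simp at hw
    · exact h1.imp (fun e => (isConj_iff.2 ⟨h, e⟩).symm) fun e => (isConj_iff.2 ⟨h, e⟩).symm

end Cfsg.Agent.S5379
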