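import Mathlib
import Cfsg.Statements.S5383
import Cfsg.Agent.Lib.SuzRec.Seven

set_option autoImplicit false
open Cfsg

namespace Cfsg.Agent.S5383

/-- Let G be a finite group of Suzuki sporadic type (involution z with generalized Fitting subgroup Q of its centralizer C extraspecial of order 2^7, C/Q the commutator subgroup of the isometry group of the elliptic quadratic form in dimension 6 over the field with two elements, z not weakly closed in Q). Then for every Sylow 7-subgroup B of G, the centralizer of B is isomorphic to the direct product of a cyclic group of order 7 and the alternating group of degree 4, and the normalizer of B has order 504. -/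
theorem result {G : Type*} [Group G] [Finite G] (z : G) (hz : orderOf z = 2) (Q : Subgroup (Subgroup.centralizer ({z} : Set G))) [Q.Normal] (hF : Cfsg.generalizedFittingSubgroup (Subgroup.centralizer ({z} : Set G)) = Q) (hQ : Cfsg.IsExtraspecial 2 Q) (hcard : Nat.card Q = 2 ^ 7) (e : (Subgroup.centralizer ({z} : Set G)) ⧸ Q ≃* Cfsg.Omega (ZMod 2) (Cfsg.quadFormMinus 2 (ZMod 2) 1 1)) (hnwc : ∃ g : G, (∃ hq : g * z * g⁻¹ ∈ Subgroup.centralizer ({z} : Set G), (⟨g * z * g⁻¹, hq⟩ : Subgroup.centralizer ({z} : Set G)) ∈ Q) ∧ g * z * g⁻¹ ≠ z) (B : Sylow 7 G) : Nonempty (↥(Subgroup.centralizer ((B : Subgroup G) : Set G)) ≃* Multiplicative (ZMod 7) × alternatingGroup (Fin 4)) ∧ Nat.card ↥(Subgroup.normalizer ((B : Subgroup G) : Set G)) = 504 := by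
  have : Fact (Nat.Prime 7) := ⟨by norm_num⟩
  obtain ⟨Φ, -⟩ := CfsgLib.SuzRec.exists_equiv hz Q hF hQ hcard e hnwc
  have m := CfsgLib.SuzRec.sm.map Φ
  obtain ⟨X, φ, m', h⟩ := m.syl B (n := 1) (ws := [CfsgLib.SuzRec.x7])
    (by rw [CfsgLib.SuzRec.gen_one]; exact m.card7) (by norm_num)
  exact m'.seven B h

end Cfsg.Agent.S5383
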