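import Mathlib
import Cfsg.Statements.S5384
import Cfsg.Agent.Lib.SuzRec.Five

set_option autoImplicit false
open Cfsg

namespace Cfsg.Agent.S5384

/-- Let G be a finite group of Suzuki sporadic type (involution z with generalized Fitting subgroup Q of its centralizer C extraspecial of order 2^7, C/Q the commutator subgroup of the isometry group of the elliptic quadratic form in dimension 6 over the field with two elements, z not weakly closed in Q). Then G has exactly two conjugacy classes of subgroups of order 5, and the normalizer of a Sylow 5-subgroup P of G has order 600, with P of order 25 and N(P)/P isomorphic to the direct product of a cyclic group of order 4 and the symmetric group of degree 3. -/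
theorem result {G : Type*} [Group G] [Finite G] (z : G) (hz : orderOf z = 2) (Q : Subgroup (Subgroup.centralizer ({z} : Set G))) [Q.Normal] (hF : Cfsg.generalizedFittingSubgroup (Subgroup.centralizer ({z} : Set G)) = Q) (hQ : Cfsg.IsExtraspecial 2 Q) (hcard : Nat.card Q = 2 ^ 7) (e : (Subgroup.centralizer ({z} : Set G)) ⧸ Q ≃* Cfsg.Omega (ZMod 2) (Cfsg.quadFormMinus 2 (ZMod 2) 1 1)) (hnwc : ∃ g : G, (∃ hq : g * z * g⁻¹ ∈ Subgroup.centralizer ({z} : Set G), (⟨g * z * g⁻¹, hq⟩ : Subgroup.centralizer ({z} : Set G)) ∈ Q) ∧ g * z * g⁻¹ ≠ z) (P : Sylow 5 G) : (∃ A B : Subgroup G, Nat.card A = 5 ∧ Nat.card B = 5 ∧ (∀ g : G, A.map (MulAut.conj g).toMonoidHom ≠ B) ∧ ∀ C : Subgroup G, Nat.card C = 5 → ∃ g : G, C.map (MulAut.conj g).toMonoidHom = A ∨ C.map (MulAut.conj g).toMonoidHom = B) ∧ Nat.card (P : Subgroup G) = 25 ∧ Nat.card ↥(Subgroup.normalizer ((P : Subgroup G) : Set G)) = 600 ∧ Nonempty (↥(Subgroup.normalizer ((P : Subgroup G) : Set G)) ⧸ (P : Subgroup G).subgroupOf (Subgroup.normalizer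 ((P : Subgroup G) : Set G)) ≃* Multiplicative (ZMod 4) × Equiv.Perm (Fin 3)) := by
  have : Fact (Nat.Prime 5) := ⟨by norm_num⟩
  obtain ⟨Φ, -⟩ := CfsgLib.SuzRec.exists_equiv hz Q hF hQ hcard e hnwc
  have m := CfsgLib.SuzRec.sm.map Φ
  obtain ⟨X, φ, m', h⟩ := m.syl P (n := 2) m.spec5.2.2 (by norm_num)
  exact ⟨m.classes5, h ▸ m'.spec5.2.2, m'.five P h⟩

end Cfsg.Agent.S5384
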