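import Cfsg.Statements.S5387
import Cfsg.Agent.Lib.Schur.QuotUniq
import Cfsg.Agent.Lib.CpTp.Basic
import Cfsg.Agent.S2088

set_option autoImplicit false
open Cfsg

namespace Cfsg.Agent.S5387

/-- Up to isomorphism there is at most one quasisimple group whose centre is elementary abelian of order 4 and whose central quotient is isomorphic to the projective special linear group of dimension 3 over the field with four elements: any two such groups are isomorphic. -/
theorem result {L₁ L₂ : Type*} [Group L₁] [Finite L₁] [Group L₂] [Finite L₂] (F : Type) [Field F] [Fintype F] (hF : Fintype.card F = 4) (h₁ : Cfsg.IsQuasisimple L₁) (h₂ : Cfsg.IsQuasisimple L₂) (hc₁ : Nat.card (Subgroup.center L₁) = 4) (hc₂ : Nat.card (Subgroup.center L₂) = 4) (he₁ : ∀ x ∈ Subgroup.center L₁, x * x = 1) (he₂ : ∀ x ∈ Subgroup.center L₂, x * x = 1) (e₁ : L₁ ⧸ Subgroup.center L₁ ≃* Matrix.ProjectiveSpecialLinearGroup (Fin 3) F) (e₂ : L₂ ⧸ Subgroup.center L₂ ≃* Matrix.ProjectiveSpecialLinearGroup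 (Fin 3) F) : Nonempty (L₁ ≃* L₂) := by
  have hA := Cfsg.Agent.S2088.result hF
  obtain ⟨s₁, k₁⟩ := CfsgLib.CpTp.stem_of_equiv h₁.1 e₁
  obtain ⟨s₂, k₂⟩ := CfsgLib.CpTp.stem_of_equiv h₂.1 e₂
  have := h₁.1
  have : Group.IsPerfect (Matrix.ProjectiveSpecialLinearGroup (Fin 3) F) :=
    Group.IsPerfect.ofSurjective s₁.1
  have hr : Nat.card (powMonoidHom 2 : Multiplicative (ZMod 3 × ZMod 4 × ZMod 4) →* _).range = 12 := by
    rw [Nat.card_eq_fintype_card, Fintype.card_of_subtype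
      (Finset.univ.image fun a : Multiplicative (ZMod 3 × ZMod 4 × ZMod 4) => a ^ 2) (by simp)]
    decide +kernel
  have hc : Nat.card (Multiplicative (ZMod 3 × ZMod 4 × ZMod 4)) = 48 := by simp
  refine CfsgLib.Schur.nonempty_equiv_of_ker_unique hA s₁ s₂ fun f₁ f₂ hf₁ hf₂ => ?_
  rw [CfsgLib.Schur.ker_eq_pow_range 2 f₁ hf₁ (fun b => Subtype.ext (by
      rw [pow_two]; exact he₁ b (k₁.le b.2))) (by rw [hr, hc, k₁, hc₁]),
    CfsgLib.Schur.ker_eq_pow_range 2 f₂ hf₂ (fun b => Subtype.ext (by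
      rw [pow_two]; exact he₂ b (k₂.le b.2))) (by rw [hr, hc, k₂, hc₂])]

end Cfsg.Agent.S5387
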