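import Cfsg.Statements.S5396
import Cfsg.Agent.Lib.ExtraTwo.Classify

set_option autoImplicit false
open Cfsg

namespace Cfsg.Agent.S5396

/-- For every n ≥ 1 there exist finite extraspecial 2-groups of order 2^(2n+1) whose 2-rank (the largest rank of an elementary abelian subgroup) is n, and ones whose 2-rank is n + 1 (so for each such order there are two non-isomorphic extraspecial 2-groups, told apart by their 2-rank). -/
theorem result (n : ℕ) (hn : 1 ≤ n) : ∀ r ∈ ({n, n + 1} : Set ℕ), ∃ (E : Type) (_ : Group E) (_ : Finite E), Cfsg.IsExtraspecial 2 E ∧ Nat.card E = 2 ^ (2 * n + 1) ∧ sSup {k : ℕ | ∃ A : Subgroup E, Cfsg.IsElementaryAbelian 2 A ∧ Nat.card A = 2 ^ k} = r := by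
  obtain ⟨k, rfl⟩ : ∃ k, n = k + 1 := ⟨n - 1, by omega⟩
  have key : ∀ {E : Type} [Group E] {r : ℕ},
      (∃ A ≤ (⊤ : Subgroup E), Cfsg.IsElementaryAbelian 2 A ∧ Nat.card A = 2 ^ r) →
      (∀ A ≤ (⊤ : Subgroup E), (∀ a ∈ A, a ^ 2 = 1) → Nat.card A ≤ 2 ^ r) →
      sSup {k : ℕ | ∃ A : Subgroup E, Cfsg.IsElementaryAbelian 2 A ∧ Nat.card A = 2 ^ k} = r := by
    rintro E _ r ⟨A, -, hA⟩ h
    refine IsGreatest.csSup_eq ⟨⟨A, hA⟩, ?_⟩
    rintro j ⟨B, hB, hj⟩
    exact (Nat.pow_le_pow_iff_right one_lt_two).1 (hj ▸ h B le_top hB.2)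
  have h0 : 0 < 2 ^ (k + 1) := by positivity
  rintro r (rfl | rfl)
  · obtain ⟨E, _, _, z, π, c⟩ := CfsgLib.ExtraTwo.exists_coord_of_nondeg
      (CfsgLib.OrthE.nondeg_qMinus k CfsgLib.ExtraTwo.anisotropic_zmod_two)
    have hc : Nat.card (⊤ : Subgroup E) = 2 ^ (2 * (k + 1) + 1) := by
      rw [c.card_eq]; simp; ring
    refine ⟨E, inferInstance, inferInstance, CfsgLib.ExtraTwo.isExtraspecial_of_top c.es,
      by rw [← hc, Subgroup.card_top], ?_⟩
    rcases (c.es.plus_or_minus hc).2 with t | t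
    · have h1 := t.card_sq
      have h2 := CfsgLib.ExtraTwo.card_zeros_qMinus_two k
      rw [c.card_sq_eq_one] at h1
      omega
    · exact key t.exists_elem t.card_le
  · obtain ⟨E, _, _, z, π, c⟩ := CfsgLib.ExtraTwo.exists_coord_of_nondeg
      (CfsgLib.OrthE.nondeg_qPlus (F := ZMod 2) (k + 1))
    have hc : Nat.card (⊤ : Subgroup E) = 2 ^ (2 * (k + 1) + 1) := by
      rw [c.card_eq]; simp; ring
    refine ⟨E, inferInstance, inferInstance, CfsgLib.ExtraTwo.isExtraspecial_of_top c.es,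
      by rw [← hc, Subgroup.card_top], ?_⟩
    rcases (c.es.plus_or_minus hc).2 with t | t
    · exact key t.exists_elem t.card_le
    · have h1 := t.card_sq
      have h2 := CfsgLib.ExtraTwo.card_zeros_qPlus_two k
      rw [c.card_sq_eq_one, Nat.add_sub_cancel] at h1
      omega

end Cfsg.Agent.S5396
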