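import Cfsg.Statements.S5397
import Cfsg.Agent.Lib.Co1Rec.Close

set_option autoImplicit false
open Cfsg

namespace Cfsg.Agent.S5397

open CfsgLib.Co1Rec CfsgLib.Leech CfsgLib.MType Subgroup

theorem norm_AA : normalizer (AA : Set Spor.Co1) = NN := by
  have : IsSimpleGroup Spor.Co1 := simple_Co1
  have : Finite Spor.Co1 := Quotient.finite _
  have h1 : NN ≤ normalizer AA := fun g hg =>
    CfsgLib.Core.mem_normalizer_of_forall_conj_mem fun a => AA_conj hg
  refine le_antisymm (fun g hg => ?_) h1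
  obtain ⟨g, rfl⟩ := QuotientGroup.mk_surjective g
  by_contra hn
  have h2 := isCoatom_monoGrp.2 _ (lt_of_le_not_ge (map_le_iff_le_comap.1 h1) fun h => hn ⟨g, h hg, rfl⟩)
  have h3 : AA.Normal := normalizer_eq_top_iff.1 (eq_top_iff.2 fun x _ => by
    obtain ⟨x, rfl⟩ := QuotientGroup.mk_surjective x
    exact mem_comap.1 (h2 ▸ mem_top x))
  have h4 := card_AA
  rcases h3.eq_bot_or_eq_top with e | e <;> rw [e] at h4
  · simp at h4
  · rw [card_top, card_Co1] at h4; omega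

theorem split {G K : Type*} [Group G] [Group K] (A : Subgroup G) (s : K →* G)
    (h1 : ∀ k, s k ∈ normalizer (A : Set G)) (h2 : ∀ k, s k ∈ A → k = 1)
    (h3 : ∀ n ∈ normalizer (A : Set G), ∃ a ∈ A, ∃ k, n = a * s k) :
    Nonempty (normalizer (A : Set G) ⧸ A.subgroupOf (normalizer (A : Set G)) ≃* K) ∧
      ∃ L : Subgroup (normalizer (A : Set G)), (A.subgroupOf (normalizer (A : Set G))).IsComplement' L := by
  have h4 : (A.subgroupOf (normalizer (A : Set G))).IsComplement' (s.codRestrict _ h1).range := by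
    refine isComplement'_of_disjoint_and_mul_eq_univ (disjoint_def.2 ?_) (Set.eq_univ_of_forall ?_)
    · rintro _ h ⟨k, rfl⟩; rw [h2 k h, map_one]
    · rintro ⟨n, hn⟩
      obtain ⟨a, ha, k, rfl⟩ := h3 n hn
      exact ⟨⟨a, le_normalizer ha⟩, ha, _, ⟨k, rfl⟩, rfl⟩
  exact ⟨⟨h4.symm.QuotientMulEquiv.trans (MonoidHom.ofInjective
    ((injective_iff_map_eq_one _).2 fun k e => h2 k (by
      rw [show s k = 1 from congrArg Subtype.val e]; exact one_mem _))).symm⟩, _, h4⟩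

/-- Let G be a finite group of Conway type (involution z with generalized Fitting subgroup Q of its centralizer C extraspecial of order 2^9, C/Q the commutator subgroup of the isometry group of the hyperbolic quadratic form in dimension 8 over the field with two elements, z not weakly closed in Q). Then G has an elementary abelian subgroup A of order 2^11 containing z whose normalizer N is a split extension of A with N/A isomorphic to the automorphism group of the length-24 code built from the squares modulo 23, and N has exactly two orbits on the non-identity elements of A. -/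
theorem result {G : Type*} [Group G] [Finite G] (z : G) (hz : orderOf z = 2) (Q : Subgroup (Subgroup.centralizer ({z} : Set G))) [Q.Normal] (hF : Cfsg.generalizedFittingSubgroup (Subgroup.centralizer ({z} : Set G)) = Q) (hQ : Cfsg.IsExtraspecial 2 Q) (hcard : Nat.card Q = 2 ^ 9) (e : (Subgroup.centralizer ({z} : Set G)) ⧸ Q ≃* Cfsg.Omega (ZMod 2) (Cfsg.quadFormPlus 4 (ZMod 2))) (hnwc : ∃ g : G, (∃ hq : g * z * g⁻¹ ∈ Subgroup.centralizer ({z} : Set G), (⟨g * z * g⁻¹, hq⟩ : Subgroup.centralizer ({z} : Set G)) ∈ Q) ∧ g * z * g⁻¹ ≠ z) : ∃ A : Subgroup G, Cfsg.IsElementaryAbelian 2 A ∧ Nat.card A = 2 ^ 11 ∧ z ∈ A ∧ ∃ _ : (A.subgroupOf (Subgroup.normalizer (A : Set G))).Normal, Nonempty (↥(Subgroup.normalizer (A : Set G)) ⧸ A.subgroupOf (Subgroup.normalizer (A : Set G)) ≃* ↥Cfsg.M24) ∧ (∃ K : Subgroup ↥(Subgroup.normalizer (A : Set G)), (A.subgroupOf (Subgroup.normalizer (A : Set G))).IsComplement' K) ∧ ∃ a ∈ A, ∃ b ∈ A, a ≠ 1 ∧ b ≠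 1 ∧ (∀ n ∈ Subgroup.normalizer (A : Set G), n * a * n⁻¹ ≠ b) ∧ ∀ c ∈ A, c ≠ 1 → ∃ n ∈ Subgroup.normalizer (A : Set G), n * c * n⁻¹ = a ∨ n * c * n⁻¹ = b := by
  obtain ⟨ψ, rfl, -⟩ := exists_iso hz Q hF hQ hcard e hnwc
  have hN : ∀ {g}, ψ g ∈ normalizer (AA.map ψ.toMonoidHom : Set G) ↔ g ∈ NN := by
    intro g; rw [← map_equiv_normalizer_eq, norm_AA]; exact mem_map_iff_mem ψ.injective
  have hA : ∀ {g}, ψ g ∈ AA.map ψ.toMonoidHom ↔ g ∈ AA := mem_map_iff_mem ψ.injective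
  obtain ⟨s1, s2⟩ := split (AA.map ψ.toMonoidHom)
    (ψ.toMonoidHom.comp ((QuotientGroup.mk' _).comp permHom))
    (fun k => hN.2 ⟨_, permAut_mem_monoGrp k, rfl⟩) (fun k h => by
      obtain ⟨_, ⟨c, hc, rfl⟩, h⟩ := hA.1 h
      rcases mk_eq_mk_co1.1 h with e | e
      · exact (mono_inj (hc := isCW_empty) (hd := hc) (by
          rw [sgnAut_empty, one_mul, permAut_one, mul_one]; exact e)).2
      · rw [negAut, sgnAut_mul] at e
        exact (mono_inj (hc := isCW_empty) (hd := hc.symmDiff isCW_univ) (by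
          rw [sgnAut_empty, one_mul, permAut_one, mul_one]; exact e)).2) fun n hn => by
      obtain ⟨n, rfl⟩ := ψ.surjective n
      obtain ⟨_, ⟨c, hc, σ, rfl⟩, rfl⟩ := hN.1 hn
      exact ⟨_, hA.2 ⟨_, ⟨c, hc, rfl⟩, rfl⟩, σ, by rw [map_mul, map_mul]; rfl⟩
  refine ⟨AA.map ψ.toMonoidHom, ⟨⟨⟨?_⟩⟩, ?_⟩, (card_map_of_injective ψ.injective).trans card_AA,
    hA.2 zz_AA, inferInstance, s1, s2, _, hA.2 zz_AA, _, hA.2 cc_AA,
    ψ.map_ne_one_iff.2 es_QQ.ne_one, ψ.map_ne_one_iff.2 cc_ne, fun n _ e => ?_, ?_⟩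
  · rintro ⟨_, a, ha, rfl⟩ ⟨_, b, hb, rfl⟩
    exact Subtype.ext ((ψ.map_mul a b).symm.trans (AA_comm ha hb ▸ ψ.map_mul b a))
  · rintro _ ⟨a, ha, rfl⟩; rw [← map_pow, pow_two, AA_sq ha, map_one]
  · obtain ⟨n, rfl⟩ := ψ.surjective n
    exact not_zz_cc (isConj_iff.2 ⟨n, ψ.injective (by simpa using e)⟩)
  · rintro _ ⟨a, ha, rfl⟩ h
    rcases AA_cases ha with rfl | ⟨g, hg, rfl⟩ | ⟨g, hg, rfl⟩
    · exact absurd (map_one _) h
    · exact ⟨_, hN.2 (inv_mem hg), Or.inl (by simp [mul_assoc])⟩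
    · exact ⟨_, hN.2 (inv_mem hg), Or.inr (by simp [mul_assoc])⟩

end Cfsg.Agent.S5397
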