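import Cfsg.Statements.S5405
import Cfsg.Agent.Lib.LieModel.Fields
import Cfsg.Agent.Lib.LieModel.Link
import Cfsg.Agent.Lib.OrthE.OrderP
import Cfsg.Agent.Lib.OrthE.OrderStd
import Cfsg.Agent.S0824
import Cfsg.Agent.Lib.Dickson.Cayley

set_option autoImplicit false
open scoped MatrixGroups
open Cfsg

namespace Cfsg.Agent.S5405

open CfsgLib CfsgLib.Comput CfsgLib.LieModel Matrix

set_option maxRecDepth 100000
set_option Elab.async false

/-- numbering of the indices for the minus type -/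
def minusIdx (m : ℕ) [NeZero m] (i : ℕ) : (Fin m ⊕ Fin m) ⊕ Fin 2 :=
  if i < 2 * m then .inl (sumIdx m m i) else .inr (Fin.ofNat 2 (i - 2 * m))
/-- the number of an index -/
def minusIx {m : ℕ} : (Fin m ⊕ Fin m) ⊕ Fin 2 → ℕ := Sum.elim sumIx fun j => 2 * m + j.val

/-- a matrix of the minus type form -/
def minusB (m : ℕ) : Matrix ((Fin m ⊕ Fin m) ⊕ Fin 2) ((Fin m ⊕ Fin m) ⊕ Fin 2) (ZMod 2) :=
  fromBlocks (plusB m (ZMod 2)) 0 0 !![1, 1; 0, 1]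

theorem minus_eq (m : ℕ) (v : (Fin m ⊕ Fin m) ⊕ Fin 2 → ZMod 2) :
    Cfsg.quadFormMinus m (ZMod 2) 1 1 v = v ⬝ᵥ minusB m *ᵥ v := by
  simp [Cfsg.quadFormMinus, minusB, plusB, dotProduct, Fintype.sum_sum_type, mulVec, one_apply, pow_two, mul_add,
    add_assoc]

theorem card_M4 : Nat.card (Cfsg.Omega (ZMod 2) (Cfsg.quadFormMinus 1 (ZMod 2) 1 1)) = 60 := by
  obtain ⟨e⟩ := Cfsg.Agent.S0824.result (F := ZMod 2) (ZMod.card 2)
  have h := Subgroup.card_map_of_injective (K := commutator _) (f := e.toMonoidHom) e.injective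
  rw [commutator_def, Subgroup.map_commutator, Subgroup.map_top_of_surjective _ e.surjective, ← commutator_def,
    alternatingGroup.commutator_perm_eq (by simp), Dickson.card_A5] at h
  exact h.symm

theorem card_M6 : Nat.card (Cfsg.Omega (ZMod 2) (Cfsg.quadFormMinus 2 (ZMod 2) 1 1)) = 25920 := by
  have an : ∀ z₁ z₂ : ZMod 2, z₁ ^ 2 + 1 * z₁ * z₂ + 1 * z₂ ^ 2 = 0 → z₁ = 0 ∧ z₂ = 0 := by decide
  have e := OrthE.matEquiv _ _ (OrthE.qMinus_eq (F := ZMod 2) 2 1 1)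
  have h := (commutator (Cfsg.isometryGroup (ZMod 2) (Cfsg.quadFormMinus 2 (ZMod 2) 1 1))).card_mul_index
  have h1 : Nat.card (OrthE.O (OrthE.qMinus (ZMod 2) 2 1 1)) = 51840 := by
    rw [OrthE.card_O_qMinus 2 an]; simp [Finset.prod_range_succ]
  rw [OrthE.index_commutator_equiv e, OrthE.index_commutator_O_of_charTwo
    (OrthE.nondeg_qMinus 2 an) rfl (by simp), Nat.card_congr e.toEquiv, h1] at h
  change Nat.card (commutator _) = _
  omega

theorem card_P8 : Nat.card (Cfsg.Omega (ZMod 2) (Cfsg.quadFormPlus 4 (ZMod 2))) = 174182400 := by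
  have e := OrthE.matEquiv _ _ (OrthE.qPlus_eq (F := ZMod 2) 4)
  have h := (commutator (Cfsg.isometryGroup (ZMod 2) (Cfsg.quadFormPlus 4 (ZMod 2)))).card_mul_index
  have h1 : Nat.card (OrthE.O (OrthE.qPlus (ZMod 2) 4)) = 348364800 := by
    rw [OrthE.card_O_qPlus 3]; simp [Finset.prod_range_succ]
  rw [OrthE.index_commutator_equiv e, OrthE.index_commutator_O_of_charTwo
    (OrthE.nondeg_qPlus 4) rfl (by simp), Nat.card_congr e.toEquiv, h1] at h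
  change Nat.card (commutator _) = _
  omega

section
variable {F ι S : Type*} [Field F] [Fintype ι] [DecidableEq ι] [Group S] (ρ : S →* Matrix ι ι F)

theorem gen_of_card {n N : ℕ} {v : ℕ → ι → F} {g : ℕ → S} {p : ℕ → Equiv.Perm (Fin n)} (hv : ProjInj n v)
    (h : ∀ m ∈ [0, 2], m < 255 ∧ Compat v (ρ (g m)) (p m)) (hS : Nat.card S = N) (hN : N ≠ 0)
    (hc : N ≤ Nat.card (cl p [1, 3])) (s : S) : s ∈ cl g [1, 3] := by
  have : Finite S := Nat.finite_of_card_ne_zero (hS ▸ hN)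
  obtain ⟨e, he⟩ := link_inj ρ hv h (top := [1, 3]) rfl (hS ▸ hc)
  obtain ⟨x, hx, h1⟩ : (e s : Equiv.Perm (Fin n)) ∈ (cl (fun m => (g m, p m)) [1, 3]).map (MonoidHom.snd _ _) := by
    rw [map_snd_cl]; exact (e s).2
  rw [← e.injective (Subtype.ext ((he x hx).trans h1))]
  exact (map_fst_cl g p _).le ⟨x, hx, rfl⟩

variable {ρ} {f : S → ι → F} (hf : ∀ g h, f (g * h) = f g + ρ g *ᵥ f h)
include hf

theorem der_one : f 1 = 0 := by
  have := hf 1 1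
  rw [mul_one, map_one, one_mulVec] at this
  exact left_eq_add.1 this

/-- the elements on which the crossed homomorphism is principal -/
def kerD (v : ι → F) : Subgroup S where
  carrier := {g | f g = ρ g *ᵥ v - v}
  one_mem' := by simp [der_one hf]
  mul_mem' := fun {a b} ha hb => by
    change f (a * b) = _
    rw [hf, ha, hb, map_mul, mulVec_sub, mulVec_mulVec]; abel
  inv_mem' := fun {a} ha => by
    have h1 := hf a⁻¹ a
    rw [inv_mul_cancel, der_one hf, ha, mulVec_sub, mulVec_mulVec, ← map_mul, inv_mul_cancel, map_one,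
      one_mulVec] at h1
    change f a⁻¹ = _
    rw [← sub_eq_zero, h1]; abel

theorem mem_kerD {v : ι → F} {x g : S} {B : Matrix ι ι F} (hB : (ρ x - 1) * B = 1) (hx : x ∈ kerD hf v)
    (hc : x * g = g * x) : g ∈ kerD hf v := by
  have h1 := hf x g
  rw [hc, hf, show f x = ρ x *ᵥ v - v from hx] at h1
  have h2 : ρ g * ρ x = ρ x * ρ g := by rw [← map_mul, ← map_mul, hc]
  have h3 : (ρ x - 1) *ᵥ (f g - (ρ g *ᵥ v - v)) = 0 := by
    rw [mulVec_sub, mulVec_mulVec, h2, ← mulVec_mulVec] at h1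
    rw [sub_mulVec, one_mulVec, mulVec_sub, mulVec_sub]
    linear_combination (exp := 1) -h1
  have h4 := congrArg (B *ᵥ ·) h3
  simp only [mulVec_mulVec, mul_eq_one_comm.1 hB, one_mulVec, mulVec_zero] at h4
  exact sub_eq_zero.1 h4

theorem princ {g : ℕ → S} (hg : ∀ s, s ∈ cl g [1, 3]) {v : ι → F} (h0 : g 0 ∈ kerD hf v) (h2 : g 2 ∈ kerD hf v)
    (s : S) : f s = ρ s *ᵥ v - v := by
  refine (cl_le (H := kerD hf v)).2 (fun w hw => ?_) (hg s)
  simp only [List.mem_cons, List.not_mem_nil, or_false] at hw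
  rcases hw with rfl | rfl
  · rwa [ev_letter _ (m := 0) (by norm_num)]
  · rwa [ev_letter _ (m := 2) (by norm_num)]

theorem chain (hρ : Function.Injective ρ) {g : ℕ → S} (hg : ∀ s, s ∈ cl g [1, 3]) {A R T A' R' T' : Matrix ι ι F}
    (ha : ρ (g 0) = A) (hb : ρ (g 2) = A') (h0 : A * A = R ∧ R * R = T ∧ (T - 1) * (T * (T * (T - 1))) = 1)
    (h1 : A' * A' = R' ∧ R' * R' = T' ∧ (T' - 1) * (T' * (T' * (T' - 1))) = 1) (h2 : T * T' = T' * T) :
    ∃ v, ∀ s, f s = ρ s *ᵥ v - v := by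
  have e0 : ρ (g 0 * g 0 * (g 0 * g 0)) = T := by rw [map_mul, map_mul, ha, h0.1, h0.2.1]
  have e1 : ρ (g 2 * g 2 * (g 2 * g 2)) = T' := by rw [map_mul, map_mul, hb, h1.1, h1.2.1]
  let v := (T * (T * (T - 1))) *ᵥ f (g 0 * g 0 * (g 0 * g 0))
  have k0 : g 0 * g 0 * (g 0 * g 0) ∈ kerD hf v := by
    change f _ = ρ _ *ᵥ v - v
    rw [e0, ← one_mulVec v, mulVec_mulVec, mul_one, ← sub_mulVec, mulVec_mulVec, h0.2.2, one_mulVec]
  have k1 : g 2 * g 2 * (g 2 * g 2) ∈ kerD hf v :=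
    mem_kerD hf (e0 ▸ h0.2.2) k0 (hρ (by rw [map_mul, e0, e1, map_mul, e0, e1, h2]))
  exact ⟨v, princ hf hg (mem_kerD hf (e0 ▸ h0.2.2) k0 (by simp only [mul_assoc]))
    (mem_kerD hf (e1 ▸ h1.2.2) k1 (by simp only [mul_assoc]))⟩

end

theorem omegaMat_inj {ι : Type} [Fintype ι] [DecidableEq ι] (Q : (ι → ZMod 2) → ZMod 2) :
    Function.Injective (omegaMat Q) := fun _ _ h => Subtype.ext (Subtype.ext (Units.ext h))

namespace M4

/-- the coding of vectors -/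
abbrev C : Cd (ZMod 2) ((Fin 1 ⊕ Fin 1) ⊕ Fin 2) := cd2 4 (minusIdx 1)

theorem good : C.Good := cd2_good ⟨by decide +kernel, by decide +kernel⟩

/-- the non-singular vectors -/
def TP : ℕ := 0xedca986543

theorem inj : ProjInj 10 (C.pt TP) := Cd.projInj good (allLt_sound (by decide +kernel))

/-- network -/
noncomputable def n0 : Net :=
  Net.cons 1 0x100
  (Net.cons 2 0x10
  (Net.cons 4 0x3
  (Net.cons 8 0x3
  (Net.cons 4 0x3
  (Net.cons 2 0x20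
  (Net.cons 1 0x54
  (Net.nil)))))))

/-- network -/
noncomputable def n2 : Net :=
  Net.cons 1 0x100
  (Net.cons 2 0x3
  (Net.cons 4 0x9
  (Net.cons 8 0x3
  (Net.cons 2 0x22
  (Net.cons 1 0x4
  (Net.nil))))))

/-- the two generators -/
noncomputable def W : List Net := [n0, Net.nil, n2]

theorem W_ok : allL (Net.ok 10) W = true := by decide +kernel

/-- matrix -/
noncomputable def A0 : Matrix ((Fin 1 ⊕ Fin 1) ⊕ Fin 2) ((Fin 1 ⊕ Fin 1) ⊕ Fin 2) (ZMod 2) := C.mat minusIx [0x2, 0x1, 0x4, 0xc]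
/-- matrix -/
noncomputable def X0 : Matrix ((Fin 1 ⊕ Fin 1) ⊕ Fin 2) ((Fin 1 ⊕ Fin 1) ⊕ Fin 2) (ZMod 2) := C.mat minusIx [0xb, 0x2, 0xe, 0x6]
/-- matrix -/
noncomputable def Y0 : Matrix ((Fin 1 ⊕ Fin 1) ⊕ Fin 2) ((Fin 1 ⊕ Fin 1) ⊕ Fin 2) (ZMod 2) := C.mat minusIx [0x1, 0xb, 0xd, 0x5]
/-- matrix -/
noncomputable def X0' : Matrix ((Fin 1 ⊕ Fin 1) ⊕ Fin 2) ((Fin 1 ⊕ Fin 1) ⊕ Fin 2) (ZMod 2) := C.mat minusIx [0xf, 0x2, 0xa, 0xc]
/-- matrix -/
noncomputable def Y0' : Matrix ((Fin 1 ⊕ Fin 1) ⊕ Fin 2) ((Fin 1 ⊕ Fin 1) ⊕ Fin 2) (ZMod 2) := C.mat minusIx [0x1, 0xf, 0x9, 0xc]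
/-- generator -/
noncomputable def g0 : Cfsg.Omega (ZMod 2) (Cfsg.quadFormMinus 1 (ZMod 2) 1 1) :=
  omegaOf (isoOf (minus_eq 1) X0 X0' (by decide +kernel)) (isoOf (minus_eq 1) Y0 Y0' (by decide +kernel))
theorem g0_val : omegaMat (Cfsg.quadFormMinus 1 (ZMod 2) 1 1) g0 = A0 :=
  omegaMat_omegaOf (show A0 * (Y0 * X0) = X0 * Y0 by decide +kernel)
theorem c0 : Compat (C.pt TP) A0 (permG 10 W 0) :=
  Cd.compat good (OK_nth W_ok 0) (L := [0x10000000000010000, 0x10000000000000001, 0x10000000100000000, 0x20001000100000000])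
    ((Cd.codes_of_entries good (M := [0x2, 0x1, 0x4, 0xc]) (by decide +kernel)).cols (by decide +kernel)) Cd.scal_one (allLt_sound (by decide +kernel))

/-- matrix -/
noncomputable def A1 : Matrix ((Fin 1 ⊕ Fin 1) ⊕ Fin 2) ((Fin 1 ⊕ Fin 1) ⊕ Fin 2) (ZMod 2) := C.mat minusIx [0x1, 0x7, 0x9, 0xd]
/-- matrix -/
noncomputable def X1 : Matrix ((Fin 1 ⊕ Fin 1) ⊕ Fin 2) ((Fin 1 ⊕ Fin 1) ⊕ Fin 2) (ZMod 2) := C.mat minusIx [0xb, 0x1, 0xd, 0x5]
/-- matrix -/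
noncomputable def Y1 : Matrix ((Fin 1 ⊕ Fin 1) ⊕ Fin 2) ((Fin 1 ⊕ Fin 1) ⊕ Fin 2) (ZMod 2) := C.mat minusIx [0x2, 0x7, 0xa, 0x4]
/-- matrix -/
noncomputable def X1' : Matrix ((Fin 1 ⊕ Fin 1) ⊕ Fin 2) ((Fin 1 ⊕ Fin 1) ⊕ Fin 2) (ZMod 2) := C.mat minusIx [0x2, 0xf, 0xa, 0xc]
/-- matrix -/
noncomputable def Y1' : Matrix ((Fin 1 ⊕ Fin 1) ⊕ Fin 2) ((Fin 1 ⊕ Fin 1) ⊕ Fin 2) (ZMod 2) := C.mat minusIx [0xb, 0x1, 0x8, 0x5]
/-- generator -/
noncomputable def g1 : Cfsg.Omega (ZMod 2) (Cfsg.quadFormMinus 1 (ZMod 2) 1 1) :=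
  omegaOf (isoOf (minus_eq 1) X1 X1' (by decide +kernel)) (isoOf (minus_eq 1) Y1 Y1' (by decide +kernel))
theorem g1_val : omegaMat (Cfsg.quadFormMinus 1 (ZMod 2) 1 1) g1 = A1 :=
  omegaMat_omegaOf (show A1 * (Y1 * X1) = X1 * Y1 by decide +kernel)
theorem c1 : Compat (C.pt TP) A1 (permG 10 W 2) :=
  Cd.compat good (OK_nth W_ok 2) (L := [0x10000000000000001, 0x30000000100010001, 0x20001000000000001, 0x30001000100000001])
    ((Cd.codes_of_entries good (M := [0x1, 0x7, 0x9, 0xd]) (by decide +kernel)).cols (by decide +kernel)) Cd.scal_one (allLt_sound (by decide +kernel))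

/-- lower bound chain -/
def lb : LB := [(2, 3, [0x1, 0x3]),
  (0, 2, [0x30103010303, 0x10301030301])]

/-- the generators -/
noncomputable def g (m : ℕ) : Cfsg.Omega (ZMod 2) (Cfsg.quadFormMinus 1 (ZMod 2) 1 1) := if m = 0 then g0 else g1

theorem hyp : ∀ m ∈ [0, 2], m < 255 ∧ Compat (C.pt TP) (omegaMat (Cfsg.quadFormMinus 1 (ZMod 2) 1 1) (g m)) (permG 10 W m) := by
  simp only [List.forall_mem_cons]
  exact ⟨⟨by norm_num, g0_val ▸ c0⟩, ⟨by norm_num, g1_val ▸ c1⟩, List.forall_mem_nil _⟩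

theorem lb_ok : band (lbInA (lettersOf [1, 3]) lb) (Nat.ble 60 (lbVal (stepN W) 10 lb [])) = true := by
  decide +kernel

theorem gen (s : Cfsg.Omega (ZMod 2) (Cfsg.quadFormMinus 1 (ZMod 2) 1 1)) : s ∈ cl g [1, 3] :=
  gen_of_card (omegaMat (Cfsg.quadFormMinus 1 (ZMod 2) 1 1)) inj hyp card_M4 (by norm_num)
    (lbVal_le_of_inA (SM.perm W_ok (by norm_num)) (inA_cl _ _) lb_ok) s

theorem h0 : A0 * A0 = 1 := by decide +kernel
theorem h1 : A1 * (A1 * A1) = 1 := by decide +kernel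
set_option synthInstance.maxSize 1000 in
theorem h2 : ∀ u w : (Fin 1 ⊕ Fin 1) ⊕ Fin 2 → ZMod 2, u + A0 *ᵥ u = 0 → w + A1 *ᵥ (w + A1 *ᵥ w) = 0 →
    ∃ v, u = A0 *ᵥ v - v ∧ w = A1 *ᵥ v - v := by decide +kernel

end M4

namespace M6

/-- the coding of vectors -/
abbrev C : Cd (ZMod 2) ((Fin 2 ⊕ Fin 2) ⊕ Fin 2) := cd2 6 (minusIdx 2)

theorem good : C.Good := cd2_good ⟨by decide +kernel, by decide +kernel⟩

/-- the non-singular vectors -/
def TP : ℕ := 0xffce78db4cf2c70beca689a48e28607dc6585944d245038d2ca1c5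

theorem inj : ProjInj 36 (C.pt TP) := Cd.projInj good (allLt_sound (by decide +kernel))

/-- network -/
noncomputable def n0 : Net :=
  Net.cons 1 0x41010000
  (Net.cons 2 0x111102130
  (Net.cons 4 0x70e0000
  (Net.cons 8 0x90007
  (Net.cons 16 0x3c65
  (Net.cons 32 0x7
  (Net.cons 16 0x4
  (Net.cons 8 0x2b00e2
  (Net.cons 4 0x2050d03
  (Net.cons 2 0x332033121
  (Net.cons 1 0x444410155
  (Net.nil)))))))))))

/-- network -/
noncomputable def n2 : Net :=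
  Net.cons 1 0x151401410
  (Net.cons 2 0x130220020
  (Net.cons 4 0x90c0500
  (Net.cons 8 0xb9000f
  (Net.cons 16 0x7bc3
  (Net.cons 32 0xf
  (Net.cons 16 0x3
  (Net.cons 8 0x2500b7
  (Net.cons 4 0x90e0906
  (Net.cons 2 0x300220333
  (Net.cons 1 0x44440010
  (Net.nil)))))))))))

/-- the two generators -/
noncomputable def W : List Net := [n0, Net.nil, n2]

theorem W_ok : allL (Net.ok 36) W = true := by decide +kernel

/-- matrix -/
noncomputable def A0 : Matrix ((Fin 2 ⊕ Fin 2) ⊕ Fin 2) ((Fin 2 ⊕ Fin 2) ⊕ Fin 2) (ZMod 2) := C.mat minusIx [0x3b, 0xc, 0x27, 0x3d, 0xb, 0x1f]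
/-- matrix -/
noncomputable def X0 : Matrix ((Fin 2 ⊕ Fin 2) ⊕ Fin 2) ((Fin 2 ⊕ Fin 2) ⊕ Fin 2) (ZMod 2) := C.mat minusIx [0x3b, 0x25, 0x2, 0x6, 0x22, 0x14]
/-- matrix -/
noncomputable def Y0 : Matrix ((Fin 2 ⊕ Fin 2) ⊕ Fin 2) ((Fin 2 ⊕ Fin 2) ⊕ Fin 2) (ZMod 2) := C.mat minusIx [0x25, 0x2d, 0x17, 0x2, 0x31, 0x34]
/-- matrix -/
noncomputable def X0' : Matrix ((Fin 2 ⊕ Fin 2) ⊕ Fin 2) ((Fin 2 ⊕ Fin 2) ⊕ Fin 2) (ZMod 2) := C.mat minusIx [0x1a, 0x4, 0xc, 0x27, 0x2c, 0x14]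
/-- matrix -/
noncomputable def Y0' : Matrix ((Fin 2 ⊕ Fin 2) ⊕ Fin 2) ((Fin 2 ⊕ Fin 2) ⊕ Fin 2) (ZMod 2) := C.mat minusIx [0x1d, 0x8, 0x2d, 0x3, 0x3c, 0x31]
/-- matrix -/
noncomputable def R0 : Matrix ((Fin 2 ⊕ Fin 2) ⊕ Fin 2) ((Fin 2 ⊕ Fin 2) ⊕ Fin 2) (ZMod 2) := C.mat minusIx [0x1e, 0x1a, 0xf, 0x35, 0xa, 0x26]
/-- matrix -/
noncomputable def S0 : Matrix ((Fin 2 ⊕ Fin 2) ⊕ Fin 2) ((Fin 2 ⊕ Fin 2) ⊕ Fin 2) (ZMod 2) := C.mat minusIx [0x2a, 0x25, 0x3e, 0x3d, 0x2f, 0x33]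
/-- generator -/
noncomputable def g0 : Cfsg.Omega (ZMod 2) (Cfsg.quadFormMinus 2 (ZMod 2) 1 1) :=
  omegaOf (isoOf (minus_eq 2) X0 X0' (by decide +kernel)) (isoOf (minus_eq 2) Y0 Y0' (by decide +kernel))
theorem g0_val : omegaMat (Cfsg.quadFormMinus 2 (ZMod 2) 1 1) g0 = A0 :=
  omegaMat_omegaOf (show A0 * (Y0 * X0) = X0 * Y0 by decide +kernel)
theorem c0 : Compat (C.pt TP) A0 (permG 36 W 0) :=
  Cd.compat good (OK_nth W_ok 0) (L := [0x5000100010001000000010001, 0x2000000000001000100000000, 0x4000100000000000100010001, 0x5000100010001000100000001, 0x3000000000001000000010001, 0x5000000010001000100010001])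
    ((Cd.codes_of_entries good (M := [0x3b, 0xc, 0x27, 0x3d, 0xb, 0x1f]) (by decide +kernel)).cols (by decide +kernel)) Cd.scal_one (allLt_sound (by decide +kernel))

/-- matrix -/
noncomputable def A1 : Matrix ((Fin 2 ⊕ Fin 2) ⊕ Fin 2) ((Fin 2 ⊕ Fin 2) ⊕ Fin 2) (ZMod 2) := C.mat minusIx [0x3a, 0xf, 0x1a, 0x1, 0x23, 0xa]
/-- matrix -/
noncomputable def X1 : Matrix ((Fin 2 ⊕ Fin 2) ⊕ Fin 2) ((Fin 2 ⊕ Fin 2) ⊕ Fin 2) (ZMod 2) := C.mat minusIx [0x35, 0x2e, 0x2a, 0x3d, 0x24, 0x1c]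
/-- matrix -/
noncomputable def Y1 : Matrix ((Fin 2 ⊕ Fin 2) ⊕ Fin 2) ((Fin 2 ⊕ Fin 2) ⊕ Fin 2) (ZMod 2) := C.mat minusIx [0x9, 0x6, 0x1d, 0x27, 0x3f, 0x16]
/-- matrix -/
noncomputable def X1' : Matrix ((Fin 2 ⊕ Fin 2) ⊕ Fin 2) ((Fin 2 ⊕ Fin 2) ⊕ Fin 2) (ZMod 2) := C.mat minusIx [0x3e, 0x1b, 0x6, 0x9, 0x2f, 0x16]
/-- matrix -/
noncomputable def Y1' : Matrix ((Fin 2 ⊕ Fin 2) ⊕ Fin 2) ((Fin 2 ⊕ Fin 2) ⊕ Fin 2) (ZMod 2) := C.mat minusIx [0x3b, 0x25, 0x27, 0x3a, 0x22, 0x31]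
/-- matrix -/
noncomputable def R1 : Matrix ((Fin 2 ⊕ Fin 2) ⊕ Fin 2) ((Fin 2 ⊕ Fin 2) ⊕ Fin 2) (ZMod 2) := C.mat minusIx [0x27, 0x2e, 0x2d, 0x3a, 0x3f, 0xe]
/-- matrix -/
noncomputable def S1 : Matrix ((Fin 2 ⊕ Fin 2) ⊕ Fin 2) ((Fin 2 ⊕ Fin 2) ⊕ Fin 2) (ZMod 2) := C.mat minusIx [0x2a, 0x37, 0x3e, 0x25, 0x2f, 0x39]
/-- generator -/
noncomputable def g1 : Cfsg.Omega (ZMod 2) (Cfsg.quadFormMinus 2 (ZMod 2) 1 1) :=
  omegaOf (isoOf (minus_eq 2) X1 X1' (by decide +kernel)) (isoOf (minus_eq 2) Y1 Y1' (by decide +kernel))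
theorem g1_val : omegaMat (Cfsg.quadFormMinus 2 (ZMod 2) 1 1) g1 = A1 :=
  omegaMat_omegaOf (show A1 * (Y1 * X1) = X1 * Y1 by decide +kernel)
theorem c1 : Compat (C.pt TP) A1 (permG 36 W 2) :=
  Cd.compat good (OK_nth W_ok 2) (L := [0x4000100010001000000010000, 0x4000000000001000100010001, 0x3000000010001000000010000, 0x1000000000000000000000001, 0x3000100000000000000010001, 0x2000000000001000000010000])
    ((Cd.codes_of_entries good (M := [0x3a, 0xf, 0x1a, 0x1, 0x23, 0xa]) (by decide +kernel)).cols (by decide +kernel)) Cd.scal_one (allLt_sound (by decide +kernel))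

/-- lower bound chain -/
def lb : LB := [(0, 5, [0x1, 0x3]),
  (1, 4, [0x301030301, 0x10103030303]),
  (2, 2, [0x10101030101030101, 0x301030301010103030303]),
  (3, 1, [0x3010303010101010301030103]),
  (6, 2, [0x101010301010301010101010101010303030103010101])]

/-- the generators -/
noncomputable def g (m : ℕ) : Cfsg.Omega (ZMod 2) (Cfsg.quadFormMinus 2 (ZMod 2) 1 1) := if m = 0 then g0 else g1

theorem hyp : ∀ m ∈ [0, 2], m < 255 ∧ Compat (C.pt TP) (omegaMat (Cfsg.quadFormMinus 2 (ZMod 2) 1 1) (g m)) (permG 36 W m) := by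
  simp only [List.forall_mem_cons]
  exact ⟨⟨by norm_num, g0_val ▸ c0⟩, ⟨by norm_num, g1_val ▸ c1⟩, List.forall_mem_nil _⟩

theorem lb_ok : band (lbInA (lettersOf [1, 3]) lb) (Nat.ble 25920 (lbVal (stepN W) 36 lb [])) = true := by
  decide +kernel

theorem gen (s : Cfsg.Omega (ZMod 2) (Cfsg.quadFormMinus 2 (ZMod 2) 1 1)) : s ∈ cl g [1, 3] :=
  gen_of_card (omegaMat (Cfsg.quadFormMinus 2 (ZMod 2) 1 1)) inj hyp card_M6 (by norm_num)
    (lbVal_le_of_inA (SM.perm W_ok (by norm_num)) (inA_cl _ _) lb_ok) s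

theorem h0 : A0 * A0 = R0 ∧ R0 * R0 = S0 ∧ (S0 - 1) * (S0 * (S0 * (S0 - 1))) = 1 := by decide +kernel
theorem h1 : A1 * A1 = R1 ∧ R1 * R1 = S1 ∧ (S1 - 1) * (S1 * (S1 * (S1 - 1))) = 1 := by decide +kernel
theorem h2 : S0 * S1 = S1 * S0 := by decide +kernel

end M6

namespace P8

/-- the coding of vectors -/
abbrev C : Cd (ZMod 2) (Fin 4 ⊕ Fin 4) := cd2 8 (sumIdx 4 4)

theorem good : C.Good := cd2_good ⟨by decide +kernel, by decide +kernel⟩

/-- the non-singular vectors -/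
def TP : ℕ := 0xfefdfbf8f7f4f2f1efeee9e8e5e4e3e2dfdddad8d6d4d3d1cbcac9c8c7c6c5c4bfbcbbb8b6b5b2b1adaca9a8a7a6a3a29e9c9a98979593918f8e8d8c8b8a89887f7c7a79777472716d6c6b6a656463625e5c5b59565453514f4e4d4c474645443e3d3a39363532312f2e2b2a272623221f1d1b1917151311

theorem inj : ProjInj 120 (C.pt TP) := Cd.projInj good (allLt_sound (by decide +kernel))

/-- network -/
noncomputable def n0 : Net :=
  Net.cons 1 0x550555015000500050005004000000
  (Net.cons 2 0x130002031230000313030130220000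
  (Net.cons 4 0xf0c020b050d0409000200030d0500
  (Net.cons 8 0x4f00b2005100ab00ea00980041
  (Net.cons 16 0xc2000077f300006d8400004800
  (Net.cons 32 0xa044080000000020000000
  (Net.cons 64 0x22df6cb5948257
  (Net.cons 32 0x8b15a500000000316668bf
  (Net.cons 16 0x9000008055000085c800006560
  (Net.cons 8 0x2f00f4003300e40058003500d8
  (Net.cons 4 0x1060e0b080c0a0205030d0a010506
  (Net.cons 2 0x221321300310220322102103001022
  (Net.cons 1 0x454154114104514115445144140454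
  (Net.nil)))))))))))))

/-- network -/
noncomputable def n2 : Net :=
  Net.cons 1 0x140000445550554441505544000000
  (Net.cons 2 0x33012002100223023021133110030
  (Net.cons 4 0xa00000f0f0006000c030000000000
  (Net.cons 8 0x71001a00380031000c00100055
  (Net.cons 16 0xc1000061b20000020200000000
  (Net.cons 32 0x4881020000000023000000
  (Net.cons 64 0x79ffccff233693
  (Net.cons 32 0xc89cc600000000dcfdaec6
  (Net.cons 16 0x1400009895000045570000b494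
  (Net.cons 8 0x75004c004100220076005c0051
  (Net.cons 4 0xc0c0a000c090a0c00060a030c0c0a
  (Net.cons 2 0x221133303030110303032230112200
  (Net.cons 1 0x11501110555051105410514151515
  (Net.nil)))))))))))))

/-- the two generators -/
noncomputable def W : List Net := [n0, Net.nil, n2]

theorem W_ok : allL (Net.ok 120) W = true := by decide +kernel

/-- matrix -/
noncomputable def A0 : Matrix (Fin 4 ⊕ Fin 4) (Fin 4 ⊕ Fin 4) (ZMod 2) := C.mat sumIx [0x87, 0x99, 0xd2, 0xff, 0xbd, 0x82, 0x7e, 0x57]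
/-- matrix -/
noncomputable def X0 : Matrix (Fin 4 ⊕ Fin 4) (Fin 4 ⊕ Fin 4) (ZMod 2) := C.mat sumIx [0x1e, 0x49, 0x37, 0x68, 0xb3, 0x83, 0x9b, 0x87]
/-- matrix -/
noncomputable def Y0 : Matrix (Fin 4 ⊕ Fin 4) (Fin 4 ⊕ Fin 4) (ZMod 2) := C.mat sumIx [0x33, 0xff, 0x30, 0xb7, 0x9f, 0x4, 0x96, 0xf]
/-- matrix -/
noncomputable def X0' : Matrix (Fin 4 ⊕ Fin 4) (Fin 4 ⊕ Fin 4) (ZMod 2) := C.mat sumIx [0x55, 0xc1, 0xa0, 0xf, 0x6f, 0x5f, 0x58, 0xb4]
/-- matrix -/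
noncomputable def Y0' : Matrix (Fin 4 ⊕ Fin 4) (Fin 4 ⊕ Fin 4) (ZMod 2) := C.mat sumIx [0xf5, 0xf0, 0x20, 0xa5, 0xb9, 0xbd, 0xaf, 0x29]
/-- matrix -/
noncomputable def R0 : Matrix (Fin 4 ⊕ Fin 4) (Fin 4 ⊕ Fin 4) (ZMod 2) := C.mat sumIx [0x9b, 0x92, 0xd, 0x25, 0xc2, 0xce, 0xf5, 0xf]
/-- matrix -/
noncomputable def S0 : Matrix (Fin 4 ⊕ Fin 4) (Fin 4 ⊕ Fin 4) (ZMod 2) := C.mat sumIx [0xe1, 0x5f, 0xb3, 0x58, 0x68, 0x40, 0x60, 0x21]
/-- generator -/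
noncomputable def g0 : Cfsg.Omega (ZMod 2) (Cfsg.quadFormPlus 4 (ZMod 2)) :=
  omegaOf (isoOf (plus_eq 4) X0 X0' (by decide +kernel)) (isoOf (plus_eq 4) Y0 Y0' (by decide +kernel))
theorem g0_val : omegaMat (Cfsg.quadFormPlus 4 (ZMod 2)) g0 = A0 :=
  omegaMat_omegaOf (show A0 * (Y0 * X0) = X0 * Y0 by decide +kernel)
theorem c0 : Compat (C.pt TP) A0 (permG 120 W 0) :=
  Cd.compat good (OK_nth W_ok 0) (L := [0x400010000000000000000000100010001, 0x400010000000000010001000000000001, 0x400010001000000010000000000010000, 0x800010001000100010001000100010001, 0x600010000000100010001000100000001, 0x200010000000000000000000000010000, 0x600000001000100010001000100010000, 0x500000001000000010000000100010001])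
    ((Cd.codes_of_entries good (M := [0x87, 0x99, 0xd2, 0xff, 0xbd, 0x82, 0x7e, 0x57]) (by decide +kernel)).cols (by decide +kernel)) Cd.scal_one (allLt_sound (by decide +kernel))

/-- matrix -/
noncomputable def A1 : Matrix (Fin 4 ⊕ Fin 4) (Fin 4 ⊕ Fin 4) (ZMod 2) := C.mat sumIx [0x10, 0xcc, 0xc0, 0xe, 0x3, 0x7e, 0x78, 0xfc]
/-- matrix -/
noncomputable def X1 : Matrix (Fin 4 ⊕ Fin 4) (Fin 4 ⊕ Fin 4) (ZMod 2) := C.mat sumIx [0xfc, 0xe0, 0xf6, 0x5d, 0x3b, 0xf, 0x3c, 0xc]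
/-- matrix -/
noncomputable def Y1 : Matrix (Fin 4 ⊕ Fin 4) (Fin 4 ⊕ Fin 4) (ZMod 2) := C.mat sumIx [0x24, 0x4, 0x18, 0xbd, 0xb3, 0xc3, 0xd, 0x28]
/-- matrix -/
noncomputable def X1' : Matrix (Fin 4 ⊕ Fin 4) (Fin 4 ⊕ Fin 4) (ZMod 2) := C.mat sumIx [0xd5, 0x75, 0xf0, 0x70, 0x83, 0x43, 0xde, 0x9f]
/-- matrix -/
noncomputable def Y1' : Matrix (Fin 4 ⊕ Fin 4) (Fin 4 ⊕ Fin 4) (ZMod 2) := C.mat sumIx [0xc1, 0x99, 0x2, 0x83, 0x87, 0x3, 0xb4, 0xcc]
/-- matrix -/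
noncomputable def R1 : Matrix (Fin 4 ⊕ Fin 4) (Fin 4 ⊕ Fin 4) (ZMod 2) := C.mat sumIx [0x3, 0x4a, 0x84, 0x2, 0xdc, 0x7, 0xb, 0x37]
/-- matrix -/
noncomputable def S1 : Matrix (Fin 4 ⊕ Fin 4) (Fin 4 ⊕ Fin 4) (ZMod 2) := C.mat sumIx [0x49, 0x43, 0xb3, 0x4a, 0x66, 0xcd, 0x4b, 0x16]
/-- generator -/
noncomputable def g1 : Cfsg.Omega (ZMod 2) (Cfsg.quadFormPlus 4 (ZMod 2)) :=
  omegaOf (isoOf (plus_eq 4) X1 X1' (by decide +kernel)) (isoOf (plus_eq 4) Y1 Y1' (by decide +kernel))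
theorem g1_val : omegaMat (Cfsg.quadFormPlus 4 (ZMod 2)) g1 = A1 :=
  omegaMat_omegaOf (show A1 * (Y1 * X1) = X1 * Y1 by decide +kernel)
theorem c1 : Compat (C.pt TP) A1 (permG 120 W 2) :=
  Cd.compat good (OK_nth W_ok 2) (L := [0x100000000000000010000000000000000, 0x400010001000000000001000100000000, 0x200010001000000000000000000000000, 0x300000000000000000001000100010000, 0x200000000000000000000000000010001, 0x600000001000100010001000100010000, 0x400000001000100010001000000000000, 0x600010001000100010001000100000000])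
    ((Cd.codes_of_entries good (M := [0x10, 0xcc, 0xc0, 0xe, 0x3, 0x7e, 0x78, 0xfc]) (by decide +kernel)).cols (by decide +kernel)) Cd.scal_one (allLt_sound (by decide +kernel))

/-- lower bound chain -/
def lb : LB := [(0, 6, [0x1, 0x3]),
  (1, 4, [0x1030101010303, 0x103010301030103, 0x303010301010303]),
  (2, 3, [0x3030301010103010101030101010303, 0x301010101010103010103010301030103, 0x301010301010301010303010301010303]),
  (4, 2, [0x3010103010103010103030103010103030301010301010301010303010301010303, 0x3010101010101030101030103010301030103010101030301030101010303030101030103010301, 0x30101010101010301010301030103010301030101010303030101030103010301030101010101010301]),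
  (8, 1, [0x30101010101010301010301030103010301030101010303030101030103010301030101010101010301, 0x301010301010301010303010301010303030101030101030101030301030101030303010103010103010103030103010103030101030101010101010101030103030301010301030101010303, 0x301010301010301010303010301010303030101030101030101030301030101030303030301010103010101030101010303030303010101030101010301010103030301010101010103010103010301030103]),
  (9, 1, [0x3010101010101030101030103010301030103010101030301030101010303030101030103010301010301010103030301010103030301030301010301010301010103010101030303010101030303010303010103010103010103010103010103010103030103010103030301010301010301010303010301010303, 0x3010101010101030101030103010301030103010101030303010103010301030103010101010101030103010101010101030101030103010301030103010101030301030101010303030101030103010301030101030101030101030301030101030303010103010103010103030103010103030103010101030303030301010103010103030103010103030303030101010301010303010301010303010301010303010101]),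
  (24, 1, [0x30101010101010301010301030103010301030101010303030101030103010301030101010101010301030101030101030101030301030101030303010103010103010103030103010103030103010101030301030101010303030101030103010301030301030101030301030103010103010303010301010303010101])]

/-- the generators -/
noncomputable def g (m : ℕ) : Cfsg.Omega (ZMod 2) (Cfsg.quadFormPlus 4 (ZMod 2)) := if m = 0 then g0 else g1

theorem hyp : ∀ m ∈ [0, 2], m < 255 ∧ Compat (C.pt TP) (omegaMat (Cfsg.quadFormPlus 4 (ZMod 2)) (g m)) (permG 120 W m) := by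
  simp only [List.forall_mem_cons]
  exact ⟨⟨by norm_num, g0_val ▸ c0⟩, ⟨by norm_num, g1_val ▸ c1⟩, List.forall_mem_nil _⟩

theorem lb_ok : band (lbInA (lettersOf [1, 3]) lb) (Nat.ble 174182400 (lbVal (stepN W) 120 lb [])) = true := by
  decide +kernel

theorem gen (s : Cfsg.Omega (ZMod 2) (Cfsg.quadFormPlus 4 (ZMod 2))) : s ∈ cl g [1, 3] :=
  gen_of_card (omegaMat (Cfsg.quadFormPlus 4 (ZMod 2))) inj hyp card_P8 (by norm_num)
    (lbVal_le_of_inA (SM.perm W_ok (by norm_num)) (inA_cl _ _) lb_ok) s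

theorem h0 : A0 * A0 = R0 ∧ R0 * R0 = S0 ∧ (S0 - 1) * (S0 * (S0 * (S0 - 1))) = 1 := by decide +kernel
theorem h1 : A1 * A1 = R1 ∧ R1 * R1 = S1 ∧ (S1 - 1) * (S1 * (S1 * (S1 - 1))) = 1 := by decide +kernel
theorem h2 : S0 * S1 = S1 * S0 := by decide +kernel

end P8



/-- Vanishing of first cohomology on the natural module for three small orthogonal groups over the field with two elements: for the commutator subgroup of the isometry group of the elliptic quadratic form in dimension 4, of the elliptic form in dimension 6, and of the hyperbolic form in dimension 8, every crossed homomorphism into the natural module (a map f with f(gh) = f(g) + g·f(h)) is principal (of the form g ↦ g·v − v). -/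
theorem result : (∀ f : ↥(Cfsg.Omega (ZMod 2) (Cfsg.quadFormMinus 1 (ZMod 2) 1 1)) → ((Fin 1 ⊕ Fin 1) ⊕ Fin 2 → ZMod 2), (∀ g h : ↥(Cfsg.Omega (ZMod 2) (Cfsg.quadFormMinus 1 (ZMod 2) 1 1)), f (g * h) = f g + Matrix.mulVec (((g : ↥(Cfsg.isometryGroup (ZMod 2) (Cfsg.quadFormMinus 1 (ZMod 2) 1 1))) : GL ((Fin 1 ⊕ Fin 1) ⊕ Fin 2) (ZMod 2)) : Matrix ((Fin 1 ⊕ Fin 1) ⊕ Fin 2) ((Fin 1 ⊕ Fin 1) ⊕ Fin 2) (ZMod 2)) (f h)) → ∃ v : (Fin 1 ⊕ Fin 1) ⊕ Fin 2 → ZMod 2, ∀ g : ↥(Cfsg.Omega (ZMod 2) (Cfsg.quadFormMinus 1 (ZMod 2) 1 1)), f g = Matrix.mulVec (((g : ↥(Cfsg.isometryGroup (ZMod 2) (Cfsg.quadFormMinus 1 (ZMod 2) 1 1))) : GL ((Fin 1 ⊕ Fin 1) ⊕ Fin 2) (ZMod 2)) : Matrix ((Fin 1 ⊕ Fin 1) ⊕ Fin 2) ((Fin 1 ⊕ Fin 1) ⊕ Fin 2) (ZMod 2)) v - v) ∧ (∀ f : ↥(Cfsg.Omega (ZMod 2) (Cfsg.quadFormMinus 2 (ZMod 2) 1 1)) → ((Fin 2 ⊕ Fin 2) ⊕ Fin 2 → ZMod 2), (∀ g h : ↥(Cfsg.Omega (ZMod 2) (Cfsg.quadFormMinus 2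 (ZMod 2) 1 1)), f (g * h) = f g + Matrix.mulVec (((g : ↥(Cfsg.isometryGroup (ZMod 2) (Cfsg.quadFormMinus 2 (ZMod 2) 1 1))) : GL ((Fin 2 ⊕ Fin 2) ⊕ Fin 2) (ZMod 2)) : Matrix ((Fin 2 ⊕ Fin 2) ⊕ Fin 2) ((Fin 2 ⊕ Fin 2) ⊕ Fin 2) (ZMod 2)) (f h)) → ∃ v : (Fin 2 ⊕ Fin 2) ⊕ Fin 2 → ZMod 2, ∀ g : ↥(Cfsg.Omega (ZMod 2) (Cfsg.quadFormMinus 2 (ZMod 2) 1 1)), f g = Matrix.mulVec (((g : ↥(Cfsg.isometryGroup (ZMod 2) (Cfsg.quadFormMinus 2 (ZMod 2) 1 1))) : GL ((Fin 2 ⊕ Fin 2) ⊕ Fin 2) (ZMod 2)) : Matrix ((Fin 2 ⊕ Fin 2) ⊕ Fin 2) ((Fin 2 ⊕ Fin 2) ⊕ Fin 2) (ZMod 2)) v - v) ∧ (∀ f : ↥(Cfsg.Omega (ZMod 2) (Cfsg.quadFormPlus 4 (ZMod 2))) → (Fin 4 ⊕ Fin 4 → ZMod 2), (∀ g h : ↥(Cfsg.Omega (ZMod 2) (Cfsg.quadFormPlus 4 (ZMod 2))), f (g * h) = f g + Matrix.mulVec (((g : ↥(Cfsg.isometryGroup (ZMod 2) (Cfsg.quadFormPlus 4 (ZMod 2)))) : GL (Fin 4 ⊕ Fin 4) (ZMod 2)) : Matrix (Fin 4 ⊕ Fin 4) (Fin 4 ⊕ Fin 4) (ZMod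 2)) (f h)) → ∃ v : Fin 4 ⊕ Fin 4 → ZMod 2, ∀ g : ↥(Cfsg.Omega (ZMod 2) (Cfsg.quadFormPlus 4 (ZMod 2))), f g = Matrix.mulVec (((g : ↥(Cfsg.isometryGroup (ZMod 2) (Cfsg.quadFormPlus 4 (ZMod 2)))) : GL (Fin 4 ⊕ Fin 4) (ZMod 2)) : Matrix (Fin 4 ⊕ Fin 4) (Fin 4 ⊕ Fin 4) (ZMod 2)) v - v) := by
  refine ⟨fun f hf => ?_, fun f hf => chain (ρ := omegaMat _) hf (omegaMat_inj _) M6.gen M6.g0_val M6.g1_val
    M6.h0 M6.h1 M6.h2, fun f hf => chain (ρ := omegaMat _) hf (omegaMat_inj _) P8.gen P8.g0_val P8.g1_val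
    P8.h0 P8.h1 P8.h2⟩
  have hf' : ∀ g h, f (g * h) = f g + omegaMat _ g *ᵥ f h := hf
  have e0 : M4.g0 * M4.g0 = 1 := omegaMat_inj _ (by rw [map_mul, M4.g0_val, M4.h0, map_one])
  have e1 : M4.g1 * (M4.g1 * M4.g1) = 1 :=
    omegaMat_inj _ (by rw [map_mul, map_mul, M4.g1_val, M4.h1, map_one])
  obtain ⟨v, h1, h2⟩ := M4.h2 (f M4.g0) (f M4.g1) (by rw [← M4.g0_val, ← hf', e0, der_one hf'])
    (by rw [← M4.g1_val, ← hf', ← hf', e1, der_one hf'])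
  exact ⟨v, princ hf' M4.gen (h1.trans (by rw [← M4.g0_val]; rfl)) (h2.trans (by rw [← M4.g1_val]; rfl))⟩

end Cfsg.Agent.S5405
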