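import Cfsg.Statements.S5408
import Cfsg.Agent.Lib.MType.Basic

set_option autoImplicit false
open Cfsg

namespace Cfsg.Agent.S5408

open CfsgLib.ExtraTwo CfsgLib.LargeExtra CfsgLib.MType CfsgLib.Leech

/-- Let G be a finite group of Monster type at the involution z with Q the extraspecial normal subgroup of order 2^25 of C = C_G(z) (so C/Q is identified with the first Conway group with Q modulo its centre the Leech lattice modulo 2, and z is not weakly closed in Q). Then Q is of plus type: it contains an elementary abelian subgroup of order 2^13. -/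
theorem result {G : Type*} [Group G] [Finite G] (z : G) (Q : Subgroup (Subgroup.centralizer ({z} : Set G))) [Q.Normal] (hM : Cfsg.IsOfMonsterType z Q) : ∃ E : Subgroup Q, Cfsg.IsElementaryAbelian 2 E ∧ Nat.card E = 2 ^ 13 := by
  obtain ⟨e, L, m⟩ := exists_mt hM
  obtain ⟨g, h1, h2⟩ := not_weakly_closed hM.1
  have p := m.pair h1 h2
  have hc := m.card_E h1 h2
  let f : Q →* G := (Subgroup.centralizer ({z} : Set G)).subtype.comp Q.subtype
  have hf : Function.Injective f := Subtype.val_injective.comp Subtype.val_injective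
  refine ⟨(amb Q ⊓ (amb Q).map (MulAut.conj g).toMonoidHom).comap f, ⟨⟨⟨fun a b => ?_⟩⟩, fun a ha => ?_⟩, ?_⟩
  · exact Subtype.ext (hf (p.E_comm a.2 b.2))
  · exact hf (by simpa [pow_two] using p.E_sq ha)
  · rw [← hc, ← Subgroup.card_map_of_injective hf, Subgroup.map_comap_eq_self]
    intro x hx
    obtain ⟨h, hx⟩ := mem_amb.mp hx.1
    exact ⟨⟨⟨x, h⟩, hx⟩, rfl⟩

end Cfsg.Agent.S5408
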