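import Cfsg.Statements.S5410
import Cfsg.Agent.Lib.MType.Basic

set_option autoImplicit false
open Cfsg

namespace Cfsg.Agent.S5410

open CfsgLib.ExtraTwo CfsgLib.LargeExtra CfsgLib.MType CfsgLib.Leech

/-- Let G be a finite group of Monster type at the involution z with Q the extraspecial normal subgroup of order 2^25 of C = C_G(z) (so C/Q is identified with the first Conway group with Q modulo its centre the Leech lattice modulo 2, and z is not weakly closed in Q). Let g in G with s = g z g⁻¹ a member of Q other than z, let X be the image in C/Q of the centralizer of s in C, and let E be the image in C/Q of the intersection of g Q g⁻¹ with C. Then E is a normal subgroup of X, elementary abelian of order 2^11, and it has a complement in X isomorphic to the Mathieu group of degree 24 (the automorphism group of the length-24 binary Golay code). -/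
theorem result {G : Type*} [Group G] [Finite G] (z : G) (Q : Subgroup (Subgroup.centralizer ({z} : Set G))) [Q.Normal] (hM : Cfsg.IsOfMonsterType z Q) (s : G) (hsQ : ∃ hsc : s ∈ Subgroup.centralizer ({z} : Set G), (⟨s, hsc⟩ : Subgroup.centralizer ({z} : Set G)) ∈ Q) (hs : IsConj z s) (hs1 : s ≠ z) (g : G) (hg : g * z * g⁻¹ = s) (X E : Subgroup ((Subgroup.centralizer ({z} : Set G)) ⧸ Q)) (hX : X = ((Subgroup.centralizer ({z} : Set G) ⊓ Subgroup.centralizer ({s} : Set G)).subgroupOf (Subgroup.centralizer ({z} : Set G))).map (QuotientGroup.mk' Q)) (hE : E = (((Q.map (Subgroup.centralizer ({z} : Set G)).subtype).map (MulAut.conj g).toMonoidHom ⊓ Subgroup.centralizer ({z} : Set G)).subgroupOf (Subgroup.centralizer ({z} : Set G))).map (QuotientGroup.mk' Q)) : E ≤ X ∧ (∀ x ∈ X, ∀ y ∈ E, x * y * x⁻¹ ∈ E) ∧ Cfsg.IsElementaryAbelian 2 E ∧ Nat.card E = 2 ^ 11 ∧ ∃ K : Subgroup ((Subgroup.centralizer ({z} : Set G)) ⧸ Q), K ≤ X ∧ E ⊓ K = ⊥ ∧ E ⊔ K =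 X ∧ Nonempty (K ≃* Cfsg.M24) := by
  obtain ⟨e, L, m⟩ := exists_mt hM
  subst hg
  have p := m.pair (mem_amb.mpr hsQ) hs1
  obtain ⟨γ, hv⟩ := m.exists_e8 (mem_amb.mpr hsQ) hs hs1
  have hc : Nat.card ((amb Q).map (MulAut.conj g).toMonoidHom) = 2 ^ 25 := by
    rw [card_map_conj, m.card]
  have hN := m.NN_eq_signs p hc hv
  have h0 : ¬ Cong (γ • e8 none) 0 :=
    MT.not_cong_zero (by rw [sqNorm_smul, sqNorm_e8]) (by rw [sqNorm_smul, sqNorm_e8]; norm_num)
  let φ : Co0 →* _ := e.symm.toMonoidHom.comp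
    ((QuotientGroup.mk' (Subgroup.center Co0)).comp (MulAut.conj γ).toMonoidHom)
  have hφ : ∀ a h, φ a = QuotientGroup.mk h ↔
      (QuotientGroup.mk (γ * a * γ⁻¹) : Spor.Co1) = e (QuotientGroup.mk h) :=
    fun a h => e.symm_apply_eq
  have hφ1 : ∀ a, φ a = 1 ↔ a = 1 ∨ a = negAut := by
    intro a
    have : φ a = 1 ↔ (QuotientGroup.mk (γ * a * γ⁻¹) : Spor.Co1) = 1 := by
      rw [← map_one e]; exact e.symm_apply_eq
    rw [this, QuotientGroup.mk_mul, QuotientGroup.mk_mul, QuotientGroup.mk_inv, conj_eq_one_iff,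
      mk_eq_one_co1]
  have hE' : E = signs.map φ := by
    rw [hE, Subgroup.inf_subgroupOf_right]
    ext y
    constructor
    · rintro ⟨h, hh, rfl⟩
      obtain ⟨a, ha⟩ := m.exists_g h
      have : a ∈ m.NN ((amb Q).map (MulAut.conj g).toMonoidHom) := m.mem_NN.mpr ⟨h, hh, ha⟩
      rw [hN, mem_map_conj] at this
      exact ⟨_, this, (hφ _ h).mpr (by simpa [mul_assoc] using ha)⟩
    · rintro ⟨a, ha, rfl⟩
      have : γ * a * γ⁻¹ ∈ m.NN ((amb Q).map (MulAut.conj g).toMonoidHom) := by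
        rw [hN]; exact ⟨a, ha, rfl⟩
      obtain ⟨h, h1, h2⟩ := m.mem_NN.mp this
      exact ⟨h, h1, ((hφ a h).mpr h2).symm⟩
  have hX' : ∀ x, x ∈ X ↔ ∃ σ c hc, x = φ (permAut σ * sgnAut c hc) := by
    intro x
    rw [hX, Subgroup.inf_subgroupOf_left]
    constructor
    · rintro ⟨h, hh, rfl⟩
      obtain ⟨a, ha⟩ := m.exists_g h
      have := (m.cong_of_comm hv ha (mem_cent.mp hh)).smul γ⁻¹
      rw [inv_smul_smul, ← mul_smul, ← mul_smul] at this
      obtain ⟨σ, c, hc, h1⟩ := monomial_of_cong this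
      exact ⟨σ, c, hc, by rw [← h1]; exact ((hφ _ h).mpr (by simpa [mul_assoc] using ha)).symm⟩
    · rintro ⟨σ, c, hc, rfl⟩
      obtain ⟨k, h1, h2⟩ := m.exists_h_comm hv h0 (g := γ * (permAut σ * sgnAut c hc) * γ⁻¹) (by
        rw [mul_smul, inv_smul_smul, mul_smul]; exact (cong_e8_of_monomial σ c hc none).smul γ)
      exact ⟨k, mem_cent.mpr h2, ((hφ _ k).mpr h1).symm⟩
  have hEX : E ≤ X := by
    rw [hE']
    rintro _ ⟨_, ⟨c, hc, rfl⟩, rfl⟩
    exact (hX' _).mpr ⟨1, c, hc, by rw [permAut_one, one_mul]⟩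
  have hsc : ∀ a ∈ signs, ∀ b ∈ signs, a * b = b * a := by
    rintro _ ⟨c, hc, rfl⟩ _ ⟨d, hd, rfl⟩
    rw [sgnAut_mul, sgnAut_mul]; congr 1; exact symmDiff_comm _ _
  have hinj : Function.Injective (φ.comp permHom) := by
    rw [injective_iff_map_eq_one]
    intro σ hσ
    rcases (hφ1 _).mp hσ with h | h
    · exact permHom_injective (h.trans (map_one _).symm)
    · refine (pp_permAut σ).unique ?_
      rw [← permHom_apply, h]
      exact fun a => Or.inr (by rw [negAut_smul, one_smul])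
  refine ⟨hEX, ?_, ⟨⟨⟨fun a b => ?_⟩⟩, ?_⟩, ?_, (φ.comp permHom).range, ?_, ?_, ?_,
    ⟨(MonoidHom.ofInjective hinj).symm⟩⟩
  · intro x hx y hy
    obtain ⟨σ, c, hc, rfl⟩ := (hX' x).mp hx
    rw [hE'] at hy ⊢
    obtain ⟨a, ha, rfl⟩ := hy
    refine ⟨_, permAut_conj_mem_signs σ ha, ?_⟩
    rw [← map_inv, ← map_mul, ← map_mul, mul_assoc (permAut σ) (sgnAut c hc),
      hsc _ ⟨c, hc, rfl⟩ a ha]
    congr 1; group
  · subst hE'
    obtain ⟨_, a, ha, rfl⟩ := a
    obtain ⟨_, b, hb, rfl⟩ := b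
    exact Subtype.ext (by simp only [Subgroup.coe_mul, ← map_mul, hsc a ha b hb])
  · rw [hE']
    rintro _ ⟨a, ha, rfl⟩
    rw [pow_two, ← map_mul, signs_mul_self ha, map_one]
  · have h1 := p.card_E_mul_card_map (QuotientGroup.mk' Q) (fun h => by
      rw [coe_mem_amb]; exact QuotientGroup.eq_one_iff _)
    rw [m.card_E (mem_amb.mpr hsQ) hs1, hc] at h1
    rw [hE, Subgroup.inf_subgroupOf_right]
    unfold amb at h1
    omega
  · rintro _ ⟨σ, rfl⟩
    exact (hX' _).mpr ⟨σ, ∅, isCW_empty, by rw [sgnAut_empty, mul_one]; rfl⟩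
  · rw [eq_bot_iff, hE']
    rintro _ ⟨⟨_, ⟨c, hc, rfl⟩, rfl⟩, σ, hσ⟩
    have h1 : φ (permAut σ * sgnAut c hc) = 1 := by
      rw [map_mul, ← hσ]
      have : φ.comp permHom σ * φ.comp permHom σ = 1 := by
        rw [hσ, ← map_mul, sgnAut_mul_self, map_one]
      exact this
    have h2 : σ = 1 := by
      refine (pp_monomial σ c hc).unique ?_
      rcases (hφ1 _).mp h1 with h | h <;> rw [h]
      · exact pp_one
      · exact fun a => Or.inr (by rw [negAut_smul, one_smul])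
    rw [← hσ, h2, map_one]; exact Subgroup.one_mem _
  · apply le_antisymm
    · refine sup_le hEX ?_
      rintro _ ⟨σ, rfl⟩
      exact (hX' _).mpr ⟨σ, ∅, isCW_empty, by rw [sgnAut_empty, mul_one]; rfl⟩
    · intro x hx
      obtain ⟨σ, c, hc, rfl⟩ := (hX' x).mp hx
      rw [map_mul]
      exact Subgroup.mul_mem _ (Subgroup.mem_sup_right ⟨σ, rfl⟩)
        (Subgroup.mem_sup_left (hE' ▸ ⟨_, ⟨c, hc, rfl⟩, rfl⟩))

end Cfsg.Agent.S5410
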