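import Cfsg.Statements.S5414
import Cfsg.Agent.Lib.MType.C3B

set_option autoImplicit false
open Cfsg

namespace Cfsg.Agent.S5414

open CfsgLib.ExtraTwo CfsgLib.LargeExtra CfsgLib.MType CfsgLib.Leech

/-- Let G be a finite group of Monster type at the involution z with Q the extraspecial normal subgroup of order 2^25 of C = C_G(z) (so C/Q is identified with the first Conway group with Q modulo its centre the Leech lattice modulo 2, and z is not weakly closed in Q). Let s be a conjugate of z in Q other than z and let Y be a subgroup of order 3 of the joint centralizer L of z and s that is not 3-central in L (Y lies in the centre of no Sylow 3-subgroup of L). Then the centralizer of Y modulo Y is a group of Thompson type (an involution whose centralizer D has generalized Fitting subgroup R extraspecial of order 2^9 with D/R the alternating group of degree 9, the involution not weakly closed in R). -/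
theorem result {G : Type*} [Group G] [Finite G] (z : G) (Q : Subgroup (Subgroup.centralizer ({z} : Set G))) [Q.Normal] (hM : Cfsg.IsOfMonsterType z Q) (s : G) (hsQ : ∃ hsc : s ∈ Subgroup.centralizer ({z} : Set G), (⟨s, hsc⟩ : Subgroup.centralizer ({z} : Set G)) ∈ Q) (hs : IsConj z s) (hs1 : s ≠ z) (Y : Subgroup G) (hY : Y ≤ Subgroup.centralizer ({z, s} : Set G)) (hY3 : Nat.card Y = 3) (hnc : ∀ P : Sylow 3 ↥(Subgroup.centralizer ({z, s} : Set G)), ¬ Y.subgroupOf (Subgroup.centralizer ({z, s} : Set G)) ≤ (Subgroup.center ↥(P : Subgroup ↥(Subgroup.centralizer ({z, s} : Set G)))).map (P : Subgroup ↥(Subgroup.centralizer ({z, s} : Set G))).subtype) [hn : (Y.subgroupOf (Subgroup.centralizer (Y : Set G))).Normal] : Cfsg.IsOfThompsonType (↥(Subgroup.centralizer (Y : Set G)) ⧸ Y.subgroupOf (Subgroup.centralizer (Y : Set G))) := by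
  obtain ⟨L, e, m, h⟩ := exists_mt_e8 hM (mem_amb.mpr hsQ) hs hs1
  obtain ⟨b, hb, hb3, L', e', m', h', c, hβ, hc, hc'⟩ := m.three_std h hY hY3
    (code_mkM (a := sgA) (by decide +kernel)) (b := C3B.σ) C3B.code_σ
  obtain rfl := hc.resolve_left fun e => (hc'.mpr e).elim hnc
  have := alternatingGroup.isSimpleGroup (α := Fin 9) (by simp)
  obtain ⟨z', R, hR, h1, h2, -⟩ := m'.quot_cent (not_weakly_closed hM.1) h' (by decide) hb3
    ((orderOf_permAut _).trans C3B.ord) hβ hb C3B.exists_hom (two_eq_bot_of_simple Nat.prime_three
      (by norm_num) (by rw [nat_card_alternatingGroup]; simp [Nat.factorial])) C3B.fd (w := 4) rfl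
  exact ⟨z', R, hR, h1, h2⟩

end Cfsg.Agent.S5414
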