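import Cfsg.Statements.S5416
import Cfsg.Agent.Lib.MType.C7

set_option autoImplicit false
open Cfsg

namespace Cfsg.Agent.S5416

open CfsgLib.ExtraTwo CfsgLib.LargeExtra CfsgLib.MType CfsgLib.Leech

/-- Let G be a finite group of Monster type at the involution z with Q the extraspecial normal subgroup of order 2^25 of C = C_G(z) (so C/Q is identified with the first Conway group with Q modulo its centre the Leech lattice modulo 2, and z is not weakly closed in Q). Let s be a conjugate of z in Q other than z and let B be a Sylow 7-subgroup of the joint centralizer of z and s. Then the centralizer of B modulo B is a group of Held type (an involution whose centralizer D has generalized Fitting subgroup R extraspecial of order 2^7 with D/R isomorphic to SL(3, 2), exactly 29 of its conjugates lying in R, and the involution not weakly closed in R). -/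
theorem result {G : Type*} [Group G] [Finite G] (z : G) (Q : Subgroup (Subgroup.centralizer ({z} : Set G))) [Q.Normal] (hM : Cfsg.IsOfMonsterType z Q) (s : G) (hsQ : ∃ hsc : s ∈ Subgroup.centralizer ({z} : Set G), (⟨s, hsc⟩ : Subgroup.centralizer ({z} : Set G)) ∈ Q) (hs : IsConj z s) (hs1 : s ≠ z) (B : Subgroup G) (hB : B ≤ Subgroup.centralizer ({z, s} : Set G)) (hBp : Nat.card B = 7 ^ (Nat.card ↥(Subgroup.centralizer ({z, s} : Set G))).factorization 7) [hn : (B.subgroupOf (Subgroup.centralizer (B : Set G))).Normal] : Cfsg.IsOfHeldType (↥(Subgroup.centralizer (B : Set G)) ⧸ B.subgroupOf (Subgroup.centralizer (B : Set G))) := by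
  obtain ⟨L, e, m, h⟩ := exists_mt_e8 hM (mem_amb.mpr hsQ) hs hs1
  obtain ⟨b, hb, hb7, L', e', m', h', hβ⟩ := m.sylow_std h (by norm_num) (by norm_num)
    (by decide +kernel) hB hBp C7.ord
  obtain ⟨z', R, hR, h1, h2, h3⟩ := m'.quot_cent (not_weakly_closed hM.1) h' (by decide) hb7
    ((orderOf_permAut _).trans C7.ord) hβ hb C7.exists_hom C7.two_eq_bot C7.fd (w := 3) rfl
  exact ⟨z', R, hR, h1, h2, h3.trans (C7.ncard_conj_7 m' (not_weakly_closed hM.1) (b := inc2 z s b)
    (congrArg Subtype.val hb7) hβ)⟩

end Cfsg.Agent.S5416
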