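import Cfsg.Statements.S5421
import Cfsg.Agent.Lib.LargeExtra.Basic

set_option autoImplicit false
open Cfsg

namespace Cfsg.Agent.S5421

open CfsgLib.ExtraTwo CfsgLib.LargeExtra


/-- Let Q be an extraspecial 2-subgroup of the finite group G whose centralizer in G is its centre Z and which is normal in the centralizer of Z. If some involution b of Q outside Z has Z inside the largest normal 2-subgroup of the centralizer of b, then Q is a large extraspecial 2-subgroup of G. -/
theorem result {G : Type*} [Group G] [Finite G] (Q : Subgroup G) (hL1 : Cfsg.IsExtraspecial 2 ↥Q) (hL2 : Subgroup.centralizer (Q : Set G) = ((Subgroup.center ↥Q).map Q.subtype)) (hL3 : Subgroup.centralizer (((Subgroup.center ↥Q).map Q.subtype) : Set G) ≤ Subgroup.normalizer (Q : Set G)) (b : G) (hbQ : b ∈ Q) (hbZ : b ∉ ((Subgroup.center ↥Q).map Q.subtype)) (hb : orderOf b = 2) (hZ : ((Subgroup.center ↥Q).map Q.subtype) ≤ (Cfsg.pCore 2 ↥(Subgroup.centralizer ({b} : Set G))).map (Subgroup.centralizer ({b} : Set G)).subtype) : Cfsg.IsLargeExtraspecial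 Q := by
  obtain ⟨z, h⟩ := exists_pre hL1 hL2 hL3
  rw [h.es.center_map, Subgroup.zpowers_le] at hZ
  rw [h.es.center_map, h.es.mem_zpowers, not_or] at hbZ
  refine h.isLarge (h.noOdd_of_involution hbQ hbZ.1 hbZ.2 (mul_self_of_orderOf hb)
    (CfsgLib.Core.isPGroup_map_pCore _) hZ fun k hk => ?_)
  exact (Subgroup.mem_normalizer_iff.mp (CfsgLib.Core.normalizer_le_normalizer_map_pCore _
    (Subgroup.le_normalizer (Subgroup.mem_centralizer_singleton_iff.mpr hk))) z).mp hZ

end Cfsg.Agent.S5421
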