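import Cfsg.Statements.S5422
import Cfsg.Agent.Lib.LargeExtra.Pair

set_option autoImplicit false
open Cfsg

namespace Cfsg.Agent.S5422

open CfsgLib.ExtraTwo CfsgLib.LargeExtra


/-- Let Q be an extraspecial 2-subgroup of the finite group G whose centralizer in G is its centre Z and which is normal in the centralizer of Z; suppose Q has width at least 2 (order 2^(2w+1) with w ≥ 2) and g is an element of G not normalizing Z with g Z g⁻¹ inside Q. Then Z lies inside g Q g⁻¹; writing V for the subgroup generated by Z and g Z g⁻¹ (a four-group), the normalizer of V induces on V its full automorphism group, that is, the centralizer of V has index 6 in the normalizer of V; and Q is a large extraspecial 2-subgroup of G. -/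
theorem result {G : Type*} [Group G] [Finite G] (Q : Subgroup G) (hL1 : Cfsg.IsExtraspecial 2 ↥Q) (hL2 : Subgroup.centralizer (Q : Set G) = ((Subgroup.center ↥Q).map Q.subtype)) (hL3 : Subgroup.centralizer (((Subgroup.center ↥Q).map Q.subtype) : Set G) ≤ Subgroup.normalizer (Q : Set G)) (w : ℕ) (hw : 2 ≤ w) (hcard : Nat.card ↥Q = 2 ^ (2 * w + 1)) (g : G) (hg : g ∉ Subgroup.normalizer (((Subgroup.center ↥Q).map Q.subtype) : Set G)) (hZg : (((Subgroup.center ↥Q).map Q.subtype)).map (MulAut.conj g).toMonoidHom ≤ Q) : ((Subgroup.center ↥Q).map Q.subtype) ≤ (Q).map (MulAut.conj g).toMonoidHom ∧ (Subgroup.centralizer ((((Subgroup.center ↥Q).map Q.subtype) ⊔ (((Subgroup.center ↥Q).map Q.subtype)).map (MulAut.conj g).toMonoidHom : Subgroup G) : Set G)).relIndex (Subgroup.normalizer ((((Subgroup.center ↥Q).map Q.subtype) ⊔ (((Subgroup.center ↥Q).map Q.subtype)).map (MulAut.conj g).toMonoidHom : Subgroup G) : Set G)) = 6 ∧ Cfsg.IsLargeExtraspecial Q := by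
  obtain ⟨z, h⟩ := exists_pre hL1 hL2 hL3
  rw [h.es.center_map] at hg hZg ⊢
  have h8 : 8 < Nat.card Q := by
    rw [hcard]
    calc 8 < 2 ^ 5 := by norm_num
      _ ≤ _ := Nat.pow_le_pow_right (by norm_num) (by omega)
  have e : (Subgroup.zpowers z).map (MulAut.conj g).toMonoidHom = Subgroup.zpowers (g * z * g⁻¹) :=
    MonoidHom.map_zpowers _ _
  rw [e] at hZg ⊢
  rw [Subgroup.zpowers_le] at hZg
  have hne : g * z * g⁻¹ ≠ z := by
    intro e'
    apply hg
    rw [CfsgLib.Core.mem_normalizer_iff_map_conj_eq', e, e']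
  have p := h.pair h8 hZg hne
  refine ⟨Subgroup.zpowers_le.mpr p.zQ1, ?_, h.isLarge (h.noOdd_of_conj_mem h8 hZg hne)⟩
  rw [Subgroup.zpowers_eq_closure, Subgroup.zpowers_eq_closure, ← Subgroup.closure_union]
  exact p.relIndex_eq_six

end Cfsg.Agent.S5422
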