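import Mathlib
import Cfsg.Statements.S5423
import Cfsg.Agent.Lib.LargeExtra.Hol

set_option autoImplicit false
open Cfsg

namespace Cfsg.Agent.S5423

open Subgroup CfsgLib.ExtraTwo CfsgLib.LargeExtra CfsgLib.Core

/-- Let G be a finite group that is the split extension of an elementary abelian normal subgroup U of order 2^(n+1), n ≥ 1, by its full automorphism group: U has a complement M in G whose conjugation action on U is faithful and realizes every automorphism of U. Let Z be a subgroup of U of order 2 and Q the largest normal 2-subgroup of the centralizer C of Z. Then Q is extraspecial of order 2^(2n+1) with an elementary abelian subgroup of order 2^(n+1) (plus type), Q is a large extraspecial 2-subgroup of G, and C is the split extension of Q by the general linear group of degree n over the field with two elements. -/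
theorem result {G : Type*} [Group G] [Finite G] (n : ℕ) (hn : 1 ≤ n) (U M : Subgroup G) [U.Normal] (hU : Cfsg.IsElementaryAbelian 2 U) (hUcard : Nat.card ↥U = 2 ^ (n + 1)) (hUM : U ⊓ M = ⊥) (hUM' : U ⊔ M = ⊤) (hfaith : ∀ m ∈ M, (∀ u ∈ U, m * u * m⁻¹ = u) → m = 1) (hfull : ∀ φ : ↥U ≃* ↥U, ∃ m ∈ M, ∀ u : ↥U, ((φ u : ↥U) : G) = m * u * m⁻¹) (Z : Subgroup G) (hZU : Z ≤ U) (hZ : Nat.card ↥Z = 2) (Q : Subgroup G) (hQ : Q = (Cfsg.pCore 2 ↥(Subgroup.centralizer (Z : Set G))).map (Subgroup.centralizer (Z : Set G)).subtype) : Cfsg.IsExtraspecial 2 ↥Q ∧ Nat.card ↥Q = 2 ^ (2 * n + 1) ∧ (∃ E : Subgroup G, E ≤ Q ∧ Cfsg.IsElementaryAbelian 2 E ∧ Nat.card ↥E = 2 ^ (n + 1)) ∧ Cfsg.IsLargeExtraspecial Q ∧ ∃ K : Subgroup G, K ≤ Subgroup.centralizer (Z : Set G) ∧ Q ⊓ K = ⊥ ∧ Q ⊔ K = Subgroup.centralizer (Z : Set G) ∧ Nonempty (↥K ≃* Matrix.GeneralLinearGroup (Fin n) (ZMod 2)) := by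
  have : Fact (Nat.Prime 2) := ⟨Nat.prime_two⟩
  obtain ⟨⟨z, hzZ⟩, hz⟩ := exists_prime_orderOf_dvd_card' (G := Z) 2 hZ.symm.dvd
  replace hz : orderOf z = 2 := (orderOf_coe _).trans hz
  obtain rfl : zpowers z = Z := eq_of_le_of_card_ge (zpowers_le.2 hzZ) (by rw [hZ, Nat.card_zpowers, hz])
  rw [zpowers_eq_closure, centralizer_closure] at hQ ⊢
  have h : Hol U M z n := ⟨fun u hu => (pow_two u).symm.trans (hU.2 u hu), hUcard, hZU hzZ, ne_one_of_orderOf hz, hn,
    fun m _ u hu => Normal.conj_mem inferInstance u hu m, hfaith, hfull,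
    fun g _ => by simpa [eq_comm] using mem_sup_of_normal_left.1 (hUM' ▸ mem_top g)⟩
  obtain ⟨pre, h1, h2, -, h3⟩ := h.main
  have hp : IsPGroup 2 U := IsPGroup.of_card hUcard
  subst hQ
  exact ⟨pre.es.isExtraspecial, h1, ⟨U, h2, hU, hUcard⟩,
    pre.isLarge (pre.noOdd_of_mem_pCore (le_pCore hp (hZU hzZ))), h3⟩

end Cfsg.Agent.S5423
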