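import Mathlib
import Cfsg.Statements.S5424
import Cfsg.Agent.Lib.LargeExtra.Hol

set_option autoImplicit false
open Cfsg

namespace Cfsg.Agent.S5424

open Subgroup CfsgLib CfsgLib.ExtraTwo CfsgLib.LargeExtra Matrix

/-- block matrix with first column `(1, 0, ..., 0)` -/
def P {k : ℕ} (w : Fin k → ZMod 2) (B : Matrix (Fin k) (Fin k) (ZMod 2)) :
    Matrix (Fin (k + 1)) (Fin (k + 1)) (ZMod 2) :=
  Matrix.of (vecCons (vecCons 1 w) fun i => vecCons 0 (B i))

section
variable {k : ℕ}

theorem P_mul (w w' : Fin k → ZMod 2) (B B' : Matrix (Fin k) (Fin k) (ZMod 2)) :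
    P w B * P w' B' = P (w' + w ᵥ* B') (B * B') := by
  ext i j
  refine Fin.cases ?_ (fun i => ?_) i <;> refine Fin.cases ?_ (fun j => ?_) j <;>
    simp [P, mul_apply, Fin.sum_univ_succ, vecMul, dotProduct]

theorem P_one : P (0 : Fin k → ZMod 2) 1 = 1 := by
  ext i j
  refine Fin.cases ?_ (fun i => ?_) i <;> refine Fin.cases ?_ (fun j => ?_) j <;>
    simp [P, one_apply, Fin.succ_ne_zero, (Fin.succ_ne_zero _).symm]

theorem det_P (w : Fin k → ZMod 2) (B : Matrix (Fin k) (Fin k) (ZMod 2)) : (P w B).det = B.det := by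
  rw [det_succ_column_zero, Fin.sum_univ_succ]
  simp [P]
  congr 1

theorem P_inj {w w' : Fin k → ZMod 2} {B B' : Matrix (Fin k) (Fin k) (ZMod 2)} (h : P w B = P w' B') :
    w = w' ∧ B = B' :=
  ⟨funext fun j => by simpa [P] using congrFun (congrFun h 0) j.succ,
    Matrix.ext fun i j => by simpa [P] using congrFun (congrFun h i.succ) j.succ⟩

/-- the translations -/
def hU : Multiplicative (Fin k → ZMod 2) →* SpecialLinearGroup (Fin (k + 1)) (ZMod 2) :=
  MonoidHom.mk' (fun w => ⟨P w.toAdd 1, by rw [det_P, det_one]⟩) fun a b => Subtype.ext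
    (show P (a.toAdd + b.toAdd) 1 = P _ 1 * P _ 1 by simp [P_mul, add_comm])

/-- the complement -/
def hM : SpecialLinearGroup (Fin k) (ZMod 2) →* SpecialLinearGroup (Fin (k + 1)) (ZMod 2) :=
  MonoidHom.mk' (fun B => ⟨P 0 B.1, by rw [det_P, B.2]⟩) fun a b => Subtype.ext
    (show P 0 (a.1 * b.1) = P 0 _ * P 0 _ by simp [P_mul])

theorem hU_inj : Function.Injective (hU (k := k)) := fun _ _ e => (P_inj (congrArg Subtype.val e)).1

theorem hM_inj : Function.Injective (hM (k := k)) := fun _ _ e => Subtype.ext (P_inj (congrArg Subtype.val e)).2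

theorem hU_hM (B : SpecialLinearGroup (Fin k) (ZMod 2)) (w : Fin k → ZMod 2) :
    hU (Multiplicative.ofAdd w) * hM B = hM B * hU (Multiplicative.ofAdd (w ᵥ* B.1)) :=
  Subtype.ext (show P w 1 * P 0 B.1 = P 0 B.1 * P (w ᵥ* B.1) 1 by simp [P_mul])

end

/-- Let G be the special linear group of degree n + 2 over the field with two elements, n ≥ 2, let z be a transvection, and let Q be the largest normal 2-subgroup of the centralizer C of z. Then Q is extraspecial of order 2^(2n+1) with an elementary abelian subgroup of order 2^(n+1) (plus type), Q is a large extraspecial 2-subgroup of G, and C is the split extension of Q by the special linear group of degree n over the field with two elements. -/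
theorem result (n : ℕ) (hn : 2 ≤ n) (z : Matrix.SpecialLinearGroup (Fin (n + 2)) (ZMod 2)) (hz : (z : Matrix (Fin (n + 2)) (Fin (n + 2)) (ZMod 2)) = Matrix.transvection 0 1 1) (Q : Subgroup (Matrix.SpecialLinearGroup (Fin (n + 2)) (ZMod 2))) (hQ : Q = (Cfsg.pCore 2 ↥(Subgroup.centralizer ({z} : Set (Matrix.SpecialLinearGroup (Fin (n + 2)) (ZMod 2))))).map (Subgroup.centralizer ({z} : Set (Matrix.SpecialLinearGroup (Fin (n + 2)) (ZMod 2)))).subtype) : Cfsg.IsExtraspecial 2 ↥Q ∧ Nat.card ↥Q = 2 ^ (2 * n + 1) ∧ (∃ E : Subgroup (Matrix.SpecialLinearGroup (Fin (n + 2)) (ZMod 2)), E ≤ Q ∧ Cfsg.IsElementaryAbelian 2 E ∧ Nat.card ↥E = 2 ^ (n + 1)) ∧ Cfsg.IsLargeExtraspecial Q ∧ ∃ K : Subgroup (Matrix.SpecialLinearGroup (Fin (n + 2)) (ZMod 2)), K ≤ Subgroup.centralizer ({z} : Set (Matrix.SpecialLinearGroup (Fin (n + 2)) (ZMod 2))) ∧ Q ⊓ K = ⊥ ∧ Q ⊔ K = Subgroup.centralizer ({z} : Set (Matrix.SpecialLinearGroup (Fin (n + 2)) (ZMod 2))) ∧ Nonempty (↥K ≃* Matrix.SpecialLinearGroup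 (Fin n) (ZMod 2)) := by
  have sq : ∀ u ∈ (hU (k := n + 1)).range, u * u = 1 := by
    rintro _ ⟨w, rfl⟩
    rw [← map_mul, show w * w = 1 from add_self_zmod2 w.toAdd, map_one]
  have card : Nat.card (hU (k := n + 1)).range = 2 ^ (n + 1) := by
    rw [← Nat.card_congr (MonoidHom.ofInjective hU_inj).toEquiv, Nat.card_congr Multiplicative.toAdd]
    simp
  have norm : ∀ m ∈ (hM (k := n + 1)).range, ∀ u ∈ (hU (k := n + 1)).range, m * u * m⁻¹ ∈ (hU (k := n + 1)).range := by
    rintro _ ⟨B, rfl⟩ _ ⟨w, rfl⟩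
    rw [mul_assoc, ← map_inv, show hU w = hU (Multiplicative.ofAdd w.toAdd) from rfl, hU_hM, ← mul_assoc,
      ← map_mul, mul_inv_cancel, map_one, one_mul]
    exact ⟨_, rfl⟩
  have faith : ∀ m ∈ (hM (k := n + 1)).range, (∀ u ∈ (hU (k := n + 1)).range, m * u * m⁻¹ = u) → m = 1 := by
    rintro _ ⟨B, rfl⟩ h
    have : B = 1 := Subtype.ext (Matrix.ext fun i j => by
      have e := comm_of_conj_eq (h _ ⟨Multiplicative.ofAdd (Pi.single i 1), rfl⟩)
      rw [hU_hM, mul_right_inj] at e
      have := congrFun (Multiplicative.ofAdd.injective (hU_inj e)) j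
      simpa [one_apply, Pi.single_apply, eq_comm] using this.symm)
    rw [this, map_one]
  have zU : hU (Multiplicative.ofAdd (Pi.single 0 1)) = z := Subtype.ext (by
    rw [hz]
    change P (Pi.single 0 1) 1 = _
    ext i j
    refine Fin.cases ?_ (fun i => ?_) i <;> refine Fin.cases ?_ (fun j => ?_) j <;>
      simp [P, transvection, one_apply, Fin.succ_ne_zero, (Fin.succ_ne_zero _).symm, Pi.single_apply,
        single_apply, eq_comm]
    exact if_congr (Fin.succ_inj (b := 0)).symm rfl rfl)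
  have h : Hol (hU (k := n + 1)).range (hM (k := n + 1)).range z n := by
    refine ⟨sq, card, ⟨_, zU⟩, fun e => ?_, by omega, norm, faith, full_of_card sq card norm faith ?_,
      fun g hg => ?_⟩
    · rw [← zU, ← map_one hU] at e
      simpa using congrFun (Multiplicative.ofAdd.injective (hU_inj e)) 0
    · rw [← Nat.card_congr (MonoidHom.ofInjective hM_inj).toEquiv,
        Nat.card_congr (nonempty_GL_equiv_SL (n + 1)).some.toEquiv]
    · have e : g.1 * transvection 0 1 1 = transvection 0 1 1 * g.1 := hz ▸ congrArg Subtype.val hg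
      have h0 : ∀ i : Fin (n + 1), g.1 i.succ 0 = 0 := fun i => by
        have := congrFun (congrFun e i.succ) 1
        rw [mul_transvection_apply_same, transvection_mul_apply_of_ne _ _ _ _ (Fin.succ_ne_zero i)] at this
        simpa using this
      have h1 : g.1 0 0 = 1 := zmod2_ne_zero.1 fun e0 => by
        have := g.2
        rw [det_succ_column_zero, Fin.sum_univ_succ] at this
        simp [e0, h0] at this
      have eg : g.1 = P (fun j => g.1 0 j.succ) (Matrix.of fun i j => g.1 i.succ j.succ) := by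
        ext i j
        refine Fin.cases ?_ (fun i => ?_) i <;> refine Fin.cases ?_ (fun j => ?_) j <;> simp [P, h0, h1]
      let B : SpecialLinearGroup (Fin (n + 1)) (ZMod 2) := ⟨_, (det_P _ _).symm.trans (eg ▸ g.2)⟩
      refine ⟨_, ⟨Multiplicative.ofAdd ((fun j => g.1 0 j.succ) ᵥ* (B⁻¹).1), rfl⟩, _, ⟨B, rfl⟩, ?_⟩
      rw [hU_hM, vecMul_vecMul, show (B⁻¹).1 * B.1 = 1 from congrArg Subtype.val (inv_mul_cancel B), vecMul_one]
      exact Subtype.ext (eg.trans (show _ = P 0 B.1 * P _ 1 by simp [P_mul, B]))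
  obtain ⟨pre, h1, h2, -, K, h3, h4, h5, ⟨e⟩⟩ := h.main
  subst hQ
  exact ⟨pre.es.isExtraspecial, h1, ⟨_, h2, h.elem, h.card⟩, h.large hn, K, h3, h4, h5,
    ⟨e.trans (nonempty_GL_equiv_SL n).some⟩⟩

end Cfsg.Agent.S5424
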