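import Mathlib
import Cfsg.Statements.S5427
import Cfsg.Agent.Lib.LargeExtra.Struct

set_option autoImplicit false
open Cfsg

namespace Cfsg.Agent.S5427

open Subgroup CfsgLib.ExtraTwo CfsgLib.LargeExtra CfsgLib.Core

/-- Let z be an involution of the finite group G whose centralizer C has generalized Fitting subgroup Q, an extraspecial 2-group of width at least 2 (order 2^(2w+1), w ≥ 2). Let K be a subgroup of G such that the subgroup U generated by the K-conjugates of z is abelian and C is generated by the C-conjugates of U. Suppose that either some K-conjugate of z other than z lies in Q, or some element u of U ∩ Q outside the subgroup generated by z has z in the largest normal 2-subgroup of its centralizer. Then G is simple and Q is a large extraspecial 2-subgroup of G. -/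
theorem result {G : Type*} [Group G] [Finite G] (z : G) (hz : orderOf z = 2) (Q : Subgroup G) (hQC : Q ≤ Subgroup.centralizer ({z} : Set G)) (hF : (Cfsg.generalizedFittingSubgroup ↥(Subgroup.centralizer ({z} : Set G))).map (Subgroup.centralizer ({z} : Set G)).subtype = Q) (hQ : Cfsg.IsExtraspecial 2 ↥Q) (w : ℕ) (hw : 2 ≤ w) (hcard : Nat.card ↥Q = 2 ^ (2 * w + 1)) (K U : Subgroup G) (hU : U = Subgroup.closure {x : G | ∃ k ∈ K, x = k * z * k⁻¹}) (hUab : IsMulCommutative ↥U) (hgen : Subgroup.closure {x : G | ∃ c ∈ Subgroup.centralizer ({z} : Set G), ∃ u ∈ U, x = c * u * c⁻¹} = Subgroup.centralizer ({z} : Set G)) (h3 : (∃ k ∈ K, k * z * k⁻¹ ∈ Q ∧ k * z * k⁻¹ ≠ z) ∨ ∃ u ∈ U ⊓ Q, u ∉ Subgroup.zpowers z ∧ (∃ hz' : z ∈ Subgroup.centralizer ({u} : Set G), (⟨z, hz'⟩ : ↥(Subgroup.centralizer ({u} : Set G))) ∈ Cfsg.pCore 2 ↥(Subgroup.centralizer ({u} : Set G)))) : IsSimpleGroup G ∧ Cfsg.IsLargeExtraspecial Q := by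
  have h := pre_of_fstar_amb hz hF hQ
  have h8 : 8 < Nat.card Q := by
    rw [hcard]
    calc 8 < 2 ^ 5 := by norm_num
      _ ≤ _ := Nat.pow_le_pow_right (by norm_num) (by omega)
  have ho : NoOdd Q := by
    rcases h3 with ⟨k, -, h1, h2⟩ | ⟨u, hu, h1, h2, h3⟩
    · exact h.noOdd_of_conj_mem h8 h1 h2
    · rw [h.es.mem_zpowers, not_or] at h1
      have hu2 : ∀ u ∈ U, u * u = 1 := fun u hu => by
        have hu' := hu
        rw [hU] at hu'
        induction hu' using closure_induction with
        | mem x hx =>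
          obtain ⟨k, -, rfl⟩ := hx
          calc _ = k * (z * z) * k⁻¹ := by group
            _ = 1 := by rw [h.es.mul_self]; group
        | one => exact mul_one _
        | mul x y hx hy h1 h2 =>
          rw [← hU] at hx hy
          have e : y * x = x * y := congrArg Subtype.val (hUab.is_comm.comm ⟨y, hy⟩ ⟨x, hx⟩)
          rw [mul_assoc, ← mul_assoc y, e, mul_assoc, h2 hy, mul_one, h1 hx]
        | inv x hx h1 => rw [← mul_inv_rev, h1 (hU ▸ hx), inv_one]
      refine h.noOdd_of_involution hu.2 h1.1 h1.2 (hu2 u hu.1) (isPGroup_map_pCore (centralizer {u}))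
        (mem_amb.2 ⟨h2, h3⟩) fun k hk => ?_
      exact coe_mem_amb.2 ((inferInstance : (pCore 2 _).Normal).conj_mem _ h3 ⟨k, mem_cent.2 hk⟩)
  refine ⟨h.simple ho ?_ ?_, h.isLarge ho⟩
  · have hp := h.es.isPGroup
    rw [← hF] at hp
    rw [pCore_eq_of_fstar rfl (hp.of_equiv (equivMapOfInjective _ _ (subtype_injective _)).symm), ← hF]
  · rw [← hgen, closure_le]
    rintro _ ⟨c, -, u, hu, rfl⟩
    refine normalClosure_normal.conj_mem u ?_ c
    rw [hU] at hu
    refine (closure_le _).2 ?_ hu
    rintro _ ⟨k, -, rfl⟩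
    exact normalClosure_normal.conj_mem z (subset_normalClosure (Set.mem_singleton z)) k

end Cfsg.Agent.S5427
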