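import Cfsg.Statements.S5428
import Cfsg.Agent.Lib.LargeExtra.Sub

set_option autoImplicit false
open Cfsg

namespace Cfsg.Agent.S5428

open CfsgLib.ExtraTwo CfsgLib.LargeExtra

theorem mem_oddCore_or {D : Type*} [Group D] [Finite D] {z : D} (hz : orderOf z = 2)
    (hc : ∀ d, d * z = z * d) (h4 : ¬ 4 ∣ Nat.card D) (d : D) :
    d ∈ Cfsg.oddCore D ∨ z⁻¹ * d ∈ Cfsg.oddCore D := by
  have hn : (Subgroup.zpowers z).Normal := ⟨fun x hx g => by
    rcases (mem_zpowers_iff_of_mul_self (mul_self_of_orderOf hz)).mp hx with rfl | rfl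
    · simp
    · rw [conj_eq_of_comm (hc g)]; exact hx⟩
  have hcard : Nat.card (Subgroup.zpowers z) = 2 := by rw [Nat.card_zpowers, hz]
  have hidx : (Subgroup.zpowers z).index.Coprime 2 := by
    rw [Nat.coprime_two_right, ← Nat.not_even_iff_odd, even_iff_two_dvd]
    intro e
    exact h4 (by rw [← (Subgroup.zpowers z).card_mul_index, hcard]; omega)
  obtain ⟨K, hK⟩ := Subgroup.exists_right_complement'_of_coprime (N := Subgroup.zpowers z)
    (by rw [hcard]; exact hidx.symm)
  have hdec : ∀ g : D, g ∈ K ∨ z⁻¹ * g ∈ K := by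
    intro g
    obtain ⟨⟨⟨a, ha⟩, ⟨k, hk⟩⟩, e⟩ := hK.2 g
    have e' : a * k = g := e
    rcases (mem_zpowers_iff_of_mul_self (mul_self_of_orderOf hz)).mp ha with rfl | rfl
    · left; rw [← e', one_mul]; exact hk
    · right; rw [← e', inv_mul_cancel_left]; exact hk
  have hKn : K.Normal := ⟨fun x hx g => by
    rcases hdec g with h | h
    · exact K.mul_mem (K.mul_mem h hx) (K.inv_mem h)
    · have := K.mul_mem (K.mul_mem h hx) (K.inv_mem h)
      rwa [show z⁻¹ * g * x * (z⁻¹ * g)⁻¹ = z⁻¹ * (g * x * g⁻¹ * z) by group, hc,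
        inv_mul_cancel_left] at this⟩
  have hle : K ≤ Cfsg.oddCore D := CfsgLib.Core.le_pPrimeCore (by rw [← hK.symm.index_eq_card]; exact hidx)
  exact (hdec d).imp (fun h => hle h) fun h => hle h

/-- Let z be an involution of the finite group G whose centralizer C has generalized Fitting subgroup Q extraspecial (as a 2-group), let A be a subgroup of C of odd order, and let R be the centralizer of A in Q; suppose R has order at least 32, the largest normal subgroup of odd order of the centralizer of the subgroup generated by A and R lies in A, the order of that centralizer is not divisible by 4, and g is an element of G with g z g⁻¹ in R but outside the centre Z of Q. Let M be the subgroup generated by A and the centralizer of A (A is normal in it). Then: the centralizer in M of the subgroup generated by R and A, joined with A, equals the subgroup generated by A and Z; the image of R in M/A is a large extraspecial 2-subgroup of M/A; and g z g⁻¹ is conjugate to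 z inside the subgroup generated by R and the centralizer of A in g Q g⁻¹. -/
theorem result {G : Type*} [Group G] [Finite G] (z : G) (hz : orderOf z = 2) (Q : Subgroup G) (hQC : Q ≤ Subgroup.centralizer ({z} : Set G)) (hF : (Cfsg.generalizedFittingSubgroup ↥(Subgroup.centralizer ({z} : Set G))).map (Subgroup.centralizer ({z} : Set G)).subtype = Q) (hQ : Cfsg.IsExtraspecial 2 ↥Q) (A : Subgroup G) (hA : A ≤ Subgroup.centralizer ({z} : Set G)) (hAodd : Odd (Nat.card ↥A)) (R : Subgroup G) (hR : R = Q ⊓ Subgroup.centralizer (A : Set G)) (hR32 : 32 ≤ Nat.card ↥R) (hO : (Cfsg.oddCore ↥(Subgroup.centralizer ((A ⊔ R : Subgroup G) : Set G))).map (Subgroup.centralizer ((A ⊔ R : Subgroup G) : Set G)).subtype ≤ A) (h4 : ¬ 4 ∣ Nat.card ↥(Subgroup.centralizer ((A ⊔ R : Subgroup G) : Set G))) (g : G) (hgR : g * z * g⁻¹ ∈ R) (hgZ : g * z * g⁻¹ ∉ ((Subgroup.center ↥Q).map Q.subtype)) (M : Subgroup G) (hM : M = Subgroup.centralizer (A : Set G) ⊔ A) [hn : (A.subgroupOf M).Normal] :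 (M ⊓ Subgroup.centralizer ((R ⊔ A : Subgroup G) : Set G)) ⊔ A = A ⊔ ((Subgroup.center ↥Q).map Q.subtype) ∧ Cfsg.IsLargeExtraspecial ((R.subgroupOf M).map (QuotientGroup.mk' (A.subgroupOf M))) ∧ ∃ x ∈ R ⊔ ((Q).map (MulAut.conj g).toMonoidHom ⊓ Subgroup.centralizer (A : Set G)), x * (g * z * g⁻¹) * x⁻¹ = z := by
  have h := pre_of_fstar_amb hz hF hQ
  subst hR
  have h8 : 8 < Nat.card Q := lt_of_lt_of_le (by norm_num)
    (hR32.trans (Subgroup.card_le_of_le inf_le_left))
  have hne : g * z * g⁻¹ ≠ z := fun e => hgZ (by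
    rw [h.es.center_map, e]; exact Subgroup.mem_zpowers _)
  have p := h.pair h8 hgR.1 hne
  have hAz : ∀ a ∈ A, a * z = z * a := fun a ha => mem_cent.mp (hA ha)
  obtain ⟨x, hx, hx'⟩ := p.exists_conj_odd hAodd hAz hgR.2
  have hmemD : ∀ c, c ∈ Subgroup.centralizer
      ((A ⊔ Q ⊓ Subgroup.centralizer (A : Set G) : Subgroup G) : Set G) ↔
      c ∈ Subgroup.centralizer (A : Set G) ∧
        ∀ r ∈ Q ⊓ Subgroup.centralizer (A : Set G), r * c = c * r := by
    intro c
    refine ⟨fun hc => ⟨fun a ha => hc a (Subgroup.mem_sup_left ha),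
      fun r hr => hc r (Subgroup.mem_sup_right hr)⟩, fun hc y hy => mem_cent.mp ?_⟩
    exact (sup_le (fun a ha => mem_cent.mpr (hc.1 a ha)) fun r hr => mem_cent.mpr (hc.2 r hr) :
      _ ≤ Subgroup.centralizer ({c} : Set G)) hy
  have hzD := (hmemD z).mpr ⟨hAz, fun r hr => h.es.comm_z r hr.1⟩
  have hD : ∀ c ∈ Subgroup.centralizer (A : Set G),
      (∀ r ∈ Q ⊓ Subgroup.centralizer (A : Set G), r * c = c * r) → c ∈ A ∨ z⁻¹ * c ∈ A := by
    intro c h1 h2
    exact (mem_oddCore_or (z := ⟨z, hzD⟩) (by rw [← hz]; exact (Subgroup.orderOf_mk _ _))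
      (fun d => Subtype.ext (((hmemD d).mp d.2).2 z ⟨h.es.mem, hAz⟩).symm) h4
      ⟨c, (hmemD c).mpr ⟨h1, h2⟩⟩).imp (fun e => hO ⟨_, e, rfl⟩) fun e => hO ⟨_, e, rfl⟩
  have hCM : Subgroup.centralizer (A : Set G) ≤ M := hM ▸ le_sup_left
  refine ⟨?_, ?_, x, hx, hx'⟩
  · rw [h.es.center_map, sup_comm _ A, sup_comm _ A]
    apply le_antisymm
    · refine sup_le le_sup_left fun c hc => ?_
      obtain ⟨h1, h2⟩ := (hmemD c).mp hc.2
      rcases hD c h1 h2 with e | e
      · exact Subgroup.mem_sup_left e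
      · rw [← mul_inv_cancel_left z c]
        exact Subgroup.mul_mem _ (Subgroup.mem_sup_right (Subgroup.mem_zpowers z))
          (Subgroup.mem_sup_left e)
    · exact sup_le_sup_left (Subgroup.zpowers_le.mpr (Subgroup.mem_inf.mpr ⟨hCM hAz, hzD⟩)) _
  · have hker : ∀ k : M, QuotientGroup.mk' (A.subgroupOf M) k = 1 ↔ (k : G) ∈ A := fun k => by
      rw [QuotientGroup.mk'_apply, QuotientGroup.eq_one_iff, Subgroup.mem_subgroupOf]
    have hM' : ∀ m ∈ M, ∃ c ∈ Subgroup.centralizer (A : Set G), c⁻¹ * m ∈ A := by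
      intro m hm
      rw [hM, ← SetLike.mem_coe, Subgroup.coe_mul_of_left_le_normalizer_right _ _
        (Subgroup.centralizer_le_normalizer _)] at hm
      obtain ⟨c, hc, a, ha, rfl⟩ := hm
      exact ⟨c, hc, by simpa using ha⟩
    have hpre := h.quot_odd hAodd hAz hM' hCM _ (QuotientGroup.mk'_surjective _) hker hD
      ⟨_, hgR, p.t_ne_one, hne⟩ (hCM hAz)
    have hc := card_quot_odd h.es hAodd (R := Q ⊓ Subgroup.centralizer (A : Set G)) inf_le_left
      (inf_le_right.trans hCM) _ hker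
    have hxC : x ∈ M :=
      hCM ((sup_le inf_le_right inf_le_right : _ ≤ Subgroup.centralizer (A : Set G)) hx)
    have e : (QuotientGroup.mk' _ ⟨x, hxC⟩)⁻¹ * QuotientGroup.mk' (A.subgroupOf M) ⟨z, hCM hAz⟩ *
        (QuotientGroup.mk' _ ⟨x, hxC⟩)⁻¹⁻¹ = QuotientGroup.mk' _ ⟨_, hCM hgR.2⟩ := by
      rw [inv_inv, ← map_inv, ← map_mul, ← map_mul]
      congr 1; apply Subtype.ext
      show x⁻¹ * z * x = _
      conv_lhs => rw [← hx']
      group
    refine hpre.isLarge (hpre.noOdd_of_conj_mem (by omega) (g := (QuotientGroup.mk' _ ⟨x, hxC⟩)⁻¹)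
      (e ▸ ⟨_, hgR, rfl⟩) fun e' => ?_)
    rw [e, ← mul_inv_eq_one, ← map_inv, ← map_mul, hker] at e'
    exact hne (mul_inv_eq_one.mp (eq_one_of_mem_odd h.es hAodd
      (Q.mul_mem hgR.1 (Q.inv_mem h.es.mem)) e'))

end Cfsg.Agent.S5428
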