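import Cfsg.Statements.S5429
import Cfsg.Agent.Lib.LargeExtra.Sub

set_option autoImplicit false
open Cfsg

namespace Cfsg.Agent.S5429

open CfsgLib.ExtraTwo CfsgLib.LargeExtra


/-- Let z be an involution of the finite group G with centralizer C whose generalized Fitting subgroup Q is extraspecial of width at least 3 (order 2^(2w+1), w ≥ 3); let g be an element of G with g z g⁻¹ in Q but outside the centre Z of Q, and t an involution lying in both Q and g Q g⁻¹ that is not conjugate to z; write P for the centralizer of t in Q and suppose that the elements of C acting trivially by conjugation on P modulo the subgroup generated by t and z are exactly the elements of Q. Then the image of P in the centralizer of t modulo the subgroup generated by t is a large extraspecial 2-subgroup there, and g z g⁻¹ is conjugate to z inside the subgroup generated by P and the centralizer of t in g Q g⁻¹. -/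
theorem result {G : Type*} [Group G] [Finite G] (z : G) (hz : orderOf z = 2) (Q : Subgroup G) (hQC : Q ≤ Subgroup.centralizer ({z} : Set G)) (hF : (Cfsg.generalizedFittingSubgroup ↥(Subgroup.centralizer ({z} : Set G))).map (Subgroup.centralizer ({z} : Set G)).subtype = Q) (hQ : Cfsg.IsExtraspecial 2 ↥Q) (w : ℕ) (hw : 3 ≤ w) (hcard : Nat.card ↥Q = 2 ^ (2 * w + 1)) (g : G) (hgQ : g * z * g⁻¹ ∈ Q) (hgZ : g * z * g⁻¹ ∉ ((Subgroup.center ↥Q).map Q.subtype)) (t : G) (ht : orderOf t = 2) (htQ : t ∈ Q ⊓ (Q).map (MulAut.conj g).toMonoidHom) (htz : ¬ IsConj z t) (P : Subgroup G) (hP : P = Q ⊓ Subgroup.centralizer ({t} : Set G)) (hCP : ∀ c ∈ Subgroup.centralizer ({z} : Set G), (∀ x ∈ P, ∃ y ∈ Subgroup.closure ({t, z} : Set G), c * x * c⁻¹ = x * y) ↔ c ∈ Q) [hn : ((Subgroup.zpowers t).subgroupOf (Subgroup.centralizer ({t} : Set G))).Normal] : Cfsg.IsLargeExtraspecial ((P.subgroupOf (Subgroup.centralizer ({t} : Set G))).map (QuotientGroup.mk' ((Subgroup.zpowers t).subgroupOf (Subgroup.centralizer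 ({t} : Set G))))) ∧ ∃ x ∈ P ⊔ ((Q).map (MulAut.conj g).toMonoidHom ⊓ Subgroup.centralizer ({t} : Set G)), x * (g * z * g⁻¹) * x⁻¹ = z := by
  have h := pre_of_fstar_amb hz hF hQ
  have h8 : 64 < Nat.card Q := by
    rw [hcard]
    calc 64 < 2 ^ 7 := by norm_num
      _ ≤ _ := Nat.pow_le_pow_right (by norm_num) (by omega)
  have hne : g * z * g⁻¹ ≠ z := fun e => hgZ (by
    rw [h.es.center_map, e]; exact Subgroup.mem_zpowers _)
  have p := h.pair (by omega) hgQ hne
  have hs : IsConj z (g * z * g⁻¹) := isConj_iff.mpr ⟨g, rfl⟩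
  have h1 := ne_one_of_orderOf ht
  have h2 := mul_self_of_orderOf ht
  have htz' : t ≠ z := by rintro rfl; exact htz (IsConj.refl _)
  subst hP
  obtain ⟨x, hx, hx'⟩ := p.exists_conj_cent hs htQ h1 htz
  refine ⟨?_, x, hx, hx'⟩
  have hker : ∀ k : Subgroup.centralizer ({t} : Set G),
      QuotientGroup.mk' ((Subgroup.zpowers t).subgroupOf (Subgroup.centralizer ({t} : Set G))) k = 1 ↔
        (k : G) = 1 ∨ (k : G) = t := fun k => by
    rw [QuotientGroup.mk'_apply, QuotientGroup.eq_one_iff, Subgroup.mem_subgroupOf,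
      mem_zpowers_iff_of_mul_self h2]
  have hzC : z ∈ Subgroup.centralizer ({t} : Set G) := mem_cent.mpr (h.es.comm_z t htQ.1).symm
  have hpre := h.quot_invol (by omega) htQ.1 h1 htz _ (QuotientGroup.mk'_surjective _) hker
    (fun c hc _ hh => (hCP c (mem_cent.mpr hc)).mp fun y hy => by
      rcases hh y hy.1 (mem_cent.mp hy.2) with e | e
      · exact ⟨1, one_mem _, by rw [e, mul_one]⟩
      · exact ⟨t, Subgroup.subset_closure (by simp), by rw [e]; exact (mem_cent.mp hy.2).symm⟩) hzC
  rw [Subgroup.inf_subgroupOf_right]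
  have hc := card_quot_invol h.es htQ.1 h1 h2 htz' _ hker
  have hxC : x ∈ Subgroup.centralizer ({t} : Set G) :=
    (sup_le inf_le_right inf_le_right : _ ≤ Subgroup.centralizer ({t} : Set G)) hx
  have hsC : g * z * g⁻¹ ∈ Subgroup.centralizer ({t} : Set G) :=
    mem_cent.mpr (p.h1.es.comm_z t htQ.2).symm
  have e : (QuotientGroup.mk' _ ⟨x, hxC⟩)⁻¹ * QuotientGroup.mk' ((Subgroup.zpowers t).subgroupOf
      (Subgroup.centralizer ({t} : Set G))) ⟨z, hzC⟩ * (QuotientGroup.mk' _ ⟨x, hxC⟩)⁻¹⁻¹ =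
      QuotientGroup.mk' _ ⟨_, hsC⟩ := by
    rw [inv_inv, ← map_inv, ← map_mul, ← map_mul]
    congr 1; apply Subtype.ext
    show x⁻¹ * z * x = _
    conv_lhs => rw [← hx']
    group
  refine hpre.isLarge (hpre.noOdd_of_conj_mem (by omega) (g := (QuotientGroup.mk' _ ⟨x, hxC⟩)⁻¹)
    (e ▸ ⟨_, hgQ, rfl⟩) fun e' => ?_)
  rw [e, ← mul_inv_eq_one, ← map_inv, ← map_mul, hker] at e'
  rcases e' with e' | e'
  · exact hne (mul_inv_eq_one.mp e')
  · have e'' : g * z * g⁻¹ = t * z := mul_inv_eq_iff_eq_mul.mp e'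
    exact htz (hs.trans (e'' ▸ (isConj_mul_z h.es htQ.1 h1 htz').symm))

end Cfsg.Agent.S5429
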