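import Cfsg.Statements.S5430
import Cfsg.Agent.Lib.LargeExtra.Pair

set_option autoImplicit false
open Cfsg

namespace Cfsg.Agent.S5430

open CfsgLib.ExtraTwo CfsgLib.LargeExtra


/-- Let Q be a large extraspecial 2-subgroup of the finite group G (extraspecial; centralizer equal to its centre; normal in the centralizer of its centre; normalizing no non-trivial subgroup of odd order) with centre generated by z, an involution, of width w ≥ 2 (order 2^(2w+1)); let g be an element outside the centralizer H of z with g z g⁻¹ in Q; write V for the subgroup generated by z and g z g⁻¹, X for the subgroup generated by Q and g Q g⁻¹, R for the subgroup generated by the centralizer of z in g Q g⁻¹ and the centralizer of g z g⁻¹ in Q, and E for the intersection of Q and g Q g⁻¹. Then R is the centralizer of V in X and is the largest normal 2-subgroup of X, and X/R is isomorphic to the symmetric group of degree 3; moreover the normalizer of V is the product of X and the centralizer of V in H, X is normal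 in it, and modulo R it is the direct product of X/R and of the centralizer of V in H modulo R. -/
theorem result {G : Type*} [Group G] [Finite G] (Q : Subgroup G) (hQ : Cfsg.IsLargeExtraspecial Q) (z : G) (hz : ((Subgroup.center ↥Q).map Q.subtype) = Subgroup.zpowers z) (hz2 : orderOf z = 2) (w : ℕ) (hw : 2 ≤ w) (hcard : Nat.card ↥Q = 2 ^ (2 * w + 1)) (g : G) (hgH : g ∉ Subgroup.centralizer ({z} : Set G)) (hgQ : g * z * g⁻¹ ∈ Q) (V X R E : Subgroup G) (hV : V = Subgroup.closure ({z, g * z * g⁻¹} : Set G)) (hX : X = Q ⊔ (Q).map (MulAut.conj g).toMonoidHom) (hR : R = ((Q).map (MulAut.conj g).toMonoidHom ⊓ Subgroup.centralizer ({z} : Set G)) ⊔ (Q ⊓ Subgroup.centralizer ({g * z * g⁻¹} : Set G))) (hE : E = Q ⊓ (Q).map (MulAut.conj g).toMonoidHom) : R = X ⊓ Subgroup.centralizer (V : Set G) ∧ R = (Cfsg.pCore 2 ↥X).map X.subtype ∧ (∃ h : (R.subgroupOf X).Normal, Nonempty (↥X ⧸ R.subgroupOf X ≃* Equiv.Perm (Fin 3))) ∧ Subgroup.normalizer (V : Set G) = X ⊔ (Subgroup.centralizer ({z} : Set G) ⊓ Subgroup.centralizer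 (V : Set G)) ∧ (∀ y ∈ Subgroup.normalizer (V : Set G), ∀ x ∈ X, y * x * y⁻¹ ∈ X) ∧ R ≤ Subgroup.centralizer ({z} : Set G) ⊓ Subgroup.centralizer (V : Set G) ∧ (∀ x ∈ X, ∀ c ∈ Subgroup.centralizer ({z} : Set G) ⊓ Subgroup.centralizer (V : Set G), x * c * x⁻¹ * c⁻¹ ∈ R) ∧ X ⊓ (Subgroup.centralizer ({z} : Set G) ⊓ Subgroup.centralizer (V : Set G)) = R := by
  have h := pre_of_large hQ hz
  have h8 : 8 < Nat.card Q := by
    rw [hcard]
    calc 8 < 2 ^ 5 := by norm_num
      _ ≤ _ := Nat.pow_le_pow_right (by norm_num) (by omega)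
  have hne : g * z * g⁻¹ ≠ z := fun e =>
    hgH (Subgroup.mem_centralizer_singleton_iff.mpr (comm_of_conj_eq e))
  have p := h.pair h8 hgQ hne
  subst hV hX hR hE
  have hCV : Subgroup.centralizer ({z} : Set G) ⊓ Subgroup.centralizer
      ((Subgroup.closure ({z, g * z * g⁻¹} : Set G) : Subgroup G) : Set G) = Subgroup.centralizer
      ((Subgroup.closure ({z, g * z * g⁻¹} : Set G) : Subgroup G) : Set G) :=
    inf_eq_right.mpr fun x hx =>
      Subgroup.mem_centralizer_singleton_iff.mpr (Pair.mem_centralizer_V.mp hx).1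
  rw [hCV]
  refine ⟨p.RR_eq, p.RR_eq_pCore, ?_, p.normalizer_V_eq, fun y hy x hx =>
    (Subgroup.mem_normalizer_iff.mp (p.normalizer_V_le hy) x).mp hx,
    fun x hx => Pair.mem_centralizer_V.mpr (p.comm_of_mem_RR hx), fun x hx c hc =>
    p.commutator_X hx (Pair.mem_centralizer_V.mp hc).1 (Pair.mem_centralizer_V.mp hc).2,
    p.RR_eq.symm⟩
  obtain ⟨φ, hs, hk⟩ := p.exists_hom_X
  have hn : ((Pair.RR Q (Q.map (MulAut.conj g).toMonoidHom) z (g * z * g⁻¹)).subgroupOf
      (Q ⊔ Q.map (MulAut.conj g).toMonoidHom)).Normal := hk ▸ φ.normal_ker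
  exact ⟨hn, ⟨(QuotientGroup.quotientMulEquivOfEq hk.symm).trans
    (QuotientGroup.quotientKerEquivOfSurjective φ hs)⟩⟩

end Cfsg.Agent.S5430
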