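import Cfsg.Statements.S5431
import Cfsg.Agent.Lib.LargeExtra.Pair

set_option autoImplicit false
open Cfsg

namespace Cfsg.Agent.S5431

open CfsgLib.ExtraTwo CfsgLib.LargeExtra


/-- Let Q be a large extraspecial 2-subgroup of the finite group G (extraspecial; centralizer equal to its centre; normal in the centralizer of its centre; normalizing no non-trivial subgroup of odd order) with centre generated by z, an involution, of width w ≥ 2 (order 2^(2w+1)); let g be an element outside the centralizer H of z with g z g⁻¹ in Q; write V for the subgroup generated by z and g z g⁻¹, X for the subgroup generated by Q and g Q g⁻¹, R for the subgroup generated by the centralizer of z in g Q g⁻¹ and the centralizer of g z g⁻¹ in Q, and E for the intersection of Q and g Q g⁻¹. Then V is the centre of R, E lies in the second centre of R, R is nilpotent of class at most 3, E and R/E are elementary abelian, R/E is the direct product of the images of the centralizer of g z g⁻¹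 in Q and of the centralizer of z in g Q g⁻¹ (R is their product and they meet in E), and the commutator subgroup of X and E lies in V. -/
theorem result {G : Type*} [Group G] [Finite G] (Q : Subgroup G) (hQ : Cfsg.IsLargeExtraspecial Q) (z : G) (hz : ((Subgroup.center ↥Q).map Q.subtype) = Subgroup.zpowers z) (hz2 : orderOf z = 2) (w : ℕ) (hw : 2 ≤ w) (hcard : Nat.card ↥Q = 2 ^ (2 * w + 1)) (g : G) (hgH : g ∉ Subgroup.centralizer ({z} : Set G)) (hgQ : g * z * g⁻¹ ∈ Q) (V X R E : Subgroup G) (hV : V = Subgroup.closure ({z, g * z * g⁻¹} : Set G)) (hX : X = Q ⊔ (Q).map (MulAut.conj g).toMonoidHom) (hR : R = ((Q).map (MulAut.conj g).toMonoidHom ⊓ Subgroup.centralizer ({z} : Set G)) ⊔ (Q ⊓ Subgroup.centralizer ({g * z * g⁻¹} : Set G))) (hE : E = Q ⊓ (Q).map (MulAut.conj g).toMonoidHom) : (Subgroup.center ↥R).map R.subtype = V ∧ E ≤ (Subgroup.upperCentralSeries ↥R 2).map R.subtype ∧ Subgroup.upperCentralSeries ↥R 3 = ⊤ ∧ Cfsg.IsElementaryAbelian 2 E ∧ (∀ x ∈ R, ∀ y ∈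 R, x * y * x⁻¹ * y⁻¹ ∈ E ∧ x ^ 2 ∈ E) ∧ ((Q).map (MulAut.conj g).toMonoidHom ⊓ Subgroup.centralizer ({z} : Set G)) ⊓ (Q ⊓ Subgroup.centralizer ({g * z * g⁻¹} : Set G)) = E ∧ ⁅X, E⁆ ≤ V := by
  have h := pre_of_large hQ hz
  have h8 : 8 < Nat.card Q := by
    rw [hcard]
    calc 8 < 2 ^ 5 := by norm_num
      _ ≤ _ := Nat.pow_le_pow_right (by norm_num) (by omega)
  have hne : g * z * g⁻¹ ≠ z := fun e =>
    hgH (Subgroup.mem_centralizer_singleton_iff.mpr (comm_of_conj_eq e))
  have p := h.pair h8 hgQ hne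
  have hZ : (Subgroup.center R).map R.subtype = V := by rw [hR, hV]; exact p.center_RR
  have hER : E ≤ R := by rw [hR, hE]; exact p.E_le_RR
  have hRX : R ≤ X := by rw [hR, hX]; exact Pair.RR_le_X
  have hXE : ∀ x ∈ X, ∀ y ∈ E, x * y * x⁻¹ * y⁻¹ ∈ V := by
    rw [hX, hE, hV]; exact fun x hx y hy => p.commutator_X_E hx hy
  have hRR : ∀ x ∈ R, ∀ y ∈ R, x * y * x⁻¹ * y⁻¹ ∈ E := by
    rw [hR, hE]; exact fun x hx y hy => p.commutator_RR hx hy
  have h2 : ∀ x : R, (x : G) ∈ E → x ∈ Subgroup.upperCentralSeries R 2 := by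
    intro x hx
    rw [Subgroup.mem_upperCentralSeries_succ_iff]
    intro y
    rw [Subgroup.upperCentralSeries_one]
    have := V.inv_mem (hXE y (hRX y.2) x hx)
    rw [← hZ] at this
    obtain ⟨u, hu, e⟩ := this
    have : u = x * y * x⁻¹ * y⁻¹ := Subtype.ext (by simpa [mul_assoc] using e)
    rw [this] at hu
    exact hu
  refine ⟨hZ, fun x hx => ⟨⟨x, hER hx⟩, h2 _ hx, rfl⟩, ?_, ⟨?_, ?_⟩, fun x hx y hy =>
    ⟨hRR x hx y hy, ?_⟩, ?_, ?_⟩
  · rw [eq_top_iff]
    intro x _
    rw [Subgroup.mem_upperCentralSeries_succ_iff]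
    intro y
    exact h2 _ (hRR x x.2 y y.2)
  · rw [hE]; exact ⟨⟨fun a b => Subtype.ext (p.E_comm a.2 b.2)⟩⟩
  · rw [hE]; intro a ha; rw [pow_two]; exact p.E_sq ha
  · rw [hE, pow_two]; rw [hR] at hx; exact p.sq_RR hx
  · rw [hE]
    ext x
    simp only [Subgroup.mem_inf, Subgroup.mem_centralizer_singleton_iff]
    exact ⟨fun h => ⟨h.2.1, h.1.1⟩,
      fun h => ⟨⟨h.2, p.h0.es.comm_z x h.1⟩, h.1, p.h1.es.comm_z x h.2⟩⟩
  · rw [Subgroup.commutator_le]
    exact hXE

end Cfsg.Agent.S5431
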