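import Cfsg.Statements.S5432
import Cfsg.Agent.Lib.ExtraTwo.Classify

set_option autoImplicit false
open Cfsg

namespace Cfsg.Agent.S5432

/-- Let E be an extraspecial 2-group of order 2^(2n+1), n ≥ 1. If E contains an elementary abelian subgroup of order 2^(n+1) (plus type), then its outer automorphism group is isomorphic to the full isometry group of the hyperbolic quadratic form in dimension 2n over the field with two elements; otherwise (minus type) it is isomorphic to the full isometry group of the elliptic quadratic form in dimension 2n over that field. -/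
theorem result {E : Type*} [Group E] [Finite E] (hE : Cfsg.IsExtraspecial 2 E) (n : ℕ) (hn : 1 ≤ n) (hcard : Nat.card E = 2 ^ (2 * n + 1)) : ((∃ A : Subgroup E, Cfsg.IsElementaryAbelian 2 A ∧ Nat.card ↥A = 2 ^ (n + 1)) → Nonempty (Cfsg.Out E ≃* Cfsg.isometryGroup (ZMod 2) (Cfsg.quadFormPlus n (ZMod 2)))) ∧ ((¬ ∃ A : Subgroup E, Cfsg.IsElementaryAbelian 2 A ∧ Nat.card ↥A = 2 ^ (n + 1)) → Nonempty (Cfsg.Out E ≃* Cfsg.isometryGroup (ZMod 2) (Cfsg.quadFormMinus (n - 1) (ZMod 2) 1 1))) := by
  obtain ⟨z, e⟩ := CfsgLib.ExtraTwo.exists_ES_top hE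
  rw [← Subgroup.card_top] at hcard
  constructor
  · rintro ⟨A, hA, hAc⟩
    obtain ⟨π, c⟩ := (e.plusType_of_exists hcard le_top hA.2
      (by rw [hAc]; exact Nat.pow_lt_pow_right one_lt_two (by omega))).coord
    exact ⟨c.nonempty_out_equiv.some.trans
      (CfsgLib.OrthE.matEquiv _ _ (CfsgLib.OrthE.qPlus_eq n)).symm⟩
  · intro h
    obtain ⟨π, c⟩ := (e.minusType_of_forall hcard fun A _ h1 h2 => h ⟨A, h1, h2⟩).coord
    exact ⟨c.nonempty_out_equiv.some.trans
      (CfsgLib.OrthE.matEquiv _ _ (CfsgLib.OrthE.qMinus_eq (n - 1) 1 1)).symm⟩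

end Cfsg.Agent.S5432
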