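import Cfsg.Statements.S5433

set_option autoImplicit false
open Cfsg

namespace Cfsg.Agent.S5433


/-- Let Q be a large extraspecial 2-subgroup of the finite group G (extraspecial; centralizer equal to its centre; normal in the centralizer of its centre; normalizing no non-trivial subgroup of odd order), and L a normal subgroup of G containing Q. Then G is the product of L and the normalizer of Q. -/
theorem result {G : Type*} [Group G] [Finite G] (Q : Subgroup G) (hQ : Cfsg.IsLargeExtraspecial Q) (L : Subgroup G) [L.Normal] (hQL : Q ≤ L) : L ⊔ Subgroup.normalizer (Q : Set G) = ⊤ := by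
  classical
  obtain ⟨⟨⟨hQp, -, -⟩, hZc⟩, hC, hN, -⟩ := hQ
  have : Fact (Nat.Prime 2) := ⟨Nat.prime_two⟩
  set Z : Subgroup G := (Subgroup.center Q).map Q.subtype with hZ
  have hZcard : Nat.card Z = 2 := by
    rw [hZ, Subgroup.card_map_of_injective Q.subtype_injective]; exact hZc
  have hQL' : IsPGroup 2 (Q.subgroupOf L) := hQp.comap_subtype
  obtain ⟨P, hP⟩ := hQL'.exists_le_sylow
  set T : Subgroup G := (P : Subgroup L).map L.subtype with hT
  have hQT : Q ≤ T := by
    intro x hx
    exact ⟨⟨x, hQL hx⟩, hP hx, rfl⟩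
  have hTp : IsPGroup 2 T := P.2.map _
  have hfr := Sylow.normalizer_sup_eq_top P
  rw [← hT] at hfr
  -- every element of the centre of T lies in Z
  have hZT : ∀ x ∈ T, (∀ t ∈ T, t * x = x * t) → x ∈ Z := by
    intro x _ hx
    rw [← hC, Subgroup.mem_centralizer_iff]
    intro q hq
    exact hx q (hQT hq)
  have hZQ : Z ≤ Q := by
    rintro _ ⟨y, -, rfl⟩; exact y.2
  have hZne : Z ≠ ⊥ := by
    intro h; rw [h] at hZcard; simp at hZcard
  have hTnt : Nontrivial T := by
    rw [Subgroup.nontrivial_iff_ne_bot]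
    intro h
    apply hZne
    exact le_bot_iff.mp (h ▸ hZQ.trans hQT)
  have := hTp.center_nontrivial
  obtain ⟨⟨z, hzT⟩, hz1⟩ := exists_ne (1 : Subgroup.center T)
  have hz1' : (z : G) ≠ 1 := by
    intro h; apply hz1; ext; exact h
  have hzc : ∀ t ∈ T, t * (z : G) = z * t := by
    intro t ht
    have := Subgroup.mem_center_iff.mp hzT ⟨t, ht⟩
    exact congrArg Subtype.val this
  have hzZ : (z : G) ∈ Z := hZT z z.2 hzc
  have huniq : ∀ a ∈ Z, a ≠ 1 → a = z := by
    intro a ha ha1
    obtain ⟨y, -, hy⟩ := (Nat.card_eq_two_iff' (1 : Z)).mp hZcard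
    have h1 := hy ⟨a, ha⟩ (fun h => ha1 (congrArg Subtype.val h))
    have h2 := hy ⟨z, hzZ⟩ (fun h => hz1' (congrArg Subtype.val h))
    exact congrArg Subtype.val (h1.trans h2.symm)
  have hle : Subgroup.normalizer (T : Set G) ≤ Subgroup.normalizer (Q : Set G) := by
    refine le_trans ?_ hN
    intro n hn
    rw [Subgroup.mem_centralizer_iff]
    intro a ha
    by_cases ha1 : a = 1
    · simp [ha1]
    rw [huniq a ha ha1]
    have hn' := Subgroup.mem_normalizer_iff.mp hn
    have h1 : n * z * n⁻¹ ∈ Z := by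
      apply hZT _ ((hn' z).mp z.2)
      intro t ht
      have ht' : n⁻¹ * t * n ∈ T := by
        apply (hn' _).mpr; simpa [mul_assoc] using ht
      have := hzc _ ht'
      calc t * (n * z * n⁻¹) = n * ((n⁻¹ * t * n) * z) * n⁻¹ := by group
        _ = n * (z * (n⁻¹ * t * n)) * n⁻¹ := by rw [this]
        _ = n * z * n⁻¹ * t := by group
    have h2 : n * z * n⁻¹ ≠ 1 := by
      intro h; apply hz1'
      have : (z : G) = n⁻¹ * (n * z * n⁻¹) * n := by group
      rw [this, h]; group
    have h3 := huniq _ h1 h2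
    calc (z : G) * n = (n * z * n⁻¹) * n := by rw [h3]
      _ = n * z := by group
  rw [eq_top_iff, ← hfr, sup_comm]
  exact sup_le_sup_left hle _

end Cfsg.Agent.S5433
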