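import Mathlib
import Cfsg.Statements.S5434
import Cfsg.Agent.Lib.LargeExtra.Sub

set_option autoImplicit false
open Cfsg

namespace Cfsg.Agent.S5434

open Subgroup CfsgLib.ExtraTwo CfsgLib.LargeExtra CfsgLib.Coprime

/-- Let Q be a large extraspecial 2-subgroup of the finite group G (extraspecial; centralizer equal to its centre; normal in the centralizer of its centre; normalizing no non-trivial subgroup of odd order), and A a non-trivial subgroup of odd order of the normalizer of Q. Then Q is the central product of the centralizer of A in Q and the commutator subgroup [Q, A] (they generate Q and commute elementwise), [Q, A] is extraspecial, and the centralizer of A in Q is either the centre of Q or extraspecial. -/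
theorem result {G : Type*} [Group G] [Finite G] (Q : Subgroup G) (hQ : Cfsg.IsLargeExtraspecial Q) (A : Subgroup G) (hA : A ≤ Subgroup.normalizer (Q : Set G)) (hAodd : Odd (Nat.card ↥A)) (hA1 : A ≠ ⊥) : (Q ⊓ Subgroup.centralizer (A : Set G)) ⊔ ⁅Q, A⁆ = Q ∧ (∀ x ∈ Q ⊓ Subgroup.centralizer (A : Set G), ∀ y ∈ ⁅Q, A⁆, x * y = y * x) ∧ Cfsg.IsExtraspecial 2 ↥⁅Q, A⁆ ∧ (Q ⊓ Subgroup.centralizer (A : Set G) = ((Subgroup.center ↥Q).map Q.subtype) ∨ Cfsg.IsExtraspecial 2 ↥(Q ⊓ Subgroup.centralizer (A : Set G))) := by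
  obtain ⟨z, h⟩ := exists_pre_of_large hQ
  have hAz : ∀ a ∈ A, a * z = z * a := fun a ha => h.comm_of_mem_normalizer (hA ha)
  have hcop : (Nat.card A).Coprime (Nat.card Q) := by
    obtain ⟨n, e⟩ := IsPGroup.iff_card.1 h.es.isPGroup
    rw [e]
    exact (Nat.coprime_two_right.2 hAodd).pow_right n
  have h1 := commutator_sup_centralizer hA hcop (Or.inr (isSolvable_of_isPGroup h.es.isPGroup))
  have hle := commutator_le_of_le_normalizer hA
  have h2 : ⁅Q, A⁆ ≤ centralizer ((Q ⊓ centralizer (A : Set G) : Subgroup G) : Set G) := by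
    rw [← commutator_eq_bot_iff_le_centralizer]
    refine commutator_commutator_eq_bot_of_rotate ?_ ?_
    · rw [(commutator_eq_bot_iff_le_centralizer (H₁ := A)).2 (le_centralizer_iff.1 inf_le_right), commutator_bot_left]
    · rw [commutator_eq_bot_iff_le_centralizer]
      refine (commutator_le.2 fun x hx y hy => ?_).trans (?_ : zpowers z ≤ _)
      · exact h.es.mem_zpowers.2 (h.es.commutator hx.1 hy)
      · exact zpowers_le.2 (mem_centralizer_iff.2 hAz)
  have h3 : ∃ x ∈ ⁅Q, A⁆, x ≠ 1 ∧ x ≠ z := by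
    by_contra hc
    push Not at hc
    have := le_centralizer_of_commutator_le_centralizer hA hcop fun x hx => mem_centralizer_iff.2 fun a ha => by
      by_cases e : x = 1
      · rw [e, mul_one, one_mul]
      · rw [hc x hx e, hAz a ha]
    exact hA1 (eq_bot_iff.2 fun a ha => mem_bot.2
      (eq_one_of_mem_odd h.es hAodd (h.centralizer_le (this ha)) ha))
  have h4 : z ∈ ⁅Q, A⁆ := by
    obtain ⟨x, hx, x1, xz⟩ := h3
    obtain ⟨q, hq, e⟩ := h.es.exists_conj (hle hx) x1 xz
    have := (mem_normalizer_iff.1 (normalizer_commutator_ge_left Q A hq) x).1 hx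
    exact (mul_mem_cancel_left hx).1 (e ▸ this)
  refine ⟨(sup_comm _ _).trans h1, fun x hx y hy => mem_centralizer_iff.1 (h2 hy) x hx,
    (h.es.of_le hle h4 (fun x hx hc => h.es.center x (hle hx) fun q hq => ?_) h3).isExtraspecial, ?_⟩
  · have : ⁅Q, A⁆ ⊔ Q ⊓ centralizer (A : Set G) ≤ centralizer {x} :=
      sup_le (fun y hy => mem_cent.2 (hc y hy)) fun y hy => mem_cent.2 (mem_centralizer_iff.1 (h2 hx) y hy)
    exact mem_cent.1 (this (h1.symm ▸ hq))
  · by_cases hn : ∃ x ∈ Q ⊓ centralizer (A : Set G), x ≠ 1 ∧ x ≠ z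
    · exact Or.inr (es_cent_odd h.es hAodd hA hAz hn).isExtraspecial
    · push Not at hn
      refine Or.inl ?_
      rw [h.es.center_map]
      refine le_antisymm (fun x hx => h.es.mem_zpowers.2 (or_iff_not_imp_left.2 (hn x hx)))
        (zpowers_le.2 ⟨h.es.mem, mem_centralizer_iff.2 hAz⟩)

end Cfsg.Agent.S5434
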