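import Mathlib
import Cfsg.Statements.S5435
import Cfsg.Agent.Lib.LargeExtra.Struct
import Cfsg.Agent.Lib.Transfer.Cocycle
import Cfsg.Agent.Lib.ZStar.Main
import Cfsg.Agent.Lib.TwoGrp.Pres

set_option autoImplicit false
open Cfsg

namespace Cfsg.Agent.S5435

open Subgroup CfsgLib CfsgLib.ExtraTwo CfsgLib.LargeExtra CfsgLib.Core CfsgLib.Tech

/-- Let L be a finite non-abelian simple group with an involution z whose centralizer R is a Sylow 2-subgroup of L whose Frattini subgroup is the subgroup generated by z. Then R is dihedral of order 8. -/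
theorem result {L : Type*} [Group L] [Finite L] [IsSimpleGroup L] (hL : ¬ IsMulCommutative L) (z : L) (hz : orderOf z = 2) (R : Sylow 2 L) (hR : (R : Subgroup L) = Subgroup.centralizer ({z} : Set L)) (hΦ : (frattini ↥(R : Subgroup L)).map (R : Subgroup L).subtype = Subgroup.zpowers z) : Nonempty (↥(R : Subgroup L) ≃* DihedralGroup 4) := by
  have zz := mul_self_of_orderOf hz
  have hRp : IsPGroup 2 (R : Subgroup L) := R.isPGroup'
  obtain ⟨hcm, hsq⟩ := (map_frattini_le_iff_of_isPGroup hRp).1 hΦ.le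
  have mR : ∀ {x : L}, x ∈ (R : Subgroup L) ↔ x * z = z * x := fun {x} => by rw [hR, mem_cent]
  have sq : ∀ x : L, x * z = z * x → x * x = 1 ∨ x * x = z := fun x hx =>
    (mem_zpowers_iff_of_mul_self zz).1 (pow_two x ▸ hsq x (mR.2 hx))
  obtain ⟨g, hc, hne⟩ : ∃ g : L, Commute z (g * z * g⁻¹) ∧ g * z * g⁻¹ ≠ z := by
    by_contra hc
    push Not at hc
    exact ZStar.not_isolated_of_simple hL z ⟨hz, hc⟩
  have t2 := (orderOf_conj_eq g z).trans hz
  generalize ht' : g * z * g⁻¹ = t at hc hne t2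
  have ht := ht'.symm
  have tt : t * t = 1 := mul_self_of_orderOf t2
  have t1 : t ≠ 1 := ne_one_of_orderOf t2
  have tR : t ∈ (R : Subgroup L) := mR.2 hc.eq.symm
  have U2 : ∀ x ∈ (R : Subgroup L), x * t = t * x → x * x = 1 := fun x hx hxt => by
    refine (sq x (mR.1 hx)).resolve_right fun e => ?_
    have e1 : g⁻¹ * x * g * (g⁻¹ * x * g) = g⁻¹ * z * g := by rw [← e]; group
    rcases sq (g⁻¹ * x * g) (by
      calc _ = g⁻¹ * (x * t) * g := by rw [ht]; group
        _ = _ := by rw [hxt, ht]; group) with e2 | e2 <;> rw [e1] at e2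
    · refine ne_one_of_orderOf hz ?_
      calc z = g * (g⁻¹ * z * g) * g⁻¹ := by group
        _ = 1 := by rw [e2]; group
    · refine hne ?_
      rw [ht]
      nth_rewrite 1 [← e2]
      group
  have hcen : ∀ x ∈ (R : Subgroup L), (∀ q ∈ (R : Subgroup L), q * x = x * q) → x = 1 ∨ x = z := fun x hx hxc => by
    by_contra hn
    rw [← mem_zpowers_iff_of_mul_self zz, ← hΦ] at hn
    obtain ⟨M, hM, hxM⟩ : ∃ M : Subgroup (R : Subgroup L), IsCoatom M ∧ (⟨x, hx⟩ : (R : Subgroup L)) ∉ M := by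
      by_contra hc
      push Not at hc
      exact hn ⟨_, mem_frattini_iff.2 hc, rfl⟩
    have hi : (M.map (R : Subgroup L).subtype).relIndex (R : Subgroup L) = 2 := by
      have e : (M.map (R : Subgroup L).subtype).subgroupOf (R : Subgroup L) = M :=
        comap_map_eq_self_of_injective (subtype_injective _) M
      rw [relIndex, e]
      exact index_eq_of_isCoatom_of_isPGroup hRp hM
    obtain ⟨s, h1, h2⟩ := Transfer.thompson_transfer_extremal (no_index_two hL) R.not_dvd_index hi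
      (U2 x hx (hxc t tR).symm) hRp fun q hq => mem_cent.2 (hxc q hq)
    have h3 : s⁻¹ ∈ normalizer ((R : Subgroup L) : Set L) :=
      mem_normalizer_of_forall fun r hr => by rw [inv_inv]; exact h2 r hr
    have h4 := conj_mem_of_mem_normalizer (normalizer_le_normalizer_map_frattini _ h3) (hΦ ▸ mem_zpowers z)
    rw [hΦ, mem_zpowers_iff_of_mul_self zz, conj_eq_one_iff] at h4
    have h5 := mR.2 (comm_of_conj_eq (h4.resolve_left (ne_one_of_orderOf hz)))
    rw [hxc _ h5, inv_mul_cancel_right] at h1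
    obtain ⟨y, hy, e⟩ := h1
    exact hxM ((Subtype.ext e : y = ⟨x, hx⟩) ▸ hy)
  obtain ⟨s, hs, hst⟩ : ∃ s ∈ (R : Subgroup L), s * t ≠ t * s := by
    by_contra hc
    push Not at hc
    exact (hcen t tR hc).elim t1 hne
  have es : ES (R : Subgroup L) z := ⟨ne_one_of_orderOf hz, zz, mR.2 rfl, fun x hx => mR.1 hx, hcen,
    fun x hx y hy => by
      have := hcm (commutator_mem_commutator hx hy)
      rw [mem_zpowers_iff_of_mul_self zz, commutatorElement_def] at this
      rcases this with e | e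
      · exact Or.inl (by rw [← one_mul (y * x), ← e]; group)
      · exact Or.inr (by rw [← e]; group), s, hs, t, tR, hst⟩
  obtain ⟨r, hr, hrt, hrr⟩ : ∃ r ∈ (R : Subgroup L), r * t ≠ t * r ∧ r * r = z := by
    rcases es.sq hs with e | e
    · refine ⟨s * t, mul_mem hs tR, fun e1 => hst ?_, ?_⟩
      · rw [mul_assoc, tt, mul_one] at e1
        nth_rewrite 1 [e1]
        rw [mul_assoc, mul_assoc, tt, mul_one]
      · rw [mul_assoc, ← mul_assoc t, es.comm_of_ne tR hs hst.symm, ← mul_assoc, ← mul_assoc, es.comm_z s hs,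
          mul_assoc z, mul_assoc z, ← mul_assoc s, e, one_mul, tt, mul_one]
    · exact ⟨s, hs, hst, e⟩
  have r4 : orderOf r = 4 := orderOf_eq_prime_pow (p := 2) (n := 1) (by rw [pow_one, pow_two, hrr]; exact es.ne_one)
    (es.pow_four hr)
  have rinv : r⁻¹ = r * z := by rw [inv_eq_iff_mul_eq_one, ← mul_assoc, hrr, zz]
  have trt : t * r * t⁻¹ = r⁻¹ := rinv ▸ es.conj_of_ne hr tR hrt.symm
  have U4 : ∀ u ∈ (R : Subgroup L), u * t = t * u → u = 1 ∨ u = z ∨ u = t ∨ u = t * z := fun u hu hut =>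
    double_cent es tR hu fun y hy hyt => by
      have e := U2 _ (mul_mem hy hu) (by rw [mul_assoc, hut, ← mul_assoc, hyt, mul_assoc])
      rw [← inv_eq_iff_mul_eq_one, mul_inv_rev, inv_eq_of_mul_eq_one_right (U2 u hu hut),
        inv_eq_of_mul_eq_one_right (U2 y hy hyt)] at e
      exact e.symm
  refine TwoGrp.nonempty_mulEquiv_dihedral r4 tt trt (fun ⟨k, e⟩ => hrt ?_) fun x => ⟨fun hx => ?_, ?_⟩
  · rw [← e]
    exact (Commute.self_zpow r k).eq
  · have tr : t * r = r⁻¹ * t := by rw [← trt]; group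
    by_cases hxt : x * t = t * x
    · rcases U4 x hx hxt with e | e | e | e <;> rw [e]
      · exact ⟨0, Or.inl (zpow_zero r).symm⟩
      · exact ⟨2, Or.inl (by rw [← hrr, zpow_two])⟩
      · exact ⟨0, Or.inr (by group)⟩
      · exact ⟨2, Or.inr (by rw [es.comm_z t tR, ← hrr, zpow_two])⟩
    · have e0 : x = x * r⁻¹ * r := by group
      rcases U4 _ (mul_mem hx (inv_mem hr)) (es.mul_comm_of_not_comm tR hx (inv_mem hr) hxt
        fun e => hrt (comm_of_conj_eq (by rw [mul_assoc, ← e]; group))) with e | e | e | e <;> rw [e0, e]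
      · exact ⟨1, Or.inl (by group)⟩
      · exact ⟨2 + 1, Or.inl (by rw [← hrr, zpow_add_one, zpow_two])⟩
      · exact ⟨-1, Or.inr (by rw [tr]; group)⟩
      · exact ⟨1, Or.inr (by rw [es.comm_z t tR, mul_assoc, tr, ← hrr]; group)⟩
  · rintro ⟨i, e | e⟩ <;> rw [e]
    exacts [zpow_mem hr i, mul_mem (zpow_mem hr i) tR]

end Cfsg.Agent.S5435
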