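import Mathlib
import Cfsg.Statements.S5436
import Cfsg.Agent.Lib.LargeExtra.Struct

set_option autoImplicit false
open Cfsg

namespace Cfsg.Agent.S5436

open Subgroup CfsgLib.ExtraTwo CfsgLib.LargeExtra CfsgLib.Core

/-- Let z be an involution of the finite group G with centralizer H whose generalized Fitting subgroup Q is extraspecial of width at least 2 (order 2^(2w+1), w ≥ 2); suppose some conjugate of z other than z lies in Q, H/Q is a non-abelian simple group, H acts irreducibly by conjugation on Q modulo the subgroup generated by z (the only H-invariant subgroups of Q containing z are that subgroup and Q), and Q is not the subgroup generated by the conjugates of z lying in H. Then G is simple. -/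
theorem result {G : Type*} [Group G] [Finite G] (z : G) (hz : orderOf z = 2) (Q : Subgroup (Subgroup.centralizer ({z} : Set G))) [Q.Normal] (hF : Cfsg.generalizedFittingSubgroup ↥(Subgroup.centralizer ({z} : Set G)) = Q) (hQ : Cfsg.IsExtraspecial 2 ↥Q) (w : ℕ) (hw : 2 ≤ w) (hcard : Nat.card ↥Q = 2 ^ (2 * w + 1)) (hnwc : ∃ g : G, (∃ hq : g * z * g⁻¹ ∈ Subgroup.centralizer ({z} : Set G), (⟨g * z * g⁻¹, hq⟩ : Subgroup.centralizer ({z} : Set G)) ∈ Q) ∧ g * z * g⁻¹ ≠ z) (hsimp : IsSimpleGroup (↥(Subgroup.centralizer ({z} : Set G)) ⧸ Q)) (hna : ¬ IsMulCommutative (↥(Subgroup.centralizer ({z} : Set G)) ⧸ Q)) (hirr : ∀ W : Subgroup (Subgroup.centralizer ({z} : Set G)), W.Normal → W ≤ Q → (W = Q ∨ ∀ x ∈ W, (x : G) ∈ Subgroup.zpowers z)) (hwcl : Subgroup.closure {x : Subgroup.centralizer ({z} : Set G) | IsConj z (x : G)} ≠ Q) : IsSimpleGroup G := by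
  have h := pre_of_fstar hz Q hF hQ
  have h8 : 8 < Nat.card (amb Q) := by
    rw [card_amb, hcard]
    calc 8 < 2 ^ 5 := by norm_num
      _ ≤ _ := Nat.pow_le_pow_right (by norm_num) (by omega)
  obtain ⟨g, ⟨hg, h1⟩, h2⟩ := hnwc
  refine h.simple (h.noOdd_of_conj_mem h8 (mem_amb.2 ⟨hg, h1⟩) h2) (by rw [pCore_eq_of_fstar hF hQ.1.1]) ?_
  set W := closure {x : centralizer ({z} : Set G) | IsConj z (x : G)} with hW
  have hn : W.Normal := ⟨fun x hx c => by
    have : W ≤ W.comap (MulAut.conj c).toMonoidHom := (closure_le _).2 fun y hy =>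
      subset_closure (IsConj.trans hy (isConj_iff.2 ⟨c, rfl⟩))
    exact this hx⟩
  have h3 : Q ≤ W := by
    rcases hirr (W ⊓ Q) inferInstance inf_le_right with e | e
    · exact inf_eq_right.1 e
    · have := e ⟨_, hg⟩ ⟨subset_closure (isConj_iff.2 ⟨g, rfl⟩), h1⟩
      rw [h.es.mem_zpowers] at this
      exact absurd (conj_eq_one_iff.1 (this.resolve_right h2)) h.es.ne_one
  have h4 : W = ⊤ := by
    rcases (hn.map (QuotientGroup.mk' Q) (QuotientGroup.mk'_surjective Q)).eq_bot_or_eq_top with e | e
    · rw [Subgroup.map_eq_bot_iff, QuotientGroup.ker_mk'] at e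
      exact absurd (le_antisymm e h3) hwcl
    · have := congrArg (comap (QuotientGroup.mk' Q)) e
      rwa [comap_map_eq, QuotientGroup.ker_mk', sup_eq_left.2 h3, comap_top] at this
  intro x hx
  have : W ≤ (normalClosure ({z} : Set G)).comap (centralizer ({z} : Set G)).subtype := (closure_le _).2 fun y hy => by
    obtain ⟨c, e⟩ := isConj_iff.1 hy
    have := normalClosure_normal.conj_mem z (subset_normalClosure (Set.mem_singleton z)) c
    rwa [e] at this
  exact this (h4 ▸ mem_top (⟨x, hx⟩ : centralizer ({z} : Set G)))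

end Cfsg.Agent.S5436
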