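import Cfsg.Statements.S5437

set_option autoImplicit false
open Cfsg

namespace Cfsg.Agent.S5437


/-- Let I be a set of involutions of the finite group G closed under conjugation, and H a subgroup of G. The following are equivalent: (1) for every member x of I lying in H, the conjugates of x lying in H form a single H-class and the centralizer of x lies in H; (2) for every g outside H, no member of I lies in both H and g H g⁻¹; (3) every member of I lying in H fixes exactly one coset in the action of G on the cosets of H. -/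
theorem result {G : Type*} [Group G] [Finite G] (I : Set G) (hI : ∀ x ∈ I, orderOf x = 2) (hIc : ∀ g : G, ∀ x ∈ I, g * x * g⁻¹ ∈ I) (H : Subgroup G) : ((∀ x ∈ I, x ∈ H → (∀ g : G, g * x * g⁻¹ ∈ H → ∃ h ∈ H, h * x * h⁻¹ = g * x * g⁻¹) ∧ Subgroup.centralizer ({x} : Set G) ≤ H) ↔ (∀ g : G, g ∉ H → ∀ x ∈ I, ¬ (x ∈ H ∧ x ∈ (H : Subgroup G).map (MulAut.conj g).toMonoidHom))) ∧ ((∀ g : G, g ∉ H → ∀ x ∈ I, ¬ (x ∈ H ∧ x ∈ (H : Subgroup G).map (MulAut.conj g).toMonoidHom)) ↔ ∀ x ∈ I, x ∈ H → ∃! c : G ⧸ H, x • c = c) := by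
  have hmem : ∀ g x : G, x ∈ H.map (MulAut.conj g).toMonoidHom ↔ g⁻¹ * x * g ∈ H := by
    intro g x
    constructor
    · rintro ⟨y, hy, rfl⟩
      simpa [mul_assoc] using hy
    · intro h
      exact ⟨_, h, by simp [mul_assoc]⟩
  have hfix : ∀ x g : G, x • ((g : G) : G ⧸ H) = g ↔ g⁻¹ * x * g ∈ H := by
    intro x g
    rw [MulAction.Quotient.smul_mk, smul_eq_mul, eq_comm, QuotientGroup.eq, mul_assoc]
  refine ⟨⟨?_, ?_⟩, ⟨?_, ?_⟩⟩
  · rintro h g hg x hx ⟨hxH, hxg⟩
    rw [hmem] at hxg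
    obtain ⟨h1, h2⟩ := h x hx hxH
    obtain ⟨k, hk, hkx⟩ := h1 g⁻¹ (by simpa using hxg)
    have : g * k ∈ H := by
      apply h2
      rw [Subgroup.mem_centralizer_iff]
      intro y hy
      rw [Set.mem_singleton_iff.mp hy]
      have : k * x = g⁻¹ * x * g * k := by
        rw [inv_inv] at hkx; rw [← hkx]; group
      rw [mul_assoc g, this]; group
    exact hg (by simpa using H.mul_mem this (H.inv_mem hk))
  · intro h x hx hxH
    refine ⟨fun g hg => ?_, fun g hg => ?_⟩
    · refine ⟨g, ?_, rfl⟩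
      by_contra hgH
      refine h g⁻¹ (by simpa using hgH) x hx ⟨hxH, ?_⟩
      rw [hmem]; simpa using hg
    · by_contra hgH
      refine h g hgH x hx ⟨hxH, ?_⟩
      rw [hmem]
      have := Subgroup.mem_centralizer_iff.mp hg x rfl
      rw [mul_assoc, this]; simpa using hxH
  · intro h x hx hxH
    refine ⟨((1 : G) : G ⧸ H), (hfix x 1).mpr (by simpa using hxH), ?_⟩
    intro c hc
    obtain ⟨g, rfl⟩ := QuotientGroup.mk_surjective c
    have hg := (hfix x g).mp hc
    by_contra hne
    refine h g ?_ x hx ⟨hxH, (hmem g x).mpr hg⟩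
    intro hgH
    apply hne
    rw [QuotientGroup.eq]; simpa using hgH
  · rintro h g hg x hx ⟨hxH, hxg⟩
    rw [hmem] at hxg
    obtain ⟨c, -, hc⟩ := h x hx hxH
    have h1 := hc _ ((hfix x 1).mpr (by simpa using hxH))
    have h2 := hc _ ((hfix x g).mpr hxg)
    have := QuotientGroup.eq.mp (h1.trans h2.symm)
    exact hg (by simpa using this)

end Cfsg.Agent.S5437
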