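import Cfsg.Statements.S5438

set_option autoImplicit false
open Cfsg

namespace Cfsg.Agent.S5438


/-- Let z be a 2-central involution of the finite group G (an involution central in some Sylow 2-subgroup) and H a subgroup containing z such that the coset H is the only coset of H fixed by z (in the action of G on the cosets of H). Then H has odd index in G, and for every 2-element x of H the conjugates of x lying in H form a single H-class. -/
theorem result {G : Type*} [Group G] [Finite G] (z : G) (hz : Cfsg.IsTwoCentralInvolution z) (H : Subgroup G) (hzH : z ∈ H) (hfix : ∀ g : G, g⁻¹ * z * g ∈ H → g ∈ H) : Odd H.index ∧ ∀ x ∈ H, (∃ k : ℕ, orderOf x = 2 ^ k) → ∀ g : G, g * x * g⁻¹ ∈ H → ∃ h ∈ H, h * x * h⁻¹ = g * x * g⁻¹ := by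
  have : Fact (Nat.Prime 2) := ⟨Nat.prime_two⟩
  obtain ⟨hz2, P, hzP, hzc⟩ := hz
  have hPH : (P : Subgroup G) ≤ H := by
    intro x hx
    apply hfix
    rw [mul_assoc, ← hzc x hx]; simpa using hzH
  refine ⟨?_, ?_⟩
  · have h1 : H.index ∣ (P : Subgroup G).index := Subgroup.index_dvd_of_le hPH
    have h2 := P.not_dvd_index
    rw [← Nat.not_even_iff_odd, even_iff_two_dvd]
    exact fun h => h2 (h.trans h1)
  -- a conjugate of z under H commutes with a given 2-element of H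
  have key : ∀ y ∈ H, (∃ k : ℕ, orderOf y = 2 ^ k) → ∃ h ∈ H, y * (h * z * h⁻¹) = (h * z * h⁻¹) * y := by
    rintro y hy ⟨k, hk⟩
    have hp : IsPGroup 2 (Subgroup.zpowers (⟨y, hy⟩ : H)) := by
      apply IsPGroup.of_card (n := k)
      rw [Nat.card_zpowers, ← hk, Subgroup.orderOf_mk]
    obtain ⟨Q, hQ⟩ := hp.exists_le_sylow
    obtain ⟨h, hh⟩ := MulAction.exists_smul_eq H Q (P.subtype hPH)
    have : h * ⟨y, hy⟩ * h⁻¹ ∈ ((P.subtype hPH : Sylow 2 H) : Subgroup H) := by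
      rw [← hh, Sylow.coe_subgroup_smul]
      exact Subgroup.smul_mem_pointwise_smul _ _ _ (hQ (Subgroup.mem_zpowers _))
    have h2 := hzc (h * y * (h : G)⁻¹) this
    refine ⟨h⁻¹, H.inv_mem h.2, ?_⟩
    calc y * ((h : G)⁻¹ * z * (h : G)⁻¹⁻¹) = (h : G)⁻¹ * (h * y * (h : G)⁻¹ * z) * h := by group
      _ = (h : G)⁻¹ * (z * (h * y * (h : G)⁻¹)) * h := by rw [h2]
      _ = _ := by group
  intro x hx hk g hg
  obtain ⟨h1, hh1, e1⟩ := key x hx hk
  obtain ⟨h2, hh2, e2⟩ := key _ hg (by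
    obtain ⟨k, hk⟩ := hk
    exact ⟨k, by rw [← hk]; exact (MulAut.conj g).orderOf_eq x⟩)
  set y := g * x * g⁻¹ with hy
  set C := Subgroup.centralizer ({y} : Set G) with hC
  have ha : h2 * z * h2⁻¹ ∈ C := by
    rw [hC, Subgroup.mem_centralizer_iff]; rintro _ rfl; exact e2
  have hb : (g * h1) * z * (g * h1)⁻¹ ∈ C := by
    rw [hC, Subgroup.mem_centralizer_iff]; rintro _ rfl
    calc y * (g * h1 * z * (g * h1)⁻¹) = g * (x * (h1 * z * h1⁻¹)) * g⁻¹ := by rw [hy]; group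
      _ = g * ((h1 * z * h1⁻¹) * x) * g⁻¹ := by rw [e1]
      _ = _ := by rw [hy]; group
  have hpz : ∀ (u : G) (hu : u * z * u⁻¹ ∈ C), IsPGroup 2 (Subgroup.zpowers (⟨_, hu⟩ : C)) := by
    intro u hu
    apply IsPGroup.of_card (n := 1)
    rw [Nat.card_zpowers, Subgroup.orderOf_mk, pow_one, ← hz2]
    exact (MulAut.conj u).orderOf_eq z
  obtain ⟨S1, hS1⟩ := (hpz _ ha).exists_le_sylow
  obtain ⟨S2, hS2⟩ := (hpz _ hb).exists_le_sylow
  obtain ⟨c, hc⟩ := MulAction.exists_smul_eq C S2 S1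
  have m1 : (⟨_, ha⟩ : C) ∈ (S1 : Subgroup C) := hS1 (Subgroup.mem_zpowers _)
  have m2 : c * ⟨_, hb⟩ * c⁻¹ ∈ (S1 : Subgroup C) := by
    rw [← hc, Sylow.coe_subgroup_smul]
    exact Subgroup.smul_mem_pointwise_smul _ _ _ (hS2 (Subgroup.mem_zpowers _))
  obtain ⟨T, hT⟩ := (S1.2.map C.subtype).exists_le_sylow
  obtain ⟨k, hk'⟩ := MulAction.exists_smul_eq G T P
  have hTH : ∀ t ∈ (T : Subgroup G), k * t * k⁻¹ ∈ H := by
    intro t ht
    apply hPH
    rw [← hk', Sylow.coe_subgroup_smul]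
    exact Subgroup.smul_mem_pointwise_smul _ _ _ ht
  have n1 := hTH _ (hT ⟨_, m1, rfl⟩)
  have n2 := hTH _ (hT ⟨_, m2, rfl⟩)
  simp only [Subgroup.coe_subtype, Subgroup.coe_mul, Subgroup.coe_inv] at n1 n2
  have k1 : (k * h2)⁻¹ ∈ H := by
    apply hfix
    convert n1 using 1; group
  have k2 : (k * c * g * h1)⁻¹ ∈ H := by
    apply hfix
    convert n2 using 1; group
  have hcg : c * g ∈ H := by
    have := H.mul_mem (H.mul_mem (H.mul_mem hh2 k1) (H.inv_mem k2)) (H.inv_mem hh1)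
    convert this using 1; group
  refine ⟨c * g, hcg, ?_⟩
  have hcy := Subgroup.mem_centralizer_iff.mp c.2 y rfl
  calc c * g * x * (c * g)⁻¹ = (c * y) * (c : G)⁻¹ := by rw [hy]; group
    _ = y := by rw [← hcy]; group

end Cfsg.Agent.S5438
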