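import Cfsg.Statements.S5439

set_option autoImplicit false
open Cfsg

namespace Cfsg.Agent.S5439


/-- Let I and J be two different conjugacy classes of involutions of the finite group G and H a subgroup such that every member of I ∪ J fixes exactly one coset in the action on the cosets of H, and such that for every a in I ∩ H and every b in (I ∪ J) ∩ H different from a and commuting with it, the centralizer of a b lies in H. Then H = G. -/
theorem result {G : Type*} [Group G] [Finite G] (I J : Set G) (a₀ b₀ : G) (ha₀ : orderOf a₀ = 2) (hb₀ : orderOf b₀ = 2) (hI : I = {x | IsConj a₀ x}) (hJ : J = {x | IsConj b₀ x}) (hIJ : I ≠ J) (H : Subgroup G) (hfix : ∀ x ∈ I ∪ J, ∃! c : G ⧸ H, x • c = c) (hcent : ∀ a ∈ I, a ∈ H → ∀ b ∈ I ∪ J, b ∈ H → a ≠ b → a * b = b * a → Subgroup.centralizer ({a * b} : Set G) ≤ H) : H = ⊤ := by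
  by_contra hne
  have hfix' : ∀ x g : G, x • ((g : G) : G ⧸ H) = g ↔ g⁻¹ * x * g ∈ H := by
    intro x g
    rw [MulAction.Quotient.smul_mk, smul_eq_mul, eq_comm, QuotientGroup.eq, mul_assoc]
  have huniq : ∀ x ∈ I ∪ J, ∀ g g' : G, g⁻¹ * x * g ∈ H → g'⁻¹ * x * g' ∈ H → g⁻¹ * g' ∈ H := by
    intro x hx g g' h1 h2
    obtain ⟨c, -, hc⟩ := hfix x hx
    exact QuotientGroup.eq.mp ((hc _ ((hfix' x g).mpr h1)).trans (hc _ ((hfix' x g').mpr h2)).symm)
  have hex : ∀ x ∈ I ∪ J, ∃ g : G, g⁻¹ * x * g ∈ H := by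
    intro x hx
    obtain ⟨c, hc, -⟩ := hfix x hx
    obtain ⟨g, rfl⟩ := QuotientGroup.mk_surjective c
    exact ⟨g, (hfix' x g).mp hc⟩
  have hIc : ∀ x ∈ I, ∀ g : G, g⁻¹ * x * g ∈ I := by
    intro x hx g
    rw [hI] at hx ⊢
    exact IsConj.trans hx (isConj_iff.mpr ⟨g⁻¹, by simp⟩)
  have hJc : ∀ x ∈ J, ∀ g : G, g⁻¹ * x * g ∈ J := by
    intro x hx g
    rw [hJ] at hx ⊢
    exact IsConj.trans hx (isConj_iff.mpr ⟨g⁻¹, by simp⟩)
  have hI2 : ∀ x ∈ I, orderOf x = 2 := by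
    intro x hx
    rw [hI] at hx
    obtain ⟨g, rfl⟩ := isConj_iff.mp hx
    rw [← ha₀]; exact (MulAut.conj g).orderOf_eq a₀
  have hJ2 : ∀ x ∈ J, orderOf x = 2 := by
    intro x hx
    rw [hJ] at hx
    obtain ⟨g, rfl⟩ := isConj_iff.mp hx
    rw [← hb₀]; exact (MulAut.conj g).orderOf_eq b₀
  have hdisj : ∀ x ∈ I, x ∉ J := by
    intro x hx hx'
    apply hIJ
    rw [hI, hJ] at *
    ext y
    exact ⟨fun h => IsConj.trans hx' ((IsConj.symm hx).trans h),
      fun h => IsConj.trans hx ((IsConj.symm hx').trans h)⟩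
  obtain ⟨g1, hg1⟩ := hex a₀ (Or.inl (by rw [hI]; exact IsConj.refl _))
  obtain ⟨g2, hg2⟩ := hex b₀ (Or.inr (by rw [hJ]; exact IsConj.refl _))
  obtain ⟨g, hg⟩ : ∃ g, g ∉ H := by
    by_contra h; push Not at h; exact hne (eq_top_iff.mpr fun g _ => h g)
  have haI : g1⁻¹ * a₀ * g1 ∈ I := hIc _ (by rw [hI]; exact IsConj.refl _) _
  have hb'J : g2⁻¹ * b₀ * g2 ∈ J := hJc _ (by rw [hJ]; exact IsConj.refl _) _
  generalize g1⁻¹ * a₀ * g1 = a at haI hg1
  generalize g2⁻¹ * b₀ * g2 = b' at hb'J hg2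
  have hbJ : g⁻¹ * b' * g ∈ J := hJc _ hb'J _
  have hbH : g⁻¹ * b' * g ∉ H := by
    intro h
    have := huniq b' (Or.inr hb'J) 1 g (by simpa using hg2) h
    exact hg (by simpa using this)
  generalize g⁻¹ * b' * g = b at hbJ hbH
  have ha2 : a * a = 1 := by rw [← pow_two, ← hI2 a haI, pow_orderOf_eq_one]
  have hb2 : b * b = 1 := by rw [← pow_two, ← hJ2 b hbJ, pow_orderOf_eq_one]
  set r := a * b with hr
  have hsc : SemiconjBy a r r⁻¹ := by
    have hai : a⁻¹ = a := inv_eq_of_mul_eq_one_right ha2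
    have hbi : b⁻¹ = b := inv_eq_of_mul_eq_one_right hb2
    rw [SemiconjBy, hr, mul_inv_rev, hai, hbi, ← mul_assoc, ha2, mul_assoc, ha2]; simp
  have hsc' : ∀ j : ℕ, (r ^ j)⁻¹ * a = a * r ^ j := by
    intro j
    have := hsc.pow_right j
    rw [SemiconjBy, inv_pow] at this
    exact this.symm
  have hbr : b = a * r := by rw [hr, ← mul_assoc, ha2, one_mul]
  have hev : ∀ j : ℕ, a * r ^ (2 * j) ∈ I := by
    intro j
    have := hIc a haI (r ^ j)
    rw [hsc', mul_assoc, ← pow_add, ← two_mul] at this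
    exact this
  have hod : ∀ j : ℕ, a * r ^ (2 * j + 1) ∈ J := by
    intro j
    have := hJc b hbJ (r ^ j)
    rw [hbr, ← mul_assoc, hsc', mul_assoc, mul_assoc, ← pow_succ', ← pow_add] at this
    convert this using 3; ring
  rcases Nat.even_or_odd' (orderOf r) with ⟨m, hm | hm⟩
  · have hpos : 0 < orderOf r := orderOf_pos r
    have hw1 : r ^ m ≠ 1 := pow_ne_one_of_lt_orderOf (by omega) (by omega)
    have hw2 : r ^ m * r ^ m = 1 := by rw [← pow_add, ← two_mul, ← hm, pow_orderOf_eq_one]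
    have hwi : (r ^ m)⁻¹ = r ^ m := inv_eq_of_mul_eq_one_right hw2
    have hcomm : r ^ m * a = a * r ^ m := by rw [← hsc', hwi]
    have hwH : r ^ m ∈ H := by
      have := huniq a (Or.inl haI) 1 (r ^ m) (by simpa using hg1)
        (by rw [hwi, hcomm, mul_assoc, hw2, mul_one]; exact hg1)
      simpa using this
    have hmem : a * r ^ m ∈ I ∪ J := by
      rcases Nat.even_or_odd' m with ⟨j, hj | hj⟩
      · rw [hj]; exact Or.inl (hev j)
      · rw [hj]; exact Or.inr (hod j)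
    have := hcent a haI hg1 _ hmem (H.mul_mem hg1 hwH) (by
      intro h; apply hw1; simpa using h) (by rw [mul_assoc a (r ^ m) a, hcomm])
    apply hbH
    apply this
    rw [← mul_assoc, ha2, one_mul, Subgroup.mem_centralizer_iff]
    rintro _ rfl
    rw [hbr, ← mul_assoc, hcomm, mul_assoc, mul_assoc, ← pow_succ, ← pow_succ']
  · have := hod m
    rw [← hm, pow_orderOf_eq_one, mul_one] at this
    exact hdisj a haI this

end Cfsg.Agent.S5439
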