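import Cfsg.Statements.S5440
import Cfsg.Agent.Lib.F24T.Orb

set_option autoImplicit false
open Cfsg

namespace Cfsg.Agent.S5440

open CfsgLib.F24T CfsgLib.ExtraTwo CfsgLib.LargeExtra Subgroup


/-- Let G be a finite group of large Fischer type at the involution z: the generalized Fitting subgroup Q of H = C_G(z) is extraspecial of order 2^13, H has normal subgroups Q ≤ H₁ ≤ H₂ with H₁/Q of order 3, H₂/H₁ the projective special unitary group of dimension 4 over the field with nine elements and H₂ of index 2 in H, and some conjugate of z other than z lies in Q. Then H has exactly two orbits, under conjugation, on the involutions of Q other than z. -/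
theorem result {G : Type*} [Group G] [Finite G] (z : G) (Q : Subgroup (Subgroup.centralizer ({z} : Set G))) [Q.Normal] (hF : Cfsg.IsOfLargeFischerTypeAt z Q) : ∃ s t : Subgroup.centralizer ({z} : Set G), s ∈ Q ∧ t ∈ Q ∧ orderOf s = 2 ∧ orderOf t = 2 ∧ (s : G) ≠ z ∧ (t : G) ≠ z ∧ (¬ ∃ h : Subgroup.centralizer ({z} : Set G), h * s * h⁻¹ = t) ∧ ∀ x : Subgroup.centralizer ({z} : Set G), x ∈ Q → orderOf x = 2 → (x : G) ≠ z → (∃ h : Subgroup.centralizer ({z} : Set G), h * s * h⁻¹ = x) ∨ ∃ h : Subgroup.centralizer ({z} : Set G), h * t * h⁻¹ = x := by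
  obtain ⟨π, ρ, f⟩ := fm_of_type hF
  obtain ⟨s, hs, e1⟩ := f.co.surj (dec 85)
  obtain ⟨t, ht, e2⟩ := f.co.surj (dec 5)
  have h1 : ty (π s) = 3 := e1 ▸ ty_85
  have h2 : ty (π t) = 2 := e2 ▸ ty_5
  obtain ⟨s, hs', rfl⟩ := id hs
  obtain ⟨t, ht', rfl⟩ := id ht
  have o : ∀ x : centralizer ({z} : Set G), (x : G) ∈ amb Q → ty (π x) = 2 ∨ ty (π x) = 3 → orderOf x = 2 :=
    fun x hx h => (orderOf_coe x).symm.trans
      (orderOf_eq_two (f.ne_of_ty (by omega)).1 (f.mul_self_of_ty hx (by omega)))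
  refine ⟨s, t, hs', ht', o s hs (Or.inr h1), o t ht (Or.inl h2), (f.ne_of_ty (h1.trans_ne (by decide))).2,
    (f.ne_of_ty (h2.trans_ne (by decide))).2, ?_, fun x hx h hz => ?_⟩
  · rintro ⟨h, rfl⟩
    exact absurd (h1.symm.trans ((f.ty_conj h hs).symm.trans h2)) (by decide)
  · rw [← orderOf_coe] at h
    have hx' := coe_mem_amb.mpr hx
    rcases f.ty_invol hx' (mul_self_of_orderOf h) (ne_one_of_orderOf h) hz with e | e
    · exact Or.inr ((f.conj_of_ty ht hx' (h2.trans e.symm) (Or.inl e)).imp fun _ => Subtype.ext)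
    · exact Or.inl ((f.conj_of_ty hs hx' (h1.trans e.symm) (Or.inr e)).imp fun _ => Subtype.ext)

end Cfsg.Agent.S5440
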