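import Cfsg.Statements.S5442
import Cfsg.Agent.Lib.F24T.Six

set_option autoImplicit false
open Cfsg

namespace Cfsg.Agent.S5442

open CfsgLib.F24T CfsgLib.ExtraTwo CfsgLib.LargeExtra Subgroup


/-- Let G be a finite group of large Fischer type at the involution z: the generalized Fitting subgroup Q of H = C_G(z) is extraspecial of order 2^13, H has normal subgroups Q ≤ H₁ ≤ H₂ with H₁/Q of order 3, H₂/H₁ the projective special unitary group of dimension 4 over the field with nine elements and H₂ of index 2 in H, and some conjugate of z other than z lies in Q. Let s = g z g⁻¹ be a conjugate of z lying in Q and different from z. Then the intersection of Q and g Q g⁻¹ (as subgroups of G) is elementary abelian of order 2^7; and in H/Q, writing X for the image of the centralizer of s in H and E for the image of the intersection of g Q g⁻¹ with H, E is a normal subgroup of X, elementary abelian of order 32, with X/E isomorphic to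 the alternating group of degree 6. -/
theorem result {G : Type*} [Group G] [Finite G] (z : G) (Q : Subgroup (Subgroup.centralizer ({z} : Set G))) [Q.Normal] (hF : Cfsg.IsOfLargeFischerTypeAt z Q) (s : G) (hsQ : ∃ hsc : s ∈ Subgroup.centralizer ({z} : Set G), (⟨s, hsc⟩ : Subgroup.centralizer ({z} : Set G)) ∈ Q) (hs : IsConj z s) (hs1 : s ≠ z) (g : G) (hg : g * z * g⁻¹ = s) (X E : Subgroup ((Subgroup.centralizer ({z} : Set G)) ⧸ Q)) (hX : X = ((Subgroup.centralizer ({z} : Set G) ⊓ Subgroup.centralizer ({s} : Set G)).subgroupOf (Subgroup.centralizer ({z} : Set G))).map (QuotientGroup.mk' Q)) (hE : E = ((((Q.map (Subgroup.centralizer ({z} : Set G)).subtype)).map (MulAut.conj g).toMonoidHom ⊓ Subgroup.centralizer ({z} : Set G)).subgroupOf (Subgroup.centralizer ({z} : Set G))).map (QuotientGroup.mk' Q)) : Cfsg.IsElementaryAbelian 2 ((Q.map (Subgroup.centralizer ({z} : Set G)).subtype) ⊓ ((Q.map (Subgroup.centralizer ({z} : Set G)).subtype)).map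 (MulAut.conj g).toMonoidHom) ∧ Nat.card ↥((Q.map (Subgroup.centralizer ({z} : Set G)).subtype) ⊓ ((Q.map (Subgroup.centralizer ({z} : Set G)).subtype)).map (MulAut.conj g).toMonoidHom) = 2 ^ 7 ∧ E ≤ X ∧ (∀ x ∈ X, ∀ y ∈ E, x * y * x⁻¹ ∈ E) ∧ Cfsg.IsElementaryAbelian 2 E ∧ Nat.card E = 32 ∧ ∃ _ : (E.subgroupOf X).Normal, Nonempty (↥X ⧸ E.subgroupOf X ≃* alternatingGroup (Fin 6)) := by
  obtain ⟨π, ρ, f⟩ := fm_of_type hF
  have hs' := mem_amb.mpr hsQ
  obtain ⟨π, ρ, f, e⟩ := f.exists_coord (trans3 (f.ty3 hs' hs hs1))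
  subst hg
  obtain ⟨p, hQ⟩ := f.pair hs' hs1
  obtain ⟨ψ, h1, h2⟩ := f.exists_psi p hQ e
  rw [inf_subgroupOf_right] at hE
  rw [inf_subgroupOf_left] at hX
  have hk : ∀ x : centralizer ({z} : Set G), QuotientGroup.mk' Q x = 1 ↔ (x : G) ∈ amb Q := fun x =>
    (QuotientGroup.eq_one_iff x).trans coe_mem_amb.symm
  have c1 : Nat.card ↥(amb Q ⊓ (amb Q).map (MulAut.conj g).toMonoidHom) = 2 ^ 7 := by
    rw [f.co.card_img inf_le_left ⟨f.co.es.mem, p.zQ1⟩, (f.pair85 p hQ e).1, card_perp]; decide +kernel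
  have c2 := p.card_E_mul_card_map _ hk
  have hEX : E ≤ X := hE ▸ hX ▸ map_mono fun x hx => mem_cent.mpr (p.h1.es.comm_z _ hx)
  have hsq : ∀ x ∈ E, x * x = 1 := fun x hx => p.map_mul_self _ hk (hE ▸ hx)
  let r : _ ⧸ Q →* GL0 := QuotientGroup.lift Q ρ fun x hx => (f.ker x).mpr (coe_mem_amb.mpr hx)
  let χ : X →* (H0 ⊓ St 85 : Subgroup GL0) := (r.comp X.subtype).codRestrict _ (by
    rintro ⟨_, hx⟩
    obtain ⟨x, hx', rfl⟩ := hX.le hx
    exact ⟨f.mem_H0 x, show ρ x (dec 85) = dec 85 from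
      e ▸ (f.fix_iff x hs').mpr (Or.inl (conj_eq_of_comm (mem_cent.mp hx')))⟩)
  have hχ : Function.Surjective χ := by
    rintro ⟨_, h3, h4⟩
    obtain ⟨x, rfl⟩ := f.exists_rho h3
    obtain ⟨y, h5, h6⟩ := f.exists_cent p x (e ▸ h4)
    exact ⟨⟨_, hX.ge ⟨y, mem_cent.mpr h6, rfl⟩⟩, Subtype.ext h5⟩
  have hker : (ψ.comp χ).ker = E.subgroupOf X := by
    ext ⟨x, hx⟩
    obtain ⟨x, rfl⟩ := QuotientGroup.mk'_surjective Q x
    rw [MonoidHom.mem_ker, MonoidHom.comp_apply, h2, mem_subgroupOf, hE]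
    refine ⟨fun ⟨y, hy, h⟩ => ⟨y, hy, ?_⟩, fun ⟨y, hy, h⟩ => ⟨y, hy, congrArg r h⟩⟩
    rw [← inv_mul_eq_one, ← map_inv, ← map_mul, hk, ← f.ker, map_mul, map_inv, h]
    exact inv_mul_cancel _
  have hn : (E.subgroupOf X).Normal := hker ▸ MonoidHom.normal_ker _
  refine ⟨⟨⟨⟨fun x y => Subtype.ext (p.E_comm x.2 y.2)⟩⟩, fun x hx => by rw [sq, p.E_sq hx]⟩, c1, hEX,
    fun x hx y hy => ?_, ⟨⟨⟨fun x y => Subtype.ext ?_⟩⟩, fun x hx => by rw [sq, hsq x hx]⟩, ?_,
    hn, ⟨(QuotientGroup.quotientMulEquivOfEq hker.symm).trans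
      (QuotientGroup.quotientKerEquivOfSurjective _ (h1.comp hχ))⟩⟩
  · exact hn.conj_mem ⟨y, hEX hy⟩ hy ⟨x, hx⟩
  · have i : ∀ x ∈ E, x⁻¹ = x := fun x hx => inv_eq_of_mul_eq_one_right (hsq x hx)
    rw [coe_mul, coe_mul, ← i _ (mul_mem x.2 y.2), mul_inv_rev, i _ x.2, i _ y.2]
  · rw [c1, hQ, ← hE] at c2; omega

end Cfsg.Agent.S5442
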