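import Cfsg.Statements.S5443
import Cfsg.Agent.Lib.F24T.O6

set_option autoImplicit false
open Cfsg

namespace Cfsg.Agent.S5443

open CfsgLib.F24T CfsgLib.ExtraTwo CfsgLib.LargeExtra Subgroup


/-- Let G be a finite group of large Fischer type at the involution z: the generalized Fitting subgroup Q of H = C_G(z) is extraspecial of order 2^13, H has normal subgroups Q ≤ H₁ ≤ H₂ with H₁/Q of order 3, H₂/H₁ the projective special unitary group of dimension 4 over the field with nine elements and H₂ of index 2 in H, and some conjugate of z other than z lies in Q. Let t be an involution of Q not conjugate to z in G, and S the set of elements of H conjugating t to t or to t z (the stabilizer of the image of t in Q modulo its centre). Then the image of S in H/Q is isomorphic to the full isometry group of the elliptic quadratic form in dimension 6 over the field with two elements. -/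
theorem result {G : Type*} [Group G] [Finite G] (z : G) (Q : Subgroup (Subgroup.centralizer ({z} : Set G))) [Q.Normal] (hF : Cfsg.IsOfLargeFischerTypeAt z Q) (t : Subgroup.centralizer ({z} : Set G)) (htQ : t ∈ Q) (ht2 : orderOf t = 2) (ht : ¬ IsConj z (t : G)) (S : Subgroup (Subgroup.centralizer ({z} : Set G))) (hS : ∀ h : Subgroup.centralizer ({z} : Set G), h ∈ S ↔ (h * t * h⁻¹ = t ∨ ((h * t * h⁻¹ : Subgroup.centralizer ({z} : Set G)) : G) = t * z)) : Nonempty (↥(S.map (QuotientGroup.mk' Q)) ≃* Cfsg.isometryGroup (ZMod 2) (Cfsg.quadFormMinus 2 (ZMod 2) 1 1)) := by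
  obtain ⟨π, ρ, f⟩ := fm_of_type hF
  have ht' := coe_mem_amb.mpr htQ
  rw [← orderOf_coe] at ht2
  have hz : (t : G) ≠ z := fun e => ht (by rw [e])
  obtain ⟨π, ρ, f, e⟩ := f.exists_coord (trans2 ((f.ty_invol ht' (mul_self_of_orderOf ht2)
    (ne_one_of_orderOf ht2) hz).resolve_right fun h => ht ((f.isConj_iff_ty ht' hz).mpr h)))
  obtain ⟨φ⟩ := exists_o6 f.card_H0
  have hS' : ∀ h, h ∈ S ↔ ρ h (dec 5) = dec 5 := fun h => by
    rw [hS, ← e, f.fix_iff h ht', Subtype.ext_iff]; rfl
  let r : _ ⧸ Q →* GL0 := QuotientGroup.lift Q ρ fun x hx => (f.ker x).mpr (coe_mem_amb.mpr hx)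
  let χ : S.map (QuotientGroup.mk' Q) →* (H0 ⊓ St 5 : Subgroup GL0) := (r.comp (Subgroup.subtype _)).codRestrict _ (by
    rintro ⟨_, x, hx, rfl⟩
    exact ⟨f.mem_H0 x, (hS' x).mp hx⟩)
  refine ⟨(MulEquiv.ofBijective χ ⟨(injective_iff_map_eq_one _).mpr ?_, ?_⟩).trans φ⟩
  · rintro ⟨_, x, hx, rfl⟩ h
    exact Subtype.ext ((QuotientGroup.eq_one_iff x).mpr (coe_mem_amb.mp ((f.ker x).mp (congrArg Subtype.val h))))
  · rintro ⟨_, h3, h4⟩
    obtain ⟨x, rfl⟩ := f.exists_rho h3
    exact ⟨⟨_, x, (hS' x).mpr h4, rfl⟩, rfl⟩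

end Cfsg.Agent.S5443
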