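import Cfsg.Statements.S5445
import Cfsg.Agent.Lib.F24T.L8
import Cfsg.Agent.Lib.FiLoc.Grp

set_option autoImplicit false
open Cfsg

namespace Cfsg.Agent.S5445

open CfsgLib CfsgLib.F24T CfsgLib.LargeExtra Subgroup

/-- Let G be a finite group of large Fischer type at the involution z: the generalized Fitting subgroup Q of H = C_G(z) is extraspecial of order 2^13, H has normal subgroups Q ≤ H₁ ≤ H₂ with H₁/Q of order 3, H₂/H₁ the projective special unitary group of dimension 4 over the field with nine elements and H₂ of index 2 in H, and some conjugate of z other than z lies in Q. Then G has an elementary abelian subgroup V of order 8 containing z whose normalizer L has the following structure: the largest normal 2-subgroup R of L is special of order 2^15 with centre V, and L/R is isomorphic to the direct product of SL(3, 2) and the alternating group of degree 6. -/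
theorem result {G : Type*} [Group G] [Finite G] (z : G) (Q : Subgroup (Subgroup.centralizer ({z} : Set G))) [Q.Normal] (hF : Cfsg.IsOfLargeFischerTypeAt z Q) : ∃ V : Subgroup G, Cfsg.IsElementaryAbelian 2 V ∧ Nat.card V = 8 ∧ z ∈ V ∧ ∃ R : Subgroup G, R = (Cfsg.pCore 2 ↥(Subgroup.normalizer (V : Set G))).map (Subgroup.normalizer (V : Set G)).subtype ∧ Cfsg.IsSpecial 2 ↥R ∧ Nat.card R = 2 ^ 15 ∧ (Subgroup.center ↥R).map R.subtype = V ∧ ∃ _ : (R.subgroupOf (Subgroup.normalizer (V : Set G))).Normal, Nonempty (↥(Subgroup.normalizer (V : Set G)) ⧸ R.subgroupOf (Subgroup.normalizer (V : Set G)) ≃* Matrix.SpecialLinearGroup (Fin 3) (ZMod 2) × ↥(alternatingGroup (Fin 6))) := by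
  obtain ⟨π, ρ, f⟩ := fm_of_type hF
  obtain ⟨V, R, h1, h2, h3, h4, h5, h6, Φ, h7, rfl⟩ := f.local8
  have e : Φ.ker = (Φ.ker.map (Subgroup.subtype _)).subgroupOf _ := (comap_map_eq_self_of_injective (subtype_injective _) _).symm
  obtain ⟨i⟩ := FiLoc.nonempty_quot_of_ker h7 rfl
  have s1 := alternatingGroup.isSimpleGroup (α := Fin 6) (by simp)
  have s3 := Classical.psl_fin_isSimpleGroup (F := ZMod 2) 3 (by norm_num) (by norm_num)
  have s2 : IsSimpleGroup (Matrix.SpecialLinearGroup (Fin 3) (ZMod 2)) := ((QuotientGroup.quotientMulEquivOfEq (by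
    rw [← card_eq_one, Classical.sl_card_center, ZMod.card]; rfl)).trans QuotientGroup.quotientBot).symm.isSimpleGroup
  refine ⟨V, h1, h2, h3, _, congrArg _ (le_antisymm (Core.le_pCore (h4.1.of_equiv
    (Φ.ker.equivMapOfInjective _ (subtype_injective _)).symm)) (pCore_le_of_equiv i fun K hK hp => ?_)), h4, h5, h6,
    e ▸ Φ.normal_ker, @FiLoc.nonempty_quot_of_ker _ _ _ _ Φ h7 _ (_) e⟩
  have a := normal_two_eq_bot (by rw [Classical.sl3_card, ZMod.card]; decide) (hK.map _ Prod.fst_surjective)
    (hp.map (MonoidHom.fst _ _))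
  have b := normal_two_eq_bot (by rw [nat_card_alternatingGroup]; simp [Nat.factorial]) (hK.map _ Prod.snd_surjective)
    (hp.map (MonoidHom.snd _ _))
  exact bot_unique fun x hx => Prod.ext (a.le ⟨x, hx, rfl⟩) (b.le ⟨x, hx, rfl⟩)

end Cfsg.Agent.S5445
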