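import Mathlib
import Cfsg.Statements.S5459


set_option autoImplicit false
open Cfsg

namespace Cfsg.Agent.S5459

section Aux

open Subgroup

theorem reach_of_comm {G : Type*} [Group G] {D : Set G} (a b : D) (h : (a : G) * b = b * a) :
    (Cfsg.commutingGraph D).Reachable a b := by
  by_cases hab : a = b
  · rw [hab]
  · exact SimpleGraph.Adj.reachable ((SimpleGraph.fromRel_adj _ _ _).mpr ⟨hab, Or.inl h⟩)

/-- Conjugation as a map of the commuting graph of a class to itself. -/
def conjHom {G : Type*} [Group G] (d g : G) :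
    Cfsg.commutingGraph (conjugatesOf d) →g Cfsg.commutingGraph (conjugatesOf d) where
  toFun a := ⟨g * a * g⁻¹, a.2.trans (isConj_iff.mpr ⟨g, rfl⟩)⟩
  map_rel' := by
    intro a b h
    rw [Cfsg.commutingGraph, SimpleGraph.fromRel_adj] at h ⊢
    refine ⟨fun H => h.1 (Subtype.ext ?_), h.2.imp (fun H => H.conj g) fun H => H.conj g⟩
    simpa using congrArg Subtype.val H

end Aux

/-- Let G be a finite group with a quasisimple normal subgroup L and an involution d such that G is generated by L and d, the centre of L has odd order, and d inverts every element of the centre of L. If the commuting graph on the conjugacy class of the image of d in G modulo the centre of L is connected, then the commuting graph on the conjugacy class of d is connected. -/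
theorem result {G : Type*} [Group G] [Finite G] (L : Subgroup G) [L.Normal] (hL : Cfsg.IsQuasisimple ↥L) (d : G) (hd : orderOf d = 2) (hgen : L ⊔ Subgroup.zpowers d = ⊤) (hodd : Odd (Nat.card ↥(Subgroup.center ↥L))) (hinv : ∀ c ∈ (Subgroup.center ↥L).map L.subtype, d * c * d⁻¹ = c⁻¹) [hn : ((Subgroup.center ↥L).map L.subtype).Normal] (hconn : (Cfsg.commutingGraph (conjugatesOf (QuotientGroup.mk d : G ⧸ (Subgroup.center ↥L).map L.subtype))).Connected) : (Cfsg.commutingGraph (conjugatesOf d)).Connected := by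
  set Z := (Subgroup.center ↥L).map L.subtype with hZ
  have hd2 : d * d = 1 := by rw [← pow_two, ← hd, pow_orderOf_eq_one]
  have hLZ : ∀ l ∈ L, ∀ c ∈ Z, l * c = c * l := by
    rintro l hl _ ⟨c, hc, rfl⟩
    exact congrArg Subtype.val (Subgroup.mem_center_iff.mp hc ⟨l, hl⟩)
  have hZL : Z ≤ L := Subgroup.map_subtype_le _
  have hDinv : ∀ a ∈ conjugatesOf d, ∀ c ∈ Z, a * c * a⁻¹ = c⁻¹ := by
    intro a ha c hc
    obtain ⟨g, rfl⟩ := isConj_iff.mp ha
    have := hinv _ (hn.conj_mem c hc g⁻¹)
    calc _ = g * (d * (g⁻¹ * c * g⁻¹⁻¹) * d⁻¹) * g⁻¹ := by group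
      _ = _ := by rw [this]; group
  have hD2 : ∀ a ∈ conjugatesOf d, a * a = 1 := by
    intro a ha
    obtain ⟨g, rfl⟩ := isConj_iff.mp ha
    calc _ = g * (d * d) * g⁻¹ := by group
      _ = _ := by rw [hd2]; group
  have hroot : ∀ z ∈ Z, ∃ u ∈ Z, u ^ 4 = z := by
    intro z hz
    have h1 : Odd (Nat.card Z) := by
      rwa [hZ, Subgroup.card_map_of_injective L.subtype_injective]
    have h2 : (Nat.card Z).Coprime 4 := by
      have := Nat.Coprime.pow_right 2 (Nat.coprime_two_right.mpr h1)
      simpa using this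
    obtain ⟨u, hu⟩ := (powCoprime h2).surjective ⟨z, hz⟩
    exact ⟨u, u.2, congrArg Subtype.val hu⟩
  have hlift : ∀ a ∈ conjugatesOf d, ∀ b ∈ conjugatesOf d,
      (a : G ⧸ Z) * b = b * a → ∃ u ∈ Z, a * (u * b * u⁻¹) = (u * b * u⁻¹) * a := by
    intro a ha b hb hab
    have ia : a⁻¹ = a := inv_eq_of_mul_eq_one_right (hD2 a ha)
    have ib : b⁻¹ = b := inv_eq_of_mul_eq_one_right (hD2 b hb)
    have h1 : (b * a)⁻¹ * (a * b) ∈ Z := QuotientGroup.eq.mp hab.symm
    rw [mul_inv_rev, ia, ib] at h1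
    obtain ⟨u, hu, hu4⟩ := hroot _ h1
    refine ⟨u, hu, ?_⟩
    have e1 : u * b * u⁻¹ = u ^ 2 * b := by
      have := hDinv b hb _ (inv_mem hu)
      calc _ = u * (b * u⁻¹ * b⁻¹) * b := by group
        _ = _ := by rw [this, inv_inv, pow_two]
    have e2 := hDinv a ha _ (pow_mem hu 2)
    have e3 : a * b = u ^ 4 * (b * a) := by
      rw [hu4]
      calc a * b = a * b * (a * (b * b) * a) := by rw [hD2 b hb, mul_one, hD2 a ha, mul_one]
        _ = _ := by group
    rw [e1]
    calc a * (u ^ 2 * b) = a * u ^ 2 * a⁻¹ * (a * b) := by group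
      _ = _ := by rw [e2, e3]; group
  let d₀ : conjugatesOf d := ⟨d, IsConj.refl d⟩
  have key : ∀ x y : conjugatesOf (QuotientGroup.mk d : G ⧸ Z),
      (Cfsg.commutingGraph _).Reachable x y → ∀ a : conjugatesOf d, ((a : G) : G ⧸ Z) = x →
      (Cfsg.commutingGraph _).Reachable d₀ a → ∀ b : conjugatesOf d, ((b : G) : G ⧸ Z) = y →
      ∃ u ∈ Z, (Cfsg.commutingGraph _).Reachable d₀ (conjHom d u b) := by
    rintro x y ⟨w⟩
    induction w with
    | nil =>
      intro a ha hr b hb
      obtain ⟨u, hu, e⟩ := hlift a a.2 b b.2 (by rw [ha, hb])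
      exact ⟨u, hu, hr.trans (reach_of_comm _ _ e)⟩
    | @cons x x' y hadj w ih =>
      intro a ha hr b hb
      obtain ⟨g, hg⟩ := isConj_iff.mp x'.2
      obtain ⟨g, rfl⟩ := QuotientGroup.mk_surjective g
      have hc : (x : G ⧸ Z) * x' = x' * x :=
        ((SimpleGraph.fromRel_adj _ _ _).mp hadj).2.elim (fun h => h) fun h => h.symm
      obtain ⟨u, hu, e⟩ := hlift a a.2 _ (conjHom d g d₀).2 (by
        rw [ha]; show (x : G ⧸ Z) * ((g * d * g⁻¹ : G) : G ⧸ Z) = ((g * d * g⁻¹ : G) : G ⧸ Z) * x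
        rw [show ((g * d * g⁻¹ : G) : G ⧸ Z) = x' from hg, hc])
      refine ih (conjHom d u (conjHom d g d₀)) ?_ (hr.trans (reach_of_comm _ _ e)) b hb
      show ((u * (g * d * g⁻¹) * u⁻¹ : G) : G ⧸ Z) = x'
      rw [QuotientGroup.mk_mul, QuotientGroup.mk_mul, QuotientGroup.mk_inv,
        (QuotientGroup.eq_one_iff u).mpr hu, ← hg]
      simp
  let M : Subgroup G :=
    { carrier := {g | (Cfsg.commutingGraph _).Reachable d₀ (conjHom d g d₀)}
      one_mem' := by
        have : conjHom d 1 d₀ = d₀ := Subtype.ext (by simp [conjHom])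
        simp only [Set.mem_ofPred_eq, this]
        rfl
      mul_mem' := by
        intro a b ha hb
        have : conjHom d (a * b) d₀ = conjHom d a (conjHom d b d₀) := Subtype.ext (by
          simp [conjHom, mul_assoc])
        simp only [Set.mem_ofPred_eq, this]
        exact SimpleGraph.Reachable.trans ha (SimpleGraph.Reachable.map (conjHom d a) hb)
      inv_mem' := by
        intro a ha
        have h1 := SimpleGraph.Reachable.map (conjHom d a⁻¹) ha
        have : conjHom d a⁻¹ (conjHom d a d₀) = d₀ := Subtype.ext (by simp [conjHom, mul_assoc])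
        rw [this] at h1
        exact h1.symm }
  have hM : ∀ g : G, ∃ u ∈ Z, u * g ∈ M := by
    intro g
    obtain ⟨u, hu, h⟩ := key ⟨d, IsConj.refl _⟩ ⟨((g * d * g⁻¹ : G) : G ⧸ Z), isConj_iff.mpr ⟨g, rfl⟩⟩
      (hconn.preconnected _ _) d₀ rfl (SimpleGraph.Reachable.refl _) (conjHom d g d₀) rfl
    refine ⟨u, hu, ?_⟩
    have : conjHom d (u * g) d₀ = conjHom d u (conjHom d g d₀) := Subtype.ext (by
      simp [conjHom, mul_assoc])
    show (Cfsg.commutingGraph _).Reachable d₀ (conjHom d (u * g) d₀)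
    rwa [this]
  have hLM : L ≤ M := by
    have h1 : _root_.commutator L = ⊤ := hL.1.commutator_eq_top
    have h2 : _root_.commutator L ≤ M.subgroupOf L := by
      rw [_root_.commutator_def, Subgroup.commutator_le]
      intro a _ b _
      obtain ⟨u, hu, ha⟩ := hM a
      obtain ⟨v, hv, hb⟩ := hM b
      have h3 := M.mul_mem (M.mul_mem (M.mul_mem ha hb) (M.inv_mem ha)) (M.inv_mem hb)
      rw [Subgroup.mem_subgroupOf, commutatorElement_def]
      have c1 : Commute u (a : G) := (hLZ a a.2 u hu).symm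
      have c2 : Commute u (b : G) := (hLZ b b.2 u hu).symm
      have c3 : Commute v (a : G) := (hLZ a a.2 v hv).symm
      have c4 : Commute v (b : G) := (hLZ b b.2 v hv).symm
      have c5 : Commute u v := hLZ u (hZL hu) v hv
      have e1 : u * a * (v * b) * (u * a)⁻¹ = v * (a * b * (a : G)⁻¹) := by
        have c6 : Commute u (a * (v * b) * (a : G)⁻¹) :=
          (c1.mul_right (c5.mul_right c2)).mul_right c1.inv_right
        calc _ = u * (a * (v * b) * (a : G)⁻¹) * u⁻¹ := by group
          _ = a * (v * b) * (a : G)⁻¹ := by rw [c6.eq]; group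
          _ = _ := by rw [← mul_assoc, ← c3.eq]; group
      have c7 : Commute v (a * b * (a : G)⁻¹ * (b : G)⁻¹) :=
        ((c3.mul_right c4).mul_right c3.inv_right).mul_right c4.inv_right
      have e2 : u * a * (v * b) * (u * a)⁻¹ * (v * b)⁻¹ = a * b * (a : G)⁻¹ * (b : G)⁻¹ := by
        rw [e1]
        calc _ = v * (a * b * (a : G)⁻¹ * (b : G)⁻¹) * v⁻¹ := by group
          _ = _ := by rw [c7.eq]; group
      rw [e2] at h3
      exact h3
    exact Subgroup.subgroupOf_eq_top.mp (eq_top_iff.mpr (h1.ge.trans h2))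
  have hdM : d ∈ M := by
    have : conjHom d d d₀ = d₀ := Subtype.ext (by simp [conjHom, d₀])
    show (Cfsg.commutingGraph _).Reachable d₀ (conjHom d d d₀)
    rw [this]
  have hall : ∀ a : conjugatesOf d, (Cfsg.commutingGraph _).Reachable d₀ a := by
    intro a
    obtain ⟨g, hg⟩ := isConj_iff.mp a.2
    have h1 : g ∈ M := (sup_le hLM (Subgroup.zpowers_le.mpr hdM)) (hgen.ge (Subgroup.mem_top g))
    have : conjHom d g d₀ = a := Subtype.ext hg
    exact this ▸ h1
  have : Nonempty (conjugatesOf d) := ⟨d₀⟩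
  exact ⟨fun a b => (hall a).symm.trans (hall b)⟩

end Cfsg.Agent.S5459
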