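import Cfsg.Statements.S5463
import Cfsg.Agent.Lib.FiTool.MType

set_option autoImplicit false
open Cfsg

namespace Cfsg.Agent.S5463

/-- Let G be a finite group with trivial centre generated by a conjugation-invariant set D of 3-transpositions on which it acts primitively, such that for some d in D the subgroup generated by the members of D other than d commuting with d has central largest normal 2- and 3-subgroups, and suppose G with D is of type M(22). A product j of two distinct commuting members of D determines the pair: any two 2-element sets of commuting members of D with product j coincide. A product j of three distinct pairwise commuting members of D arises from exactly two such 3-element sets. -/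
theorem result {G : Type*} [Group G] [Finite G] {D : Set G} (hD : Cfsg.IsThreeTranspositionGroup D) (hprim : Cfsg.IsPrimitiveUnderConj D) (d₀ : G) (hd₀ : d₀ ∈ D) (h3 : Cfsg.pCore 3 ↥(Subgroup.closure {y : G | y ∈ D ∧ y ≠ d₀ ∧ Commute d₀ y}) ≤ Subgroup.center ↥(Subgroup.closure {y : G | y ∈ D ∧ y ≠ d₀ ∧ Commute d₀ y})) (h2 : Cfsg.pCore 2 ↥(Subgroup.closure {y : G | y ∈ D ∧ y ≠ d₀ ∧ Commute d₀ y}) ≤ Subgroup.center ↥(Subgroup.closure {y : G | y ∈ D ∧ y ≠ d₀ ∧ Commute d₀ y})) (h22 : Cfsg.IsOfTypeM22 G D) : (∀ (j : G) (l l' : List G), (l.Nodup ∧ l.length = 2 ∧ (∀ a ∈ l, a ∈ D) ∧ (∀ a ∈ l, ∀ b ∈ l, Commute a b) ∧ l.prod = j) → (l'.Nodup ∧ l'.length = 2 ∧ (∀ a ∈ l', a ∈ D) ∧ (∀ a ∈ l', ∀ b ∈ l', Commute a b) ∧ l'.prod = j) → (∀ x : G, x ∈ l ↔ x ∈ l')) ∧ ∀ (j : G) (l₀ : List G), (l₀.Nodup ∧ l₀.length = 3 ∧ (∀ a ∈ l₀, a ∈ D) ∧ (∀ a ∈ l₀,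 ∀ b ∈ l₀, Commute a b) ∧ l₀.prod = j) → ∃ l₁ l₂ : List G, (l₁.Nodup ∧ l₁.length = 3 ∧ (∀ a ∈ l₁, a ∈ D) ∧ (∀ a ∈ l₁, ∀ b ∈ l₁, Commute a b) ∧ l₁.prod = j) ∧ (l₂.Nodup ∧ l₂.length = 3 ∧ (∀ a ∈ l₂, a ∈ D) ∧ (∀ a ∈ l₂, ∀ b ∈ l₂, Commute a b) ∧ l₂.prod = j) ∧ ¬ (∀ x : G, x ∈ l₁ ↔ x ∈ l₂) ∧ ∀ l : List G, (l.Nodup ∧ l.length = 3 ∧ (∀ a ∈ l, a ∈ D) ∧ (∀ a ∈ l, ∀ b ∈ l, Commute a b) ∧ l.prod = j) → ((∀ x : G, x ∈ l ↔ x ∈ l₁) ∨ (∀ x : G, x ∈ l ↔ x ∈ l₂)) := by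
  obtain ⟨g, pt, M⟩ := CfsgLib.FiTool.m22_of_type hD hprim h22
  refine ⟨fun j l l' h h' => M.luniq le_rfl l l' ⟨h.1, h.2.2.1, h.2.2.2.1⟩ ⟨h'.1, h'.2.2.1, h'.2.2.2.1⟩ h.2.1 h'.2.1
    (h.2.2.2.2.trans h'.2.2.2.2.symm), fun j l₀ h => ?_⟩
  obtain ⟨l₂, a1, a2, a3, a4, a5⟩ := M.two_triples ⟨h.1, h.2.2.1, h.2.2.2.1⟩ h.2.1
  refine ⟨l₀, l₂, h, ⟨a1.1, a2, a1.2.1, a1.2.2, a3.trans h.2.2.2.2⟩, fun e => ?_, fun l h' =>
    a5 l ⟨h'.1, h'.2.2.1, h'.2.2.2.1⟩ h'.2.1 (h'.2.2.2.2.trans h.2.2.2.2.symm)⟩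
  obtain ⟨a, ha⟩ := List.exists_mem_of_length_pos (h.2.1 ▸ by norm_num : 0 < l₀.length)
  exact a4 a ha ((e a).1 ha)

end Cfsg.Agent.S5463
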