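import Cfsg.Statements.S5468
import Cfsg.Agent.Lib.FiTool.MType

set_option autoImplicit false
open Cfsg

namespace Cfsg.Agent.S5468

/-- Let G be a finite group with trivial centre generated by a conjugation-invariant set D of 3-transpositions on which it acts primitively, such that for some d in D the subgroup generated by the members of D other than d commuting with d has central largest normal 2- and 3-subgroups, and suppose G with D is of type M(23). Let d₁, d₂ be distinct commuting members of D, j = d₁ d₂, K the joint centralizer of d₁ and d₂ and C the centralizer of j. Then K has index 2 in C, the centre of K is the subgroup generated by d₁ and d₂, K is quasisimple with K modulo its centre isomorphic to the projective special unitary group of dimension 6 over the field with four elements, and C modulo the subgroup generated by d₁ and d₂ has trivial centre (so it is that unitary group extended by an outer involution). -/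
theorem result {G : Type*} [Group G] [Finite G] {D : Set G} (hD : Cfsg.IsThreeTranspositionGroup D) (hprim : Cfsg.IsPrimitiveUnderConj D) (d₀ : G) (hd₀ : d₀ ∈ D) (h3 : Cfsg.pCore 3 ↥(Subgroup.closure {y : G | y ∈ D ∧ y ≠ d₀ ∧ Commute d₀ y}) ≤ Subgroup.center ↥(Subgroup.closure {y : G | y ∈ D ∧ y ≠ d₀ ∧ Commute d₀ y})) (h2 : Cfsg.pCore 2 ↥(Subgroup.closure {y : G | y ∈ D ∧ y ≠ d₀ ∧ Commute d₀ y}) ≤ Subgroup.center ↥(Subgroup.closure {y : G | y ∈ D ∧ y ≠ d₀ ∧ Commute d₀ y})) (h23 : Cfsg.IsOfTypeM23 G D) (d₁ d₂ : G) (h₁ : d₁ ∈ D) (h₂ : d₂ ∈ D) (hne : d₁ ≠ d₂) (hc : Commute d₁ d₂) (K C V : Subgroup G) (hK : K = Subgroup.centralizer ({d₁, d₂} : Set G)) (hC : C = Subgroup.centralizer ({d₁ * d₂} : Set G)) (hV : V = Subgroup.closure ({d₁, d₂} : Set G)) [hn : (V.subgroupOf C).Normal] : K ≤ C ∧ (K.subgroupOf C).index = 2 ∧ (Subgroup.center ↥K).map K.subtype = V ∧ Cfsg.IsQuasisimple ↥K ∧ (∃ (F : Type) (_ : Field F) (_ : Fintype F), Fintype.card F = 4 ∧ Nonempty (↥K ⧸ Subgroup.center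 ↥K ≃* Cfsg.PSU 6 F 2)) ∧ Subgroup.center (↥C ⧸ V.subgroupOf C) = ⊥ := by
  obtain ⟨g, pt, M⟩ := CfsgLib.FiTool.m23_of_type hD hprim h23
  have hl := CfsgLib.FiTool.CL.pair h₁ h₂ hne hc
  have e1 : {a | a ∈ [d₁, d₂]} = ({d₁, d₂} : Set G) := by ext; simp
  have e2 : [d₁, d₂].prod = d₁ * d₂ := by simp
  have h1 := CfsgLib.FiTool.exists_hom_perm hD.2.1 (M.ltrans (m := 2) (by norm_num)) (M.luniq (by norm_num)) hl rfl
  have h0 := CfsgLib.FiTool.centralizer_list_le [d₁, d₂]
  rw [e1, e2, ← hK, ← hC] at h0 h1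
  obtain ⟨φ, hs, hk⟩ := h1
  obtain ⟨c1, c2⟩ := M.cent_two hl
  rw [← hK] at c1 c2
  rw [← hV] at c2
  have hVK : ∀ v ∈ V, ∀ k ∈ K, Commute v k := by
    intro v hv k hk
    rw [hK, ← Subgroup.centralizer_closure, ← hV] at hk
    exact hk v hv
  have hVK' : V ≤ K := by
    rw [hV, hK, Subgroup.closure_le]
    rintro x (rfl | rfl) y (rfl | rfl)
    exacts [rfl, hc.symm, hc, rfl]
  have hPK : ∀ y ∈ CfsgLib.ThreeTrans.perp (CfsgLib.ThreeTrans.perp D d₁) d₂, y ∈ K :=
    fun y hy => c1 ▸ Subgroup.subset_closure hy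
  let := Fintype.ofFinite (GaloisField 2 2)
  refine ⟨h0, ?_, ?_, c1 ▸ M.quasisimple_two hl, ⟨GaloisField 2 2, inferInstance, inferInstance,
    CfsgLib.FiTool.card_gf4, ?_⟩, ?_⟩
  · rw [← hk, Subgroup.index_ker, MonoidHom.range_eq_top.2 hs, Subgroup.card_top]
    simp [Fintype.card_perm]
  · refine le_antisymm ?_ fun v hv => ⟨⟨v, hVK' hv⟩, Subgroup.mem_center_iff.2 fun k =>
      Subtype.ext (hVK v hv k k.2).symm, rfl⟩
    rintro _ ⟨z, hz, rfl⟩
    exact c2 z z.2 fun y hy => (congrArg Subtype.val (Subgroup.mem_center_iff.1 hz ⟨y, hPK y hy⟩)).symm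
  · obtain ⟨β, hβ⟩ := M.kiso_two CfsgLib.FiTool.card_gf4 hl
    have hP := CfsgLib.FiType.pT_class (n := 6) CfsgLib.FiTool.card_gf4 (by norm_num)
    rw [c1]
    exact CfsgLib.FiTool.quot_equiv_of_kiso hβ ((M.tt.perp' _).perp' _) hP.1 hP.2.2
      (CfsgLib.FiTool.center_psu CfsgLib.FiTool.card_gf4)
  · rw [eq_bot_iff]
    intro z hz
    obtain ⟨z, rfl⟩ := QuotientGroup.mk_surjective z
    rw [Subgroup.mem_bot, QuotientGroup.eq_one_iff, Subgroup.mem_subgroupOf]
    have key : ∀ y ∈ CfsgLib.ThreeTrans.perp (CfsgLib.ThreeTrans.perp D d₁) d₂, Commute (z : G) y := by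
      intro y hy
      have h := Subgroup.mem_center_iff.1 hz (⟨y, h0 (hPK y hy)⟩ : C)
      rw [← QuotientGroup.mk_mul, ← QuotientGroup.mk_mul, QuotientGroup.eq, Subgroup.mem_subgroupOf, hV] at h
      have s1 : d₁ * d₁ = 1 := CfsgLib.ThreeTrans.sq hD.1 h₁
      have s2 : d₂ * d₂ = 1 := CfsgLib.ThreeTrans.sq hD.1 h₂
      have sy : y⁻¹ = y := inv_eq_of_mul_eq_one_right (CfsgLib.ThreeTrans.sq hD.1 hy.1.1)
      have four : ∀ v ∈ Subgroup.closure ({d₁, d₂} : Set G), ∃ l : List G, l.Sublist [d₁, d₂] ∧ l.prod = v := by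
        have a1 : ∀ v : G, (∃ l : List G, l.Sublist [d₁, d₂] ∧ l.prod = v) → ∀ x ∈ ({d₁, d₂} : Set G),
            ∃ l : List G, l.Sublist [d₁, d₂] ∧ l.prod = x * v := by
          rintro _ ⟨l, h, rfl⟩ x hx
          have : l = [] ∨ l = [d₁] ∨ l = [d₂] ∨ l = [d₁, d₂] := by
            have := List.mem_sublists.2 h
            simpa [List.sublists, or_assoc] using this
          rcases hx with rfl | rfl <;> rcases this with rfl | rfl | rfl | rfl
          · exact ⟨[x], by simp, by simp⟩
          · exact ⟨[], by simp, by simp [s1]⟩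
          · exact ⟨[x, d₂], by simp, by simp⟩
          · exact ⟨[d₂], by simp, by simp [← mul_assoc, s1]⟩
          · exact ⟨[x], by simp, by simp⟩
          · exact ⟨[d₁, x], by simp, by simp [hc.eq]⟩
          · exact ⟨[], by simp, by simp [s2]⟩
          · exact ⟨[d₁], by simp, by simp [hc.eq, ← mul_assoc, s2]⟩
        intro v hv
        induction hv using Subgroup.closure_induction_left with
        | one => exact ⟨[], by simp, rfl⟩
        | mul_left x hx v _ ih => exact a1 v ih x hx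
        | inv_mul_cancel x hx v _ ih =>
          have : x⁻¹ = x := by
            rcases hx with rfl | rfl
            exacts [inv_eq_of_mul_eq_one_right s1, inv_eq_of_mul_eq_one_right s2]
          rw [this]; exact a1 v ih x hx
      obtain ⟨l, hs, hp⟩ := four _ h
      have h3 := CfsgLib.FiTool.CL.triple h₁ h₂ hy.1.1 hne hy.1.2.1.symm hy.2.1.symm hc hy.1.2.2 hy.2.2
      have hs' : (l ++ [y]).Sublist [d₁, d₂, y] := hs.append_right [y]
      have h4 : CfsgLib.FiTool.CL D (l ++ [y]) := ⟨h3.1.sublist hs', fun a ha => h3.2.1 a (hs'.subset ha),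
        fun a ha b hb => h3.2.2 a (hs'.subset ha) b (hs'.subset hb)⟩
      have h5 : CfsgLib.FiTool.CL D [(z : G)⁻¹ * y * (z : G)⁻¹⁻¹] :=
        ⟨by simp, by simpa using hD.2.1 (z : G)⁻¹ y hy.1.1, by simp⟩
      have h6 := (M.uniq h4 h5 hs'.length_le (by simp) (by
        simp only [List.prod_append, hp, List.prod_cons, List.prod_nil, Subgroup.coe_mul, Subgroup.coe_inv, mul_inv_rev,
          sy, mul_one, inv_inv, mul_assoc, CfsgLib.ThreeTrans.sq hD.1 hy.1.1]) y).1 (by simp)
      rw [List.mem_singleton, inv_inv, mul_assoc, eq_inv_mul_iff_mul_eq] at h6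
      exact h6
    have k1 : Commute (z : G) d₁ := by
      have : Subgroup.closure (CfsgLib.ThreeTrans.perp (CfsgLib.ThreeTrans.perp D d₁) d₂) ≤
          Subgroup.centralizer {(z : G)} :=
        (Subgroup.closure_le _).2 fun y hy => Subgroup.mem_centralizer_singleton_iff.2 (key y hy).symm
      exact (Subgroup.mem_centralizer_singleton_iff.1 (this (M.mem_closure_perp_perp hl))).symm
    have k2 : Commute (z : G) d₂ := by
      have h : Commute (z : G) (d₁ * d₂) := Subgroup.mem_centralizer_singleton_iff.1 (hC ▸ z.2)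
      simpa using k1.inv_right.mul_right h
    refine c2 z ?_ key
    rw [hK]
    rintro y (rfl | rfl)
    exacts [k1.symm, k2.symm]

end Cfsg.Agent.S5468
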