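import Cfsg.Statements.S5469
import Mathlib
import Cfsg.Agent.Lib.FiLoc.K22
import Cfsg.Agent.Lib.FiTool.MType

set_option autoImplicit false
open Cfsg

namespace Cfsg.Agent.S5469

open CfsgLib.FiTool CfsgLib.FiLoc Subgroup


/-- Let G be a finite group with trivial centre generated by a conjugation-invariant set D of 3-transpositions on which it acts primitively, such that for some d in D the subgroup generated by the members of D other than d commuting with d has central largest normal 2- and 3-subgroups, and suppose G with D is of type M(22). Let d₁, d₂ be distinct commuting members of D, j = d₁ d₂, K the joint centralizer of d₁ and d₂, C the centralizer of j and V the subgroup generated by d₁ and d₂. Then K has index 2 in C, V is the centre of K, and C has a normal subgroup E containing V with E/V elementary abelian of order 2^8 and C/E isomorphic to the full automorphism group of the projective special unitary group of dimension 4 over the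 field with four elements. -/
theorem result {G : Type*} [Group G] [Finite G] {D : Set G} (hD : Cfsg.IsThreeTranspositionGroup D) (hprim : Cfsg.IsPrimitiveUnderConj D) (d₀ : G) (hd₀ : d₀ ∈ D) (h3 : Cfsg.pCore 3 ↥(Subgroup.closure {y : G | y ∈ D ∧ y ≠ d₀ ∧ Commute d₀ y}) ≤ Subgroup.center ↥(Subgroup.closure {y : G | y ∈ D ∧ y ≠ d₀ ∧ Commute d₀ y})) (h2 : Cfsg.pCore 2 ↥(Subgroup.closure {y : G | y ∈ D ∧ y ≠ d₀ ∧ Commute d₀ y}) ≤ Subgroup.center ↥(Subgroup.closure {y : G | y ∈ D ∧ y ≠ d₀ ∧ Commute d₀ y})) (h22 : Cfsg.IsOfTypeM22 G D) (d₁ d₂ : G) (h₁ : d₁ ∈ D) (h₂ : d₂ ∈ D) (hne : d₁ ≠ d₂) (hc : Commute d₁ d₂) (K C V : Subgroup G) (hK : K = Subgroup.centralizer ({d₁, d₂} : Set G)) (hC : C = Subgroup.centralizer ({d₁ * d₂} : Set G)) (hV : V = Subgroup.closure ({d₁, d₂} : Set G)) : K ≤ C ∧ (K.subgroupOf C).index = 2 ∧ (Subgroup.center ↥K).map K.subtype = V ∧ ∃ E : Subgroup G, V ≤ E ∧ E ≤ C ∧ (∀ c ∈ C, ∀ x ∈ E, c * x * c⁻¹ ∈ E) ∧ Nat.card E = 2 ^ 10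 ∧ (∀ x ∈ E, ∀ y ∈ E, x * y * x⁻¹ * y⁻¹ ∈ V ∧ x ^ 2 ∈ V) ∧ ∃ (_ : (E.subgroupOf C).Normal) (F : Type) (_ : Field F) (_ : Fintype F), Fintype.card F = 4 ∧ Nonempty (↥C ⧸ E.subgroupOf C ≃* MulAut (Cfsg.PSU 4 F 2)) := by
  obtain ⟨g, pt, M⟩ := m22_of_type hD hprim h22
  have hcl := CL.pair h₁ h₂ hne hc
  obtain ⟨E, E₀, P⟩ := exists_pairData M hcl
  obtain ⟨h4, h5⟩ := pair_index M hcl
  obtain ⟨f, h6, h7⟩ := P.hom
  subst hK hC hV
  have hz : zpowers (d₁ * d₂) ≤ closure ({d₁, d₂} : Set G) :=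
    zpowers_le_of_mem (mul_mem (subset_closure (by simp)) (subset_closure (by simp)))
  have hVE : closure ({d₁, d₂} : Set G) ≤ E := (closure_le _).2 (by
    rintro _ (rfl | rfl)
    · exact P.mem
    · simpa using mul_mem (inv_mem P.mem) (P.le₀ P.mem₀))
  have hn : (E.subgroupOf (centralizer {d₁ * d₂})).Normal := h7 ▸ f.normal_ker
  obtain ⟨e⟩ := nonempty_quot_of_ker h6 h7
  letI := Fintype.ofFinite (GaloisField 2 2)
  obtain ⟨e'⟩ := O6m_equiv_aut CfsgLib.FiLoc.card_gf4
  refine ⟨h4, h5, le_antisymm ?_ fun x hx => ?_, E, hVE, P.le.trans h4, le_normalizer_of_ker h7 (P.le.trans h4), P.card,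
    fun x hx y hy => ⟨hz (P.comm (commutator_mem_commutator hx hy)), hz (P.sq x hx)⟩, hn, GaloisField 2 2,
    inferInstance, inferInstance, CfsgLib.FiLoc.card_gf4, ⟨e.trans e'⟩⟩
  · rintro _ ⟨x, hx, rfl⟩
    exact P.cent x (h4 x.2) fun y hy => congrArg Subtype.val (mem_center_iff.1 hx ⟨y, P.le hy⟩)
  · refine ⟨⟨x, P.le (hVE hx)⟩, mem_center_iff.2 fun y => Subtype.ext ?_, rfl⟩
    have h8 : closure ({d₁, d₂} : Set G) ≤ centralizer {(y : G)} :=
      (closure_le _).2 fun z hz => mem_centralizer_singleton_iff.2 (y.2 z hz)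
    exact (mem_centralizer_singleton_iff.1 (h8 hx)).symm

end Cfsg.Agent.S5469
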