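import Cfsg.Statements.S5471
import Cfsg.Agent.Lib.FiTool.MType

set_option autoImplicit false
open Cfsg

namespace Cfsg.Agent.S5471

/-- Let G be a finite group with trivial centre generated by a conjugation-invariant set D of 3-transpositions on which it acts primitively, such that for some d in D the subgroup generated by the members of D other than d commuting with d has central largest normal 2- and 3-subgroups, and suppose G with D is of type M(23). Let d₁, d₂, d₃ be distinct pairwise commuting members of D and j their product. Then the joint centralizer of d₁, d₂, d₃ is normal in the centralizer of j with quotient isomorphic to the symmetric group of degree 3. -/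
theorem result {G : Type*} [Group G] [Finite G] {D : Set G} (hD : Cfsg.IsThreeTranspositionGroup D) (hprim : Cfsg.IsPrimitiveUnderConj D) (d₀ : G) (hd₀ : d₀ ∈ D) (h3 : Cfsg.pCore 3 ↥(Subgroup.closure {y : G | y ∈ D ∧ y ≠ d₀ ∧ Commute d₀ y}) ≤ Subgroup.center ↥(Subgroup.closure {y : G | y ∈ D ∧ y ≠ d₀ ∧ Commute d₀ y})) (h2 : Cfsg.pCore 2 ↥(Subgroup.closure {y : G | y ∈ D ∧ y ≠ d₀ ∧ Commute d₀ y}) ≤ Subgroup.center ↥(Subgroup.closure {y : G | y ∈ D ∧ y ≠ d₀ ∧ Commute d₀ y})) (h23 : Cfsg.IsOfTypeM23 G D) (d₁ d₂ d₃ : G) (h₁ : d₁ ∈ D) (h₂ : d₂ ∈ D) (h₃ : d₃ ∈ D) (h12 : d₁ ≠ d₂) (h13 : d₁ ≠ d₃) (h23 : d₂ ≠ d₃) (c12 : Commute d₁ d₂) (c13 : Commute d₁ d₃) (c23 : Commute d₂ d₃) (K C : Subgroup G) (hK : K = Subgroup.centralizer ({d₁, d₂, d₃} : Set G)) (hC : C = Subgroup.centralizer ({d₁ * d₂ * d₃} : Set G)) : K ≤ C ∧ ∃ _ : (K.subgroupOf C).Normal, Nonempty (↥C ⧸ K.subgroupOf C ≃* Equiv.Perm (Fin 3)) := by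
  obtain ⟨g, pt, M⟩ := CfsgLib.FiTool.m23_of_type hD hprim ‹Cfsg.IsOfTypeM23 G D›
  have hl := CfsgLib.FiTool.CL.triple h₁ h₂ h₃ h12 h13 h23 c12 c13 c23
  have e1 : {a | a ∈ [d₁, d₂, d₃]} = ({d₁, d₂, d₃} : Set G) := by ext; simp
  have e2 : [d₁, d₂, d₃].prod = d₁ * d₂ * d₃ := by simp [mul_assoc]
  have h1 := CfsgLib.FiTool.exists_hom_perm hD.2.1 (M.ltrans (m := 3) (by norm_num)) (M.luniq le_rfl) hl rfl
  have h0 := CfsgLib.FiTool.centralizer_list_le [d₁, d₂, d₃]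
  rw [e1, e2, ← hK, ← hC] at h0 h1
  obtain ⟨φ, hs, hk⟩ := h1
  have hn : (K.subgroupOf C).Normal := hk ▸ inferInstance
  exact ⟨h0, hn, ⟨(QuotientGroup.quotientMulEquivOfEq hk.symm).trans
    (QuotientGroup.quotientKerEquivOfSurjective φ hs)⟩⟩

end Cfsg.Agent.S5471
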