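import Cfsg.Statements.S5514
import Mathlib
import Cfsg.Agent.Lib.FiLoc.R22
import Cfsg.Agent.Lib.Fischer.Model22
import Cfsg.Agent.Lib.FiType.O67
import Cfsg.Agent.Lib.ThreeTrans.Refl3Mat

set_option autoImplicit false
open Cfsg

namespace Cfsg.Agent.S5514

open CfsgLib.Comput CfsgLib.FiTool CfsgLib.ThreeTrans CfsgLib.Fischer CfsgLib.FiLoc CfsgLib.FiType

set_option maxRecDepth 100000

/-- the point `e.2` with the word `e.1` commutes with its image under the representative `i` -/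
noncomputable def tst (i : ℕ) (e : ℕ × ℕ) : Bool :=
  Nat.beq (act ps22 e.1 (act psA (nth 0 repsA i) e.2)) (act psA (nth 0 repsA i) e.2)

/-- the words commute with the representative `i` -/
noncomputable def cmt (i : ℕ) (ws : List ℕ) : Bool :=
  allL (fun w => band (inA (rngA 14 0) w) (eqP psA bs22 ([w, nth 0 repsA i], [nth 0 repsA i, w]))) ws

/-- words -/
def w3 : List ℕ := [0x3, 0x4, 0x6, 0x8, 0x207, 0x1060b, 0x20e01]
/-- words -/
def w5 : List ℕ := [0x3, 0x4, 0x6, 0x7, 0x208]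
/-- seeds -/
def s3 : List (ℕ × ℕ) := [(0x4, 3)]
/-- seeds -/
def s5 : List (ℕ × ℕ) := [(0x1, 0), (0x2, 1), (0x4, 3), (0x5, 4), (0x8, 7), (0x4080504030201020304050804, 59)]
/-- an orbit -/
noncomputable def m5 : ℕ := (nat_lit 0x260000000000000000000000000000000000000003002048000000000000000000000000000000000020222840000000000000000000000000000008a08ae0000000000000000000000000004ae15f1c000000000000000000001b7c7e600000000000000009f9c40000000000000e200000000000200000000000000000000000000000000002001400e00c02000000)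

theorem w3_ok : cmt 3 w3 = true := by decide +kernel
theorem w5_ok : cmt 5 w5 = true := by decide +kernel
theorem s3_ok : allL (fun e => band (band (ptOK ps22 (nth 0 gp22) 9 e.1 e.2) (tb o7aS e.2)) (tst 3 e)) s3 = true := by
  decide +kernel
theorem s5_ok : allL (fun e => band (ptOK ps22 (nth 0 gp22) 9 e.1 e.2) (bnot (tst 5 e))) s5 = true := by
  decide +kernel
theorem pop3 : pop 3510 (grow (stepH WA) w3 2 (maskL (s3.map Prod.snd))) = 243 := by decide +kernel
theorem cov5 : coverOK (stepH WA) w5 3 (s5.map Prod.snd) o7aS m5 = true := by decide +kernel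
theorem pop5 : pop 3510 m5 = 81 := by decide +kernel
theorem sepF : ∀ i j : Fin 7, pop 3510 (nth 0 fixA i) = pop 3510 (nth 0 fixA j) →
    pop 3510 (o7aS &&& nth 0 fixA i) = pop 3510 (o7aS &&& nth 0 fixA j) →
      i = j ∨ (i = 3 ∧ j = 5) ∨ (i = 5 ∧ j = 3) := by decide +kernel

variable {G : Type*} [Group G] {D : Set G} {g pt : ℕ → G}

/-- the invariant -/
def TT (x : G) (d : G) : Prop := Commute d (x * d * x⁻¹)

theorem TT.conj {x d : G} (h : TT x d) (k : G) : TT (k * x * k⁻¹) (k * d * k⁻¹) := by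
  have := (commute_conj_iff k _ _).2 h
  rwa [show k * (x * d * x⁻¹) * k⁻¹ = k * x * k⁻¹ * (k * d * k⁻¹) * (k * x * k⁻¹)⁻¹ by group] at this

theorem TT.sq {x d : G} (hx : x ^ 3 = 1) (h : TT (x * x) d) : TT x d := by
  have := (commute_conj_iff x _ _).2 h
  rw [show x * (x * x * d * (x * x)⁻¹) * x⁻¹ = x ^ 3 * d * (x ^ 3)⁻¹ by rw [pow_three]; group, hx, one_mul, inv_one, mul_one] at this
  exact this.symm

theorem tst_iff (M : F22 D g pt) {i : ℕ} {e : ℕ × ℕ} (h : ptOK ps22 (nth 0 gp22) 9 e.1 e.2 = true) :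
    tst i e = true ↔ TT (rA g i) (pt e.2) := by
  obtain ⟨h1, h2⟩ := M.fm.pt_word h
  rw [TT, (xmA M).conj_eq _ h1, ← h2, M.fm.commute_iff' _ ((xmA M).pm.act_lt _ h1), tst, Nat.beq_eq]

theorem cmt_sound (M : F22 D g pt) {i : ℕ} {ws : List ℕ} (h : cmt i ws = true) :
    ∀ w ∈ ws, ev (lw g wsA) w ∈ LA g ⊓ Subgroup.centralizer {rA g i} := by
  intro w hw
  obtain ⟨h1, h2⟩ := band_eq_true.1 (allL_sound h w hw)
  have := (xmA M).eq h2
  rw [evL_two, evL_two] at this
  exact ⟨ev_mem (inL g) h1, Subgroup.mem_centralizer_singleton_iff.2 this⟩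

theorem conj_S (M : F22 D g pt) {k : G} (hk : k ∈ LA g) : ∀ d ∈ semG 3510 pt o7aS, k * d * k⁻¹ ∈ semG 3510 pt o7aS := by
  rw [(o7a_spec M.tm M.hp).1]
  rintro _ ⟨l, hl, rfl⟩
  exact ⟨k * l, Subgroup.mul_mem _ hk hl, by group⟩

theorem TT_cent {x k d : G} (hk : k ∈ Subgroup.centralizer {x}) (h : TT x d) : TT x (k * d * k⁻¹) := by
  have := h.conj k
  rwa [Subgroup.mem_centralizer_singleton_iff.1 hk, mul_inv_cancel_right] at this

theorem sep35 (M : F22 D g pt) {x : G} (hx : x ∈ LA g)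
    (h : (Subgroup.zpowers (rA g 3)).map (MulAut.conj x).toMonoidHom = Subgroup.zpowers (rA g 5)) : False := by
  have h1 : ∀ d ∈ semG 3510 pt (grow (stepH WA) w3 2 (maskL (s3.map Prod.snd))),
      d ∈ semG 3510 pt o7aS ∧ TT (rA g 3) d := by
    intro d hd
    obtain ⟨k, hk, y, hy, e⟩ := (xmA M).sm.grow_sound (cmt_sound M w3_ok) _ _ (CP.mk d) hd
    rw [sem_maskL] at hy
    obtain ⟨i, hi, hi', rfl⟩ := hy
    obtain ⟨s, hs, rfl⟩ := List.mem_map.1 hi
    obtain ⟨h2, h3⟩ := band_eq_true.1 (allL_sound s3_ok s hs)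
    obtain ⟨h2, h4⟩ := band_eq_true.1 h2
    obtain rfl : k * pt s.2 * k⁻¹ = d := e
    exact ⟨conj_S M hk.1 _ ⟨_, hi', by rwa [← tb_eq], rfl⟩, TT_cent hk.2 ((tst_iff M h2).1 h3)⟩
  have h2 : ∀ d ∈ semG 3510 pt o7aS, TT (rA g 5) d → d ∈ semG 3510 pt m5 := fun d hd h3 =>
    mem_of_cover (xmA M).sm cov5 (cmt_sound M w5_ok) (I := fun y => TT (rA g 5) y.val) (fun k hk y h4 => by
      have := TT_cent (Subgroup.inv_mem _ hk.2) h4
      rw [CP.smul_val] at this
      simpa [mul_assoc] using this) (fun i hi _ h4 => by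
      obtain ⟨s, hs, rfl⟩ := List.mem_map.1 hi
      obtain ⟨h5, h6⟩ := band_eq_true.1 (allL_sound s5_ok s hs)
      rw [bnot_eq_true, ← Bool.not_eq_true, tst_iff M h5] at h6
      exact h6 h4) (CP.mk d) hd h3
  have h3 : cj x (semG 3510 pt (grow (stepH WA) w3 2 (maskL (s3.map Prod.snd)))) ⊆ semG 3510 pt m5 := by
    rintro _ ⟨d, hd, rfl⟩
    refine h2 _ (conj_S M hx _ (h1 d hd).1) ?_
    have h4 := (h1 d hd).2.conj x
    have h5 := conj_mem_map_conj x (Subgroup.mem_zpowers (rA g 3))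
    rw [h, mem_zpowers_three (M.repA_pow 5)] at h5
    rcases h5 with h5 | h5 | h5
    · rw [mul_inv_eq_one, mul_eq_left] at h5
      have := M.orderOf_rA (i := 3) (by norm_num)
      rw [h5] at this; simp at this
    · rwa [h5] at h4
    · rw [h5] at h4; exact h4.sq (M.repA_pow 5)
  have h4 := Set.ncard_le_ncard h3 (sem_finite 3510 (cpt pt) m5)
  rw [ncard_cj, M.tm.ncard_semG, M.tm.ncard_semG, pop3, pop5] at h4
  omega

theorem rA_mem (g : ℕ → G) (i : Fin 7) : rA g i ∈ LA g :=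
  ev_mem (inL g) ((by decide +kernel : ∀ i : Fin 7, inA (rngA 14 0) (nth 0 repsA i) = true) i)

theorem sep (M : F22 D g pt) (i j : Fin 7) (x : G) (hx : x ∈ LA g)
    (h : (Subgroup.zpowers (rA g i)).map (MulAut.conj x).toMonoidHom = Subgroup.zpowers (rA g j)) : i = j := by
  have h1 := ncard_fix_eq (S := D) (M.tm.group.2.1 x) (fun d hd => by simpa using M.tm.group.2.1 x⁻¹ d hd) h
  have h2 := ncard_fix_eq (conj_S M hx) (fun d hd => by simpa using conj_S M (Subgroup.inv_mem _ hx) d hd) h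
  have key : ∀ i : Fin 7, {d | d ∈ semG 3510 pt o7aS ∧ Commute (rA g i) d} = semG 3510 pt (o7aS &&& nth 0 fixA i) := by
    intro i
    rw [M.tm.semG_land, M.semG_fixA i.2]
    exact Set.ext fun d => ⟨fun h => ⟨h.1, M.tm.semG_subset _ h.1, h.2⟩, fun h => ⟨h.1, h.2.2⟩⟩
  rw [← M.semG_fixA i.2, ← M.semG_fixA j.2, M.tm.ncard_semG, M.tm.ncard_semG] at h1
  rw [key, key, M.tm.ncard_semG, M.tm.ncard_semG] at h2
  rcases sepF i j h1 h2 with h3 | ⟨rfl, rfl⟩ | ⟨rfl, rfl⟩
  · exact h3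
  · exact (sep35 M hx h).elim
  · refine (sep35 M (Subgroup.inv_mem _ hx) ?_).elim
    have h' : (Subgroup.zpowers (rA g 5)).map (MulAut.conj x).toMonoidHom = Subgroup.zpowers (rA g 3) := h
    rw [← h', Subgroup.map_map]
    ext y
    simp [mul_assoc]

theorem iso (M : F22 D g pt) : Nonempty (LA g ≃* POmega (ZMod 3) (quadFormOdd 3 (ZMod 3))) := by
  obtain ⟨p, hp, -⟩ := o7a_rtable M.tm M.hp
  obtain ⟨e⟩ := hp.quot_equiv_POmega_odd Q7_nondegenerate (by simp) (by decide) (m := 3) (by simp)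
    (Pi.basisFun (ZMod 3) (Fin 7)) gram_Q7
  have hz : Subgroup.center (Subgroup.closure (semG 3510 pt o7aS)) = ⊥ := by
    rw [eq_bot_iff]
    intro z hz
    refine Subtype.ext (M.base.2 z (Subgroup.mem_top _) fun b hb => (CP.smul_eq_iff _ _).2 ?_)
    have h1 : pt b ∈ semG 3510 pt o7aS :=
      ⟨b, M.base.1 b hb, (by decide +kernel : ∀ b ∈ bs22, o7aS.testBit b = true) b hb, rfl⟩
    exact (congrArg Subtype.val (Subgroup.mem_center_iff.1 hz ⟨pt b, Subgroup.subset_closure h1⟩)).symm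
  exact ⟨(MulEquiv.subgroupCongr (o7a_spec M.tm M.hp).2.1.symm).trans ((quotBotEquiv hz).symm.trans e)⟩

/-- The commutator subgroup of the isometry group of a non-degenerate 7-dimensional quadratic form over the field with three elements, modulo its (trivial) centre — the simple group Ω(7, 3) — has exactly seven conjugacy classes of subgroups of order 3. -/
theorem result : ∃ Y : Fin 7 → Subgroup (Cfsg.POmega (ZMod 3) (Cfsg.quadFormOdd 3 (ZMod 3))), (∀ i, Nat.card (Y i) = 3) ∧ (∀ i j, (∃ g : Cfsg.POmega (ZMod 3) (Cfsg.quadFormOdd 3 (ZMod 3)), (Y i).map (MulAut.conj g).toMonoidHom = Y j) → i = j) ∧ (∀ X : Subgroup (Cfsg.POmega (ZMod 3) (Cfsg.quadFormOdd 3 (ZMod 3))), Nat.card X = 3 → ∃ i, ∃ g : Cfsg.POmega (ZMod 3) (Cfsg.quadFormOdd 3 (ZMod 3)), X.map (MulAut.conj g).toMonoidHom = Y i) := by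
  have M : F22 (conjugatesOf (g22 0)) g22 pt22 := ⟨fm22 model22 pt22_gen fun _ hm => g22_of_le hm, card22⟩
  obtain ⟨e⟩ := iso M
  haveI : Fact (Nat.Prime 3) := ⟨Nat.prime_three⟩
  refine classes_of_ambient e (fun i : Fin 7 => rA g22 i) (rA_mem g22) (fun i => M.orderOf_rA i.2) (sep M)
    fun z hz h => ?_
  obtain ⟨i, hi, x, hx, h1⟩ := M.clsL hz (by rw [← h, pow_orderOf_eq_one]) (by rintro rfl; simp at h)
  exact ⟨⟨i, hi⟩, x, hx, h1⟩

end Cfsg.Agent.S5514
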