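import Cfsg.Statements.S5516
import Cfsg.Agent.Lib.O8Tri.Cls

set_option autoImplicit false
open Cfsg

namespace Cfsg.Agent.S5516

open CfsgLib.O8Tri Subgroup

theorem classes_gen {G X : Type*} [Group G] [Group X] {L : Subgroup G} [L.Normal] (e : L ≃* X) (φ : G → MulAut X)
    (h : ∀ g x, e (MulAut.conjNormal g x) = φ g (e x)) {k : ℕ} (r : Fin k → X) (ho : ∀ i, orderOf (r i) = 3)
    (hsep : ∀ g i j, φ g (r i) ∈ zpowers (r j) → i = j) (hall : ∀ z, orderOf z = 3 → ∃ i g, φ g z = r i) :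
    ∃ Y : Fin k → Subgroup G, (∀ i, Y i ≤ L ∧ Nat.card (Y i) = 3) ∧
      (∀ i j, (∃ g : G, (Y i).map (MulAut.conj g).toMonoidHom = Y j) → i = j) ∧
      ∀ X : Subgroup G, X ≤ L → Nat.card X = 3 → ∃ i, ∃ g : G, X.map (MulAut.conj g).toMonoidHom = Y i := by
  refine ⟨fun i => zpowers (e.symm (r i) : G), fun i => ⟨zpowers_le_of_mem (e.symm (r i)).2, ?_⟩,
    fun i j ⟨g, hg⟩ => hsep g i j ?_, fun Z hZ hc => ?_⟩
  · rw [Nat.card_zpowers, orderOf_coe, MulEquiv.orderOf_eq, ho]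
  · obtain ⟨n, hn⟩ : g * e.symm (r i) * g⁻¹ ∈ zpowers (e.symm (r j) : G) := hg.le ⟨_, mem_zpowers _, rfl⟩
    refine ⟨n, ?_⟩
    rw [← e.apply_symm_apply (r i), ← h, ← e.apply_symm_apply (r j)]
    exact (map_zpow e _ n).symm.trans (congrArg e (Subtype.ext hn))
  · have := isCyclic_of_prime_card hc
    obtain ⟨x, rfl⟩ := (Subgroup.isCyclic_iff_exists_zpowers_eq_top Z).1 this
    obtain ⟨i, g, hg⟩ := hall (e ⟨x, hZ (mem_zpowers x)⟩) (by
      rw [MulEquiv.orderOf_eq, orderOf_mk, ← Nat.card_zpowers, hc])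
    refine ⟨i, g, (MonoidHom.map_zpowers _ _).trans (congrArg zpowers ?_)⟩
    rw [← hg, ← h, e.symm_apply_apply]
    rfl

theorem classes_top {G X : Type*} [Group G] [Group X] (e : G ≃* X) {k : ℕ} (r : Fin k → X)
    (ho : ∀ i, orderOf (r i) = 3) (hsep : ∀ g i j, g * r i * g⁻¹ ∈ zpowers (r j) → i = j)
    (hall : ∀ z, orderOf z = 3 → ∃ i, IsConj z (r i)) :
    ∃ Y : Fin k → Subgroup G, (∀ i, Nat.card (Y i) = 3) ∧
      (∀ i j, (∃ g : G, (Y i).map (MulAut.conj g).toMonoidHom = Y j) → i = j) ∧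
      ∀ X : Subgroup G, Nat.card X = 3 → ∃ i, ∃ g : G, X.map (MulAut.conj g).toMonoidHom = Y i := by
  obtain ⟨Y, h1, h2, h3⟩ := classes_gen (L := ⊤) (topEquiv.trans e) (fun g => MulAut.conj (e g))
    (fun g x => by simp) r ho (fun g => hsep (e g)) fun z hz => by
      obtain ⟨i, hi⟩ := hall z hz
      obtain ⟨g, hg⟩ := isConj_iff.1 hi
      exact ⟨i, e.symm g, by simpa using hg⟩
  exact ⟨Y, fun i => (h1 i).2, h2, fun X => h3 X le_top⟩

/-- PΩ⁺(8, 3) (the commutator subgroup of the isometry group of the hyperbolic quadratic form in dimension 8 over the field with three elements, modulo its centre) has exactly 13 conjugacy classes of subgroups of order 3; and a finite group G whose generalized Fitting subgroup L is isomorphic to PΩ⁺(8, 3) with G/L the symmetric group of degree 3 has exactly 7 orbits, under conjugation, on the subgroups of L of order 3. -/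
theorem result {G : Type*} [Group G] [Finite G] (L : Subgroup G) (hL : L = Cfsg.generalizedFittingSubgroup G) (hF : Nonempty (↥L ≃* Cfsg.POmega (ZMod 3) (Cfsg.quadFormPlus 4 (ZMod 3)))) [hn : L.Normal] (hq : Nonempty (G ⧸ L ≃* Equiv.Perm (Fin 3))) : (∃ Y : Fin 13 → Subgroup (Cfsg.POmega (ZMod 3) (Cfsg.quadFormPlus 4 (ZMod 3))), (∀ i, Nat.card (Y i) = 3) ∧ (∀ i j, (∃ g : Cfsg.POmega (ZMod 3) (Cfsg.quadFormPlus 4 (ZMod 3)), (Y i).map (MulAut.conj g).toMonoidHom = Y j) → i = j) ∧ (∀ X : Subgroup (Cfsg.POmega (ZMod 3) (Cfsg.quadFormPlus 4 (ZMod 3))), Nat.card X = 3 → ∃ i, ∃ g : Cfsg.POmega (ZMod 3) (Cfsg.quadFormPlus 4 (ZMod 3)), X.map (MulAut.conj g).toMonoidHom = Y i)) ∧ ∃ Y : Fin 7 → Subgroup G, (∀ i, Y i ≤ L ∧ Nat.card (Y i) = 3) ∧ (∀ i j, (∃ g : G, (Y i).map (MulAut.conj g).toMonoidHom = Y j) → i = j) ∧ ∀ X : Subgroup G, X ≤ L → Nat.card X = 3 → ∃ i, ∃ g : G, X.map (MulAut.conj g).toMonoidHom =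 Y i := by
  refine ⟨@classes_top _ T _ (Subgroup.toGroup _) (CfsgLib.RepChk.d4Iso (ZMod 3)).symm 13 (fun i => rT i)
    (fun i => orderOf_rT i.2) (fun g i j h => Fin.ext (sep i.2 j.2 ((isConj_iff.2 ⟨g, rfl⟩).trans
      (isConj_of_mem ((MulAut.conj g).orderOf_eq _ |>.trans (orderOf_rT i.2)) j.2 h)))) fun z hz => ?_, ?_⟩
  · obtain ⟨i, hi, h⟩ := exists_conj hz
    exact ⟨⟨i, hi⟩, h⟩
  · obtain ⟨e, φ, h⟩ := exists_equiv hL hF hq
    refine @classes_gen G T _ (Subgroup.toGroup _) L _ e (fun g => (φ g).1) h 7 (fun k => rT (sec k))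
      (fun k => orderOf_rT (sec_lt k)) (fun g _ _ => sep_Gam (φ g).2) fun z hz => ?_
    obtain ⟨k, θ, hθ, h1⟩ := exists_Gam hz
    exact ⟨k, φ.symm ⟨θ, hθ⟩, by rw [MulEquiv.apply_symm_apply]; exact h1⟩

end Cfsg.Agent.S5516
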