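import Mathlib
import Cfsg.Statements.S5517
import Cfsg.Agent.Lib.FiType.Iface
import Cfsg.Agent.Lib.Fischer.Sub22

set_option autoImplicit false
open Cfsg

namespace Cfsg.Agent.S5517


open CfsgLib.Comput CfsgLib.ThreeTrans CfsgLib.Fischer CfsgLib.FiType

theorem sylow_map {G : Type*} [Group G] [Finite G] {p : ℕ} [hp : Fact p.Prime] (L : Subgroup G) (h : ¬ p ∣ L.index)
    (P : Sylow p L) : ∃ P' : Sylow p G, (P : Subgroup L).map L.subtype = (P' : Subgroup G) := by
  have h1 : IsPGroup p ((P : Subgroup L).map L.subtype) := P.isPGroup'.map _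
  have h2 : ¬ p ∣ ((P : Subgroup L).map L.subtype).index := by
    rw [Subgroup.index_map_subtype]
    intro h3
    rcases (Nat.Prime.dvd_mul hp.out).1 h3 with h4 | h4
    · exact P.not_dvd_index h4
    · exact h h4
  exact ⟨h1.toSylow h2, rfl⟩


/-- Let G be a finite group with trivial centre generated by a conjugation-invariant set D of 3-transpositions on which it acts primitively, such that for some d in D the subgroup generated by the members of D other than d commuting with d has central largest normal 2- and 3-subgroups, and suppose G with D is of type M(22). Then G has a subgroup L generated by the members of D it contains and isomorphic to Ω(7, 3) (the commutator subgroup of the isometry group of a non-degenerate 7-dimensional quadratic form over the field with three elements, modulo its centre), and every Sylow 3-subgroup of L is a Sylow 3-subgroup of G. -/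
theorem result {G : Type*} [Group G] [Finite G] {D : Set G} (hD : Cfsg.IsThreeTranspositionGroup D) (hprim : Cfsg.IsPrimitiveUnderConj D) (d₀ : G) (hd₀ : d₀ ∈ D) (h3 : Cfsg.pCore 3 ↥(Subgroup.closure {y : G | y ∈ D ∧ y ≠ d₀ ∧ Commute d₀ y}) ≤ Subgroup.center ↥(Subgroup.closure {y : G | y ∈ D ∧ y ≠ d₀ ∧ Commute d₀ y})) (h2 : Cfsg.pCore 2 ↥(Subgroup.closure {y : G | y ∈ D ∧ y ≠ d₀ ∧ Commute d₀ y}) ≤ Subgroup.center ↥(Subgroup.closure {y : G | y ∈ D ∧ y ≠ d₀ ∧ Commute d₀ y})) (h22 : Cfsg.IsOfTypeM22 G D) : ∃ L : Subgroup G, Cfsg.IsDSubgroup D L ∧ Nonempty (↥L ≃* Cfsg.POmega (ZMod 3) (Cfsg.quadFormOdd 3 (ZMod 3))) ∧ ∀ P : Sylow 3 ↥L, ∃ P' : Sylow 3 G, (P : Subgroup ↥L).map L.subtype = (P' : Subgroup G) := by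
  obtain ⟨e, he⟩ := iso22 hD hprim h22
  obtain ⟨f⟩ := o7_22
  let L0 := cl g22 [2, 3, 4, 5, 6, 7, 8, 9]
  have hc : Nat.card (L0.map e.symm.toMonoidHom) = 4585351680 := by
    rw [Subgroup.card_map_of_injective e.symm.injective]; exact card_o7_22
  haveI : Fact (Nat.Prime 3) := ⟨by norm_num⟩
  refine ⟨L0.map e.symm.toMonoidHom, ?_, ⟨(e.symm.subgroupMap L0).symm.trans f⟩, sylow_map _ ?_⟩
  · refine le_antisymm ((Subgroup.closure_le _).2 fun x hx => hx.2) ?_
    rw [Subgroup.map_le_iff_le_comap]
    have h1 := (o7b_spec model22 pt22_gen').2.1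
    change L0 ≤ _
    refine h1.symm.le.trans ((Subgroup.closure_le _).2 fun x hx => ?_)
    refine Subgroup.subset_closure ⟨?_, Subgroup.mem_map_of_mem _ (h1.le (Subgroup.subset_closure hx))⟩
    have h2 : x ∈ e '' D := he ▸ model22.semG_subset _ hx
    obtain ⟨y, hy, rfl⟩ := h2
    simpa using hy
  · have h1 := (L0.map e.symm.toMonoidHom).card_mul_index
    rw [hc, Nat.card_congr e.toEquiv, card22] at h1
    omega

end Cfsg.Agent.S5517
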