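import Cfsg.Statements.S5518
import Cfsg.Agent.Lib.FiTool.OfType
import Cfsg.Agent.Lib.FiOdd.P24g
import Cfsg.Agent.Lib.FiPair.Quad24
-- import your own Cfsg.Agent.* helpers here

set_option autoImplicit false
open Cfsg

namespace Cfsg.Agent.S5518

set_option linter.unusedVariables false
open Subgroup CfsgLib.Core CfsgLib.Comput CfsgLib.FiTool CfsgLib.FiOdd CfsgLib.Fischer CfsgLib.ThreeTrans

/-- Let G be a finite group with trivial centre generated by a conjugation-invariant set D of 3-transpositions on which it acts primitively, such that for some d in D the subgroup generated by the members of D other than d commuting with d has central largest normal 2- and 3-subgroups, and suppose G with D is of type M(24). Then any two subgroups of order 13 are conjugate; and there are members a, b, c, d of D generating the direct product T of two symmetric groups of degree 3 (a, d non-commuting; b, c non-commuting; b and c commuting with a and d) whose centralizer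 K is isomorphic to the Chevalley group G₂(3), such that for every subgroup B of K of order 13: the normalizer of B lies in the normalizer of K, the normalizer F of B in K is a Frobenius group of order 78 with kernel B (order 78, centralizer of B in it equal to B), and the subgroup generated by F and T has index 2 in the normalizer of B. -/
theorem result {G : Type*} [Group G] [Finite G] {D : Set G} (hD : Cfsg.IsThreeTranspositionGroup D) (hprim : Cfsg.IsPrimitiveUnderConj D) (d₀ : G) (hd₀ : d₀ ∈ D) (h3 : Cfsg.pCore 3 ↥(Subgroup.closure {y : G | y ∈ D ∧ y ≠ d₀ ∧ Commute d₀ y}) ≤ Subgroup.center ↥(Subgroup.closure {y : G | y ∈ D ∧ y ≠ d₀ ∧ Commute d₀ y})) (h2 : Cfsg.pCore 2 ↥(Subgroup.closure {y : G | y ∈ D ∧ y ≠ d₀ ∧ Commute d₀ y}) ≤ Subgroup.center ↥(Subgroup.closure {y : G | y ∈ D ∧ y ≠ d₀ ∧ Commute d₀ y})) (h24 : Cfsg.IsOfTypeM24 G D) : (∀ X Y : Subgroup G, Nat.card X = 13 → Nat.card Y = 13 → ∃ g : G, X.map (MulAut.conj g).toMonoidHom = Y) ∧ ∃ (a b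 c d : G) (T K : Subgroup G), (∀ x ∈ [a, b, c, d], x ∈ D) ∧ ¬ Commute a d ∧ ¬ Commute b c ∧ Commute a b ∧ Commute a c ∧ Commute d b ∧ Commute d c ∧ T = Subgroup.closure ({a, b, c, d} : Set G) ∧ K = Subgroup.centralizer (T : Set G) ∧ Nonempty (↥K ≃* ↥(Cfsg.Lie.chevG2.group (ZMod 3))) ∧ ∀ B : Subgroup G, B ≤ K → Nat.card B = 13 → Subgroup.normalizer ((B : Subgroup G) : Set G) ≤ Subgroup.normalizer ((K : Subgroup G) : Set G) ∧ Nat.card ↥(K ⊓ Subgroup.normalizer ((B : Subgroup G) : Set G)) = 78 ∧ K ⊓ Subgroup.centralizer ((B : Subgroup G) : Set G) = B ∧ (((K ⊓ Subgroup.normalizer ((B : Subgroup G) : Set G)) ⊔ T).subgroupOf (Subgroup.normalizer ((B : Subgroup G) : Set G))).index = 2 := by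
  obtain ⟨g, pt, M, hA⟩ := fm24_of_type hD hprim h24
  refine ⟨conj_of_prime (by norm_num) (by rw [hA]; norm_num), ?_⟩
  obtain ⟨h1, h4, h5, h6, h7, h8, h9, h10⟩ := P24g.c13_facts M
  simp only [List.forall_mem_cons] at h4 ⊢
  obtain ⟨⟨ha, xa⟩, ⟨hd, xd⟩, ⟨hb, xb⟩, ⟨hc, xc⟩, -⟩ := h4
  obtain ⟨K, hK⟩ : ∃ K, K = centralizer (closure ({pt (P24g.c13.b 0), pt (P24g.c13.b 2), pt (P24g.c13.b 3),
    pt (P24g.c13.b 1)} : Set G) : Set G) := ⟨_, rfl⟩
  have e : K = centralizer {pt (P24g.c13.b 0), pt (P24g.c13.b 1), pt (P24g.c13.b 2), pt (P24g.c13.b 3)} := by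
    rw [hK, centralizer_closure]; congr 1; ext; simp only [Set.mem_insert_iff, Set.mem_singleton_iff]; tauto
  have hx : ev g P24g.c13x ∈ K := e ▸ CfsgLib.FiPair.mem_cent_four.2 ⟨xa.symm, xd.symm, xb.symm, xc.symm⟩
  have h11 : orderOf (⟨_, hx⟩ : K) = 13 := by rw [← orderOf_coe, h1]
  obtain ⟨f⟩ := (e ▸ CfsgLib.FiPair.quad24 hD hprim h24 ha hd hb hc h5 h6 h7 h8 h9 h10 :
    Nat.card K = _ ∨ Nonempty (K ≃* _)).resolve_left fun h => by
      have := orderOf_dvd_natCard (⟨_, hx⟩ : K)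
      rw [h11, h] at this; omega
  have h12 := (Nat.card_congr f.toEquiv).trans CfsgLib.LieModel.G23.card_G
  refine ⟨_, _, _, _, _, K, ⟨ha, hb, hc, hd, by simp⟩, h5, h6, h7, h8, h9, h10, rfl, hK, ⟨f⟩, fun B hB hB' => ?_⟩
  obtain ⟨k, hk⟩ := conj_of_prime (p := 13) (by norm_num) (by rw [h12]; norm_num) (zpowers (⟨_, hx⟩ : K))
    (B.subgroupOf K) (by rw [Nat.card_zpowers, h11]) (by rw [card_subgroupOf_of_le hB, hB'])
  have h13 : zpowers (k * ev g P24g.c13x * (k : G)⁻¹) = B := by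
    rw [← map_subgroupOf_eq_of_le hB, ← hk, MonoidHom.map_zpowers, MonoidHom.map_zpowers]; rfl
  obtain ⟨e1, e2, e3, e4⟩ := CfsgLib.FiPair.mem_cent_four.1 (e.le k.2)
  have := P24g.c13_row (FM.conj M k) hA (by
    rw [mul_inv_eq_iff_eq_mul.2 e1.symm.eq, mul_inv_eq_iff_eq_mul.2 e2.symm.eq, mul_inv_eq_iff_eq_mul.2 e3.symm.eq,
      mul_inv_eq_iff_eq_mul.2 e4.symm.eq]) hK h12
  rwa [ev_conj, h13] at this

end Cfsg.Agent.S5518
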