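import Cfsg.Statements.S5519
import Mathlib
import Cfsg.Agent.Lib.FiLoc.K22
import Cfsg.Agent.Lib.FiTool.MType

set_option autoImplicit false
open Cfsg

namespace Cfsg.Agent.S5519

open CfsgLib.FiTool CfsgLib.FiLoc Subgroup


/-- Let G be a finite group with trivial centre generated by a conjugation-invariant set D of 3-transpositions on which it acts primitively, such that for some d in D the subgroup generated by the members of D other than d commuting with d has central largest normal 2- and 3-subgroups, and suppose G with D is of type M(22). Let d₁, d₂ be distinct commuting members of D and C the centralizer of their product. Then the generalized Fitting subgroup of C is the direct product of a group of order 2 and an extraspecial 2-group of order 2^9, and C modulo it is isomorphic to the full isometry group of the elliptic quadratic form in dimension 6 over the field with two elements. -/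
theorem result {G : Type*} [Group G] [Finite G] {D : Set G} (hD : Cfsg.IsThreeTranspositionGroup D) (hprim : Cfsg.IsPrimitiveUnderConj D) (d₀ : G) (hd₀ : d₀ ∈ D) (h3 : Cfsg.pCore 3 ↥(Subgroup.closure {y : G | y ∈ D ∧ y ≠ d₀ ∧ Commute d₀ y}) ≤ Subgroup.center ↥(Subgroup.closure {y : G | y ∈ D ∧ y ≠ d₀ ∧ Commute d₀ y})) (h2 : Cfsg.pCore 2 ↥(Subgroup.closure {y : G | y ∈ D ∧ y ≠ d₀ ∧ Commute d₀ y}) ≤ Subgroup.center ↥(Subgroup.closure {y : G | y ∈ D ∧ y ≠ d₀ ∧ Commute d₀ y})) (h22 : Cfsg.IsOfTypeM22 G D) (d₁ d₂ : G) (h₁ : d₁ ∈ D) (h₂ : d₂ ∈ D) (hne : d₁ ≠ d₂) (hc : Commute d₁ d₂) (C : Subgroup G) (hC : C = Subgroup.centralizer ({d₁ * d₂} : Set G)) [hn : (Cfsg.generalizedFittingSubgroup ↥C).Normal] : (∃ (E : Type) (_ : Group E) (_ : Finite E), Cfsg.IsExtraspecial 2 E ∧ Nat.card E = 2 ^ 9 ∧ Nonempty (↥(Cfsg.generalizedFittingSubgroup ↥C) ≃* Multiplicative (ZMod 2) × E)) ∧ Nonempty (↥C ⧸ Cfsg.generalizedFittingSubgroup ↥C ≃* Cfsg.isometryGroup (ZMod 2) (Cfsg.quadFormMinus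 2 (ZMod 2) 1 1)) := by
  obtain ⟨g, pt, M⟩ := m22_of_type hD hprim h22
  have hcl := CL.pair h₁ h₂ hne hc
  obtain ⟨E, E₀, P⟩ := exists_pairData M hcl
  obtain ⟨h4, -⟩ := pair_index M hcl
  obtain ⟨f, h6, h7⟩ := P.hom
  subst hC
  have hEC := P.le.trans h4
  have hp : IsPGroup 2 f.ker := h7 ▸ (IsPGroup.of_card P.card).of_equiv (subgroupOfEquivOfLe hEC).symm
  have hVE : closure ({d₁, d₂} : Set G) ≤ E := (closure_le _).2 (by
    rintro _ (rfl | rfl)
    · exact P.mem
    · simpa using mul_mem (inv_mem P.mem) (P.le₀ P.mem₀))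
  have hF : generalizedFittingSubgroup (centralizer ({d₁ * d₂} : Set G)) = E.subgroupOf _ :=
    fstar_eq_subgroupOf (p := 2) (by rw [pCore_eq_ker f h6 hp big3_O6m exists_three_O6m, h7, subgroupOf_map_subtype,
      inf_eq_left.2 hEC]) fun x hx h => hVE (P.cent x hx h)
  refine ⟨?_, nonempty_quot_of_ker h6 (h7.trans hF.symm)⟩
  let e := (subgroupOfEquivOfLe P.le₀).trans (Shrink.mulEquiv.{0} (α := E₀)).symm
  have e₀ := (Shrink.mulEquiv.{0} (α := E₀)).symm
  obtain ⟨e'⟩ := nonempty_equiv_two_prod (M := E₀.subgroupOf E) (z := ⟨d₁, P.mem⟩)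
    (by rw [Nat.card_congr (subgroupOfEquivOfLe P.le₀).toEquiv, P.card, P.card₀]; norm_num) P.not_mem
    (Subtype.ext (CfsgLib.ThreeTrans.sq hD.1 h₁)) fun x _ => Subtype.ext (P.le x.2 _ (by simp))
  exact ⟨Shrink.{0} E₀, inferInstance, Finite.of_equiv _ e₀.toEquiv, extraspecial_equiv P.xsp e₀,
    (Nat.card_congr e₀.toEquiv).symm.trans P.card₀,
    ⟨(MulEquiv.subgroupCongr hF).trans ((subgroupOfEquivOfLe hEC).trans (e'.trans ((MulEquiv.refl _).prodCongr e)))⟩⟩

end Cfsg.Agent.S5519
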