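import Cfsg.Statements.S5520
import Cfsg.Agent.Lib.U62K.Main

set_option autoImplicit false
open Cfsg

namespace Cfsg.Agent.S5520

/-- In the special unitary group of dimension 6 over the field with four elements (determinant-one matrices preserving the standard Hermitian form), the subgroups K whose centre has order 3 with K modulo its centre isomorphic to the projective special unitary group of dimension 4 over the field with nine elements fall into exactly three conjugacy classes. -/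
theorem result (F : Type) [Field F] [Fintype F] (hF : Fintype.card F = 4) (F9 : Type) [Field F9] [Fintype F9] (hF9 : Fintype.card F9 = 9) : ∃ K₁ K₂ K₃ : Subgroup ↥(Cfsg.SU 6 F 2), (∀ K ∈ [K₁, K₂, K₃], Nat.card ↥(Subgroup.center ↥K) = 3 ∧ Nonempty (↥K ⧸ Subgroup.center ↥K ≃* Cfsg.PSU 4 F9 3)) ∧ (¬ ∃ g : ↥(Cfsg.SU 6 F 2), K₁.map (MulAut.conj g).toMonoidHom = K₂) ∧ (¬ ∃ g : ↥(Cfsg.SU 6 F 2), K₁.map (MulAut.conj g).toMonoidHom = K₃) ∧ (¬ ∃ g : ↥(Cfsg.SU 6 F 2), K₂.map (MulAut.conj g).toMonoidHom = K₃) ∧ ∀ K : Subgroup ↥(Cfsg.SU 6 F 2), Nat.card ↥(Subgroup.center ↥K) = 3 → Nonempty (↥K ⧸ Subgroup.center ↥K ≃* Cfsg.PSU 4 F9 3) → ∃ g : ↥(Cfsg.SU 6 F 2), K.map (MulAut.conj g).toMonoidHom = K₁ ∨ K.map (MulAut.conj g).toMonoidHom = K₂ ∨ K.map (MulAut.conj g).toMonoidHom = K₃ := by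
  obtain ⟨ω, C⟩ := CfsgLib.U62K.exists_ctx hF
  obtain ⟨e⟩ := CfsgLib.U43.nonempty_PM_equiv_PSU F9 hF9
  refine ⟨C.K0.map (CfsgLib.U62K.cj (C.δ ^ 0)), C.K0.map (CfsgLib.U62K.cj (C.δ ^ 1)),
    C.K0.map (CfsgLib.U62K.cj (C.δ ^ 2)), fun K hK => ?_, C.not_conj (i := 0) (j := 1) (Or.inl rfl),
    C.not_conj (i := 0) (j := 2) (Or.inr rfl), C.not_conj (i := 1) (j := 1) (Or.inl rfl),
    fun K h1 h2 => C.classify ⟨h1, h2.map fun f => f.trans e.symm⟩⟩
  obtain ⟨d, rfl⟩ : ∃ d, K = C.K0.map (CfsgLib.U62K.cj d) := by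
    simp only [List.mem_cons, List.not_mem_nil, or_false] at hK
    rcases hK with h | h | h <;> exact ⟨_, h⟩
  have h := C.ty_K0.map _ (CfsgLib.U62K.cj_injective d)
  exact ⟨h.1, h.2.map fun f => f.trans e⟩

end Cfsg.Agent.S5520
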