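import Mathlib
import Cfsg.Statements.S5541


set_option autoImplicit false
open Cfsg

namespace Cfsg.Agent.S5541

/-- Let ρ be a representation of a group H on a finite-dimensional real vector space U whose only ρ-invariant subspaces are the zero subspace and U, and suppose U carries a non-zero ρ-invariant symmetric bilinear form. Then the following are equivalent: (1) there is a non-zero ρ-equivariant commutative bilinear product on U of which every ρ-equivariant bilinear product is a scalar multiple; (2) there is a non-zero ρ-invariant trilinear form on U that is symmetric under all permutations of its arguments and of which every ρ-invariant trilinear form is a scalar multiple. -/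
theorem result {H : Type*} [Group H] {U : Type*} [AddCommGroup U] [Module ℝ U] [FiniteDimensional ℝ U] (ρ : Representation ℝ H U) (hirr : ∀ W : Submodule ℝ U, (∀ g : H, W.map (ρ g) ≤ W) → W = ⊥ ∨ W = ⊤) (B : LinearMap.BilinForm ℝ U) (hB0 : B ≠ 0) (hBs : ∀ u v, B u v = B v u) (hBi : ∀ (g : H) (u v : U), B (ρ g u) (ρ g v) = B u v) : (∃ m : U →ₗ[ℝ] U →ₗ[ℝ] U, m ≠ 0 ∧ (∀ u v, m u v = m v u) ∧ (∀ (g : H) (u v : U), m (ρ g u) (ρ g v) = ρ g (m u v)) ∧ ∀ m' : U →ₗ[ℝ] U →ₗ[ℝ] U, (∀ (g : H) (u v : U), m' (ρ g u) (ρ g v) = ρ g (m' u v)) → ∃ c : ℝ, m' = c • m) ↔ (∃ t : U →ₗ[ℝ] U →ₗ[ℝ] U →ₗ[ℝ] ℝ, t ≠ 0 ∧ (∀ u v w, t u v w = t v u w ∧ t u v w = t u w v) ∧ (∀ (g : H) (u v w : U), t (ρ g u) (ρ g v) (ρ g w) = t u v w) ∧ ∀ t' : U →ₗ[ℝ] U →ₗ[ℝ] U →ₗ[ℝ] ℝ, (∀ (g : H) (u v w : U), t' (ρ g u) (ρ g v) (ρ g w) = t' u v w) → ∃ c : ℝ, t' = c • t) := by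
  by_cases hU : ∃ u : U, u ≠ 0
  swap
  · exact absurd (LinearMap.ext fun u => by
      have : u = 0 := by by_contra h; exact hU ⟨u, h⟩
      simp [this]) hB0
  have hinv : ∀ (g : H) (v : U), ρ g (ρ g⁻¹ v) = v := fun g v => by
    rw [← Module.End.mul_apply, ← map_mul]; simp
  have hnd : ∀ u, (∀ v, B u v = 0) → u = 0 := by
    rcases hirr (LinearMap.ker B) (by
      rintro g _ ⟨u, hu, rfl⟩
      refine LinearMap.mem_ker.mpr (LinearMap.ext fun v => ?_)
      rw [← hinv g v, hBi, LinearMap.mem_ker.mp hu]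
      rfl) with h | h
    · intro u hu
      exact (Submodule.mem_bot ℝ).mp (h.le (LinearMap.mem_ker.mpr (LinearMap.ext hu)))
    · exact absurd (LinearMap.ker_eq_top.mp h) hB0
  have hND : B.Nondegenerate := ⟨hnd, fun u hu => hnd u fun v => (hBs u v).trans (hu v)⟩
  let e : U ≃ₗ[ℝ] Module.Dual ℝ U := B.toDual hND
  have he : ∀ u v, e u v = B u v := fun u v => rfl
  let T : (U →ₗ[ℝ] U →ₗ[ℝ] U) → (U →ₗ[ℝ] U →ₗ[ℝ] U →ₗ[ℝ] ℝ) := fun m => m.compr₂ B
  let Mm : (U →ₗ[ℝ] U →ₗ[ℝ] U →ₗ[ℝ] ℝ) → (U →ₗ[ℝ] U →ₗ[ℝ] U) := fun t => t.compr₂ e.symm.toLinearMap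
  have hT : ∀ m u v w, T m u v w = B (m u v) w := fun _ _ _ _ => rfl
  have hM : ∀ t u v w, B (Mm t u v) w = t u v w := fun t u v w => by
    rw [← he]
    simp [Mm]
  have hext : ∀ a b : U, (∀ w, B a w = B b w) → a = b := fun a b h =>
    sub_eq_zero.mp (hnd _ fun w => by simp [h w])
  have hTi : ∀ m : U →ₗ[ℝ] U →ₗ[ℝ] U, (∀ (g : H) (u v : U), m (ρ g u) (ρ g v) = ρ g (m u v)) →
      ∀ (g : H) (u v w : U), T m (ρ g u) (ρ g v) (ρ g w) = T m u v w := fun m h g u v w => by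
    rw [hT, hT, h, hBi]
  have hMi : ∀ t : U →ₗ[ℝ] U →ₗ[ℝ] U →ₗ[ℝ] ℝ,
      (∀ (g : H) (u v w : U), t (ρ g u) (ρ g v) (ρ g w) = t u v w) →
      ∀ (g : H) (u v : U), Mm t (ρ g u) (ρ g v) = ρ g (Mm t u v) := fun t h g u v =>
    hext _ _ fun w => by rw [← hinv g w, hM, h, hBi, hM]
  constructor
  · rintro ⟨m, hm0, hmc, hmi, hmu⟩
    have huniq : ∀ t' : U →ₗ[ℝ] U →ₗ[ℝ] U →ₗ[ℝ] ℝ,
        (∀ (g : H) (u v w : U), t' (ρ g u) (ρ g v) (ρ g w) = t' u v w) → ∃ c : ℝ, t' = c • T m := by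
      intro t' h
      obtain ⟨c, hc⟩ := hmu _ (hMi t' h)
      refine ⟨c, ?_⟩
      ext u v w
      rw [← hM, hc]
      simp [hT]
    have hT0 : T m ≠ 0 := fun h => hm0 (by
      ext u v
      exact hnd _ fun w => by rw [← hT, h]; rfl)
    have hs1 : ∀ u v w, T m u v w = T m v u w := fun u v w => by rw [hT, hT, hmc]
    let t' : U →ₗ[ℝ] U →ₗ[ℝ] U →ₗ[ℝ] ℝ := (LinearMap.lflip (R := ℝ)).toLinearMap ∘ₗ T m
    have ht' : ∀ u v w, t' u v w = T m u w v := fun _ _ _ => rfl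
    obtain ⟨c, hc⟩ := huniq t' fun g u v w => by rw [ht', ht', hTi m hmi]
    have hc' : ∀ u v w, T m u w v = c * T m u v w := fun u v w => by rw [← ht', hc]; simp
    have hc1 : c = 1 := by
      by_contra hne
      apply hT0
      ext u v w
      have e1 := hc' u v w
      have e2 := hc' u w v
      have e3 := hc' w u v
      have e4 := hc' v w u
      rw [← hs1 u w v] at e3
      rw [← hs1 u v w, hs1 v w u, e3, ← e2] at e4
      have e5 : (c - 1) * T m u v w = 0 := by linarith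
      simpa [sub_eq_zero, hne] using e5
    refine ⟨T m, hT0, fun u v w => ⟨hs1 u v w, by rw [hc' u v w, hc1, one_mul]⟩, hTi m hmi, huniq⟩
  · rintro ⟨t, ht0, hts, hti, htu⟩
    refine ⟨Mm t, fun h => ht0 ?_, fun u v => hext _ _ fun w => by rw [hM, hM, (hts u v w).1],
      hMi t hti, fun m' h => ?_⟩
    · ext u v w
      rw [← hM, h]
      simp
    · obtain ⟨c, hc⟩ := htu _ (hTi m' h)
      refine ⟨c, ?_⟩
      ext u v
      refine hext _ _ fun w => ?_
      rw [← hT, hc]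
      simp [hM]

end Cfsg.Agent.S5541
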