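import Cfsg.Statements.S5543
import Mathlib
import Cfsg.Agent.Lib.Majorana.Basic

set_option autoImplicit false
open Cfsg

namespace Cfsg.Agent.S5543

/-- Let V be a finite-dimensional real vector space with a commutative bilinear product and a positive-definite symmetric bilinear form that associates with the product and satisfies the Norton inequality (the Majorana setting of the definitions). Let X be a group of linear automorphisms of V in which every element squares to the identity, and suppose every non-identity element x of X is a Majorana involution with an axial vector a(x) of squared length 1, such that for any two distinct non-identity x, y the product a(x) ∘ a(y) equals (1/8)(a(x) + a(y) − a(xy)) (the dihedral subalgebra of type 2A whose third axis belongs to the involution xy). Then X has order at most 4. -/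
theorem result {V : Type*} [AddCommGroup V] [Module ℝ V] [FiniteDimensional ℝ V] (mul : V →ₗ[ℝ] V →ₗ[ℝ] V) (B : LinearMap.BilinForm ℝ V) (hV : Cfsg.Axial.IsMajoranaAmbient mul B) (X : Subgroup (V ≃ₗ[ℝ] V)) (hX : ∀ x ∈ X, x * x = 1) (ax : (V ≃ₗ[ℝ] V) → V) (hax : ∀ x ∈ X, x ≠ 1 → Cfsg.Axial.IsMajoranaPair mul B x (ax x)) (h1 : ∀ x ∈ X, x ≠ 1 → B (ax x) (ax x) = 1) (h2A : ∀ x ∈ X, ∀ y ∈ X, x ≠ 1 → y ≠ 1 → x ≠ y → mul (ax x) (ax y) = (1 / 8 : ℝ) • (ax x + ax y - ax (x * y))) : Nat.card ↥X ≤ 4 := by
  classical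
  by_contra hlt
  push Not at hlt
  have hfin : Finite X := Nat.finite_of_card_ne_zero (by omega)
  have := Fintype.ofFinite X
  rw [Nat.card_eq_fintype_card] at hlt
  have ex : ∀ s : Finset X, s.card ≤ 4 → ∃ g, g ∉ s := by
    intro s hs
    by_contra hall
    push Not at hall
    have : s = Finset.univ := Finset.eq_univ_iff_forall.2 hall
    rw [this, Finset.card_univ] at hs
    omega
  obtain ⟨x, hx⟩ := ex {1} (by simp)
  obtain ⟨y, hy⟩ := ex {1, x} (Finset.card_le_two.trans (by norm_num))
  obtain ⟨z, hz⟩ := ex {1, x, y, x * y} Finset.card_le_four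
  simp only [Finset.mem_insert, Finset.mem_singleton, not_or] at hx hy hz
  have sq : ∀ g : X, g * g = 1 := fun g => Subtype.ext (hX g g.2)
  have inv : ∀ g : X, g⁻¹ = g := fun g => inv_eq_of_mul_eq_one_right (sq g)
  have comm : ∀ g k : X, g * k = k * g := by
    intro g k
    rw [← inv (g * k), mul_inv_rev, inv, inv]
  letI : CommGroup X := { (inferInstance : Group X) with mul_comm := comm }
  have eq1 : ∀ g k : X, g * k = 1 → g = k := by
    intro g k h
    rw [← inv k]; exact eq_inv_of_mul_eq_one_left h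
  have canc : ∀ g k : X, g * (g * k) = k := fun g k => by rw [← mul_assoc, sq, one_mul]
  -- the product rule inside `X`
  have rule : ∀ g k : X, g ≠ 1 → k ≠ 1 → g ≠ k →
      mul (ax g) (ax k) = (1 / 8 : ℝ) • (ax g + ax k - ax (g * k : X)) := by
    intro g k hg hk hgk
    exact h2A g g.2 k k.2 (fun e => hg (Subtype.ext e)) (fun e => hk (Subtype.ext e))
      (fun e => hgk (Subtype.ext e))
  have pair : ∀ g : X, g ≠ 1 → Cfsg.Axial.IsMajoranaPair mul B g (ax g) :=
    fun g hg => hax g g.2 (fun e => hg (Subtype.ext e))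
  have beta : ∀ g : X, g ≠ 1 → g ≠ x →
      mul (ax x) (ax g - ax (x * g : X)) = (1 / 4 : ℝ) • (ax g - ax (x * g : X)) := by
    intro g hg hgx
    rw [map_sub, rule x g hx hg hgx.symm, rule x (x * g) hx (fun e => hgx (eq1 _ _ e).symm)
      (fun e => hg (by simpa using e.symm)), canc]
    module
  obtain ⟨hy1, hyx⟩ := hy
  obtain ⟨hz1, hzx, hzy, hzxy⟩ := hz
  have hxy1 : x * y ≠ 1 := fun e => hyx (eq1 _ _ e).symm
  have hxz1 : x * z ≠ 1 := fun e => hzx (eq1 _ _ e).symm
  have hyz1 : y * z ≠ 1 := fun e => hzy (eq1 _ _ e).symm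
  have hyzx : y * z ≠ x := fun e => hzxy (by rw [← e, comm y z, mul_assoc, sq, mul_one])
  have hyxz : y ≠ x * z := fun e => hzxy (by rw [e, canc])
  have e1 : y * (x * z) = x * (y * z) := mul_left_comm _ _ _
  have e2 : x * y * z = x * (y * z) := mul_assoc _ _ _
  have e3 : x * y * (x * z) = y * z := by
    rw [mul_assoc, e1, canc]
  have prod : mul (ax y - ax (x * y : X)) (ax z - ax (x * z : X))
      = (-1 / 4 : ℝ) • (ax (y * z : X) - ax (x * (y * z) : X)) := by
    simp only [map_sub, LinearMap.sub_apply]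
    rw [rule y z hy1 hz1 (Ne.symm hzy), rule y (x * z) hy1 hxz1 hyxz,
      rule (x * y) z hxy1 hz1 (Ne.symm hzxy),
      rule (x * y) (x * z) hxy1 hxz1 (fun e => hzy (mul_left_cancel e).symm), e1, e2, e3]
    module
  have hb := beta (y * z) hyz1 hyzx
  obtain ⟨c, hc, -⟩ := CfsgLib.Majorana.fus44 (pair x hx) (beta y hy1 hyx) (beta z hz1 hzx)
  rw [prod, map_smul, hb] at hc
  set w := ax (y * z : X) - ax (x * (y * z) : X) with hw
  have hw' : w = (-16 * c) • ax x := by
    linear_combination (norm := module) (-16 : ℝ) • hc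
  have hw0 : w = 0 := by
    have h3 := hb
    conv at h3 => lhs; rw [hw', map_smul, CfsgLib.Majorana.idem (pair x hx), ← hw']
    linear_combination (norm := module) (4 / 3 : ℝ) • h3
  have hax' : ax (y * z : X) = ax (x * (y * z) : X) := sub_eq_zero.1 hw0
  have hne : x * (y * z) ≠ 1 := fun e => hyzx (eq1 _ _ e).symm
  have p1 := pair _ hyz1
  have p2 := pair _ hne
  rw [← hax'] at p2
  have := CfsgLib.Majorana.inv_eq_of_axis p1 p2
  have h4 : y * z = x * (y * z) := Subtype.ext this
  exact hx (by simpa using h4.symm)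

end Cfsg.Agent.S5543
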