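import Cfsg.Statements.S5545
import Mathlib
import Cfsg.Agent.Lib.Majorana.Basic

set_option autoImplicit false
open Cfsg

namespace Cfsg.Agent.S5545

open Cfsg.Axial CfsgLib.Majorana

theorem half {V : Type*} [AddCommGroup V] [Module ℝ V] {mul : V →ₗ[ℝ] V →ₗ[ℝ] V}
    {B : LinearMap.BilinForm ℝ V} (hV : IsMajoranaAmbient mul B) {μ : V ≃ₗ[ℝ] V} {a b : V}
    (h : IsMajoranaPair mul B μ a) (hn : B a a = 1) (hf : μ b = b) :
    ∃ x y : V, b = B a b • a + x + y ∧ mul a x = 0 ∧ mul a y = (1 / 4 : ℝ) • y ∧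
      mul a (mul a b) = (3 / 4 * B a b) • a + (1 / 4 : ℝ) • mul a b := by
  obtain ⟨x, y, z, e, e', hx, hy, hz⟩ := parts hV h hn b
  generalize B a b = l at e e'
  have hz0 : z = 0 := by
    rw [hf] at e'
    linear_combination (norm := module) (1 / 2 : ℝ) • (e' - e)
  rw [hz0, add_zero] at e
  refine ⟨x, y, e, hx, hy, ?_⟩
  rw [e]
  simp only [map_add, map_smul, idem h, hx, hy, map_zero]
  module

/-- Let V be a finite-dimensional real vector space with a commutative bilinear product and a positive-definite symmetric bilinear form that associates with the product and satisfies the Norton inequality (the Majorana setting of the definitions). Let μ₀, μ₁ be commuting Majorana involutions with distinct axial vectors a₀ ≠ a₁ of squared length 1, each involution having no other axial vector. Then either a₀ and a₁ are orthogonal with a₀ ∘ a₁ = 0 (type 2B), or their inner product is 1/8 and, with a₂ = a₀ + a₁ − 8 a₀ ∘ a₁, the vector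 a₂ is an idempotent and a₀ ∘ a₂ = (1/8)(a₀ + a₂ − a₁), a₁ ∘ a₂ = (1/8)(a₁ + a₂ − a₀) (type 2A: the three idempotents span a subalgebra with aᵢ ∘ aⱼ = (1/8)(aᵢ + aⱼ − aₖ)). -/
theorem result {V : Type*} [AddCommGroup V] [Module ℝ V] [FiniteDimensional ℝ V] (mul : V →ₗ[ℝ] V →ₗ[ℝ] V) (B : LinearMap.BilinForm ℝ V) (hV : Cfsg.Axial.IsMajoranaAmbient mul B) (μ₀ μ₁ : V ≃ₗ[ℝ] V) (a₀ a₁ : V) (h₀ : Cfsg.Axial.IsMajoranaPair mul B μ₀ a₀) (h₁ : Cfsg.Axial.IsMajoranaPair mul B μ₁ a₁) (hu₀ : ∀ a : V, Cfsg.Axial.IsMajoranaPair mul B μ₀ a → a = a₀) (hu₁ : ∀ a : V, Cfsg.Axial.IsMajoranaPair mul B μ₁ a → a = a₁) (hn₀ : B a₀ a₀ = 1) (hn₁ : B a₁ a₁ = 1) (hc : μ₀ * μ₁ = μ₁ * μ₀) (hne : a₀ ≠ a₁) : (B a₀ a₁ = 0 ∧ mul a₀ a₁ = 0) ∨ (B a₀ a₁ = 1 / 8 ∧ mul (a₀ + a₁ - (8 : ℝ) • mul a₀ a₁) (a₀ + a₁ - (8 : ℝ) • mul a₀ a₁) = a₀ + a₁ - (8 : ℝ) • mul a₀ a₁ ∧ mul a₀ (a₀ + a₁ - (8 : ℝ) • mul a₀ a₁) = (1 / 8 : ℝ) • (a₀ + (a₀ + a₁ - (8 : ℝ) • mul a₀ a₁) - a₁)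 ∧ mul a₁ (a₀ + a₁ - (8 : ℝ) • mul a₀ a₁) = (1 / 8 : ℝ) • (a₁ + (a₀ + a₁ - (8 : ℝ) • mul a₀ a₁) - a₀)) := by
  have hcm := hV.1
  have f1 : μ₀ a₁ = a₁ := by
    apply hu₁
    have := conj_pair h₁ μ₀ h₀.1 h₀.2.1
    rwa [hc, mul_inv_cancel_right] at this
  have f0 : μ₁ a₀ = a₀ := by
    apply hu₀
    have := conj_pair h₀ μ₁ h₁.1 h₁.2.1
    rwa [← hc, mul_inv_cancel_right] at this
  obtain ⟨x, y, e, hx, hy, hm0⟩ := half hV h₀ hn₀ f1
  obtain ⟨x', y', e', hx', hy', hm1⟩ := half hV h₁ hn₁ f0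
  rw [hV.2.1 a₁ a₀] at e' hm1
  rw [hcm a₁ a₀] at hm1
  have haa := idem h₀
  have hbb := idem h₁
  -- general step: `(1/2 - 4 l) (m - l a) = 0`
  have step : ∀ {μ : V ≃ₗ[ℝ] V} {a b x y : V} {l : ℝ}, IsMajoranaPair mul B μ a → B a a = 1 →
      l = B a b → mul b b = b → b = l • a + x + y → mul a x = 0 → mul a y = (1 / 4 : ℝ) • y →
      mul b (mul a b) = (3 / 4 * l) • b + (1 / 4 : ℝ) • mul a b →
      (1 / 2 - 4 * l) • (mul a b - l • a) = 0 ∧
        mul x y = (4 * (1 - 3 * l)) • ((3 / 4 : ℝ) • mul a b - (3 / 4 * l) • a) := by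
    intro μ a b x y l h hn hl hbb e hx hy hm1
    have haa := idem h
    have hm : mul a b = l • a + (1 / 4 : ℝ) • y := by
      conv_lhs => rw [e]
      simp only [map_add, map_smul, haa, hx, hy, add_zero]
    have hyv : y = (4 : ℝ) • mul a b - (4 * l) • a := by rw [hm]; module
    have hxv : x = b + (3 * l) • a - (4 : ℝ) • mul a b := by
      linear_combination (norm := module) -e + (4 : ℝ) • hm
    have ham : mul a (mul a b) = (3 / 4 * l) • a + (1 / 4 : ℝ) • mul a b := by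
      rw [hm]; simp only [map_add, map_smul, haa, hy]; module
    have u1 : mul b x = (1 - 3 * l) • (b - mul a b) := by
      conv_lhs => rw [hxv]
      simp only [map_add, map_sub, map_smul, hbb, hm1, hcm b a]
      module
    have u2 : mul b y = (3 * l) • b + (1 - 4 * l) • mul a b := by
      conv_lhs => rw [hyv]
      simp only [map_sub, map_smul, hm1, hcm b a]
      module
    have v1 : mul b x = mul x x + mul x y := by
      conv_lhs => rw [e]
      simp only [map_add, map_smul, LinearMap.add_apply, LinearMap.smul_apply, hx, hcm y x]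
      module
    have v2 : mul b y = (l / 4) • y + mul x y + mul y y := by
      conv_lhs => rw [e]
      simp only [map_add, map_smul, LinearMap.add_apply, LinearMap.smul_apply, hy]
      module
    obtain ⟨c, hc, -⟩ := fus44 h hy hy
    have w1 := congrArg (mul a) (v1.symm.trans u1)
    have w2 := congrArg (mul a) (v2.symm.trans u2)
    simp only [map_add, map_sub, map_smul, fus00 h hx hx, fus04 h hx hy, hc, hy, ham] at w1 w2
    have hrel : (1 / 2 - 4 * l) • mul a b = (l / 2 - 4 * l ^ 2 + (l - l ^ 2 - c)) • a := by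
      rw [hyv] at w2
      rw [hyv] at w1
      linear_combination (norm := module) w2 - w1
    have hB := congrArg (B a) hrel
    rw [map_smul, map_smul, hV.2.2.2.1, haa, ← hl, hn, smul_eq_mul, smul_eq_mul] at hB
    have hc' : l - l ^ 2 - c = 0 := by linarith
    rw [hc'] at hrel
    constructor
    · linear_combination (norm := module) hrel
    · linear_combination (norm := module) (4 : ℝ) • w1
  obtain ⟨l, hl⟩ : ∃ l, l = B a₀ a₁ := ⟨_, rfl⟩
  rw [← hl] at e e' hm0 hm1 ⊢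
  obtain ⟨s0, hxy⟩ := step h₀ hn₀ hl hbb e hx hy hm1
  obtain ⟨s1, -⟩ := step h₁ hn₁ (hl.trans (hV.2.1 _ _)) haa e' hx' hy' (by rw [hcm a₁ a₀]; exact hm0)
  rw [hcm a₁ a₀] at s1
  by_cases h8 : 1 / 2 - 4 * l = 0
  · right
    have hl8 : l = 1 / 8 := by linarith
    subst hl8
    have hm : mul a₀ a₁ = (1 / 8 : ℝ) • a₀ + (1 / 4 : ℝ) • y := by
      conv_lhs => rw [e]
      simp only [map_add, map_smul, haa, hx, hy, add_zero]
    have hyv : y = (4 : ℝ) • mul a₀ a₁ - (1 / 2 : ℝ) • a₀ := by rw [hm]; module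
    have hxv : x = a₁ + (3 / 8 : ℝ) • a₀ - (4 : ℝ) • mul a₀ a₁ := by
      linear_combination (norm := module) -e + (4 : ℝ) • hm
    rw [hxv, hyv] at hxy
    have k0 : mul (mul a₀ a₁) a₀ = mul a₀ (mul a₀ a₁) := hcm _ _
    have k1 : mul (mul a₀ a₁) a₁ = mul a₁ (mul a₀ a₁) := hcm _ _
    refine ⟨rfl, ?_, ?_, ?_⟩
    · simp only [map_add, map_sub, map_smul, LinearMap.add_apply, LinearMap.sub_apply,
        LinearMap.smul_apply, haa, hbb, hcm a₁ a₀, k0, k1, hm0, hm1] at hxy ⊢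
      linear_combination (norm := module) (-4 : ℝ) • hxy
    · simp only [map_add, map_sub, map_smul, haa, hm0]
      module
    · simp only [map_add, map_sub, map_smul, hbb, hcm a₁ a₀, hm1]
      module
  · left
    have t0 := sub_eq_zero.1 ((smul_eq_zero.1 s0).resolve_left h8)
    have t1 := sub_eq_zero.1 ((smul_eq_zero.1 s1).resolve_left h8)
    have : l • (a₀ - a₁) = 0 := by rw [smul_sub, ← t0, ← t1, sub_self]
    have hl0 : l = 0 := (smul_eq_zero.1 this).resolve_right (sub_ne_zero.2 hne)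
    refine ⟨hl0, ?_⟩
    rw [t0, hl0, zero_smul]

end Cfsg.Agent.S5545
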