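import Cfsg.Statements.S5546
import Cfsg.Agent.Lib.Leech.Spor

set_option autoImplicit false
open Cfsg

namespace Cfsg.Agent.S5546

open CfsgLib.Leech Spor MulAction

/-- The vectors orthogonal to `u`. -/
def W : Submodule ℤ leechLattice := LinearMap.ker (beta leechU)

theorem finrank_W : Module.finrank ℤ W = 23 := by
  have := Module.Finite.of_basis leechBasis
  have h1 := (LinearMap.ker (beta leechU)).finrank_quotient_add_finrank
  rw [(beta leechU).quotKerEquivRange.finrank_eq] at h1
  have h2 : Module.finrank ℤ (LinearMap.range (beta leechU)) ≤ 1 :=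
    (Submodule.finrank_le _).trans (by simp)
  have h3 : Module.finrank ℤ (LinearMap.range (beta leechU)) ≠ 0 := by
    rw [Ne, Submodule.finrank_eq_zero, LinearMap.range_eq_bot]
    intro h
    have := eight_mul_beta_self leechU
    rw [h, sqNorm_U] at this
    simp at this
  rw [finrank_leech] at h1
  unfold W
  omega

/-- The action on `W`. -/
def rho : stabilizer Co0 leechU →* Module.End ℤ W where
  toFun g := ((DistribSMul.toAddMonoidHom leechLattice g.1).toIntLinearMap).restrict fun x hx => by
    have := beta_smul g.1 leechU x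
    rw [g.2] at this
    exact this.trans hx
  map_one' := by ext x; simp
  map_mul' g h := LinearMap.ext fun x => Subtype.ext (mul_smul g.1 h.1 x.1)

/-- The second Conway group (the stabilizer in the Leech lattice automorphism group of the short vector fixed in the definitions) is isomorphic to a subgroup of the general linear group of degree 23 over the field with 13 elements: there is an injective homomorphism into it. -/
theorem result : ∃ f : ↥Cfsg.Spor.Co2 →* GL (Fin 23) (ZMod 13), Function.Injective f := by
  have := Module.Finite.of_basis leechBasis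
  have := Module.Free.of_basis leechBasis
  let b : Module.Basis (Fin 23) ℤ W := Module.finBasisOfFinrankEq ℤ W finrank_W
  let f : stabilizer Co0 leechU →* Matrix (Fin 23) (Fin 23) (ZMod 13) :=
    ((Int.castRingHom (ZMod 13)).mapMatrix.toMonoidHom.comp
      (LinearMap.toMatrixAlgEquiv b).toMulEquiv.toMonoidHom).comp rho
  refine ⟨f.toHomUnits.comp co2Equiv.toMonoidHom, Function.Injective.comp (g := f.toHomUnits) ?_
    co2Equiv.injective⟩
  rw [← MonoidHom.ker_eq_bot_iff]
  refine (simple_Co2.eq_bot_or_eq_top_of_normal _ inferInstance).resolve_right fun h => ?_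
  obtain ⟨g, h1, h2⟩ := exists_fix_U (y := -leechU') sqNorm_U'
    (by rw [AddSubgroup.coe_neg, sqNorm_neg, sqNorm_U'])
    (by rw [AddSubgroup.coe_neg, dotInt_neg_right, dot_U_U']; rfl)
  have h3 : f ⟨g, h1⟩ = 1 := congrArg Units.val (show (⟨g, h1⟩ : stabilizer Co0 leechU) ∈
    f.toHomUnits.ker from h ▸ Subgroup.mem_top _)
  have h4 : ∀ i j, (13 : ℤ) ∣ LinearMap.toMatrix b b (rho ⟨g, h1⟩ - 1) i j := by
    intro i j
    refine (ZMod.intCast_zmod_eq_zero_iff_dvd _ 13).1 ?_
    have := congrFun (congrFun h3 i) j
    rw [map_sub, LinearMap.toMatrix_one, Matrix.sub_apply, Int.cast_sub, sub_eq_zero]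
    refine Eq.trans this ?_
    rw [Matrix.one_apply, Matrix.one_apply]
    split_ifs <;> simp
  choose A hA using h4
  have h5 : rho ⟨g, h1⟩ - 1 = (13 : ℤ) • Matrix.toLin b b (Matrix.of A) := by
    apply (LinearMap.toMatrix b b).injective
    ext i j
    rw [hA, map_smul, LinearMap.toMatrix_toLin]; rfl
  have h6 : leechU' ∈ W := by
    have := eight_mul_beta leechU leechU'
    rw [dot_U_U'] at this
    exact (by omega : beta leechU leechU' = 0)
  have h7 := congrArg (fun φ : Module.End ℤ W => (φ ⟨_, h6⟩).1.1 none) h5
  change (g • leechU').1 none - leechU'.1 none = 13 * _ at h7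
  rw [h2] at h7
  change -4 - 4 = _ at h7
  omega

end Cfsg.Agent.S5546
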