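import Mathlib
import Cfsg.Statements.S5548
import Cfsg.Agent.Lib.M24E.Module

set_option autoImplicit false
open Cfsg

namespace Cfsg.Agent.S5548

open CfsgLib.M24E CfsgLib.Golay
open scoped Pointwise


/-- For the automorphism group of the length-24 binary Golay code of the definitions (the Mathieu group of degree 24) acting on binary words of length 24 by permuting coordinates, the only invariant subspaces of the space of all words are: zero, the span of the all-ones word, the code itself, the even-weight words, and the whole space. (So the permutation module has a unique composition series.) -/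
theorem result (W : Submodule (ZMod 2) (Cfsg.GolayPt → ZMod 2)) (hW : ∀ σ ∈ Cfsg.M24, ∀ w ∈ W, (fun p => w (σ.symm p)) ∈ W) : W = ⊥ ∨ W = Submodule.span (ZMod 2) {fun _ => (1 : ZMod 2)} ∨ W = Cfsg.golayCode ∨ (W : Set (Cfsg.GolayPt → ZMod 2)) = {w | ∑ p, w p = 0} ∨ W = ⊤ := by
  by_cases hle : W ≤ Cfsg.golayCode
  · by_cases hC : Cfsg.golayCode ≤ W
    · exact Or.inr (Or.inr (Or.inl (le_antisymm hle hC)))
    by_cases h1 : (fun _ => (1 : ZMod 2)) ∈ W
    · refine Or.inr (Or.inl (le_antisymm (fun w hw => ?_) (by rw [Submodule.span_le]; simpa using h1)))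
      rcases le_span_or_golay_le hW w hw (hle hw) with rfl | rfl | h
      · exact Submodule.zero_mem _
      · exact Submodule.subset_span rfl
      · exact absurd h hC
    · refine Or.inl (eq_bot_iff.2 fun w hw => ?_)
      rcases le_span_or_golay_le hW w hw (hle hw) with rfl | rfl | h
      · exact Submodule.zero_mem _
      · exact absurd hw h1
      · exact absurd h hC
  · obtain ⟨w, hw, hw'⟩ := SetLike.not_le_iff_exists.1 hle
    obtain ⟨t, ht, h⟩ := exists_pair hW (s := Cfsg.support₂ w) (by rwa [support₂_mem_codeSets])
      (by rwa [ind_support₂])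
    have he := even_le_of_pair hW ht h
    by_cases h2 : ∀ v ∈ W, ∑ p, v p = 0
    · exact Or.inr (Or.inr (Or.inr (Or.inl (Set.ext fun v => ⟨h2 v, he v⟩))))
    · push Not at h2
      obtain ⟨v, hv, h3⟩ := h2
      refine Or.inr (Or.inr (Or.inr (Or.inr (eq_top_iff.2 fun u _ => ?_))))
      by_cases h4 : ∑ p, u p = 0
      · exact he u h4
      · have h5 : u - v ∈ W := he _ (by
          simp only [Pi.sub_apply, Finset.sum_sub_distrib]
          rw [(zmod2_eq_zero_or_one _).resolve_left h3, (zmod2_eq_zero_or_one _).resolve_left h4, sub_self])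
        simpa using W.add_mem h5 hv

end Cfsg.Agent.S5548
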