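import Mathlib
import Cfsg.Statements.S5549
import Cfsg.Agent.Lib.M24E.Module

set_option autoImplicit false
open Cfsg

namespace Cfsg.Agent.S5549

open CfsgLib.M24E CfsgLib.Golay
open scoped Pointwise

theorem star {ι α : Type} [DecidableEq α] (P : ι → Finset α) (h2 : ∀ i, (P i).card = 2)
    (h : ∀ i j, i ≠ j → (P i ∩ P j).card = 1) (i1 i2 i3 i4 : ι) (h12 : i1 ≠ i2) (h13 : i1 ≠ i3)
    (h14 : i1 ≠ i4) (h23 : i2 ≠ i3) (h24 : i2 ≠ i4) (h34 : i3 ≠ i4) : ∃ s, ∀ i, s ∈ P i := by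
  obtain ⟨s, hs⟩ := Finset.card_eq_one.1 (h i1 i2 h12)
  have s1 : s ∈ P i1 := (Finset.mem_inter.1 (hs ▸ Finset.mem_singleton_self s)).1
  have s2 : s ∈ P i2 := (Finset.mem_inter.1 (hs ▸ Finset.mem_singleton_self s)).2
  have two : ∀ i j, i ≠ j → ∀ a b, a ≠ b → a ∈ P i → a ∈ P j → b ∈ P i → b ∈ P j → False := by
    intro i j hij a b hab a1 a2 b1 b2
    have := Finset.card_le_card (show ({a, b} : Finset α) ⊆ P i ∩ P j by
      intro x hx
      rcases Finset.mem_insert.1 hx with rfl | hx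
      · exact Finset.mem_inter.2 ⟨a1, a2⟩
      · rw [Finset.mem_singleton.1 hx]; exact Finset.mem_inter.2 ⟨b1, b2⟩)
    rw [Finset.card_pair hab, h i j hij] at this; omega
  have ex : ∀ i j, i ≠ j → ∃ a, a ∈ P i ∧ a ∈ P j := fun i j hij => by
    obtain ⟨a, ha⟩ := Finset.card_eq_one.1 (h i j hij)
    exact ⟨a, Finset.mem_inter.1 (ha ▸ Finset.mem_singleton_self a)⟩
  have three : ∀ i a b c, a ∈ P i → b ∈ P i → c ∈ P i → a ≠ b → c = a ∨ c = b := by
    intro i a b c ha hb hc hab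
    have : ({a, b} : Finset α) = P i := Finset.eq_of_subset_of_card_le (by
      intro x hx
      rcases Finset.mem_insert.1 hx with rfl | hx
      · exact ha
      · rw [Finset.mem_singleton.1 hx]; exact hb) (by rw [h2, Finset.card_pair hab])
    rw [← this] at hc
    simpa using hc
  refine ⟨s, fun j => ?_⟩
  by_contra hj
  have j1 : i1 ≠ j := fun e => hj (e ▸ s1)
  have j2 : i2 ≠ j := fun e => hj (e ▸ s2)
  obtain ⟨u, u1, u2⟩ := ex i1 j j1
  obtain ⟨v, v1, v2⟩ := ex i2 j j2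
  have su : s ≠ u := fun e => hj (e ▸ u2)
  have sv : s ≠ v := fun e => hj (e ▸ v2)
  have uv : u ≠ v := fun e => two i1 i2 h12 s u su s1 s2 u1 (e ▸ v1)
  obtain ⟨k, k1, k2, kj⟩ : ∃ k, i1 ≠ k ∧ i2 ≠ k ∧ k ≠ j := by
    by_cases e : i3 = j
    · exact ⟨i4, h14, h24, fun e' => h34 (e.trans e'.symm)⟩
    · exact ⟨i3, h13, h23, e⟩
  by_cases hk : s ∈ P k
  · obtain ⟨w, w1, w2⟩ := ex k j kj
    rcases three j u v w u2 v2 w2 uv with rfl | rfl
    · exact two i1 k k1 s w su s1 hk u1 w1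
    · exact two i2 k k2 s w sv s2 hk v1 w1
  · obtain ⟨a, a1, a2⟩ := ex i1 k k1
    obtain ⟨b, b1, b2⟩ := ex i2 k k2
    have ea : a = u := (three i1 s u a s1 u1 a1 su).resolve_left fun e => hk (e ▸ a2)
    have eb : b = v := (three i2 s v b s2 v1 b1 sv).resolve_left fun e => hk (e ▸ b2)
    exact two k j kj u v uv (ea ▸ a2) u2 (eb ▸ b2) v2

def fp (t o : Finset Cfsg.GolayPt) : ℕ := f0 t o % 2

theorem inv2_fp : Inv2 fp := fun g a b => by rw [fp, inv2_f0 g a b, fp]

theorem lv (m r n : ℕ) (hm : m < 2 ^ 24) (hpc : pc m ≤ 5) (h : cntLT 4096 (fun k => frc (cw k) fun x =>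
    and (Nat.beq (pc x) 8) (Nat.beq (Nat.mod (pc (Nat.land m x)) 2) r)) = n) {t : Finset Cfsg.GolayPt}
    (ht : t.card = pc m) : {o | o ∈ Cfsg.octads ∧ fp t o = r}.ncard = n := by
  obtain ⟨g, hg, rfl⟩ := finset_trans (s := ofMask m) (t := t) (by rw [ht, card_ofMask hm])
    (by rw [card_ofMask hm]; exact hpc)
  rw [ncard_level inv_octads inv2_fp hg, ← h]
  exact level_octads (fp (ofMask m)) (fun x => Nat.mod (pc (Nat.land m x)) 2)
    (fun x _ => by rw [fp, f0_mask hm]; rfl) r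

set_option maxRecDepth 100000 in
theorem lv21 {t : Finset Cfsg.GolayPt} (ht : t.card = 2) : {o | o ∈ Cfsg.octads ∧ fp t o = 1}.ncard = 352 :=
  lv 3 1 352 (by norm_num) (by decide +kernel) (by decide +kernel) (ht.trans (by decide +kernel))

set_option maxRecDepth 100000 in
theorem lv20 {t : Finset Cfsg.GolayPt} (ht : t.card = 2) : {o | o ∈ Cfsg.octads ∧ fp t o = 0}.ncard = 407 :=
  lv 3 0 407 (by norm_num) (by decide +kernel) (by decide +kernel) (ht.trans (by decide +kernel))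

set_option maxRecDepth 100000 in
theorem lv41 {t : Finset Cfsg.GolayPt} (ht : t.card = 4) : {o | o ∈ Cfsg.octads ∧ fp t o = 1}.ncard = 384 :=
  lv 15 1 384 (by norm_num) (by decide +kernel) (by decide +kernel) (ht.trans (by decide +kernel))

theorem dot_ind (s t : Finset Cfsg.GolayPt) : ∑ p, ind s p * ind t p = ((s ∩ t).card : ZMod 2) := by
  rw [dot_eq_card_inter, support₂_ind, support₂_ind]

theorem dot_pair (w : Cfsg.GolayPt → ZMod 2) {a b : Cfsg.GolayPt} (h : a ≠ b) :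
    ∑ p, w p * ind {a, b} p = w a + w b := by
  simp only [ind, mul_ite, mul_one, mul_zero, Finset.sum_ite_mem, Finset.univ_inter]
  exact Finset.sum_pair h

theorem one_mem_code : (fun _ => (1 : ZMod 2)) ∈ Cfsg.golayCode := by
  rw [← ind_univ]; exact mem_codeSets_iff.1 univ_mem_codeSets

theorem exists_tau (x : ↥Cfsg.golayCode ≃ₗ[ZMod 2] ↥Cfsg.golayCode)
    (h1 : x ⟨_, one_mem_code⟩ = ⟨_, one_mem_code⟩)
    (horb : ∀ c : ↥Cfsg.golayCode, ∃ σ ∈ Cfsg.M24, (x c).1 = (fun p => c.1 (σ.symm p)) ∨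
      (x c).1 = (fun p => c.1 (σ.symm p)) + fun _ => (1 : ZMod 2)) {a b : Cfsg.GolayPt} (hab : a ≠ b) :
    ∃ t : Finset Cfsg.GolayPt, t.card = 2 ∧
      ∀ c : ↥Cfsg.golayCode, (x c).1 a + (x c).1 b = ∑ p, c.1 p * ind t p := by
  obtain ⟨f, hf⟩ := LinearMap.exists_extend (p := Cfsg.golayCode)
    (((LinearMap.proj a : (Cfsg.GolayPt → ZMod 2) →ₗ[ZMod 2] ZMod 2) +
      (LinearMap.proj b : (Cfsg.GolayPt → ZMod 2) →ₗ[ZMod 2] ZMod 2)) ∘ₗ
      Cfsg.golayCode.subtype ∘ₗ x.toLinearMap)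
  obtain ⟨t, h4, ht⟩ := exists_small (Cfsg.support₂ fun p => f (Pi.single p 1))
  have key : ∀ c : ↥Cfsg.golayCode, (x c).1 a + (x c).1 b = ∑ p, c.1 p * ind t p := by
    intro c
    have e1 : f c.1 = (x c).1 a + (x c).1 b := LinearMap.congr_fun hf c
    have e2 := dot_eq_zero c.2 (mem_codeSets_iff.1 ht)
    rw [ind_symmDiff, ind_support₂] at e2
    simp only [Pi.add_apply, mul_add, Finset.sum_add_distrib] at e2
    rw [← e1, LinearMap.pi_apply_eq_sum_univ, ← CharTwo.add_eq_zero.1 e2]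
    refine Finset.sum_congr rfl fun p _ => ?_
    rw [smul_eq_mul]
    congr 2
    funext q
    simp [Pi.single_apply, eq_comm]
  refine ⟨t, ?_, key⟩
  have hev : t.card % 2 = 0 := by
    have := key ⟨_, one_mem_code⟩
    rw [h1] at this
    simp only [one_mul, sum_ind] at this
    rw [CharTwo.add_self_eq_zero] at this
    exact Nat.even_iff.1 (ZMod.natCast_eq_zero_iff_even.1 this.symm)
  have hπ : ∀ o : Finset Cfsg.GolayPt, ∃ o' : Finset Cfsg.GolayPt, ∀ ho : o ∈ Cfsg.octads, o' ∈ Cfsg.octads ∧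
      ((x ⟨ind o, mem_codeSets_iff.1 ho.1⟩).1 = ind o' ∨
        (x ⟨ind o, mem_codeSets_iff.1 ho.1⟩).1 = ind o' + fun _ => (1 : ZMod 2)) := by
    intro o
    by_cases ho : o ∈ Cfsg.octads
    · obtain ⟨σ, hσ, h⟩ := horb ⟨ind o, mem_codeSets_iff.1 ho.1⟩
      simp only [ind_smul] at h
      exact ⟨σ • o, fun _ => ⟨smul_mem_octads hσ ho, h⟩⟩
    · exact ⟨o, fun h => absurd h ho⟩
  choose π hπ using hπ
  have le : ∀ r, {o | o ∈ Cfsg.octads ∧ fp t o = r}.ncard ≤ {o | o ∈ Cfsg.octads ∧ fp {a, b} o = r}.ncard := by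
    intro r
    refine Set.ncard_le_ncard_of_injOn π ?_ ?_
    · rintro o ⟨ho, rfl⟩
      refine ⟨(hπ o ho).1, ?_⟩
      have e := key ⟨ind o, mem_codeSets_iff.1 ho.1⟩
      have e2 : ind (π o) a + ind (π o) b = ∑ p, ind o p * ind t p := by
        rw [← e]
        rcases (hπ o ho).2 with h | h <;> rw [h]
        simp only [Pi.add_apply]
        rw [add_add_add_comm, CharTwo.add_self_eq_zero, add_zero]
      rw [← dot_pair _ hab, dot_ind, dot_ind, ZMod.natCast_eq_natCast_iff'] at e2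
      rw [fp, fp, f0, f0, Finset.inter_comm, e2, Finset.inter_comm]
    · rintro o ⟨ho, -⟩ o' ⟨ho', -⟩ e
      have contra : ∀ {o o' : Finset Cfsg.GolayPt} (ho : o ∈ Cfsg.octads) (ho' : o' ∈ Cfsg.octads),
          (x ⟨ind o, mem_codeSets_iff.1 ho.1⟩).1 = (x ⟨ind o', mem_codeSets_iff.1 ho'.1⟩).1 +
            (fun _ => (1 : ZMod 2)) → False := by
        intro o o' ho ho' h
        have h2 : x ⟨ind o, mem_codeSets_iff.1 ho.1⟩ =
            x (⟨ind o', mem_codeSets_iff.1 ho'.1⟩ + ⟨_, one_mem_code⟩) := by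
          rw [map_add, h1]; exact Subtype.ext h
        have h3 : ind o = ind o' + fun _ => (1 : ZMod 2) := congrArg Subtype.val (x.injective h2)
        rw [← ind_univ, ← ind_symmDiff] at h3
        have h5 := congrArg Cfsg.support₂ h3
        rw [support₂_ind, support₂_ind] at h5
        have h6 := card_symmDiff_add o' Finset.univ
        rw [← h5, Finset.inter_univ, ho.2, ho'.2, Finset.card_univ, card_golayPt] at h6
        omega
      have same : (x ⟨ind o, mem_codeSets_iff.1 ho.1⟩).1 = (x ⟨ind o', mem_codeSets_iff.1 ho'.1⟩).1 →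
          o = o' := fun h => by
        have h3 : ind o = ind o' := congrArg Subtype.val (x.injective (Subtype.ext h))
        rw [← support₂_ind o, h3, support₂_ind]
      rcases (hπ o ho).2 with h | h <;> rcases (hπ o' ho').2 with h' | h'
      · exact same (by rw [h, h', e])
      · exact (contra ho' ho (by rw [h, h', e])).elim
      · exact (contra ho ho' (by rw [h, h', e])).elim
      · exact same (by rw [h, h', e])
  have l0 := le 0
  have l1 := le 1
  rw [lv20 (Finset.card_pair hab)] at l0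
  rw [lv21 (Finset.card_pair hab)] at l1
  by_contra hne
  by_cases h0 : t.card = 0
  · rw [Finset.card_eq_zero.1 h0] at l0
    have : {o | o ∈ Cfsg.octads ∧ fp ∅ o = 0} = Cfsg.octads := by ext o; simp [fp, f0]
    rw [this, ncard_octads] at l0; omega
  · rw [lv41 (by omega)] at l1; omega


/-- Let X be a group of linear automorphisms of the length-24 binary Golay code of the definitions that fix the all-ones word, containing the coordinate-permutation action of every element of the code's automorphism group (the Mathieu group of degree 24), and such that every element of X sends each codeword into its orbit under that Mathieu group up to adding the all-ones word (X has the same orbits as the Mathieu group on the code modulo the all-ones word). Then every element of X agrees, modulo the all-ones word, with the action of a single element of the Mathieu group: X induces exactly the Mathieu group on the code modulo the all-ones word. -/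
theorem result (X : Subgroup (↥Cfsg.golayCode ≃ₗ[ZMod 2] ↥Cfsg.golayCode)) (h1 : ∀ x ∈ X, ∀ e : ↥Cfsg.golayCode, (e : (Cfsg.GolayPt → ZMod 2)) = (fun _ => (1 : ZMod 2)) → x e = e) (hM : ∀ σ ∈ Cfsg.M24, ∃ x ∈ X, ∀ c : ↥Cfsg.golayCode, ((x c : ↥Cfsg.golayCode) : (Cfsg.GolayPt → ZMod 2)) = fun p => (c : (Cfsg.GolayPt → ZMod 2)) (σ.symm p)) (horb : ∀ x ∈ X, ∀ c : ↥Cfsg.golayCode, ∃ σ ∈ Cfsg.M24, ((x c : ↥Cfsg.golayCode) : (Cfsg.GolayPt → ZMod 2)) = (fun p => (c : (Cfsg.GolayPt → ZMod 2)) (σ.symm p)) ∨ ((x c : ↥Cfsg.golayCode) : (Cfsg.GolayPt → ZMod 2)) = (fun p => (c : (Cfsg.GolayPt → ZMod 2)) (σ.symm p)) + fun _ => (1 : ZMod 2)) (x : ↥Cfsg.golayCode ≃ₗ[ZMod 2] ↥Cfsg.golayCode) (hx : x ∈ X) : ∃ σ ∈ Cfsg.M24, ∀ c : ↥Cfsg.golayCode, ((x c : ↥Cfsg.golayCode) : (Cfsg.GolayPt → ZMod 2)) = (fun p => (c : (Cfsg.GolayPt → ZMod 2)) (σ.symm p)) ∨ ((x c : ↥Cfsg.golayCode) : (Cfsg.GolayPt → ZMod 2)) = (fun p => (c : (Cfsg.GolayPt → ZMod 2)) (σ.symm p)) + fun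 _ => (1 : ZMod 2) := by
  have h1' := h1 x hx ⟨_, one_mem_code⟩ rfl
  have hτ : ∀ b : {b : Cfsg.GolayPt // none ≠ b}, ∃ t : Finset Cfsg.GolayPt, t.card = 2 ∧
      ∀ c : ↥Cfsg.golayCode, (x c).1 none + (x c).1 b = ∑ p, c.1 p * ind t p :=
    fun b => exists_tau x h1' (horb x hx) b.2
  choose P hP2 hP using hτ
  have hint : ∀ i j, i ≠ j → (P i ∩ P j).card = 1 := by
    intro i j hij
    obtain ⟨t, t2, ht⟩ := exists_tau x h1' (horb x hx) (fun h => hij (Subtype.ext h))
    have h3 : symmDiff (symmDiff (P i) (P j)) t ∈ codeSets := by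
      rw [mem_codeSets_iff]
      refine mem_golayCode_of_orth fun v hv => ?_
      simp only [ind_symmDiff, Pi.add_apply, mul_add, Finset.sum_add_distrib]
      rw [← hP i ⟨v, hv⟩, ← hP j ⟨v, hv⟩, ← ht ⟨v, hv⟩]
      have : ∀ a b c : ZMod 2, a + b + (a + c) + (b + c) = 0 := by decide
      exact this _ _ _
    have a1 := card_symmDiff_add (P i) (P j)
    have a2 := card_symmDiff_add (symmDiff (P i) (P j)) t
    rw [hP2, hP2] at a1
    have h4 := symmDiff_eq_bot.1 (eq_empty_of_card_lt h3 (by omega))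
    rw [h4, t2] at a1
    omega
  obtain ⟨s, hs⟩ := star P hP2 hint ⟨some 0, by decide⟩ ⟨some 1, by decide⟩ ⟨some 2, by decide⟩
    ⟨some 3, by decide⟩ (by decide) (by decide) (by decide) (by decide) (by decide) (by decide)
  have hρ : ∀ b : Cfsg.GolayPt, ∃ r, (b = none → r = s) ∧ ∀ h : none ≠ b, s ≠ r ∧ P ⟨b, h⟩ = {s, r} := by
    intro b
    by_cases h : none = b
    · exact ⟨s, fun _ => rfl, fun h' => absurd h h'⟩
    · obtain ⟨u, v, huv, e⟩ := Finset.card_eq_two.1 (hP2 ⟨b, h⟩)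
      have h2 := hs ⟨b, h⟩
      rw [e, Finset.mem_insert, Finset.mem_singleton] at h2
      rcases h2 with rfl | rfl
      · exact ⟨v, fun h' => absurd h'.symm h, fun _ => ⟨huv, e⟩⟩
      · exact ⟨u, fun h' => absurd h'.symm h, fun _ => ⟨huv.symm, e.trans (Finset.pair_comm _ _)⟩⟩
  choose ρ ρ0 ρ1 using hρ
  have hinj : Function.Injective ρ := by
    intro b b' e
    by_contra hne
    by_cases h : none = b <;> by_cases h' : none = b'
    · exact hne (h.symm.trans h')
    · exact (ρ1 b' h').1 (by rw [← e, ρ0 b h.symm])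
    · exact (ρ1 b h).1 (by rw [e, ρ0 b' h'.symm])
    · have := hint ⟨b, h⟩ ⟨b', h'⟩ fun h2 => hne (congrArg Subtype.val h2)
      rw [(ρ1 b h).2, (ρ1 b' h').2, e, Finset.inter_self, Finset.card_pair (ρ1 b' h').1] at this
      omega
  have key : ∀ c : ↥Cfsg.golayCode, (x c).1 = (fun p => c.1 (ρ p)) ∨
      (x c).1 = (fun p => c.1 (ρ p)) + fun _ => (1 : ZMod 2) := by
    intro c
    have e : ∀ p, (x c).1 p = c.1 (ρ p) + ((x c).1 none + c.1 s) := by
      intro p
      by_cases h : none = p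
      · subst h
        rw [ρ0 none rfl, add_left_comm, CharTwo.add_self_eq_zero, add_zero]
      · have h2 := hP ⟨p, h⟩ c
        rw [(ρ1 p h).2, dot_pair _ (ρ1 p h).1] at h2
        rw [add_left_comm, add_comm (c.1 (ρ p)), ← h2, ← add_assoc, CharTwo.add_self_eq_zero, zero_add]
    rcases zmod2_eq_zero_or_one ((x c).1 none + c.1 s) with h | h
    · left; funext p; rw [e p, h, add_zero]
    · right; funext p; rw [e p, h]; rfl
  refine ⟨(Equiv.ofBijective ρ hinj.bijective_of_finite).symm, mem_M24_of_forall fun c hc => ?_, key⟩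
  rw [mem_codeSets_iff, ← ind_smul]
  have hc' := mem_codeSets_iff.1 hc
  show (fun p => ind c (ρ p)) ∈ Cfsg.golayCode
  rcases key ⟨_, hc'⟩ with h | h
  · rw [← h]; exact (x _).2
  · have := Cfsg.golayCode.sub_mem (x ⟨_, hc'⟩).2 one_mem_code
    rwa [h, add_sub_cancel_right] at this

end Cfsg.Agent.S5549
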