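import Mathlib
import Cfsg.Statements.S5550
import Cfsg.Agent.Lib.M24E.Module

set_option autoImplicit false
open Cfsg

namespace Cfsg.Agent.S5550

open CfsgLib.M24E CfsgLib.Golay
open scoped Pointwise

theorem base (H : Subgroup P24) {gens : List ℕ} (hg : ∀ q ∈ gens, isM q = true ∧ pm q ∈ H)
    (h : allLT 64 (fun a => allLT 64 fun b => frc (Nat.mul (Nat.add (Nat.mul a 64) b) 4096) fun m =>
      or (Nat.beq m 0) (anyL gens fun q => not (frc (Nat.xor (img (ap q) m) m) isCode))) = true)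
    {s : Finset Cfsg.GolayPt} (hs : s ∉ codeSets) : ∃ g ∈ Cfsg.M24, g ∈ H ∧ symmDiff (g • s) s ∉ codeSets := by
  obtain ⟨m, hm, rfl⟩ := exists_mask s
  have hk : m % 4096 < 4096 := Nat.mod_lt _ (by norm_num)
  set d := m ^^^ cw (m % 4096) with hd
  have hdlt : d < 2 ^ 24 := Nat.xor_lt_two_pow hm (cw_lt hk)
  have hd0 : d % 4096 = 0 := by
    rw [hd, show 4096 = 2 ^ 12 from rfl, Nat.xor_mod_two_pow]
    have := cw_mod hk
    rw [show (2 : ℕ) ^ 12 = 4096 from rfl, this, Nat.xor_self]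
  have h1 := of_allLT (of_allLT h (k := d / 4096 / 64) (by omega)) (k := d / 4096 % 64) (by omega)
  have e : Nat.mul (Nat.add (Nat.mul (d / 4096 / 64) 64) (d / 4096 % 64)) 4096 = d := by
    show (d / 4096 / 64 * 64 + d / 4096 % 64) * 4096 = d
    omega
  have hd1 : ofMask d = symmDiff (ofMask m) (ofMask (cw (m % 4096))) := ofMask_xor _ _
  rw [frc_eq, e, Bool.or_eq_true, beq_iff', anyL_iff] at h1
  rcases h1 with h1 | ⟨q, hq, h1⟩
  · exfalso
    rw [h1, ofMask_zero] at hd1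
    exact hs (by rw [symmDiff_eq_bot.1 hd1.symm]; exact cw_mem hk)
  · obtain ⟨h2, h3⟩ := hg q hq
    refine ⟨pm q, pm_mem h2, h3, fun h4 => ?_⟩
    have h5 := symmDiff_mem_codeSets h4
      (symmDiff_mem_codeSets (smul_mem_codeSets (pm_mem h2) (cw_mem hk)) (cw_mem hk))
    rw [symmDiff_symmDiff_symmDiff_comm, ← smul_symmDiff', ← hd1, ← (pm_rp h2).ofMask_img, ← ofMask_xor,
      ofMask_mem_iff (Nat.xor_lt_two_pow ((pm_rp h2).img_lt _) hdlt)] at h5
    have h6 : isCode (Nat.xor (img (ap q) d) d) = true := h5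
    rw [frc_eq, h6] at h1
    cases h1

theorem transport {a : Finset Cfsg.GolayPt}
    (h : ∀ s ∉ codeSets, ∃ g ∈ Cfsg.M24, g ∈ MulAction.stabilizer P24 a ∧ symmDiff (g • s) s ∉ codeSets)
    {k : P24} (hk : k ∈ Cfsg.M24) {s : Finset Cfsg.GolayPt} (hs : s ∉ codeSets) :
    ∃ g ∈ Cfsg.M24, g • k • a = k • a ∧ symmDiff (g • s) s ∉ codeSets := by
  obtain ⟨g, hg, h1, h2⟩ := h (k⁻¹ • s) (by rwa [smul_mem_codeSets_iff (inv_mem hk)])
  refine ⟨k * g * k⁻¹, mul_mem (mul_mem hk hg) (inv_mem hk), ?_, fun h3 => h2 ?_⟩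
  · rw [mul_smul, inv_smul_smul, mul_smul, MulAction.mem_stabilizer_iff.1 h1]
  · rw [← smul_mem_codeSets_iff hk, smul_symmDiff', smul_inv_smul, ← mul_smul, ← mul_smul]; exact h3

theorem oct {o : Finset Cfsg.GolayPt} (ho : o ∈ Cfsg.octads) {s : Finset Cfsg.GolayPt} (hs : s ∉ codeSets) :
    ∃ g ∈ Cfsg.M24, g • o = o ∧ symmDiff (g • s) s ∉ codeSets := by
  obtain ⟨k, hk, rfl⟩ := octad_trans o ho
  exact transport (fun s hs => base _ gOct_spec (by decide +kernel) hs) hk hs

theorem dod {o : Finset Cfsg.GolayPt} (ho : o ∈ Cfsg.dodecads) {s : Finset Cfsg.GolayPt} (hs : s ∉ codeSets) :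
    ∃ g ∈ Cfsg.M24, g • o = o ∧ symmDiff (g • s) s ∉ codeSets := by
  obtain ⟨k, hk, rfl⟩ := dodecad_trans o ho
  exact transport (fun s hs => base _ gDod_spec (by decide +kernel) hs) hk hs

theorem main {c : Finset Cfsg.GolayPt} (hc : c ∈ codeSets) {s : Finset Cfsg.GolayPt} (hs : s ∉ codeSets) :
    ∃ g ∈ Cfsg.M24, g • c = c ∧ symmDiff (g • s) s ∉ codeSets := by
  rcases card_codeSet hc with h | h | h | h | h
  · obtain ⟨g, hg, -, h1⟩ := oct oct0_mem hs
    exact ⟨g, hg, by rw [Finset.card_eq_zero.1 h, Finset.smul_finset_empty], h1⟩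
  · exact oct ⟨hc, h⟩ hs
  · exact dod ⟨hc, h⟩ hs
  · obtain ⟨g, hg, h0, h1⟩ := oct (o := cᶜ)
      ⟨compl_mem_codeSets hc, by rw [Finset.card_compl, card_golayPt, h]⟩ hs
    exact ⟨g, hg, by rwa [smul_compl', compl_inj_iff] at h0, h1⟩
  · obtain ⟨g, hg, -, h1⟩ := oct oct0_mem hs
    exact ⟨g, hg, by rw [Finset.eq_univ_of_card c (h.trans card_golayPt.symm), Finset.smul_finset_univ], h1⟩


/-- Let u be a word of the length-24 binary Golay code of the definitions (possibly zero or all-ones) and w any binary word of length 24 outside the code. Then some automorphism of the code (a coordinate permutation preserving it) fixes u but moves w to a word not congruent to w modulo the code: the stabilizer of a codeword fixes no non-zero element of the quotient of the space of all words by the code. -/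
theorem result (u : (Cfsg.GolayPt → ZMod 2)) (hu : u ∈ Cfsg.golayCode) (w : (Cfsg.GolayPt → ZMod 2)) (hw : w ∉ Cfsg.golayCode) : ∃ σ ∈ Cfsg.M24, (fun p => u (σ.symm p)) = u ∧ (fun p => w (σ.symm p)) - w ∉ Cfsg.golayCode := by
  obtain ⟨g, hg, h1, h2⟩ := main (support₂_mem_codeSets.2 hu) (s := Cfsg.support₂ w)
    (by rwa [support₂_mem_codeSets])
  refine ⟨g, hg, ?_, ?_⟩
  · rw [← ind_support₂ u, ind_smul, h1]
  · rw [← ind_support₂ w, ind_smul]
    rw [mem_codeSets_iff, ind_symmDiff] at h2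
    intro h3
    apply h2
    convert h3 using 1
    funext p
    simp only [Pi.add_apply, Pi.sub_apply, CharTwo.sub_eq_add]

end Cfsg.Agent.S5550
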