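import Cfsg.Statements.S5553
import Cfsg.Agent.Lib.Leech.Index

set_option autoImplicit false
open Cfsg

namespace Cfsg.Agent.S5553

open CfsgLib.Leech

/-- The Leech lattice of the definitions has an additive subgroup A containing twice the lattice, of index 2^12 in the lattice, all of whose vectors have squared length divisible by 32: the invariant quadratic form 'squared length over 16 modulo 2' on the lattice modulo twice the lattice (a 24-dimensional space over the field with two elements) vanishes on a 12-dimensional subspace, so it is of plus type. -/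
theorem result : ∃ A : AddSubgroup (Cfsg.GolayPt → ℤ), A ≤ Cfsg.leechLattice ∧ (∀ v ∈ Cfsg.leechLattice, (2 : ℤ) • v ∈ A) ∧ (A.addSubgroupOf Cfsg.leechLattice).index = 2 ^ 12 ∧ ∀ v ∈ A, (32 : ℤ) ∣ Cfsg.sqNorm v := by
  classical
  let two : Cfsg.GolayPt → ZMod 4 := fun _ => 2
  let B : AddSubgroup (Cfsg.GolayPt → ZMod 4) := AddSubgroup.zmultiples two
  have hB : ∀ u, u ∈ B ↔ u = 0 ∨ u = two := by
    intro u
    constructor
    · rintro ⟨k, rfl⟩
      obtain ⟨j, rfl | rfl⟩ := Int.even_or_odd' k
      · left; funext i
        simp only [two, Pi.smul_apply, Pi.zero_apply, zsmul_eq_mul]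
        push_cast
        have : (2 : ZMod 4) * j * 2 = 4 * j := by ring
        rw [this, show (4 : ZMod 4) = 0 from rfl, zero_mul]
      · right; funext i
        simp only [two, Pi.smul_apply, zsmul_eq_mul]
        push_cast
        have : ((2 : ZMod 4) * j + 1) * 2 = 4 * j + 2 := by ring
        rw [this, show (4 : ZMod 4) = 0 from rfl, zero_mul, zero_add]
    · rintro (rfl | rfl)
      · exact zero_mem _
      · exact AddSubgroup.mem_zmultiples _
  have h2 : two = red4 (fun _ => 2) := rfl
  have hmem : ∀ x, red4 x ∈ B ↔ (∀ i, x i % 4 = 0) ∨ ∀ i, x i % 4 = 2 := by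
    intro x
    rw [hB, h2, ← map_zero red4, red4_eq_iff, red4_eq_iff]; rfl
  let A : AddSubgroup (Cfsg.GolayPt → ℤ) := Cfsg.leechLattice ⊓ B.comap red4
  refine ⟨A, inf_le_left, fun v hv => ⟨zsmul_mem hv _, ?_⟩, ?_, ?_⟩
  · show red4 _ ∈ B
    rw [hmem]
    refine (even_or_odd hv).imp (fun h i => ?_) (fun h i => ?_) <;>
    · have := h i
      simp only [Pi.smul_apply, smul_eq_mul]
      omega
  · have h1 : (Cfsg.leechLattice ⊓ red4.ker).relIndex A * A.relIndex Cfsg.leechLattice =
        (Cfsg.leechLattice ⊓ red4.ker).relIndex Cfsg.leechLattice := by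
      apply AddSubgroup.relIndex_mul_relIndex _ _ _ _ inf_le_left
      refine inf_le_inf_left _ fun x hx => ?_
      show red4 x ∈ B
      rw [AddMonoidHom.mem_ker.1 hx]; exact zero_mem _
    rw [AddSubgroup.inf_relIndex_left _ red4.ker, relIndex_red4_leech] at h1
    have h3 : (Cfsg.leechLattice ⊓ red4.ker).relIndex A = 2 := by
      have e : (Cfsg.leechLattice ⊓ red4.ker) ⊓ A = red4.ker ⊓ A := by
        rw [inf_comm Cfsg.leechLattice, inf_assoc, inf_eq_right.2 (inf_le_left : A ≤ _)]
      rw [← AddSubgroup.inf_relIndex_right, e, AddSubgroup.inf_relIndex_right,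
        AddSubgroup.relIndex_ker]
      have key : (A.map red4 : Set (Cfsg.GolayPt → ZMod 4)) = ({0, two} : Finset _) := by
        ext u
        simp only [AddSubgroup.coe_map, Set.mem_image, SetLike.mem_coe, Finset.coe_insert,
          Finset.coe_singleton, Set.mem_insert_iff, Set.mem_singleton_iff]
        constructor
        · rintro ⟨x, hx, rfl⟩
          exact (hB _).1 hx.2
        · rintro (rfl | rfl)
          · exact ⟨0, zero_mem _, map_zero _⟩
          · have e : twoInd Finset.univ = fun _ => 2 := by funext i; simp [twoInd]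
            refine ⟨fun _ => 2, ⟨e ▸ twoInd_mem isCW_univ, ?_⟩, rfl⟩
            exact (hB _).2 (Or.inr rfl)
      rw [← SetLike.coe_sort_coe, Nat.card_coe_set_eq, key, Set.ncard_coe_finset,
        Finset.card_pair]
      intro h
      have := congrFun h none
      revert this; decide
    rw [h3] at h1
    show A.relIndex Cfsg.leechLattice = _
    omega
  · rintro v ⟨hv, hv2⟩
    apply Int.dvd_of_emod_eq_zero
    rcases (hmem v).1 hv2 with h | h
    · exact sqNorm_mod_of_four_dvd hv h
    · unfold Cfsg.sqNorm
      rw [sum_emod_congr Finset.univ _ (fun _ => 4) 32 fun i _ => by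
        rw [sq_emod_of_two _ (h i)]; rfl]
      simp [card_pt]

end Cfsg.Agent.S5553
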