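import Cfsg.Statements.S5588
import Cfsg.Agent.Lib.Mon.YRel

set_option autoImplicit false
open Cfsg

namespace Cfsg.Agent.S5588

/-- In the group presented by the sixteen involutions of the Y₅₅₅ Coxeter diagram subject only to the Coxeter relations and the single spider relation (a b₁ c₁ a b₂ c₂ a b₃ c₃)^10 = 1, each of the further relators used in the definitions' presentation of the Bimonster (each end node equals the ninth power of the Coxeter element of a sub-diagram of type E₇) already holds. Equivalently, the Y₅₅₅ diagram with the spider relation alone presents the Bimonster. -/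
theorem result :
    ∀ r ∈ Cfsg.Spor.Bimonster.extra,
      (PresentedGroup.mk (Cfsg.Spor.coxRelators Cfsg.Spor.Bimonster.edges ∪ {r' | r' ∈ [(Cfsg.Spor.Bimonster.a * Cfsg.Spor.Bimonster.b1 * Cfsg.Spor.Bimonster.c1 * Cfsg.Spor.Bimonster.a * Cfsg.Spor.Bimonster.b2 * Cfsg.Spor.Bimonster.c2 * Cfsg.Spor.Bimonster.a * Cfsg.Spor.Bimonster.b3 * Cfsg.Spor.Bimonster.c3) ^ 10]}) r) = 1 := by
    open CfsgLib.Mon.Y Cfsg.Spor in
    intro r hr
    have h : YS 5 5 5 (yOf Bimonster.edges [(Bimonster.a * Bimonster.b1 * Bimonster.c1 * Bimonster.a * Bimonster.b2 *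
        Bimonster.c2 * Bimonster.a * Bimonster.b3 * Bimonster.c3) ^ 10] nmM) :=
      ⟨numM.yc, by omega, one_of_extra (edges := Bimonster.edges) List.mem_cons_self⟩
    have h1 := h.bimonster_extra r hr
    refine Eq.trans (DFunLike.congr_fun (FreeGroup.ext_hom _ _ fun x => ?_) r) h1
    rw [FreeGroup.lift_apply_of, numM.yOf_idx]
    rfl

end Cfsg.Agent.S5588
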