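import Mathlib
import Cfsg.Statements.S5600
import Cfsg.Agent.Lib.M24E.Tools

set_option autoImplicit false
open scoped Pointwise
open Cfsg

namespace Cfsg.Agent.S5600

open CfsgLib.M24E CfsgLib.Golay

theorem c16 : Nat.card {g : P24 // g ∈ Cfsg.M24 ∧ ∀ p ∈ ofMask 159, g p = p} = 16 :=
  (card_fix chkB_id 159).trans (by decide +kernel)

theorem c3 : Nat.card {g : P24 // g ∈ Cfsg.M24 ∧ ∀ p ∈ ofMask 63, g p = p} = 3 :=
  (card_fix chkB_id 63).trans (by decide +kernel)

theorem c2160 : Nat.card {g : P24 // g ∈ Cfsg.M24 ∧ g • ofMask 63 = ofMask 63} = 2160 :=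
  (card_of_search chkB_id (sound_okS (chkB_lt chkB_id) fun _ _ h => h)
    (t := fun φ => and (tb 63 (φ 5)) (setTo φ 63 63)) fun g _ φ hφ => by
      rw [Bool.and_eq_true, hφ.setFix_iff, and_iff_right_iff_imp]
      intro h
      rw [hφ.app (by norm_num), tb_ix, ← h, smul_mem_smul', mem_63]
      exact Or.inr rfl).trans (by decide +kernel)


/-- Although the group of the length-24 code is only 5-transitive on the 24 points, it induces the full symmetric group on every 6-element subset: every permutation of a 6-set E is the restriction of an element of the group mapping E to itself. The pointwise stabiliser of E has order 16 when E lies in an octad and order 3 otherwise; in the latter case the setwise stabiliser of E has order 2160. -/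
theorem result (E : Finset Cfsg.GolayPt) (hE : E.card = 6) : (∀ σ : Equiv.Perm ↥E, ∃ g ∈ Cfsg.M24, ∀ p : ↥E, g p = σ p) ∧ ((∃ o ∈ Cfsg.octads, E ⊆ o) → Nat.card {g : Equiv.Perm Cfsg.GolayPt // g ∈ Cfsg.M24 ∧ ∀ p ∈ E, g p = p} = 16) ∧ ((¬ ∃ o ∈ Cfsg.octads, E ⊆ o) → Nat.card {g : Equiv.Perm Cfsg.GolayPt // g ∈ Cfsg.M24 ∧ ∀ p ∈ E, g p = p} = 3 ∧ Nat.card ↥(MulAction.stabilizer Cfsg.M24 E) = 2160) := by
  refine ⟨exists_induce hE, fun h => ?_, fun h => ?_⟩ <;>
    obtain ⟨k, hk, h1 | h1⟩ := exists_map_sixset hE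
  · rw [← c16, ← h1.2]
    exact card_conj_congr' hk fun g _ => (conj_fix_iff k g _).symm
  · exact absurd h h1.1
  · exact absurd h1.1 h
  · rw [← c3, ← c2160, ← h1.2]
    refine ⟨card_conj_congr' hk fun g _ => (conj_fix_iff k g _).symm, ?_⟩
    rw [card_subgroup_eq _ (P := fun g => g • k • ofMask 63 = k • ofMask 63) fun _ => mem_stab_M24]
    exact card_conj_congr' hk fun g _ => (conj_smul_iff k g _).symm

end Cfsg.Agent.S5600
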