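import Mathlib
import Cfsg.Statements.S5601
import Cfsg.Agent.Lib.M24E.Classes

set_option autoImplicit false
open scoped Pointwise
open Cfsg

namespace Cfsg.Agent.S5601

open CfsgLib.M24E CfsgLib.Golay

theorem exists_gen (X : Subgroup ↥Cfsg.M24) (hX : Nat.card X = 3) :
    ∃ x : ↥Cfsg.M24, orderOf (x : P24) = 3 ∧ X = Subgroup.zpowers x := by
  have : Fact (Nat.Prime 3) := ⟨Nat.prime_three⟩
  have hc : IsCyclic X := isCyclic_of_prime_card hX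
  obtain ⟨x, hx⟩ := (Subgroup.isCyclic_iff_exists_zpowers_eq_top X).1 hc
  refine ⟨x, ?_, hx.symm⟩
  rw [Subgroup.orderOf_coe, ← Nat.card_zpowers, hx, hX]

theorem fix_zpowers (x : ↥Cfsg.M24) :
    {p : Cfsg.GolayPt | ∀ y ∈ Subgroup.zpowers x, ((y : ↥Cfsg.M24) : Equiv.Perm Cfsg.GolayPt) p = p}.ncard
      = (fixS x).card := by
  rw [← Set.ncard_coe_finset]
  congr 1
  ext p
  simp only [Set.mem_ofPred_eq, Finset.mem_coe, mem_fixS]
  refine ⟨fun h => h x (Subgroup.mem_zpowers x), fun h y hy => ?_⟩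
  obtain ⟨n, rfl⟩ := Subgroup.mem_zpowers_iff.1 hy
  rw [Subgroup.coe_zpow]
  exact Equiv.Perm.zpow_apply_eq_self_of_apply_eq_self h n

theorem card_zp {q : ℕ} (h : isM q = true) (h3 : orderOf (pm q) = 3) :
    Nat.card (Subgroup.zpowers (⟨pm q, pm_mem h⟩ : ↥Cfsg.M24)) = 3 := by
  rw [Nat.card_zpowers, ← Subgroup.orderOf_coe]; exact h3

theorem conj_zp (x y k : ↥Cfsg.M24) (h : (k : P24) * x * (k : P24)⁻¹ = y) :
    MulAut.conj k • Subgroup.zpowers x = Subgroup.zpowers y := by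
  have : k * x * k⁻¹ = y := Subtype.ext h
  rw [← this]
  exact MonoidHom.map_zpowers _ x


/-- The group of the length-24 code has exactly two conjugacy classes of subgroups of order 3: a subgroup of order 3 fixes either exactly 6 of the 24 points or none of them, both cases occur, and two subgroups of order 3 with the same number of fixed points are conjugate. -/
theorem result : (∀ X : Subgroup ↥Cfsg.M24, Nat.card X = 3 → {p : Cfsg.GolayPt | ∀ x ∈ X, ((x : ↥Cfsg.M24) : Equiv.Perm Cfsg.GolayPt) p = p}.ncard = 6 ∨ {p : Cfsg.GolayPt | ∀ x ∈ X, ((x : ↥Cfsg.M24) : Equiv.Perm Cfsg.GolayPt) p = p}.ncard = 0) ∧ (∃ X : Subgroup ↥Cfsg.M24, Nat.card X = 3 ∧ {p : Cfsg.GolayPt | ∀ x ∈ X, ((x : ↥Cfsg.M24) : Equiv.Perm Cfsg.GolayPt) p = p}.ncard = 6) ∧ (∃ X : Subgroup ↥Cfsg.M24, Nat.card X = 3 ∧ {p : Cfsg.GolayPt | ∀ x ∈ X, ((x : ↥Cfsg.M24) : Equiv.Perm Cfsg.GolayPt) p = p}.ncard = 0)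 ∧ ∀ X Y : Subgroup ↥Cfsg.M24, Nat.card X = 3 → Nat.card Y = 3 → {p : Cfsg.GolayPt | ∀ x ∈ X, ((x : ↥Cfsg.M24) : Equiv.Perm Cfsg.GolayPt) p = p}.ncard = {p : Cfsg.GolayPt | ∀ x ∈ Y, ((x : ↥Cfsg.M24) : Equiv.Perm Cfsg.GolayPt) p = p}.ncard → ∃ k : ↥Cfsg.M24, MulAut.conj k • X = Y := by
  refine ⟨fun X hX => ?_, ⟨_, card_zp isM_q3a orderOf_q3a, ?_⟩, ⟨_, card_zp isM_q3b orderOf_q3b, ?_⟩,
    fun X Y hX hY h => ?_⟩
  · obtain ⟨x, hx, rfl⟩ := exists_gen X hX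
    rw [fix_zpowers]
    by_cases h : fixS x = ∅
    · right; rw [h]; rfl
    · obtain ⟨r, -, h1⟩ := conj_q3a x.2 hx h
      left; rw [← h1, fixS_conj, fixS_q3a, Finset.card_smul_finset, card_ofMask_63]
  · rw [fix_zpowers]; show (fixS (pm q3a)).card = 6
    rw [fixS_q3a, card_ofMask_63]
  · rw [fix_zpowers]; show (fixS (pm q3b)).card = 0
    rw [fixS_q3b]; rfl
  · obtain ⟨x, hx, rfl⟩ := exists_gen X hX
    obtain ⟨y, hy, rfl⟩ := exists_gen Y hY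
    rw [fix_zpowers, fix_zpowers] at h
    by_cases h0 : fixS x = ∅
    · have h1 : fixS y = ∅ := by rw [← Finset.card_eq_zero, ← h, h0]; rfl
      obtain ⟨r, hr, e1⟩ := conj_q3b x.2 hx (fixS_eq_empty.1 h0)
      obtain ⟨s, hs, e2⟩ := conj_q3b y.2 hy (fixS_eq_empty.1 h1)
      refine ⟨⟨s * r⁻¹, mul_mem hs (inv_mem hr)⟩, conj_zp _ _ _ ?_⟩
      rw [← e1, ← e2]; group
    · have h1 : fixS y ≠ ∅ := fun h2 => h0 (by rw [← Finset.card_eq_zero, h, h2]; rfl)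
      obtain ⟨r, hr, e1⟩ := conj_q3a x.2 hx h0
      obtain ⟨s, hs, e2⟩ := conj_q3a y.2 hy h1
      refine ⟨⟨s * r⁻¹, mul_mem hs (inv_mem hr)⟩, conj_zp _ _ _ ?_⟩
      rw [← e1, ← e2]; group

end Cfsg.Agent.S5601
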