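import Mathlib
import Cfsg.Statements.S5603
import Cfsg.Agent.Lib.M24E.Classes
import Cfsg.Agent.Lib.M24E.Trio

set_option autoImplicit false
open scoped Pointwise
open Cfsg

namespace Cfsg.Agent.S5603

open CfsgLib.M24E CfsgLib.Golay

theorem c0 : {s | s ∈ Cfsg.sextets ∧ pm q3b • s = s}.ncard = 7 :=
  (ncard_fixed_sextets isM_q3b).trans (by decide +kernel)

theorem c1 : {s | s ∈ Cfsg.trios ∧ pm q3b • s = s}.ncard = 15 :=
  (ncard_fixed_trios isM_q3b).trans (by decide +kernel)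


/-- A fixed-point-free element of order 3 of the group of the length-24 code maps to themselves exactly 7 sextets and exactly 15 trios. -/
theorem result (g : Equiv.Perm Cfsg.GolayPt) (hg : g ∈ Cfsg.M24) (h₃ : orderOf g = 3) (h₀ : ∀ p, g p ≠ p) : {S : Finset (Finset Cfsg.GolayPt) | S ∈ Cfsg.sextets ∧ g • S = S}.ncard = 7 ∧ {T : Finset (Finset Cfsg.GolayPt) | T ∈ Cfsg.trios ∧ g • T = T}.ncard = 15 := by
  obtain ⟨r, hr, rfl⟩ := conj_q3b hg h₃ h₀
  refine ⟨?_, ?_⟩
  · exact (ncard_fixed_conj (fun _ h1 _ h2 => smul_mem_sextets h1 h2) hr _).trans c0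
  · exact (ncard_fixed_conj (fun _ h1 _ h2 => smul_mem_trios h1 h2) hr _).trans c1

end Cfsg.Agent.S5603
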