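import Mathlib
import Cfsg.Statements.S5604
import Cfsg.Agent.Lib.M24E.Tools

set_option autoImplicit false
open scoped Pointwise
open Cfsg

namespace Cfsg.Agent.S5604

open CfsgLib.M24E CfsgLib.Golay
open scoped Pointwise

theorem exists_gen (S : Subgroup ↥Cfsg.M24) (hS : Nat.card S = 7) :
    ∃ r ∈ Cfsg.M24, ∃ x : ↥Cfsg.M24, (x : P24) = r * pm q7a * r⁻¹ ∧ S = Subgroup.zpowers x := by
  have : Fact (Nat.Prime 7) := ⟨by norm_num⟩
  have hc : IsCyclic S := isCyclic_of_prime_card hS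
  obtain ⟨x, hx⟩ := (Subgroup.isCyclic_iff_exists_zpowers_eq_top S).1 hc
  have ho : orderOf (x : P24) = 7 := by rw [Subgroup.orderOf_coe, ← Nat.card_zpowers, hx, hS]
  rcases class_seven x.2 (ho ▸ pow_orderOf_eq_one _) (ne_one_of_orderOf ho (by norm_num)) with
    ⟨r, hr, h⟩ | ⟨r, hr, h⟩
  · exact ⟨r, hr, x, h.symm, hx.symm⟩
  · have h7 : pm q7a ^ 7 = 1 := by rw [← orderOf_q7a, pow_orderOf_eq_one]
    refine ⟨r, hr, x ^ 5, ?_, ?_⟩
    · rw [Subgroup.coe_pow, ← h, conj_pow, ← pow_mul, show 3 * 5 = 7 * 2 + 1 from rfl, pow_succ, pow_mul,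
        h7, one_pow, one_mul]
    · rw [← hx]
      refine le_antisymm ?_ ?_ <;> rw [Subgroup.zpowers_le]
      · refine ⟨3, ?_⟩
        have h8 : x ^ 7 = 1 := by rw [← ho, Subgroup.orderOf_coe, pow_orderOf_eq_one]
        show (x ^ 5) ^ (3 : ℕ) = x
        rw [← pow_mul, show 5 * 3 = 7 * 2 + 1 from rfl, pow_succ, pow_mul, h8, one_pow, one_mul]
      · exact pow_mem (Subgroup.mem_zpowers x) 5

def NP (x g : P24) : Prop := ∃ e ∈ [1, 2, 3, 4, 5, 6], g * x = x ^ e * g

theorem mem_norm (x : ↥Cfsg.M24) (hx : orderOf (x : P24) = 7) (n : ↥Cfsg.M24) :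
    n ∈ Subgroup.normalizer (Subgroup.zpowers x : Set ↥Cfsg.M24) ↔ NP x n := by
  rw [Subgroup.orderOf_coe] at hx
  constructor
  · intro h
    have h1 := (Subgroup.mem_normalizer_iff.1 h x).1 (Subgroup.mem_zpowers x)
    rw [← mem_powers_iff_mem_zpowers, (isOfFinOrder_of_finite x).mem_powers_iff_mem_range_orderOf, hx] at h1
    obtain ⟨e, he, h2⟩ := Finset.mem_image.1 h1
    have h3 : e ≠ 0 := by
      rintro rfl
      have h4 : x = 1 := by simpa using h2.symm
      rw [h4, orderOf_one] at hx; omega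
    refine ⟨e, ?_, ?_⟩
    · rw [Finset.mem_range] at he
      simp only [List.mem_cons, List.not_mem_nil, or_false]; omega
    · have h4 : n * x = x ^ e * n := by rw [h2, inv_mul_cancel_right]
      exact congrArg Subtype.val h4
  · rintro ⟨e, -, h⟩
    have h4 : n * x = x ^ e * n := Subtype.ext h
    refine Subgroup.mem_normalizer_fintype fun y hy => ?_
    obtain ⟨k, rfl⟩ := Subgroup.mem_zpowers_iff.1 hy
    rw [← conj_zpow, h4, mul_inv_cancel_right]
    exact zpow_mem (pow_mem (Subgroup.mem_zpowers x) e) k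

theorem mem_cent (x n : ↥Cfsg.M24) :
    n ∈ Subgroup.centralizer (Subgroup.zpowers x : Set ↥Cfsg.M24) ↔ (n : P24) * x = x * n := by
  rw [Subgroup.zpowers_eq_closure, Subgroup.centralizer_closure, Subgroup.mem_centralizer_singleton_iff,
    Subtype.ext_iff]
  rfl

theorem NP_conj (r x g : P24) : NP (r * x * r⁻¹) g ↔ NP x (r⁻¹ * g * r) := by
  refine exists_congr fun e => and_congr_right fun _ => ?_
  rw [conj_pow]
  constructor
  · intro h
    have : r⁻¹ * g * r * x = r⁻¹ * (g * (r * x * r⁻¹)) * r := by group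
    rw [this, h]; group
  · intro h
    have : g * (r * x * r⁻¹) = r * (r⁻¹ * g * r * x) * r⁻¹ := by group
    rw [this, h]; group

theorem snd : Sound (ap idq) (NP (pm q7a))
    (okAny [1, 2, 3, 4, 5, 6] fun e => okAll (okI (ap idq) (ap q7a) (ap (mk (itF (ap q7a) e))))) :=
  sound_okAny (fun e g => g * pm q7a = pm q7a ^ e * g)
    (fun e _ => (sound_okI (chkB_lt chkB_id) (pm_rp isM_q7a) ((pm_rp isM_q7a).pow e).mk fun _ _ h => h).all)
    fun _ _ h => h

theorem np_iff {φ : ℕ → ℕ} {g : P24} (hφ : Rp φ g) :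
    (anyL [1, 2, 3, 4, 5, 6] fun e => intw φ (ap q7a) (ap (mk (itF (ap q7a) e)))) = true ↔ NP (pm q7a) g := by
  rw [anyL_iff]
  exact exists_congr fun e => and_congr_right fun _ =>
    hφ.intw_iff (pm_rp isM_q7a) ((pm_rp isM_q7a).pow e).mk

theorem c126 : Nat.card {g : P24 // g ∈ Cfsg.M24 ∧ NP (pm q7a) g} = 126 :=
  (card_of_search chkB_id snd fun _ _ _ hφ => np_iff hφ).trans (by decide +kernel)

theorem c42 : Nat.card {g : P24 // g ∈ Cfsg.M24 ∧ g * pm q7a = pm q7a * g} = 42 :=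
  (card_of_search chkB_id (sound_okI (chkB_lt chkB_id) (pm_rp isM_q7a) (pm_rp isM_q7a) fun _ _ h => h)
    fun _ _ _ hφ => hφ.intw_iff (pm_rp isM_q7a) (pm_rp isM_q7a)).trans (by decide +kernel)

def t0 : List ℕ := [11150144, 5621792, 5279]

theorem t0_mem : fam t0 ∈ Cfsg.trios := by
  have : t0 = three (trE 2339) := by decide +kernel
  rw [this]; exact trt_mem (by norm_num)

theorem st : ∀ g ∈ Cfsg.M24, NP (pm q7a) g → g • fam t0 = fam t0 :=
  all_of_search chkB_id snd
    (good := fun φ => or (not (anyL [1, 2, 3, 4, 5, 6] fun e => intw φ (ap q7a) (ap (mk (itF (ap q7a) e)))))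
      (famTo φ t0 t0))
    (fun g _ hP φ hφ h => by
      rw [(np_iff hφ).2 hP, Bool.not_true, Bool.false_or] at h
      exact (hφ.famFix_iff (by decide)).1 h) (by decide +kernel)

def qa : ℕ := 0xb5de894d6da9a0c8a8b43b92418820
def qb : ℕ := 0x3022ab85a22326f1d2a85a4f0959c5

theorem ma : isM qa = true := by decide +kernel
theorem mb : isM qb = true := by decide +kernel


/-- For a subgroup S of order 7 of the group of the length-24 code (a Sylow 7-subgroup): the normaliser of S has order 126, the centraliser of S has order 42 and is non-abelian, and the whole normaliser leaves some trio invariant. (These are the orders of a Frobenius group of order 21 times a symmetric group of degree 3; the isomorphism type itself is not asserted here.) -/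
theorem result (S : Subgroup ↥Cfsg.M24) (hS : Nat.card S = 7) : Nat.card ↥(Subgroup.normalizer (S : Set ↥Cfsg.M24)) = 126 ∧ Nat.card ↥(Subgroup.centralizer (S : Set ↥Cfsg.M24)) = 42 ∧ (∃ x ∈ Subgroup.centralizer (S : Set ↥Cfsg.M24), ∃ y ∈ Subgroup.centralizer (S : Set ↥Cfsg.M24), x * y ≠ y * x) ∧ ∃ T ∈ Cfsg.trios, ∀ n ∈ Subgroup.normalizer (S : Set ↥Cfsg.M24), ((n : ↥Cfsg.M24) : Equiv.Perm Cfsg.GolayPt) • T = T := by
  obtain ⟨r, hr, x, hx, rfl⟩ := exists_gen S hS
  have ho : orderOf (x : P24) = 7 := by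
    rw [hx, ← orderOf_q7a]; exact (MulAut.conj r).orderOf_eq _
  refine ⟨?_, ?_, ?_, r • fam t0, smul_mem_trios hr t0_mem, fun n hn => ?_⟩
  · rw [card_subgroup_eq _ (mem_norm x ho), hx, ← c126]
    exact card_conj_congr' hr fun g _ => NP_conj r _ g
  · rw [card_subgroup_eq _ (P := fun n => n * x = x * n) (mem_cent x), hx, ← c42]
    exact card_conj_congr' hr fun g _ => (conj_comm_iff r g _).symm
  · have key : ∀ q, isM q = true → intw (ap q) (ap q7a) (ap q7a) = true →
        r * pm q * r⁻¹ * x = x * (r * pm q * r⁻¹) := fun q hq h => by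
      have h1 := ((pm_rp hq).intw_iff (pm_rp isM_q7a) (pm_rp isM_q7a)).1 h
      have : r * pm q * r⁻¹ * (r * pm q7a * r⁻¹) = r * (pm q * pm q7a) * r⁻¹ := by group
      rw [hx, this, h1]; group
    refine ⟨⟨r * pm qa * r⁻¹, mul_mem (mul_mem hr (pm_mem ma)) (inv_mem hr)⟩,
      (mem_cent _ _).2 (key _ ma (by decide +kernel)),
      ⟨r * pm qb * r⁻¹, mul_mem (mul_mem hr (pm_mem mb)) (inv_mem hr)⟩,
      (mem_cent _ _).2 (key _ mb (by decide +kernel)), fun h => ?_⟩
    have h1 : r * pm qa * r⁻¹ * (r * pm qb * r⁻¹) = r * pm qb * r⁻¹ * (r * pm qa * r⁻¹) :=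
      congrArg Subtype.val h
    have h2 : pm qa * pm qb = pm qb * pm qa := by
      have e : ∀ a b : P24, a * b = r⁻¹ * (r * a * r⁻¹ * (r * b * r⁻¹)) * r := fun a b => by group
      rw [e, h1, ← e]
    have h3 := ((pm_rp ma).intw_iff (pm_rp mb) (pm_rp mb)).2 h2
    revert h3; decide +kernel
  · rw [mem_norm x ho, hx, NP_conj] at hn
    exact (conj_smul_iff r _ _).1 (st _ (conj_mem hr n.2) hn)

end Cfsg.Agent.S5604
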