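import Mathlib
import Cfsg.Statements.S5606
import Cfsg.Agent.Lib.M24E.Classes
import Cfsg.Agent.Lib.M24E.Trio

set_option autoImplicit false
open scoped Pointwise
open Cfsg

namespace Cfsg.Agent.S5606

open CfsgLib.M24E CfsgLib.Golay

theorem c0 : {s | s ∈ Cfsg.octads ∧ pm q2b • s = s}.ncard = 15 :=
  (ncard_fixed_words isM_q2b 8).trans (by decide +kernel)

theorem c1 : {s | s ∈ Cfsg.trios ∧ pm q2b • s = s}.ncard = 75 :=
  (ncard_fixed_trios isM_q2b).trans (by decide +kernel)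

theorem c2 : {s | s ∈ Cfsg.sextets ∧ pm q2b • s = s}.ncard = 51 :=
  (ncard_fixed_sextets isM_q2b).trans (by decide +kernel)


/-- A fixed-point-free involution of the group of the length-24 code maps to themselves exactly 15 octads, exactly 75 trios and exactly 51 sextets. -/
theorem result (g : Equiv.Perm Cfsg.GolayPt) (hg : g ∈ Cfsg.M24) (h₂ : orderOf g = 2) (h₀ : ∀ p, g p ≠ p) : {o : Finset Cfsg.GolayPt | o ∈ Cfsg.octads ∧ g • o = o}.ncard = 15 ∧ {T : Finset (Finset Cfsg.GolayPt) | T ∈ Cfsg.trios ∧ g • T = T}.ncard = 75 ∧ {S : Finset (Finset Cfsg.GolayPt) | S ∈ Cfsg.sextets ∧ g • S = S}.ncard = 51 := by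
  obtain ⟨r, hr, rfl⟩ := conj_q2b hg h₂ h₀
  refine ⟨?_, ?_, ?_⟩
  · exact (ncard_fixed_conj (fun _ h1 _ h2 => smul_mem_octads h1 h2) hr _).trans c0
  · exact (ncard_fixed_conj (fun _ h1 _ h2 => smul_mem_trios h1 h2) hr _).trans c1
  · exact (ncard_fixed_conj (fun _ h1 _ h2 => smul_mem_sextets h1 h2) hr _).trans c2

end Cfsg.Agent.S5606
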