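import Mathlib
import Cfsg.Statements.S5608
import Cfsg.Agent.Lib.M24E.Tools

set_option autoImplicit false
open scoped Pointwise
open Cfsg

namespace Cfsg.Agent.S5608

open CfsgLib.M24E CfsgLib.Golay
open scoped Pointwise

theorem base {v vi q n : ℕ} (hB : chkB v vi = true) (hq : isM q = true)
    (h : asearch vi (okI (ap v) (ap q) (ap q)) (fun φ => or (not (intw φ (ap q) (ap q)))
      (pk (fun φ => or (not (powId φ 2)) (or (isId φ) (Nat.beq (pc (fixM φ)) n))) φ)) = true)
    {r s : P24} (hr : r ∈ Cfsg.M24) (hs : s ∈ Cfsg.M24) (h2 : orderOf s = 2)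
    (hc : Commute (r * pm q * r⁻¹) s) : (fixS s).card = n := by
  have key := all_of_search (P := fun g => g * pm q = pm q * g)
    (Q := fun g => g ^ 2 = 1 → g ≠ 1 → (fixS g).card = n) hB
    (sound_okI (chkB_lt hB) (pm_rp hq) (pm_rp hq) fun _ _ h => h) (fun g _ hP φ hφ h a b => by
      rw [(hφ.intw_iff (pm_rp hq) (pm_rp hq)).2 hP, Bool.not_true, Bool.false_or, pk_eq,
        (hφ.mk.powId_iff 2).2 a, Bool.not_true, Bool.false_or, Bool.or_eq_true, hφ.mk.isId_iff, beq_iff',
        ← hφ.mk.card_fixS] at h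
      exact h.resolve_left b) h _ (conj_mem hr hs) ((conj_comm_iff r s _).2 hc.symm)
    (by
      have : (r⁻¹ * s * r) ^ 2 = r⁻¹ * s ^ 2 * r := by rw [pow_two, pow_two]; group
      rw [this, ← h2, pow_orderOf_eq_one]; simp)
    (fun h => ne_one_of_orderOf h2 (by norm_num) (eq_one_of_conj h))
  have e := fixS_conj r⁻¹ s
  rw [inv_inv] at e
  rwa [e, Finset.card_smul_finset] at key


/-- If an element of order 3 and an involution of the group of the length-24 code commute, then either the element of order 3 has exactly 6 fixed points and the involution exactly 8, or both are fixed-point-free. -/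
theorem result (x s : Equiv.Perm Cfsg.GolayPt) (hx : x ∈ Cfsg.M24) (hs : s ∈ Cfsg.M24) (h₃ : orderOf x = 3) (h₂ : orderOf s = 2) (hc : Commute x s) : ((Finset.univ.filter fun p => x p = p).card = 6 ∧ (Finset.univ.filter fun p => s p = p).card = 8) ∨ ((Finset.univ.filter fun p => x p = p).card = 0 ∧ (Finset.univ.filter fun p => s p = p).card = 0) := by
  show ((fixS x).card = 6 ∧ (fixS s).card = 8) ∨ ((fixS x).card = 0 ∧ (fixS s).card = 0)
  by_cases h : fixS x = ∅
  · obtain ⟨r, hr, rfl⟩ := conj_q3b hx h₃ (fixS_eq_empty.1 h)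
    exact Or.inr ⟨by rw [h]; rfl, base chkB_id isM_q3b (by decide +kernel) hr hs h₂ hc⟩
  · obtain ⟨r, hr, rfl⟩ := conj_q3a hx h₃ h
    exact Or.inl ⟨by rw [fixS_conj, fixS_q3a, Finset.card_smul_finset, card_ofMask_63],
      base (v := 0x5e2b986966c9251890463dca3d606) (vi := 0xb40519baa1315e7a11a9181885aa57)
        (by decide +kernel) isM_q3a (by decide +kernel) hr hs h₂ hc⟩

end Cfsg.Agent.S5608
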