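import Mathlib
import Cfsg.Statements.S5609
import Cfsg.Agent.Lib.M24E.Tools

set_option autoImplicit false
open scoped Pointwise
open Cfsg

namespace Cfsg.Agent.S5609

open CfsgLib.M24E CfsgLib.Golay

open scoped Pointwise

theorem omem {m : ℕ} (h1 : m < 2 ^ 24) (h : isCode m = true ∧ pc m = 8) : ofMask m ∈ Cfsg.octads :=
  (ofMask_mem_octads h1).2 h

theorem ex (m c i j k : ℕ) (h : (m < 2 ^ 24 ∧ c < 2 ^ 24) ∧ (isCode m = true ∧ pc m = 8) ∧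
    (isCode c = true ∧ pc c = 8) ∧ pc (Nat.land 5279 m) = i ∧ pc (Nat.land 5279 c) = j ∧ pc (Nat.land c m) = k)
    {o o' : Finset Cfsg.GolayPt} (ho : o ∈ Cfsg.octads) (ho' : o' ∈ Cfsg.octads) (hi : (o ∩ o').card = i) :
    ∃ c ∈ Cfsg.octads, (o ∩ c).card = j ∧ (c ∩ o').card = k := by
  obtain ⟨⟨l1, l2⟩, h1, h2, h3, h4, h5⟩ := h
  obtain ⟨g, hg, rfl, rfl⟩ := pt_octad_octad _ oct0_mem o ho _ (omem l1 h1) o' ho' (by
    rw [f0_mask (by norm_num), f0, hi, h3])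
  refine ⟨g • ofMask c, smul_mem_octads hg (omem l2 h2), ?_, ?_⟩
  · exact (inv2_f0 g _ _).trans ((f0_mask (by norm_num) _).trans h4)
  · exact (inv2_f0 g _ _).trans ((f0_mask l2 _).trans h5)

theorem adj_iff (a b : ↥Cfsg.octads) : (Cfsg.blockGraph Cfsg.octads).Adj a b ↔ (a.1 ∩ b.1).card = 0 := by
  rw [Cfsg.blockGraph, SimpleGraph.fromRel_adj, Finset.card_eq_zero, ← Finset.disjoint_iff_inter_eq_empty]
  refine ⟨fun h => h.2.elim id fun h => h.symm, fun h => ⟨fun h1 => ?_, Or.inl h⟩⟩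
  exact octad_ne_of_disjoint a.2 h (congrArg Subtype.val h1)

theorem walk2 (a b : ↥Cfsg.octads) (h : (a.1 ∩ b.1).card = 4) :
    ∃ p : (Cfsg.blockGraph Cfsg.octads).Walk a b, p.length = 2 := by
  obtain ⟨c, hc, h1, h2⟩ := ex 5902343 2220640 4 0 0 (by decide +kernel) a.2 b.2 h
  exact ⟨.cons ((adj_iff a ⟨c, hc⟩).2 h1) (.cons ((adj_iff ⟨c, hc⟩ b).2 h2) .nil), rfl⟩

theorem walk3 (a b : ↥Cfsg.octads) (h : (a.1 ∩ b.1).card = 2) :
    ∃ p : (Cfsg.blockGraph Cfsg.octads).Walk a b, p.length = 3 := by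
  obtain ⟨c, hc, h1, h2⟩ := ex 13062145 1009728 2 0 4 (by decide +kernel) a.2 b.2 h
  obtain ⟨p, hp⟩ := walk2 ⟨c, hc⟩ b h2
  exact ⟨.cons ((adj_iff a ⟨c, hc⟩).2 h1) p, by simp [hp]⟩

theorem no2 (a b c : ↥Cfsg.octads) (h : (a.1 ∩ b.1).card = 2) (h1 : (a.1 ∩ c.1).card = 0)
    (h2 : (c.1 ∩ b.1).card = 0) : False := by
  have h3 := card_octad_inter_dodecad c.2 (symmDiff_mem_dodecads a.2 b.2 h)
  have h4 := inter_symmDiff_card c.1 a.1 b.1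
  rw [Finset.inter_comm] at h1
  omega

theorem reach (a b : ↥Cfsg.octads) : (Cfsg.blockGraph Cfsg.octads).Reachable a b := by
  by_cases h : a = b
  · rw [h]
  rcases card_inter_octads a.2 b.2 (fun h1 => h (Subtype.ext h1)) with h1 | h1 | h1
  · exact ((adj_iff a b).2 h1).reachable
  · obtain ⟨p, -⟩ := walk3 a b h1; exact ⟨p⟩
  · obtain ⟨p, -⟩ := walk2 a b h1; exact ⟨p⟩


/-- In the graph on the 759 octads of the length-24 code in which two octads are adjacent when they are disjoint, the graph is connected (of diameter 3) and two distinct octads are at distance 1, 2 or 3 exactly when they meet in 0, 4 or 2 points respectively. -/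
theorem result (o o' : Finset Cfsg.GolayPt) (ho : o ∈ Cfsg.octads) (ho' : o' ∈ Cfsg.octads) (hne : o ≠ o') : (Cfsg.blockGraph Cfsg.octads).Connected ∧ ((Cfsg.blockGraph Cfsg.octads).dist ⟨o, ho⟩ ⟨o', ho'⟩ = 1 ↔ (o ∩ o').card = 0) ∧ ((Cfsg.blockGraph Cfsg.octads).dist ⟨o, ho⟩ ⟨o', ho'⟩ = 2 ↔ (o ∩ o').card = 4) ∧ ((Cfsg.blockGraph Cfsg.octads).dist ⟨o, ho⟩ ⟨o', ho'⟩ = 3 ↔ (o ∩ o').card = 2) := by
  have : Nonempty ↥Cfsg.octads := ⟨⟨o, ho⟩⟩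
  refine ⟨⟨reach⟩, ?_⟩
  have h0 : (Cfsg.blockGraph Cfsg.octads).dist ⟨o, ho⟩ ⟨o', ho'⟩ ≠ 0 := by
    rw [Ne, (reach _ _).dist_eq_zero_iff]; exact fun h => hne (congrArg Subtype.val h)
  have h1 : (Cfsg.blockGraph Cfsg.octads).dist ⟨o, ho⟩ ⟨o', ho'⟩ = 1 ↔ (o ∩ o').card = 0 := by
    rw [SimpleGraph.dist_eq_one_iff_adj, adj_iff]
  have h2 : (o ∩ o').card = 4 → (Cfsg.blockGraph Cfsg.octads).dist ⟨o, ho⟩ ⟨o', ho'⟩ ≤ 2 := fun h => by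
    obtain ⟨p, hp⟩ := walk2 ⟨o, ho⟩ ⟨o', ho'⟩ h
    exact hp ▸ SimpleGraph.dist_le p
  have h3 : (o ∩ o').card = 2 → (Cfsg.blockGraph Cfsg.octads).dist ⟨o, ho⟩ ⟨o', ho'⟩ ≤ 3 := fun h => by
    obtain ⟨p, hp⟩ := walk3 ⟨o, ho⟩ ⟨o', ho'⟩ h
    exact hp ▸ SimpleGraph.dist_le p
  have h4 : (o ∩ o').card = 2 → (Cfsg.blockGraph Cfsg.octads).dist ⟨o, ho⟩ ⟨o', ho'⟩ ≠ 2 := fun h h5 => by
    obtain ⟨p, hp⟩ := (reach ⟨o, ho⟩ ⟨o', ho'⟩).exists_walk_length_eq_dist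
    rw [h5] at hp
    match p, hp with
    | .cons a (.cons b .nil), _ => exact no2 _ _ _ h ((adj_iff _ _).1 a) ((adj_iff _ _).1 b)
  have h5 := card_inter_octads ho ho' hne
  omega

end Cfsg.Agent.S5609
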