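import Mathlib
import Cfsg.Statements.S5614
import Cfsg.Agent.Lib.M24E.Tools

set_option autoImplicit false
open scoped Pointwise
open Cfsg

namespace Cfsg.Agent.S5614

open CfsgLib.M24E CfsgLib.Golay

theorem o1_mem : ofMask 13062145 ∈ Cfsg.octads :=
  (ofMask_mem_octads (by norm_num)).2 (by decide +kernel)

theorem base {g : P24} (hg : g ∈ Cfsg.M24) (h1 : ∀ p ∈ ofMask 5279 \ ofMask 13062145, g p = p)
    (h2 : g • ofMask 13062145 = ofMask 13062145) : g = 1 :=
  eq_one_of_fix_stab (v := 0x7d56da2249898a09aad063ae720c41) (vi := 0x2a6d35c5e8b9a87aaa12239a31040c)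
    (a := 5279 &&& (13062145 ^^^ 16777215)) (by decide +kernel) (by decide +kernel) hg
    (by rwa [ofMask_sdiff]) h2


/-- In the group of the length-24 code, the joint stabiliser of two octads meeting in exactly two points is isomorphic to the symmetric group of degree 6. -/
theorem result (o o' : Finset Cfsg.GolayPt) (ho : o ∈ Cfsg.octads) (ho' : o' ∈ Cfsg.octads) (h₂ : (o ∩ o').card = 2) : Nonempty (↥(MulAction.stabilizer Cfsg.M24 o ⊓ MulAction.stabilizer Cfsg.M24 o') ≃* Equiv.Perm (Fin 6)) := by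
  have h := card_inf_octads ho ho'
  rw [h₂, (cnt24_empty card_golayPt octads_steiner ho).2.2.1] at h
  refine iso_perm_six _ (by omega) (E := o \ o') ?_ ?_ ?_
  · have := Finset.card_sdiff_add_card_inter o o'
    rw [ho.2, h₂] at this; omega
  · intro g hg
    rw [smul_sdiff', mem_stab_M24.1 hg.1, mem_stab_M24.1 hg.2]
  · intro g hg hfix
    obtain ⟨k, hk, rfl, rfl⟩ := pt_octad_octad _ oct0_mem o ho _ o1_mem o' ho' (by
      rw [f0_mask (by norm_num), f0, h₂]; decide +kernel)
    refine Subtype.ext (eq_one_of_conj (base (conj_mem hk g.2) ?_ ?_))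
    · rw [conj_fix_iff, smul_sdiff']; exact hfix
    · rw [conj_smul_iff]; exact hg.2

end Cfsg.Agent.S5614
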