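import Mathlib
import Cfsg.Statements.S5616
import Cfsg.Agent.Lib.M24E.Pairs

set_option autoImplicit false
open scoped Pointwise
open Cfsg

namespace Cfsg.Agent.S5616

open CfsgLib.M24E CfsgLib.Golay

def g3 (Y : Finset Cfsg.GolayPt) (S : Finset (Finset Cfsg.GolayPt)) : ℕ :=
  (S.filter fun t => (t ∩ Y).Nonempty).card

theorem inv2_g3 : Inv2 g3 := fun g Y S => by
  rw [g3, g3, Finset.card_filter, Finset.card_filter, sum_smul_fam]
  simp only [← smul_inter', Finset.smul_finset_nonempty]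

noncomputable def g3K (l : List ℕ) : ℕ := cntL l fun m => not (Nat.beq (Nat.land m 7) 0)

theorem g3_mask (l : List ℕ) (hl : Good l) : g3 (ofMask 7) (fam l) = g3K l :=
  hl.card_filter_fam _ _ fun m hm => by
    rw [← ofMask_land, Finset.nonempty_iff_ne_empty, Ne,
      ofMask_eq_empty_iff (lt_of_le_of_lt Nat.and_le_left (hl.2 m hm)), Bool.not_eq_true',
      ← Bool.not_eq_true, beq_iff']
    rfl

theorem three_trans : ∀ Y ∈ {Y : Finset Cfsg.GolayPt | Y.card = 3}, ∃ g ∈ Cfsg.M24, g • ofMask 7 = Y := by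
  intro Y hY
  have h : (ofMask 7).card = 3 := by rw [card_ofMask (by norm_num)]; decide +kernel
  exact finset_trans (h.trans hY.symm) (by rw [h]; norm_num)

def gTh : List ℕ := [0x8386d9c96cb1eaa35c917a0a9a0801, 0xa94d4392169250b8b46f9dd8a70022]

theorem pt_th : PT {Y : Finset Cfsg.GolayPt | Y.card = 3} Cfsg.sextets g3 :=
  PT.of_reps inv_sextets inv2_g3 three_trans sxt [0, 1, 41]
    (by
      simp only [List.map_cons, List.map_nil, sxt, g3_mask _ (sxt_good (show 0 < 1771 by norm_num)),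
        g3_mask _ (sxt_good (show 1 < 1771 by norm_num)), g3_mask _ (sxt_good (show 41 < 1771 by norm_num))]
      decide +kernel)
    (sxCover_spec _ (gens_set (gens := gTh) (by decide +kernel)) (by simp) (by decide +kernel))

theorem c1 : {b | b ∈ Cfsg.sextets ∧ g3 (ofMask 7) b = 1}.ncard = 21 :=
  (level_sextets (g3 (ofMask 7)) g3K g3_mask 1).trans (by decide +kernel)

theorem c2 : {b | b ∈ Cfsg.sextets ∧ g3 (ofMask 7) b = 2}.ncard = 630 :=
  (level_sextets (g3 (ofMask 7)) g3K g3_mask 2).trans (by decide +kernel)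

theorem c3 : {b | b ∈ Cfsg.sextets ∧ g3 (ofMask 7) b = 3}.ncard = 1120 :=
  (level_sextets (g3 (ofMask 7)) g3K g3_mask 3).trans (by decide +kernel)


/-- Let Y be a set of 3 of the 24 points. The sextets of the length-24 code whose tetrads meeting Y number 1, 2 or 3 are respectively 21, 630 and 1120 in number, and two sextets with the same number of tetrads meeting Y are conjugate under the setwise stabiliser of Y in the code's group. -/
theorem result (Y : Finset Cfsg.GolayPt) (hY : Y.card = 3) : {S : Finset (Finset Cfsg.GolayPt) | S ∈ Cfsg.sextets ∧ (S.filter fun t => (t ∩ Y).Nonempty).card = 1}.ncard = 21 ∧ {S : Finset (Finset Cfsg.GolayPt) | S ∈ Cfsg.sextets ∧ (S.filter fun t => (t ∩ Y).Nonempty).card = 2}.ncard = 630 ∧ {S : Finset (Finset Cfsg.GolayPt) | S ∈ Cfsg.sextets ∧ (S.filter fun t => (t ∩ Y).Nonempty).card = 3}.ncard = 1120 ∧ ∀ S S' : Finset (Finset Cfsg.GolayPt), S ∈ Cfsg.sextets → S' ∈ Cfsg.sextets → (S.filter fun t => (t ∩ Y).Nonempty).card = (S'.filter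 fun t => (t ∩ Y).Nonempty).card → ∃ g ∈ Cfsg.M24, g • Y = Y ∧ g • S = S' := by
  refine ⟨?_, ?_, ?_, fun S S' hS hS' h => pt_th Y hY Y hY S hS S' hS' h⟩ <;>
    obtain ⟨g, hg, rfl⟩ := three_trans Y hY
  · exact (ncard_level inv_sextets inv2_g3 hg _ 1).trans c1
  · exact (ncard_level inv_sextets inv2_g3 hg _ 2).trans c2
  · exact (ncard_level inv_sextets inv2_g3 hg _ 3).trans c3

end Cfsg.Agent.S5616
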