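import Mathlib
import Cfsg.Statements.S5617
import Cfsg.Agent.Lib.M24E.Pairs

set_option autoImplicit false
open scoped Pointwise
open Cfsg

namespace Cfsg.Agent.S5617

open CfsgLib.M24E CfsgLib.Golay

def du0 : List ℕ := [340831, 16436384]

theorem du0_good : Good du0 := by decide +kernel

def duums : Set (Finset (Finset Cfsg.GolayPt)) := {D | ∃ d ∈ Cfsg.dodecads, D = {d, Finset.univ \ d}}

theorem du0_eq : fam du0 = {ofMask 340831, Finset.univ \ ofMask 340831} := by
  have : ofMask 16436384 = Finset.univ \ ofMask 340831 := by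
    rw [← Finset.compl_eq_univ_sdiff, ← ofMask_compl]; rfl
  rw [← this]; simp [fam, du0]

theorem duum_trans : ∀ D ∈ duums, ∃ g ∈ Cfsg.M24, g • fam du0 = D := by
  rintro D ⟨d, hd, rfl⟩
  obtain ⟨g, hg, rfl⟩ := dodecad_trans d hd
  refine ⟨g, hg, ?_⟩
  rw [du0_eq, Finset.smul_finset_insert, Finset.smul_finset_singleton, smul_sdiff', Finset.smul_finset_univ]

def gDu : List ℕ := [0x9c565781487592d3d482b8e8133250, 0x341816c51448aa72494f0586572ef3]

theorem pt_du : PT duums Cfsg.sextets f2 :=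
  PT.of_reps inv_sextets inv2_f2 duum_trans sxt [0, 3, 5]
    (by
      simp only [List.map_cons, List.map_nil, sxt, f2_mask du0_good (sxt_good (show 0 < 1771 by norm_num)),
        f2_mask du0_good (sxt_good (show 3 < 1771 by norm_num)),
        f2_mask du0_good (sxt_good (show 5 < 1771 by norm_num))]
      decide +kernel)
    (sxCover_spec _ (gens_fam (gens := gDu) du0_good.2 (by decide +kernel)) (by simp) (by decide +kernel))

theorem b_48 : {b | b ∈ Cfsg.sextets ∧ (f2 (fam du0)) b = 48}.ncard = 395 + 1 :=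
  (level_sextets (f2 (fam du0)) (f2K du0) (fun _ hl => f2_mask du0_good hl) 48).trans (by decide +kernel)

theorem b_64 : {b | b ∈ Cfsg.sextets ∧ (f2 (fam du0)) b = 64}.ncard = 494 + 1 :=
  (level_sextets (f2 (fam du0)) (f2K du0) (fun _ hl => f2_mask du0_good hl) 64).trans (by decide +kernel)

theorem b_60 : {b | b ∈ Cfsg.sextets ∧ (f2 (fam du0)) b = 60}.ncard = 879 + 1 :=
  (level_sextets (f2 (fam du0)) (f2K du0) (fun _ hl => f2_mask du0_good hl) 60).trans (by decide +kernel)

theorem b_vals : ∀ b ∈ Cfsg.sextets, (f2 (fam du0)) b = 48 ∨ (f2 (fam du0)) b = 64 ∨ (f2 (fam du0)) b = 60 := fun b hb => by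
  simpa using vals_sextets (f2 (fam du0)) (f2K du0) (fun _ hl => f2_mask du0_good hl)
    [48, 64, 60] (by decide +kernel) b hb


/-- The setwise stabiliser, in the group of the length-24 code, of a complementary pair of dodecads has exactly three orbits on the 1771 sextets, of sizes 396, 495 and 880. -/
theorem result (d : Finset Cfsg.GolayPt) (hd : d ∈ Cfsg.dodecads) : ∃ X₁ ∈ Cfsg.sextets, ∃ X₂ ∈ Cfsg.sextets, ∃ X₃ ∈ Cfsg.sextets, (MulAction.orbit ↥(MulAction.stabilizer Cfsg.M24 ({d, Finset.univ \ d} : Finset (Finset Cfsg.GolayPt))) X₁).ncard = 396 ∧ (MulAction.orbit ↥(MulAction.stabilizer Cfsg.M24 ({d, Finset.univ \ d} : Finset (Finset Cfsg.GolayPt))) X₂).ncard = 495 ∧ (MulAction.orbit ↥(MulAction.stabilizer Cfsg.M24 ({d, Finset.univ \ d} : Finset (Finset Cfsg.GolayPt))) X₃).ncard = 880 ∧ Cfsg.sextets = MulAction.orbit ↥(MulAction.stabilizer Cfsg.M24 ({d, Finset.univ \ d} : Finset (Finset Cfsg.GolayPt))) X₁ ∪ MulAction.orbit ↥(MulAction.stabilizer Cfsg.M24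 ({d, Finset.univ \ d} : Finset (Finset Cfsg.GolayPt))) X₂ ∪ MulAction.orbit ↥(MulAction.stabilizer Cfsg.M24 ({d, Finset.univ \ d} : Finset (Finset Cfsg.GolayPt))) X₃ := by
  exact PT.orbits3 pt_du inv_sextets inv2_f2 duum_trans b_48 b_64 b_60 b_vals ⟨d, hd, rfl⟩

end Cfsg.Agent.S5617
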