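import Mathlib
import Cfsg.Statements.S5618
import Cfsg.Agent.Lib.M24E.Tools

set_option autoImplicit false
open scoped Pointwise
open Cfsg

namespace Cfsg.Agent.S5618

open CfsgLib.M24E CfsgLib.Golay

theorem o1_mem : ofMask 3416079 ∈ Cfsg.octads :=
  (ofMask_mem_octads (by norm_num)).2 (by decide +kernel)

theorem base1 {g : P24} (hg : g ∈ Cfsg.M24) (h1 : ∀ p ∈ ofMask 3416079 ∩ ofMask 340831, g p = p)
    (h2 : g • ofMask 340831 = ofMask 340831) : g = 1 :=
  eq_one_of_fix_stab (v := 0x41dd7316695c23554996a11ed18820) (vi := 0xa21878a9ae2d4897ae17b4e4618820)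
    (a := 3416079 &&& 340831) (by decide +kernel) (by decide +kernel) hg (by rwa [ofMask_land]) h2

theorem base2 {g : P24} (hg : g ∈ Cfsg.M24)
    (h1 : ∀ p ∈ ofMask 340831 \ (ofMask 3416079 ∩ ofMask 340831), g p = p)
    (h2 : g • ofMask 340831 = ofMask 340831) : g = 1 :=
  eq_one_of_fix_stab (v := 0x11dee2a96d046f01d036ace4c4a0c4) (vi := 0x6a0ea315ccad2048c862b06605dd2f)
    (a := 340831 &&& ((3416079 &&& 340831) ^^^ 16777215)) (by decide +kernel) (by decide +kernel) hg
    (by rwa [ofMask_sdiff, ofMask_land]) h2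

theorem lvl : {o | o ∈ Cfsg.octads ∧ f0 (ofMask 340831) o = 6}.ncard = 132 :=
  (level_octads (f0 (ofMask 340831)) (fun m => pc (Nat.land 340831 m))
    (fun _ _ => f0_mask (by norm_num) _) 6).trans (by decide +kernel)


/-- For a dodecad d of the length-24 code and a hexad C on it (a 6-point intersection of d with an octad): the joint stabiliser of d and C in the code's group is isomorphic to the symmetric group of degree 6, and it acts faithfully both on the six points of C and on the six points of d outside C. -/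
theorem result (d : Finset Cfsg.GolayPt) (hd : d ∈ Cfsg.dodecads) (C : Finset Cfsg.GolayPt) (hC : C ∈ Cfsg.hexadsOn d) : Nonempty (↥(MulAction.stabilizer Cfsg.M24 d ⊓ MulAction.stabilizer Cfsg.M24 C) ≃* Equiv.Perm (Fin 6)) ∧ (∀ g ∈ MulAction.stabilizer Cfsg.M24 d ⊓ MulAction.stabilizer Cfsg.M24 C, (∀ p ∈ C, ((g : ↥Cfsg.M24) : Equiv.Perm Cfsg.GolayPt) p = p) → g = 1) ∧ ∀ g ∈ MulAction.stabilizer Cfsg.M24 d ⊓ MulAction.stabilizer Cfsg.M24 C, (∀ p ∈ d \ C, ((g : ↥Cfsg.M24) : Equiv.Perm Cfsg.GolayPt) p = p) → g = 1 := by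
  obtain ⟨h6, o, ho, rfl⟩ := hC
  have hf : f0 d o = 6 := by rw [f0, Finset.inter_comm, h6]
  have e : MulAction.stabilizer Cfsg.M24 d ⊓ MulAction.stabilizer Cfsg.M24 (o ∩ d) =
      MulAction.stabilizer Cfsg.M24 d ⊓ MulAction.stabilizer Cfsg.M24 o := by
    ext g
    simp only [Subgroup.mem_inf, mem_stab_M24]
    refine and_congr_right fun h1 => ⟨fun h2 => ?_, fun h2 => by rw [smul_inter', h1, h2]⟩
    refine octad_eq_of_five_le (smul_mem_octads g.2 ho) ho ?_
    have h3 : o ∩ d ⊆ (g : P24) • o ∩ o := by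
      refine Finset.subset_inter ?_ Finset.inter_subset_left
      rw [← h2]; exact Finset.smul_finset_subset_smul_finset Finset.inter_subset_left
    have := Finset.card_le_card h3
    omega
  have hc := pt_dodecad_octad.card_inf inv_dodecads inv_octads inv2_f0 (trans_of_base dodecad_trans) hd ho
  obtain ⟨k, hk, rfl, rfl⟩ := pt_dodecad_octad _ dod0_mem d hd _ o1_mem o ho (by
    rw [f0_mask (by norm_num), hf]; decide +kernel)
  rw [hf, ncard_level inv_octads inv2_f0 hk, lvl, ncard_dodecads, ← e] at hc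
  have f1 : ∀ g ∈ MulAction.stabilizer Cfsg.M24 (k • ofMask 340831) ⊓
      MulAction.stabilizer Cfsg.M24 (k • ofMask 3416079 ∩ k • ofMask 340831),
      (∀ p ∈ k • ofMask 3416079 ∩ k • ofMask 340831, (g : P24) p = p) → g = 1 := by
    intro g hg hfix
    refine Subtype.ext (eq_one_of_conj (base1 (conj_mem hk g.2) ?_ ?_))
    · rw [conj_fix_iff, smul_inter']; exact hfix
    · rw [conj_smul_iff]; exact hg.1
  refine ⟨iso_perm_six _ (by omega) h6 (fun g hg => hg.2) f1, f1, fun g hg hfix => ?_⟩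
  refine Subtype.ext (eq_one_of_conj (base2 (conj_mem hk g.2) ?_ ?_))
  · rw [conj_fix_iff, smul_sdiff', smul_inter']; exact hfix
  · rw [conj_smul_iff]; exact hg.1

end Cfsg.Agent.S5618
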