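import Mathlib
import Cfsg.Statements.S5619
import Cfsg.Agent.Lib.M24E.Tools
import Cfsg.Agent.Lib.Frob.Quaternion

set_option autoImplicit false
open scoped Pointwise
open Cfsg

namespace Cfsg.Agent.S5619

open CfsgLib.M24E CfsgLib.Golay
open scoped Pointwise

set_option maxRecDepth 100000

theorem abs72 {H : Type} [Group H] [Finite H] (h72 : Nat.card H = 72) (h9 : Nat.card {x : H // x ^ 3 = 1} = 9)
    (h34 : ∀ x : H, x ^ 3 = 1 ∨ x ^ 4 = 1)
    (h2 : ∀ x y : H, x ^ 2 = 1 → y ^ 2 = 1 → x ≠ 1 → y ≠ 1 → (x * y) ^ 3 = 1) :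
    (∀ Q : Sylow 3 H, (Q : Subgroup H).Normal ∧ Nat.card ↥Q = 9 ∧ ∀ x ∈ (Q : Subgroup H), x ^ 3 = 1) ∧
      ∀ P : Sylow 2 H, Nonempty (↥P ≃* QuaternionGroup 2) := by
  have : Fact (Nat.Prime 3) := ⟨Nat.prime_three⟩
  have cop : ∀ (x : H) (a b : ℕ), Nat.Coprime a b → x ^ a = 1 → x ^ b = 1 → x = 1 := fun x a b h h1 h2 => by
    have := pow_gcd_eq_one.2 ⟨h1, h2⟩
    rwa [h, pow_one] at this
  refine ⟨fun Q => ?_, fun P => ?_⟩
  · have hc : Nat.card Q = 9 := by
      rw [Q.card_eq_multiplicity, h72]; decide +kernel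
    have h3 : ∀ x ∈ (Q : Subgroup H), x ^ 3 = 1 := fun x hx => by
      have h1 : x ^ 9 = 1 := by
        have := pow_card_eq_one' (G := Q) (x := ⟨x, hx⟩)
        rw [hc] at this; exact congrArg Subtype.val this
      rcases h34 x with h | h
      · exact h
      · rw [cop x 9 4 (by norm_num) h1 h, one_pow]
    have he : ((Q : Subgroup H) : Set H) = {x : H | x ^ 3 = 1} := by
      refine Set.eq_of_subset_of_ncard_le h3 ?_
      rw [← Nat.card_coe_set_eq, ← Nat.card_coe_set_eq]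
      exact (h9.trans hc.symm).le
    refine ⟨⟨fun x hx g => ?_⟩, hc, h3⟩
    rw [← SetLike.mem_coe, he, Set.mem_ofPred_eq, conj_pow, h3 x hx]; simp
  · have hc : Nat.card P = 8 := by
      rw [P.card_eq_multiplicity, h72]; decide +kernel
    have h8 : ∀ x : P, (x : H) ^ 8 = 1 := fun x => by
      have := pow_card_eq_one' (G := P) (x := x)
      rw [hc] at this; exact congrArg Subtype.val this
    rcases CfsgLib.Frob.cyclic_or_quaternion_of_forall_mem_zpowers P.isPGroup' (fun x y hx hy => by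
      have a1 : (x : H) ^ 2 = 1 := orderOf_dvd_iff_pow_eq_one.1 (by rw [Subgroup.orderOf_coe, hx])
      have a2 : (y : H) ^ 2 = 1 := orderOf_dvd_iff_pow_eq_one.1 (by rw [Subgroup.orderOf_coe, hy])
      have b1 : (x : H) ≠ 1 := fun h => by
        rw [← Subgroup.orderOf_coe, h, orderOf_one] at hx; omega
      have b2 : (y : H) ≠ 1 := fun h => by
        rw [← Subgroup.orderOf_coe, h, orderOf_one] at hy; omega
      have c := cop _ 3 8 (by norm_num) (h2 x y a1 a2 b1 b2) (h8 (x * y))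
      have : y = x⁻¹ := Subtype.ext (eq_inv_of_mul_eq_one_right c)
      rw [this]; exact inv_mem (Subgroup.mem_zpowers x)) with h | ⟨-, n, hn, ⟨e⟩⟩
    · obtain ⟨g, hg⟩ := h.exists_ofOrder_eq_natCard
      have h4 : (g : H) ^ 4 = 1 := by
        rcases h34 g with h | h
        · rw [cop _ 3 8 (by norm_num) h (h8 g), one_pow]
        · exact h
      have := orderOf_dvd_of_pow_eq_one h4
      rw [Subgroup.orderOf_coe, hg, hc] at this
      omega
    · have h1 := Nat.card_congr e.toEquiv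
      rw [hc, Nat.card_eq_fintype_card, QuaternionGroup.card] at h1
      have h3 : 2 ^ n = 2 := by omega
      rw [h3] at e
      exact ⟨e⟩

def FP (d : Finset Cfsg.GolayPt) (p q r : Cfsg.GolayPt) (g : P24) : Prop :=
  ((g • d = d ∧ g p = p) ∧ g q = q) ∧ g r = r

theorem FP_conj (k g : P24) (d : Finset Cfsg.GolayPt) (p q r : Cfsg.GolayPt) :
    FP (k • d) (k p) (k q) (k r) g ↔ FP d p q r (k⁻¹ * g * k) := by
  simp only [FP, conj_smul_iff, Equiv.Perm.mul_apply, Equiv.Perm.inv_eq_iff_eq]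

theorem snd {P : P24 → Prop} (h : ∀ g, P g → FP (ofMask 340831) (pt 0) (pt 1) (pt 2) g) : Sound (ap idq) P
    (okAnd (okS (ap idq) 340831 340831) (okAnd (okPt (ap idq) 0 0) (okAnd (okPt (ap idq) 1 1)
      (okPt (ap idq) 2 2)))) :=
  (sound_okS (chkB_lt chkB_id) fun g _ hP => (h g hP).1.1.1).and
    ((sound_okPt (chkB_lt chkB_id) (by norm_num) (by norm_num) fun g _ hP => (h g hP).1.1.2).and
      ((sound_okPt (chkB_lt chkB_id) (by norm_num) (by norm_num) fun g _ hP => (h g hP).1.2).and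
        (sound_okPt (chkB_lt chkB_id) (by norm_num) (by norm_num) fun g _ hP => (h g hP).2)))

noncomputable def fp (φ : ℕ → ℕ) : Bool :=
  and (and (and (setTo φ 340831 340831) (Nat.beq (φ 0) 0)) (Nat.beq (φ 1) 1)) (Nat.beq (φ 2) 2)

theorem fp_iff {φ : ℕ → ℕ} {g : P24} (h : Rp φ g) :
    fp φ = true ↔ FP (ofMask 340831) (pt 0) (pt 1) (pt 2) g := by
  simp only [fp, FP, Bool.and_eq_true, h.setFix_iff, beq_iff',
    h.pt_eq_iff (show 0 < 24 by norm_num) (show 0 < 24 by norm_num),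
    h.pt_eq_iff (show 1 < 24 by norm_num) (show 1 < 24 by norm_num),
    h.pt_eq_iff (show 2 < 24 by norm_num) (show 2 < 24 by norm_num)]

theorem c72 : Nat.card {g : P24 // g ∈ Cfsg.M24 ∧ FP (ofMask 340831) (pt 0) (pt 1) (pt 2) g} = 72 :=
  (card_of_search chkB_id (snd fun _ h => h) fun _ _ _ h => fp_iff h).trans (by decide +kernel)

theorem c9 : Nat.card {g : P24 // g ∈ Cfsg.M24 ∧ (FP (ofMask 340831) (pt 0) (pt 1) (pt 2) g ∧ g ^ 3 = 1)} = 9 :=
  (card_of_search chkB_id (snd fun _ h => h.1) (t := fun φ => and (fp φ) (powId φ 3)) fun _ _ _ h => by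
    rw [Bool.and_eq_true, fp_iff h, h.powId_iff]).trans (by decide +kernel)

def invs : List ℕ := [0xbae957b6289ba44b1cd0524ac18820, 0x5d9d49a2292d4ccb9e12535e320820,
  0xbadd4290ec7d510b292d88e7230820, 0xb5dd4799509d4895c5833c8ad40820, 0xbaeae9c1522d18db4464399e848820,
  0xb5eae2a62d7d20359e465226460820, 0x5da952c9467b868bc48c3c26968820, 0x5daae7b0e39d132ba9a8890a680820,
  0xb5e9598ce42b9a65a9098b1f090820]

theorem invs_M : ∀ q ∈ invs, isM q = true := (allL_iff _ _).1 (by decide +kernel)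

theorem st : ∀ g ∈ Cfsg.M24, FP (ofMask 340831) (pt 0) (pt 1) (pt 2) g →
    (g ^ 3 = 1 ∨ g ^ 4 = 1) ∧ (g ^ 2 = 1 → g ≠ 1 → ∃ q ∈ invs, pm q = g) :=
  all_of_search chkB_id (snd fun _ h => h)
    (good := fun φ => or (not (fp φ)) (pk (fun φ => and (or (powId φ 3) (powId φ 4))
      (or (not (powId φ 2)) (or (isId φ) (anyL invs fun q => eqF (ap q) φ)))) φ))
    (fun g _ hP φ hφ h => by
      rw [(fp_iff hφ).2 hP, Bool.not_true, Bool.false_or, pk_eq, Bool.and_eq_true, Bool.or_eq_true,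
        hφ.mk.powId_iff, hφ.mk.powId_iff] at h
      refine ⟨h.1, fun a b => ?_⟩
      have h2 := h.2
      rw [(hφ.mk.powId_iff 2).2 a, Bool.not_true, Bool.false_or, Bool.or_eq_true, hφ.mk.isId_iff,
        anyL_iff] at h2
      obtain ⟨q, hq, h3⟩ := h2.resolve_left b
      exact ⟨q, hq, ((pm_rp (invs_M q hq)).eqF_iff hφ.mk).1 h3⟩) (by decide +kernel)

theorem inv3 {a b : ℕ} (ha : a ∈ invs) (hb : b ∈ invs) : (pm a * pm b) ^ 3 = 1 := by
  have h : allL invs (fun a => allL invs fun b => powId (fun x => ap a (ap b x)) 3) = true := by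
    decide +kernel
  exact (((pm_rp (invs_M a ha)).mul (pm_rp (invs_M b hb))).powId_iff 3).1
    ((allL_iff _ _).1 ((allL_iff _ _).1 h a ha) b hb)

theorem cover : frc (tripM.orb gDod 1400 26) (fun W => allLT 24 fun a => or (not (tb 340831 a))
    (allLT 24 fun b => or (not (tb 340831 b)) (or (Nat.beq a b) (allLT 24 fun c => or (not (tb 340831 c))
      (or (Nat.beq a c) (or (Nat.beq b c) (tb W (Nat.add (Nat.mul a 576) (Nat.add (Nat.mul b 24) c)))))))))
    = true := by decide +kernel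

theorem trans3 {p q r : Cfsg.GolayPt} (hp : p ∈ ofMask 340831) (hq : q ∈ ofMask 340831)
    (hr : r ∈ ofMask 340831) (hpq : p ≠ q) (hpr : p ≠ r) (hqr : q ≠ r) :
    ∃ k ∈ Cfsg.M24, k • ofMask 340831 = ofMask 340831 ∧ k (pt 0) = p ∧ k (pt 1) = q ∧ k (pt 2) = r := by
  have h := cover
  have ne : ∀ {a b : Cfsg.GolayPt}, a ≠ b → Nat.beq (ix a) (ix b) = false := fun h => by
    rw [← Bool.not_eq_true, beq_iff', ix_inj]; exact h
  rw [frc_eq] at h
  have h1 := of_allLT h (ix_lt p)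
  rw [tb_ix.2 hp, Bool.not_true, Bool.false_or] at h1
  have h2 := of_allLT h1 (ix_lt q)
  rw [tb_ix.2 hq, ne hpq, Bool.not_true, Bool.false_or, Bool.false_or] at h2
  have h3 := of_allLT h2 (ix_lt r)
  rw [tb_ix.2 hr, ne hpr, ne hqr, Bool.not_true, Bool.false_or, Bool.false_or, Bool.false_or] at h3
  obtain ⟨k, hk, h4, h5⟩ := tripM.orb_spec _ gDod_spec (x0 := 26) (show 26 < 13824 by norm_num) 1400 h3
  have a := ix_lt p
  have b := ix_lt q
  have c := ix_lt r
  have h6 : (k (pt 0), k (pt 1), k (pt 2)) = (pt ((ix p * 576 + (ix q * 24 + ix r)) / 576),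
      pt ((ix p * 576 + (ix q * 24 + ix r)) / 24 % 24), pt ((ix p * 576 + (ix q * 24 + ix r)) % 24)) := h5
  rw [show (ix p * 576 + (ix q * 24 + ix r)) / 576 = ix p by omega,
    show (ix p * 576 + (ix q * 24 + ix r)) / 24 % 24 = ix q by omega,
    show (ix p * 576 + (ix q * 24 + ix r)) % 24 = ix r by omega, pt_ix, pt_ix, pt_ix] at h6
  simp only [Prod.mk.injEq] at h6
  exact ⟨k, hk, h4, h6⟩


/-- In the group of the length-24 code, the subgroup fixing a dodecad setwise and three of its points individually (a group of order 72) has a normal Sylow 3-subgroup that is elementary abelian of order 9, and its Sylow 2-subgroups are quaternion of order 8. -/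
theorem result (d : Finset Cfsg.GolayPt) (hd : d ∈ Cfsg.dodecads) (p q r : Cfsg.GolayPt) (hp : p ∈ d) (hq : q ∈ d) (hr : r ∈ d) (hpq : p ≠ q) (hpr : p ≠ r) (hqr : q ≠ r) : (∀ Q : Sylow 3 ↥(MulAction.stabilizer Cfsg.M24 d ⊓ MulAction.stabilizer Cfsg.M24 p ⊓ MulAction.stabilizer Cfsg.M24 q ⊓ MulAction.stabilizer Cfsg.M24 r), (Q : Subgroup ↥(MulAction.stabilizer Cfsg.M24 d ⊓ MulAction.stabilizer Cfsg.M24 p ⊓ MulAction.stabilizer Cfsg.M24 q ⊓ MulAction.stabilizer Cfsg.M24 r)).Normal ∧ Nat.card ↥Q = 9 ∧ ∀ x ∈ (Q : Subgroup ↥(MulAction.stabilizer Cfsg.M24 d ⊓ MulAction.stabilizer Cfsg.M24 p ⊓ MulAction.stabilizer Cfsg.M24 q ⊓ MulAction.stabilizer Cfsg.M24 r)), x ^ 3 = 1) ∧ ∀ P : Sylow 2 ↥(MulAction.stabilizer Cfsg.M24 d ⊓ MulAction.stabilizer Cfsg.M24 p ⊓ MulAction.stabilizer Cfsg.M24 q ⊓ MulAction.stabilizer Cfsg.M24 r), Nonempty (↥P ≃* QuaternionGroup 2) := by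
  obtain ⟨k, hk, rfl, rfl, rfl, rfl⟩ : ∃ k ∈ Cfsg.M24, k • ofMask 340831 = d ∧ k (pt 0) = p ∧ k (pt 1) = q ∧
      k (pt 2) = r := by
    obtain ⟨g, hg, rfl⟩ := dodecad_trans d hd
    have m : ∀ x ∈ g • ofMask 340831, g⁻¹ x ∈ ofMask 340831 := fun x hx => by
      rw [← smul_mem_smul' g, app_inv]; exact hx
    obtain ⟨k, hk, h1, h2, h3, h4⟩ := trans3 (m p hp) (m q hq) (m r hr) (g⁻¹.injective.ne hpq)
      (g⁻¹.injective.ne hpr) (g⁻¹.injective.ne hqr)
    refine ⟨g * k, mul_mem hg hk, by rw [mul_smul, h1], ?_, ?_, ?_⟩ <;>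
      simp only [Equiv.Perm.mul_apply, h2, h3, h4, app_inv]
  have cp : ∀ (x : P24) (n : ℕ), (k⁻¹ * x * k) ^ n = 1 ↔ x ^ n = 1 := fun x n => by
    have := conj_pow (a := k⁻¹) (b := x) (i := n)
    rw [inv_inv] at this
    rw [this]; exact ⟨eq_one_of_conj, fun h => by rw [h]; simp⟩
  refine abs72 ?_ ?_ (fun x => ?_) fun x y a b c d => ?_
  · rw [card_subgroup_eq _ (P := FP (k • ofMask 340831) (k (pt 0)) (k (pt 1)) (k (pt 2))) fun _ => Iff.rfl,
      ← c72]
    exact card_conj_congr' hk fun g _ => FP_conj k g _ _ _ _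
  · rw [← c9, ← card_conj_congr' hk (P := fun g =>
      FP (k • ofMask 340831) (k (pt 0)) (k (pt 1)) (k (pt 2)) g ∧ g ^ 3 = 1) fun g _ => by rw [FP_conj, cp]]
    exact Nat.card_congr
      { toFun := fun x => ⟨x.1.1.1, x.1.1.2, x.1.2, congrArg (fun y => y.1.1) x.2⟩
        invFun := fun x => ⟨⟨⟨x.1, x.2.1⟩, x.2.2.1⟩, Subtype.ext (Subtype.ext x.2.2.2)⟩
        left_inv := fun _ => rfl
        right_inv := fun _ => rfl }
  · have := (st _ (conj_mem hk x.1.2) ((FP_conj k _ _ _ _ _).1 x.2)).1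
    rw [cp, cp] at this
    exact this.imp (fun h => Subtype.ext (Subtype.ext h)) fun h => Subtype.ext (Subtype.ext h)
  · obtain ⟨u, hu, e1⟩ := (st _ (conj_mem hk x.1.2) ((FP_conj k _ _ _ _ _).1 x.2)).2
      ((cp _ 2).2 (congrArg (fun y => y.1.1) a)) fun h => c (Subtype.ext (Subtype.ext (eq_one_of_conj h)))
    obtain ⟨v, hv, e2⟩ := (st _ (conj_mem hk y.1.2) ((FP_conj k _ _ _ _ _).1 y.2)).2
      ((cp _ 2).2 (congrArg (fun y => y.1.1) b)) fun h => d (Subtype.ext (Subtype.ext (eq_one_of_conj h)))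
    have h3 := inv3 hu hv
    have e : k⁻¹ * x.1.1 * k * (k⁻¹ * y.1.1 * k) = k⁻¹ * (x.1.1 * y.1.1) * k := by group
    rw [e1, e2, e, cp] at h3
    exact Subtype.ext (Subtype.ext h3)

end Cfsg.Agent.S5619
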