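import Mathlib
import Cfsg.Statements.S5624
import Cfsg.Agent.Lib.AbsGolay.Basic

set_option autoImplicit false
open Cfsg

namespace Cfsg.Agent.S5624

open CfsgLib.AbsGolay

/-- Let C be a self-dual binary code of length 24 with minimum weight at least 8 (a 12-dimensional subspace of the 24-dimensional space over the field with two elements, any two of whose words have dot product zero, with no non-zero word of weight below 8 — an abstract extended binary Golay code). Then C is spanned, as a vector space over the field with two elements, by its words of weight 8. -/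
theorem result (C : Submodule (ZMod 2) (Fin 24 → ZMod 2)) (hdim : Module.finrank (ZMod 2) C = 12) (horth : ∀ v ∈ C, ∀ w ∈ C, ∑ i, v i * w i = 0) (hmin : ∀ w ∈ C, w ≠ 0 → 8 ≤ hammingNorm w) : Submodule.span (ZMod 2) {w : Fin 24 → ZMod 2 | w ∈ C ∧ hammingNorm w = 8} = C := by
  apply le_antisymm
  · rw [Submodule.span_le]
    exact fun w hw => hw.1
  · intro w hw
    apply octad_induction C (by simp) hdim hmin
      (fun w => w ∈ Submodule.span (ZMod 2) {w : Fin 24 → ZMod 2 | w ∈ C ∧ hammingNorm w = 8})
      (Submodule.zero_mem _) _ w hw
    intro w _ o ho ho8 h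
    exact Submodule.add_mem _ h (Submodule.subset_span ⟨ho, ho8⟩)

end Cfsg.Agent.S5624
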