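import Mathlib
import Cfsg.Statements.S5625
import Cfsg.Agent.Lib.Steiner.Count

set_option autoImplicit false
open Cfsg

namespace Cfsg.Agent.S5625

open CfsgLib.Steiner Finset

theorem moment {α : Type*} [Fintype α] [DecidableEq α] (B : Set (Finset α)) (Y : Finset α) (j : ℕ) :
    ∑ c ∈ blocks B, (#(c ∩ Y)).choose j = ∑ s ∈ powersetCard j Y, lam B s := by
  have h1 : ∀ c : Finset α, (#(c ∩ Y)).choose j =
      ∑ s ∈ powersetCard j Y, if s ⊆ c then 1 else 0 := by
    intro c
    rw [← card_filter, ← card_powersetCard]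
    congr 1
    ext s
    simp only [mem_powersetCard, mem_filter, subset_inter_iff]
    tauto
  simp only [h1]
  rw [sum_comm]
  refine sum_congr rfl fun s _ => ?_
  rw [← card_filter, lam]

/-- In any Steiner system S(5, 8, 24) and for any set Y of three points, the blocks meeting Y in exactly 3, 2, 1 and 0 points number 21, 168, 360 and 210 respectively (so there are 759 blocks in all). -/
theorem result (α : Type*) [Fintype α] [DecidableEq α] (hα : Fintype.card α = 24) (B : Set (Finset α)) (hB : Cfsg.IsSteinerSystem 5 8 B) (Y : Finset α) (hY : Y.card = 3) : {b : Finset α | b ∈ B ∧ (b ∩ Y).card = 3}.ncard = 21 ∧ {b : Finset α | b ∈ B ∧ (b ∩ Y).card = 2}.ncard = 168 ∧ {b : Finset α | b ∈ B ∧ (b ∩ Y).card = 1}.ncard = 360 ∧ {b : Finset α | b ∈ B ∧ (b ∩ Y).card = 0}.ncard = 210 := by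
  have l0 : ∀ s ∈ powersetCard 0 Y, lam B s = 759 := fun s hs =>
    lam_eq hB s (mem_powersetCard.1 hs).2 hα (by norm_num) (by decide) (by decide)
  have l1 : ∀ s ∈ powersetCard 1 Y, lam B s = 253 := fun s hs =>
    lam_eq hB s (mem_powersetCard.1 hs).2 hα (by norm_num) (by decide) (by decide)
  have l2 : ∀ s ∈ powersetCard 2 Y, lam B s = 77 := fun s hs =>
    lam_eq hB s (mem_powersetCard.1 hs).2 hα (by norm_num) (by decide) (by decide)
  have l3 : ∀ s ∈ powersetCard 3 Y, lam B s = 21 := fun s hs =>
    lam_eq hB s (mem_powersetCard.1 hs).2 hα (by norm_num) (by decide) (by decide)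
  have e : ∀ i : ℕ, {b : Finset α | b ∈ B ∧ (b ∩ Y).card = i}.ncard =
      #((blocks B).filter fun b => #(b ∩ Y) = i) := by
    intro i
    rw [← Set.ncard_coe_finset]
    congr 1
    ext b
    simp [mem_blocks]
  have m : ∀ j : ℕ, ∑ c ∈ blocks B, (#(c ∩ Y)).choose j =
      ∑ i ∈ range 4, #((blocks B).filter fun b => #(b ∩ Y) = i) * i.choose j := by
    intro j
    rw [← sum_fiberwise_of_maps_to (s := blocks B) (t := range 4) (g := fun b => #(b ∩ Y))
      (by
        intro b _
        have := card_le_card (inter_subset_right (s₁ := b) (s₂ := Y))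
        rw [mem_range]; omega)]
    refine sum_congr rfl fun i _ => ?_
    rw [← smul_eq_mul, ← sum_const]
    refine sum_congr rfl fun b hb => ?_
    rw [(mem_filter.1 hb).2]
  have m0 := m 0
  have m1 := m 1
  have m2 := m 2
  have m3 := m 3
  rw [moment, sum_congr rfl l0] at m0
  rw [moment, sum_congr rfl l1] at m1
  rw [moment, sum_congr rfl l2] at m2
  rw [moment, sum_congr rfl l3] at m3
  simp only [sum_const, card_powersetCard, hY, sum_range_succ, sum_range_zero, smul_eq_mul]
    at m0 m1 m2 m3
  simp only [Nat.choose] at m0 m1 m2 m3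
  rw [e, e, e, e]
  omega

end Cfsg.Agent.S5625
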