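import Mathlib
import Cfsg.Statements.S5627
import Cfsg.Agent.Lib.M24E.Plane

set_option autoImplicit false
open Cfsg

namespace Cfsg.Agent.S5627

open CfsgLib.M24E CfsgLib.Golay
open scoped Pointwise


/-- In a projective plane of order 4 (a Steiner system S(2, 5, 21)), call a set of points independent when no line meets it in more than two points. There are exactly 2520 independent 4-sets and exactly 168 independent 6-sets (hyperovals), and every independent 4-set lies in exactly one hyperoval. -/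
theorem result {α : Type*} [Fintype α] [DecidableEq α] (hα : Fintype.card α = 21) (L : Set (Finset α)) (hL : Cfsg.IsSteinerSystem 2 5 L) : {S : Finset α | (S.card = 4 ∧ ∀ l ∈ L, (l ∩ S).card ≤ 2)}.ncard = 2520 ∧ {H : Finset α | (H.card = 6 ∧ ∀ l ∈ L, (l ∩ H).card ≤ 2)}.ncard = 168 ∧ ∀ S : Finset α, (S.card = 4 ∧ ∀ l ∈ L, (l ∩ S).card ≤ 2) → ∃! H : Finset α, (H.card = 6 ∧ ∀ l ∈ L, (l ∩ H).card ≤ 2) ∧ S ⊆ H := by
  obtain ⟨ι, h1, h2⟩ := exists_emb hα hL
  refine ⟨(emb_ncard h1 h2 4).trans ncard_four, (emb_ncard h1 h2 6).trans ncard_ho, fun S hS => ?_⟩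
  obtain ⟨T, ⟨hT, h3⟩, h4⟩ := existsUnique_ho (S := S.map ι) (by rw [Finset.card_map, hS.1])
    ((emb_ind h1 h2 S).1 hS.2)
  obtain ⟨H, rfl⟩ := emb_surj h1 hT.2.1
  refine ⟨H, ⟨⟨by rw [← hT.1, Finset.card_map], (emb_ind h1 h2 H).2 hT.2⟩, Finset.map_subset_map.1 h3⟩,
    fun K hK => Finset.map_injective ι (h4 _ ⟨⟨by rw [Finset.card_map, hK.1.1], (emb_ind h1 h2 K).1 hK.1.2⟩,
      Finset.map_subset_map.2 hK.2⟩)⟩

end Cfsg.Agent.S5627
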