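import Mathlib
import Cfsg.Statements.S5628
import Cfsg.Agent.Lib.M24E.Plane
import Cfsg.Agent.Lib.Steiner.Aut

set_option autoImplicit false
open Cfsg

namespace Cfsg.Agent.S5628

open CfsgLib.M24E CfsgLib.Golay
open scoped Pointwise


/-- In a projective plane of order 4 (a Steiner system S(2, 5, 21)), every permutation of the six points of a hyperoval (a 6-set met by no line in more than two points) is the restriction of exactly one automorphism of the plane. In particular the stabiliser of a hyperoval in the automorphism group is isomorphic to the symmetric group of degree 6 acting faithfully on the hyperoval. -/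
theorem result {α : Type*} [Fintype α] [DecidableEq α] (hα : Fintype.card α = 21) (L : Set (Finset α)) (hL : Cfsg.IsSteinerSystem 2 5 L) (H : Finset α) (hH : (H.card = 6 ∧ ∀ l ∈ L, (l ∩ H).card ≤ 2)) (σ : Equiv.Perm ↥H) : ∃! g : Equiv.Perm α, g ∈ Cfsg.setSystemAut L ∧ ∀ p : ↥H, g p = σ p := by
  obtain ⟨ι, h1, h2⟩ := exists_emb hα hL
  have h6 : (H.map ι).card = 6 := by rw [Finset.card_map, hH.1]
  have hI := (emb_ind h1 h2 H).1 hH.2
  have uniq : ∀ τ ∈ Cfsg.setSystemAut L, (∀ p ∈ H, τ p = p) → τ = 1 := by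
    intro τ hτ hfix
    ext a
    by_cases ha : a ∈ H
    · exact hfix a ha
    obtain ⟨o, o', hne, ho, ho', c, c'⟩ := ho_secants h6 hI (p := ι a) (by rwa [Finset.mem_map'])
      ((h1 _).2 ⟨a, rfl⟩)
    have key : ∀ o, (o ∈ Cfsg.octads ∧ Y0 ⊆ o) → (ι a ∈ o ∧ (o ∩ H.map ι).card = 2) →
        ∃ l ∈ L, l.map ι ∪ Y0 = o ∧ a ∈ l ∧ τ a ∈ l := by
      intro o ho c
      obtain ⟨l, rfl⟩ := emb_line h1 ho.2
      have hl := (h2 l).2 ho.1
      have al : a ∈ l := by
        have := c.1
        rwa [Finset.mem_union, or_iff_left ((h1 _).2 ⟨a, rfl⟩), Finset.mem_map'] at this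
      have e : l.image τ = l := by
        refine steiner_eq_of_le hL (CfsgLib.Steiner.image_mem_of_aut hτ hl) hl ?_
        rw [← c.2, emb_inter h1]
        refine Finset.card_le_card fun p hp => ?_
        rw [Finset.mem_inter] at hp ⊢
        exact ⟨Finset.mem_image.2 ⟨p, hp.1, hfix p hp.2⟩, hp.1⟩
      exact ⟨l, hl, rfl, al, e ▸ Finset.mem_image_of_mem τ al⟩
    obtain ⟨l, hl, rfl, a1, a2⟩ := key o ho c
    obtain ⟨l', hl', rfl, b1, b2⟩ := key o' ho' c'
    by_contra hc
    refine hne ?_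
    rw [steiner_eq_of_le hL hl hl' ?_]
    have : ({τ a, a} : Finset α) ⊆ l ∩ l' := by
      intro x hx
      rcases Finset.mem_insert.1 hx with rfl | hx
      · exact Finset.mem_inter.2 ⟨a2, b2⟩
      · rw [Finset.mem_singleton.1 hx]; exact Finset.mem_inter.2 ⟨a1, b1⟩
    have h3 := Finset.card_le_card this
    rwa [Finset.card_pair (show τ a ≠ a from hc)] at h3
  let ε : H ≃ (H.map ι : Finset Cfsg.GolayPt) := Equiv.ofBijective
    (fun p => ⟨ι p, Finset.mem_map_of_mem ι p.2⟩)
    ⟨fun p q h => Subtype.ext (ι.injective (congrArg Subtype.val h)), fun q => by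
      obtain ⟨p, hp, e⟩ := Finset.mem_map.1 q.2
      exact ⟨⟨p, hp⟩, Subtype.ext e⟩⟩
  obtain ⟨g, hg, g1, g2⟩ := ho_induce h6 hI (ε.permCongr σ)
  have hf : ∀ a, ∃ b, ι b = g (ι a) := fun a => (h1 _).1 (by
    rw [← g1, smul_mem_smul']; exact (h1 _).2 ⟨a, rfl⟩)
  choose f hf using hf
  have hinj : Function.Injective f := fun a b h => ι.injective (g.injective (by rw [← hf, ← hf, h]))
  have hmem : Equiv.ofBijective f hinj.bijective_of_finite ∈ Cfsg.setSystemAut L := by
    refine CfsgLib.Steiner.mem_aut_of_image fun l hl => (h2 _).2 ?_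
    have := smul_mem_octads hg ((h2 l).1 hl)
    rw [smul_union', g1] at this
    convert this using 2
    ext p
    simp only [Finset.mem_map, Finset.mem_image, Finset.mem_smul_finset]
    constructor
    · rintro ⟨_, ⟨a, ha, rfl⟩, rfl⟩; exact ⟨ι a, ⟨a, ha, rfl⟩, (hf a).symm⟩
    · rintro ⟨_, ⟨a, ha, rfl⟩, rfl⟩; exact ⟨f a, ⟨a, ha, rfl⟩, hf a⟩
  have hres : ∀ p : H, Equiv.ofBijective f hinj.bijective_of_finite p = σ p := fun p => by
    apply ι.injective
    have := g2 (ε p)
    rw [Equiv.permCongr_apply, Equiv.symm_apply_apply] at this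
    exact (hf p).trans this
  refine ⟨_, ⟨hmem, hres⟩, fun τ hτ => ?_⟩
  have := uniq _ (mul_mem (inv_mem hτ.1) hmem) fun p hp => by
    rw [Equiv.Perm.mul_apply, Equiv.Perm.inv_eq_iff_eq, hτ.2 ⟨p, hp⟩]; exact hres ⟨p, hp⟩
  exact inv_mul_eq_one.1 this

end Cfsg.Agent.S5628
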