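import Mathlib
import Cfsg.Statements.S5633
import Cfsg.Agent.Lib.ClMax.SLStab

set_option autoImplicit false
open Cfsg

namespace Cfsg.Agent.S5633

/-- For a finite field F and complementary non-zero subspaces W ⊕ U = F^n with dim W < dim U, the elements of SL_n(F) stabilising both W and U form a subgroup that is not maximal in SL_n(F): some subgroup lies strictly between it and SL_n(F). -/
theorem result {F : Type*} [Field F] [Fintype F] (n : ℕ) (W U : Submodule F (Fin n → F)) (hW0 : W ≠ ⊥) (hWU : W ⊓ U = ⊥) (hWU' : W ⊔ U = ⊤) (hdim : Module.finrank F W < Module.finrank F U) : ∃ K : Subgroup (Matrix.GeneralLinearGroup (Fin n) F), Cfsg.Geo.subspaceStabilizer W ⊓ Cfsg.Geo.subspaceStabilizer U ⊓ Cfsg.Geo.specialLinear (Fin n) F < K ∧ K < Cfsg.Geo.specialLinear (Fin n) F := by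
  have hU : U ≠ ⊥ := by
    rintro rfl
    simp at hdim
  rw [CfsgLib.ClMax.specialLinear_eq, CfsgLib.ClMax.subspaceStabilizer_eq,
    CfsgLib.ClMax.subspaceStabilizer_eq, ← Subgroup.comap_inf, ← Subgroup.comap_inf]
  exact CfsgLib.ClMax.exists_between_comap _ (CfsgLib.ClMax.stabV_compl_between hW0 hU hWU)

end Cfsg.Agent.S5633
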