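import Cfsg.Statements.S5635
import Cfsg.Agent.Lib.SLCases.Decomp

set_option autoImplicit false
open Cfsg CfsgLib.SLCases CfsgLib.ClMax

namespace Cfsg.Agent.S5635

/-- For a finite field F with q elements and n ≥ 13, let D be a decomposition of F^n into t ≥ 2 independent subspaces of equal dimension m spanning F^n, where m = 1 and q ≤ 4, or m = 2 and q = 2. Then the elements of SL_n(F) permuting the members of D form a subgroup that is not maximal: some subgroup lies strictly between it and SL_n(F). -/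
theorem result {F : Type*} [Field F] [Fintype F] (n : ℕ) (hn : 13 ≤ n) {t : ℕ} (m : ℕ) (D : Fin t → Submodule F (Fin n → F)) (hD : Cfsg.Geo.IsMDecomposition m D) (h : (m = 1 ∧ Fintype.card F ≤ 4) ∨ (m = 2 ∧ Fintype.card F = 2)) : ∃ K : Subgroup (Matrix.GeneralLinearGroup (Fin n) F), Cfsg.Geo.decompositionStabilizer D ⊓ Cfsg.Geo.specialLinear (Fin n) F < K ∧ K < Cfsg.Geo.specialLinear (Fin n) F := by
  have h3 : 3 ≤ Fintype.card (Fin n) := by simp; omega
  have hd := decomp_dim hD
  rw [Fintype.card_fin] at hd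
  have key : ∀ M : Subgroup (Matrix.GeneralLinearGroup (Fin n) F), Geo.decompositionStabilizer D ⊓ Geo.specialLinear (Fin n) F ≤ M → ¬ Geo.specialLinear (Fin n) F ≤ M → (∃ g ∈ M ⊓ Geo.specialLinear (Fin n) F, g ∉ Geo.decompositionStabilizer D) → ∃ K : Subgroup (Matrix.GeneralLinearGroup (Fin n) F), Cfsg.Geo.decompositionStabilizer D ⊓ Cfsg.Geo.specialLinear (Fin n) F < K ∧ K < Cfsg.Geo.specialLinear (Fin n) F := by
    rintro M h1 h2 ⟨g, hg, hg'⟩
    obtain ⟨k, hk, hk'⟩ := SetLike.not_le_iff_exists.1 h2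
    exact exists_between_of (le_inf h1 inf_le_right) inf_le_right ⟨g, hg, fun h => hg' h.1⟩ ⟨k, hk, fun h => hk' h.1⟩
  rcases h with ⟨rfl, hq⟩ | ⟨rfl, hq⟩
  · have h1 := Fintype.one_lt_card (α := F)
    have h2 : Fintype.card F = 2 ∨ Fintype.card F = 3 ∨ Fintype.card F = 4 := by omega
    rcases h2 with h2 | h2 | h2
    · obtain ⟨W, a, b, c, d⟩ := mono_two h2 hD
      exact key _ (inf_le_left.trans c) (not_le_stab a b) (d (by omega))
    · obtain ⟨Q, a, c, d⟩ := mono_three h2 hD
      exact key _ (inf_le_left.trans c) (not_le_quad h3 a) (d (by omega))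
    · obtain ⟨σ, f, a, c, d⟩ := mono_four h2 hD
      exact key _ (inf_le_left.trans c) (not_le_unitary h3 a) (d (by omega))
  · obtain ⟨f, a, c, d⟩ := plane_symp hD (Or.inl hq)
    exact key _ c (not_le_symp h3 a) d

end Cfsg.Agent.S5635
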