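import Cfsg.Statements.S5648
import Cfsg.Agent.Lib.CasesSp.Small

set_option autoImplicit false
open Cfsg

namespace Cfsg.Agent.S5648

open CfsgLib CfsgLib.CasesSp CfsgLib.Asch Cfsg.Geo Matrix

/-- Over the field with 2 elements and for m ≥ 7, let D be a decomposition of F^(2m) into t pairwise orthogonal non-degenerate 2-dimensional subspaces for the standard alternating form (t = m ≥ 2). Then the elements of Sp_2m(2) permuting the members of D form a subgroup that is not maximal: some subgroup lies strictly between it and Sp_2m(2). -/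
theorem result {F : Type*} [Field F] [Fintype F] (m : ℕ) (hm : 7 ≤ m) (hq : Fintype.card F = 2) {t : ℕ} (D : Fin t → Submodule F (Fin m ⊕ Fin m → F)) (hD : Cfsg.Geo.IsNondegenerateMDecomposition (Cfsg.sympForm m F) 2 D) : ∃ K : Subgroup (Matrix.GeneralLinearGroup (Fin m ⊕ Fin m) F), Cfsg.Geo.decompositionStabilizer D ⊓ Cfsg.spGL m F < K ∧ K < Cfsg.spGL m F := by
  classical
  have hf := sympForm_symp (F := F) m
  have h2 := two_eq_zero hq
  have ht : t * 2 = Fintype.card (Fin m ⊕ Fin m) := card_eq_of_decomp hD.decomp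
  have ht3 : 3 ≤ t := by simp at ht; omega
  obtain ⟨Q, hQ1, hQ2, hQ3, hQ4⟩ := quad_of_two hq hf hD
  have hne : ∀ i, ∃ w ∈ D i, w ≠ 0 := fun i => (Submodule.ne_bot_iff _).1 fun h0 => by
    have := hD.decomp.finrank_eq i
    rw [h0, finrank_bot] at this
    omega
  choose a ha ha0 using hne
  let i0 : Fin t := ⟨0, by omega⟩
  let i1 : Fin t := ⟨1, by omega⟩
  let i2 : Fin t := ⟨2, by omega⟩
  have h01 : i0 ≠ i1 := by simp [i0, i1]
  have h02 : i0 ≠ i2 := by simp [i0, i2]
  have h12 : i1 ≠ i2 := by simp [i1, i2]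
  have hx : Q (a i0 + a i1 + a i2) = 1 := by
    have e1 : ∀ i, Q (a i) = 1 := fun i => by
      have := hQ4 (Pi.single i (a i)) fun j => by
        by_cases h : j = i
        · subst h; simpa using ha j
        · simp [h]
      rw [Finset.sum_pi_single', if_pos (Finset.mem_univ _), Finset.sum_eq_single i] at this
      · simpa [ha0 i] using this
      · intro j _ hj; simp [hj]
      · simp
    have e2 := hQ2 (a i0) (a i1)
    have e3 := hQ2 (a i0 + a i1) (a i2)
    rw [hf.bilinear.add_left, hD.orthogonal _ _ h02 _ (ha _) _ (ha _),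
      hD.orthogonal _ _ h12 _ (ha _) _ (ha _)] at e3
    rw [hD.orthogonal _ _ h01 _ (ha _) _ (ha _)] at e2
    simp only [QuadraticMap.polar, e1] at e2 e3
    linear_combination e2 + e3 + h2
  obtain ⟨s, hs, hsv⟩ := exists_tv hf (a i0 + a i1 + a i2) 1
  refine ClMax.exists_between_of (M := quadSimilarityGroup Q ⊓ Cfsg.spGL m F)
    (fun g hg => ⟨⟨1, fun v => by rw [hQ3 g hg]; simp⟩, hg.2⟩) inf_le_right ⟨s, ⟨⟨1, fun v => ?_⟩, hs⟩, ?_⟩ ?_
  · have e := hQ2 v ((1 * Cfsg.sympForm m F (a i0 + a i1 + a i2) v) • (a i0 + a i1 + a i2))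
    rw [QuadraticMap.polar, hQ1.smul, hx, hf.bilinear.smul_right, hf.skew v] at e
    rw [hsv]
    simp only [Units.val_one]
    linear_combination e
  · rintro ⟨⟨σ, hσ⟩, -⟩
    obtain ⟨v, hv, hv'⟩ := (hD.nondegenerate i0 _ (ha i0) (ha0 i0)).2
    have h1 : Cfsg.sympForm m F (a i0 + a i1 + a i2) v = 1 := by
      rw [hf.bilinear.add_left, hf.bilinear.add_left, hD.orthogonal _ _ h01.symm _ (ha _) _ hv,
        hD.orthogonal _ _ h02.symm _ (ha _) _ hv, add_zero, add_zero]
      exact (cases_two hq _).resolve_left hv'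
    have h3 : v + (a i0 + a i1 + a i2) ∈ D (σ i0) := by
      have : (s : Matrix _ _ F) *ᵥ v ∈ D (σ i0) := hσ i0 ▸ ⟨v, hv, rfl⟩
      rwa [hsv, h1, one_mul, one_smul] at this
    have key : ∀ i j, i0 ≠ i → i0 ≠ j → i ≠ j → v + (a i0 + a i + a j) ∈ D (σ i0) → i = σ i0 :=
      fun i j h0i h0j hij h => by
        by_contra hc
        obtain ⟨u, hu, hu'⟩ := (hD.nondegenerate i _ (ha i) (ha0 i)).1
        have := hD.orthogonal _ _ hc u hu _ h
        rw [hf.bilinear.add_right, hf.bilinear.add_right, hf.bilinear.add_right,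
          hD.orthogonal _ _ h0i.symm u hu _ hv, hD.orthogonal _ _ h0i.symm u hu _ (ha _),
          hD.orthogonal _ _ hij u hu _ (ha _)] at this
        exact hu' (by simpa using this)
    exact h12 ((key i1 i2 h01 h02 h12 h3).trans
      (key i2 i1 h02 h01 h12.symm (by rwa [add_right_comm])).symm)
  · by_contra hc
    push Not at hc
    exact not_le_quad hf (by simp; omega) hQ2 fun g hg => (hc g hg).1

end Cfsg.Agent.S5648
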