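import Cfsg.Statements.S5667
import Cfsg.Agent.Lib.CasesSp.Small

set_option autoImplicit false
open Cfsg

namespace Cfsg.Agent.S5667

open CfsgLib CfsgLib.CasesSp CfsgLib.Asch Cfsg.Geo Matrix

/-- Over the field with 3 elements and for m ≥ 7, suppose the standard alternating form on F^(2m) is similar, through P and e, to the tensor product of a non-degenerate symplectic form f₁ on F^(n₁) and a non-degenerate symmetric bilinear form f₂ on F^3. Then the elements of Sp_2m(3) in the stabiliser of this tensor decomposition form a subgroup that is not maximal: some subgroup lies strictly between it and Sp_2m(3). -/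
theorem result {F : Type*} [Field F] [Fintype F] (m : ℕ) (hm : 7 ≤ m) (hq : Fintype.card F = 3) (n₁ : ℕ) (e : (Fin m ⊕ Fin m) ≃ Fin n₁ × Fin 3) (P : Matrix.GeneralLinearGroup (Fin m ⊕ Fin m) F) (f₁ : (Fin n₁ → F) → (Fin n₁ → F) → F) (f₂ : (Fin 3 → F) → (Fin 3 → F) → F) (hf₁ : Cfsg.Geo.IsSymplecticForm f₁) (hf₂ : Cfsg.Geo.IsSymmetricForm f₂) (hT : Cfsg.Geo.IsTensorFormStructure id (Cfsg.sympForm m F) f₁ f₂ e P) : ∃ K : Subgroup (Matrix.GeneralLinearGroup (Fin m ⊕ Fin m) F), Cfsg.Geo.tensorProductSubgroup n₁ 3 e P ⊓ Cfsg.spGL m F < K ∧ K < Cfsg.spGL m F := by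
  have hf := sympForm_symp (F := F) m
  have hc : 2 * m = n₁ * 3 := by simpa [two_mul] using Fintype.card_congr e
  have hn : 2 ≤ n₁ := by omega
  have hd : TensorData (RingHom.id F) (Cfsg.sympForm m F)
      (tensorProductSubgroup n₁ 3 e P ⊓ Cfsg.spGL m F) e P f₁ f₂ (-1) 1 :=
    ⟨hn, by norm_num, isSesq_of_symp hf₁, isSesq_of_symm hf₂, hT, inf_le_left⟩
  obtain ⟨δ, b, hδ, hb, hfr⟩ := exists_frame_three hq hf₂ (by simp)
  obtain ⟨c, hc0, hcf⟩ := tensor_form hT hf₂.bilinear
  have hp : ∀ x y x' y', Cfsg.sympForm m F (vec e P (tens x y)) (vec e P (tens x' y')) =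
      c * f₁ x x' * f₂ y y' := fun x y x' y' => by
    rw [hcf, (isSesq0_of_bilin hf₁.bilinear).eq_gform x x', gform_eq_sum, mul_assoc, Finset.sum_mul]
    congr 1
    refine Finset.sum_congr rfl fun i _ => ?_
    rw [Finset.sum_mul]
    refine Finset.sum_congr rfl fun j _ => ?_
    rw [show (fun l => tens x y (i, l)) = x i • y from rfl, show (fun l => tens x' y' (j, l)) = x' j • y' from rfl,
      hf₂.bilinear.smul_left, hf₂.bilinear.smul_right, RingHom.id_apply]
    ring
  have hadd : ∀ (x y : Fin n₁ × Fin 3 → F) (d : F), vec e P (x + d • y) = vec e P x + d • vec e P y :=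
    fun x y d => by
      rw [CasesSp.vec, CasesSp.vec, CasesSp.vec, ← mulVec_smul, ← mulVec_add]; rfl
  let S : Set (Fin m ⊕ Fin m → F) := {v | ∃ x i, v = vec e P (tens x (b i))}
  have hx0 : (Pi.single ⟨0, by omega⟩ 1 : Fin n₁ → F) ≠ 0 := by simp
  set x₀ : Fin n₁ → F := Pi.single ⟨0, by omega⟩ 1
  obtain ⟨y, hy⟩ := (hf₁.nondegenerate x₀ hx0).2
  have hnp : ∀ d : F, d ≠ 0 → ∀ u w, tens (y + d • x₀) (b 0) + tens y (b 1) ≠ tens u w :=
    fun d hd u w h => by
      have key : ∀ i, f₂ (b 0) (b i) • (y + d • x₀) + f₂ (b 1) (b i) • y = f₂ w (b i) • u := fun i => by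
        ext l
        have : (y + d • x₀) l • b 0 + y l • b 1 = u l • w := funext fun k => congrFun h (l, k)
        have h1 := congrArg (f₂ · (b i)) this
        simp only [hf₂.bilinear.add_left, hf₂.bilinear.smul_left] at h1
        simp only [Pi.add_apply, Pi.smul_apply, smul_eq_mul] at h1 ⊢
        linear_combination h1
      have k0 := key 0
      have k1 := key 1
      simp only [hb, if_true, zero_ne_one, one_ne_zero, if_false, zero_smul, add_zero, zero_add] at k0 k1
      have h1 : f₁ (δ • (y + d • x₀)) (δ • y) = 0 := by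
        rw [k0, k1, hf₁.bilinear.smul_left, hf₁.bilinear.smul_right, hf₁.alternating]; simp
      rw [hf₁.bilinear.smul_left, hf₁.bilinear.smul_right, hf₁.bilinear.add_left, hf₁.alternating,
        hf₁.bilinear.smul_left] at h1
      simp [hδ, hd, hy] at h1
  have hS : ∀ g ∈ tensorProductSubgroup n₁ 3 e P ⊓ Cfsg.spGL m F, ∀ v ∈ S, (g : Matrix _ _ F) *ᵥ v ∈ S := by
    rintro g hg _ ⟨x, i, rfl⟩
    obtain ⟨a, -, a', ha', rfl⟩ := exists_projL hd.le hg
    obtain ⟨j, d, hj⟩ := hfr a' (hd.swap.projL_le (inf_le_right.trans isom_le_sim) ha') i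
    refine ⟨d • (a : Matrix _ _ F) *ᵥ x, j, ?_⟩
    rw [coe_coordGL, coord_vec]
    congr 1
    refine (kron_tens _ _ _ _).trans ?_
    rw [hj]
    ext k
    simp only [tens, Pi.smul_apply, smul_eq_mul]
    ring
  obtain ⟨s, hs, hsv⟩ := exists_tv hf (vec e P (tens x₀ (b 0))) 1
  have key : ∀ d : F, ∀ v ∈ S, v + (d * Cfsg.sympForm m F (vec e P (tens x₀ (b 0))) v) •
      vec e P (tens x₀ (b 0)) ∈ S := by
    rintro d _ ⟨x, i, rfl⟩
    by_cases hi : i = 0
    · subst hi
      rw [← hadd]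
      generalize d * _ = d'
      refine ⟨x + d' • x₀, 0, ?_⟩
      congr 1
      ext k
      simp only [tens, Pi.smul_apply, smul_eq_mul, Pi.add_apply]
      ring
    · rw [hp, hb, if_neg (Ne.symm hi)]
      exact ⟨x, i, by simp⟩
  refine ClMax.exists_between_of (M := Cfsg.stabilizing (Cfsg.glToMat _ F) S ⊓ Cfsg.spGL m F)
    (fun g hg => ⟨fun v => ⟨hS g hg v, fun h => ?_⟩, hg.2⟩) inf_le_right
    ⟨s, ⟨fun v => ⟨fun h => ?_, fun h => ?_⟩, hs⟩, ?_⟩ ?_
  · have := hS g⁻¹ (Subgroup.inv_mem _ hg) _ h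
    rwa [show Cfsg.glToMat _ F g = (g : Matrix _ _ F) from rfl, inv_mulVec_mulVec] at this
  · change (s : Matrix _ _ F) *ᵥ v ∈ S
    exact hsv v ▸ key 1 v h
  · change (s : Matrix _ _ F) *ᵥ v ∈ S at h
    have := key (-1) _ h
    rw [hsv, hf.bilinear.add_right, hf.bilinear.smul_right, hf.alternating] at this
    simpa using this
  · rintro ⟨hg, -⟩
    obtain ⟨a, a', ha⟩ := mem_tensorProductSubgroup'.1 hg
    have h1 := hsv (vec e P (tens y (b 0 + b 1)))
    rw [ha, coord_vec, kron_tens, ← hadd, hp, hf₂.bilinear.add_right, hb, hb] at h1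
    refine hnp (c * f₁ x₀ y * δ) (by simp [hc0, hy, hδ]) _ _ (Eq.trans ?_ (vec_injective e P h1).symm)
    ext k
    simp [tens]
    ring
  · by_contra hc
    push Not at hc
    have h1 : tens (y + (1 : F) • x₀) (b 0) + tens y (b 1) ≠ 0 := fun h =>
      hnp 1 one_ne_zero 0 0 (h.trans (by ext; simp [tens]))
    obtain ⟨x, i, h⟩ := forall_of_invariant hf (S := fun v => v ∈ S)
      (fun g hg v hv => ((hc g hg).1 v).1 hv) (u := vec e P (tens x₀ (b 0)))
      (fun h0 => by
        have := hp x₀ (b 0) y (b 0)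
        rw [h0, zero_left hf.bilinear, hb] at this
        simp [hc0, hy, hδ] at this) ⟨_, _, rfl⟩ (vec_ne_zero e P h1)
    exact hnp 1 one_ne_zero _ _ (vec_injective e P h)

end Cfsg.Agent.S5667
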