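import Cfsg.Statements.S5673
import Cfsg.Agent.Lib.Asch.OrthCases

set_option autoImplicit false
open Cfsg

namespace Cfsg.Agent.S5673

open CfsgLib.Asch CfsgLib.Orth Cfsg.Geo Module


/-- Subgroup structure of the odd-dimensional orthogonal groups. Let F be a finite field of odd order and m ≥ 3, let Q be the standard quadratic form x₀² + Σ x_i y_i on F^(2m+1), and let Ω be the commutator subgroup of its isometry group, viewed inside GL_(2m+1)(F). Let H be a subgroup of Ω whose product with the scalar matrices in Ω is not all of Ω. Then either H is contained in a member of one of the geometric classes of subgroups of the isometry group (with the conditions built into InOrthogonalOddClass), or H is in the residual class: modulo scalars it is almost simple, and the perfect preimage of its socle acts absolutely irreducibly, is realisable over no proper subfield, and fixes no non-degenerate unitary form. -/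
theorem result {F : Type*} [Field F] [Fintype F] (hodd : Odd (Fintype.card F)) (m : ℕ) (hm : 3 ≤ m) (H : Subgroup (Matrix.GeneralLinearGroup (Unit ⊕ (Fin m ⊕ Fin m)) F)) (hH : H ≤ Cfsg.Geo.omegaGL (Cfsg.quadFormOdd m F)) (hproper : H ⊔ (Cfsg.Geo.scalars (Unit ⊕ (Fin m ⊕ Fin m)) F ⊓ Cfsg.Geo.omegaGL (Cfsg.quadFormOdd m F)) ≠ Cfsg.Geo.omegaGL (Cfsg.quadFormOdd m F)) : (∃ M : Subgroup (Matrix.GeneralLinearGroup (Unit ⊕ (Fin m ⊕ Fin m)) F), Cfsg.Geo.InOrthogonalOddClass m F M ∧ H ≤ M) ∨ Cfsg.Geo.InOrthogonalResidualClass H := by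
  have h2 : (2 : F) ≠ 0 := odd_card_iff.1 hodd
  have hQ := qOdd_nondegenerate h2 m
  have hn : Fintype.card (Unit ⊕ (Fin m ⊕ Fin m)) = 2 * m + 1 := by simp; omega
  have hno : ¬ Even (Fintype.card (Unit ⊕ (Fin m ⊕ Fin m))) := by
    rw [hn, Nat.not_even_iff_odd]; exact ⟨m, rfl⟩
  have hI := hH.trans (omegaGL_le _)
  refine (oclass_or_residual hQ (by omega) hH).imp_left fun h => ?_
  cases h with
  | ts W h0 hW _ hle => exact ⟨_, Or.inl ⟨W, h0, hW, rfl⟩, le_inf hle hI⟩
  | nd W h0 hW hd _ hle =>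
    have := finrank_pos_of_ne_bot h0
    exact ⟨_, Or.inr (Or.inl ⟨W, h0, ne_top_of_finrank_lt (by omega), hW, rfl⟩), le_inf hle hI⟩
  | ns h => exact absurd h h2
  | frame hq t D hD hle =>
    refine ⟨_, ?_, le_inf hle hI⟩
    iterate 3 right
    exact Or.inl ⟨t, D, hq, hD, rfl⟩
  | dec t k D hk hD _ _ _ hle =>
    exact ⟨_, Or.inr (Or.inr (Or.inl ⟨t, k, D, hk, hD, rfl⟩)), le_inf hle hI⟩
  | pair k D _ hD => exact absurd ⟨k, by rw [← card_eq_of_decomp hD]; ring⟩ hno
  | fieldSA r K hr hK hsa h1 _ _ hle =>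
    refine ⟨_, ?_, le_inf hle hI⟩
    iterate 4 right
    exact Or.inl ⟨r, K, hr, by omega, hK, hsa, rfl⟩
  | fieldU K hK => exact absurd (even_iff_two_dvd.2 (field_dvd_card hK)) hno
  | sub h =>
    obtain ⟨F₀, r, P, h1, h3, h4, hle⟩ := h.one hn hQ (det_gram_qOdd_mem m)
    refine ⟨_, ?_, le_inf hle hI⟩
    iterate 6 right
    exact Or.inl ⟨F₀, r, P, h1, h3, h4, rfl⟩
  | tensorAlt n₁ n₂ e P f₁ f₂ _ _ hf₁ =>
    refine absurd ?_ hno
    rw [Fintype.card_congr e, Fintype.card_prod]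
    exact (even_card_of_symplectic hf₁).mul_right _
  | tensorSym _ n₁ n₂ e P f₁ f₂ h1 h3 h4 _ hf₁ hf₂ hT hle =>
    rcases h3.lt_or_eq with h3 | rfl
    · refine ⟨_, ?_, le_inf hle hI⟩
      iterate 5 right
      exact Or.inl ⟨n₁, n₂, e, P, f₁, f₂, h1, h3, hf₁, hf₂, hT, rfl⟩
    · obtain ⟨e', P', h5, h6⟩ := exists_power_of_odd h2 (Nat.not_even_iff_odd.1 fun h => hno (by
        rw [Fintype.card_congr e, Fintype.card_prod, Fintype.card_fin]
        exact h.mul_right _)) hf₁ hf₂ hT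
      refine ⟨_, ?_, le_inf (hle.trans h6) hI⟩
      iterate 7 right
      exact ⟨n₁, 2, e', P', f₁, h1, le_rfl, fun h => h4 h.2 h.1, hf₁, h5, rfl⟩
  | wreath k t e P f₁ h1 h3 h4 hf₁ hT hle =>
    refine ⟨_, ?_, le_inf hle hI⟩
    iterate 7 right
    exact ⟨k, t, e, P, f₁, h1, h3, fun h => h4 h.2 h.1, hf₁, hT, rfl⟩
  | pow k t hk ht h1 => exact absurd (h1 ▸ hk.pow_of_ne_zero (by omega)) hno

end Cfsg.Agent.S5673
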