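import Mathlib
import Cfsg.Statements.S5675
import Cfsg.Agent.Lib.RootMax.NDCases

set_option autoImplicit false
open Cfsg

namespace Cfsg.Agent.S5675

open CfsgLib CfsgLib.RootMax


/-- Let F be a finite field of odd order q, m ≥ 6, Q the standard quadratic form on F^(2m+1) and Ω the commutator subgroup of its isometry group. Let W be a non-zero subspace of even dimension on which the polar form of Q is non-degenerate; exclude the case q = 3, dim W = 2 with Q vanishing on some line of W (a plus-type plane). Then the elements of Ω stabilising W (equivalently, stabilising its orthogonal complement, of odd dimension) form a maximal subgroup of Ω. -/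
theorem result {F : Type*} [Field F] [Fintype F] (hodd : Odd (Fintype.card F)) (m : ℕ) (hm : 6 ≤ m) (W : Submodule F (Unit ⊕ (Fin m ⊕ Fin m) → F)) (hW0 : W ≠ ⊥) (hev : Even (Module.finrank F W)) (hW : Cfsg.Geo.IsNondegenerateOn (QuadraticMap.polar (Cfsg.quadFormOdd m F)) W) (hex : ¬ (Fintype.card F = 3 ∧ Module.finrank F W = 2 ∧ Cfsg.Geo.IsPlusTypeOn (Cfsg.quadFormOdd m F) W)) : Cfsg.Geo.IsMaximalIn (Cfsg.Geo.omegaGL (Cfsg.quadFormOdd m F)) (Cfsg.Geo.subspaceStabilizer W ⊓ Cfsg.Geo.omegaGL (Cfsg.quadFormOdd m F)) := by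
  rw [quadFormOdd_eq] at hW hex ⊢
  have hQ := OrthE.nondeg_qOdd (OrthE.two_ne_zero_of_odd hodd) m
  have hc : Fintype.card (Unit ⊕ (Fin m ⊕ Fin m)) = 2 * m + 1 := by simp; omega
  have h1 := (Forms.ofQuad (OrthE.qOdd F m)).finrank_perp hQ W
  rw [Module.finrank_fintype_fun_eq_card, hc] at h1
  obtain ⟨k, hk⟩ := hev
  refine omega_stab_nd _ hQ hW0 ?_ hW (by omega) (hmove_of_dim hQ (by omega)) ?_
  · rintro rfl
    rw [finrank_top, Module.finrank_fintype_fun_eq_card, hc] at hk
    omega
  · rintro U (rfl | rfl) h2 hp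
    · rw [Nat.card_eq_fintype_card]
      by_contra h4
      have h5 : 1 < Fintype.card F := Fintype.one_lt_card
      obtain ⟨j, hj⟩ := hodd
      exact hex ⟨by omega, h2, hp⟩
    · omega

end Cfsg.Agent.S5675
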