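import Cfsg.Statements.S5680
import Cfsg.Agent.Lib.OMax.ExtMain

set_option autoImplicit false
open Cfsg

namespace Cfsg.Agent.S5680

/-- Let F be a finite field of odd order, m ≥ 6, Q the standard quadratic form on F^(2m+1) and Ω the commutator subgroup of its isometry group. Let K be a subfield of the algebra of (2m+1) × (2m+1) matrices over F containing the scalars, of prime degree r over F with r ≠ 2m + 1, whose elements are self-adjoint for the polar form of Q. Then the elements of Ω normalising K form a maximal subgroup of Ω. -/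
theorem result {F : Type*} [Field F] [Fintype F] (hodd : Odd (Fintype.card F)) (m : ℕ) (hm : 6 ≤ m) (r : ℕ) (hr : r.Prime) (hrn : 2 * m + 1 ≠ r) (K : Subalgebra F (Matrix (Unit ⊕ (Fin m ⊕ Fin m)) (Unit ⊕ (Fin m ⊕ Fin m)) F)) (hK : Cfsg.Geo.IsFieldSubalgebra r K) (hsa : Cfsg.Geo.IsSelfAdjointFor (QuadraticMap.polar (Cfsg.quadFormOdd m F)) K) : Cfsg.Geo.IsMaximalIn (Cfsg.Geo.omegaGL (Cfsg.quadFormOdd m F)) (Cfsg.Geo.subalgebraNormalizer K ⊓ Cfsg.Geo.omegaGL (Cfsg.quadFormOdd m F)) := by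
  rw [CfsgLib.RootMax.quadFormOdd_eq] at hsa ⊢
  have h2 := CfsgLib.OrthE.two_ne_zero_of_odd hodd
  have : Nonempty (Unit ⊕ (Fin m ⊕ Fin m)) := ⟨Sum.inl ()⟩
  obtain ⟨d, hd⟩ : r ∣ 2 * m + 1 := CfsgLib.ClMax.with_ext_field hK
    fun K _ _ _ _ _ _ hdim _ _ _ => ⟨_, by rw [hdim]; simp; omega⟩
  refine CfsgLib.OMax.isMaximalIn_omega_ext h2 _ (CfsgLib.OrthE.nondeg_qOdd h2 m) hr ?_
    (fun h => by simp; omega) K hK hsa
  have h3 : 3 ≤ d := by
    rcases d with _ | _ | _ | d <;> omega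
  have := hr.pos
  simp; nlinarith

end Cfsg.Agent.S5680
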