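import Cfsg.Statements.S5681
import Cfsg.Agent.Lib.OMax.TenO3

set_option autoImplicit false
open Cfsg

namespace Cfsg.Agent.S5681

/-- Let F be a finite field of odd order q, m ≥ 6, Q the standard quadratic form on F^(2m+1) and Ω the commutator subgroup of its isometry group. Suppose the polar form of Q is similar, through a change of basis P and a bijection of index sets e, to the tensor product of non-degenerate symmetric bilinear forms f₁ on F^(n₁) and f₂ on F^(n₂) with 3 ≤ n₁ < n₂. Unless q = 3 and n₁ = 3, the elements of Ω in the stabiliser of this tensor decomposition form a maximal subgroup of Ω. -/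
theorem result {F : Type*} [Field F] [Fintype F] (hodd : Odd (Fintype.card F)) (m : ℕ) (hm : 6 ≤ m) (n₁ n₂ : ℕ) (h1 : 3 ≤ n₁) (h12 : n₁ < n₂) (hex : ¬ (Fintype.card F = 3 ∧ n₁ = 3)) (e : (Unit ⊕ (Fin m ⊕ Fin m)) ≃ Fin n₁ × Fin n₂) (P : Matrix.GeneralLinearGroup (Unit ⊕ (Fin m ⊕ Fin m)) F) (f₁ : (Fin n₁ → F) → (Fin n₁ → F) → F) (f₂ : (Fin n₂ → F) → (Fin n₂ → F) → F) (hf₁ : Cfsg.Geo.IsSymmetricForm f₁) (hf₂ : Cfsg.Geo.IsSymmetricForm f₂) (hT : Cfsg.Geo.IsTensorFormStructure id (QuadraticMap.polar (Cfsg.quadFormOdd m F)) f₁ f₂ e P) : Cfsg.Geo.IsMaximalIn (Cfsg.Geo.omegaGL (Cfsg.quadFormOdd m F)) (Cfsg.Geo.tensorProductSubgroup n₁ n₂ e P ⊓ Cfsg.Geo.omegaGL (Cfsg.quadFormOdd m F)) := by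
  rw [CfsgLib.RootMax.quadFormOdd_eq] at hT ⊢
  have hc : 2 * m + 1 = n₁ * n₂ := by
    have := Fintype.card_congr e
    simp at this; omega
  have ho : Odd n₁ ∧ Odd n₂ := Nat.odd_mul.1 (hc ▸ odd_two_mul_add_one m)
  obtain ⟨⟨a, ha⟩, ⟨b, hb⟩⟩ := ho
  exact CfsgLib.OMax.isMaximalIn_omega_tenO hodd
    (CfsgLib.OrthE.nondeg_qOdd (CfsgLib.OrthE.two_ne_zero_of_odd hodd) m) h1 (by omega) (by omega)
    (by omega) (fun h => ⟨fun e => hex ⟨h, e⟩, by omega⟩) hf₁ hf₂ (by omega) (by omega) hT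

end Cfsg.Agent.S5681
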