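import Cfsg.Statements.S5694
import Cfsg.Agent.Lib.OMax.PlaneM
import Cfsg.Agent.Lib.OMax.Dec

set_option autoImplicit false
open Cfsg

namespace Cfsg.Agent.S5694

/-- Let F be a finite field with q elements, n ≥ 13 even, Q a non-degenerate quadratic form on F^n of minus type (no subspace of dimension n/2 is totally singular), and Ω the commutator subgroup of the isometry group of Q, viewed inside GL_n(F). Let D be a decomposition of F^n into t ≥ 2 pairwise orthogonal, pairwise Q-isometric subspaces of equal dimension k ≥ 2 on which the polar form is non-degenerate, such that: if k is odd, q is odd and the discriminant of Q is a square; if k is even, t is odd and no member is of plus type. Unless q = 3 and k ∈ {2, 3}, the elements of Ω permuting the members of D form a maximal subgroup of Ω. -/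
theorem result {F : Type*} [Field F] [Fintype F] {n : ℕ} (hn : 13 ≤ n) (heven : Even n) (Q : (Fin n → F) → F) (hQ : Cfsg.Geo.IsNondegenerateQuadraticForm Q) (hminus : ¬ Cfsg.Geo.IsPlusTypeOn Q ⊤) {t : ℕ} (k : ℕ) (hk : 2 ≤ k) (D : Fin t → Submodule F (Fin n → F)) (hD : Cfsg.Geo.IsOrthogonalMDecomposition Q k D) (hko : Odd k → (Odd (Fintype.card F) ∧ Cfsg.Geo.HasSquareDiscriminant Q)) (hke : Even k → (Odd t ∧ ∀ i, ¬ Cfsg.Geo.IsPlusTypeOn Q (D i))) (hex : ¬ (Fintype.card F = 3 ∧ (k = 2 ∨ k = 3))) : Cfsg.Geo.IsMaximalIn (Cfsg.Geo.omegaGL Q) (Cfsg.Geo.decompositionStabilizer D ⊓ Cfsg.Geo.omegaGL Q) := by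
  have h2 := hD.decomp.decomp.two_le
  rcases hk.eq_or_lt with rfl | hk
  · exact CfsgLib.OMax.omega_dec_two (CfsgLib.RootMax.toQF hQ) (CfsgLib.RootMax.toQF_nondeg hQ)
      (by simp; omega) hD (fun h => hex ⟨Nat.card_eq_fintype_card.symm.trans h, Or.inl rfl⟩)
      fun hp => absurd (hp ⟨0, by omega⟩) ((hke (by decide)).2 _)
  · refine CfsgLib.OMax.omega_dec_three (CfsgLib.RootMax.toQF hQ) (CfsgLib.RootMax.toQF_nondeg hQ) hD hk
      (fun h => hex ⟨Nat.card_eq_fintype_card.symm.trans h.1, Or.inr h.2⟩) ?_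
    rintro ⟨rfl, -, hp⟩
    exact (hke (by decide)).2 _ (hp ⟨0, by omega⟩)

end Cfsg.Agent.S5694
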