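import Cfsg.Statements.S5704
import Cfsg.Agent.Lib.OMax.TenSp2
import Cfsg.Agent.Lib.NonMax.Tens

set_option autoImplicit false
open Cfsg

namespace Cfsg.Agent.S5704

open CfsgLib CfsgLib.OMax CfsgLib.ClMax CfsgLib.ClMax.Ten CfsgLib.OrthE CfsgLib.RootMax Module

/-- Let F be a finite field with q elements, n ≥ 13 even, Q a non-degenerate quadratic form on F^n of plus type (some subspace of dimension n/2 is totally singular), and Ω the commutator subgroup of the isometry group of Q, viewed inside GL_n(F). Suppose that, through a change of basis P and a bijection of index sets e, the polar form of Q is similar to the tensor product of non-degenerate symplectic forms f₁ on F^(n₁) and f₂ on F^(n₂) with n₁ < n₂, and Q vanishes on the images of all pure tensors. Unless q = 2 and n₁ = 2, the elements of Ω in the stabiliser of this tensor decomposition form a maximal subgroup of Ω. -/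
theorem result {F : Type*} [Field F] [Fintype F] {n : ℕ} (hn : 13 ≤ n) (heven : Even n) (Q : (Fin n → F) → F) (hQ : Cfsg.Geo.IsNondegenerateQuadraticForm Q) (hplus : Cfsg.Geo.IsPlusTypeOn Q ⊤) (n₁ n₂ : ℕ) (h12 : n₁ < n₂) (hex : ¬ (Fintype.card F = 2 ∧ n₁ = 2)) (e : (Fin n) ≃ Fin n₁ × Fin n₂) (P : Matrix.GeneralLinearGroup (Fin n) F) (f₁ : (Fin n₁ → F) → (Fin n₁ → F) → F) (f₂ : (Fin n₂ → F) → (Fin n₂ → F) → F) (hf₁ : Cfsg.Geo.IsSymplecticForm f₁) (hf₂ : Cfsg.Geo.IsSymplecticForm f₂) (hT : Cfsg.Geo.IsTensorFormStructure id (QuadraticMap.polar Q) f₁ f₂ e P) (hpure : (∀ (x₁ : Fin n₁ → F) (x₂ : Fin n₂ → F), Q (Matrix.mulVec (P : Matrix (Fin n) (Fin n) F) ((fun a : Fin n₁ × Fin n₂ => x₁ a.1 * x₂ a.2) ∘ e)) = 0)) : Cfsg.Geo.IsMaximalIn (Cfsg.Geo.omegaGL Q) (Cfsg.Geo.tensorProductSubgroup n₁ n₂ e P ⊓ Cfsg.Geo.omegaGL Q) := by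
  obtain ⟨c, hc, hτ⟩ := NonMax.tau_form (σ := RingHom.id F) (Asch.isSesq0_of_bilin hf₁.bilinear)
    (Asch.isSesq0_of_bilin hf₂.bilinear) hT
  have hcard : n = n₁ * n₂ := by simpa using Fintype.card_congr e
  obtain ⟨a, ha⟩ : Even n₁ := by simpa using Asch.even_card_of_symplectic hf₁
  obtain ⟨b, hb⟩ : Even n₂ := by simpa using Asch.even_card_of_symplectic hf₂
  have ha0 : a ≠ 0 := by rintro rfl; subst ha; omega
  have hb5 : 5 ≤ n₂ := by
    by_contra h5
    have h1 : n₂ = 4 := by omega
    have h2 : n₁ = 2 := by omega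
    rw [h1, h2] at hcard
    omega
  have hN := bilinOf_nondegenerate hf₁.bilinear hf₁.nondegenerate
  have H : TenQ (c • bilinOf hf₁.bilinear) (bilinOf hf₂.bilinear) (toQF hQ)
      (isTensorProduct_tauOf e P) :=
    ⟨fun x => by simp [bilinOf_apply, hf₁.alternating],
      ⟨fun x hx => hN.1 x fun y => by simpa [hc] using hx y,
        fun x hx => hN.2 x fun y => by simpa [hc] using hx y⟩,
      hf₂.alternating, bilinOf_nondegenerate hf₂.bilinear hf₂.nondegenerate, toQF_nondeg hQ,
      hτ, hpure⟩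
  have h5 : 5 ≤ finrank F (Fin n → F) := by simp; omega
  refine isMaximalIn_omega (Q := toQF hQ) H.hQ (by simp; omega) _
    (fun g => g.1 ∈ Kron (tauOf e P)) (fun g k hk => by
      rw [tensorProductSubgroup_eq, ← hk]; rfl) ?_ fun X _ hX g hg hg' => ?_
  · have : Nontrivial (Fin n₁ → F) := Module.nontrivial_of_finrank_pos (R := F) (by simp; omega)
    obtain ⟨u, hu⟩ := exists_ne (0 : Fin n₁ → F)
    obtain ⟨u', hu'⟩ := exists_B_eq_one H.a₁ H.n₁ hu
    have : Nontrivial (Fin n₂ → F) := Module.nontrivial_of_finrank_pos (R := F) (by simp; omega)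
    obtain ⟨w, hw⟩ := exists_ne (0 : Fin n₂ → F)
    obtain ⟨y, h1, -, h2⟩ := alt_orth_two (by simp; omega) (bilinOf hf₂.bilinear) w w w
    obtain ⟨z, h3, h4⟩ := alt_dual_one H.a₂ H.n₂ h2
    have h0 : QuadraticMap.polar (toQF hQ) (tauOf e P u w) (tauOf e P u y) = 0 := by
      rw [H.eq, h1, mul_zero]
    refine ⟨_, _, H.pure u w, h0, fun hK => ?_⟩
    obtain ⟨β, hβ⟩ := right_of_fix (isTensorProduct_tauOf e P) (M := F × F) (by simp; omega) hK
      (((toQF hQ).polarBilin (tauOf e P u w)).prod ((toQF hQ).polarBilin (tauOf e P u y)))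
      fun x hx => by
        have h6 : QuadraticMap.polar (toQF hQ) _ x = 0 := congrArg Prod.fst hx
        have h7 : QuadraticMap.polar (toQF hQ) _ x = 0 := congrArg Prod.snd hx
        rw [eich_ap (H.pure u w) h0, h6, h7]; simp
    have h6 := hβ u z
    have h7 := hβ u' z
    rw [eich_ap (H.pure u w) h0, H.eq, H.eq, H.pure] at h6 h7
    rw [H.a₁.self_eq_zero] at h6
    simp only [zero_mul, sub_zero, zero_smul, add_zero] at h6
    rw [← right_inj (isTensorProduct_tauOf e P) hu h6, ← H.a₁.neg_eq, hu', ← H.a₂.neg_eq z y, h3,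
      alt_zero H.a₂ h4] at h7
    exact Ten.ne_zero (isTensorProduct_tauOf e P) hu hw (by simpa using h7)
  · have H' : SpSp _ _ _ (isTensorProduct_tauOf e P) (X.map (O (toQF hQ)).subtype) :=
      { H with
        ha := by simp; omega
        hab := by simp; omega
        hb := by simpa
        hX := Subgroup.map_subtype_le _
        hK := fun g h1 h2 => ⟨g, hX g (E_eq H.hQ h5 ▸ h1) h2, rfl⟩ }
    have := H'.E_le ?_ fun h1 => hg' (h1 ⟨g, hg, rfl⟩)
    · rwa [Subgroup.subgroupOf, Subgroup.comap_map_eq_self_of_injective Subtype.val_injective]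
        at this
    by_cases h2 : n₁ = 2
    · left
      classical
      have h3 : 2 < Fintype.card F := lt_of_le_of_ne Fintype.one_lt_card fun h => hex ⟨h.symm, h2⟩
      by_contra h4
      push Not at h4
      have : (Finset.univ : Finset F) ⊆ {0, 1} := fun c _ => by
        by_cases hc : c = 0 <;> simp [hc, h4 c]
      have := (Finset.card_le_card this).trans Finset.card_le_two
      rw [Finset.card_univ] at this
      omega
    · right; simp; omega

end Cfsg.Agent.S5704
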