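import Cfsg.Statements.S5781
import Cfsg.Agent.Lib.SLCases.Main

set_option autoImplicit false
open Cfsg CfsgLib.SLCases

namespace Cfsg.Agent.S5781

/-- Every maximal subgroup of SL_4(q) is of one of the listed geometric types or lies in the residual class. Let F be a finite field with q elements and H a maximal subgroup of SL_4(F) (inside GL_4(F)). Then H is the intersection with SL_4(F) of one of: the stabiliser of a proper non-zero subspace; for q ≥ 7, the stabiliser of a decomposition into four independent lines; for q ≥ 4, the stabiliser of a decomposition into two independent planes; the normaliser of a degree-2 subfield of the matrix algebra; a subfield group for a subfield F₀ with |F| = |F₀|^r, r prime; for q = p ≡ 1 mod 4 prime, the normaliser of an absolutely irreducible 2-subgroup R of exponent 4 with centre of order 4, all of whose characteristic abelian subgroups are cyclic, of order 2^(2+2m) for some m (here |R| = 64), with 4 dividing p − 1; for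 q odd, the similarity group of a non-degenerate quadratic form; the similarity group of a non-degenerate symplectic form; the similarity group of a non-degenerate unitary form — or else H lies in the residual class of the linear case. -/
theorem result {F : Type*} [Field F] [Fintype F] (H : Subgroup (Matrix.GeneralLinearGroup (Fin 4) F)) (hH : Cfsg.Geo.IsMaximalIn (Cfsg.Geo.specialLinear (Fin 4) F) H) :
    (∃ W : Submodule F (Fin 4 → F), W ≠ ⊥ ∧ W ≠ ⊤ ∧ H = Cfsg.Geo.subspaceStabilizer W ⊓ Cfsg.Geo.specialLinear (Fin 4) F) ∨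
    (7 ≤ Fintype.card F ∧ ∃ D : Fin 4 → Submodule F (Fin 4 → F), Cfsg.Geo.IsMDecomposition 1 D ∧ H = Cfsg.Geo.decompositionStabilizer D ⊓ Cfsg.Geo.specialLinear (Fin 4) F) ∨
    (4 ≤ Fintype.card F ∧ ∃ D : Fin 2 → Submodule F (Fin 4 → F), Cfsg.Geo.IsMDecomposition 2 D ∧ H = Cfsg.Geo.decompositionStabilizer D ⊓ Cfsg.Geo.specialLinear (Fin 4) F) ∨
    (∃ K : Subalgebra F (Matrix (Fin 4) (Fin 4) F), Cfsg.Geo.IsFieldSubalgebra 2 K ∧ H = Cfsg.Geo.subalgebraNormalizer K ⊓ Cfsg.Geo.specialLinear (Fin 4) F) ∨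
    (∃ (F₀ : Subfield F) (r : ℕ) (P : Matrix.GeneralLinearGroup (Fin 4) F), r.Prime ∧ Fintype.card F = Nat.card F₀ ^ r ∧ H = Cfsg.Geo.subfieldSubgroup F₀ P ⊓ Cfsg.Geo.specialLinear (Fin 4) F) ∨
    (∃ (p : ℕ) (R : Subgroup (Matrix.GeneralLinearGroup (Fin 4) F)), p.Prime ∧ Fintype.card F = p ∧ p % 4 = 1 ∧ Cfsg.Geo.IsLinearSymplecticTypeData 2 R ∧ H = Cfsg.Geo.subgroupNormalizer R ⊓ Cfsg.Geo.specialLinear (Fin 4) F) ∨
    (Odd (Fintype.card F) ∧ ∃ Q : (Fin 4 → F) → F, Cfsg.Geo.IsNondegenerateQuadraticForm Q ∧ H = Cfsg.Geo.quadSimilarityGroup Q ⊓ Cfsg.Geo.specialLinear (Fin 4) F) ∨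
    (∃ f : (Fin 4 → F) → (Fin 4 → F) → F, Cfsg.Geo.IsSymplecticForm f ∧ H = Cfsg.Geo.similarityGroup f ⊓ Cfsg.Geo.specialLinear (Fin 4) F) ∨
    (∃ (σ : F ≃+* F) (f : (Fin 4 → F) → (Fin 4 → F) → F), Cfsg.Geo.IsUnitaryForm σ f ∧ H = Cfsg.Geo.similarityGroup f ⊓ Cfsg.Geo.specialLinear (Fin 4) F) ∨
    Cfsg.Geo.InLinearResidualClass H := by
  rcases sl_cases (by norm_num) hH with h | ⟨t, m, D, hD, hn, ht, c1, c2, c3, c4, h⟩ | ⟨r, K, hr, hd, hK, c, h⟩ | ⟨n₁, n₂, e, P, h1, h2, hn, c, h⟩ | h | ⟨r, k, R, hR, hr, hn, h⟩ | ⟨m, t, e, P, hm, ht, hn, h⟩ | ⟨he, h⟩ | h | h | h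
  · exact Or.inl h
  · have h0 : (t = 2 ∧ m = 2) ∨ (t = 4 ∧ m = 1) := by
      have : t ≤ 4 := Nat.le_of_dvd (by norm_num) ⟨m, hn⟩
      interval_cases t <;> omega
    rcases h0 with ⟨rfl, rfl⟩ | ⟨rfl, rfl⟩
    · iterate 2 right
      exact Or.inl ⟨by omega, D, hD, h⟩
    · iterate 1 right
      exact Or.inl ⟨by omega, D, hD, h⟩
  · have h0 : r = 2 := by
      have := Nat.le_of_dvd (by norm_num) hd
      interval_cases r <;> first | omega | exact absurd hr (by decide)
    rcases h0 with rfl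
    · iterate 3 right
      exact Or.inl ⟨K, hK, h⟩
  · exfalso
    have : n₁ ≤ 4 := Nat.le_of_dvd (by norm_num) ⟨n₂, hn⟩
    interval_cases n₁ <;> omega
  · iterate 4 right
    exact Or.inl h
  · obtain rfl := eq_of_prime_dvd hr hn (s := 2) (by norm_num) (by norm_num)
    obtain ⟨p, a1, a2, a3⟩ := extra_two (by simp) hR
    iterate 5 right
    exact Or.inl ⟨p, R, a1, a2, a3, hR, h⟩
  · exact absurd (pow_bound hm ht hn (by norm_num)).1 (by norm_num)
  · iterate 7 right
    exact Or.inl h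
  · iterate 8 right
    exact Or.inl h
  · iterate 6 right
    exact Or.inl h
  · iterate 9 right
    exact h

end Cfsg.Agent.S5781
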