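import Cfsg.Statements.S5784
import Cfsg.Agent.Lib.Asch.SUBil
import Cfsg.Agent.Lib.Asch.SUSmall

set_option autoImplicit false
open Cfsg

namespace Cfsg.Agent.S5784


/-- Every maximal subgroup of SU_4(q) is of one of the listed geometric types or lies in the residual class. Let F be the field with q² elements, f the standard unitary form Σ u_i v_i^q on F^4, and H a maximal subgroup of SU_4(q) (inside GL_4(F)). Then H is the intersection with SU_4(q) of one of: the stabiliser of a non-zero subspace on which f vanishes; the stabiliser of a non-degenerate 1-space; for q ≠ 3, the stabiliser of a decomposition into four mutually orthogonal non-degenerate 1-spaces; for q ≥ 3, of a decomposition into two orthogonal non-degenerate 2-spaces; for q ≥ 4, of a decomposition into two totally isotropic 2-spaces; a subfield group of odd prime index whose F₀-structure carries f; a subfield group of index 2 whose F₀-structure carries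 ζ f, vanishing on pairs (u, u), for some non-zero ζ with ζ + ζ^q = 0; for q odd, a subfield group of index 2 whose F₀-structure carries f; for q = p ≡ 3 mod 4 prime, the normaliser of an absolutely irreducible symplectic-type 2-group of exponent 4, order 64 and centre of order 4 inside the similarity group of f — or else H lies in the residual class of the unitary case. -/
theorem result {F : Type*} [Field F] [Fintype F] (q : ℕ) (hF : Fintype.card F = q ^ 2) (H : Subgroup (Matrix.GeneralLinearGroup (Fin 4) F)) (hH : Cfsg.Geo.IsMaximalIn (Cfsg.GU 4 F q ⊓ Cfsg.Geo.specialLinear (Fin 4) F) H) :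
    (∃ W : Submodule F (Fin 4 → F), W ≠ ⊥ ∧ Cfsg.Geo.IsTotallySingularFor (Cfsg.hermForm 4 F q) W ∧ H = Cfsg.Geo.subspaceStabilizer W ⊓ (Cfsg.GU 4 F q ⊓ Cfsg.Geo.specialLinear (Fin 4) F)) ∨
    (∃ W : Submodule F (Fin 4 → F), W ≠ ⊥ ∧ Cfsg.Geo.IsNondegenerateOn (Cfsg.hermForm 4 F q) W ∧ 2 * Module.finrank F W < 4 ∧ H = Cfsg.Geo.subspaceStabilizer W ⊓ (Cfsg.GU 4 F q ⊓ Cfsg.Geo.specialLinear (Fin 4) F)) ∨
    (q ≠ 3 ∧ ∃ D : Fin 4 → Submodule F (Fin 4 → F), Cfsg.Geo.IsNondegenerateMDecomposition (Cfsg.hermForm 4 F q) 1 D ∧ H = Cfsg.Geo.decompositionStabilizer D ⊓ (Cfsg.GU 4 F q ⊓ Cfsg.Geo.specialLinear (Fin 4) F)) ∨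
    (3 ≤ q ∧ ∃ D : Fin 2 → Submodule F (Fin 4 → F), Cfsg.Geo.IsNondegenerateMDecomposition (Cfsg.hermForm 4 F q) 2 D ∧ H = Cfsg.Geo.decompositionStabilizer D ⊓ (Cfsg.GU 4 F q ⊓ Cfsg.Geo.specialLinear (Fin 4) F)) ∨
    (4 ≤ q ∧ ∃ D : Fin 2 → Submodule F (Fin 4 → F), Cfsg.Geo.IsMDecomposition 2 D ∧ (∀ i, Cfsg.Geo.IsTotallySingularFor (Cfsg.hermForm 4 F q) (D i)) ∧ H = Cfsg.Geo.decompositionStabilizer D ⊓ (Cfsg.GU 4 F q ⊓ Cfsg.Geo.specialLinear (Fin 4) F)) ∨
    (∃ (F₀ : Subfield F) (r : ℕ) (P : Matrix.GeneralLinearGroup (Fin 4) F), r.Prime ∧ Odd r ∧ Fintype.card F = Nat.card F₀ ^ r ∧ Cfsg.Geo.IsFormRationalStructure (Cfsg.hermForm 4 F q) F₀ 1 P ∧ H = Cfsg.Geo.subfieldSubgroup F₀ P ⊓ (Cfsg.GU 4 F q ⊓ Cfsg.Geo.specialLinear (Fin 4) F)) ∨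
    (∃ (F₀ : Subfield F) (P : Matrix.GeneralLinearGroup (Fin 4) F) (ζ : F), Fintype.card F = Nat.card F₀ ^ 2 ∧ ζ ≠ 0 ∧ ζ + ζ ^ q = 0 ∧ Cfsg.Geo.IsFormRationalStructure (Cfsg.hermForm 4 F q) F₀ ζ P ∧ (∀ u : Fin 4 → F, (∀ i, u i ∈ F₀) → (Cfsg.hermForm 4 F q) (Matrix.mulVec (P : Matrix (Fin 4) (Fin 4) F) u) (Matrix.mulVec (P : Matrix (Fin 4) (Fin 4) F) u) = 0) ∧ H = Cfsg.Geo.subfieldSubgroup F₀ P ⊓ (Cfsg.GU 4 F q ⊓ Cfsg.Geo.specialLinear (Fin 4) F)) ∨
    (Odd q ∧ ∃ (F₀ : Subfield F) (P : Matrix.GeneralLinearGroup (Fin 4) F), Fintype.card F = Nat.card F₀ ^ 2 ∧ Cfsg.Geo.IsFormRationalStructure (Cfsg.hermForm 4 F q) F₀ 1 P ∧ H = Cfsg.Geo.subfieldSubgroup F₀ P ⊓ (Cfsg.GU 4 F q ⊓ Cfsg.Geo.specialLinear (Fin 4) F)) ∨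
    (∃ (p : ℕ) (R : Subgroup (Matrix.GeneralLinearGroup (Fin 4) F)), p.Prime ∧ q = p ∧ p % 4 = 3 ∧ Cfsg.Geo.IsSymplecticTypeGroup 2 R ∧ Cfsg.Geo.ActsAbsolutelyIrreducibly (Cfsg.Geo.matrixSet R) ∧ R ≤ Cfsg.Geo.similarityGroup (Cfsg.hermForm 4 F q) ∧ Nat.card R = 64 ∧ Nat.card (Subgroup.center R) = 4 ∧ H = Cfsg.Geo.subgroupNormalizer R ⊓ (Cfsg.GU 4 F q ⊓ Cfsg.Geo.specialLinear (Fin 4) F)) ∨
    Cfsg.Geo.InUnitaryResidualClass H := by
  open CfsgLib.Asch in
  rcases umax_of_maximal hF (by norm_num) (by norm_num) (by omega) hH with h | h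
  swap
  · iterate 9 right
    exact h
  have hq2 := CfsgLib.Unitary.two_le_q hF
  cases h with
  | ts W a b c => exact Or.inl ⟨W, a, b, c⟩
  | nd W a b c d => exact Or.inr (Or.inl ⟨W, a, b, c, d⟩)
  | dec t k D a b c d e =>
    have ht : (t = 2 ∧ k = 2) ∨ (t = 4 ∧ k = 1) := by
      have : t ≤ 4 := Nat.le_of_dvd (by norm_num) ⟨k, a.symm⟩
      interval_cases t <;> omega
    rcases ht with ⟨rfl, rfl⟩ | ⟨rfl, rfl⟩
    · iterate 3 right
      left
      exact ⟨c rfl, D, d, e⟩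
    · iterate 2 right
      left
      exact ⟨fun h => by subst h; exact not_frame_four hF hH d (e ▸ inf_le_left), D, d, e⟩
  | pair k D a b c d =>
    obtain rfl : k = 2 := by omega
    iterate 4 right
    left
    exact ⟨by
      by_contra h
      exact not_pair_four hF (by omega) hH b c (d ▸ inf_le_left), D, b, c, d⟩
  | subOdd F₀ r P a b c d e =>
    iterate 5 right
    left
    exact ⟨F₀, r, P, a, b, c, d, e⟩
  | subO F₀ P a b c d =>
    iterate 7 right
    left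
    exact ⟨a, F₀, P, b, c, d⟩
  | subSp F₀ P ζ a b c d e g k =>
    iterate 6 right
    left
    exact ⟨F₀, P, ζ, b, c, d, e, g, k⟩
  | extra r R H' p k m a b c d e g l hc hle =>
    have h1 := prime_pow_cases a.prime a.one_le b (by norm_num)
    obtain ⟨rfl, rfl⟩ : r = 2 ∧ m = 2 := by revert h1; norm_num
    rcases hc with ⟨h2, -⟩ | ⟨-, h2, h3, h4, h5⟩
    · exact absurd h2 (by decide)
    iterate 8 right
    left
    exact ⟨p, R, d, h2, h3, a.type, absIrred_of_env a.env_top, c, h5, h4, hle⟩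
  | field r K a b c d e g =>
    exfalso
    have : r ≤ 4 := Nat.le_of_dvd (by norm_num) c
    clear d e g
    interval_cases r <;> revert a b c <;> decide
  | tensor n₁ n₂ e P a b c d g k =>
    have : n₁ ≤ 3 := by nlinarith
    interval_cases n₁ <;> omega
  | wreath k e P f₁ a b c d g l =>
    have : k ≤ 3 := by nlinarith
    interval_cases k
    omega

end Cfsg.Agent.S5784
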