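import Cfsg.Statements.S5787
import Cfsg.Agent.Lib.CasesSp.Main

set_option autoImplicit false
open Cfsg

namespace Cfsg.Agent.S5787

open CfsgLib.CasesSp

/-- Every maximal subgroup of Sp_4(q), q odd, is of one of the listed geometric types or lies in the residual class. Let F be a finite field of odd order q, f the standard alternating form on F^4 (coordinates Fin 2 ⊕ Fin 2), and H a maximal subgroup of the isometry group Sp_4(F) (inside GL_4(F)). Then H is the intersection with Sp_4(F) of one of: the stabiliser of a non-zero totally isotropic subspace; the stabiliser of a decomposition into two orthogonal non-degenerate 2-spaces; for q ≥ 5, of a decomposition into two totally isotropic 2-spaces; the normaliser of a degree-2 subfield K of the matrix algebra, self-adjoint with f(k v, v) = 0; for q ≥ 5, the normaliser of a degree-2 subfield closed under adjoints but not self-adjoint; a subfield group whose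 F₀-structure carries a non-zero multiple of f, |F| = |F₀|^r with r prime; for q = p prime, the normaliser of an absolutely irreducible symplectic-type 2-group of exponent 4, order 32, centre of order 2 and minus type inside the similarity group of f — or else H lies in the residual class of the symplectic case. -/
theorem result {F : Type*} [Field F] [Fintype F] (hodd : Odd (Fintype.card F)) (H : Subgroup (Matrix.GeneralLinearGroup (Fin 2 ⊕ Fin 2) F)) (hH : Cfsg.Geo.IsMaximalIn (Cfsg.spGL 2 F) H) :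
    (∃ W : Submodule F (Fin 2 ⊕ Fin 2 → F), W ≠ ⊥ ∧ Cfsg.Geo.IsTotallySingularFor (Cfsg.sympForm 2 F) W ∧ H = Cfsg.Geo.subspaceStabilizer W ⊓ Cfsg.spGL 2 F) ∨
    (∃ D : Fin 2 → Submodule F (Fin 2 ⊕ Fin 2 → F), Cfsg.Geo.IsNondegenerateMDecomposition (Cfsg.sympForm 2 F) 2 D ∧ H = Cfsg.Geo.decompositionStabilizer D ⊓ Cfsg.spGL 2 F) ∨
    (5 ≤ Fintype.card F ∧ ∃ D : Fin 2 → Submodule F (Fin 2 ⊕ Fin 2 → F), Cfsg.Geo.IsMDecomposition 2 D ∧ (∀ i, Cfsg.Geo.IsTotallySingularFor (Cfsg.sympForm 2 F) (D i)) ∧ H = Cfsg.Geo.decompositionStabilizer D ⊓ Cfsg.spGL 2 F) ∨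
    (∃ K : Subalgebra F (Matrix (Fin 2 ⊕ Fin 2) (Fin 2 ⊕ Fin 2) F), Cfsg.Geo.IsFieldSubalgebra 2 K ∧ Cfsg.Geo.IsSelfAdjointFor (Cfsg.sympForm 2 F) K ∧ (∀ k ∈ K, ∀ v : (Fin 2 ⊕ Fin 2 → F), (Cfsg.sympForm 2 F) (Matrix.mulVec k v) v = 0) ∧ H = Cfsg.Geo.subalgebraNormalizer K ⊓ Cfsg.spGL 2 F) ∨
    (5 ≤ Fintype.card F ∧ ∃ K : Subalgebra F (Matrix (Fin 2 ⊕ Fin 2) (Fin 2 ⊕ Fin 2) F), Cfsg.Geo.IsFieldSubalgebra 2 K ∧ Cfsg.Geo.IsAdjointClosedFor (Cfsg.sympForm 2 F) K ∧ ¬ Cfsg.Geo.IsSelfAdjointFor (Cfsg.sympForm 2 F) K ∧ H = Cfsg.Geo.subalgebraNormalizer K ⊓ Cfsg.spGL 2 F) ∨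
    (∃ (F₀ : Subfield F) (r : ℕ) (P : Matrix.GeneralLinearGroup (Fin 2 ⊕ Fin 2) F) (ζ : F), r.Prime ∧ Fintype.card F = Nat.card F₀ ^ r ∧ ζ ≠ 0 ∧ Cfsg.Geo.IsFormRationalStructure (Cfsg.sympForm 2 F) F₀ ζ P ∧ H = Cfsg.Geo.subfieldSubgroup F₀ P ⊓ Cfsg.spGL 2 F) ∨
    (∃ (p : ℕ) (R : Subgroup (Matrix.GeneralLinearGroup (Fin 2 ⊕ Fin 2) F)), p.Prime ∧ Fintype.card F = p ∧ Cfsg.Geo.IsSymplecticTypeGroup 2 R ∧ Cfsg.Geo.ActsAbsolutelyIrreducibly (Cfsg.Geo.matrixSet R) ∧ R ≤ Cfsg.Geo.similarityGroup (Cfsg.sympForm 2 F) ∧ Nat.card R = 32 ∧ Nat.card (Subgroup.center R) = 2 ∧ Cfsg.Geo.IsOfMinusType 2 R ∧ H = Cfsg.Geo.subgroupNormalizer R ⊓ Cfsg.spGL 2 F) ∨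
    Cfsg.Geo.InSymplecticResidualClass H := by
  rcases sp_max_cases (by norm_num) hH with h | ⟨W, h1, h2, h3, h4, h⟩ | ⟨t, k, D, h1, h2, h4, h3, h⟩ |
    ⟨h0, h1, h⟩ | ⟨r, K, h1, h2, h⟩ | ⟨h0, h1, h⟩ | ⟨h0, n₁, n₂, e, P, f₁, f₂, h1, h2, h3, h4, h5, h6, h⟩ | h |
    ⟨k, p, R, h1, h2, h3, h⟩ | ⟨h0, k, t, e, P, f₁, h1, h2, h3, h4, h⟩ | h | h
  · exact Or.inl h
  · omega
  · obtain ⟨rfl, rfl⟩ : (t = 2 ∧ k = 1) := by
      clear h h3 D
      have := Nat.le_of_dvd (by norm_num) ⟨_, h1.symm⟩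
      interval_cases t <;> omega
    · iterate 1 right
      exact Or.inl ⟨D, h3, h⟩
  · iterate 2 right
    exact Or.inl ⟨h1 rfl, h⟩
  · obtain rfl : r = 2 := by
      clear h
      have := Nat.le_of_dvd (by norm_num) h2
      interval_cases r <;> first | omega | (norm_num at h1; done) | (norm_num at h2; done)
    · iterate 3 right
      exact Or.inl ⟨K, h⟩
  · iterate 4 right
    exact Or.inl ⟨h1 rfl, h⟩
  · exfalso
    clear h h4 h5 h6 e f₁ f₂
    have := Nat.le_of_dvd (by norm_num) ⟨_, h1.symm.trans (mul_comm _ _)⟩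
    interval_cases n₂ <;> omega
  · iterate 5 right
    exact Or.inl h
  · obtain rfl : k = 2 := by
      rcases two_pow_cases h1 (by omega) with rfl | rfl | rfl | rfl <;> omega
    iterate 6 right
    exact Or.inl ⟨p, R, h2, h⟩
  · obtain ⟨rfl, rfl⟩ := pow_cases h1 h2 h3 (by omega)
    omega
  · exact (h.1 hodd).elim
  · iterate 7 right
    exact h

end Cfsg.Agent.S5787
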