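import Cfsg.Statements.S5799
import Cfsg.Agent.Lib.SLCases.Main

set_option autoImplicit false
open Cfsg CfsgLib.SLCases

namespace Cfsg.Agent.S5799

/-- Every maximal subgroup of SL_6(q) is of one of the listed geometric types or lies in the residual class. Let F be a finite field with q elements (p its characteristic) and H a maximal subgroup of SL_6(F) (inside GL_6(F)). Then H is the intersection with SL_6(F) of one of: the stabiliser of a proper non-zero subspace; for q ≥ 5, the stabiliser of a decomposition into 6 independent 1-spaces; for q ≥ 3, the stabiliser of a decomposition into 3 independent 2-spaces; the stabiliser of a decomposition into 2 independent 3-spaces; the normaliser of a degree-2 subfield of the matrix algebra; the normaliser of a degree-3 subfield of the matrix algebra; for q ≥ 3, the stabiliser of a tensor decomposition F^2 ⊗ F^3; a subfield group for a subfield F₀ with |F| = |F₀|^r, r prime; for q odd, the similarity group of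 a non-degenerate quadratic form; the similarity group of a non-degenerate symplectic form; the similarity group of a non-degenerate unitary form — or else H lies in the residual class of the linear case (modulo scalars H is almost simple, with absolutely irreducible perfect socle preimage realisable over no proper subfield and fixing no non-degenerate quadratic, symplectic or unitary form). -/
theorem result {F : Type*} [Field F] [Fintype F] (H : Subgroup (Matrix.GeneralLinearGroup (Fin 6) F)) (hH : Cfsg.Geo.IsMaximalIn (Cfsg.Geo.specialLinear (Fin 6) F) H) :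
    (∃ W : Submodule F (Fin 6 → F), W ≠ ⊥ ∧ W ≠ ⊤ ∧ H = Cfsg.Geo.subspaceStabilizer W ⊓ Cfsg.Geo.specialLinear (Fin 6) F) ∨
    (5 ≤ Fintype.card F ∧ ∃ D : Fin 6 → Submodule F (Fin 6 → F), Cfsg.Geo.IsMDecomposition 1 D ∧ H = Cfsg.Geo.decompositionStabilizer D ⊓ Cfsg.Geo.specialLinear (Fin 6) F) ∨
    (3 ≤ Fintype.card F ∧ ∃ D : Fin 3 → Submodule F (Fin 6 → F), Cfsg.Geo.IsMDecomposition 2 D ∧ H = Cfsg.Geo.decompositionStabilizer D ⊓ Cfsg.Geo.specialLinear (Fin 6) F) ∨
    (∃ D : Fin 2 → Submodule F (Fin 6 → F), Cfsg.Geo.IsMDecomposition 3 D ∧ H = Cfsg.Geo.decompositionStabilizer D ⊓ Cfsg.Geo.specialLinear (Fin 6) F) ∨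
    (∃ K : Subalgebra F (Matrix (Fin 6) (Fin 6) F), Cfsg.Geo.IsFieldSubalgebra 2 K ∧ H = Cfsg.Geo.subalgebraNormalizer K ⊓ Cfsg.Geo.specialLinear (Fin 6) F) ∨
    (∃ K : Subalgebra F (Matrix (Fin 6) (Fin 6) F), Cfsg.Geo.IsFieldSubalgebra 3 K ∧ H = Cfsg.Geo.subalgebraNormalizer K ⊓ Cfsg.Geo.specialLinear (Fin 6) F) ∨
    (3 ≤ Fintype.card F ∧ ∃ (e : Fin 6 ≃ Fin 2 × Fin 3) (P : Matrix.GeneralLinearGroup (Fin 6) F), H = Cfsg.Geo.tensorProductSubgroup 2 3 e P ⊓ Cfsg.Geo.specialLinear (Fin 6) F) ∨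
    (∃ (F₀ : Subfield F) (r : ℕ) (P : Matrix.GeneralLinearGroup (Fin 6) F), r.Prime ∧ Fintype.card F = Nat.card F₀ ^ r ∧ H = Cfsg.Geo.subfieldSubgroup F₀ P ⊓ Cfsg.Geo.specialLinear (Fin 6) F) ∨
    (Odd (Fintype.card F) ∧ ∃ Q : (Fin 6 → F) → F, Cfsg.Geo.IsNondegenerateQuadraticForm Q ∧ H = Cfsg.Geo.quadSimilarityGroup Q ⊓ Cfsg.Geo.specialLinear (Fin 6) F) ∨
    (∃ f : (Fin 6 → F) → (Fin 6 → F) → F, Cfsg.Geo.IsSymplecticForm f ∧ H = Cfsg.Geo.similarityGroup f ⊓ Cfsg.Geo.specialLinear (Fin 6) F) ∨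
    (∃ (σ : F ≃+* F) (f : (Fin 6 → F) → (Fin 6 → F) → F), Cfsg.Geo.IsUnitaryForm σ f ∧ H = Cfsg.Geo.similarityGroup f ⊓ Cfsg.Geo.specialLinear (Fin 6) F) ∨
    Cfsg.Geo.InLinearResidualClass H := by
  rcases sl_cases (by norm_num) hH with h | ⟨t, m, D, hD, hn, ht, c1, c2, c3, c4, h⟩ | ⟨r, K, hr, hd, hK, c, h⟩ | ⟨n₁, n₂, e, P, h1, h2, hn, c, h⟩ | h | ⟨r, k, R, hR, hr, hn, h⟩ | ⟨m, t, e, P, hm, ht, hn, h⟩ | ⟨he, h⟩ | h | h | h
  · exact Or.inl h
  · have h0 : (t = 2 ∧ m = 3) ∨ (t = 3 ∧ m = 2) ∨ (t = 6 ∧ m = 1) := by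
      have : t ≤ 6 := Nat.le_of_dvd (by norm_num) ⟨m, hn⟩
      interval_cases t <;> omega
    rcases h0 with ⟨rfl, rfl⟩ | ⟨rfl, rfl⟩ | ⟨rfl, rfl⟩
    · iterate 3 right
      exact Or.inl ⟨D, hD, h⟩
    · iterate 2 right
      exact Or.inl ⟨by omega, D, hD, h⟩
    · iterate 1 right
      exact Or.inl ⟨by omega, D, hD, h⟩
  · have h0 : r = 2 ∨ r = 3 := by
      have := Nat.le_of_dvd (by norm_num) hd
      interval_cases r <;> first | omega | exact absurd hr (by decide)
    rcases h0 with rfl | rfl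
    · iterate 4 right
      exact Or.inl ⟨K, hK, h⟩
    · iterate 5 right
      exact Or.inl ⟨K, hK, h⟩
  · have h0 : (n₁ = 2 ∧ n₂ = 3) := by
      have : n₁ ≤ 6 := Nat.le_of_dvd (by norm_num) ⟨n₂, hn⟩
      interval_cases n₁ <;> omega
    rcases h0 with ⟨rfl, rfl⟩
    · iterate 6 right
      exact Or.inl ⟨c rfl, e, P, h⟩
  · iterate 7 right
    exact Or.inl h
  · exact absurd ((eq_of_prime_dvd hr hn (s := 2) (by norm_num) (by norm_num)).symm.trans (eq_of_prime_dvd hr hn (s := 3) (by norm_num) (by norm_num))) (by norm_num)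
  · exact absurd (pow_bound hm ht hn (by norm_num)).1 (by norm_num)
  · iterate 9 right
    exact Or.inl h
  · iterate 10 right
    exact Or.inl h
  · iterate 8 right
    exact Or.inl h
  · iterate 11 right
    exact h

end Cfsg.Agent.S5799
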