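import Cfsg.Statements.S5802
import Cfsg.Agent.Lib.Asch.SUBil
import Cfsg.Agent.Lib.Asch.SUSmall

set_option autoImplicit false
open Cfsg

namespace Cfsg.Agent.S5802


/-- Every maximal subgroup of SU_6(q) is of one of the listed geometric types or lies in the residual class. Let F be the field with q² elements, f the standard unitary form Σ u_i v_i^q on F^6, and H a maximal subgroup of SU_6(q) (inside GL_6(F)). Then H is the intersection with SU_6(q) of one of: the stabiliser of a non-zero totally isotropic subspace; the stabiliser of a non-degenerate 1- or 2-space; for q ≥ 3, the stabiliser of a decomposition into six mutually orthogonal non-degenerate 1-spaces; for q ≥ 3, of a decomposition into three mutually orthogonal non-degenerate 2-spaces; of a decomposition into two orthogonal non-degenerate 3-spaces; of a decomposition into two totally isotropic 3-spaces; for q ≥ 3, the normaliser of an adjoint-closed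 degree-3 subfield of the matrix algebra; for q ≥ 3, the stabiliser of a tensor decomposition of f into unitary forms on F^2 and F^3; a subfield group of odd prime index whose F₀-structure carries f; a subfield group of index 2 and symplectic type; for q odd, a subfield group of index 2 and orthogonal type — or else H lies in the residual class of the unitary case. -/
theorem result {F : Type*} [Field F] [Fintype F] (q : ℕ) (hF : Fintype.card F = q ^ 2) (H : Subgroup (Matrix.GeneralLinearGroup (Fin 6) F)) (hH : Cfsg.Geo.IsMaximalIn (Cfsg.GU 6 F q ⊓ Cfsg.Geo.specialLinear (Fin 6) F) H) :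
    (∃ W : Submodule F (Fin 6 → F), W ≠ ⊥ ∧ Cfsg.Geo.IsTotallySingularFor (Cfsg.hermForm 6 F q) W ∧ H = Cfsg.Geo.subspaceStabilizer W ⊓ (Cfsg.GU 6 F q ⊓ Cfsg.Geo.specialLinear (Fin 6) F)) ∨
    (∃ W : Submodule F (Fin 6 → F), W ≠ ⊥ ∧ Cfsg.Geo.IsNondegenerateOn (Cfsg.hermForm 6 F q) W ∧ 2 * Module.finrank F W < 6 ∧ H = Cfsg.Geo.subspaceStabilizer W ⊓ (Cfsg.GU 6 F q ⊓ Cfsg.Geo.specialLinear (Fin 6) F)) ∨
    (3 ≤ q ∧ ∃ D : Fin 6 → Submodule F (Fin 6 → F), Cfsg.Geo.IsNondegenerateMDecomposition (Cfsg.hermForm 6 F q) 1 D ∧ H = Cfsg.Geo.decompositionStabilizer D ⊓ (Cfsg.GU 6 F q ⊓ Cfsg.Geo.specialLinear (Fin 6) F)) ∨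
    (3 ≤ q ∧ ∃ D : Fin 3 → Submodule F (Fin 6 → F), Cfsg.Geo.IsNondegenerateMDecomposition (Cfsg.hermForm 6 F q) 2 D ∧ H = Cfsg.Geo.decompositionStabilizer D ⊓ (Cfsg.GU 6 F q ⊓ Cfsg.Geo.specialLinear (Fin 6) F)) ∨
    (∃ D : Fin 2 → Submodule F (Fin 6 → F), Cfsg.Geo.IsNondegenerateMDecomposition (Cfsg.hermForm 6 F q) 3 D ∧ H = Cfsg.Geo.decompositionStabilizer D ⊓ (Cfsg.GU 6 F q ⊓ Cfsg.Geo.specialLinear (Fin 6) F)) ∨
    (∃ D : Fin 2 → Submodule F (Fin 6 → F), Cfsg.Geo.IsMDecomposition 3 D ∧ (∀ i, Cfsg.Geo.IsTotallySingularFor (Cfsg.hermForm 6 F q) (D i)) ∧ H = Cfsg.Geo.decompositionStabilizer D ⊓ (Cfsg.GU 6 F q ⊓ Cfsg.Geo.specialLinear (Fin 6) F)) ∨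
    (3 ≤ q ∧ ∃ K : Subalgebra F (Matrix (Fin 6) (Fin 6) F), Cfsg.Geo.IsFieldSubalgebra 3 K ∧ Cfsg.Geo.IsAdjointClosedFor (Cfsg.hermForm 6 F q) K ∧ H = Cfsg.Geo.subalgebraNormalizer K ⊓ (Cfsg.GU 6 F q ⊓ Cfsg.Geo.specialLinear (Fin 6) F)) ∨
    (3 ≤ q ∧ ∃ (e : Fin 6 ≃ Fin 2 × Fin 3) (P : Matrix.GeneralLinearGroup (Fin 6) F) (f₁ : (Fin 2 → F) → (Fin 2 → F) → F) (f₂ : (Fin 3 → F) → (Fin 3 → F) → F), Cfsg.Geo.IsUnitaryFormPow q f₁ ∧ Cfsg.Geo.IsUnitaryFormPow q f₂ ∧ Cfsg.Geo.IsTensorFormStructure (fun x : F => x ^ q) (Cfsg.hermForm 6 F q) f₁ f₂ e P ∧ H = Cfsg.Geo.tensorProductSubgroup 2 3 e P ⊓ (Cfsg.GU 6 F q ⊓ Cfsg.Geo.specialLinear (Fin 6) F)) ∨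
    (∃ (F₀ : Subfield F) (r : ℕ) (P : Matrix.GeneralLinearGroup (Fin 6) F), r.Prime ∧ Odd r ∧ Fintype.card F = Nat.card F₀ ^ r ∧ Cfsg.Geo.IsFormRationalStructure (Cfsg.hermForm 6 F q) F₀ 1 P ∧ H = Cfsg.Geo.subfieldSubgroup F₀ P ⊓ (Cfsg.GU 6 F q ⊓ Cfsg.Geo.specialLinear (Fin 6) F)) ∨
    (∃ (F₀ : Subfield F) (P : Matrix.GeneralLinearGroup (Fin 6) F) (ζ : F), Fintype.card F = Nat.card F₀ ^ 2 ∧ ζ ≠ 0 ∧ ζ + ζ ^ q = 0 ∧ Cfsg.Geo.IsFormRationalStructure (Cfsg.hermForm 6 F q) F₀ ζ P ∧ (∀ u : Fin 6 → F, (∀ i, u i ∈ F₀) → (Cfsg.hermForm 6 F q) (Matrix.mulVec (P : Matrix (Fin 6) (Fin 6) F) u) (Matrix.mulVec (P : Matrix (Fin 6) (Fin 6) F) u) = 0) ∧ H = Cfsg.Geo.subfieldSubgroup F₀ P ⊓ (Cfsg.GU 6 F q ⊓ Cfsg.Geo.specialLinear (Fin 6) F)) ∨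
    (Odd q ∧ ∃ (F₀ : Subfield F) (P : Matrix.GeneralLinearGroup (Fin 6) F), Fintype.card F = Nat.card F₀ ^ 2 ∧ Cfsg.Geo.IsFormRationalStructure (Cfsg.hermForm 6 F q) F₀ 1 P ∧ H = Cfsg.Geo.subfieldSubgroup F₀ P ⊓ (Cfsg.GU 6 F q ⊓ Cfsg.Geo.specialLinear (Fin 6) F)) ∨
    Cfsg.Geo.InUnitaryResidualClass H := by
  open CfsgLib.Asch in
  rcases umax_of_maximal hF (by norm_num) (by norm_num) (by omega) hH with h | h
  swap
  · iterate 11 right
    exact h
  have hq2 := CfsgLib.Unitary.two_le_q hF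
  cases h with
  | ts W a b c => exact Or.inl ⟨W, a, b, c⟩
  | nd W a b c d => exact Or.inr (Or.inl ⟨W, a, b, c, d⟩)
  | dec t k D a b c d e =>
    have ht : (t = 2 ∧ k = 3) ∨ (t = 3 ∧ k = 2) ∨ (t = 6 ∧ k = 1) := by
      have : t ≤ 6 := Nat.le_of_dvd (by norm_num) ⟨k, a.symm⟩
      interval_cases t <;> omega
    rcases ht with ⟨rfl, rfl⟩ | ⟨rfl, rfl⟩ | ⟨rfl, rfl⟩
    · iterate 4 right
      left
      exact ⟨D, d, e⟩
    · iterate 3 right
      left
      exact ⟨c rfl, D, d, e⟩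
    · iterate 2 right
      left
      exact ⟨by
        by_contra h
        obtain rfl : q = 2 := by omega
        exact not_frame_six hF hH d (e ▸ inf_le_left), D, d, e⟩
  | pair k D a b c d =>
    obtain rfl : k = 3 := by omega
    iterate 5 right
    left
    exact ⟨D, b, c, d⟩
  | subOdd F₀ r P a b c d e =>
    iterate 8 right
    left
    exact ⟨F₀, r, P, a, b, c, d, e⟩
  | subO F₀ P a b c d =>
    iterate 10 right
    left
    exact ⟨a, F₀, P, b, c, d⟩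
  | subSp F₀ P ζ a b c d e g k =>
    iterate 9 right
    left
    exact ⟨F₀, P, ζ, b, c, d, e, g, k⟩
  | extra r R H' p k m a b c d e g l hc hle =>
    have h1 := prime_pow_cases a.prime a.one_le b (by norm_num)
    revert h1; norm_num
  | field r K a b c d e g =>
    obtain rfl : r = 3 := by
      have : r ≤ 6 := Nat.le_of_dvd (by norm_num) c
      clear d
      interval_cases r <;> revert a b c <;> decide
    iterate 6 right
    left
    exact ⟨by
      by_contra h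
      obtain rfl : q = 2 := by omega
      exact not_field_six hF hH d e (g ▸ inf_le_left), K, d, e, g⟩
  | tensor n₁ n₂ e P a b c d g k =>
    have ht : (n₁ = 2 ∧ n₂ = 3) := by
      have : n₁ ≤ 3 := by nlinarith
      clear d g k e
      interval_cases n₁ <;> omega
    obtain ⟨rfl, rfl⟩ := ht
    iterate 7 right
    left
    exact ⟨d rfl, e, P, _, _, isUnitaryFormPow_herm hF _, isUnitaryFormPow_herm hF _, g, k⟩
  | wreath k e P f₁ a b c d g l =>
    have : k ≤ 3 := by nlinarith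
    interval_cases k
    omega

end Cfsg.Agent.S5802
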