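import Cfsg.Statements.S5811
import Cfsg.Agent.Lib.Asch.SUMax

set_option autoImplicit false
open Cfsg

namespace Cfsg.Agent.S5811


/-- Every maximal subgroup of SU_7(q) is of one of the listed geometric types or lies in the residual class. Let F be the field with q² elements (characteristic p), f the standard unitary form Σ u_i v_i^q on F^7, and H a maximal subgroup of SU_7(q) (inside GL_7(F)). Then H is the intersection with SU_7(q) of one of: the stabiliser of a non-zero totally isotropic subspace; the stabiliser of a non-degenerate 1-, 2- or 3-space; the stabiliser of a decomposition into seven mutually orthogonal non-degenerate 1-spaces; the normaliser of an adjoint-closed degree-7 subfield of the matrix algebra; a subfield group of odd prime index whose F₀-structure carries f; for q odd, a subfield group of index 2 whose F₀-structure carries f; for q = p prime with p ≡ 6 mod 7, or q = p³ with p ≡ 3 or 5 mod 7, the normaliser of an absolutely irreducible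 7-group R of exponent 7, order 343 and centre of order 7, all of whose characteristic abelian subgroups are cyclic, contained in the similarity group of f — or else H lies in the residual class of the unitary case (modulo scalars H is almost simple, with absolutely irreducible perfect socle preimage realisable over no proper subfield and fixing no non-degenerate quadratic or symplectic form). -/
theorem result {F : Type*} [Field F] [Fintype F] (q : ℕ) (hF : Fintype.card F = q ^ 2) (H : Subgroup (Matrix.GeneralLinearGroup (Fin 7) F)) (hH : Cfsg.Geo.IsMaximalIn (Cfsg.GU 7 F q ⊓ Cfsg.Geo.specialLinear (Fin 7) F) H) :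
    (∃ W : Submodule F (Fin 7 → F), W ≠ ⊥ ∧ Cfsg.Geo.IsTotallySingularFor (Cfsg.hermForm 7 F q) W ∧ H = Cfsg.Geo.subspaceStabilizer W ⊓ (Cfsg.GU 7 F q ⊓ Cfsg.Geo.specialLinear (Fin 7) F)) ∨
    (∃ W : Submodule F (Fin 7 → F), W ≠ ⊥ ∧ Cfsg.Geo.IsNondegenerateOn (Cfsg.hermForm 7 F q) W ∧ 2 * Module.finrank F W < 7 ∧ H = Cfsg.Geo.subspaceStabilizer W ⊓ (Cfsg.GU 7 F q ⊓ Cfsg.Geo.specialLinear (Fin 7) F)) ∨
    (∃ D : Fin 7 → Submodule F (Fin 7 → F), Cfsg.Geo.IsNondegenerateMDecomposition (Cfsg.hermForm 7 F q) 1 D ∧ H = Cfsg.Geo.decompositionStabilizer D ⊓ (Cfsg.GU 7 F q ⊓ Cfsg.Geo.specialLinear (Fin 7) F)) ∨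
    (∃ K : Subalgebra F (Matrix (Fin 7) (Fin 7) F), Cfsg.Geo.IsFieldSubalgebra 7 K ∧ Cfsg.Geo.IsAdjointClosedFor (Cfsg.hermForm 7 F q) K ∧ H = Cfsg.Geo.subalgebraNormalizer K ⊓ (Cfsg.GU 7 F q ⊓ Cfsg.Geo.specialLinear (Fin 7) F)) ∨
    (∃ (F₀ : Subfield F) (r : ℕ) (P : Matrix.GeneralLinearGroup (Fin 7) F), r.Prime ∧ Odd r ∧ Fintype.card F = Nat.card F₀ ^ r ∧ Cfsg.Geo.IsFormRationalStructure (Cfsg.hermForm 7 F q) F₀ 1 P ∧ H = Cfsg.Geo.subfieldSubgroup F₀ P ⊓ (Cfsg.GU 7 F q ⊓ Cfsg.Geo.specialLinear (Fin 7) F)) ∨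
    (Odd q ∧ ∃ (F₀ : Subfield F) (P : Matrix.GeneralLinearGroup (Fin 7) F), Fintype.card F = Nat.card F₀ ^ 2 ∧ Cfsg.Geo.IsFormRationalStructure (Cfsg.hermForm 7 F q) F₀ 1 P ∧ H = Cfsg.Geo.subfieldSubgroup F₀ P ⊓ (Cfsg.GU 7 F q ⊓ Cfsg.Geo.specialLinear (Fin 7) F)) ∨
    (∃ (p : ℕ) (R : Subgroup (Matrix.GeneralLinearGroup (Fin 7) F)), p.Prime ∧ CharP F p ∧ ((q = p ∧ p % 7 = 6) ∨ (q = p ^ 3 ∧ (p % 7 = 3 ∨ p % 7 = 5))) ∧ Cfsg.Geo.IsSymplecticTypeGroup 7 R ∧ Cfsg.Geo.ActsAbsolutelyIrreducibly (Cfsg.Geo.matrixSet R) ∧ R ≤ Cfsg.Geo.similarityGroup (Cfsg.hermForm 7 F q) ∧ Nat.card R = 343 ∧ Nat.card (Subgroup.center R) = 7 ∧ H = Cfsg.Geo.subgroupNormalizer R ⊓ (Cfsg.GU 7 F q ⊓ Cfsg.Geo.specialLinear (Fin 7) F)) ∨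
    Cfsg.Geo.InUnitaryResidualClass H := by
  open CfsgLib.Asch in
  rcases umax_of_maximal hF (by norm_num) (by norm_num) (by omega) hH with h | h
  swap
  · iterate 7 right
    exact h
  have hq2 := CfsgLib.Unitary.two_le_q hF
  cases h with
  | ts W a b c => exact Or.inl ⟨W, a, b, c⟩
  | nd W a b c d => exact Or.inr (Or.inl ⟨W, a, b, c, d⟩)
  | dec t k D a b c d e =>
    have ht : (t = 7 ∧ k = 1) := by
      have : t ≤ 7 := Nat.le_of_dvd (by norm_num) ⟨k, a.symm⟩
      interval_cases t <;> omega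
    obtain ⟨rfl, rfl⟩ := ht
    iterate 2 right
    left
    exact ⟨D, d, e⟩
  | pair k D a b c d =>
    omega
  | subOdd F₀ r P a b c d e =>
    iterate 4 right
    left
    exact ⟨F₀, r, P, a, b, c, d, e⟩
  | subO F₀ P a b c d =>
    iterate 5 right
    left
    exact ⟨a, F₀, P, b, c, d⟩
  | subSp F₀ P ζ a b c d e g k =>
    exact absurd a (by decide)
  | extra r R H' p k m a b c d e g l hc hle =>
    have h1 := prime_pow_cases a.prime a.one_le b (by norm_num)
    obtain ⟨rfl, rfl⟩ : r = 7 ∧ m = 1 := by revert h1; norm_num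
    rcases hc with ⟨-, h2, h3, h4, h5⟩ | ⟨h2, -⟩
    swap
    · exact absurd h2 (by decide)
    iterate 6 right
    left
    exact ⟨p, R, d, e, (order_seven l h5).imp (fun h => ⟨by rw [g, h.1, pow_one], h.2⟩)
      (fun h => ⟨by rw [g, h.1], h.2⟩), a.type, absIrred_of_env a.env_top, c, h4, h2, hle⟩
  | field r K a b c d e g =>
    obtain rfl : r = 7 := by
      have : r ≤ 7 := Nat.le_of_dvd (by norm_num) c
      clear d
      interval_cases r <;> revert a b c <;> decide
    iterate 3 right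
    left
    exact ⟨K, d, e, g⟩
  | tensor n₁ n₂ e P a b c d g k =>
    have : n₁ ≤ 3 := by nlinarith
    interval_cases n₁ <;> omega
  | wreath k e P f₁ a b c d g l =>
    have : k ≤ 3 := by nlinarith
    interval_cases k
    omega

end Cfsg.Agent.S5811
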