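import Cfsg.Statements.S5814
import Cfsg.Agent.Lib.Asch.OrthCases

set_option autoImplicit false
open Cfsg

namespace Cfsg.Agent.S5814

open CfsgLib.Asch CfsgLib.Orth Cfsg.Geo Module


/-- Every maximal subgroup of Ω_7(q), q odd, is of one of the listed geometric types or lies in the residual class. Let F be a finite field of odd order q, Q the standard quadratic form x₀² + Σ x_i y_i on F^7 (coordinates Unit ⊕ (Fin 3 ⊕ Fin 3)), Ω the commutator subgroup of its isometry group, and H a maximal subgroup of Ω (inside GL_7(F)). Then H is the intersection with Ω of one of: the stabiliser of a non-zero totally singular subspace; the stabiliser of a non-zero non-degenerate subspace of even dimension (not a plus-type plane when q = 3); for q prime, the stabiliser of a decomposition into seven pairwise orthogonal, pairwise isometric non-degenerate 1-spaces; a subfield group (|F| = |F₀|^r, r prime) whose F₀-structure carries Q — or else H lies in the residual class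 of the orthogonal case (modulo scalars H is almost simple, with absolutely irreducible perfect socle preimage realisable over no proper subfield and fixing no non-degenerate unitary form). -/
theorem result {F : Type*} [Field F] [Fintype F] (hodd : Odd (Fintype.card F)) (H : Subgroup (Matrix.GeneralLinearGroup (Unit ⊕ (Fin 3 ⊕ Fin 3)) F)) (hH : Cfsg.Geo.IsMaximalIn (Cfsg.Geo.omegaGL (Cfsg.quadFormOdd 3 F)) H) :
    (∃ W : Submodule F (Unit ⊕ (Fin 3 ⊕ Fin 3) → F), W ≠ ⊥ ∧ Cfsg.Geo.IsTotallySingularQuad (Cfsg.quadFormOdd 3 F) W ∧ H = Cfsg.Geo.subspaceStabilizer W ⊓ Cfsg.Geo.omegaGL (Cfsg.quadFormOdd 3 F)) ∨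
    (∃ W : Submodule F (Unit ⊕ (Fin 3 ⊕ Fin 3) → F), W ≠ ⊥ ∧ Even (Module.finrank F W) ∧ Cfsg.Geo.IsNondegenerateOn (QuadraticMap.polar (Cfsg.quadFormOdd 3 F)) W ∧ ¬ (Fintype.card F = 3 ∧ Module.finrank F W = 2 ∧ Cfsg.Geo.IsPlusTypeOn (Cfsg.quadFormOdd 3 F) W) ∧ H = Cfsg.Geo.subspaceStabilizer W ⊓ Cfsg.Geo.omegaGL (Cfsg.quadFormOdd 3 F)) ∨
    ((Fintype.card F).Prime ∧ ∃ D : Fin 7 → Submodule F (Unit ⊕ (Fin 3 ⊕ Fin 3) → F), Cfsg.Geo.IsOrthogonalMDecomposition (Cfsg.quadFormOdd 3 F) 1 D ∧ H = Cfsg.Geo.decompositionStabilizer D ⊓ Cfsg.Geo.omegaGL (Cfsg.quadFormOdd 3 F)) ∨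
    (∃ (F₀ : Subfield F) (r : ℕ) (P : Matrix.GeneralLinearGroup (Unit ⊕ (Fin 3 ⊕ Fin 3)) F), r.Prime ∧ Fintype.card F = Nat.card F₀ ^ r ∧ Cfsg.Geo.IsQuadFormRationalStructure (Cfsg.quadFormOdd 3 F) F₀ P ∧ H = Cfsg.Geo.subfieldSubgroup F₀ P ⊓ Cfsg.Geo.omegaGL (Cfsg.quadFormOdd 3 F)) ∨
    Cfsg.Geo.InOrthogonalResidualClass H := by
  have h2 : (2 : F) ≠ 0 := odd_card_iff.1 hodd
  have hQ := qOdd_nondegenerate h2 3
  have hn : Fintype.card (Unit ⊕ (Fin 3 ⊕ Fin 3)) = 7 := by simp
  have h7 : 7 ≤ Fintype.card (Unit ⊕ (Fin 3 ⊕ Fin 3)) := by omega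
  have hp : ∀ a b : ℕ, 2 ≤ a → 2 ≤ b → a * b ≠ 7 := fun a b ha hb h => by
    obtain ⟨h1, h3⟩ := mul_cases h ha hb
    interval_cases a <;> omega
  rcases oclass_or_residual hQ h7 hH.1.le with h | h
  swap
  · iterate 4 right
    exact h
  cases h with
  | ts W h0 hW _ hle => exact Or.inl ⟨W, h0, hW, eq_stab_ts hQ h7 hH h0 hW hle⟩
  | nd W h0 hW hd hs hle =>
    exact Or.inr (Or.inl (eq_stab_even hQ h7 hH (hn ▸ by decide) h0 hW hd hs hle))
  | ns h => exact absurd h h2
  | frame hq t D hD hle =>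
    obtain rfl : t = 7 := by have := card_eq_of_decomp hD.decomp.decomp; omega
    exact Or.inr (Or.inr (Or.inl ⟨hq, D, hD, eq_decomp hQ h7 hH hD.decomp.decomp hle⟩))
  | dec t k D hk hD =>
    exact absurd ((card_eq_of_decomp hD.decomp.decomp).trans hn) (hp _ _ hD.decomp.decomp.two_le hk)
  | pair k D _ hD => have := card_eq_of_decomp hD; omega
  | fieldSA r K hr hK hsa h1 =>
    obtain ⟨c, hc⟩ := field_dvd_card hK
    rcases c with _ | _ | c
    · omega
    · omega
    · exact absurd (hc.symm.trans hn) (hp _ _ hr.two_le (by omega))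
  | fieldU K hK => have := field_dvd_card hK; omega
  | sub h =>
    obtain ⟨F₀, r, P, h1, h3, h4, hle⟩ := h.one (m := 3) hn hQ (det_gram_qOdd_mem 3)
    iterate 3 right
    exact Or.inl ⟨F₀, r, P, h1, h3, h4, eq_subfield hQ h7 hH h1 h3 hle⟩
  | tensorAlt n₁ n₂ e P f₁ f₂ h1 h3 =>
    exact absurd (by simpa using (Fintype.card_congr e).symm) (hp n₁ n₂ h1 (by omega))
  | tensorSym _ n₁ n₂ e P f₁ f₂ h1 h3 =>
    exact absurd (by simpa using (Fintype.card_congr e).symm) (hp n₁ n₂ (by omega) (by omega))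
  | wreath k t e P f₁ h1 h3 =>
    have := pow_cases' (k := k) (n := 7) (by simpa using Fintype.card_congr e) h3 (by omega)
      (by omega)
    omega
  | pow k t hk ht h1 =>
    have := pow_cases' (hn.symm.trans h1) ht (by omega) (by omega)
    omega

end Cfsg.Agent.S5814
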