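import Cfsg.Statements.S5826
import Cfsg.Agent.Lib.Asch.OrthCases

set_option autoImplicit false
open Cfsg

namespace Cfsg.Agent.S5826

open CfsgLib.Asch CfsgLib.Orth Cfsg.Geo Module


/-- Every maximal subgroup of Ω_8^-(q) is of one of the listed geometric types or lies in the residual class. Let F be a finite field with q elements, Q a non-degenerate quadratic form on F^8 of minus type (no totally singular 4-space), Ω the commutator subgroup of its isometry group, and H a maximal subgroup of Ω (inside GL_8(F)). Then H is the intersection with Ω of one of: the stabiliser of a non-zero totally singular subspace; for q odd, the stabiliser of a non-degenerate subspace of odd dimension; the stabiliser of a non-degenerate 2-space of minus type; for q ≥ 4, the stabiliser of a non-degenerate 2-space of plus type; the stabiliser of a non-degenerate 4-space; for q even, the stabiliser of the span of a non-singular vector; the normaliser of a degree-2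 subfield of the matrix algebra; a subfield group of odd prime index whose F₀-structure carries a non-zero multiple of Q — or else H lies in the residual class of the orthogonal case (modulo scalars H is almost simple, with absolutely irreducible perfect socle preimage realisable over no proper subfield and fixing no non-degenerate unitary form). -/
theorem result {F : Type*} [Field F] [Fintype F] (Q : (Fin 8 → F) → F) (hQ : Cfsg.Geo.IsNondegenerateQuadraticForm Q) (hminus : ¬ Cfsg.Geo.IsPlusTypeOn Q ⊤) (H : Subgroup (Matrix.GeneralLinearGroup (Fin 8) F)) (hH : Cfsg.Geo.IsMaximalIn (Cfsg.Geo.omegaGL Q) H) :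
    (∃ W : Submodule F (Fin 8 → F), W ≠ ⊥ ∧ Cfsg.Geo.IsTotallySingularQuad Q W ∧ H = Cfsg.Geo.subspaceStabilizer W ⊓ Cfsg.Geo.omegaGL Q) ∨
    (Odd (Fintype.card F) ∧ ∃ W : Submodule F (Fin 8 → F), W ≠ ⊥ ∧ W ≠ ⊤ ∧ Odd (Module.finrank F W) ∧ Cfsg.Geo.IsNondegenerateOn (QuadraticMap.polar Q) W ∧ H = Cfsg.Geo.subspaceStabilizer W ⊓ Cfsg.Geo.omegaGL Q) ∨
    (∃ W : Submodule F (Fin 8 → F), Module.finrank F W = 2 ∧ Cfsg.Geo.IsNondegenerateOn (QuadraticMap.polar Q) W ∧ ¬ Cfsg.Geo.IsPlusTypeOn Q W ∧ H = Cfsg.Geo.subspaceStabilizer W ⊓ Cfsg.Geo.omegaGL Q) ∨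
    (4 ≤ Fintype.card F ∧ ∃ W : Submodule F (Fin 8 → F), Module.finrank F W = 2 ∧ Cfsg.Geo.IsNondegenerateOn (QuadraticMap.polar Q) W ∧ Cfsg.Geo.IsPlusTypeOn Q W ∧ H = Cfsg.Geo.subspaceStabilizer W ⊓ Cfsg.Geo.omegaGL Q) ∨
    (∃ W : Submodule F (Fin 8 → F), Module.finrank F W = 4 ∧ Cfsg.Geo.IsNondegenerateOn (QuadraticMap.polar Q) W ∧ H = Cfsg.Geo.subspaceStabilizer W ⊓ Cfsg.Geo.omegaGL Q) ∨
    (¬ Odd (Fintype.card F) ∧ ∃ v : (Fin 8 → F), Q v ≠ 0 ∧ H = Cfsg.Geo.subspaceStabilizer (Submodule.span F {v}) ⊓ Cfsg.Geo.omegaGL Q) ∨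
    (∃ K : Subalgebra F (Matrix (Fin 8) (Fin 8) F), Cfsg.Geo.IsFieldSubalgebra 2 K ∧ H = Cfsg.Geo.subalgebraNormalizer K ⊓ Cfsg.Geo.omegaGL Q) ∨
    (∃ (F₀ : Subfield F) (r : ℕ) (P : Matrix.GeneralLinearGroup (Fin 8) F) (ζ : F), r.Prime ∧ Odd r ∧ Fintype.card F = Nat.card F₀ ^ r ∧ ζ ≠ 0 ∧ Cfsg.Geo.IsQuadFormRationalStructure (fun v : Fin 8 → F => ζ * Q v) F₀ P ∧ H = Cfsg.Geo.subfieldSubgroup F₀ P ⊓ Cfsg.Geo.omegaGL Q) ∨
    Cfsg.Geo.InOrthogonalResidualClass H := by
  obtain ⟨Q, hQ', rfl⟩ : ∃ Q' : QuadraticForm F (Fin 8 → F),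
      (QuadraticMap.polarBilin Q').Nondegenerate ∧ ⇑Q' = Q := ⟨_, toQF_nondegenerate hQ, rfl⟩
  have hn : Fintype.card (Fin 8) = 8 := Fintype.card_fin _
  have h7 : 7 ≤ Fintype.card (Fin 8) := by omega
  have hp : ∀ a b : ℕ, 2 ≤ a → 2 ≤ b → a * b = 8 → (a = 2 ∧ b = 4) ∨ (a = 4 ∧ b = 2) :=
    fun a b ha hb h => by
      obtain ⟨h1, h3⟩ := mul_cases h ha hb
      interval_cases a <;> omega
  rcases oclass_or_residual hQ' h7 hH.1.le with h | h
  swap
  · iterate 8 right
    exact h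
  cases h with
  | ts W h0 hW _ hle => exact Or.inl ⟨W, h0, hW, eq_stab_ts hQ' h7 hH h0 hW hle⟩
  | nd W h0 hW hd hs hle =>
    have h1 := finrank_pos_of_ne_bot h0
    have h3 := eq_stab hQ' h7 hH h0 (by omega) hle
    rcases Nat.even_or_odd (finrank F W) with ⟨c, hc⟩ | h
    · rcases (by omega : finrank F W = 2 ∨ finrank F W = 4) with h | h
      · by_cases h4 : IsPlusTypeOn Q W
        · exact Or.inr (Or.inr (Or.inr (Or.inl ⟨hs h h4, W, h, hW, h4, h3⟩)))
        · exact Or.inr (Or.inr (Or.inl ⟨W, h, hW, h4, h3⟩))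
      · iterate 4 right
        exact Or.inl ⟨W, h, hW, h3⟩
    · exact Or.inr (Or.inl ⟨odd_of_nondegOn hW h, W, h0, ne_top_of_finrank_lt (by omega), h, hW, h3⟩)
  | ns h2 v hv hle =>
    iterate 5 right
    exact Or.inl ⟨not_odd_card h2, v, hv, eq_stab_span hQ' h7 hH hv hle⟩
  | frame hq t D hD hle =>
    obtain rfl : t = 8 := by have := card_eq_of_decomp hD.decomp.decomp; omega
    exact absurd ((plus_iff_of_even hQ' (odd_card_iff.1 (odd_of_decomp hD.decomp odd_one)) hD
      (by decide) (m := 4) hn).2 ⟨1, by ring⟩) hminus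
  | dec t k D hk hD =>
    rcases hp _ _ hD.decomp.decomp.two_le hk ((card_eq_of_decomp hD.decomp.decomp).trans hn) with
      ⟨rfl, rfl⟩ | ⟨rfl, rfl⟩ <;> exact absurd (plus_of_even_even hD (by decide) (by decide)) hminus
  | pair k D _ hD hs => exact absurd (plus_of_pair hD hs) hminus
  | fieldSA r K hr hK hsa h1 _ _ hle =>
    obtain rfl : r = 2 := (Nat.prime_dvd_prime_iff_eq hr Nat.prime_two).1
      (hr.dvd_of_dvd_pow (n := 3) (field_dvd_card hK))
    iterate 6 right
    exact Or.inl ⟨K, hK, eq_field hQ' h7 hH le_rfl hK hle⟩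
  | fieldU K hK _ _ _ hle =>
    iterate 6 right
    exact Or.inl ⟨K, hK, eq_field hQ' h7 hH le_rfl hK hle⟩
  | sub h =>
    obtain ⟨F₀, r, P, ζ, h1, h2, h3, h4, h5, hle⟩ := h.odd hQ' (m := 3) hn hminus
    iterate 7 right
    exact Or.inl ⟨F₀, r, P, ζ, h1, h2, h3, h4, h5, eq_subfield hQ' h7 hH h1 h3 hle⟩
  | tensorAlt n₁ n₂ e P f₁ f₂ h1 h3 _ _ _ h0 =>
    obtain ⟨rfl, rfl⟩ := (hp n₁ n₂ h1 (by omega)
      (by simpa using (Fintype.card_congr e).symm)).resolve_right (by omega)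
    exact absurd (plus_of_pure_two h0) hminus
  | tensorSym _ n₁ n₂ e P f₁ f₂ h1 h3 =>
    have := hp n₁ n₂ (by omega) (by omega) (by simpa using (Fintype.card_congr e).symm)
    omega
  | wreath k t e P f₁ h1 h3 =>
    have := pow_cases' (k := k) (n := 8) (by simpa using Fintype.card_congr e) h3 (by omega)
      (by omega)
    omega
  | pow k t hk ht h1 h8 => exact absurd (h8 hn) hminus

end Cfsg.Agent.S5826
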