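import Mathlib
import Cfsg.Statements.S5876
import Cfsg.Agent.Lib.Asch.Idem

set_option autoImplicit false
open Cfsg

namespace Cfsg.Agent.S5876

open scoped commutatorElement

open Cfsg.Geo CfsgLib.Asch Matrix in
theorem two_mul_le {F : Type*} [Field F] {n : ℕ} (g x : GL (Fin n) F) :
    2 * Module.finrank F (Module.End.eigenspace (Matrix.toLin' (g : Matrix (Fin n) (Fin n) F)) 1) ≤
      n + Module.finrank F (Module.End.eigenspace
        (Matrix.toLin' ((⁅g, x⁆ : GL (Fin n) F) : Matrix (Fin n) (Fin n) F)) 1) := by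
  set W := Module.End.eigenspace (Matrix.toLin' (g : Matrix (Fin n) (Fin n) F)) 1
  have h1 := Submodule.finrank_sup_add_finrank_inf_eq W
    (W.map (Matrix.toLin' (x : Matrix (Fin n) (Fin n) F)))
  have h2 := Submodule.finrank_le (W ⊔ W.map (Matrix.toLin' (x : Matrix (Fin n) (Fin n) F)))
  have h3 : W ⊓ W.map (Matrix.toLin' (x : Matrix (Fin n) (Fin n) F)) ≤ Module.End.eigenspace
      (Matrix.toLin' ((⁅g, x⁆ : GL (Fin n) F) : Matrix (Fin n) (Fin n) F)) 1 := by
    rintro _ ⟨hv, w, hw, rfl⟩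
    simp only [W, SetLike.mem_coe, Module.End.mem_eigenspace_iff, one_smul, Matrix.toLin'_apply]
      at hv hw ⊢
    have : (⁅g, x⁆ : GL (Fin n) F) * x * g = g * x := by simp [commutatorElement_def]
    rw [← hw, mulVec_mulVec, mulVec_mulVec, ← Units.val_mul, ← Units.val_mul, this, Units.val_mul,
      ← mulVec_mulVec, hv, hw]
  have h4 := Submodule.finrank_mono h3
  rw [finrank_map_toLin'] at h1
  simp only [Module.finrank_fintype_fun_eq_card, Fintype.card_fin] at h2
  omega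

theorem exists_critical {G : Type*} [Group G] [Finite G] (hG : IsSolvable G) :
    ∃ M : Subgroup G, M.Normal ∧ (∀ x ∈ M, ∀ y ∈ M, ⁅x, y⁆ ∈ Subgroup.centralizer (M : Set G)) ∧
      Subgroup.centralizer (M : Set G) ≤ M := by
  classical
  obtain ⟨M, ⟨hn, hM⟩, hmax⟩ := Set.Finite.exists_maximal (s := {M : Subgroup G | M.Normal ∧
    ∀ x ∈ M, ∀ y ∈ M, ⁅x, y⁆ ∈ Subgroup.centralizer (M : Set G)}) (Set.toFinite _)
    ⟨⊥, inferInstance, by simp⟩
  refine ⟨M, hn, hM, ?_⟩
  let L : ℕ → Subgroup G := fun k => (fun H : Subgroup G => ⁅H, H⁆)^[k] (Subgroup.centralizer M)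
  have hL : ∀ k, L (k + 1) = ⁅L k, L k⁆ := fun k => Function.iterate_succ_apply' _ _ _
  have h1 : ∀ k, (L k).Normal ∧ L k ≤ Subgroup.centralizer M ∧ L k ≤ derivedSeries G k := by
    intro k
    induction k with
    | zero => exact ⟨Subgroup.normal_centralizer, le_rfl, le_top⟩
    | succ k ih =>
      obtain ⟨h1, h2, h3⟩ := ih
      rw [hL]
      exact ⟨inferInstance, (Subgroup.commutator_le_left _ _).trans h2,
        Subgroup.commutator_mono h3 h3⟩
  have h2 : ∀ k, L (k + 1) ≤ M → L k ≤ M := fun k hk => by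
    obtain ⟨hn', hc, -⟩ := h1 k
    have hcm : ∀ a ∈ L k, ∀ b ∈ M, b * a = a * b := fun a ha b hb => hc ha b hb
    refine le_sup_left.trans (hmax (y := L k ⊔ M) ⟨inferInstance, fun x hx y hy => ?_⟩ le_sup_right)
    rw [← SetLike.mem_coe, Subgroup.mul_normal] at hx hy
    obtain ⟨a, ha, b, hb, rfl⟩ := hx
    obtain ⟨c, hc', d, hd, rfl⟩ := hy
    have e : ⁅a * b, c * d⁆ = ⁅a, c⁆ * ⁅b, d⁆ := by
      have e1 := hcm c hc' b hb
      have e2 := hcm _ ((L k).inv_mem ha) _ (M.mul_mem (M.mul_mem hb hd) (M.inv_mem hb))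
      have e3 := hcm _ ((L k).inv_mem hc') _
        (M.mul_mem (M.mul_mem (M.mul_mem hb hd) (M.inv_mem hb)) (M.inv_mem hd))
      calc ⁅a * b, c * d⁆ = a * (b * c) * d * b⁻¹ * a⁻¹ * d⁻¹ * c⁻¹ := by
            simp only [commutatorElement_def]; group
        _ = a * c * (b * d * b⁻¹ * a⁻¹) * d⁻¹ * c⁻¹ := by rw [e1]; group
        _ = a * c * a⁻¹ * (b * d * b⁻¹ * d⁻¹ * c⁻¹) := by rw [e2]; group
        _ = _ := by rw [e3]; simp only [commutatorElement_def]; group
    have hac : ⁅a, c⁆ ∈ L (k + 1) := hL k ▸ Subgroup.commutator_mem_commutator ha hc'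
    have hz : ⁅a * b, c * d⁆ ∈ Subgroup.centralizer (M : Set G) ⊓ M := by
      rw [e]
      exact Subgroup.mul_mem _ ⟨(h1 _).2.1 hac, hk hac⟩ ⟨hM b hb d hd,
        M.mul_mem (M.mul_mem (M.mul_mem hb hd) (M.inv_mem hb)) (M.inv_mem hd)⟩
    simp only at hz ⊢
    generalize ⁅a * b, c * d⁆ = z at hz
    refine Subgroup.le_centralizer_iff.1 (show L k ⊔ M ≤ Subgroup.centralizer
      (Subgroup.centralizer (M : Set G) ⊓ M : Subgroup G) from sup_le (fun u hu v hv => ?_)
        fun u hu v hv => ?_) hz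
    · exact hcm u hu v hv.2
    · exact (hv.1 u hu).symm
  obtain ⟨k, hk⟩ := hG
  have h3 : ∀ j, L j ≤ M → L 0 ≤ M := fun j => by
    induction j with
    | zero => exact id
    | succ j ih => exact fun h => ih (h2 j h)
  exact h3 k ((h1 k).2.2.trans (hk ▸ bot_le))


/-- Fixed-point spaces in primitive soluble linear groups. Let F be a finite field and G a soluble subgroup of GL_n(F) that acts irreducibly on F^n and primitively (G preserves no decomposition of F^n into two or more independent subspaces of equal dimension). Then every non-identity element g of G has fixed-point space {v : g v = v} of dimension at most 3n/4. -/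
theorem result {F : Type*} [Field F] [Fintype F] {n : ℕ} (G : Subgroup (Matrix.GeneralLinearGroup (Fin n) F)) (hsol : IsSolvable G) (hirr : Cfsg.Geo.ActsIrreducibly (Cfsg.Geo.matrixSet G)) (hprim : ∀ (m t : ℕ) (D : Fin t → Submodule F (Fin n → F)), 2 ≤ t → Cfsg.Geo.IsMDecomposition m D → ¬ G ≤ Cfsg.Geo.decompositionStabilizer D) (g : Matrix.GeneralLinearGroup (Fin n) F) (hg : g ∈ G) (hg1 : g ≠ 1) :
    4 * Module.finrank F (Module.End.eigenspace (Matrix.toLin' (g : Matrix (Fin n) (Fin n) F)) 1) ≤ 3 * n := by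
  classical
  rcases Nat.eq_zero_or_pos n with rfl | hn
  · exact absurd (Subsingleton.elim _ _) hg1
  have : Nonempty (Fin n) := ⟨⟨0, hn⟩⟩
  obtain ⟨M, hMn, hM, hC⟩ := exists_critical hsol
  let Z : Subgroup (GL (Fin n) F) := (Subgroup.centralizer (M : Set G)).map G.subtype
  have hZ : CfsgLib.Asch.Nrm G Z := by
    rintro h hh _ ⟨z, hz, rfl⟩
    exact ⟨_, (Subgroup.normal_centralizer (H := M)).conj_mem z hz ⟨h, hh⟩, rfl⟩
  have hfield : ∀ z ∈ Subgroup.centralizer (M : Set G), z ≠ 1 → Module.finrank F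
      (Module.End.eigenspace (Matrix.toLin' ((z : GL (Fin n) F) : Matrix (Fin n) (Fin n) F)) 1) = 0 := by
    intro z hz hz1
    have hcomm : ∀ x ∈ CfsgLib.Asch.env Z, ∀ y ∈ CfsgLib.Asch.env Z, x * y = y * x :=
      fun x hx y hy => CfsgLib.Asch.comm_env (fun a ha => (CfsgLib.Asch.comm_env (fun b hb => by
        obtain ⟨a, ha, rfl⟩ := ha
        obtain ⟨b, hb, rfl⟩ := hb
        rw [← Units.val_mul, ← Units.val_mul]
        exact congrArg (fun t : G => ((t : GL (Fin n) F) : Matrix (Fin n) (Fin n) F))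
          (hb a (hC ha))) hx).symm) hy
    rcases CfsgLib.Asch.comm_dichotomy hirr hZ.stab_env hcomm with hK | ⟨E, hE, hsys, h2⟩
    · obtain ⟨y, -, hy⟩ := hK.inv (((z : GL (Fin n) F) : Matrix (Fin n) (Fin n) F) - 1)
        (Subalgebra.sub_mem _ (CfsgLib.Asch.coe_mem_env ⟨z, hz, rfl⟩) (Subalgebra.one_mem _))
        fun h => hz1 (Subtype.ext (Units.ext (sub_eq_zero.1 h)))
      rw [Submodule.finrank_eq_zero, eq_bot_iff]
      intro v hv
      rw [Module.End.mem_eigenspace_iff, one_smul, Matrix.toLin'_apply] at hv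
      rw [Submodule.mem_bot, ← Matrix.one_mulVec v, ← mul_eq_one_comm.1 hy, ← Matrix.mulVec_mulVec,
        Matrix.sub_mulVec, hv, Matrix.one_mulVec, sub_self, Matrix.mulVec_zero]
    · obtain ⟨m, h3, h4⟩ := hsys.decomp hirr (hE ▸ hZ.stab_env.primIdem) h2 E.equivFin.symm
      exact absurd h4 (hprim m _ _ h2 h3)
  have key : ∀ c ∈ M, c ≠ 1 → 2 * Module.finrank F (Module.End.eigenspace
      (Matrix.toLin' ((c : GL (Fin n) F) : Matrix (Fin n) (Fin n) F)) 1) ≤ n := fun c hc hc1 => by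
    by_cases h : c ∈ Subgroup.centralizer (M : Set G)
    · rw [hfield c h hc1]; omega
    obtain ⟨y, hy, hy'⟩ : ∃ y ∈ M, ⁅c, y⁆ ≠ 1 := by
      by_contra h'; push Not at h'
      exact h fun y hy => (commutatorElement_eq_one_iff_mul_comm.1 (h' y hy)).symm
    have := two_mul_le (c : GL (Fin n) F) y
    rwa [show ⁅(c : GL (Fin n) F), (y : GL (Fin n) F)⁆ = (⁅c, y⁆ : G) from rfl,
      hfield _ (hM c hc y hy) hy'] at this
  by_cases h : (⟨g, hg⟩ : G) ∈ Subgroup.centralizer (M : Set G)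
  · have := hfield _ h fun h' => hg1 (congrArg Subtype.val h')
    simp only at this
    omega
  obtain ⟨y, hy, hy'⟩ : ∃ y ∈ M, ⁅(⟨g, hg⟩ : G), y⁆ ≠ 1 := by
    by_contra h'; push Not at h'
    exact h fun y hy => (commutatorElement_eq_one_iff_mul_comm.1 (h' y hy)).symm
  have h1 := two_mul_le g y
  have h2 := key _ (M.mul_mem (hMn.conj_mem y hy ⟨g, hg⟩) (M.inv_mem hy)) hy'
  rw [show ⁅g, (y : GL (Fin n) F)⁆ = ((⟨g, hg⟩ * y * (⟨g, hg⟩ : G)⁻¹ * y⁻¹ : G) : GL (Fin n) F)
    from rfl] at h1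
  omega

end Cfsg.Agent.S5876
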