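import Cfsg.Statements.S5877
import Cfsg.Agent.Lib.ExtEig.Basic

set_option autoImplicit false
open Cfsg
open scoped commutatorElement

namespace Cfsg.Agent.S5877

/-- Eigenspaces of elements normalising an absolutely irreducible extraspecial group. Let F be a finite field, r a prime, and R ≤ GL_n(F) an absolutely irreducible extraspecial r-group (an r-group whose centre equals its derived subgroup and has order r) of exponent r or 4. Let g ∈ GL_n(F) normalise the product of R with the scalar matrices, have prime order ϖ and not be scalar, and let W be the eigenspace of g for any c ∈ F (W may be the zero subspace). Then dim W ≤ 3n/4 if ϖ = 2, dim W ≤ 2n/3 if ϖ = 3, and dim W ≤ n/2 if ϖ > 3; moreover if ϖ = 3 and 3 does not divide n then dim W ≤ n/2. -/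
theorem result {F : Type*} [Field F] [Fintype F] {n r ϖ : ℕ} (R : Subgroup (Matrix.GeneralLinearGroup (Fin n) F)) (hr : r.Prime) (hR : IsPGroup r R) (hZ : Nat.card (Subgroup.center R) = r) (hext : commutator R = Subgroup.center R) (hexp : Monoid.exponent R = r ∨ Monoid.exponent R = 4) (hirr : Cfsg.Geo.ActsAbsolutelyIrreducibly (Cfsg.Geo.matrixSet R)) (g : Matrix.GeneralLinearGroup (Fin n) F) (hg : g ∈ Cfsg.Geo.subgroupNormalizer (R ⊔ Cfsg.Geo.scalars (Fin n) F)) (hϖ : ϖ.Prime) (hord : orderOf g = ϖ) (hns : g ∉ Cfsg.Geo.scalars (Fin n) F) (c : F) :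
    (ϖ = 2 → 4 * Module.finrank F (Module.End.eigenspace (Matrix.toLin' (g : Matrix (Fin n) (Fin n) F)) c) ≤ 3 * n) ∧
    (ϖ = 3 → 3 * Module.finrank F (Module.End.eigenspace (Matrix.toLin' (g : Matrix (Fin n) (Fin n) F)) c) ≤ 2 * n) ∧
    (3 < ϖ → 2 * Module.finrank F (Module.End.eigenspace (Matrix.toLin' (g : Matrix (Fin n) (Fin n) F)) c) ≤ n) ∧
    (ϖ = 3 → ¬ 3 ∣ n → 2 * Module.finrank F (Module.End.eigenspace (Matrix.toLin' (g : Matrix (Fin n) (Fin n) F)) c) ≤ n) := by
  have hn : Module.finrank F (Fin n → F) = n := by simp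
  by_cases h : Module.finrank F (Fin n → F) <
      2 * Module.finrank F (Module.End.eigenspace (Matrix.toLin' (g : Matrix (Fin n) (Fin n) F)) c)
  swap
  · omega
  let ρ : GL (Fin n) F →* Module.End F (Fin n → F) :=
    (Matrix.toLinAlgEquiv' (R := F) (n := Fin n)).toMonoidHom.comp (Units.coeHom _)
  have hρ : ∀ {a : GL (Fin n) F} {d : F}, ρ a = d • 1 ↔ (a : Matrix (Fin n) (Fin n) F) = d • 1 := fun {a d} => by
    rw [← Matrix.toLinAlgEquiv'.injective.eq_iff, map_smul, map_one]; rfl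
  have : Nonempty (Fin n) := by
    rcases n with _ | n
    exacts [absurd (Subsingleton.elim 1 g ▸ one_mem _) hns, inferInstance]
  have hZ' : Cfsg.Geo.scalars (Fin n) F ≤ Subgroup.center _ := fun z hz => Subgroup.mem_center_iff.2 fun a => by
    obtain ⟨d, hd⟩ := (Cfsg.Geo.mem_scalars_iff z).1 hz
    exact Units.ext (by simp [hd])
  have : (Cfsg.Geo.scalars (Fin n) F).Normal :=
    ⟨fun z hz a => by rwa [Subgroup.mem_center_iff.1 (hZ' hz), mul_inv_cancel_right]⟩
  have hc : ∀ a : GL (Fin n) F, (∀ b ∈ R, Commute a b) → ∃ d : F, ρ a = d • 1 := fun a ha => by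
    simp only [hρ]
    refine hirr.2 _ ?_
    rintro _ ⟨b, hb, rfl⟩
    exact congrArg Units.val (ha b hb).eq
  obtain ⟨h1, h2⟩ := CfsgLib.ExtEig.main (ρ := ρ) hr hϖ (Matrix.toLinAlgEquiv'.injective.comp Units.val_injective) hR
    (le_sup_left (b := Cfsg.Geo.scalars (Fin n) F)) (fun a ha => by
      obtain ⟨b, hb, z, hz, rfl⟩ := Subgroup.mem_sup_of_normal_right.1 ha
      exact ⟨b, hb, by simpa using hZ' hz⟩) (fun a ha a' ha' => by
      obtain ⟨b, hb, z, hz, rfl⟩ := Subgroup.mem_sup_of_normal_right.1 ha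
      obtain ⟨b', hb', z', hz', rfl⟩ := Subgroup.mem_sup_of_normal_right.1 ha'
      have e1 : ⁅b * z, b' * z'⁆ = ⁅b, b'⁆ := by
        rw [commutatorElement_def, mul_assoc b z, ← Subgroup.mem_center_iff.1 (hZ' hz), mul_inv_rev, mul_inv_rev,
          show b * (b' * z' * z) * (z⁻¹ * b⁻¹) * (z'⁻¹ * b'⁻¹) = b * b' * (z' * b⁻¹) * z'⁻¹ * b'⁻¹ by group,
          ← Subgroup.mem_center_iff.1 (hZ' hz')]
        group
      have e2 : ⁅(⟨b, hb⟩ : R), ⟨b', hb'⟩⁆ ∈ Subgroup.center R :=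
        hext ▸ Subgroup.commutator_mem_commutator (Subgroup.mem_top _) (Subgroup.mem_top _)
      obtain ⟨d, hd⟩ := hc ⁅b, b'⁆ fun x hx => (congrArg Subtype.val (Subgroup.mem_center_iff.1 e2 ⟨x, hx⟩)).symm
      have e3 : ⁅b, b'⁆ ^ r = 1 := hZ ▸ congrArg (·.1.1) (pow_card_eq_one' (x := (⟨_, e2⟩ : Subgroup.center R)))
      refine ⟨d, smul_left_injective F (one_ne_zero (α := Module.End F (Fin n → F))) ?_, e1 ▸ hd⟩
      simpa [hd, smul_pow] using congrArg ρ e3) (fun a ha => hc a fun b hb => ha b (Subgroup.mem_sup_left hb))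
    (Subgroup.mem_normalizer_iff.1 hg) (hord ▸ pow_orderOf_eq_one g) (fun d hd => hns ((Cfsg.Geo.mem_scalars_iff g).2
      ⟨Units.mk0 d fun h0 => g.ne_zero (by rw [hρ.1 hd, h0, zero_smul]), hρ.1 hd⟩)) c h
  change 4 * Module.finrank F (Module.End.eigenspace (Matrix.toLin' (g : Matrix (Fin n) (Fin n) F)) c) ≤ _ at h1
  change _ → _ ∧ _ * Module.finrank F (Module.End.eigenspace (Matrix.toLin' (g : Matrix (Fin n) (Fin n) F)) c) ≤ _ at h2
  rw [hn] at h1 h2
  refine ⟨fun _ => h1, fun e => e ▸ (h2 (by omega)).2, fun e => ?_, fun e h3 => absurd (e ▸ (h2 (by omega)).1) h3⟩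
  have := (Nat.mul_le_mul_right _ e).trans (h2 (by omega)).2
  omega

end Cfsg.Agent.S5877
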