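import Cfsg.Statements.S5943
import Cfsg.Agent.Lib.Dickson.Max

set_option autoImplicit false
open Cfsg

namespace Cfsg.Agent.S5943

open CfsgLib.Dickson


/-- Let K and F be finite fields of characteristic 2 with #K = q > 2 and #F = q^r for a prime r. Then PSL_2(F) has a maximal subgroup isomorphic to PSL_2(K) (which equals PGL_2(K) in characteristic 2). -/
theorem result {F K : Type*} [Field F] [Fintype F] [Field K] [Fintype K] (q r : ℕ) (hK : Fintype.card K = q) (hF : Fintype.card F = q ^ r) (hq : Even q) (hq2 : q ≠ 2) (hr : r.Prime) : ∃ H : Subgroup (Matrix.ProjectiveSpecialLinearGroup (Fin 2) F), IsCoatom H ∧ Nonempty (H ≃* Matrix.ProjectiveSpecialLinearGroup (Fin 2) K) := by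
  rw [← Nat.card_eq_fintype_card] at hF hK
  subst hK
  obtain ⟨K', h1, e⟩ := exists_subfield_equiv hF
  have := Finite.one_lt_card (α := K)
  refine exists_isCoatom_of_covBy ?_ (pslSub_equiv' e 1)
  rcases hr.eq_two_or_odd' with rfl | hr2
  · have h2 : (pslPGL K').range = ⊤ := Subgroup.index_eq_one.mp (index_psl_even (h1 ▸ hq))
    have : pslSub K' 1 = pglSub K' 1 := by
      ext g; simp [mem_pslSub, mem_pglSub, h2]
    exact this ▸ pglSub_covBy (by omega) (h1 ▸ hF) 1
  · exact pslSub_covBy (by omega) hr hr2 (h1 ▸ hF) 1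

end Cfsg.Agent.S5943
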