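import Cfsg.Statements.S5950
import Cfsg.Agent.Lib.Elusive.LinCount

set_option autoImplicit false
open scoped MatrixGroups
open Cfsg

namespace Cfsg.Agent.S5950

open CfsgLib.Elusive CfsgLib.MatConj


/-- Elements of prime order of PSL_n(q) fixing no decomposition `F^n = U ⊕ W` with `dim U = m`. Here `T = PSL_n(F)` for a field `F` with `q = p^f` elements (`n ≥ 2`, `(n, q) ≠ (2, 2), (2, 3)`); an element of `T` of prime order `r` is represented by a matrix `x` of determinant 1 with `x^r` scalar and `x` not scalar; `i` denotes the multiplicative order of `q` modulo `r` (when `r ≠ p`), and `(a)_r` the `r`-part of `a`. Let `n ≥ 3`, `1 ≤ m < n/2`, and let `r` be a prime dividing the number of such decompositions (unordered pairs `{U, W}` of complementary subspaces with `dim U = m`; since `m ≠ n − m` these are the ordered pairs with `dim U = m`). Then every element of `T` of order `r` fixes such a pair (fixes both `U` and `W` for some complementary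 `U, W` with `dim U = m`) if and only if one of: (i) `r = p > 2` and every partition of `n` into parts of size at most `p` contains, as a sub-multiset, a partition of `m`; (ii) `r = p = 2` and `n` is odd or `m` is even; (iii) `r ≠ p`, `i = 1`, and `r ∣ m` or `(q−1)_r ≥ (n)_r` (with `q ≡ 1 (mod 4)` required when `r = 2` and `n` is even); (iv) `r ≠ p`, `2 ≤ i ≤ m` and `n mod i ≥ m mod i`. -/
theorem result {F : Type*} [Field F] [Fintype F] {p : ℕ} [Fact p.Prime] [CharP F p] {q : ℕ} (hq : Fintype.card F = q)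
    (n m : ℕ) (hn : 3 ≤ n) (hm : 1 ≤ m) (hmn : 2 * m < n)
    (r : ℕ) [Fact r.Prime]
    (hrΩ : r ∣ Nat.card {P : Submodule F (Fin n → F) × Submodule F (Fin n → F) // IsCompl P.1 P.2 ∧ Module.finrank F ↥P.1 = m}) :
    (∀ x : Matrix.SpecialLinearGroup (Fin n) F,
      (∃ c : F, ((x ^ r : Matrix.SpecialLinearGroup (Fin n) F) : Matrix (Fin n) (Fin n) F) = c • (1 : Matrix (Fin n) (Fin n) F)) →
      (∀ c : F, (x : Matrix (Fin n) (Fin n) F) ≠ c • (1 : Matrix (Fin n) (Fin n) F)) →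
      ∃ U W : Submodule F (Fin n → F), IsCompl U W ∧ Module.finrank F ↥U = m ∧
        U.map (Matrix.toLin' (x : Matrix (Fin n) (Fin n) F)) ≤ U ∧ W.map (Matrix.toLin' (x : Matrix (Fin n) (Fin n) F)) ≤ W) ↔
    ((r = p ∧ 2 < p ∧ (∀ μ : Multiset ℕ, (∀ a ∈ μ, 0 < a ∧ a ≤ p) → μ.sum = n → ∃ ν : Multiset ℕ, ν ≤ μ ∧ ν.sum = m)) ∨
     (r = p ∧ p = 2 ∧ (Odd n ∨ Even m)) ∨
     (r ≠ p ∧
      ((orderOf (q : ZMod r) = 1 ∧ (r ∣ m ∨ (padicValNat r n ≤ padicValNat r (q - 1) ∧ (r = 2 → Even n → q % 4 = 1)))) ∨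
       (2 ≤ orderOf (q : ZMod r) ∧ orderOf (q : ZMod r) ≤ m ∧ m % orderOf (q : ZMod r) ≤ n % orderOf (q : ZMod r))))) := by
  subst hq
  have hn' : Module.finrank F (Fin n → F) = n := Module.finrank_fin_fun F
  have hs : ∀ (T : Module.End F (Fin n → F)) (c : F), c ≠ 0 →
      (∃ U W : Submodule F (Fin n → F), IsCompl U W ∧ Module.finrank F U = m ∧
        U.map (c • T) ≤ U ∧ W.map (c • T) ≤ W) →
      (∃ U W : Submodule F (Fin n → F), IsCompl U W ∧ Module.finrank F U = m ∧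
        U.map T ≤ U ∧ W.map T ≤ W) := by
    rintro T c hc ⟨U, W, h0, h1, h2, h3⟩
    exact ⟨U, W, h0, h1, inv_iff_map_le.1 ((inv_smul_iff hc).1 (inv_iff_map_le.2 h2)),
      inv_iff_map_le.1 ((inv_smul_iff hc).1 (inv_iff_map_le.2 h3))⟩
  have hΦ : ∀ (T : Module.End F (Fin n → F)),
      (∃ U W : Submodule F (Fin n → F), IsCompl U W ∧ Module.finrank F U = m ∧
        U.map T ≤ U ∧ W.map T ≤ W) ↔ ∃ ν ≤ dims (ed T), ν.sum = m := by
    intro T
    rw [← exists_isCompl_iff]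
    simp only [inv_iff_map_le]
    constructor
    · rintro ⟨U, W, h0, h1, h2, h3⟩; exact ⟨U, W, h2, h3, h0, h1⟩
    · rintro ⟨U, W, h2, h3, h0, h1⟩; exact ⟨U, W, h0, h1, h2, h3⟩
  rw [forall_SL_iff r fun T => ∃ U W : Submodule F (Fin n → F), IsCompl U W ∧
    Module.finrank F U = m ∧ U.map T ≤ U ∧ W.map T ≤ W]
  by_cases hrp : r = p
  · subst hrp
    rw [forall_det_char _ (fun μ => ∃ ν ≤ μ, ν.sum = m) hs
      (fun T μ _ h => by rw [hΦ, h, dims_unEd]), hn']
    have key : (∀ μ : Multiset ℕ, (∀ a ∈ μ, 0 < a ∧ a ≤ r) → μ.sum = n → (∃ a ∈ μ, a ≠ 1) →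
        ∃ ν ≤ μ, ν.sum = m) ↔
        ∀ μ : Multiset ℕ, (∀ a ∈ μ, 0 < a ∧ a ≤ r) → μ.sum = n → ∃ ν ≤ μ, ν.sum = m := by
      refine ⟨fun h μ h1 h2 => ?_, fun h μ h1 h2 _ => h μ h1 h2⟩
      by_cases h3 : ∃ a ∈ μ, a ≠ 1
      · exact h μ h1 h2 h3
      · push Not at h3
        exact exists_le_of_all_one h3 (by omega)
    rw [key]
    by_cases h2 : r = 2
    · subst h2
      rw [partition_two_iff (by omega)]
      simp
    · simp [h2, two_lt_of_ne_two Fact.out h2]
  · rw [ss_criterion hrp hm (by omega) (ord_dvd_of_dvd_card_pairs hrp (by omega) hrΩ) _ hs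
      fun T _ _ _ => hΦ T, hn']
    simp only [NoNS, ne_eq, hrp, not_false_eq_true, true_and, false_and, false_or]

end Cfsg.Agent.S5950
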