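import Cfsg.Statements.S5951
import Cfsg.Agent.Lib.Elusive.LinCount

set_option autoImplicit false
open scoped MatrixGroups
open Cfsg

namespace Cfsg.Agent.S5951

open CfsgLib.Elusive CfsgLib.MatConj

theorem rep_le {e a e' a' i : ℕ} (h1 : e ≤ e') (h2 : a ≤ a') :
    Multiset.replicate e 1 + Multiset.replicate a i ≤
      Multiset.replicate e' 1 + Multiset.replicate a' i :=
  add_le_add ((Multiset.replicate_le_replicate _).2 h1) ((Multiset.replicate_le_replicate _).2 h2)

theorem flag_iff {F V : Type*} [Field F] [AddCommGroup V] [Module F V] [FiniteDimensional F V]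
    {T : Module.End F V} {a : Polynomial F} (ha : Squarefree a) (hT : Polynomial.aeval T a = 0)
    {m : ℕ} (hm : 2 * m ≤ Module.finrank F V) :
    (∃ U W : Submodule F V, U ≤ W ∧ Module.finrank F U = m ∧
      Module.finrank F W = Module.finrank F V - m ∧ U.map T ≤ U ∧ W.map T ≤ W) ↔
    ∃ ν ν', ν + ν' ≤ dims (ed T) ∧ ν.sum = m ∧ ν'.sum = m := by
  constructor
  · rintro ⟨U, W, h1, h2, h3, h4, h5⟩
    rw [← inv_iff_map_le] at h4 h5
    obtain ⟨C, hC, h6⟩ := exists_compl_top ha hT h5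
    refine ⟨dims (edOn T U), dims (edOn T C), ?_, ?_, ?_⟩
    · rw [← dims_add, ed_eq_add h5 hC h6]
      exact dims_mono (add_le_add_left (edOn_mono ha hT h4 h5 h1) _)
    · rw [sum_dims, ← h4.finrank_eq, h2]
    · have := Submodule.finrank_add_eq_of_isCompl h6
      rw [sum_dims, ← hC.finrank_eq]; omega
  · rintro ⟨ν, ν', h1, h2, h3⟩
    obtain ⟨τ, hτ⟩ := Multiset.le_iff_exists_add.1 h1
    obtain ⟨U, W, h4, h5, h6, h7, h8⟩ := exists_flag_of_le T (ν := ν) (ν' := ν + τ)
      (Multiset.le_add_right _ _) (by rw [hτ, add_right_comm]; exact Multiset.le_add_right _ _)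
    refine ⟨U, W, h6, by omega, ?_, inv_iff_map_le.1 h4, inv_iff_map_le.1 h5⟩
    have := congrArg Multiset.sum hτ
    rw [sum_dims, ← finrank_eq_mdeg_ed] at this
    simp only [Multiset.sum_add] at this h8
    omega

theorem two_rep_iff {e a i m : ℕ} :
    (∃ ν ν', ν + ν' ≤ Multiset.replicate e 1 + Multiset.replicate a i ∧ ν.sum = m ∧
      ν'.sum = m) ↔ ∃ e₁ e₂ a₁ a₂, (i ≠ 1 → e₁ + e₂ ≤ e ∧ a₁ + a₂ ≤ a) ∧
        (i = 1 → 2 * m ≤ e + a) ∧ m = e₁ + i * a₁ ∧ m = e₂ + i * a₂ := by
  constructor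
  · rintro ⟨ν, ν', h, h1, h2⟩
    obtain ⟨ν₁, h3, ν₂, h4, rfl⟩ := exists_add_of_le_add ((Multiset.le_add_right _ _).trans h)
    obtain ⟨ν₃, h5, ν₄, h6, rfl⟩ := exists_add_of_le_add ((Multiset.le_add_left _ _).trans h)
    obtain ⟨e₁, -, rfl⟩ := Multiset.le_replicate_iff.1 h3
    obtain ⟨a₁, -, rfl⟩ := Multiset.le_replicate_iff.1 h4
    obtain ⟨e₂, -, rfl⟩ := Multiset.le_replicate_iff.1 h5
    obtain ⟨a₂, -, rfl⟩ := Multiset.le_replicate_iff.1 h6
    refine ⟨e₁, e₂, a₁, a₂, fun hi => ?_, ?_, by simp [← h1, mul_comm], by simp [← h2, mul_comm]⟩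
    · have k1 := Multiset.count_le_of_le 1 h
      have k2 := Multiset.count_le_of_le i h
      simp only [Multiset.count_add, Multiset.count_replicate, if_true, if_neg hi,
        if_neg hi.symm] at k1 k2
      omega
    · rintro rfl
      have := Multiset.card_le_card h
      simp at this h1 h2
      omega
  · rintro ⟨e₁, e₂, a₁, a₂, h1, h2, h3, h4⟩
    by_cases hi : i = 1
    · subst hi
      refine ⟨Multiset.replicate m 1, Multiset.replicate m 1, ?_, by simp, by simp⟩
      rw [← Multiset.replicate_add, ← Multiset.replicate_add, Multiset.replicate_le_replicate]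
      have := h2 rfl
      omega
    · refine ⟨Multiset.replicate e₁ 1 + Multiset.replicate a₁ i,
        Multiset.replicate e₂ 1 + Multiset.replicate a₂ i, ?_, by simp [h3, mul_comm], ?_⟩
      · rw [add_add_add_comm, ← Multiset.replicate_add, ← Multiset.replicate_add]
        exact rep_le (h1 hi).1 (h1 hi).2
      · rw [h4]; simp [mul_comm]

theorem exists_two {e a i m n : ℕ} (hn : e + i * a = n) (hm : 2 * m ≤ n) (hi : 0 < i)
    (h : 2 * (m % i) ≤ n % i) :
    ∃ e₁ e₂ a₁ a₂, e₁ + e₂ ≤ e ∧ a₁ + a₂ ≤ a ∧ m = e₁ + i * a₁ ∧ m = e₂ + i * a₂ := by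
  have h1 := Nat.mod_add_div m i
  have h2 := mod_le_of_eq_add hn.symm
  by_cases ha : 2 * (m / i) ≤ a
  · exact ⟨m % i, m % i, m / i, m / i, by omega, by omega, h1.symm, h1.symm⟩
  · obtain ⟨a₁, a₂, h3, h4, h5⟩ : ∃ a₁ a₂, a₁ + a₂ = a ∧ a₁ ≤ m / i ∧ a₂ ≤ m / i :=
      ⟨a / 2, a - a / 2, by omega, by omega, by omega⟩
    have h6 := Nat.mul_le_mul_left i h4
    have h7 := Nat.mul_le_mul_left i h5
    refine ⟨m - i * a₁, m - i * a₂, a₁, a₂, ?_, h3.le, by omega, by omega⟩
    rw [← h3, mul_add] at hn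
    omega

/-- Elements of prime order of PSL_n(q) fixing no pair of subspaces `U < W` with `dim U = m`, `dim W = n − m`. Here `T = PSL_n(F)` for a field `F` with `q = p^f` elements (`n ≥ 2`, `(n, q) ≠ (2, 2), (2, 3)`); an element of `T` of prime order `r` is represented by a matrix `x` of determinant 1 with `x^r` scalar and `x` not scalar; `i` denotes the multiplicative order of `q` modulo `r` (when `r ≠ p`), and `(a)_r` the `r`-part of `a`. Let `1 ≤ m < n/2` and let `r` be a prime dividing the number of such pairs. Then every element of `T` of order `r` fixes such a pair (both `U` and `W`) if and only if `r ≠ p` and either (i) `i = 1` and (`r ∣ m`, or `(q−1)_r ≥ (n)_r` with `q ≡ 1 (mod 4)` required when `r = 2` and `n` is even), or (ii) `2 ≤ i ≤ m` and `n mod i ≥ 2 (m mod i)`. -/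
theorem result {F : Type*} [Field F] [Fintype F] {p : ℕ} [Fact p.Prime] [CharP F p] {q : ℕ} (hq : Fintype.card F = q)
    (n m : ℕ) (hn : 2 ≤ n) (hT : (n, q) ≠ (2, 2) ∧ (n, q) ≠ (2, 3)) (hm : 1 ≤ m) (hmn : 2 * m < n)
    (r : ℕ) [Fact r.Prime]
    (hrΩ : r ∣ Nat.card {P : Submodule F (Fin n → F) × Submodule F (Fin n → F) //
        P.1 ≤ P.2 ∧ Module.finrank F ↥P.1 = m ∧ Module.finrank F ↥P.2 = n - m}) :
    (∀ x : Matrix.SpecialLinearGroup (Fin n) F,
      (∃ c : F, ((x ^ r : Matrix.SpecialLinearGroup (Fin n) F) : Matrix (Fin n) (Fin n) F) = c • (1 : Matrix (Fin n) (Fin n) F)) →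
      (∀ c : F, (x : Matrix (Fin n) (Fin n) F) ≠ c • (1 : Matrix (Fin n) (Fin n) F)) →
      ∃ U W : Submodule F (Fin n → F), U ≤ W ∧ Module.finrank F ↥U = m ∧ Module.finrank F ↥W = n - m ∧
        U.map (Matrix.toLin' (x : Matrix (Fin n) (Fin n) F)) ≤ U ∧ W.map (Matrix.toLin' (x : Matrix (Fin n) (Fin n) F)) ≤ W) ↔
    (r ≠ p ∧
      ((orderOf (q : ZMod r) = 1 ∧ (r ∣ m ∨ (padicValNat r n ≤ padicValNat r (q - 1) ∧ (r = 2 → Even n → q % 4 = 1)))) ∨
       (2 ≤ orderOf (q : ZMod r) ∧ orderOf (q : ZMod r) ≤ m ∧ 2 * (m % orderOf (q : ZMod r)) ≤ n % orderOf (q : ZMod r)))) := by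
  subst hq
  have hn' : Module.finrank F (Fin n → F) = n := Module.finrank_fin_fun F
  have hrp : r ≠ p := by
    rintro rfl
    exact not_char_dvd_card_flags (by omega) (by omega) hrΩ
  have hΩ := ord_dvd_of_dvd_card_flags hrp (by omega) (by omega) hrΩ
  rw [hn'] at hΩ
  have hs : ∀ (T : Module.End F (Fin n → F)) (c : F), c ≠ 0 →
      (∃ U W : Submodule F (Fin n → F), U ≤ W ∧ Module.finrank F U = m ∧
        Module.finrank F W = n - m ∧ U.map (c • T) ≤ U ∧ W.map (c • T) ≤ W) →
      (∃ U W : Submodule F (Fin n → F), U ≤ W ∧ Module.finrank F U = m ∧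
        Module.finrank F W = n - m ∧ U.map T ≤ U ∧ W.map T ≤ W) := by
    rintro T c hc ⟨U, W, h0, h1, h1', h2, h3⟩
    exact ⟨U, W, h0, h1, h1', inv_iff_map_le.1 ((inv_smul_iff hc).1 (inv_iff_map_le.2 h2)),
      inv_iff_map_le.1 ((inv_smul_iff hc).1 (inv_iff_map_le.2 h3))⟩
  have hΦ := fun (T : Module.End F (Fin n → F)) (a : Polynomial F) ha hT =>
    flag_iff (T := T) (a := a) ha hT (m := m) (by omega)
  rw [hn'] at hΦ
  rw [forall_SL_iff r fun T => ∃ U W : Submodule F (Fin n → F), U ≤ W ∧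
    Module.finrank F U = m ∧ Module.finrank F W = n - m ∧ U.map T ≤ U ∧ W.map T ≤ W]
  have hi := ord_pos (F := F) hrp
  by_cases h1 : orderOf (Fintype.card F : ZMod r) = 1
  · have hq := (orderOf_eq_one_iff_dvd Fintype.card_pos).1 h1
    rw [forall_det_one hq (by omega) _ (r ∣ m) hs, hn']
    · simp [h1, hrp, NoNS]
    · intro T hT
      rw [hΦ T _ (squarefree_sub_one hrp) (aeval_X_pow_sub_one_eq_zero.2 hT),
        dims_ed_of_dvd hrp hq hT, hn']
      refine ⟨Multiset.replicate m 1, Multiset.replicate m 1, ?_, by simp, by simp⟩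
      rw [← Multiset.replicate_add, Multiset.replicate_le_replicate]; omega
    · intro T z hT hz
      obtain ⟨k, h2, h3⟩ := dims_ed_nonsplit hT hz
      rw [hΦ T _ (squarefree_nonsplit hz) (aeval_X_pow_sub_C_eq_zero.2 hT), h3]
      rw [hn'] at h2
      constructor
      · rintro ⟨ν, ν', h4, h5, -⟩
        exact (exists_le_replicate_iff (k := k) (by omega)).1
          ⟨ν, (Multiset.le_add_right _ _).trans h4, h5⟩
      · rintro ⟨l, rfl⟩
        refine ⟨Multiset.replicate l r, Multiset.replicate l r, ?_, by simp [mul_comm],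
          by simp [mul_comm]⟩
        rw [← Multiset.replicate_add, Multiset.replicate_le_replicate]
        have : r * (l + l) ≤ r * k := by rw [mul_add]; omega
        exact le_of_mul_le_mul_left this (Fact.out : r.Prime).pos
  · rw [forall_det_ss hrp h1 _ (fun e t => ∃ e₁ e₂ a₁ a₂, e₁ + e₂ ≤ e ∧
      a₁ + a₂ ≤ Multiset.card t ∧ m = e₁ + orderOf (Fintype.card F : ZMod r) * a₁ ∧
      m = e₂ + orderOf (Fintype.card F : ZMod r) * a₂) hs, hn']
    · have h2 := mod_lt_of_ord_dvd (k := 2 * m) (by rwa [show n - 2 * m = n - m - m by omega])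
      set i := orderOf (Fintype.card F : ZMod r)
      simp only [h1, false_and, false_or, ne_eq, hrp, not_false_eq_true, true_and]
      constructor
      · intro h
        obtain ⟨f, hf⟩ := exists_mem_cyc (F := F) hrp
        have h3 : i ≤ n := by
          obtain ⟨j, h3, h4, h5⟩ := hΩ
          exact (Nat.le_of_dvd (by omega) h5).trans h4
        obtain ⟨e₁, e₂, a₁, a₂, he, -, h4, h4'⟩ := h (n % i) (Multiset.replicate (n / i) f)
          (fun g hg => by rwa [Multiset.eq_of_mem_replicate hg])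
          (replicate_ne_zero (Nat.div_pos h3 hi).ne' f) (by simpa using Nat.mod_add_div n i)
        have h5 := mod_le_of_eq_add h4
        have h6 := mod_le_of_eq_add h4'
        refine ⟨by omega, ?_, by omega⟩
        by_contra h7
        rw [Nat.mod_eq_of_lt (by omega : m < i)] at h5 h6
        omega
      · rintro ⟨-, -, h3⟩ e t - - h4
        exact exists_two h4 (by omega) hi h3
    · intro T e t hT ht h2
      rw [hΦ T _ (squarefree_sub_one hrp) (aeval_X_pow_sub_one_eq_zero.2 hT), h2,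
        dims_ssEd hrp e ht, two_rep_iff]
      simp only [h1, ne_eq, not_false_eq_true, forall_const, IsEmpty.forall_iff, true_and,
        and_assoc]

end Cfsg.Agent.S5951
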