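import Cfsg.Statements.S5952
import Cfsg.Agent.Lib.Elusive.Decomp

set_option autoImplicit false
open Cfsg

namespace Cfsg.Agent.S5952

open CfsgLib.Elusive CfsgLib.MatConj Polynomial

theorem dims_sum {F ι : Type*} [Field F] (S : Finset ι) (s : ι → Multiset (F[X] × ℕ)) :
    dims (∑ i ∈ S, s i) = ∑ i ∈ S, dims (s i) := by
  classical
  induction S using Finset.induction_on with
  | empty => simp [dims]
  | insert a S ha ih => rw [Finset.sum_insert ha, Finset.sum_insert ha, dims_add, ih]

theorem dims_irred {F V : Type*} [Field F] [AddCommGroup V] [Module F V] [FiniteDimensional F V]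
    {T : Module.End F V} {U : Submodule F V} (hU : Inv T U) (h0 : Module.finrank F U ≠ 0)
    (h : ∀ W : Submodule F V, W ≤ U → W.map T ≤ W → W = ⊥ ∨ W = U) :
    dims (edOn T U) = {Module.finrank F U} := by
  have h1 : edOn T U ≠ 0 := fun h1 => h0 (by rw [hU.eq_bot_of_edOn h1]; simp)
  obtain ⟨x, hx⟩ := Multiset.exists_mem_of_ne_zero h1
  obtain ⟨A, B, hA, -, -, h2, h3, -⟩ := exists_split_of_le hU (Multiset.singleton_le.2 hx)
  rcases h A (h2 ▸ le_sup_left) (inv_iff_map_le.1 hA) with rfl | rfl
  · rw [edOn_bot] at h3; simp at h3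
  · rw [hA.finrank_eq, h3, mdeg_singleton]; rfl


/-- Which dimensions of invariant subspaces a semisimple linear map has. Let `V` be a finite-dimensional vector space over a field `F` and `f` an invertible semisimple linear map of `V`. Suppose `V` is the internal direct sum of the fixed space `C_V(f)` (the eigenspace for 1) and subspaces `U_1, …, U_s`, each `f`-invariant of dimension `a ≥ 1` on which `f` acts irreducibly (no `f`-invariant subspaces other than 0 and `U_j`). Let `0 < m < dim V` and `ℓ = m mod a`. Then `f` leaves some `m`-dimensional subspace invariant if and only if `dim C_V(f) ≥ m`, or `a ≤ m` and `dim C_V(f) ≥ ℓ`. -/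
theorem result {F V : Type*} [Field F] [AddCommGroup V] [Module F V]
    [FiniteDimensional F V] (f : V →ₗ[F] V) (hf : Function.Bijective f) (hss : Module.End.IsSemisimple f)
    {s a : ℕ} (ha : 1 ≤ a) (U : Fin s → Submodule F V)
    (hUinv : ∀ j, (U j).map f ≤ U j) (hUdim : ∀ j, Module.finrank F ↥(U j) = a)
    (hUirr : ∀ j, ∀ W : Submodule F V, W ≤ U j → W.map f ≤ W → W = ⊥ ∨ W = U j)
    (hdec : DirectSum.IsInternal (fun o : Option (Fin s) => o.elim (Module.End.eigenspace f 1) U))
    (m : ℕ) (hm : 0 < m) (hmV : m < Module.finrank F V) :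
    (∃ W : Submodule F V, Module.finrank F ↥W = m ∧ W.map f ≤ W) ↔
    (m ≤ Module.finrank F ↥(Module.End.eigenspace f 1) ∨
      (a ≤ m ∧ m % a ≤ Module.finrank F ↥(Module.End.eigenspace f 1))) := by
  classical
  have hE : Inv f (Module.End.eigenspace f 1) := fun v hv => by
    rw [Module.End.mem_eigenspace_iff.1 hv]; exact Submodule.smul_mem _ _ hv
  have h1 : dims (edOn f (Module.End.eigenspace f 1)) =
      Multiset.replicate (Module.finrank F (Module.End.eigenspace f 1)) 1 := by
    have := eq_replicate_of_irreducible (edOn_valid f (Module.End.eigenspace f 1))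
      irreducible_X_sub_one monic_X_sub_one ((aeval_eq_zero_on_iff hE _).1 fun v hv => by
        simp [Module.End.mem_eigenspace_iff.1 hv])
    rw [hE.finrank_eq, this, mdeg_replicate, dims, Multiset.map_replicate]
    simp [natDegree_X_sub_one]
  have h2 : dims (ed f) = Multiset.replicate (Module.finrank F (Module.End.eigenspace f 1)) 1 +
      Multiset.replicate s a := by
    rw [ed_eq_sum hdec.submodule_iSupIndep hdec.submodule_iSup_eq_top (T := f)
      (by rintro (_ | j); exacts [hE, inv_iff_map_le.2 (hUinv j)]), Fintype.sum_option, dims_add,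
      dims_sum]
    simp only [Option.elim]
    rw [h1, Finset.sum_congr rfl fun j _ => dims_irred (inv_iff_map_le.2 (hUinv j))
      (by rw [hUdim]; omega) (hUirr j)]
    simp [hUdim, Multiset.nsmul_singleton]
  have h3 := congrArg Multiset.sum h2
  rw [sum_dims, ← finrank_eq_mdeg_ed] at h3
  have h4 := exists_inv_iff hss.minpoly_squarefree (minpoly.aeval F f) m
  simp only [inv_iff_map_le] at h4
  rw [h2, exists_le_rep_iff] at h4
  simp only [and_comm (a := Module.finrank F _ = m)]
  rw [h4]
  simp only [Multiset.sum_add, Multiset.sum_replicate, smul_eq_mul, mul_one] at h3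
  constructor
  · rintro ⟨e', he, a', -, h5⟩
    rcases Nat.eq_zero_or_pos a' with rfl | h6
    · left; omega
    · exact Or.inr ⟨by nlinarith, (mod_le_of_eq_add h5).trans he⟩
  · rintro (h5 | ⟨-, h5⟩)
    · exact ⟨m, h5, 0, Nat.zero_le _, by simp⟩
    · exact exists_le_rep_of_mod (by rw [mul_comm]; omega) h5

end Cfsg.Agent.S5952
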