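import Cfsg.Statements.S5953
import Cfsg.Agent.Lib.Elus2.Uni2
import Cfsg.Agent.Lib.Elus2.Arith

set_option autoImplicit false
open scoped MatrixGroups
open Cfsg

namespace Cfsg.Agent.S5953

open CfsgLib.Elusive CfsgLib.Elus2 CfsgLib.Forms CfsgLib.MatConj CfsgLib.Unitary Polynomial

/-- Elements of prime order of PSU_n(q) with no fixed totally isotropic `m`-space. Here `T = PSU_n(q)` (`n ≥ 3`, `(n, q) ≠ (3, 2)`), realised through the matrices of determinant 1 over the field `F` with `q²` elements preserving the Hermitian form `h(u, v) = Σ u_i v_i^q`; an element of `T` of prime order `r` is such a matrix `x` with `x^r` scalar and `x` not scalar. For `r ≠ p` let `i` be the multiplicative order of `q` modulo `r`, `b = i/2` for `i` even and `b = i` for `i` odd, `c = i, i/2, 2i` according as `i ≡ 0, 2 (mod 4)` or `i` odd, and write `k = n mod c`, `ℓ = m mod b`, `ℓ' = m mod c`, `n' = ⌊n/b⌋`, `m' = ⌊m/b⌋`, `s = (r−1)/b`; `(a)_r` is the `r`-part of `a`. Let `1 ≤ m ≤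 n/2` and let `r` be a prime dividing the number of totally isotropic `m`-spaces. Then every element of `T` of order `r` fixes a totally isotropic `m`-space if and only if either (i) `r = 2`, `p ≠ 2`, and (`m < n/2` or `(q+1)_2 ≤ (n)_2`); or (ii) `r ≠ p`, `r > 2`, `b ≤ m`, `k ≥ 2ℓ`, and either `i ≢ 2 (mod 4)`, or `i ≡ 2 (mod 4)`, `n' − 2m' ≥ s` and (`i > 2`, or `i = 2` and (`r ∣ m` or `(q+1)_r ≥ (n)_r`)). -/
theorem result {F : Type*} [Field F] [Fintype F] {p : ℕ} [Fact p.Prime] [CharP F p] {q : ℕ} (hq : Fintype.card F = q ^ 2)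
    (n m : ℕ) (hn : 3 ≤ n) (hT : (n, q) ≠ (3, 2)) (hm : 1 ≤ m) (hmn : 2 * m ≤ n)
    (r : ℕ) [Fact r.Prime]
    (hrΩ : r ∣ Nat.card {W : Submodule F (Fin n → F) // Module.finrank F ↥W = m ∧ (∀ u ∈ W, ∀ v ∈ W, Cfsg.hermForm n F q u v = 0)})
    (i b c : ℕ) (hi : i = orderOf (q : ZMod r)) (hb : b = if Even i then i / 2 else i)
    (hc : c = if i % 4 = 0 then i else if i % 4 = 2 then i / 2 else 2 * i) :
    (∀ x : Matrix.SpecialLinearGroup (Fin n) F, x ∈ Cfsg.SU n F q →
      (∃ z : F, ((x ^ r : Matrix.SpecialLinearGroup (Fin n) F) : Matrix (Fin n) (Fin n) F) = z • (1 : Matrix (Fin n) (Fin n) F)) →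
      (∀ z : F, (x : Matrix (Fin n) (Fin n) F) ≠ z • (1 : Matrix (Fin n) (Fin n) F)) →
      ∃ W : Submodule F (Fin n → F), Module.finrank F ↥W = m ∧ (∀ u ∈ W, ∀ v ∈ W, Cfsg.hermForm n F q u v = 0) ∧
        W.map (Matrix.toLin' (x : Matrix (Fin n) (Fin n) F)) ≤ W) ↔
    ((r = 2 ∧ p ≠ 2 ∧ (2 * m < n ∨ padicValNat 2 (q + 1) ≤ padicValNat 2 n)) ∨
     (r ≠ p ∧ 2 < r ∧ b ≤ m ∧ 2 * (m % b) ≤ n % c ∧
       (i % 4 ≠ 2 ∨ (i % 4 = 2 ∧ (r - 1) / b + 2 * (m / b) ≤ n / b ∧
         (2 < i ∨ (i = 2 ∧ (r ∣ m ∨ padicValNat r n ≤ padicValNat r (q + 1)))))))) := by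
  have hP := uPQ_nondeg hq n
  have hH := uPQ_isHerm hq n
  have hd : Module.finrank F (Fin n → F) = n := Module.finrank_fin_fun F
  have hr : r.Prime := Fact.out
  simp only [← uPQ_ts hq] at hrΩ ⊢
  rw [forall_su_iff hq r fun T => ∃ W : Submodule F (Fin n → F), Module.finrank F W = m ∧
    (uPQ hq n).TS W ∧ W.map T ≤ W]
  simp only [← inv_iff_map_le]
  have hs : ∀ (T : Module.End F (Fin n → F)) (c : F), c ≠ 0 →
      (∃ W : Submodule F (Fin n → F), Module.finrank F W = m ∧ (uPQ hq n).TS W ∧ Inv (c • T) W) →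
      ∃ W : Submodule F (Fin n → F), Module.finrank F W = m ∧ (uPQ hq n).TS W ∧ Inv T W :=
    fun T c h0 ⟨W, h1, h2, h3⟩ => ⟨W, h1, h2, (inv_smul_iff h0).1 h3⟩
  by_cases hrp : r = p
  · subst hrp
    exact absurd hrΩ (herm_not_dvd_card_ts hq hH hP (by omega))
  by_cases h2 : r = 2
  · subst h2
    have h2' := two_ne_zero_of_ne (F := F) hrp
    have hrq := two_dvd_q_add_one hq hrp
    simp only [true_and, lt_self_iff_false, false_and, and_false, or_false, ne_eq, Ne.symm hrp,
      not_false_eq_true]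
    constructor
    · intro h
      by_contra h3
      push Not at h3
      obtain ⟨A, -, a1, a2⟩ := herm_exists_nd hH hP (nd_top hP) (m := 1) (by rw [finrank_top]; omega)
      obtain ⟨T, b, b1, b2, b3, b4, b5, b6, b7, b8⟩ := exists_odd_invol hq hP hrp a1
        (by rw [a2]; exact odd_one) (by omega) (by rw [hd]; exact h3.2)
      obtain ⟨W, c1, c2, c3⟩ := hs T b b1 (h _ b6 b7 b8)
      have c4 := Submodule.finrank_add_le_finrank_add_finrank (W ⊓ fix T) (W ⊓ fix (-T))
      rw [Inv.eq_sup_invol h2' b3 c3, b4, b5] at c4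
      have c5 := ts_two_mul_le (a1.perp hP) (c2.mono inf_le_left) (inf_le_right (a := W))
      have c6 := ts_two_mul_le a1 (c2.mono inf_le_left) (inf_le_right (a := W))
      have c7 := PQ.finrank_perp _ hP A
      omega
    · intro h
      refine forall_su_dvd hq hP _ hs (fun T b c1 c2 c3 h3 h5 _ => ?_) fun T z b1 b2 b3 b4 b5 => ?_
      · obtain ⟨a1, a2⟩ := nd_fix_invol hP h2' h3 h5
        have a3 := finrank_fix_invol hP h2' h3 h5
        have a4 : 2 * m < n ∨ Even (Module.finrank F (fix (-(b • T)))) :=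
          h.imp_right fun h => even_of_det_invol hq hrp c2 c3 h5 (by omega) (by rwa [hd])
        rw [Nat.even_iff] at a4
        obtain ⟨A, b1, b2, b3⟩ := herm_exists_ts hH hP a1
          (e := min (Module.finrank F (fix (b • T)) / 2) m) (by omega)
        obtain ⟨B, c1, c2, c3⟩ := herm_exists_ts hH hP a2
          (e := m - min (Module.finrank F (fix (b • T)) / 2) m) (by omega)
        have h6 := c1.trans (fix_neg_le_perp h2' h3)
        refine ⟨A ⊔ B, ?_, b2.sup c2 (h6.trans (PQ.perp_anti _ b1)), inv_sup_invol b1 c1⟩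
        rw [finrank_sup_of_disjoint ((a1.disjoint h6).mono_left b1)]
        omega
      · obtain ⟨W, c1, c2, c3⟩ := ns_exists_ts hq hP hrp hrq b1 b3 b4 b5 (m := m) (by omega)
          (Or.inr rfl)
        exact ⟨W, c3, c1, c2⟩
  have hsd := sdData_u hq hrp h2 hi hb hc
  have h3 := two_lt_of_ne_two hr h2
  by_cases hrq : r ∣ q + 1
  · have hi2 : i = 2 := hi.trans ((ord_eq_two_iff h2).2 hrq)
    subst hi2
    obtain rfl : b = 1 := by simpa using hb
    obtain rfl : c = 1 := by simpa using hc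
    simp only [h2, false_and, false_or, ne_eq, hrp, not_false_eq_true, true_and, h3, hm, Nat.mod_one,
      not_true_eq_false, Nat.div_one, lt_self_iff_false, ← noNS_iff_of_ne h2, mul_zero, le_refl]
    constructor
    · intro h
      constructor
      · by_contra h4
        obtain ⟨s, hs⟩ := hr.odd_of_ne_two h2
        obtain ⟨T, t, b1, b2, b3, b4, b5, b6, b7, b8⟩ := exists_split_nodup hq hH hP hrp h2 hrq
          (a := (n - 2 * m) / 2 + 1) (by omega) (by omega) (by omega)
        obtain ⟨c1, c2⟩ := ed_split hP hrp b1 b4 b5 b8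
        obtain ⟨W, t', d1, d2, d3, d4⟩ := (exists_ts_iff hP hrp b1 b4 hsd.good b5 c2 m).1
          (h T b1 b2 b3)
        have d5 := ts_two_mul_le (nd_fix hP hrp b1 b4) d2 d1
        obtain rfl : t' = 0 := Multiset.eq_zero_of_forall_notMem fun f hf => by
          refine Multiset.disjoint_left.1 (Multiset.nodup_add.1 (Multiset.nodup_of_le d3 b6)).2.2 hf
            (Multiset.mem_map.2 ⟨f, hf, (hsd.sd_iff f (b5 f (Multiset.mem_of_le d3
              (Multiset.mem_add.2 (Or.inl hf))))).2 rfl⟩)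
        rw [Multiset.card_zero, mul_zero] at d4
        omega
      · by_contra h4
        push Not at h4
        obtain ⟨T, z, b1, b2, b3, b4, b5, b6⟩ := exists_ns hq hH hP hrp hrq (by omega)
          (by rw [hd]; exact h4.2)
        obtain ⟨W, c1, c2, c3⟩ := h T b1 b2 b3
        exact h4.1 (c1 ▸ dvd_finrank_of_nonsplit b4 (not_pow_of_ns hq h2 hrq b5 b6) c3)
    · rintro ⟨h4, h⟩
      refine forall_su_dvd hq hP _ hs (fun T b _ _ _ b1 b2 b3 => ?_) fun T z b1 b2 b3 b4 b5 => ?_
      · refine (herm_forall_ts hq hH hP hrp hsd m).2 ?_ _ b1 b2 b3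
        simp only [hd, forall_const, not_true_eq_false, false_imp_iff, true_and]
        exact (ts_arith_sd one_pos (by omega) hmn (by omega)).2 ⟨hm, by omega, by omega⟩
      · rcases h with h | h
        · obtain ⟨W, c1, c2, c3⟩ := ns_exists_ts hq hP hrp hrq b1 b3 b4 b5 (by omega) (Or.inl h)
          exact ⟨W, c3, c1, c2⟩
        · exact absurd (hd.symm ▸ h) (ns_det hq hP hrp hrq b1 b3 b4 b5 (by omega) b2)
  · have hi2 : i ≠ 2 := fun h => hrq ((ord_eq_two_iff h2).1 (hi ▸ h))
    obtain ⟨U₀, -, a1, a2⟩ := herm_exists_ts hH hP (nd_top hP) (e := m) (by rw [finrank_top]; omega)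
    obtain ⟨H, b1, b2, -, b3, -⟩ := exists_hyp hP (nd_top hP) a1 le_top
    have hΩ := herm_mod_lt hq hH hP hrp h2 hi hc b1 hrΩ (card_sub_mul_dvd_perp hP _
      (fun g hg U hU => ⟨by rw [LinearEquiv.finrank_map_eq, hU.1], hU.2.map hg⟩) U₀ ⟨a2, a1⟩
      (fun U hU => a1.exists_map_eq hP hU.2 (a2.trans hU.1.symm)) b1 b2)
    rw [hd, b3, a2] at hΩ
    rw [forall_su_coprime hq hH hP hrq _ hs, herm_forall_ts hq hH hP hrp hsd, hd]
    have hb0 := hsd.b_pos hrp
    have ht := card_cyc_pos (F := F) hrp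
    rw [card_cyc hrp, ← hsd.b_eq] at ht
    by_cases he : i % 4 = 2
    · obtain rfl := hsd.c_sd he
      simp only [h2, false_and, false_or, ne_eq, hrp, not_false_eq_true, true_and, h3, he, hi2,
        not_true_eq_false, false_imp_iff, forall_const, or_false, show 2 < i by omega, and_true]
      exact ts_arith_sd hb0 ht hmn hΩ
    · obtain rfl := hsd.c_nsd he
      simp only [h2, false_and, false_or, ne_eq, hrp, not_false_eq_true, true_and, h3, he,
        false_imp_iff, forall_const, true_or, and_true]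
      exact ts_arith_nsd hmn hΩ

end Cfsg.Agent.S5953
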