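import Cfsg.Statements.S5954
import Cfsg.Agent.Lib.Elus2.Uni2
import Cfsg.Agent.Lib.Elus2.Arith

set_option autoImplicit false
open scoped MatrixGroups
open Cfsg

namespace Cfsg.Agent.S5954

open CfsgLib.Elusive CfsgLib.Elus2 CfsgLib.Forms CfsgLib.MatConj CfsgLib.Unitary Polynomial

/-- Elements of prime order of PSU_n(q) with no fixed nondegenerate `m`-space. Here `T = PSU_n(q)` (`n ≥ 3`, `(n, q) ≠ (3, 2)`), realised through the matrices of determinant 1 over the field `F` with `q²` elements preserving the Hermitian form `h(u, v) = Σ u_i v_i^q`; an element of `T` of prime order `r` is such a matrix `x` with `x^r` scalar and `x` not scalar. For `r ≠ p` let `i` be the multiplicative order of `q` modulo `r`, `b = i/2` for `i` even and `b = i` for `i` odd, `c = i, i/2, 2i` according as `i ≡ 0, 2 (mod 4)` or `i` odd, and write `k = n mod c`, `ℓ = m mod b`, `ℓ' = m mod c`, `n' = ⌊n/b⌋`, `m' = ⌊m/b⌋`, `s = (r−1)/b`; `(a)_r` is the `r`-part of `a`. Let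 `1 ≤ m < n/2` and let `r` be a prime dividing the number of nondegenerate `m`-spaces. Then every element of `T` of order `r` fixes a nondegenerate `m`-space if and only if one of: (i) `r = p > 2` and every partition of `n` into parts of size at most `p` contains (as a sub-multiset) a partition of `m`; (ii) `r = p = 2` and (`n` is odd or `m` is even); (iii) `r = 2 ≠ p` and (`n` is odd, or `m` is even, or `(q+1)_2 ≥ (n)_2` and `q ≡ 3 (mod 4)`); (iv) `r ≠ p`, `r > 2`, and either `i ≠ 2`, `c ≤ m` and `k ≥ ℓ'`, or `i = 2` and (`r ∣ m` or `(q+1)_r ≥ (n)_r`). -/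
theorem result {F : Type*} [Field F] [Fintype F] {p : ℕ} [Fact p.Prime] [CharP F p] {q : ℕ} (hq : Fintype.card F = q ^ 2)
    (n m : ℕ) (hn : 3 ≤ n) (hT : (n, q) ≠ (3, 2)) (hm : 1 ≤ m) (hmn : 2 * m < n)
    (r : ℕ) [Fact r.Prime]
    (hrΩ : r ∣ Nat.card {W : Submodule F (Fin n → F) // Module.finrank F ↥W = m ∧ (∀ u ∈ W, u ≠ 0 → ∃ v ∈ W, Cfsg.hermForm n F q u v ≠ 0)})
    (i b c : ℕ) (hi : i = orderOf (q : ZMod r)) (hb : b = if Even i then i / 2 else i)
    (hc : c = if i % 4 = 0 then i else if i % 4 = 2 then i / 2 else 2 * i) :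
    (∀ x : Matrix.SpecialLinearGroup (Fin n) F, x ∈ Cfsg.SU n F q →
      (∃ z : F, ((x ^ r : Matrix.SpecialLinearGroup (Fin n) F) : Matrix (Fin n) (Fin n) F) = z • (1 : Matrix (Fin n) (Fin n) F)) →
      (∀ z : F, (x : Matrix (Fin n) (Fin n) F) ≠ z • (1 : Matrix (Fin n) (Fin n) F)) →
      ∃ W : Submodule F (Fin n → F), Module.finrank F ↥W = m ∧ (∀ u ∈ W, u ≠ 0 → ∃ v ∈ W, Cfsg.hermForm n F q u v ≠ 0) ∧
        W.map (Matrix.toLin' (x : Matrix (Fin n) (Fin n) F)) ≤ W) ↔
    ((r = p ∧ 2 < p ∧ (∀ μ : Multiset ℕ, (∀ a ∈ μ, 0 < a ∧ a ≤ p) → μ.sum = n → ∃ ν : Multiset ℕ, ν ≤ μ ∧ ν.sum = m)) ∨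
     (r = p ∧ p = 2 ∧ (Odd n ∨ Even m)) ∨
     (r = 2 ∧ p ≠ 2 ∧ (Odd n ∨ Even m ∨ (padicValNat 2 n ≤ padicValNat 2 (q + 1) ∧ q % 4 = 3))) ∨
     (r ≠ p ∧ 2 < r ∧ ((i ≠ 2 ∧ c ≤ m ∧ m % c ≤ n % c) ∨ (i = 2 ∧ (r ∣ m ∨ padicValNat r n ≤ padicValNat r (q + 1)))))) := by
  have hP := uPQ_nondeg hq n
  have hH := uPQ_isHerm hq n
  have hd : Module.finrank F (Fin n → F) = n := Module.finrank_fin_fun F
  have hr : r.Prime := Fact.out
  simp only [u_nd_iff hq] at hrΩ ⊢
  rw [forall_su_iff hq r fun T => ∃ W : Submodule F (Fin n → F), Module.finrank F W = m ∧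
    ND (uPQ hq n) W ∧ W.map T ≤ W]
  simp only [← inv_iff_map_le]
  have hs : ∀ (T : Module.End F (Fin n → F)) (c : F), c ≠ 0 →
      (∃ W : Submodule F (Fin n → F), Module.finrank F W = m ∧ ND (uPQ hq n) W ∧ Inv (c • T) W) →
      ∃ W : Submodule F (Fin n → F), Module.finrank F W = m ∧ ND (uPQ hq n) W ∧ Inv T W :=
    fun T c h0 ⟨W, h1, h2, h3⟩ => ⟨W, h1, h2, (inv_smul_iff h0).1 h3⟩
  obtain ⟨U₀, -, a1, a2⟩ := herm_exists_nd hH hP (nd_top hP) (m := m) (by rw [finrank_top]; omega)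
  by_cases hrp : r = p
  · subst hrp
    rw [forall_su_coprime hq hH hP (char_not_dvd_q_add_one hq) _ hs]
    simp only [← and_assoc (a := Module.finrank F _ = m)]
    rw [(herm_badData hH).forall_iff hP m
      (fun μ h1 _ h4 => herm_exists_unip hq hH hP (fun a ha => (h1 a ha).1) h4) ⟨U₀, a2, a1⟩]
    simp only [hd, false_imp_iff, implies_true, and_true, forall_const, true_and, ne_eq,
      not_true_eq_false, false_and, or_false]
    by_cases h2 : r = 2
    · subst h2
      simp only [lt_self_iff_false, false_and, true_and, false_or, not_true_eq_false, or_false]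
      exact partition_two_iff (by omega)
    · simp only [h2, two_lt_of_ne_two hr h2, false_and, true_and, or_false]
  by_cases hrq : r ∣ q + 1
  · refine Iff.trans (b := r ∣ m ∨ NoNS r n (q + 2)) ⟨fun h => ?_, fun h => ?_⟩ ?_
    · by_contra h3
      push Not at h3
      obtain ⟨T, z, b1, b2, b3, b4, b5, b6⟩ := exists_ns hq hH hP hrp hrq (by omega) (by rw [hd]; exact h3.2)
      obtain ⟨W, c1, c2, c3⟩ := h T b1 b2 b3
      exact h3.1 (c1 ▸ ns_dvd hq hrp hrq b1 b4 b5 b6 c2 c3)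
    · refine forall_su_dvd hq hP _ hs (fun T b _ _ _ b1 b2 b3 => ?_) fun T z b1 b2 b3 b4 b5 => ?_
      · refine (herm_forall_nd hq hH hP hrp (sdData_u_one hq hrp hrq) m).2 (fun k c1 c2 => ?_) _ b1 b2 b3
        exact ⟨min k m, by omega, by omega, by omega⟩
      · rcases h with h | h
        · obtain ⟨W, c1, c2, c3⟩ := ns_exists_nd hq hP hrp hrq b1 b3 b4 b5 (by omega) h
          exact ⟨W, c3, c1, c2⟩
        · exact absurd (hd.symm ▸ h) (ns_det hq hP hrp hrq b1 b3 b4 b5 (by omega) b2)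
    · by_cases h2 : r = 2
      · subst h2
        simp only [hrp, Ne.symm hrp, false_and, true_and, false_or, ne_eq, not_false_eq_true,
          lt_self_iff_false, or_false, NoNS, forall_const, Nat.add_succ_sub_one, ← even_iff_two_dvd]
        rcases Nat.even_or_odd n with he | he
        · simp only [he, Nat.not_odd_iff_even.2 he, forall_const, false_or]
          rw [show (q + 2) % 4 = 1 ↔ q % 4 = 3 by omega]
        · simp [he, Nat.not_even_iff_odd.2 he, padicValNat.eq_zero_of_not_dvd he.not_two_dvd_nat]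
      · simp only [hrp, h2, false_and, true_and, false_or, ne_eq, not_false_eq_true,
          two_lt_of_ne_two hr h2, hi, (ord_eq_two_iff h2).2 hrq, not_true_eq_false,
          noNS_iff_of_ne h2]
  · have h2 : r ≠ 2 := fun h => hrq (h ▸ two_dvd_q_add_one hq (h ▸ hrp))
    have hi2 : i ≠ 2 := fun h => hrq ((ord_eq_two_iff h2).1 (hi ▸ h))
    have hΩ := herm_mod_lt hq hH hP hrp h2 hi hc a1 hrΩ (card_sub_mul_dvd_perp hP _
      (fun g hg U hU => ⟨by rw [LinearEquiv.finrank_map_eq, hU.1], ND.map_iso hg hU.2⟩) U₀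
      ⟨a2, a1⟩ (fun U hU => herm_nd_trans hq hH hP a1 hU.2 (a2.trans hU.1.symm)) a1 le_rfl)
    rw [hd, a2] at hΩ
    rw [forall_su_coprime hq hH hP hrq _ hs, herm_forall_nd hq hH hP hrp (sdData_u hq hrp h2 hi hb hc),
      hd, nd_arith (by omega) hΩ]
    simp only [hrp, h2, hi2, false_and, true_and, false_or, ne_eq, not_false_eq_true,
      two_lt_of_ne_two hr h2, or_false]

end Cfsg.Agent.S5954
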