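import Cfsg.Statements.S5955
import Cfsg.Agent.Lib.Elus2.Sp3

set_option autoImplicit false
open scoped MatrixGroups
open Cfsg

namespace Cfsg.Agent.S5955

open CfsgLib.Elusive CfsgLib.Elus2 CfsgLib.Forms CfsgLib.MatConj Polynomial

theorem arith_odd {i m d : ℕ} (hi : 0 < i) (hmd : m ≤ d) (hΩ : (2 * d) % (2 * i) < 2 * m) :
    (∀ k, 1 ≤ k → 2 * i * k ≤ 2 * d → ∃ j, j ≤ k ∧ i * j ≤ m ∧ 2 * (m - i * j) ≤ 2 * d - 2 * i * k) ↔
      i ≤ m ∧ 2 * (m % i) ≤ (2 * d) % (2 * i) := by
  rw [Nat.mul_mod_mul_left] at hΩ ⊢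
  have h1 := Nat.mod_add_div d i
  have h2 := Nat.mod_add_div m i
  simp only [mul_assoc]
  constructor
  · intro h
    have h3 : 1 ≤ d / i := Nat.pos_of_ne_zero fun h3 => by
      rw [h3] at h1
      omega
    obtain ⟨j, -, h4, h5⟩ := h (d / i) h3 (by omega)
    have h6 : 1 ≤ j := by
      by_contra h6
      have : j = 0 := by omega
      subst this
      omega
    have h7 : i * 1 ≤ i * j := Nat.mul_le_mul_left i h6
    have h8 := mod_le_of_eq_add (i := i) (a := j) (n := m) (e := m - i * j) (by omega)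
    omega
  · rintro ⟨h3, h4⟩ k h5 h6
    have h7 := mod_le_of_eq_add (i := i) (a := k) (n := d) (e := d - i * k) (by omega)
    rcases le_total k (m / i) with h8 | h8
    · have : i * k ≤ i * (m / i) := Nat.mul_le_mul_left i h8
      exact ⟨k, le_rfl, by omega, by omega⟩
    · exact ⟨m / i, h8, by omega, by omega⟩

theorem arith_even {i m n t : ℕ} (hi : 0 < i) (ht : 0 < t) (hmd : 2 * m ≤ n) (hΩ : n % i < 2 * m) :
    (∀ k, 1 ≤ k → i * k ≤ n → ∃ j, (j = 0 ∨ 2 * j + t ≤ k + 1) ∧ i * j ≤ m ∧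
      2 * (m - i * j) ≤ n - i * k) ↔ i ≤ m ∧ 2 * (m % i) ≤ n % i ∧ t + 2 * (m / i) ≤ n / i := by
  have h1 := Nat.mod_add_div n i
  have h2 := Nat.mod_add_div m i
  have h1' := Nat.mod_lt n hi
  have h2' := Nat.mod_lt m hi
  have key : ∀ j, i * j ≤ m → m - i * j < i → j = m / i := fun j a1 a2 =>
    (Nat.div_eq_of_lt_le (by rw [mul_comm]; exact a1) (by rw [add_mul, mul_comm]; omega)).symm
  constructor
  · intro h
    have h3 : 1 ≤ n / i := Nat.pos_of_ne_zero fun h3 => by
      rw [h3] at h1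
      omega
    obtain ⟨j, h0, h4, h5⟩ := h (n / i) h3 (by omega)
    have h6 : 1 ≤ j := by
      by_contra h6
      have : j = 0 := by omega
      subst this
      omega
    have h7 : i * 1 ≤ i * j := Nat.mul_le_mul_left i h6
    obtain rfl := key j h4 (by omega)
    refine ⟨by omega, by omega, ?_⟩
    obtain ⟨k, hk⟩ : ∃ k, n / i = k + 1 := ⟨n / i - 1, by omega⟩
    rw [hk, mul_add] at h1
    obtain ⟨j, a0, a4, a5⟩ := h k (by omega) (by omega)
    obtain rfl := key j a4 (by omega)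
    omega
  · rintro ⟨h3, h4, h5⟩ k h6 h7
    have h8 : k ≤ n / i := (Nat.le_div_iff_mul_le hi).2 (by rw [mul_comm]; exact h7)
    obtain ⟨l, hl⟩ := Nat.exists_eq_add_of_le h8
    rw [hl, mul_add] at h1
    by_cases h9 : 2 * (m / i) + t ≤ k + 1
    · exact ⟨m / i, Or.inr h9, by omega, by omega⟩
    by_cases h10 : k ≤ t
    · have : i * (2 * (m / i)) ≤ i * l := Nat.mul_le_mul_left i (by omega)
      rw [mul_left_comm] at this
      exact ⟨0, Or.inl rfl, by omega, by omega⟩
    · obtain ⟨s, hs⟩ : ∃ s, m / i = (k + 1 - t) / 2 + s := ⟨m / i - (k + 1 - t) / 2, by omega⟩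
      rw [hs, mul_add] at h2
      have : i * (2 * s) ≤ i * l := Nat.mul_le_mul_left i (by omega)
      rw [mul_left_comm] at this
      exact ⟨(k + 1 - t) / 2, Or.inr (by omega), by omega, by omega⟩


/-- Elements of prime order of PSp_n(q) with no fixed totally isotropic `m`-space. Here `T = PSp_n(q)` with `n = 2d ≥ 4`, `(n, q) ≠ (4, 2)`, realised through the symplectic matrices over the field `F` with `q` elements (preserving the standard alternating form); an element of `T` of prime order `r` is such a matrix `x` with `x^r` scalar and `x` not scalar. For `r ≠ p` let `i` be the multiplicative order of `q` modulo `r`, `c = i` for `i` even and `c = 2i` for `i` odd, and write `k = n mod c`, `ℓ = m mod i`, `ℓ' = m mod c`, `n' = ⌊n/i⌋`, `m' = ⌊m/i⌋`, `t = (r−1)/i`. Let `1 ≤ m ≤ n/2` and let `r` be a prime dividing the number of totally isotropic `m`-spaces. Then every element of `T` of order `r` fixes a totally isotropic `m`-space if and only if either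 (i) `r = 2 ≠ p` and (`m` is even or `q ≡ 1 (mod 4)`); or (ii) `r ≠ p`, `r > 2`, `i ≤ m`, `k ≥ 2ℓ`, and (`i` is odd or `n' − 2m' ≥ t`). -/
theorem result {F : Type*} [Field F] [Fintype F] {p : ℕ} [Fact p.Prime] [CharP F p] {q : ℕ} (hq : Fintype.card F = q)
    (d m : ℕ) (hd : 2 ≤ d) (hT : (d, q) ≠ (2, 2)) (hm : 1 ≤ m) (hmd : m ≤ d)
    (r : ℕ) [Fact r.Prime]
    (hrΩ : r ∣ Nat.card {W : Submodule F (Fin d ⊕ Fin d → F) // Module.finrank F ↥W = m ∧ (∀ u ∈ W, ∀ v ∈ W, Cfsg.sympForm d F u v = 0)})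
    (i c : ℕ) (hi : i = orderOf (q : ZMod r)) (hc : c = if Even i then i else 2 * i) :
    (∀ x : ↥(Matrix.symplecticGroup (Fin d) F),
      (∃ z : F, ((x ^ r : ↥(Matrix.symplecticGroup (Fin d) F)) : Matrix (Fin d ⊕ Fin d) (Fin d ⊕ Fin d) F) = z • (1 : Matrix (Fin d ⊕ Fin d) (Fin d ⊕ Fin d) F)) →
      (∀ z : F, (x : Matrix (Fin d ⊕ Fin d) (Fin d ⊕ Fin d) F) ≠ z • (1 : Matrix (Fin d ⊕ Fin d) (Fin d ⊕ Fin d) F)) →
      ∃ W : Submodule F (Fin d ⊕ Fin d → F), Module.finrank F ↥W = m ∧ (∀ u ∈ W, ∀ v ∈ W, Cfsg.sympForm d F u v = 0) ∧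
        W.map (Matrix.toLin' (x : Matrix (Fin d ⊕ Fin d) (Fin d ⊕ Fin d) F)) ≤ W) ↔
    ((r = 2 ∧ p ≠ 2 ∧ (Even m ∨ q % 4 = 1)) ∨
     (r ≠ p ∧ 2 < r ∧ i ≤ m ∧ 2 * (m % i) ≤ (2 * d) % c ∧ (Odd i ∨ (r - 1) / i + 2 * (m / i) ≤ (2 * d) / i))) := by
  subst hq
  have hP := spPQ_nondeg (Fin d) F
  have hΛ := spPQ_Λ (Fin d) F
  have hn := finrank_sum_fun F d
  have hr : r.Prime := Fact.out
  simp only [sp_ts_iff] at hrΩ ⊢
  rw [forall_sp_iff r fun T => ∃ W : Submodule F (Fin d ⊕ Fin d → F), Module.finrank F W = m ∧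
    (spPQ (Fin d) F).TS W ∧ W.map T ≤ W]
  simp only [← inv_iff_map_le]
  by_cases hrp : r = p
  · subst hrp
    exact absurd hrΩ (alt_not_dvd_card_ts hΛ hP (by omega))
  by_cases h2 : r = 2
  · subst h2
    have h2' := two_ne_zero_of_ne (F := F) hrp
    simp only [true_and, lt_self_iff_false, false_and, and_false, or_false, ne_eq, Ne.symm hrp,
      not_false_eq_true]
    constructor
    · intro h
      by_contra h3
      push Not at h3
      obtain ⟨T, h4, h5⟩ := alt_exists_neg_one hΛ hP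
      have := Module.nontrivial_of_finrank_pos (R := F) (M := Fin d ⊕ Fin d → F) (by omega)
      obtain ⟨W, h6, -, h7⟩ := h T h4 (isPE_of_neg_one hP h2' h4 h5)
      exact h3.1 (h6 ▸ even_of_neg_one hrp h3.2 h5 h7)
    · intro h T h3 h4
      rcases isPE_cases hP h3 h4 with h5 | h5
      · obtain ⟨a1, a2⟩ := nd_fix_invol hP h2' h3 h5
        have a3 := finrank_fix_invol hP h2' h3 h5
        obtain ⟨a, ha⟩ := alt_even hΛ hP a1
        obtain ⟨b, hb⟩ := alt_even hΛ hP a2
        obtain ⟨A, b1, b2, b3⟩ := alt_exists_ts hΛ hP a1 (e := min a m) (by omega)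
        obtain ⟨B, c1, c2, c3⟩ := alt_exists_ts hΛ hP a2 (e := m - min a m) (by omega)
        have h6 := c1.trans (fix_neg_le_perp h2' h3)
        refine ⟨A ⊔ B, ?_, b2.sup c2 (h6.trans (PQ.perp_anti _ b1)), inv_sup_invol b1 c1⟩
        rw [finrank_sup_of_disjoint ((a1.disjoint h6).mono_left b1)]
        omega
      · obtain ⟨W, -, a1, a2, a3⟩ := exists_ts_neg_one hP hrp h3 h5 (nd_top hP) (inv_top T) (m := m)
          (by rw [finrank_top]; omega) h
        exact ⟨W, a3, a1, a2⟩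
  · have ho := hr.odd_of_ne_two h2
    have hsd := sdData_id hrp h2 hi hc
    rw [forall_isPE_odd' hP ho _ fun T ⟨W, h1, h2, h3⟩ => ⟨W, h1, h2, inv_neg_iff.1 h3⟩,
      forall_ts_iff hP hrp hsd m (fun _ => True) (fun k e => 2 * e ≤ 2 * d - c * k)
        (fun T h1 h3 k h4 => ⟨trivial, fun e => ?_⟩)
        fun k t h1 _ => alt_exists_ss' hΛ hP hrp h2 hi hc k t h1]
    · obtain ⟨U₀, -, a1, a2⟩ := alt_exists_ts hΛ hP (nd_top hP) (e := m) (by rw [finrank_top]; omega)
      obtain ⟨H, b1, b2, -, b3, -⟩ := exists_hyp hP (nd_top hP) a1 le_top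
      have hΩ := alt_mod_lt hΛ hP hrp hi hc b1 hrΩ (card_sub_mul_dvd_perp hP _
        (fun g hg U hU => ⟨by rw [LinearEquiv.finrank_map_eq, hU.1], hU.2.map hg⟩) U₀ ⟨a2, a1⟩
        (fun U hU => a1.exists_map_eq hP hU.2 (a2.trans hU.1.symm)) b1 b2)
      rw [hn, b3, a2] at hΩ
      have hi0 := hsd.b_pos hrp
      have ht := div_ord_pos (F := F) hrp
      rw [← hi] at ht
      simp only [hn, h2, false_and, false_or, ne_eq, hrp, not_false_eq_true, true_and,
        two_lt_of_ne_two hr h2, forall_const]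
      by_cases he : Even i
      · rw [if_pos he] at hc
        subst hc
        simp only [he, Nat.not_odd_iff_even.2 he, not_true_eq_false, false_imp_iff, true_and,
          forall_const, false_or]
        exact arith_even hi0 ht (by omega) hΩ
      · rw [if_neg he] at hc
        subst hc
        simp only [he, Nat.not_even_iff_odd.1 he, not_false_eq_true, false_imp_iff, true_and,
          forall_const, true_or, and_true]
        exact arith_odd hi0 hmd hΩ
    · have h5 := PQ.finrank_perp _ hP (fix T)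
      constructor
      · rintro ⟨W, a1, a2, rfl⟩
        have := (ts_comap_subtype (M := fix T) a2).two_mul_finrank_le (nd_fix hP hrp h1 h3).nondeg
        rw [(Submodule.comapSubtypeEquivOfLe a1).finrank_eq] at this
        omega
      · intro h6
        exact alt_exists_ts hΛ hP (nd_fix hP hrp h1 h3) (by omega)

end Cfsg.Agent.S5955
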