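import Cfsg.Statements.S5956
import Cfsg.Agent.Lib.Elus2.Sp3
import Cfsg.Agent.Lib.Elus2.Arith

set_option autoImplicit false
open scoped MatrixGroups
open Cfsg

namespace Cfsg.Agent.S5956

open CfsgLib.Elusive CfsgLib.Elus2 CfsgLib.Forms CfsgLib.MatConj Polynomial


/-- Elements of prime order of PSp_n(q) with no fixed nondegenerate `m`-space. Here `T = PSp_n(q)` with `n = 2d ≥ 4`, `(n, q) ≠ (4, 2)`, realised through the symplectic matrices over the field `F` with `q` elements (preserving the standard alternating form); an element of `T` of prime order `r` is such a matrix `x` with `x^r` scalar and `x` not scalar. For `r ≠ p` let `i` be the multiplicative order of `q` modulo `r`, `c = i` for `i` even and `c = 2i` for `i` odd, and write `k = n mod c`, `ℓ = m mod i`, `ℓ' = m mod c`, `n' = ⌊n/i⌋`, `m' = ⌊m/i⌋`, `t = (r−1)/i`. Let `m` be even with `2 ≤ m < n/2` and let `r` be a prime dividing the number of nondegenerate `m`-spaces. Then every element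 of `T` of order `r` fixes a nondegenerate `m`-space if and only if one of: (i) `r = p > 2` and every partition of `n` into parts of size at most `p` in which every odd part has even multiplicity contains (as a sub-multiset) a partition of `m` in which every odd part has even multiplicity; (ii) `r = p = 2` and (`n ≡ 2 (mod 4)` or `m ≡ 0 (mod 4)`); (iii) `r = 2 ≠ p`; (iv) `r ≠ p`, `r > 2`, `c ≤ m` and `k ≥ ℓ'`. -/
theorem result {F : Type*} [Field F] [Fintype F] {p : ℕ} [Fact p.Prime] [CharP F p] {q : ℕ} (hq : Fintype.card F = q)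
    (d m : ℕ) (hd : 2 ≤ d) (hT : (d, q) ≠ (2, 2)) (hm : 2 ≤ m) (hme : Even m) (hmd : m < d)
    (r : ℕ) [Fact r.Prime]
    (hrΩ : r ∣ Nat.card {W : Submodule F (Fin d ⊕ Fin d → F) // Module.finrank F ↥W = m ∧ (∀ u ∈ W, u ≠ 0 → ∃ v ∈ W, Cfsg.sympForm d F u v ≠ 0)})
    (i c : ℕ) (hi : i = orderOf (q : ZMod r)) (hc : c = if Even i then i else 2 * i) :
    (∀ x : ↥(Matrix.symplecticGroup (Fin d) F),
      (∃ z : F, ((x ^ r : ↥(Matrix.symplecticGroup (Fin d) F)) : Matrix (Fin d ⊕ Fin d) (Fin d ⊕ Fin d) F) = z • (1 : Matrix (Fin d ⊕ Fin d) (Fin d ⊕ Fin d) F)) →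
      (∀ z : F, (x : Matrix (Fin d ⊕ Fin d) (Fin d ⊕ Fin d) F) ≠ z • (1 : Matrix (Fin d ⊕ Fin d) (Fin d ⊕ Fin d) F)) →
      ∃ W : Submodule F (Fin d ⊕ Fin d → F), Module.finrank F ↥W = m ∧ (∀ u ∈ W, u ≠ 0 → ∃ v ∈ W, Cfsg.sympForm d F u v ≠ 0) ∧
        W.map (Matrix.toLin' (x : Matrix (Fin d ⊕ Fin d) (Fin d ⊕ Fin d) F)) ≤ W) ↔
    ((r = p ∧ 2 < p ∧ (∀ μ : Multiset ℕ, (∀ a ∈ μ, 0 < a ∧ a ≤ p) → (∀ a : ℕ, Odd a → Even (μ.count a)) → μ.sum = 2 * d →
        ∃ ν : Multiset ℕ, ν ≤ μ ∧ ν.sum = m ∧ ∀ a : ℕ, Odd a → Even (ν.count a))) ∨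
     (r = p ∧ p = 2 ∧ ((2 * d) % 4 = 2 ∨ m % 4 = 0)) ∨
     (r = 2 ∧ p ≠ 2) ∨
     (r ≠ p ∧ 2 < r ∧ c ≤ m ∧ m % c ≤ (2 * d) % c)) := by
  subst hq
  have hP := spPQ_nondeg (Fin d) F
  have hΛ := spPQ_Λ (Fin d) F
  have hn := finrank_sum_fun F d
  have hr : r.Prime := Fact.out
  simp only [sp_nd_iff] at hrΩ ⊢
  rw [forall_sp_iff r fun T => ∃ W : Submodule F (Fin d ⊕ Fin d → F), Module.finrank F W = m ∧
    ND (spPQ (Fin d) F) W ∧ W.map T ≤ W]
  simp only [← inv_iff_map_le]
  obtain ⟨U₀, -, a1, a2⟩ := alt_exists_nd hΛ hP (nd_top hP) hme (by rw [finrank_top]; omega)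
  by_cases h2 : r = 2
  · subst h2
    by_cases hrp : 2 = p
    · subst hrp
      simp only [lt_self_iff_false, false_and, and_false, true_and, false_or, ne_eq,
        not_true_eq_false, or_false]
      rw [Nat.even_iff] at hme
      constructor
      · intro h
        by_contra h3
        obtain ⟨T, h4, h5, h6, h7⟩ := alt_exists_bad_two hΛ hP (by omega) (by omega)
        obtain ⟨W, b1, b2, b3⟩ := h T h4 (isPE_two_of_ne hP h4 h5 h6)
        have := h7 W b2 b3
        omega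
      · intro h T h3 h4
        obtain ⟨α, β, b1, b2, -⟩ := alt_struct_two hΛ hP h3 (isPE_two_char_two hP h3 h4) (nd_top hP)
          (inv_top T)
        rw [finrank_top] at b1
        obtain ⟨j, c1, l, c2, c3⟩ := exists_two_four (α := α) (β := β) (m := m / 2) (by omega)
          (by rw [Nat.even_iff]; omega)
        obtain ⟨W, -, c4, c5, c6⟩ := b2 j c1 l c2
        exact ⟨W, by omega, c4, c5⟩
    · refine iff_of_true (fun T h3 h4 => ?_) (Or.inr (Or.inr (Or.inl ⟨rfl, Ne.symm hrp⟩)))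
      obtain ⟨W, -, c4, c5, c6⟩ := alt_nd_two hΛ hP (two_ne_zero_of_ne hrp) h3 h4 (nd_top hP)
        (inv_top T) hme (by rw [finrank_top]; omega)
      exact ⟨W, c6, c4, c5⟩
  have ho := hr.odd_of_ne_two h2
  rw [forall_isPE_odd' hP ho _ fun T ⟨W, h1, h2, h3⟩ => ⟨W, h1, h2, inv_neg_iff.1 h3⟩]
  by_cases hrp : r = p
  · subst hrp
    simp only [← and_assoc (a := Module.finrank F _ = m)]
    rw [(alt_badData hΛ (two_ne_zero_of_ne (Ne.symm h2))).forall_iff hP m
      (fun μ h1 h3 h4 => alt_exists_unip hΛ hP (fun a ha => (h1 a ha).1) h3 h4) ⟨U₀, a2, a1⟩]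
    simp only [hn, h2, false_and, ne_eq, not_true_eq_false, or_false, true_and,
      two_lt_of_ne_two hr h2]
  · have hsd := sdData_id hrp h2 hi hc
    have := forall_nd_iff hP hrp hsd m (fun _ => True) (fun _ => True)
      (fun k j => c * j ≤ m ∧ m - c * j ≤ 2 * d - c * k)
      (fun T h1 h3 k h4 => ⟨trivial, fun j W' _ _ _ _ => ?_⟩)
      fun k t h1 _ => alt_exists_ss' hΛ hP hrp h2 hi hc k t h1
    · simp only [and_true, and_assoc, forall_const] at this
      have hΩ := alt_mod_lt hΛ hP hrp hi hc a1 hrΩ (card_sub_mul_dvd_perp hP _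
        (fun g hg U hU => ⟨by rw [LinearEquiv.finrank_map_eq, hU.1], ND.map_iso hg hU.2⟩) U₀
        ⟨a2, a1⟩ (fun U hU => alt_nd_trans hΛ hP a1 hU.2 (a2.trans hU.1.symm)) a1 le_rfl)
      rw [hn, a2] at hΩ
      rw [this, hn, nd_arith (by omega) hΩ]
      simp only [h2, false_and, false_or, ne_eq, hrp, not_false_eq_true, true_and,
        two_lt_of_ne_two hr h2]
    · have h5 := PQ.finrank_perp _ hP (fix T)
      constructor
      · rintro ⟨W, b1, -, b2, -⟩
        have := Submodule.finrank_mono b1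
        omega
      · rintro ⟨h6, h7⟩
        obtain ⟨W, b1, b2, b3⟩ := alt_exists_nd hΛ hP (nd_fix hP hrp h1 h3) (m := m - c * j)
          ((Nat.even_sub h6).2 (iff_of_true hme ((c_even hc).mul_right j))) (by omega)
        exact ⟨W, b1, b2, by omega, trivial⟩

end Cfsg.Agent.S5956
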