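import Cfsg.Statements.S5957
import Cfsg.Agent.Lib.Elusive.DecompMat

set_option autoImplicit false
open scoped MatrixGroups
open Cfsg

namespace Cfsg.Agent.S5957

open CfsgLib.Elusive CfsgLib.MatConj Polynomial

theorem lpd_char_two {F V : Type*} [Field F] [AddCommGroup V] [Module F V] [FiniteDimensional F V]
    [CharP F 2] {T : Module.End F V} (hT : T ^ 2 = 1) {a t : ℕ} (ha : 1 ≤ a)
    (hn : Module.finrank F V = a * t) : LPD T a t ⊤ := by
  obtain ⟨μ, h1, h2⟩ := ed_unEd hT
  rw [eq_rep_of_le_two h1] at h2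
  set e := μ.count 1
  set s := μ.count 2
  have h3 := finrank_eq_mdeg_ed T
  rw [h2, mdeg_unEd, hn] at h3
  simp only [Multiset.sum_add, Multiset.sum_replicate, smul_eq_mul, mul_one] at h3
  have h4 := Nat.mod_add_div s a
  have h5 := Nat.mod_lt s ha
  obtain ⟨t', rfl⟩ : ∃ t', t = t' + 2 * (s / a) := by
    refine ⟨t - 2 * (s / a), (Nat.sub_add_cancel (le_of_mul_le_mul_left ?_ ha)).symm⟩
    rw [mul_left_comm]; omega
  have hT' : T ^ 2 = (1 : F) • 1 := by rw [hT, one_smul]
  rw [← edOn_top, ← h4, Multiset.replicate_add, ← add_assoc, unEd_add] at h2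
  obtain ⟨A, B, hA, hB, hd, hAB, h6, h7⟩ := exists_split (inv_top T) h2
  rw [← hAB]
  have h8 : e + 2 * (s % a) = a * t' := by
    rw [mul_add, mul_left_comm] at h3; omega
  refine LPD.sup (lpd_fixed (injective_of_pow_eq_smul two_ne_zero one_ne_zero hT') (i := 2) t' hA
    (by rw [h6, dims_unEd]) h8 ?_) (lpd_cycles two_ne_zero one_ne_zero hT' a _ hB ?_) hd
  · rcases t' with _ | _ | t'
    · omega
    · omega
    · rw [add_mul, add_mul]; omega
  · rw [h7, map_one, reg_char, unEd, unEd]
    simp [Multiset.nsmul_singleton]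


/-- Involutions of PSL_n(q) and imprimitive subgroups. Here `T = PSL_n(F)` for a field `F` with `q = p^f` elements (`n ≥ 2`, `(n, q) ≠ (2, 2), (2, 3)`), `n = a·t` with `t ≥ 2`, and Ω is the set of direct-sum decompositions of `F^n` into `t` subspaces of dimension `a` (unordered; their number is the number of ordered ones divided by `t!`), whose stabilizers are the imprimitive subgroups of type GL_a(q) ≀ S_t (maximal except in some small cases; maximality is not assumed); an element of `T` of prime order `r` (a matrix `x` of determinant 1 with `x^r` scalar, `x` not scalar) fixes a point of Ω when it permutes the summands of some such decomposition. If the number of such decompositions is even, then every involution of `T` stabilizes one of them (the action is 2-elusive). -/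
theorem result {F : Type*} [Field F] [Fintype F] {p : ℕ} [Fact p.Prime] [CharP F p] {q : ℕ} (hq : Fintype.card F = q)
    (n a t : ℕ) (hn : 2 ≤ n) (hT : (n, q) ≠ (2, 2) ∧ (n, q) ≠ (2, 3)) (hat : n = a * t) (ha : 1 ≤ a) (ht : 2 ≤ t)
    (hΩ : 2 ∣ Nat.card {D : Fin t → Submodule F (Fin n → F) // Cfsg.Geo.IsMDecomposition a D} / Nat.factorial t)
    (x : Matrix.SpecialLinearGroup (Fin n) F)
    (hx1 : ∃ z : F, ((x ^ 2 : Matrix.SpecialLinearGroup (Fin n) F) : Matrix (Fin n) (Fin n) F) = z • (1 : Matrix (Fin n) (Fin n) F))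
    (hx2 : ∀ z : F, (x : Matrix (Fin n) (Fin n) F) ≠ z • (1 : Matrix (Fin n) (Fin n) F)) :
    ∃ D : Fin t → Submodule F (Fin n → F), Cfsg.Geo.IsMDecomposition a D ∧
        ∃ σ : Equiv.Perm (Fin t), ∀ j, (D j).map (Matrix.toLin' (x : Matrix (Fin n) (Fin n) F)) = D (σ j) := by
  subst hq
  have hn' : Module.finrank F (Fin n → F) = a * t := (Module.finrank_fin_fun F).trans hat
  rw [← lpd_top_iff ha ht (by simpa using hat)]
  have hT := (isPE_toLin'_iff (x : Matrix (Fin n) (Fin n) F) 2).2 ⟨hx1, hx2⟩
  rcases hT.split_or (by rw [LinearMap.det_toLin', x.2]; exact one_ne_zero) with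
    ⟨b, hb, h⟩ | ⟨z, h1, h2⟩
  · refine PD.smul hb ?_
    by_cases hp : 2 = p
    · subst hp
      exact lpd_char_two h ha hn'
    · refine lpd_diag hp ?_ h hn'
      have := not_dvd_card (F := F) hp
      have := Fintype.card_pos (α := F)
      omega
  · exact lpd_nonsplit h1 h2 hn'

end Cfsg.Agent.S5957
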