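import Cfsg.Statements.S5958
import Cfsg.Agent.Lib.Elusive.DecompMat

set_option autoImplicit false
open scoped MatrixGroups
open Cfsg

namespace Cfsg.Agent.S5958

open CfsgLib.Elusive CfsgLib.MatConj Polynomial

section
variable {F V : Type*} [Field F] [Fintype F] [AddCommGroup V] [Module F V] [FiniteDimensional F V]
  {p r : ℕ} [hp : Fact p.Prime] [CharP F p] [hr : Fact r.Prime]

theorem ssEd_nsmul (k e : ℕ) (t : Multiset F[X]) : k • ssEd e t = ssEd (k * e) (k • t) := by
  induction k with
  | zero => simp [ssEd]
  | succ k ih => rw [succ_nsmul, ih, succ_nsmul, add_mul, one_mul, ssEd_add]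

theorem ssEd_sum {ι : Type*} (S : Finset ι) (e : ι → ℕ) (t : ι → Multiset F[X]) :
    ∑ j ∈ S, ssEd (e j) (t j) = ssEd (∑ j ∈ S, e j) (∑ j ∈ S, t j) := by
  classical
  induction S using Finset.induction_on with
  | empty => simp [ssEd]
  | insert a S ha ih => simp only [Finset.sum_insert ha, ih, ssEd_add]

theorem struct (hrp : r ≠ p) {T : Module.End F V} (hT : T ^ r = 1) {e : ℕ} {s : Multiset F[X]}
    (hs : ∀ f ∈ s, f ∈ cyc F r) (h : ed T = ssEd e s) {a t : ℕ} (ha : a ≠ 0)
    (hn : Module.finrank F V = a * t) (hD : LPD T a t ⊤) :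
    ∃ (k : ℕ) (S : Finset (Fin t)) (e' : Fin t → ℕ) (s' : Fin t → Multiset F[X]),
      t = r * k + S.card ∧
      (∀ j ∈ S, e' j + orderOf (Fintype.card F : ZMod r) * Multiset.card (s' j) = a) ∧
      e = a * k + ∑ j ∈ S, e' j ∧ s = (a * k) • (cyc F r).val + ∑ j ∈ S, s' j := by
  classical
  obtain ⟨-, D, h1, -, h3, σ, hσ⟩ := hD
  obtain ⟨k, S, h7, h8, h9⟩ := ed_of_perm (r := r) (PD.indep hn (fun j => (h1 j).1) h3) h3
    (fun j => (h1 j).1) ha hσ one_ne_zero (by rw [hT, one_smul])
  choose e' s' h10 h11 using fun j => edOn_ssEd hrp hT (D j)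
  refine ⟨k, S, e', s', by simpa using h8, fun j hj => ?_, ?_⟩
  · rw [← mdeg_ssEd hrp _ (h10 j), ← h11, ← (h7 j hj).finrank_eq, (h1 j).1]
  · simp only [h11] at h9
    rw [h, map_one, reg_ss hrp, ssEd_nsmul, ssEd_sum, ← ssEd_add, mul_one] at h9
    refine ssEd_inj hrp hs (fun f hf => ?_) h9
    rcases Multiset.mem_add.1 hf with hf | hf
    · exact Multiset.mem_of_mem_nsmul hf
    · obtain ⟨j, -, hj⟩ := Multiset.mem_sum.1 hf
      exact h10 j f hj

end


/-- Elements of odd prime order of PSL_n(q) and imprimitive subgroups. Here `T = PSL_n(F)` for a field `F` with `q = p^f` elements (`n ≥ 2`, `(n, q) ≠ (2, 2), (2, 3)`), `n = a·t` with `t ≥ 2`, and Ω is the set of direct-sum decompositions of `F^n` into `t` subspaces of dimension `a` (unordered; their number is the number of ordered ones divided by `t!`), whose stabilizers are the imprimitive subgroups of type GL_a(q) ≀ S_t (maximal except in some small cases; maximality is not assumed); an element of `T` of prime order `r` (a matrix `x` of determinant 1 with `x^r` scalar, `x` not scalar) fixes a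 point of Ω when it permutes the summands of some such decomposition. Let `r ≠ p` be an odd prime dividing the number of such decompositions, let `c` be the multiplicative order of `q` modulo `r`, and write `k = n mod c`, `ℓ = a mod c`. Then every element of `T` of order `r` stabilizes such a decomposition if and only if either `a = 1`, `c = r − 1 > 1` and `n ≤ k·r`, or `c ≤ a` and `k = t·ℓ`. -/
theorem result {F : Type*} [Field F] [Fintype F] {p : ℕ} [Fact p.Prime] [CharP F p] {q : ℕ} (hq : Fintype.card F = q)
    (n a t : ℕ) (hn : 2 ≤ n) (hT : (n, q) ≠ (2, 2) ∧ (n, q) ≠ (2, 3)) (hat : n = a * t) (ha : 1 ≤ a) (ht : 2 ≤ t)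
    (r : ℕ) [Fact r.Prime] (hr2 : r ≠ 2) (hrp : r ≠ p) (hΩ : r ∣ Nat.card {D : Fin t → Submodule F (Fin n → F) // Cfsg.Geo.IsMDecomposition a D} / Nat.factorial t)
    (c : ℕ) (hc : c = orderOf (q : ZMod r)) :
    (∀ x : Matrix.SpecialLinearGroup (Fin n) F,
      (∃ z : F, ((x ^ r : Matrix.SpecialLinearGroup (Fin n) F) : Matrix (Fin n) (Fin n) F) = z • (1 : Matrix (Fin n) (Fin n) F)) →
      (∀ z : F, (x : Matrix (Fin n) (Fin n) F) ≠ z • (1 : Matrix (Fin n) (Fin n) F)) →
      ∃ D : Fin t → Submodule F (Fin n → F), Cfsg.Geo.IsMDecomposition a D ∧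
        ∃ σ : Equiv.Perm (Fin t), ∀ j, (D j).map (Matrix.toLin' (x : Matrix (Fin n) (Fin n) F)) = D (σ j)) ↔
    ((a = 1 ∧ 1 < c ∧ c = r - 1 ∧ n ≤ (n % c) * r) ∨ (c ≤ a ∧ n % c = t * (a % c))) := by
  classical
  subst hq
  have hn' : Module.finrank F (Fin n → F) = n := Module.finrank_fin_fun F
  have hn'' := hn'.trans hat
  have hr : r.Prime := Fact.out
  rw [forall_SL_iff r fun T => ∃ D : Fin t → Submodule F (Fin n → F), Cfsg.Geo.IsMDecomposition a D ∧
    ∃ σ : Equiv.Perm (Fin t), ∀ j, (D j).map T = D (σ j)]
  simp only [← lpd_top_iff (ι := Fin n) ha ht (by simpa using hat)]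
  have hi := ord_pos (F := F) hrp
  have hs : ∀ (T : Module.End F (Fin n → F)) (c : F), c ≠ 0 → LPD (c • T) a t ⊤ → LPD T a t ⊤ :=
    fun T c hc => PD.smul hc
  by_cases h1 : orderOf (Fintype.card F : ZMod r) = 1
  · have hq := (orderOf_eq_one_iff_dvd Fintype.card_pos).1 h1
    rw [forall_det_one hq (by omega) _ True hs (fun T hT => lpd_diag hrp hq hT hn'')
      fun T z hT hz => iff_true_intro (lpd_nonsplit hT hz hn'')]
    simp [hc, h1, ha, Nat.mod_one]
  · rw [forall_det_ss hrp h1 _ (fun e s => ∀ T : Module.End F (Fin n → F), T ^ r = 1 →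
      ed T = ssEd e s → LPD T a t ⊤) hs, hn', ← hc]
    · have hcn := ord_le_of_dvd_card_decomp hrp hΩ
        (exists_isMDecomposition ha ht (by simpa using hat))
      have hcr := orderOf_dvd_sub_one (not_dvd_card (F := F) hrp)
      have hcard := card_cyc (F := F) hrp
      rw [Fintype.card_fin, ← hc] at hcn
      rw [← hc] at hi h1 hcr hcard
      constructor
      · intro h
        obtain ⟨f, hf⟩ := exists_mem_cyc (F := F) hrp
        have key : ∀ e s, s ≠ 0 → e + c * s = n → ∃ (k : ℕ) (S : Finset (Fin t)) (e' : Fin t → ℕ)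
            (s' : Fin t → Multiset F[X]), t = r * k + S.card ∧
            (∀ j ∈ S, e' j + c * Multiset.card (s' j) = a) ∧ e = a * k + ∑ j ∈ S, e' j ∧
            Multiset.replicate s f = (a * k) • (cyc F r).val + ∑ j ∈ S, s' j := by
          intro e s h2 h3
          have h4 : ∀ g ∈ Multiset.replicate s f, g ∈ cyc F r := fun g hg => by
            rwa [Multiset.eq_of_mem_replicate hg]
          obtain ⟨T, hT⟩ := exists_ed_eq' (F := F) (V := Fin n → F) (valid_ssEd e h4)
            (by rw [mdeg_ssEd hrp e h4, ← hc, hn', ← h3]; simp)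
          have h5 : T ^ r = 1 := pow_eq_one_iff_ed.2 (hT ▸ dvd_of_mem_ssEd e h4)
          rw [hc]
          exact struct hrp h5 h4 hT (by omega) hn''
            (h e _ h4 (replicate_ne_zero h2 f) (by simpa using h3) T h5 hT)
        obtain ⟨k, S, e', s', h2, h3, h4, h5⟩ := key (n % c) (n / c) (Nat.div_pos hcn hi).ne'
          (Nat.mod_add_div n c)
        have h6 := Nat.mod_lt n hi
        have h7 : ∀ j ∈ S, e' j = a % c := fun j hj => by
          have := Finset.single_le_sum (f := e') (fun _ _ => Nat.zero_le _) hj
          rw [← h3 j hj, Nat.add_mul_mod_self_left, Nat.mod_eq_of_lt (by omega)]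
        rw [Finset.sum_congr rfl h7, Finset.sum_const, smul_eq_mul] at h4
        rcases Nat.eq_zero_or_pos k with rfl | hk
        · right
          refine ⟨?_, by rw [h4, show S.card = t by omega]; simp⟩
          by_contra h8
          have h9 := congrArg Multiset.card h5
          rw [Multiset.card_replicate, mul_zero, zero_nsmul, zero_add, Multiset.card_sum,
            Finset.sum_eq_zero fun j hj => ?_] at h9
          · exact (Nat.div_pos hcn hi).ne' h9
          · by_contra h10
            have := h3 j hj
            have : c * 1 ≤ c * Multiset.card (s' j) := Nat.mul_le_mul_left c (by omega)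
            omega
        · left
          have h8 : a * 1 ≤ a * k := Nat.mul_le_mul_left a hk
          have h9 : (cyc F r).card ≤ 1 := by
            rw [Finset.card_le_one]
            have : ∀ g ∈ cyc F r, g = f := fun g hg => Multiset.eq_of_mem_replicate (n := n / c) (by
              rw [h5]
              exact Multiset.mem_add.2 (Or.inl ((Multiset.mem_nsmul_of_ne_zero (by omega)).2 hg)))
            intro g hg g' hg'
            rw [this g hg, this g' hg']
          have h10 : c = r - 1 := by
            obtain ⟨l, hl⟩ := hcr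
            rw [hcard, hl, Nat.mul_div_cancel_left _ hi] at h9
            have := hr.two_le
            rcases l with _ | _ | l <;> omega
          have h11 : a = 1 := by
            obtain ⟨k, S, e', s', h2, h3, h4, h5⟩ := key (n - c) 1 one_ne_zero (by omega)
            have h9 := congrArg Multiset.card h5
            rw [Multiset.card_replicate, Multiset.card_add, Multiset.card_nsmul, Multiset.card_sum,
              Finset.sum_eq_zero fun j hj => ?_, add_zero] at h9
            · exact Nat.eq_one_of_mul_eq_one_right (Nat.eq_one_of_mul_eq_one_right h9.symm)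
            · by_contra h10
              have := h3 j hj
              have : c * 1 ≤ c * Multiset.card (s' j) := Nat.mul_le_mul_left c (by omega)
              omega
          subst h11
          refine ⟨rfl, by omega, h10, ?_⟩
          rw [h4, Nat.mod_eq_of_lt (by omega : 1 < c), hat]
          have := hr.two_le
          nlinarith
      · rintro (⟨rfl, h2, h3, h4⟩ | ⟨h2, h3⟩) e s h5 h6 h7 T hT h8
        · have hT' : T ^ r = (1 : F) • 1 := by rw [hT, one_smul]
          have h9 := mod_le_of_eq_add h7.symm
          obtain ⟨e', rfl⟩ : ∃ e', e = e' + Multiset.card s := by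
            refine ⟨e - Multiset.card s, (Nat.sub_add_cancel (le_of_mul_le_mul_left ?_ hi)).symm⟩
            have : n % c * r ≤ e * r := Nat.mul_le_mul_right r h9
            obtain rfl : r = c + 1 := by omega
            nlinarith
          obtain ⟨f, hf⟩ : ∃ f, cyc F r = {f} := Finset.card_eq_one.1 (by
            rw [hcard, ← h3, Nat.div_self hi])
          have h10 : ssEd (e' + Multiset.card s) s =
              ssEd e' 0 + (1 * Multiset.card s) • reg (X ^ r - C 1) := by
            rw [map_one, reg_ss hrp, ssEd_nsmul, ← ssEd_add, hf]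
            simp only [mul_one, one_mul, zero_add, Finset.singleton_val, Multiset.nsmul_singleton]
            congr 1
            exact Multiset.eq_replicate_card.2 fun g hg => by simpa [hf] using h5 g hg
          rw [← edOn_top, h10] at h8
          obtain ⟨A, B, hA, hB, hd, hAB, h11, h12⟩ := exists_split (inv_top T) h8
          have h13 : t = e' + r * Multiset.card s := by
            obtain rfl : r = c + 1 := by omega
            rw [add_mul]; omega
          rw [← hAB, h13]
          refine LPD.sup (lpd_fixed (injective_of_pow_eq_smul hr.ne_zero one_ne_zero hT') (i := 1)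
            e' hA (e := e') (s := 0) ?_ (by simp) (Nat.zero_le _))
            (lpd_cycles hr.ne_zero one_ne_zero hT' 1 _ hB h12) hd
          rw [h11, dims_ssEd hrp e' (by simp)]; simp
        · refine lpd_fixed (injective_of_pow_eq_smul hr.ne_zero one_ne_zero
            (by rw [hT, one_smul])) t (inv_top T) (by rw [edOn_top, h8, dims_ssEd hrp e h5, ← hc])
            (h7.trans hat) (le_of_mul_le_mul_left ?_ hi)
          have h9 := mod_le_of_eq_add h7.symm
          have h10 := Nat.mod_add_div a c
          have : a * t = t * (a % c) + c * (t * (a / c)) := by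
            conv_lhs => rw [← h10]
            ring
          omega
    · intro T e s hT hs h
      refine ⟨fun h2 T' hT' h3 => ?_, fun h2 => h2 T hT h⟩
      obtain ⟨g, hg⟩ := sim_of_ed_eq (h.trans h3.symm)
      obtain ⟨h4, D, h5, -, h6, σ, h7⟩ := h2
      refine ⟨h4, fun j => (D j).map g.toLinearMap,
        fun j => ⟨by rw [LinearEquiv.finrank_map_eq, (h5 j).1], trivial⟩, fun _ _ _ => trivial,
        by rw [← Submodule.map_iSup, h6, Submodule.map_top, LinearEquiv.range], σ, fun j => ?_⟩
      dsimp only
      rw [← h7, ← Submodule.map_comp, ← Submodule.map_comp]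
      congr 1
      exact LinearMap.ext fun v => (hg v).symm

end Cfsg.Agent.S5958
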