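import Cfsg.Statements.S5959
import Cfsg.Agent.Lib.Elusive.DecompMat

set_option autoImplicit false
open scoped MatrixGroups
open Cfsg

namespace Cfsg.Agent.S5959

open CfsgLib.Elusive CfsgLib.MatConj Polynomial


/-- Elements of order `p` of PSL_n(q) and imprimitive subgroups: a necessary condition. Here `T = PSL_n(F)` for a field `F` with `q = p^f` elements (`n ≥ 2`, `(n, q) ≠ (2, 2), (2, 3)`), `n = a·t` with `t ≥ 2`, and Ω is the set of direct-sum decompositions of `F^n` into `t` subspaces of dimension `a` (unordered; their number is the number of ordered ones divided by `t!`), whose stabilizers are the imprimitive subgroups of type GL_a(q) ≀ S_t (maximal except in some small cases; maximality is not assumed); an element of `T` of prime order `r` (a matrix `x` of determinant 1 with `x^r` scalar, `x` not scalar) fixes a point of Ω when it permutes the summands of some such decomposition. Suppose `p > 2` divides the number of such decompositions. If every element of `T` of order `p` stabilizes such a decomposition, then every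 partition of `n` into parts of size at most `p` in which the part `p` occurs fewer than `a` times contains (as a sub-multiset) a partition of `a`. -/
theorem result {F : Type*} [Field F] [Fintype F] {p : ℕ} [Fact p.Prime] [CharP F p] {q : ℕ} (hq : Fintype.card F = q)
    (n a t : ℕ) (hn : 2 ≤ n) (hT : (n, q) ≠ (2, 2) ∧ (n, q) ≠ (2, 3)) (hat : n = a * t) (ha : 1 ≤ a) (ht : 2 ≤ t)
    (hp : 2 < p) (hΩ : p ∣ Nat.card {D : Fin t → Submodule F (Fin n → F) // Cfsg.Geo.IsMDecomposition a D} / Nat.factorial t)
    (h : ∀ x : Matrix.SpecialLinearGroup (Fin n) F,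
      (∃ z : F, ((x ^ p : Matrix.SpecialLinearGroup (Fin n) F) : Matrix (Fin n) (Fin n) F) = z • (1 : Matrix (Fin n) (Fin n) F)) →
      (∀ z : F, (x : Matrix (Fin n) (Fin n) F) ≠ z • (1 : Matrix (Fin n) (Fin n) F)) →
      ∃ D : Fin t → Submodule F (Fin n → F), Cfsg.Geo.IsMDecomposition a D ∧
        ∃ σ : Equiv.Perm (Fin t), ∀ j, (D j).map (Matrix.toLin' (x : Matrix (Fin n) (Fin n) F)) = D (σ j)) :
    (∀ μ : Multiset ℕ, (∀ b ∈ μ, 0 < b ∧ b ≤ p) → μ.sum = n → μ.count p < a → ∃ ν : Multiset ℕ, ν ≤ μ ∧ ν.sum = a) := by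
  classical
  subst hq
  have hn' : Module.finrank F (Fin n → F) = n := Module.finrank_fin_fun F
  rw [forall_SL_iff p fun T => ∃ D : Fin t → Submodule F (Fin n → F), Cfsg.Geo.IsMDecomposition a D ∧
    ∃ σ : Equiv.Perm (Fin t), ∀ j, (D j).map T = D (σ j)] at h
  intro μ h1 h2 h3
  by_cases h4 : ∃ b ∈ μ, b ≠ 1
  · obtain ⟨T, hT⟩ := exists_ed_eq' (F := F) (V := Fin n → F) (valid_unEd fun a ha => (h1 a ha).1)
      (by rw [mdeg_unEd, h2, hn'])
    obtain ⟨h5, h6⟩ := isPE_of_unEd hT (fun a ha => (h1 a ha).2) h4
    obtain ⟨D, hD, σ, hσ⟩ := h T (det_eq_one_of_pow_eq_one char_not_dvd_sub_one h5) h6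
    obtain ⟨k, S, h7, h8, h9⟩ := ed_of_perm (r := p) hD.indep hD.iSup_eq_top hD.finrank_eq
      (by omega) hσ one_ne_zero (by rw [h5, one_smul])
    rcases Nat.eq_zero_or_pos k with rfl | hk
    · obtain ⟨j, hj⟩ : S.Nonempty := Finset.card_pos.1 (by simp at h8; omega)
      refine ⟨dims (edOn T (D j)), ?_, by rw [sum_dims, ← (h7 j hj).finrank_eq, hD.finrank_eq]⟩
      rw [← dims_unEd (F := F) μ, ← hT, h9]
      exact dims_mono ((Finset.single_le_sum (f := fun j => edOn T (D j))
        (fun _ _ => Multiset.zero_le _) hj).trans (Multiset.le_add_left _ _))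
    · have h10 := dims_mono ((Multiset.le_add_right _ _).trans h9.ge)
      rw [hT, dims_unEd, map_one, reg_char, unEd, Multiset.map_singleton, Multiset.nsmul_singleton,
        dims, Multiset.map_replicate, natDegree_X_sub_one, one_mul,
        ← Multiset.le_count_iff_replicate_le] at h10
      have : a * 1 ≤ a * k := Nat.mul_le_mul_left a hk
      dsimp only at h10
      omega
  · push Not at h4
    exact exists_le_of_all_one h4 (by rw [h2, hat]; exact Nat.le_mul_of_pos_right _ (by omega))

end Cfsg.Agent.S5959
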