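import Cfsg.Statements.S5960
import Cfsg.Agent.Lib.Elus2.Sp3
import Cfsg.Agent.Lib.Elus2.Arith

set_option autoImplicit false
open scoped MatrixGroups
open Cfsg

namespace Cfsg.Agent.S5960

open CfsgLib.Elusive CfsgLib.Elus2 CfsgLib.Forms CfsgLib.MatConj Polynomial


/-- Involutions of PSp_n(q) and imprimitive subgroups. Here `T = PSp_n(q)`, `n = 2d ≥ 4`, `(n, q) ≠ (4, 2)`, realised through the symplectic matrices over the field `F` with `q` elements and the standard alternating form; `n = a·t` with `a` even and `t ≥ 2`, and Ω is the (nonempty) set of orthogonal decompositions of `F^n` into `t` nondegenerate subspaces of dimension `a` (unordered; counted as ordered ones divided by `t!`), whose stabilizers are the imprimitive subgroups of type Sp_a(q) ≀ S_t (maximality is not assumed); an element of `T` of prime order `r` (a symplectic matrix `x` with `x^r` scalar, `x` not scalar) fixes a point of Ω when it permutes the summands of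 some such decomposition. If the number of such decompositions is even, then every involution of `T` stabilizes one of them (the action is 2-elusive). -/
theorem result {F : Type*} [Field F] [Fintype F] {p : ℕ} [Fact p.Prime] [CharP F p] {q : ℕ} (hq : Fintype.card F = q)
    (d : ℕ) (hd : 2 ≤ d) (hT : (d, q) ≠ (2, 2))
    (a t : ℕ) (hat : 2 * d = a * t) (ha : 2 ≤ a) (hae : Even a) (ht : 2 ≤ t) (hΩ : 2 ∣ Nat.card {D : Fin t → Submodule F (Fin d ⊕ Fin d → F) // (Cfsg.Geo.IsMDecomposition a D ∧ (∀ j, ∀ u ∈ D j, u ≠ 0 → ∃ v ∈ D j, Cfsg.sympForm d F u v ≠ 0) ∧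
          (∀ j j', j ≠ j' → ∀ u ∈ D j, ∀ v ∈ D j', Cfsg.sympForm d F u v = 0))} / Nat.factorial t)
    (x : ↥(Matrix.symplecticGroup (Fin d) F))
    (hx1 : ∃ z : F, ((x ^ 2 : ↥(Matrix.symplecticGroup (Fin d) F)) : Matrix (Fin d ⊕ Fin d) (Fin d ⊕ Fin d) F) = z • (1 : Matrix (Fin d ⊕ Fin d) (Fin d ⊕ Fin d) F))
    (hx2 : ∀ z : F, (x : Matrix (Fin d ⊕ Fin d) (Fin d ⊕ Fin d) F) ≠ z • (1 : Matrix (Fin d ⊕ Fin d) (Fin d ⊕ Fin d) F)) :
    ∃ D : Fin t → Submodule F (Fin d ⊕ Fin d → F), (Cfsg.Geo.IsMDecomposition a D ∧ (∀ j, ∀ u ∈ D j, u ≠ 0 → ∃ v ∈ D j, Cfsg.sympForm d F u v ≠ 0) ∧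
          (∀ j j', j ≠ j' → ∀ u ∈ D j, ∀ v ∈ D j', Cfsg.sympForm d F u v = 0)) ∧
        ∃ σ : Equiv.Perm (Fin t), ∀ j, (D j).map (Matrix.toLin' (x : Matrix (Fin d ⊕ Fin d) (Fin d ⊕ Fin d) F)) = D (σ j) := by
  subst hq
  have hP := spPQ_nondeg (Fin d) F
  have hΛ := spPQ_Λ (Fin d) F
  have hn := finrank_sum_fun F d
  simp only [sp_nd_iff, sp_perp_iff]
  rw [← pd_top_iff (Φ := ND (spPQ (Fin d) F)) (R := fun A B => B ≤ (spPQ (Fin d) F).perp A)
    (by omega) ht (by simp [← hat, two_mul])]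
  refine (forall_sp_iff 2 fun T => OPD (spPQ (Fin d) F) T a t ⊤).2 (fun T hT hT' => ?_) x hx1 hx2
  refine opd_of_step hP hT a (fun _ _ => True) (fun U t h1 h2 h3 _ => ?_) t ⊤ (nd_top hP)
    (inv_top T) (by rw [finrank_top, hn, hat]) trivial
  have h4 : a * 1 ≤ a * (t + 1) := Nat.mul_le_mul_left a (by omega)
  by_cases hp : 2 = p
  · subst hp
    rcases t with _ | t
    · exact ⟨U, 1, le_rfl, le_rfl, le_rfl, h1, h2, OPD.single hP hT h1 h2 (by omega), trivial⟩
    have h5 := isPE_two_char_two hP hT hT'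
    obtain ⟨α, β, b1, b2, ⟨B, b3, b4, b5, b6⟩, -⟩ := alt_struct_two hΛ hP hT h5 h1 h2
    have h6 : a * 2 ≤ a * (t + 1 + 1) := Nat.mul_le_mul_left a (by omega)
    rw [Nat.even_iff] at hae
    by_cases h7 : a ≤ 2 * β
    · obtain ⟨W, c1, c2, c3⟩ := alt_exists_nd hΛ hP b4 (m := a) (Nat.even_iff.2 hae) (by omega)
      obtain ⟨c4, c5, c6⟩ := OPD.swap hP hT one_ne_zero (by rw [h5, one_smul]) c2
        ((Submodule.map_mono c1).trans (b6.trans (PQ.perp_anti _ c1)))
      exact ⟨_, 2, by omega, by omega, sup_le (c1.trans b3)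
        ((Submodule.map_mono (c1.trans b3)).trans (inv_iff_map_le.1 h2)), c4, c5, c3 ▸ c6, trivial⟩
    · obtain ⟨j, c1, l, c2, c3⟩ := exists_two_four (α := α) (β := β) (m := a / 2) (by omega)
        (Or.inl (by omega))
      obtain ⟨W, c0, c4, c5, c6⟩ := b2 j c1 l c2
      exact ⟨W, 1, le_rfl, by omega, c0, c4, c5, OPD.single hP hT c4 c5 (by omega), trivial⟩
  · obtain ⟨W, c0, c4, c5, c6⟩ := alt_nd_two hΛ hP (two_ne_zero_of_ne hp) hT hT' h1 h2 hae
      (by omega)
    exact ⟨W, 1, le_rfl, by omega, c0, c4, c5, OPD.single hP hT c4 c5 c6, trivial⟩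

end Cfsg.Agent.S5960
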