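import Cfsg.Statements.S5961
import Cfsg.Agent.Lib.Elus2.Sp3
import Cfsg.Agent.Lib.Elus2.Arith
import Cfsg.Agent.S5958

set_option autoImplicit false
open scoped MatrixGroups
open Cfsg

namespace Cfsg.Agent.S5961

open CfsgLib.Elusive CfsgLib.Elus2 CfsgLib.Forms CfsgLib.MatConj Polynomial

section
variable {F V : Type*} [Field F] [AddCommGroup V] [Module F V] {σ : F →+* F} {P : PQ σ V}

theorem B_eq_of_iSup {ι : Type*} {D : ι → Submodule F V} (h : iSup D = ⊤) {g : V →ₗ[F] V}
    (hg : ∀ i j, ∀ x ∈ D i, ∀ y ∈ D j, P.B (g x) (g y) = P.B x y) (x y : V) :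
    P.B (g x) (g y) = P.B x y := by
  have hx : x ∈ iSup D := h ▸ trivial
  have hy : y ∈ iSup D := h ▸ trivial
  induction hx using Submodule.iSup_induction' with
  | zero => simp
  | add a b _ _ ha hb => rw [map_add g, P.B_add_left, P.B_add_left, ha, hb]
  | mem i x hx =>
    induction hy using Submodule.iSup_induction' with
    | zero => simp
    | add a b _ _ ha hb => rw [map_add g, P.B_add_right, P.B_add_right, ha, hb]
    | mem j y hy => exact hg i j x hx y hy

theorem pd_neg {Φ : Submodule F V → Prop} {R : Submodule F V → Submodule F V → Prop}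
    {T : Module.End F V} {a t : ℕ} {U : Submodule F V} (h : PD Φ R (-T) a t U) : PD Φ R T a t U :=
  PD.smul (c := -1) (by simp) (by rwa [neg_smul, one_smul])

variable [Fintype F] [FiniteDimensional F V]
  {p r : ℕ} [hp : Fact p.Prime] [CharP F p] [hr : Fact r.Prime] {sd : Prop} {b c : ℕ}

theorem struct (hP : P.Nondeg) (hrp : r ≠ p) (hsd : SDData σ r sd b c) {T : Module.End F V}
    (hI : Isom P T) (hT : T ^ r = 1) {e : ℕ} {s : Multiset F[X]}
    (hs : ∀ f ∈ s, f ∈ cyc F r) (h : ed T = ssEd e s) {a t : ℕ} (ha : a ≠ 0)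
    (hn : Module.finrank F V = a * t) (hD : OPD P T a t ⊤) :
    ∃ (k : ℕ) (S : Finset (Fin t)) (e' k' : Fin t → ℕ),
      t = r * k + S.card ∧ (∀ j ∈ S, e' j + c * k' j = a) ∧
      e = a * k + ∑ j ∈ S, e' j ∧ b * Multiset.card s = a * k * (r - 1) + c * ∑ j ∈ S, k' j := by
  classical
  obtain ⟨-, D, h1, -, h3, τ, hσ⟩ := hD
  obtain ⟨k, S, h7, h8, h9⟩ := ed_of_perm (r := r) (PD.indep hn (fun j => (h1 j).1) h3) h3
    (fun j => (h1 j).1) ha hσ one_ne_zero (by rw [hT, one_smul])
  choose e' s' h10 h11 using fun j => edOn_ssEd hrp hT (D j)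
  have h12 : ∀ j, ∃ k', j ∈ S → b * Multiset.card (s' j) = c * k' := fun j => by
    by_cases hj : j ∈ S
    · obtain ⟨k', hk⟩ := exists_card_eq hsd P.σσ (h10 j)
        (map_tilde_of_nd hP hrp hI (h1 j).2 (h7 j hj) (h10 j) (h11 j))
      exact ⟨k', fun _ => hk⟩
    · exact ⟨0, fun h => absurd h hj⟩
  choose k' hk using h12
  refine ⟨k, S, e', k', by simpa using h8, fun j hj => ?_, ?_⟩
  · rw [← hk j hj, hsd.b_eq, ← mdeg_ssEd hrp _ (h10 j), ← h11, ← (h7 j hj).finrank_eq, (h1 j).1]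
  · simp only [h11] at h9
    rw [h, map_one, reg_ss hrp, S5958.ssEd_nsmul, S5958.ssEd_sum, ← ssEd_add, mul_one] at h9
    obtain ⟨h13, h14⟩ := ssEd_inj hrp hs (fun f hf => by
      rcases Multiset.mem_add.1 hf with hf | hf
      · exact Multiset.mem_of_mem_nsmul hf
      · obtain ⟨j, -, hj⟩ := Multiset.mem_sum.1 hf
        exact h10 j f hj) h9
    refine ⟨h13, ?_⟩
    rw [h14, Multiset.card_add, Multiset.card_nsmul, Multiset.card_sum, mul_add, Finset.mul_sum,
      Finset.mul_sum, Finset.sum_congr rfl hk, Finset.card_val, card_cyc hrp, mul_left_comm,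
      hsd.b_eq, Nat.mul_div_cancel' (orderOf_dvd_sub_one (not_dvd_card hrp))]

end


/-- Elements of odd prime order of PSp_n(q) and imprimitive subgroups. Here `T = PSp_n(q)`, `n = 2d ≥ 4`, `(n, q) ≠ (4, 2)`, realised through the symplectic matrices over the field `F` with `q` elements and the standard alternating form; `n = a·t` with `a` even and `t ≥ 2`, and Ω is the (nonempty) set of orthogonal decompositions of `F^n` into `t` nondegenerate subspaces of dimension `a` (unordered; counted as ordered ones divided by `t!`), whose stabilizers are the imprimitive subgroups of type Sp_a(q) ≀ S_t (maximality is not assumed); an element of `T` of prime order `r` (a symplectic matrix `x` with `x^r` scalar, `x` not scalar) fixes a point of Ω when it permutes the summands of some such decomposition. Let `r ≠ p` be an odd prime dividing the number of such decompositions, let `i` be the multiplicative order of `q` modulo `r`, `c = i` if `i` is even and `c = 2i` if `i`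 is odd, and write `k = n mod c`, `ℓ = a mod c`. Then every element of `T` of order `r` stabilizes such a decomposition if and only if `c ≤ a` and `k = t·ℓ`. -/
theorem result {F : Type*} [Field F] [Fintype F] {p : ℕ} [Fact p.Prime] [CharP F p] {q : ℕ} (hq : Fintype.card F = q)
    (d : ℕ) (hd : 2 ≤ d) (hT : (d, q) ≠ (2, 2))
    (a t : ℕ) (hat : 2 * d = a * t) (ha : 2 ≤ a) (hae : Even a) (ht : 2 ≤ t)
    (r : ℕ) [Fact r.Prime] (hr2 : r ≠ 2) (hrp : r ≠ p) (hΩ : r ∣ Nat.card {D : Fin t → Submodule F (Fin d ⊕ Fin d → F) // (Cfsg.Geo.IsMDecomposition a D ∧ (∀ j, ∀ u ∈ D j, u ≠ 0 → ∃ v ∈ D j, Cfsg.sympForm d F u v ≠ 0) ∧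
          (∀ j j', j ≠ j' → ∀ u ∈ D j, ∀ v ∈ D j', Cfsg.sympForm d F u v = 0))} / Nat.factorial t)
    (i c : ℕ) (hi : i = orderOf (q : ZMod r)) (hc : c = if Even i then i else 2 * i) :
    (∀ x : ↥(Matrix.symplecticGroup (Fin d) F),
      (∃ z : F, ((x ^ r : ↥(Matrix.symplecticGroup (Fin d) F)) : Matrix (Fin d ⊕ Fin d) (Fin d ⊕ Fin d) F) = z • (1 : Matrix (Fin d ⊕ Fin d) (Fin d ⊕ Fin d) F)) →
      (∀ z : F, (x : Matrix (Fin d ⊕ Fin d) (Fin d ⊕ Fin d) F) ≠ z • (1 : Matrix (Fin d ⊕ Fin d) (Fin d ⊕ Fin d) F)) →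
      ∃ D : Fin t → Submodule F (Fin d ⊕ Fin d → F), (Cfsg.Geo.IsMDecomposition a D ∧ (∀ j, ∀ u ∈ D j, u ≠ 0 → ∃ v ∈ D j, Cfsg.sympForm d F u v ≠ 0) ∧
          (∀ j j', j ≠ j' → ∀ u ∈ D j, ∀ v ∈ D j', Cfsg.sympForm d F u v = 0)) ∧
        ∃ σ : Equiv.Perm (Fin t), ∀ j, (D j).map (Matrix.toLin' (x : Matrix (Fin d ⊕ Fin d) (Fin d ⊕ Fin d) F)) = D (σ j)) ↔
    (c ≤ a ∧ (2 * d) % c = t * (a % c)) := by
  classical
  subst hq
  have hP := spPQ_nondeg (Fin d) F
  have hΛ := spPQ_Λ (Fin d) F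
  have hn := finrank_sum_fun F d
  have hr : r.Prime := Fact.out
  have ho := hr.odd_of_ne_two hr2
  have hsd := sdData_id hrp hr2 hi hc
  have hc0 := hsd.c_pos hrp
  simp only [sp_nd_iff, sp_perp_iff] at hΩ ⊢
  have hpd := fun T => pd_top_iff (Φ := ND (spPQ (Fin d) F)) (T := T)
    (R := fun A B => B ≤ (spPQ (Fin d) F).perp A) (ι := Fin d ⊕ Fin d) (a := a) (t := t)
    (by omega) ht (by simp [← hat, two_mul])
  simp only [← hpd]
  rw [forall_sp_iff r fun T => OPD (spPQ (Fin d) F) T a t ⊤, forall_isPE_odd' hP ho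
    (fun T => OPD (spPQ (Fin d) F) T a t ⊤) fun T h => pd_neg h]
  have hsuff : ∀ T, Isom (spPQ (Fin d) F) T → T ^ r = 1 → ∀ k, Module.finrank F
      ((spPQ (Fin d) F).perp (fix T)) = c * k → k ≤ t * (a / c) → OPD (spPQ (Fin d) F) T a t ⊤ := by
    intro T h1 h2 k h3 h4
    refine opd_of_step hP h1 a (fun U t => ∃ k, Module.finrank F
      (U ⊓ (spPQ (Fin d) F).perp (fix T) : Submodule F _) = c * k ∧ k ≤ t * (a / c))
      (fun U t a1 a2 a3 ⟨k, a4, a5⟩ => ?_) t ⊤ (nd_top hP) (inv_top T)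
      (by rw [finrank_top, hn, hat]) ⟨k, by rwa [top_inf_eq], h4⟩
    obtain ⟨b1, b2, b3, b4⟩ := nd_split hP hrp h1 h2 a2 a1
    obtain ⟨k', b5, b6⟩ := hsd.multiples hP hrp h1 h2 inf_le_right b2 b3
    obtain rfl : k = k' := Nat.eq_of_mul_eq_mul_left hc0 (a4.symm.trans b5)
    obtain ⟨W, c1, c2, c3, c4⟩ := b6 (min k (a / c)) (min_le_left _ _)
    have e1 := Nat.mod_add_div a c
    have e2 : c * min k (a / c) ≤ c * (a / c) := Nat.mul_le_mul_left c (min_le_right _ _)
    have e3 : c * k ≤ c * ((t + 1) * (a / c)) := Nat.mul_le_mul_left c a5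
    have e4 : a * (t + 1) = (t + 1) * (a % c) + c * ((t + 1) * (a / c)) := by
      conv_lhs => rw [← e1]
      ring
    have e5 : 1 * (a % c) ≤ (t + 1) * (a % c) := Nat.mul_le_mul_right _ (by omega)
    have e6 : a * 1 ≤ a * (t + 1) := Nat.mul_le_mul_left a (by omega)
    obtain ⟨W', d1, d2, d3⟩ := alt_exists_nd hΛ hP b1 (m := a - c * min k (a / c))
      ((Nat.even_sub (by omega)).2 (iff_of_true hae ((c_even hc).mul_right _))) (by
        rcases min_choice k (a / c) with h | h <;> rw [h] <;> omega)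
    have d4 : W ≤ (spPQ (Fin d) F).perp W' :=
      c1.trans (inf_le_right.trans (PQ.perp_anti _ (d1.trans inf_le_right)))
    have d5 := (inv_of_le_fix (d1.trans inf_le_right)).sup c3
    have d6 := d2.sup c2 d4
    have d7 : W' ⊔ W ≤ U := sup_le (d1.trans inf_le_left) (c1.trans inf_le_left)
    refine ⟨W' ⊔ W, 1, le_rfl, by omega, d7, d6, d5,
      OPD.single hP h1 d6 d5 (by rw [d2.finrank_sup d4]; omega), k - min k (a / c), ?_, ?_⟩
    · have h5 : U ⊓ (spPQ (Fin d) F).perp (W' ⊔ W) ⊓ (spPQ (Fin d) F).perp (fix T) =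
          U ⊓ (spPQ (Fin d) F).perp (fix T) ⊓ (spPQ (Fin d) F).perp W := by
        rw [PQ.perp_sup]
        refine le_antisymm (le_inf (le_inf (inf_le_left.trans inf_le_left) inf_le_right)
          (inf_le_left.trans (inf_le_right.trans inf_le_right))) (le_inf (le_inf
            (inf_le_left.trans inf_le_left) (le_inf (inf_le_left.trans (inf_le_right.trans
              (PQ.perp_anti _ (d1.trans inf_le_right)))) inf_le_right))
            (inf_le_left.trans inf_le_right))
      have h6 := b2.finrank_inf_perp hP c1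
      rw [h5, Nat.mul_sub]
      omega
    · rw [Nat.add_sub_cancel]
      rw [add_mul, one_mul] at a5
      omega
  constructor
  · intro h
    have hcn : c ≤ 2 * d := by
      obtain ⟨D₀, hD₀, -⟩ := (hpd 1).1 (hsuff 1 (isom_one _) (one_pow r) 0 (by
        rw [show fix (1 : Module.End F (Fin d ⊕ Fin d → F)) = ⊤ from
          eq_top_iff.2 fun v _ => mem_fix.2 rfl, PQ.perp_top _ hP, finrank_bot, mul_zero])
        (Nat.zero_le _))
      have h1 := dvd_of_dvd_div (factorial_dvd_card _ (fun τ D hD =>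
        ⟨isMDecomposition_comp hD.1 τ, fun j => hD.2.1 _,
          fun j j' h => hD.2.2 _ _ (τ.injective.ne h)⟩)
        fun D hD => isMDecomposition_injective hD.1) hΩ
      have h2 := alt_mod_lt hΛ hP hrp hi hc (nd_top hP) h1 (card_mul_dvd_perp hP
        (fun g (D : Fin t → Submodule F (Fin d ⊕ Fin d → F)) j => (D j).map g.toLinearMap)
        (fun D => funext fun j => map_one_equiv _) (fun g h D => funext fun j => map_mul_equiv _ _ _)
        _ (fun g hg D hD => ⟨isMDecomposition_map hD.1 g, fun j => ND.map_iso hg (hD.2.1 j),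
          fun j j' h => map_le_perp_map hg (hD.2.2 j j' h)⟩) D₀ hD₀ (fun E hE => ?_) (nd_top hP)
        fun g _ h => funext fun j => map_eq_of_forall_eq fun v _ => h v trivial)
      · rw [finrank_top, hn] at h2
        by_contra h3
        rw [Nat.mod_eq_of_lt (by omega)] at h2
        omega
      · choose e he using fun j => alt_exists_isIso₂ (P := (spPQ (Fin d) F).restrict (D₀ j))
          (P' := (spPQ (Fin d) F).restrict (E j)) hΛ hΛ (hD₀.2.1 j).nondeg (hE.2.1 j).nondeg
          ((hD₀.1.finrank_eq j).trans (hE.1.finrank_eq j).symm)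
        obtain ⟨g, hg⟩ := exists_equiv_of_decomp hD₀.1 hE.1 e
        refine ⟨g, alt_isIso hΛ (B_eq_of_iSup (g := g.toLinearMap) hD₀.1.iSup_eq_top
          fun j j' x hx y hy => ?_), funext fun j => map_eq_of_equiv (e j) (hg j)⟩
        rw [LinearEquiv.coe_coe, hg j ⟨x, hx⟩, hg j' ⟨y, hy⟩]
        by_cases hj : j = j'
        · subst hj
          exact (he j).B_eq ⟨x, hx⟩ ⟨y, hy⟩
        · rw [hD₀.2.2 j j' hj hy x hx, hE.2.2 j j' hj (e j' ⟨y, hy⟩).2 _ (e j ⟨x, hx⟩).2]
    have key : ∀ K, 1 ≤ K → c * K ≤ 2 * d → ∃ (k : ℕ) (S : Finset (Fin t)) (e' k' : Fin t → ℕ),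
        t = r * k + S.card ∧ (∀ j ∈ S, e' j + c * k' j = a) ∧
        2 * d - c * K = a * k + ∑ j ∈ S, e' j ∧ c * K = a * k * (r - 1) + c * ∑ j ∈ S, k' j := by
      intro K h1 h2
      obtain ⟨s, h3, h4, h5, -⟩ := hsd.exists_mult (fun _ => rfl) hrp K
      obtain ⟨T, h6, h7⟩ := alt_exists_ss' hΛ hP hrp hr2 hi hc K s (by omega) h3 h4 h5
      obtain ⟨h8, h9, -⟩ := exists_of_ed hP hrp hsd h6 h3 h1 h5 h7
      rw [← h5]
      rw [hn, ← h5] at h7
      exact struct hP hrp hsd h6 h8 h3 h7 (by omega) (hn.trans hat) (h T h6 h8 h9)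
    have hca : c ≤ a := by
      obtain ⟨k, S, e', k', -, h3, -, h5⟩ := key 1 le_rfl (by omega)
      have h6 := Nat.le_of_dvd (by have := hr.two_le; omega) (c_le_sub_one hrp hr2 hi hc)
      have h7 : k = 0 := by
        by_contra h7
        have : 2 * 1 * c ≤ a * k * (r - 1) :=
          Nat.mul_le_mul (Nat.mul_le_mul ha (by omega)) h6
        omega
      subst h7
      obtain ⟨j, hj, h8⟩ : ∃ j ∈ S, k' j ≠ 0 := by
        by_contra h8
        push Not at h8
        rw [Finset.sum_eq_zero h8] at h5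
        omega
      have := h3 j hj
      have : c * 1 ≤ c * k' j := Nat.mul_le_mul_left c (by omega)
      omega
    refine ⟨hca, ?_⟩
    have h1 := Nat.mod_add_div (2 * d) c
    have h6 := Nat.mod_lt (2 * d) hc0
    obtain ⟨k, S, e', k', h2, h3, h4, -⟩ := key (2 * d / c) (Nat.div_pos hcn hc0) (by omega)
    have h7 : k = 0 := by
      by_contra h7
      have : a * 1 ≤ a * k := Nat.mul_le_mul_left a (by omega)
      omega
    subst h7
    have h7 : ∀ j ∈ S, e' j = a % c := fun j hj => by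
      have := Finset.single_le_sum (f := e') (fun _ _ => Nat.zero_le _) hj
      rw [← h3 j hj, Nat.add_mul_mod_self_left, Nat.mod_eq_of_lt (by omega)]
    rw [Finset.sum_congr rfl h7, Finset.sum_const, smul_eq_mul, show S.card = t by omega] at h4
    omega
  · rintro ⟨-, h2⟩ T h3 h4 h5
    obtain ⟨k, -, h6, h7⟩ := exists_k hP hrp hsd h3 h4 h5
    refine hsuff T h3 h4 k h7 (le_of_mul_le_mul_left ?_ hc0)
    rw [hn] at h6
    have h8 := mod_le_sub h6
    have : a * t = t * (a % c) + c * (t * (a / c)) := by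
      conv_lhs => rw [← Nat.mod_add_div a c]
      ring
    omega

end Cfsg.Agent.S5961
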