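import Cfsg.Statements.S5962
import Cfsg.Agent.Lib.Elus2.Polar

set_option autoImplicit false
open scoped MatrixGroups
open Cfsg

namespace Cfsg.Agent.S5962

open CfsgLib.Elusive CfsgLib.Elus2 CfsgLib.Forms CfsgLib.MatConj Polynomial

theorem swap_pair {F V : Type*} [Field F] [AddCommGroup V] [Module F V] [FiniteDimensional F V]
    {P : PQ (RingHom.id F) V} (hΛ : P.Λ = ⊤) (hP : P.Nondeg) (h2 : (2 : F) ≠ 0)
    {T : Module.End F V} (hT : Isom P T) (h : T ^ 2 = -1) :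
    ∃ U W, IsCompl U W ∧ P.TS U ∧ P.TS W ∧ U.map T = W ∧ W.map T = U := by
  have key : ∃ U, P.TS U ∧ U ⊔ U.map T = ⊤ := by
    refine nd_induction hP hT (nd_top hP) (inv_top T)
      (fun A _ => ∃ v, A = Submodule.span F {v, T v}) (fun Y => ∃ U, P.TS U ∧ U ⊔ U.map T = Y) ?_
      ⟨⊥, P.ts_bot, by simp⟩ ?_
    · intro Y _ a1 a2 a3
      obtain ⟨v, b1, b2, b3, b4, b5⟩ := alt_block_neg_one hΛ h2 hT h a1 a2 a3
      exact ⟨_, span_pair_le b1 (a2 v b1), fun h => by rw [h, finrank_bot] at b4; omega, b3, b5,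
        v, rfl⟩
    · rintro _ Y - - - ⟨v, rfl⟩ - - a1 ⟨U, a2, rfl⟩
      refine ⟨Submodule.span F {v} ⊔ U, (P.ts_span_singleton (alt_sing hΛ v)).sup a2
        (le_sup_left.trans (a1.trans (P.perp_anti (Submodule.span_mono (by simp))))), ?_⟩
      rw [Submodule.map_sup, sup_sup_sup_comm, Submodule.map_span, Set.image_singleton,
        Submodule.span_insert]
  obtain ⟨U, h3, h4⟩ := key
  refine ⟨U, U.map T, isCompl_of_sup h4 ?_, h3, h3.map hT, rfl, ?_⟩
  · have := h3.two_mul_finrank_le hP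
    have := (h3.map hT).two_mul_finrank_le hP
    omega
  · rw [← Submodule.map_comp, ← Module.End.mul_eq_comp, ← sq, h, map_neg_eq, Module.End.one_eq_id,
      Submodule.map_id]


/-- Involutions of PSp_n(q), q odd, and the subgroups GL_{n/2}(q).2. Here `T = PSp_n(q)`, `n = 2d ≥ 4`, `q` odd, realised through the symplectic matrices over the field `F` with `q` elements; Ω is the set of unordered pairs `{U, W}` of complementary totally isotropic `d`-spaces (`F^n = U ⊕ W`), whose stabilizers are the subgroups of type GL_d(q).2 (maximal except in some small cases; maximality is not assumed); an element of `T` of prime order `r` (a symplectic matrix `x` with `x^r` scalar, `x` not scalar) fixes such a pair when it fixes or interchanges `U` and `W`. If the number of such pairs is even, every involution of `T` fixes one of them (the action is 2-elusive). -/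
theorem result {F : Type*} [Field F] [Fintype F] {p : ℕ} [Fact p.Prime] [CharP F p] {q : ℕ} (hq : Fintype.card F = q)
    (d : ℕ) (hd : 2 ≤ d) (hT : (d, q) ≠ (2, 2)) (hodd : Odd q)
    (hΩ : 2 ∣ Nat.card {P : Submodule F (Fin d ⊕ Fin d → F) × Submodule F (Fin d ⊕ Fin d → F) // IsCompl P.1 P.2 ∧ (∀ u ∈ P.1, ∀ v ∈ P.1, Cfsg.sympForm d F u v = 0) ∧ (∀ u ∈ P.2, ∀ v ∈ P.2, Cfsg.sympForm d F u v = 0)} / 2)
    (x : ↥(Matrix.symplecticGroup (Fin d) F))
    (hx1 : ∃ z : F, ((x ^ 2 : ↥(Matrix.symplecticGroup (Fin d) F)) : Matrix (Fin d ⊕ Fin d) (Fin d ⊕ Fin d) F) = z • (1 : Matrix (Fin d ⊕ Fin d) (Fin d ⊕ Fin d) F))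
    (hx2 : ∀ z : F, (x : Matrix (Fin d ⊕ Fin d) (Fin d ⊕ Fin d) F) ≠ z • (1 : Matrix (Fin d ⊕ Fin d) (Fin d ⊕ Fin d) F)) :
    ∃ U W : Submodule F (Fin d ⊕ Fin d → F), IsCompl U W ∧ (∀ u ∈ U, ∀ v ∈ U, Cfsg.sympForm d F u v = 0) ∧ (∀ u ∈ W, ∀ v ∈ W, Cfsg.sympForm d F u v = 0) ∧
        ((U.map (Matrix.toLin' (x : Matrix (Fin d ⊕ Fin d) (Fin d ⊕ Fin d) F)) = U ∧ W.map (Matrix.toLin' (x : Matrix (Fin d ⊕ Fin d) (Fin d ⊕ Fin d) F)) = W) ∨
         (U.map (Matrix.toLin' (x : Matrix (Fin d ⊕ Fin d) (Fin d ⊕ Fin d) F)) = W ∧ W.map (Matrix.toLin' (x : Matrix (Fin d ⊕ Fin d) (Fin d ⊕ Fin d) F)) = U)) := by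
  subst hq
  have hP := spPQ_nondeg (Fin d) F
  have hΛ := spPQ_Λ (Fin d) F
  have hp : 2 ≠ p := by
    rintro rfl
    exact (Nat.not_even_iff_odd.2 hodd) (even_iff_two_dvd.2 char_dvd_card)
  have h2 := two_ne_zero_of_ne (F := F) hp
  simp only [sp_ts_iff]
  refine (forall_sp_iff 2 fun T => ∃ U W : Submodule F (Fin d ⊕ Fin d → F), IsCompl U W ∧
    (spPQ (Fin d) F).TS U ∧ (spPQ (Fin d) F).TS W ∧
    ((U.map T = U ∧ W.map T = W) ∨ (U.map T = W ∧ W.map T = U))).2 (fun T hT hT' => ?_) x hx1 hx2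
  rcases isPE_cases hP hT hT' with h | h
  · obtain ⟨a1, a2⟩ := nd_fix_invol hP h2 hT h
    obtain ⟨U, W, b1, b2, b3, b4, b5⟩ := pair_of_invol hP h2 hT h (alt_plus hΛ hP a1)
      (alt_plus hΛ hP a2)
    exact ⟨U, W, b1, b2, b3, Or.inl ⟨b4.map_eq (hT.injective hP), b5.map_eq (hT.injective hP)⟩⟩
  · obtain ⟨U, W, b1, b2, b3, b4⟩ := swap_pair hΛ hP h2 hT h
    exact ⟨U, W, b1, b2, b3, Or.inr b4⟩

end Cfsg.Agent.S5962
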