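import Cfsg.Statements.S5963
import Cfsg.Agent.Lib.Elus2.Polar

set_option autoImplicit false
open scoped MatrixGroups
open Cfsg

namespace Cfsg.Agent.S5963

open CfsgLib.Elusive CfsgLib.Elus2 CfsgLib.Forms CfsgLib.MatConj Polynomial


/-- Derangements of odd prime order of PSp_n(q), q odd, on pairs of complementary totally isotropic subspaces. Here `T = PSp_n(q)`, `n = 2d ≥ 4`, `q` odd, realised through the symplectic matrices over the field `F` with `q` elements; Ω is the set of unordered pairs `{U, W}` of complementary totally isotropic `d`-spaces (`F^n = U ⊕ W`), whose stabilizers are the subgroups of type GL_d(q).2 (maximal except in some small cases; maximality is not assumed); an element of `T` of prime order `r` (a symplectic matrix `x` with `x^r` scalar, `x` not scalar) fixes such a pair when it fixes or interchanges `U` and `W`. For every odd prime `r ≠ p` dividing the number of such pairs, some element of `T` of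 order `r` fixes no such pair (the action is never `r`-elusive for odd `r ≠ p`). -/
theorem result {F : Type*} [Field F] [Fintype F] {p : ℕ} [Fact p.Prime] [CharP F p] {q : ℕ} (hq : Fintype.card F = q)
    (d : ℕ) (hd : 2 ≤ d) (hT : (d, q) ≠ (2, 2)) (hodd : Odd q)
    (r : ℕ) [Fact r.Prime] (hr2 : r ≠ 2) (hrp : r ≠ p) (hΩ : r ∣ Nat.card {P : Submodule F (Fin d ⊕ Fin d → F) × Submodule F (Fin d ⊕ Fin d → F) // IsCompl P.1 P.2 ∧ (∀ u ∈ P.1, ∀ v ∈ P.1, Cfsg.sympForm d F u v = 0) ∧ (∀ u ∈ P.2, ∀ v ∈ P.2, Cfsg.sympForm d F u v = 0)} / 2) :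
    ∃ x : ↥(Matrix.symplecticGroup (Fin d) F),
      (∃ z : F, ((x ^ r : ↥(Matrix.symplecticGroup (Fin d) F)) : Matrix (Fin d ⊕ Fin d) (Fin d ⊕ Fin d) F) = z • (1 : Matrix (Fin d ⊕ Fin d) (Fin d ⊕ Fin d) F)) ∧
      (∀ z : F, (x : Matrix (Fin d ⊕ Fin d) (Fin d ⊕ Fin d) F) ≠ z • (1 : Matrix (Fin d ⊕ Fin d) (Fin d ⊕ Fin d) F)) ∧
      ¬ (∃ U W : Submodule F (Fin d ⊕ Fin d → F), IsCompl U W ∧ (∀ u ∈ U, ∀ v ∈ U, Cfsg.sympForm d F u v = 0) ∧ (∀ u ∈ W, ∀ v ∈ W, Cfsg.sympForm d F u v = 0) ∧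
        ((U.map (Matrix.toLin' (x : Matrix (Fin d ⊕ Fin d) (Fin d ⊕ Fin d) F)) = U ∧ W.map (Matrix.toLin' (x : Matrix (Fin d ⊕ Fin d) (Fin d ⊕ Fin d) F)) = W) ∨
         (U.map (Matrix.toLin' (x : Matrix (Fin d ⊕ Fin d) (Fin d ⊕ Fin d) F)) = W ∧ W.map (Matrix.toLin' (x : Matrix (Fin d ⊕ Fin d) (Fin d ⊕ Fin d) F)) = U))) := by
  subst hq
  have hP := spPQ_nondeg (Fin d) F
  have hΛ := spPQ_Λ (Fin d) F
  have hn := finrank_sum_fun F d
  have hr : r.Prime := Fact.out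
  simp only [sp_ts_iff] at hΩ ⊢
  have hne : ∀ U : Submodule F (Fin d ⊕ Fin d → F), ¬ IsCompl U U := fun U h => by
    have h1 := Submodule.finrank_add_eq_of_isCompl h
    rw [disjoint_self.1 h.disjoint, finrank_bot] at h1
    omega
  have h1 := dvd_of_dvd_div (two_dvd_card_swap _ (fun a ha => ⟨ha.1.symm, ha.2.2, ha.2.1⟩)
    fun a ha h => hne a.2 (by have := ha.1; rwa [h] at this)) hΩ
  obtain ⟨U, W, a1, a2, a3, a4, a5⟩ := Plus.exists_pair hP (nd_top hP) (alt_plus hΛ hP (nd_top hP))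
  rw [finrank_top] at a4 a5
  have h2 := card_pairs_mul_dvd hP (isCompl_of_sup a3 (by omega)) a1 a2
  rw [card_linearEquiv, alt_card_isom hΛ hP hn, spo_eq_glo_mul Fintype.card_pos,
    show Module.finrank F U = d by omega] at h2
  obtain ⟨j, h3, h4⟩ := (Prime.dvd_finsetProd_iff hr.prime _).1
    (prime_dvd_of_mul_dvd hr (not_dvd_card hrp) (glo_ne_zero Fintype.one_lt_card _) h2 h1)
  rw [dvd_pow_add_one_iff, pow_eq_neg_one_iff hr2, dvd_two_mul_not_dvd_iff (ord_pos hrp)] at h4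
  have h5 := Nat.le_of_dvd (by omega) h4.2.1
  rw [Finset.mem_range] at h3
  have hsd := sdData_id hrp hr2 rfl (if_pos h4.1).symm
  obtain ⟨f, hf⟩ := exists_mem_cyc (F := F) hrp
  have h6 : ∀ g ∈ ({f} : Multiset F[X]), g ∈ cyc F r := by simpa using hf
  obtain ⟨T, b1, b2⟩ := alt_exists_ss' hΛ hP hrp hr2 rfl (if_pos h4.1).symm 1 {f} (by omega) h6
    (by simp [(hsd.sd_iff f hf).2 h4.1]) (by simp)
  obtain ⟨b3, b4, -⟩ := exists_of_ed hP hrp hsd b1 h6 le_rfl (by simp) b2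
  by_contra hc
  push Not at hc
  obtain ⟨U, W, c1, c2, c3, c4⟩ := (forall_sp_iff r fun T => ∃ U W : Submodule F (Fin d ⊕ Fin d → F),
    IsCompl U W ∧ (spPQ (Fin d) F).TS U ∧ (spPQ (Fin d) F).TS W ∧
    ((U.map T = U ∧ W.map T = W) ∨ (U.map T = W ∧ W.map T = U))).1 hc T b1
      (isPE_of_odd hP b1 (hr.odd_of_ne_two hr2) b3 b4)
  rcases c4 with ⟨c4, c5⟩ | ⟨c4, c5⟩
  · have h7 := ed_of_pair hP b1 c1 c2 c3 (inv_iff_map_le.2 c4.le) (inv_iff_map_le.2 c5.le)
    obtain ⟨e, t, h8, h9⟩ := edOn_ssEd hrp b3 U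
    rw [b2, h9, dl_ssEd, ← ssEd_add] at h7
    have h10 := congrArg Multiset.card (ssEd_inj hrp h6 (fun g hg => by
      rcases Multiset.mem_add.1 hg with hg | hg
      · exact h8 g hg
      · obtain ⟨g', hg', rfl⟩ := Multiset.mem_map.1 hg
        exact tilde_mem_cyc (fun _ => rfl) (h8 g' hg') hrp) h7).2
    simp only [Multiset.card_singleton, Multiset.card_add, Multiset.card_map] at h10
    omega
  · obtain rfl := eq_of_swap_odd (hr.odd_of_ne_two hr2) one_ne_zero (b3.trans (one_smul _ _).symm)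
      c4 c5
    exact hne U c1

end Cfsg.Agent.S5963
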