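import Cfsg.Statements.S5964
import Cfsg.Agent.Lib.ElusH.Subfield

set_option autoImplicit false
open scoped MatrixGroups
open Cfsg

namespace Cfsg.Agent.S5964

open CfsgLib.ElusH CfsgLib.Elusive CfsgLib.MatConj Matrix Polynomial


/-- Involutions of PSL_n(q) and subfield subgroups. Here `T = PSL_n(F)` for a field `F` with `q = p^f` elements (`n ≥ 2`, `(n, q) ≠ (2, 2), (2, 3)`), `F₀` is the subfield with `q₀` elements where `q = q₀^k` for a prime `k`, and `H` is the subgroup of matrices of determinant 1 lying in the subfield group of `F₀` (invertible matrices over `F₀` times scalars) — a maximal subgroup of type GL_n(q₀) (the case `n = 2`, `q₀ = 2` is excluded); Ω is the set of `T`-conjugates of `H` (cosets of `H`), so an element of `T` of prime order `r` (a matrix `x` of determinant 1 with `x^r` scalar, `x` not scalar) fixes a point of Ω when some conjugate of `x` by a matrix of determinant 1 lies in `H`. Suppose the index of `H` is even. Then every involution of `T` is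 conjugate in `T` into `H` if and only if either `q` is even, or `k = 2` and `(n)_2 ≤ (q − 1)_2`. (For `q` odd and `k` odd the index of `H` is odd, so that case does not arise.) -/
theorem result {F : Type*} [Field F] [Fintype F] {p : ℕ} [Fact p.Prime] [CharP F p] {q : ℕ} (hq : Fintype.card F = q)
    (n : ℕ) (hn : 2 ≤ n) (hT : (n, q) ≠ (2, 2) ∧ (n, q) ≠ (2, 3))
    (F₀ : Subfield F) (k q₀ : ℕ) (hk : k.Prime) (hF₀ : Nat.card ↥F₀ = q₀) (hqk : q = q₀ ^ k) (hC5 : ¬ (n = 2 ∧ q₀ = 2)) (hΩ : 2 ∣ ((Cfsg.Geo.subfieldSubgroup F₀ 1).comap (Matrix.SpecialLinearGroup.toGL : Matrix.SpecialLinearGroup (Fin n) F →* GL (Fin n) F)).index) :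
    (∀ x : Matrix.SpecialLinearGroup (Fin n) F,
      (∃ z : F, ((x ^ 2 : Matrix.SpecialLinearGroup (Fin n) F) : Matrix (Fin n) (Fin n) F) = z • (1 : Matrix (Fin n) (Fin n) F)) →
      (∀ z : F, (x : Matrix (Fin n) (Fin n) F) ≠ z • (1 : Matrix (Fin n) (Fin n) F)) →
      ∃ P : Matrix.SpecialLinearGroup (Fin n) F, P⁻¹ * x * P ∈ ((Cfsg.Geo.subfieldSubgroup F₀ 1).comap (Matrix.SpecialLinearGroup.toGL : Matrix.SpecialLinearGroup (Fin n) F →* GL (Fin n) F))) ↔
    (Odd q → (k = 2 ∧ padicValNat 2 n ≤ padicValNat 2 (q - 1))) := by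
  classical
  haveI : Fact (Nat.Prime 2) := ⟨Nat.prime_two⟩
  haveI : Nonempty (Fin n) := ⟨⟨0, by omega⟩⟩
  subst hq hF₀
  rw [index_comap_toGL] at hΩ
  rw [forall_SL_iff_elu, elu_SL_iff (p := p) _ (Or.inr rfl)]
  have h4 : Odd (Fintype.card F) → k = 2 → Fintype.card F % 4 = 1 := by
    rintro ho rfl
    rw [hqk] at ho ⊢
    obtain ⟨m, hm⟩ := (Nat.odd_pow_iff (by norm_num)).1 ho
    rw [hm]
    have : (2 * m + 1) ^ 2 = 4 * (m * (m + 1)) + 1 := by ring
    omega
  constructor
  · intro H ho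
    have hp : 2 ≠ p := by
      rintro rfl
      exact (Nat.not_even_iff_odd.2 ho) (even_iff_two_dvd.2 (char_dvd_card (F := F) (p := 2)))
    have hk2 : k = 2 := by
      obtain ⟨j, -, -, -, h⟩ := exists_of_dvd_subfield_index hp hqk hΩ
      have h1 : Odd (Nat.card F₀) := by
        rw [hqk] at ho
        exact (Nat.odd_pow_iff hk.ne_zero).1 ho
      exact ((Nat.prime_dvd_prime_iff_eq Nat.prime_two hk).1
        (h (by rw [(ZMod.natCast_eq_one_iff_odd).2 h1, one_pow]))).symm
    refine ⟨hk2, ?_⟩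
    by_contra hlt
    obtain ⟨A, z, h1, h2, h3, h5⟩ := exists_nonsplit_mat (F := F) (ι := Fin n) (r := 2)
      (by obtain ⟨m, hm⟩ := ho; omega) fun h => hlt (by simpa using h.1)
    obtain ⟨c, B, hc, e⟩ := (ci_subfield_iff (by rw [h1]; exact one_ne_zero)).1 (H A h1 h2)
    obtain ⟨s, hs⟩ := isSquare_of_mem ho (hk2 ▸ hqk)
      (pow_mem_of_smul_map hc (pow_eq_of_isConj e h3))
    refine h5 (s * c) ?_
    rw [div_eq_iff (pow_ne_zero _ hc)] at hs
    rw [hs]; ring
  · intro H A hA hP
    by_cases hp : p = 2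
    · subst hp
      obtain ⟨b, hb, h⟩ := hP.split (by rw [hA]; exact one_ne_zero) char_not_dvd_sub_one
      exact (ci_subfield_unip (isNilpotent_of_pow_char h)).of_smul scalars_le_subfield hb
    · have ho : Odd (Fintype.card F) := by
        rw [← Nat.not_even_iff_odd, even_iff_two_dvd]
        exact not_dvd_card (Ne.symm hp)
      obtain ⟨h1, h2⟩ := H ho
      obtain ⟨b, hb, h⟩ := noNS_split hP hA ⟨by simpa using h2, fun _ _ => h4 ho h1⟩
      refine (ci_subfield_of_ord (Ne.symm hp) ?_ h).of_smul scalars_le_subfield hb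
      have h1 : Odd (Nat.card F₀) := by
        rw [hqk] at ho
        exact (Nat.odd_pow_iff hk.ne_zero).1 ho
      rw [(ZMod.natCast_eq_one_iff_odd).2 h1, (ZMod.natCast_eq_one_iff_odd).2 ho]

end Cfsg.Agent.S5964
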