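import Cfsg.Statements.S5965
import Cfsg.Agent.Lib.ElusH.Subfield

set_option autoImplicit false
open scoped MatrixGroups
open Cfsg

namespace Cfsg.Agent.S5965

open CfsgLib.ElusH CfsgLib.Elusive CfsgLib.MatConj Matrix Polynomial


/-- Elements of odd prime order r ≠ p of PSL_n(q) and subfield subgroups. Here `T = PSL_n(F)` for a field `F` with `q = p^f` elements (`n ≥ 2`, `(n, q) ≠ (2, 2), (2, 3)`), `F₀` is the subfield with `q₀` elements where `q = q₀^k` for a prime `k`, and `H` is the subgroup of matrices of determinant 1 lying in the subfield group of `F₀` (invertible matrices over `F₀` times scalars) — a maximal subgroup of type GL_n(q₀) (the case `n = 2`, `q₀ = 2` is excluded); Ω is the set of `T`-conjugates of `H` (cosets of `H`), so an element of `T` of prime order `r` (a matrix `x` of determinant 1 with `x^r` scalar, `x` not scalar) fixes a point of Ω when some conjugate of `x` by a matrix of determinant 1 lies in `H`. Let `r ≠ p` be an odd prime dividing the index of `H`, with `(n, r)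 ≠ (6, 3)` and, when `r = k` divides `q₀ − 1`, with `(n)_r ≤ (q − 1)_r`. Then every element of `T` of order `r` is conjugate in `T` into `H` if and only if `r = k`, or `k = 2`, `r = n ∈ {3, 5}` and `(q₀ + 1)_r = r`. The two excluded cases, `(n, r) = (6, 3)` and `r = k ∣ q₀ − 1` with `(n)_r > (q − 1)_r`, are ones where this criterion can fail, so they are left out. -/
theorem result {F : Type*} [Field F] [Fintype F] {p : ℕ} [Fact p.Prime] [CharP F p] {q : ℕ} (hq : Fintype.card F = q)
    (n : ℕ) (hn : 2 ≤ n) (hT : (n, q) ≠ (2, 2) ∧ (n, q) ≠ (2, 3))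
    (F₀ : Subfield F) (k q₀ : ℕ) (hk : k.Prime) (hF₀ : Nat.card ↥F₀ = q₀) (hqk : q = q₀ ^ k) (hC5 : ¬ (n = 2 ∧ q₀ = 2)) (r : ℕ) [Fact r.Prime] (hr2 : r ≠ 2) (hrp : r ≠ p) (hgap : ¬ (n = 6 ∧ r = 3)) (hgapk : r = k → r ∣ q₀ - 1 → padicValNat r n ≤ padicValNat r (q - 1)) (hΩ : r ∣ ((Cfsg.Geo.subfieldSubgroup F₀ 1).comap (Matrix.SpecialLinearGroup.toGL : Matrix.SpecialLinearGroup (Fin n) F →* GL (Fin n) F)).index) :
    (∀ x : Matrix.SpecialLinearGroup (Fin n) F,
      (∃ z : F, ((x ^ r : Matrix.SpecialLinearGroup (Fin n) F) : Matrix (Fin n) (Fin n) F) = z • (1 : Matrix (Fin n) (Fin n) F)) →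
      (∀ z : F, (x : Matrix (Fin n) (Fin n) F) ≠ z • (1 : Matrix (Fin n) (Fin n) F)) →
      ∃ P : Matrix.SpecialLinearGroup (Fin n) F, P⁻¹ * x * P ∈ ((Cfsg.Geo.subfieldSubgroup F₀ 1).comap (Matrix.SpecialLinearGroup.toGL : Matrix.SpecialLinearGroup (Fin n) F →* GL (Fin n) F))) ↔
    (r = k ∨ (k = 2 ∧ r = n ∧ (n = 3 ∨ n = 5) ∧ padicValNat r (q₀ + 1) = 1)) := by
  classical
  haveI : Nonempty (Fin n) := ⟨⟨0, by omega⟩⟩
  haveI := Fintype.ofFinite F₀
  subst hq hF₀
  rw [index_comap_toGL] at hΩ
  rw [forall_SL_iff_elu, elu_SL_iff (p := p) _ (Or.inl hrp)]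
  have hr : r.Prime := Fact.out
  set q₀ := Nat.card F₀ with hq₀
  have hq1 : 1 < q₀ := Finite.one_lt_card
  have hc : (Fintype.card F : ZMod r) = (q₀ : ZMod r) ^ k := by rw [hqk]; push_cast; rfl
  have hsq : k = 2 → ¬ r ∣ q₀ - 1 →
      padicValNat r (Fintype.card F - 1) = padicValNat r (q₀ + 1) := by
    rintro rfl h
    rw [hqk, CfsgLib.Classical.sl_sq_sub_one, padicValNat.mul (by omega) (by omega),
      padicValNat.eq_zero_of_not_dvd h, zero_add]
  constructor
  · intro H
    by_contra hcon
    rw [not_or] at hcon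
    obtain ⟨j, h1, h2, h3, h4⟩ := exists_of_dvd_subfield_index hrp hqk hΩ
    have h5 : ¬ (q₀ : ZMod r) ^ j = 1 := fun h =>
      hcon.1 ((Nat.prime_dvd_prime_iff_eq hr hk).1 (h4 h))
    by_cases hi : r ∣ Fintype.card F - 1
    · have h6 : ¬ r ∣ q₀ - 1 := fun h => h5 (by
        rw [orderOf_eq_one_iff.1 ((orderOf_eq_one_iff_dvd (by omega)).2 h), one_pow])
      have h7 : (q₀ : ZMod r) ^ k = 1 := by
        rw [← hc]; exact orderOf_eq_one_iff.1 (ord_eq_one_iff.2 hi)
      have h8 : orderOf (q₀ : ZMod r) = k := by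
        haveI := Fact.mk hk
        exact orderOf_eq_prime h7 fun h => h5 (by rw [h, one_pow])
      by_cases hn2 : n = 2
      · subst hn2
        obtain rfl : j = 2 := by omega
        obtain ⟨ω, ho, hω, hωr⟩ := exists_root hi
        have hω0 : ω ≠ 0 := by
          rintro rfl
          rw [zero_pow hr.ne_zero] at hωr
          exact zero_ne_one hωr
        have hω2 : orderOf (ω ^ 2) = r := by
          rw [Nat.Coprime.orderOf_pow (by
            rw [ho]; exact (Nat.coprime_primes hr Nat.prime_two).2 hr2), ho]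
        have hne : ω ≠ ω⁻¹ := fun h => by
          have : ω ^ 2 = 1 := by rw [pow_two]; nth_rw 2 [h]; exact mul_inv_cancel₀ hω0
          rw [this, orderOf_one] at hω2
          exact hr.one_lt.ne hω2
        obtain ⟨A, hA, hrk, hAr⟩ := exists_diag (ι := Fin 2) (r := r) (z := 1) {ω, ω⁻¹} (by simp)
          (by simp [hωr])
        have hA' : A.det = 1 := by simpa [hω0] using hA
        have r1 : rk A ω = 1 := by have := hrk ω; simp [hne] at this; omega
        have r2 : rk A ω⁻¹ = 1 := by have := hrk ω⁻¹; simp [hne.symm] at this; omega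
        have r3 : ∀ a, rk A a = 1 → a = ω ∨ a = ω⁻¹ := fun a ha => by
          have := hrk a
          have : 0 < Multiset.count a {ω, ω⁻¹} := by simp only [Fintype.card_fin] at this; omega
          simpa using Multiset.count_pos.1 this
        obtain ⟨c, hc0, hτ⟩ := exists_tau_subfield (p := p) (H A hA'
          ⟨⟨1, hAr⟩, not_scalar_of_rk hne (by simp [r1]) (by simp [r2])⟩)
        have t1 := r3 _ ((hτ ω).trans r1)
        have t2 := r3 _ ((hτ ω⁻¹).trans r2)
        have t3 : (ω ^ 2) ^ q₀ * (c * (ω⁻¹ / c) ^ q₀) = c * (ω / c) ^ q₀ := by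
          rw [mul_left_comm, ← mul_pow]
          congr 2
          field_simp
        have key : (ω ^ 2) ^ q₀ = ω ^ 2 ∨ (ω ^ 2) ^ q₀ = (ω ^ 2)⁻¹ ∨ (ω ^ 2) ^ q₀ = 1 := by
          rw [← hq₀] at t1 t2
          generalize (ω ^ 2) ^ q₀ = η at t3
          rcases t1 with t1 | t1 <;> rcases t2 with t2 | t2 <;> rw [t1, t2] at t3 <;>
            field_simp at t3
          · exact Or.inr (Or.inr t3)
          · exact Or.inl t3
          · exact Or.inr (Or.inl (eq_inv_of_mul_eq_one_left t3))
          · exact Or.inr (Or.inr t3)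
        have fin : (ω ^ 2) ^ q₀ ^ 2 = ω ^ 2 → False := fun h => by
          apply h5
          rw [← orderOf_dvd_iff_pow_eq_one, ← dvd_pow_sub_one_iff (by omega), ← hω2,
            orderOf_dvd_iff_pow_eq_one]
          apply mul_right_cancel₀ (pow_ne_zero 2 hω0)
          rw [← pow_succ, Nat.sub_add_cancel (Nat.one_le_pow _ _ (by omega)), h, one_mul]
        rcases key with h | h | h
        · exact fin (by rw [pow_two q₀, pow_mul, h, h])
        · exact fin (by rw [pow_two q₀, pow_mul, h, inv_pow, h, inv_inv])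
        · rw [← orderOf_dvd_iff_pow_eq_one, hω2, hq₀, Nat.card_eq_fintype_card] at h
          exact not_dvd_card hrp h
      · obtain ⟨A, b, ω, hA⟩ := exists_bad (F := F) (ι := Fin n) hr2 hi (by simp; omega)
          (by simpa using hgap) (by
            rintro ⟨i1, i2, i3⟩
            rw [Fintype.card_fin] at i2
            have hk2 : k = 2 := by
              have := orderOf_dvd_sub_one (r := r) (q := q₀) (by
                rw [hq₀, Nat.card_eq_fintype_card]; exact not_dvd_card hrp)
              rw [h8] at this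
              rcases i1 with rfl | rfl
              · exact (Nat.prime_dvd_prime_iff_eq hk Nat.prime_two).1 this
              · exact (Nat.prime_dvd_prime_iff_eq hk Nat.prime_two).1
                  (hk.dvd_of_dvd_pow (n := 2) this)
            exact hcon.2 ⟨hk2, i2.symm, i2 ▸ i1, by rw [← hsq hk2 h6, i3]⟩)
        exact hA.not_ci_subfield (p := p) h6 (H A hA.det hA.pe)
    · obtain ⟨A, f, -, -, i1, i2, i3, i4⟩ := exists_one_block (ι := Fin n) hrp hi (by
        rw [Fintype.card_fin]
        exact (Nat.le_of_dvd (by omega) (orderOf_dvd_of_pow_eq_one h3)).trans h2)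
      have := ord_dvd_of_ci_subfield hrp hi i1 (H A i2 i3)
      rw [i4] at this
      exact h5 (orderOf_dvd_iff_pow_eq_one.1 (this.trans (orderOf_dvd_of_pow_eq_one h3)))
  · rintro (rfl | ⟨rfl, rfl, h1, h2⟩) A hA hP
    · rw [ZMod.pow_card] at hc
      obtain ⟨b, hb, h⟩ : ∃ b : F, b ≠ 0 ∧ (b • A) ^ r = 1 := by
        by_cases hi : r ∣ Fintype.card F - 1
        · refine noNS_split hP hA ⟨?_, fun h => absurd h hr2⟩
          rw [Fintype.card_fin]
          refine hgapk rfl ((orderOf_eq_one_iff_dvd (by omega)).1 ?_)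
          rw [← hc]; exact ord_eq_one_iff.2 hi
        · exact hP.split (by rw [hA]; exact one_ne_zero) hi
      exact (ci_subfield_of_ord hrp (by rw [hc]) h).of_smul scalars_le_subfield hb
    · have h3 : r ∣ q₀ + 1 := dvd_of_one_le_padicValNat h2.ge
      have h4 : ¬ r ∣ q₀ - 1 := fun h => by
        have := Nat.dvd_sub h3 h
        rw [show q₀ + 1 - (q₀ - 1) = 2 by omega] at this
        exact hr2 ((Nat.prime_dvd_prime_iff_eq hr Nat.prime_two).1 this)
      obtain ⟨c, d, hc0, hd, e, hs⟩ := exc_symm hrp h1 (by rw [hsq rfl h4, h2]) hA hP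
      refine CI.of_smul scalars_le_subfield hc0 (CI.of_isConj e ?_)
      refine ci_subfield_semi (p := p) (cast_ne_zero hrp) (by simpa using diagonal_pow_eq hd) ?_
      obtain ⟨φ, hφ⟩ := exists_frob_subfield p F₀
      refine mem_lifts_of_map_eq hφ ?_
      rw [charpoly_diagonal', Polynomial.map_multiset_prod]
      conv_rhs => rw [hs]
      simp only [Multiset.map_map, Function.comp, Polynomial.map_sub, map_X, map_C, hφ]
      congr 1
      refine Multiset.map_congr rfl fun i _ => ?_
      obtain ⟨m, hm⟩ := h3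
      congr 2
      refine eq_inv_of_mul_eq_one_left ?_
      rw [← pow_succ, hm, pow_mul, hd, one_pow]

end Cfsg.Agent.S5965
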