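import Cfsg.Statements.S5966
import Cfsg.Agent.Lib.ElusH.Subfield

set_option autoImplicit false
open scoped MatrixGroups
open Cfsg

namespace Cfsg.Agent.S5966

open CfsgLib.ElusH CfsgLib.Elusive CfsgLib.MatConj Matrix Polynomial


/-- Elements of order 3 of PSL_n(q) in characteristic 3 and subfield subgroups. Here `T = PSL_n(F)` for a field `F` with `q` elements, `q` a power of 3 (`n ≥ 2`, `(n, q) ≠ (2, 2), (2, 3)`), `F₀` is the subfield with `q₀` elements where `q = q₀^k` for a prime `k`, and `H` is the subgroup of matrices of determinant 1 lying in the subfield group of `F₀` (invertible matrices over `F₀` times scalars) — a maximal subgroup of type GL_n(q₀) (the case `n = 2`, `q₀ = 2` is excluded); Ω is the set of `T`-conjugates of `H` (cosets of `H`), so an element of `T` of prime order `r` (a matrix `x` of determinant 1 with `x^r` scalar, `x` not scalar) fixes a point of Ω when some conjugate of `x` by a matrix of determinant 1 lies in `H`. Suppose 3 divides the index of `H`.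 Then every element of `T` of order 3 is conjugate in `T` into `H` if and only if `n` is odd, or `n` is even and `k > 2`. -/
theorem result {F : Type*} [Field F] [Fintype F] [CharP F 3] {q : ℕ} (hq : Fintype.card F = q)
    (n : ℕ) (hn : 2 ≤ n) (hT : (n, q) ≠ (2, 3))
    (F₀ : Subfield F) (k q₀ : ℕ) (hk : k.Prime) (hF₀ : Nat.card ↥F₀ = q₀) (hqk : q = q₀ ^ k) (hC5 : ¬ (n = 2 ∧ q₀ = 2)) (hΩ : 3 ∣ ((Cfsg.Geo.subfieldSubgroup F₀ 1).comap (Matrix.SpecialLinearGroup.toGL : Matrix.SpecialLinearGroup (Fin n) F →* GL (Fin n) F)).index) :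
    (∀ x : Matrix.SpecialLinearGroup (Fin n) F,
      (∃ z : F, ((x ^ 3 : Matrix.SpecialLinearGroup (Fin n) F) : Matrix (Fin n) (Fin n) F) = z • (1 : Matrix (Fin n) (Fin n) F)) →
      (∀ z : F, (x : Matrix (Fin n) (Fin n) F) ≠ z • (1 : Matrix (Fin n) (Fin n) F)) →
      ∃ P : Matrix.SpecialLinearGroup (Fin n) F, P⁻¹ * x * P ∈ ((Cfsg.Geo.subfieldSubgroup F₀ 1).comap (Matrix.SpecialLinearGroup.toGL : Matrix.SpecialLinearGroup (Fin n) F →* GL (Fin n) F))) ↔
    (Odd n ∨ (Even n ∧ 2 < k)) := by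
  classical
  haveI : Fact (Nat.Prime 3) := ⟨Nat.prime_three⟩
  haveI : Nonempty (Fin n) := ⟨⟨0, by omega⟩⟩
  haveI := Fintype.ofFinite F₀
  subst hq hF₀
  rw [forall_SL_iff_elu]
  have ho : Odd (Fintype.card F) := by
    rw [← Nat.not_even_iff_odd, even_iff_two_dvd]
    exact not_dvd_card (p := 3) (r := 2) (by norm_num)
  have hc' : ringChar F ≠ 2 := fun h => by
    have := FiniteField.even_card_iff_char_two.1 h
    rw [Nat.odd_iff] at ho; omega
  have h3 : ¬ 3 ∣ Fintype.card F - 1 := char_not_dvd_sub_one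
  constructor
  · intro H
    by_contra hcon
    rw [not_or, Nat.not_odd_iff_even] at hcon
    have hk2 : k = 2 := by have := hk.two_le; by_contra h; exact hcon.2 ⟨hcon.1, by omega⟩
    subst hk2
    obtain ⟨m, hm⟩ := hcon.1
    let e : Fin m ⊕ Fin m ≃ Fin n := finSumFinEquiv.trans (finCongr hm.symm)
    let u₀ : Matrix (Fin n) (Fin n) F₀ := reindex e e (fromBlocks 1 1 0 1)
    have hu : u₀.map F₀.subtype = reindex e e (fromBlocks 1 1 0 1) := by
      simp [u₀, ← submatrix_map, fromBlocks_map]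
    have hu0 : (u₀ - 1) ^ 2 = 0 := by
      have : u₀ - 1 = reindexAlgEquiv F₀ F₀ e (fromBlocks 0 1 0 0) := by
        rw [← map_one (reindexAlgEquiv F₀ F₀ e), ← fromBlocks_one, sub_eq_iff_eq_add, ← map_add,
          fromBlocks_add]
        simp [u₀]
      rw [this, ← map_pow, pow_two, fromBlocks_multiply]
      simp
    have hun : IsNilpotent (u₀ - 1) := ⟨2, hu0⟩
    have hu3 : u₀ ^ 3 = 1 := by
      have := sub_one_pow_char_pow (F := F₀) 3 u₀ 1
      rw [pow_one, pow_succ, hu0, zero_mul] at this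
      exact (sub_eq_zero.1 this.symm)
    have hu1 : u₀ ≠ 1 := by
      intro h
      have := congrFun (congrFun h (e (.inl ⟨0, by omega⟩))) (e (.inr ⟨0, by omega⟩))
      simp [u₀] at this
    obtain ⟨δ, hδ⟩ := FiniteField.exists_nonsquare hc'
    have hδ0 : δ ≠ 0 := by rintro rfl; simp at hδ
    obtain ⟨D, -, hD⟩ := det_surj_of_pow_eq_one (A := (1 : Matrix (Fin n) (Fin n) F)) (k := 1)
      (by simp) (by simp) δ
    obtain ⟨D, rfl⟩ := exists_GL (A := D) (hD ▸ hδ0)
    have hud : (u₀.map F₀.subtype).det = 1 :=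
      det_eq_one_of_isNilpotent_sub_one ((isNilpotent_map_iff _).2 hun)
    obtain ⟨U, hU⟩ := exists_GL (A := u₀.map F₀.subtype) (by rw [hud]; exact one_ne_zero)
    have hU3 : (U : Matrix (Fin n) (Fin n) F) ^ 3 = 1 := by rw [hU, ← map_pow', hu3]; simp
    have hUP : PE 3 (U : Matrix (Fin n) (Fin n) F) := pe_of_pow_eq_one h3 hU3 fun h =>
      hu1 (map_inj F₀.subtype (by rw [← hU, h]; simp))
    have hx := hUP.of_isConj (isConj_conj D U)
    obtain ⟨g, hg, hgH⟩ := H (D⁻¹ * U * D) (mem_SL.2 (by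
      rw [← det_eq_of_isConj (isConj_conj D U), hU, hud])) (by simpa using hx.1) hx.2
    have e1 : IsConj (U : Matrix (Fin n) (Fin n) F) (g⁻¹ * (D⁻¹ * U * D) * g : GL (Fin n) F) :=
      (isConj_conj D U).trans (isConj_conj g _)
    obtain ⟨c, B, hc, hB⟩ := mem_subfieldSubgroup_one.1 hgH
    obtain ⟨B', hB'⟩ := exists_map_eq h3 hc (B := B) (hB ▸ pow_eq_one_of_isConj e1 hU3)
    rw [hB'] at hB
    rw [hB, hU] at e1
    have hBn : IsNilpotent (B' - 1) := (isNilpotent_map_iff _).1
      (isNilpotent_sub_one_of_isConj e1 ((isNilpotent_map_iff _).2 hun))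
    have e2 : IsConj B' u₀ := (isConj_iff_jt hBn hun).2 (by
      rw [← jt_map F₀.subtype hBn, ← jt_map F₀.subtype hun, jt_eq_of_isConj e1])
    obtain ⟨P, hP, hPB⟩ := isConj_iff_exists_unit.1 e2
    have hPB' := congrArg (fun M => M.map F₀.subtype) hPB
    simp only [Matrix.map_mul, ← hB, ← hU] at hPB'
    have hcom : Commute (P.map F₀.subtype * (g⁻¹ * D⁻¹ : GL (Fin n) F))
        (U : Matrix (Fin n) (Fin n) F) := by
      have : (g⁻¹ * D⁻¹) * U = (g⁻¹ * (D⁻¹ * U * D) * g) * (g⁻¹ * D⁻¹) := by group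
      rw [Commute, SemiconjBy, mul_assoc, ← Units.val_mul, this, Units.val_mul, ← mul_assoc, hPB',
        mul_assoc]
    rw [hU, hu] at hcom
    have hs := isSquare_det_of_commute e hcom
    have hPs : IsSquare (P.map F₀.subtype).det := by
      have : (P.map F₀.subtype).det = F₀.subtype P.det := (RingHom.map_det _ _).symm
      rw [this]
      exact isSquare_of_mem ho hqk (Subtype.prop _)
    have hP0 : (P.map F₀.subtype).det ≠ 0 := by
      have : (P.map F₀.subtype).det = F₀.subtype P.det := (RingHom.map_det _ _).symm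
      rw [this]
      exact (_root_.map_ne_zero _).2 hP.ne_zero
    apply hδ
    have := hPs.div hs
    simp only [det_mul, Units.val_mul, coe_units_inv, det_nonsing_inv, mem_SL.1 hg, hD,
      Ring.inverse_eq_inv'] at this
    rwa [inv_one, one_mul, div_mul_cancel_left₀ hP0, inv_inv] at this
  · intro H x hx h1 h2
    have hx' := mem_SL.1 hx
    have hP : PE 3 (x : Matrix (Fin n) (Fin n) F) := ⟨by simpa using h1, h2⟩
    obtain ⟨b, hb, h⟩ := hP.split (by rw [hx']; exact one_ne_zero) h3
    have hnil := isNilpotent_of_pow_char h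
    have hcom : ∀ e ∈ jt (b • (x : Matrix (Fin n) (Fin n) F)), ∀ d : F,
        ∃ c : Matrix (Fin n) (Fin n) F, Commute c x ∧ c.det = d ^ e := by
      intro e he d
      obtain ⟨c, hc, hd⟩ := exists_commute_det_pow_jt _ he d
      exact ⟨c, by simpa [smul_smul, inv_mul_cancel₀ hb] using hc.smul_right b⁻¹, hd⟩
    refine exists_SL_of_ci' ((ci_subfield_unip hnil).of_smul scalars_le_subfield hb) fun d hd => ?_
    by_cases h2 : ∀ e ∈ jt (b • (x : Matrix (Fin n) (Fin n) F)), e = 2
    · have hs := jt_sum hnil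
      rw [Multiset.eq_replicate_card.2 h2] at hs
      simp only [Multiset.sum_replicate, smul_eq_mul, Fintype.card_fin] at hs
      have h4 : 2 ∈ jt (b • (x : Matrix (Fin n) (Fin n) F)) := by
        obtain ⟨a, ha⟩ := Multiset.card_pos_iff_exists_mem.1
          (show 0 < Multiset.card (jt (b • (x : Matrix (Fin n) (Fin n) F))) by omega)
        exact h2 a ha ▸ ha
      have hk2 : Odd k := by
        rcases H with H | H
        · rw [Nat.odd_iff] at H; omega
        · exact hk.odd_of_ne_two (by omega)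
      obtain ⟨a, ha⟩ := exists_not_isSquare_mem (p := 3) ho hk2 hqk
      have ha0 : (a : F) ≠ 0 := fun h => ha (by simp [h])
      by_cases hs : IsSquare d
      · obtain ⟨s, rfl⟩ := hs
        obtain ⟨c, hc, hc'⟩ := hcom 2 h4 s
        exact ⟨c, 1, one_mem _, hc, by simp [hc', pow_two]⟩
      · obtain ⟨s, hs⟩ : IsSquare (d * a) := by
          rw [← quadraticChar_neg_one_iff_not_isSquare] at hs ha
          rw [← quadraticChar_one_iff_isSquare (mul_ne_zero hd ha0), map_mul, hs, ha]
          norm_num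
        obtain ⟨c, hc, hc'⟩ := hcom 2 h4 (s / a)
        obtain ⟨D, -, hD⟩ := det_surj_of_pow_eq_one (A := (1 : Matrix (Fin n) (Fin n) F₀)) (k := 1)
          (by simp) (by simp) a
        have hD' : (D.map F₀.subtype).det = a := by rw [← hD]; exact (RingHom.map_det _ _).symm
        obtain ⟨g, hg⟩ := exists_GL (A := D.map F₀.subtype) (hD' ▸ ha0)
        refine ⟨c, g, mem_subfieldSubgroup_one.2 ⟨1, D, one_ne_zero, by rw [hg, one_smul]⟩, hc, ?_⟩
        rw [hc', hg, hD']
        field_simp
        linear_combination -hs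
    · push Not at h2
      obtain ⟨e, he, he2⟩ := h2
      have h5 := jt_pos _ he
      have h6 : e ≤ 3 := (sub_one_pow_eq_zero_iff hnil 3).1 (by
        have := sub_one_pow_char_pow (F := F) 3 (b • (x : Matrix (Fin n) (Fin n) F)) 1
        rwa [pow_one, h, sub_self] at this) e he
      obtain ⟨s, rfl⟩ : ∃ s : F, s ^ e = d := by
        rcases (by omega : e = 1 ∨ e = 3) with rfl | rfl
        · exact ⟨d, pow_one d⟩
        · exact exists_pow_eq_of_not_dvd h3 d
      obtain ⟨c, hc, hc'⟩ := hcom e he s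
      exact ⟨c, 1, one_mem _, hc, by simp [hc']⟩

end Cfsg.Agent.S5966
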