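import Cfsg.Statements.S5967
import Cfsg.Agent.Lib.ElusF.Tests
import Cfsg.Agent.Lib.Elusive.LinCount

set_option autoImplicit false
open scoped MatrixGroups
open Cfsg

namespace Cfsg.Agent.S5967

/-- Involutions of PSL_n(q) and the symplectic-type subgroups. Here `T = PSL_n(F)` for a field `F` with `q` elements, `n ≥ 4` even, `f` is a nondegenerate alternating form on `F^n`, and `H` is the subgroup of matrices of determinant 1 preserving `f` up to a scalar — a maximal subgroup of type Sp_n(q); Ω is the set of `T`-conjugates of `H` (cosets of `H`), so an element of `T` of prime order `r` (a matrix `x` of determinant 1 with `x^r` scalar, `x` not scalar) fixes a point of Ω when some conjugate of `x` by a matrix of determinant 1 preserves `f` up to a scalar. Suppose the index of `H` is even. Then every involution of `T` is conjugate in `T` into `H` if and only if `(q − 1)_2 ≤ (n)_2`. -/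
theorem result {F : Type*} [Field F] [Fintype F] {p : ℕ} [Fact p.Prime] [CharP F p] {q : ℕ} (hq : Fintype.card F = q)
    (n : ℕ) (hn : 4 ≤ n) (he : Even n) (f : (Fin n → F) → (Fin n → F) → F) (hf : Cfsg.Geo.IsSymplecticForm f)
    (hΩ : 2 ∣ ((Cfsg.Geo.similarityGroup f).comap (Matrix.SpecialLinearGroup.toGL : Matrix.SpecialLinearGroup (Fin n) F →* GL (Fin n) F)).index) :
    (∀ x : Matrix.SpecialLinearGroup (Fin n) F,
      (∃ z : F, ((x ^ 2 : Matrix.SpecialLinearGroup (Fin n) F) : Matrix (Fin n) (Fin n) F) = z • (1 : Matrix (Fin n) (Fin n) F)) →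
      (∀ z : F, (x : Matrix (Fin n) (Fin n) F) ≠ z • (1 : Matrix (Fin n) (Fin n) F)) →
      ∃ P : Matrix.SpecialLinearGroup (Fin n) F, P⁻¹ * x * P ∈ ((Cfsg.Geo.similarityGroup f).comap (Matrix.SpecialLinearGroup.toGL : Matrix.SpecialLinearGroup (Fin n) F →* GL (Fin n) F))) ↔
    padicValNat 2 (q - 1) ≤ padicValNat 2 n := by
  open CfsgLib.ElusH CfsgLib.Elusive CfsgLib.MatConj CfsgLib.ElusF CfsgLib.Asch Matrix Polynomial in
  classical
  haveI : Fact (Nat.Prime 2) := ⟨Nat.prime_two⟩
  haveI : Nonempty (Fin n) := ⟨⟨0, by omega⟩⟩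
  subst hq
  rw [forall_SL_iff_elu, elu_SL_iff (p := p) _ (Or.inr rfl)]
  have hs := isSesq0_of_bilin hf.bilinear
  obtain ⟨h0, h1, h2⟩ := gram_symp hf
  have hsc : Cfsg.Geo.scalars (Fin n) F ≤ Cfsg.Geo.similarityGroup f := fun g hg => by
    obtain ⟨c, hc⟩ := (Cfsg.Geo.mem_scalars_iff g).1 hg
    refine (mem_sim_iff hs).2 ⟨_, ?_, hc ▸ (Sm.one _).smul (c : F)⟩
    simp
  constructor
  · intro H
    by_contra hlt
    obtain ⟨b, ω, hb, -, hω, hω2, hbω⟩ := exists_pow_mul_eq_one (F := F) (r := 2) (n := n)
      (by omega) dvd_rfl (by omega)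
    obtain ⟨A, hd, hP, -, -, -, hB⟩ := exists_refl_of (ι := Fin n) hb hω hω2
      (by simpa using hbω) (by simp; omega)
    have hB := hB (by simp; omega)
    obtain ⟨B, μ, hμ, e, hS⟩ := (ci_sim_iff hs hf.nondegenerate).1 (H A hd hP)
    have h3 := (hB.fix two_ne_zero (fun a => μ * a⁻¹) fun a ha => by
      rw [rk_of_isConj e, rk_of_isConj e]; exact hS.rk h0 hμ ha).1
    have h4 := (hS.smul b⁻¹)
    have h5 : b⁻¹ * (RingHom.id F) b⁻¹ * μ = 1 := by
      simp only [RingHom.id_apply] at h3 ⊢
      field_simp at h3 ⊢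
      linear_combination h3
    rw [h5] at h4
    have h6 := h4.det_alt h0 h1 h2
    rw [det_smul, ← det_eq_of_isConj e, hd, mul_one, inv_pow, inv_eq_one, Fintype.card_fin] at h6
    rw [h6, one_mul] at hbω
    exact hω hbω
  · intro hv A hA hP
    by_cases hp : 2 = p
    · subst hp
      obtain ⟨b, hb, h⟩ := hP.split (by rw [hA]; exact one_ne_zero) char_not_dvd_sub_one
      obtain ⟨μ, h3, h4⟩ := edM_unEd h
      refine (ci_symp_of_altReal hf ?_).of_smul hsc hb
      rw [h4]
      refine altReal_pm (Or.inl rfl) (fun e he => (h3 e he).1) fun j hj => ?_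
      have h5 := card_eq_mdeg (b • A)
      rw [h4, mdeg_unEd, eq_rep_of_le_two h3] at h5
      by_cases hj1 : j = 1
      · subst hj1
        simp at h5
        obtain ⟨m, hm⟩ := he
        exact ⟨m - μ.count 2, by omega⟩
      · rw [Multiset.count_eq_zero.2 fun h => ?_]
        · exact Even.zero
        · have := h3 j h
          obtain ⟨k, hk⟩ := hj
          omega
    · rcases invol_cases hp (by simpa using hv) hA hP with ⟨b, e, s, hb, -, h⟩ | ⟨z, hz, hz'⟩
      · refine (ci_symp_of_altReal hf ?_).of_smul hsc hb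
        rw [h]
        have key : ∀ (π : F[X]) (k : ℕ), π = X - 1 ∨ π = X + 1 →
            AltReal (Multiset.replicate (2 * k) (π, 1)) := fun π k hπ => by
          have := altReal_pm hπ (s := Multiset.replicate (2 * k) 1)
            (fun e he => by rw [Multiset.eq_of_mem_replicate he]; exact one_pos) fun j _ => by
              rw [Multiset.count_replicate]; split_ifs <;> simp
          simpa using this
        exact (key _ _ (Or.inl rfl)).add (key _ _ (Or.inr rfl))
      · obtain ⟨m, hm, h⟩ := edM_eq_nsM hz hz'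
        have hz0 : z ≠ 0 := fun h => hz' 0 (by simp [h])
        refine ci_symp_of hf (G' := blockDiagonal fun _ : Fin m => !![0, 1; -1, 0])
          (by simp [det_blockDiagonal]) ?_ ?_ (neg_ne_zero.2 hz0) (sm_nsM z (-z) _ fun _ => ?_) h
        · rw [blockDiagonal_transpose, ← blockDiagonal_neg]
          congr 1
          funext i
          ext a b; fin_cases a <;> fin_cases b <;> simp
        · rintro ⟨a, i⟩
          fin_cases a <;> simp [blockDiagonal_apply]
        · ext a b; fin_cases a <;> fin_cases b <;> simp [Matrix.mul_apply, Fin.sum_univ_two]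

end Cfsg.Agent.S5967
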