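import Cfsg.Statements.S5968
import Cfsg.Agent.Lib.ElusF.Tests

set_option autoImplicit false
open scoped MatrixGroups
open Cfsg

namespace Cfsg.Agent.S5968

/-- Derangements of odd prime order of PSL_n(q) on the cosets of a symplectic-type subgroup. Here `T = PSL_n(F)` for a field `F` with `q` elements, `n ≥ 4` even, `f` is a nondegenerate alternating form on `F^n`, and `H` is the subgroup of matrices of determinant 1 preserving `f` up to a scalar — a maximal subgroup of type Sp_n(q); Ω is the set of `T`-conjugates of `H` (cosets of `H`), so an element of `T` of prime order `r` (a matrix `x` of determinant 1 with `x^r` scalar, `x` not scalar) fixes a point of Ω when some conjugate of `x` by a matrix of determinant 1 preserves `f` up to a scalar. For every odd prime `r` dividing the index of `H`, with `(n, r) ≠ (6, 3)`, there is an element of `T` of order `r` with no conjugate in `H`. (For `n = 6`, `r = 3` this can fail: when `(q − 1)_3 = 3` every element of order 3 is conjugate into `H`.) -/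
theorem result {F : Type*} [Field F] [Fintype F] {p : ℕ} [Fact p.Prime] [CharP F p] {q : ℕ} (hq : Fintype.card F = q)
    (n : ℕ) (hn : 4 ≤ n) (he : Even n) (f : (Fin n → F) → (Fin n → F) → F) (hf : Cfsg.Geo.IsSymplecticForm f)
    (r : ℕ) [Fact r.Prime] (hr2 : r ≠ 2) (hgap : ¬ (n = 6 ∧ r = 3)) (hΩ : r ∣ ((Cfsg.Geo.similarityGroup f).comap (Matrix.SpecialLinearGroup.toGL : Matrix.SpecialLinearGroup (Fin n) F →* GL (Fin n) F)).index) :
    ∃ x : Matrix.SpecialLinearGroup (Fin n) F,
      (∃ z : F, ((x ^ r : Matrix.SpecialLinearGroup (Fin n) F) : Matrix (Fin n) (Fin n) F) = z • (1 : Matrix (Fin n) (Fin n) F)) ∧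
      (∀ z : F, (x : Matrix (Fin n) (Fin n) F) ≠ z • (1 : Matrix (Fin n) (Fin n) F)) ∧
      ∀ P : Matrix.SpecialLinearGroup (Fin n) F, P⁻¹ * x * P ∉ ((Cfsg.Geo.similarityGroup f).comap (Matrix.SpecialLinearGroup.toGL : Matrix.SpecialLinearGroup (Fin n) F →* GL (Fin n) F)) := by
  open CfsgLib.ElusH CfsgLib.Elusive CfsgLib.MatConj CfsgLib.ElusF CfsgLib.Asch Matrix Polynomial in
  classical
  haveI : Nonempty (Fin n) := ⟨⟨0, by omega⟩⟩
  subst hq
  rw [index_comap_toGL] at hΩ
  have hs := isSesq0_of_bilin hf.bilinear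
  obtain ⟨h0, h1, h2⟩ := gram_symp hf
  suffices H : ∃ A : Matrix (Fin n) (Fin n) F, A.det = 1 ∧ PE r A ∧
      ¬ CI (Cfsg.Geo.similarityGroup f) A by
    obtain ⟨A, h3, h4, h5⟩ := H
    by_contra hcon
    refine h5 (((forall_SL_iff_elu _ r).1 fun x hx1 hx2 => ?_).ci_of_det h3 h4)
    by_contra h6
    exact hcon ⟨x, hx1, hx2, fun P hP => h6 ⟨P, hP⟩⟩
  have hr3 : 3 ≤ r := by have := (Fact.out : r.Prime).two_le; omega
  by_cases hrp : r = p
  · subst hrp
    obtain ⟨A, h3, h4, h5, h6, h7⟩ := exists_unip (F := F) (ι := Fin n) (p := r)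
      (μ := 3 ::ₘ Multiset.replicate (n - 3) 1) (by
        intro a ha
        rcases Multiset.mem_cons.1 ha with rfl | ha
        · omega
        · rw [Multiset.eq_of_mem_replicate ha]; omega) (by simp; omega) ⟨3, by simp, by simp⟩
    refine ⟨A, h6, h7, fun hc => ?_⟩
    obtain ⟨B, e, hB⟩ := exists_sm_one char_not_dvd_sub_one h5 hs hf.nondegenerate hc
    have := even_count_jt_of_alt (nondeg_toBilin' h0) (isAlt_toBilin' h1 h2) (A := B)
      (fun u v => by simpa [gform_id] using sm_iff.1 hB u v) (isNilpotent_sub_one_of_isConj e h3)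
      (j := 3) (by decide)
    rw [← jt_eq_of_isConj e, h4] at this
    simp [Multiset.count_replicate] at this
  · by_cases hq : r ∣ Fintype.card F - 1
    · refine not_ci_of_bad hr2 hq (by simp; omega) (by simpa using hgap) ?_ hs hf.nondegenerate
        fun _ _ => rfl
      rintro ⟨h3, h4, -⟩
      rw [Fintype.card_fin] at h4
      obtain ⟨m, hm⟩ := he
      omega
    · obtain ⟨h3, h4⟩ := index_symp hrp hf hΩ
      exact not_ci_of_odd_ord hrp hr2 hq h3 h4.le hf.bilinear hf.nondegenerate

end Cfsg.Agent.S5968
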