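import Cfsg.Statements.S5969
import Cfsg.Agent.Lib.ElusF.Field

set_option autoImplicit false
open scoped MatrixGroups
open Cfsg

namespace Cfsg.Agent.S5969

/-- Involutions of PSL_n(q) and extension-field subgroups of degree 2. Here `T = PSL_n(F)` for a field `F` with `q = p^f` elements (`n ≥ 2`, `(n, q) ≠ (2, 2), (2, 3)`), `k` is a prime dividing `n`, `K` is a subalgebra of the `n × n` matrices that is a field of degree `k` over `F` (an extension-field structure F_{q^k} on `F^n`), and `H` is the subgroup of matrices of determinant 1 normalizing `K` — a subgroup of type GL_{n/k}(q^k) (maximal except in some small cases; maximality is not assumed); Ω is the set of cosets of `H` in `T`, so an element of `T` of prime order `r` (a matrix `x` of determinant 1 with `x^r` scalar, `x` not scalar) fixes a point of Ω when some conjugate of `x` by a matrix of determinant 1 normalizes `K`. Take `k = 2` and suppose the index of `H` is even. Then every involution of `T` is conjugate in `T` into `H` if and only if `n = 2`,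 or `q` is odd and `(q − 1)_2 ≤ (n)_2`. -/
theorem result {F : Type*} [Field F] [Fintype F] {p : ℕ} [Fact p.Prime] [CharP F p] {q : ℕ} (hq : Fintype.card F = q)
    (n : ℕ) (hn : 2 ≤ n) (hT : (n, q) ≠ (2, 2) ∧ (n, q) ≠ (2, 3))
    (k : ℕ) (hk : k.Prime) (hkn : k ∣ n) (K : Subalgebra F (Matrix (Fin n) (Fin n) F)) (hK : Cfsg.Geo.IsFieldSubalgebra k K) (hk2 : k = 2) (hΩ : 2 ∣ ((Cfsg.Geo.subalgebraNormalizer K).comap (Matrix.SpecialLinearGroup.toGL : Matrix.SpecialLinearGroup (Fin n) F →* GL (Fin n) F)).index) :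
    (∀ x : Matrix.SpecialLinearGroup (Fin n) F,
      (∃ z : F, ((x ^ 2 : Matrix.SpecialLinearGroup (Fin n) F) : Matrix (Fin n) (Fin n) F) = z • (1 : Matrix (Fin n) (Fin n) F)) →
      (∀ z : F, (x : Matrix (Fin n) (Fin n) F) ≠ z • (1 : Matrix (Fin n) (Fin n) F)) →
      ∃ P : Matrix.SpecialLinearGroup (Fin n) F, P⁻¹ * x * P ∈ ((Cfsg.Geo.subalgebraNormalizer K).comap (Matrix.SpecialLinearGroup.toGL : Matrix.SpecialLinearGroup (Fin n) F →* GL (Fin n) F))) ↔
    (n = 2 ∨ (Odd q ∧ padicValNat 2 (q - 1) ≤ padicValNat 2 n)) := by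
  open CfsgLib.ElusH CfsgLib.Elusive CfsgLib.MatConj CfsgLib.ElusF CfsgLib.Asch Matrix Polynomial in
  open scoped Kronecker in
  classical
  haveI : Fact (Nat.Prime 2) := ⟨Nat.prime_two⟩
  haveI : Nonempty (Fin n) := ⟨⟨0, by omega⟩⟩
  subst hq hk2
  rw [forall_SL_iff_elu, elu_SL_iff (p := p) _ (Or.inr rfl)]
  have nonsplit : ∀ (A : Matrix (Fin n) (Fin n) F) (z : F), A.det = 1 → A ^ 2 = z • 1 →
      (∀ b : F, b ^ 2 ≠ z) → CI (Cfsg.Geo.subalgebraNormalizer K) A := fun A z hA hz hz' =>
    ci_field_of hK (irreducible_nonsplit hz') (monic_X_pow_sub_C z two_ne_zero)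
      natDegree_X_pow_sub_C (aeval_X_pow_sub_C.2 hz) (u := X) (A' := A) (by simp)
      (by rw [hA]; exact one_ne_zero) rfl
  constructor
  · intro H
    by_contra hne
    obtain ⟨hn2, hv⟩ := not_or.1 hne
    have hn4 : 4 ≤ n := by omega
    have key : ∀ (A : Matrix (Fin n) (Fin n) F) (c : F), A.det = 1 → PE 2 A → rk A c ≠ 1 := by
      intro A c h1 h2 h3
      rcases rk_of_ci_field hK (H A h1 h2) c with h | h
      · omega
      · rw [Fintype.card_fin] at h; omega
    by_cases hp : 2 = p
    · subst hp
      obtain ⟨A, -, -, -, h6, h7, h8⟩ := exists_transv (F := F) (ι := Fin n) (p := 2)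
        (by simp; omega)
      exact key A 1 h6 h7 (by rwa [rk_one])
    · obtain ⟨A, c, ω, -, -, -, h1, h2, -, h3, -⟩ := exists_refl (F := F) (ι := Fin n) (r := 2)
        (by
          by_contra h
          exact hv ⟨(odd_card_iff' (F := F)).2 hp, by simpa using h⟩) (by simp; omega)
      exact key A c h1 h2 h3
  · rintro (rfl | ⟨ho, hv⟩) A hA hP
    · rcases hP.split_or (by rw [hA]; exact one_ne_zero) with ⟨b, hb, h⟩ | ⟨z, hz, hz'⟩
      · obtain ⟨Φ, h1, -, h2, h3⟩ := exists_frob hK
        refine (h3 (b • A) (by simp [hb, hA]) ?_).of_smul scalars_le_normalizer hb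
        exact edM_eq_of_invol_two (p := p) (by simp) (by simp) h h2 (hP.smul hb).2
          (not_scalar_of_minpoly (by rw [h1, ← C_1, natDegree_X_pow_sub_C]))
      · exact nonsplit A z hA hz hz'
    · have hp := (odd_card_iff' (F := F)).1 ho
      rcases invol_cases hp (by simpa using hv) hA hP with ⟨c, k, s, hc, h1, h⟩ | ⟨z, hz, hz'⟩
      · refine CI.of_smul scalars_le_normalizer hc ?_
        have hv : Valid (Multiset.replicate k ((X - 1 : F[X]), 1) +
            Multiset.replicate s (X + 1, 1)) :=
          valid_of_le (h ▸ edM_valid _) (add_le_add ((Multiset.replicate_le_replicate _).2 (by omega))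
            ((Multiset.replicate_le_replicate _).2 (by omega)))
        have e1 : (X + 1 : F[X]).natDegree = 1 := by simpa using natDegree_X_add_C (1 : F)
        obtain ⟨B, hB⟩ := exists_edM_eq (n := Fin (k + s)) hv (by simp [natDegree_X_sub_one, e1])
        have hE : edM (c • A) = edM ((1 : Matrix (Fin 2) (Fin 2) F) ⊗ₖ B) := by
          rw [edM_one_kronecker, hB, h, Fintype.card_fin, smul_add, Multiset.nsmul_replicate,
            Multiset.nsmul_replicate]
        obtain ⟨z, hz, -⟩ := exists_not_pow (F := F) (r := 2) (two_dvd_of_odd ho)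
        refine ci_field_of hK (irreducible_nonsplit hz) (monic_X_pow_sub_C z two_ne_zero)
          natDegree_X_pow_sub_C (aeval_X_pow_sub_C.2 (nsM_sq (Fin (k + s)) z)) (u := X) ?_
          (by simp [hc, hA]) hE
        rw [aeval_X, nsM, ← kronecker_one, ← mul_kronecker_mul, ← mul_kronecker_mul]
        simp
      · exact nonsplit A z hA hz hz'

end Cfsg.Agent.S5969
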