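import Cfsg.Statements.S5971
import Cfsg.Agent.Lib.ElusF.Field

set_option autoImplicit false
open scoped MatrixGroups
open Cfsg

namespace Cfsg.Agent.S5971

/-- Elements of order 3 of PSL_3(q) and the normalizer of a Singer cycle. Here `T = PSL_n(F)` for a field `F` with `q = p^f` elements (`n ≥ 2`, `(n, q) ≠ (2, 2), (2, 3)`), `k` is a prime dividing `n`, `K` is a subalgebra of the `n × n` matrices that is a field of degree `k` over `F` (an extension-field structure F_{q^k} on `F^n`), and `H` is the subgroup of matrices of determinant 1 normalizing `K` — a subgroup of type GL_{n/k}(q^k) (maximal except in some small cases; maximality is not assumed); Ω is the set of cosets of `H` in `T`, so an element of `T` of prime order `r` (a matrix `x` of determinant 1 with `x^r` scalar, `x` not scalar) fixes a point of Ω when some conjugate of `x` by a matrix of determinant 1 normalizes `K`. Take `n = k = 3` and suppose 3 divides the index of `H`. Then every element of `T` of order 3 is conjugate in `T` into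 `H` if and only if `q ≡ 4, 7` or `8 (mod 9)`. -/
theorem result {F : Type*} [Field F] [Fintype F] {p : ℕ} [Fact p.Prime] [CharP F p] {q : ℕ} (hq : Fintype.card F = q)
    (n : ℕ) (hn : n = 3) (k : ℕ) (hk : k.Prime) (hkn : k ∣ n) (K : Subalgebra F (Matrix (Fin n) (Fin n) F)) (hK : Cfsg.Geo.IsFieldSubalgebra k K) (hk3 : k = 3) (hΩ : 3 ∣ ((Cfsg.Geo.subalgebraNormalizer K).comap (Matrix.SpecialLinearGroup.toGL : Matrix.SpecialLinearGroup (Fin n) F →* GL (Fin n) F)).index) :
    (∀ x : Matrix.SpecialLinearGroup (Fin n) F,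
      (∃ z : F, ((x ^ 3 : Matrix.SpecialLinearGroup (Fin n) F) : Matrix (Fin n) (Fin n) F) = z • (1 : Matrix (Fin n) (Fin n) F)) →
      (∀ z : F, (x : Matrix (Fin n) (Fin n) F) ≠ z • (1 : Matrix (Fin n) (Fin n) F)) →
      ∃ P : Matrix.SpecialLinearGroup (Fin n) F, P⁻¹ * x * P ∈ ((Cfsg.Geo.subalgebraNormalizer K).comap (Matrix.SpecialLinearGroup.toGL : Matrix.SpecialLinearGroup (Fin n) F →* GL (Fin n) F))) ↔
    (q % 9 = 4 ∨ q % 9 = 7 ∨ q % 9 = 8) := by
  open CfsgLib.ElusH CfsgLib.Elusive CfsgLib.MatConj CfsgLib.ElusF CfsgLib.Asch Matrix Polynomial in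
  classical
  subst hq hn hk3
  haveI : Fact (Nat.Prime 3) := ⟨Nat.prime_three⟩
  rw [index_comap_toGL] at hΩ
  rw [forall_SL_iff_elu]
  have key : ∀ (A : Matrix (Fin 3) (Fin 3) F) (c : F), CI (Cfsg.Geo.subalgebraNormalizer K) A →
      rk A c ≠ 1 := by
    intro A c h1 h3
    rcases rk_of_ci_field hK h1 c with h | h
    · omega
    · rw [Fintype.card_fin] at h; omega
  by_cases hp : 3 = p
  · subst hp
    have h3 := char_dvd_card (F := F) (p := 3)
    refine iff_of_false (fun H => ?_) (by omega)
    obtain ⟨A, -, -, -, h6, h7, h8⟩ := exists_transv (F := F) (ι := Fin 3) (p := 3) (by simp)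
    exact key A 1 (H.ci_of_det h6 h7) (by rwa [rk_one])
  rw [elu_SL_iff (p := p) _ (Or.inl hp)]
  have h3 := not_dvd_card (F := F) hp
  have hq1 : 1 < Fintype.card F := Fintype.one_lt_card
  obtain ⟨Φ, hΦ1, hΦ2, hΦ3, hΦ4⟩ := exists_frob hK
  have hΦd : Φ.det = 1 := by rw [det_eq_of_charpoly, hΦ2]; simp; norm_num
  by_cases hq : 3 ∣ Fintype.card F - 1
  · by_cases h9 : 9 ∣ Fintype.card F - 1
    · refine iff_of_false (fun H => ?_) (by omega)
      obtain ⟨A, c, ω, -, -, -, h1, h2, -, h4, -⟩ := exists_refl (F := F) (ι := Fin 3) (r := 3)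
        (by
          rw [Fintype.card_fin, padicValNat_self]
          exact (padicValNat_dvd_iff_le (n := 2) (by omega)).1 h9) (by simp)
      exact key A c (H A h1 h2) h4
    · refine iff_of_true (fun A hA hP => ?_) (by omega)
      have hv : padicValNat 3 (Fintype.card F - 1) = 1 := by
        have h1 := one_le_padicValNat_of_dvd (p := 3) (by omega) hq
        have h2 := (padicValNat_dvd_iff_le (p := 3) (a := Fintype.card F - 1) (n := 2)
          (by omega)).not.1 h9
        omega
      obtain ⟨c, d, hc, hd, e, hs⟩ := exc_symm hp (Or.inl rfl) hv hA hP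
      refine (hΦ4 (c • A) (by simp [hc, hA]) ?_).of_smul scalars_le_normalizer hc
      rw [isConj_iff_edM.1 e, ← isConj_iff_edM]
      refine isConj_of_charpoly_eq_of_pow_eq_one (cast_ne_zero hp) (cast_ne_zero hp)
        (by simpa using diagonal_pow_eq hd) hΦ3 ?_
      have h0 : ∀ i, d i ≠ 0 := fun i h => by simpa [h] using hd i
      have h1 : d 0 * d 1 * d 2 = 1 := by
        have := congrArg Multiset.prod hs
        rw [← Finset.prod_eq_multiset_prod, ← Finset.prod_eq_multiset_prod, Fin.prod_univ_three,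
          Fin.prod_univ_three] at this
        have a0 := h0 0
        have a1 := h0 1
        have a2 := h0 2
        field_simp at this
        refine eq_one_of_sq_of_odd (r := 3) (by decide) (by linear_combination this) ?_
        rw [mul_pow, mul_pow, hd, hd, hd]; simp
      have h2 : d 2 = d 0 ^ 2 * d 1 ^ 2 := by
        linear_combination (-d 2 * d 1 ^ 3) * hd 0 - d 2 * hd 1 + (d 0 ^ 2 * d 1 ^ 2) * h1
      have h4 : d 0 ≠ d 1 := fun h => ((hP.smul hc).of_isConj e).2 (d 0) (by
        have : d 2 = d 0 := by rw [h2, ← h]; linear_combination d 0 * hd 0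
        ext i j
        fin_cases i <;> fin_cases j <;> simp [← h, this])
      have h5 : d 0 ^ 2 + d 0 * d 1 + d 1 ^ 2 = 0 :=
        mul_left_cancel₀ (sub_ne_zero.2 h4) (by linear_combination hd 0 - hd 1)
      have h6 : d 0 + d 1 + d 2 = 0 := by
        linear_combination h2 + d 0 * d 1 * h5 - d 1 * hd 0 - d 0 * hd 1
      have h7 : d 0 * d 1 + d 2 * (d 0 + d 1) = 0 := by
        linear_combination (d 0 + d 1) * h2 + h5 + d 1 ^ 2 * hd 0 + d 0 ^ 2 * hd 1
      rw [charpoly_diagonal, Fin.prod_univ_three, hΦ2]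
      have e1 := congrArg C h1
      have e6 := congrArg C h6
      have e7 := congrArg C h7
      simp only [map_mul, map_add, map_one, map_zero] at e1 e6 e7
      linear_combination (-X ^ 2) * e6 + X * e7 - e1
  · have ho : orderOf (Fintype.card F : ZMod 3) = 3 - 1 := by
      have h1 := (Nat.dvd_prime Nat.prime_two).1 (orderOf_dvd_sub_one h3)
      exact h1.resolve_left fun h => hq (ord_eq_one_iff.1 h)
    refine iff_of_true (fun A hA hP => ci_field_of_ord hp le_rfl (by simp) ho hK
      (by rw [hA]; exact one_ne_zero) hP) ?_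
    obtain ⟨g, hg, e⟩ := hΦ4 Φ (by rw [hΦd]; exact one_ne_zero) rfl
    have h1 : orderOf g = 3 := orderOf_eq_prime (Units.ext (pow_eq_one_of_isConj e hΦ3)) fun h => by
      rw [h, Units.val_one, isConj_one_left] at e
      exact not_scalar_of_minpoly (A := Φ) (by rw [hΦ1, ← C_1, natDegree_X_pow_sub_C]; omega) 1
        (by simpa using e)
    have h2 := relIndex_mul_dvd_of_le _ (Cfsg.Geo.specialLinear (Fin 3) F) (Subgroup.zpowers g)
      ((Subgroup.zpowers_le).2 hg)
      ((Subgroup.zpowers_le).2 (mem_SL.2 (det_eq_of_isConj e ▸ hΦd)))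
    rw [Nat.card_zpowers, h1, card_specialLinear, CfsgLib.Classical.sl3_card] at h2
    have h4 := (Nat.mul_dvd_mul_right hΩ 3).trans h2
    generalize Fintype.card F = q at *
    have h5 : Nat.Coprime (3 * 3) (q ^ 3) := by
      rw [← sq]; exact Nat.Coprime.pow _ _ ((Nat.Prime.coprime_iff_not_dvd Nat.prime_three).2 h3)
    have h6 : Nat.Coprime (3 * 3) (q ^ 3 - 1) := by
      rw [← sq]
      refine Nat.Coprime.pow_left _ ((Nat.Prime.coprime_iff_not_dvd Nat.prime_three).2 fun h => ?_)
      have : q ^ 3 % 3 = 2 := by rw [Nat.pow_mod, show q % 3 = 2 by omega]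
      omega
    have h7 := h6.dvd_of_dvd_mul_right (h5.dvd_of_dvd_mul_left h4)
    have h8 : q ^ 2 % 9 = (q % 9) ^ 2 % 9 := Nat.pow_mod _ _ _
    have h9 : q % 9 = 2 ∨ q % 9 = 5 ∨ q % 9 = 8 := by omega
    have : 1 ≤ q ^ 2 := Nat.one_le_pow _ _ (by omega)
    rcases h9 with h9 | h9 | h9 <;> rw [h9] at h8 <;> omega

end Cfsg.Agent.S5971
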