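import Cfsg.Statements.S5972
import Cfsg.Agent.Lib.Elus2.Orth5

set_option autoImplicit false
open scoped MatrixGroups
open Cfsg

namespace Cfsg.Agent.S5972

open CfsgLib.Elusive CfsgLib.Elus2 CfsgLib.Forms CfsgLib.MatConj CfsgLib.Orth Polynomial

theorem arith_even {N a M' b' M b i t k₀ : ℕ} {τ : Prop} (ha : a < i) (hb' : b' < i)
    (hi : i % 2 = 0) (ha2 : a % 2 = 1) (ht : 0 < t)
    (h : (M' = 2 * M ∧ b' = 2 * b) ∨ (M' = 2 * M + 1 ∧ b' + i = 2 * b)) (hm : 0 < M ∨ 0 < b)
    (hlt : M' < N ∨ (M' = N ∧ b' < a)) (hΩ : OOm N a M' b' τ True True k₀) :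
    (∀ k, OAdm N a τ True k → ∃ j, OTs N a M' b' M 2 t τ True k j) ↔
      1 ≤ M ∧ 2 * b < a ∧ t + 2 * M ≤ N := by
  have h0 : a ≠ 0 := by omega
  have h0' : b' ≠ a := by omega
  refine forall_exists_elim N (N - 1) (N - 2) (fun _ => 0) (fun k => min M ((k + 1 - t) / 2)) ?_ ?_
  all_goals simp only [h0, h0', h0'.symm, OOm, OAdm, ONd, OTs, Nat.even_iff, Nat.odd_iff, true_iff, false_iff, iff_true,
    iff_false, forall_const, iff_self, and_true, true_and, implies_true, not_true_eq_false,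
    false_imp_iff, not_false_eq_true, and_false, or_false, false_and, false_or, not_not, imp_false] at *
  · intro j₁ j₂ j₃ h1 h2 h3
    have hM : 1 ≤ M := by
      by_contra hM
      obtain rfl : M = 0 := by omega
      clear h3
      omega
    clear hΩ hm
    have hN : 2 ≤ N := by omega
    have h1 := h1 (by omega)
    have h2 := h2 (by omega)
    omega
  · intro h1 k h2
    clear hΩ hm hlt
    omega

theorem arith_odd {N a M b t k₀ : ℕ} {τ : Prop} (ha2 : a % 2 = 1) (hm : 0 < M ∨ 0 < b)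
    (hlt : M < N ∨ (M = N ∧ 2 * b < a)) (hΩ : OOm N a M (2 * b) τ True False k₀) :
    (∀ k, OAdm N a τ False k → ∃ j, OTs N a M (2 * b) M 1 t τ False k j) ↔
      1 ≤ M ∧ 2 * b < a := by
  have h0 : a ≠ 0 := by omega
  have h0' : 2 * b ≠ a := by omega
  refine forall_exists_elim N (N - 1) (N - 2) (fun k => min k M) (fun k => min k M) ?_ ?_
  all_goals simp only [h0, h0', h0'.symm, OOm, OAdm, ONd, OTs, Nat.even_iff, Nat.odd_iff, true_iff, false_iff, iff_true,
    iff_false, forall_const, iff_self, and_true, true_and, implies_true, not_true_eq_false,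
    false_imp_iff, not_false_eq_true, and_false, or_false, false_and, false_or, not_not, imp_false] at *
  · intro j₁ j₂ j₃ h1 h2 h3
    omega
  · intro h1 k h2
    omega


/-- Elements of prime order of Ω_n(q), n = 2d+1 ≥ 7, q odd, with no fixed totally singular `m`-space. Here `T = Ω_n(q)` is realised as the commutator subgroup of the isometry group of the quadratic form `x₀² + Σ xᵢyᵢ` over the field `F` with `q` elements (it has trivial centre, so its elements of prime order `r` are used directly); let `1 ≤ m ≤ d` and let `r` be a prime dividing the number of totally singular `m`-spaces. For `r ≠ p` let `i` be the multiplicative order of `q` modulo `r`, `c = i` for `i` even and `c = 2i` for `i` odd, and write `k = n mod c`, `ℓ = m mod i`, `n' = ⌊n/i⌋`, `m' = ⌊m/i⌋`, `t = (r−1)/i`. Then every element of `T` of order `r` fixes some totally singular `m`-space if and only if either (i) `r = 2` and (`m < (n−1)/2` or `q ≡ 1 (mod 4)`); or (ii) `r ≠ p` is odd,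 `i ≤ m`, `k > 2ℓ`, and (`i` is odd or `n' − 2m' ≥ t`). -/
theorem result {F : Type*} [Field F] [Fintype F] {p : ℕ} [Fact p.Prime] [CharP F p] {q : ℕ} (hq : Fintype.card F = q) (hqodd : Odd q)
    (d m : ℕ) (hd : 3 ≤ d) (hm : 1 ≤ m) (hmd : m ≤ d)
    (r : ℕ) [Fact r.Prime]
    (hrΩ : r ∣ Nat.card {W : Submodule F (Unit ⊕ (Fin d ⊕ Fin d) → F) // Module.finrank F ↥W = m ∧ (∀ w ∈ W, Cfsg.quadFormOdd d F w = 0)})
    (i c : ℕ) (hi : i = orderOf (q : ZMod r)) (hc : c = if Even i then i else 2 * i) :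
    (∀ x : GL (Unit ⊕ (Fin d ⊕ Fin d)) F, x ∈ Cfsg.Geo.omegaGL (Cfsg.quadFormOdd d F) → orderOf x = r →
      ∃ W : Submodule F (Unit ⊕ (Fin d ⊕ Fin d) → F), Module.finrank F ↥W = m ∧ (∀ w ∈ W, Cfsg.quadFormOdd d F w = 0) ∧
        W.map (Matrix.toLin' (x : Matrix (Unit ⊕ (Fin d ⊕ Fin d)) (Unit ⊕ (Fin d ⊕ Fin d)) F)) ≤ W) ↔
    ((r = 2 ∧ (m < d ∨ q % 4 = 1)) ∨
     (r ≠ p ∧ 2 < r ∧ i ≤ m ∧ 2 * (m % i) < (2 * d + 1) % c ∧ (Odd i ∨ (r - 1) / i + 2 * (m / i) ≤ (2 * d + 1) / i))) := by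
  subst hq
  have h2 := two_ne_zero_of_odd_card hqodd
  have hP : (ofQuad (qOdd d F)).Nondeg := ofQuad_nondeg _ (qOdd_nondegenerate h2 d)
  have hn := finrank_odd F d
  have h24 : Nat.card F ≠ 2 ∨ Module.finrank F (Unit ⊕ (Fin d ⊕ Fin d) → F) ≠ 4 := Or.inr (by omega)
  have hr' : r.Prime := Fact.out
  rw [← coe_qOdd] at *
  simp only [← ts_ofQuad_iff] at hrΩ ⊢
  rw [forall_omega_order_iff r fun T => ∃ W : Submodule F (Unit ⊕ (Fin d ⊕ Fin d) → F),
    Module.finrank F W = m ∧ (ofQuad (qOdd d F)).TS W ∧ W.map T ≤ W]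
  simp only [← inv_iff_map_le]
  by_cases hrp : r = p
  · subst hrp
    exact absurd hrΩ (quad_not_dvd_card_ts rfl hP (by omega))
  by_cases hr2 : r = 2
  · subst hr2
    have h4 := card_mod_four (F := F) hrp
    have h5 : ∀ T, Isom (ofQuad (qOdd d F)) T → InO (qOdd d F) T → T ^ 2 = 1 → T ≠ -1 := by
      rintro T a1 a2 a3 rfl
      have := ((inO_invol hP h2 a1 a3).1 a2).1
      rw [neg_neg, show fix (1 : Module.End F (Unit ⊕ (Fin d ⊕ Fin d) → F)) = ⊤ from
        eq_top_iff.2 fun v _ => mem_fix.2 rfl, finrank_top, hn] at this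
      exact Nat.not_even_two_mul_add_one d this
    refine (forall₄_congr fun T a1 a2 a3 => imp_congr_right fun _ =>
      (imp_iff_right (h5 T a1 a2 a3)).symm).trans ?_
    have h6 : ∀ x b, 2 * x + 2 * b ≠ 2 * d + 1 := fun x b => by omega
    rw [forall_invol_ts hP h2, hn,
      forall_exists_elim (R := m < d ∨ Fintype.card F % 4 = 1) 1 1 1 (fun b => min m (d - b)) (fun b => min m (d - b)) ?_ ?_]
    all_goals simp only [true_and, lt_self_iff_false, false_and, and_false, or_false, ne_eq,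
      Nat.even_iff, h6]
    · intro _ _ _ h _ _
      omega
    · intro h b h'
      omega
  have ho := hr'.odd_of_ne_two hr2
  rw [forall_inO_odd' hP h24 ho, quad_forall_ts rfl hP hrp hr2 hi hc, hn]
  obtain ⟨k₀, hΩ⟩ := quad_om_ts rfl hP hrp hr2 hi hc hm (by omega) hrΩ
  rw [hn] at hΩ
  have hi0 := (sdData_id hrp hr2 hi hc).b_pos hrp
  have hc0 := (sdData_id hrp hr2 hi hc).c_pos hrp
  have hc2 := c_even hc
  have h3 := mod_mod_two hc2 (2 * d + 1)
  have h5 := Nat.even_iff.1 hc2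
  have h6 := nf_lt0 hc0 (show 2 * m < 2 * d + 1 by omega)
  have ht := div_ord_pos (F := F) hrp
  rw [← hi] at ht
  simp only [hr2, false_and, false_or, ne_eq, hrp, not_false_eq_true, true_and,
    two_lt_of_ne_two hr' hr2, le_iff_one_le_div hi0]
  by_cases he : Even i
  · rw [if_pos he] at hc
    subst hc
    simp only [he, Nat.not_odd_iff_even.2 he, false_and, false_or, true_and, if_true] at hΩ ⊢
    exact arith_even (Nat.mod_lt _ hc0) (Nat.mod_lt _ hc0) h5 (by omega) ht
      (two_mul_div_mod hc0 m) (nf_pos m hm) h6 hΩ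
  · rw [if_neg he] at hc
    subst hc
    rw [Nat.mul_div_mul_left m i two_pos, Nat.mul_mod_mul_left 2 m i] at hΩ h6 ⊢
    simp only [he, Nat.not_even_iff_odd.1 he, false_and, or_false, true_and, true_or, and_true,
      if_false] at hΩ ⊢
    exact arith_odd (by omega) (nf_pos m hm) h6 hΩ

end Cfsg.Agent.S5972
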