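import Cfsg.Statements.S5975
import Cfsg.Agent.Lib.ElusF.SpExt

set_option autoImplicit false
open scoped MatrixGroups
open scoped Matrix
open Cfsg

namespace Cfsg.Agent.S5975

/-- Elements of prime order of PSp_n(q) and the field-extension subgroups of type Sp_{n/k}(q^k). Here `T = PSp_{2d}(F)` for a field `F` with `q` elements (`d ≥ 2`, `(d, q) ≠ (2, 2)`), realised through the matrices preserving the standard alternating form `f`; `k` is a prime and `K` is a subalgebra of the `2d × 2d` matrices that is a field of degree `k` over `F` whose elements are self-adjoint for `f` and satisfy `f(a v, v) = 0` (so `F^{2d}` becomes a vector space over `K ≅ F_{q^k}` on which `f` is the trace of a `K`-bilinear alternating form); `H` is the subgroup of `T` normalizing `K` — the symplectic maps that are `K`-linear or `K`-semilinear, a subgroup of type Sp_{2d/k}(q^k) (maximality is not assumed). Ω is the set of cosets of `H` in `T`, so an element of `T` of prime order `r` (`x ∈ T` with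 `x^r` scalar, `x` not scalar) fixes a point of Ω exactly when some `T`-conjugate of `x` normalizes `K`. Let `r` be a prime dividing the index of `H`. Then every element of `T` of order `r` fixes a point of Ω if and only if `r = 2`, `d = 2`, `k = 2` and `q` is odd. -/
theorem result {F : Type*} [Field F] [Fintype F] {p : ℕ} [Fact p.Prime] [CharP F p] {q : ℕ} (hq : Fintype.card F = q)
    (d : ℕ) (hd : 2 ≤ d) (hT : (d, q) ≠ (2, 2)) (k : ℕ) (hk : k.Prime)
    (K : Subalgebra F (Matrix (Fin d ⊕ Fin d) (Fin d ⊕ Fin d) F)) (hK : Cfsg.Geo.IsFieldSubalgebra k K)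
    (hKf : Cfsg.Geo.IsSelfAdjointFor (Cfsg.sympForm d F) K) (hKalt : ∀ a ∈ K, ∀ v : Fin d ⊕ Fin d → F, Cfsg.sympForm d F (a *ᵥ v) v = 0)
    (r : ℕ) [Fact r.Prime]
    (hΩ : r ∣ (Cfsg.Geo.subalgebraNormalizer K).relIndex (Cfsg.spGL d F)) :
    (∀ x ∈ Cfsg.spGL d F, (∃ z : F, ((x ^ r : GL (Fin d ⊕ Fin d) F) : Matrix (Fin d ⊕ Fin d) (Fin d ⊕ Fin d) F) = z • (1 : Matrix (Fin d ⊕ Fin d) (Fin d ⊕ Fin d) F)) →
      (∀ z : F, (x : Matrix (Fin d ⊕ Fin d) (Fin d ⊕ Fin d) F) ≠ z • (1 : Matrix (Fin d ⊕ Fin d) (Fin d ⊕ Fin d) F)) →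
      ∃ g ∈ Cfsg.spGL d F, g⁻¹ * x * g ∈ Cfsg.Geo.subalgebraNormalizer K) ↔
    (r = 2 ∧ d = 2 ∧ k = 2 ∧ Odd q) := by
  open CfsgLib.ElusH CfsgLib.Elusive CfsgLib.MatConj CfsgLib.ElusF CfsgLib.Asch CfsgLib.Forms CfsgLib.ClMax CfsgLib.Elus2 Matrix Polynomial Cfsg.Geo Module in
  classical
  change Elu _ _ r ↔ _
  subst hq
  have hr : r.Prime := Fact.out
  haveI : Nonempty (Fin d) := ⟨⟨0, by omega⟩⟩
  refine with_ext_field hK fun L _ _ _ _ _ hrK hdim hmem _ hN => ?_
  have hl0 : Algebra.trace F L ≠ 0 := fun h => by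
    obtain ⟨a, ha⟩ := Algebra.trace_surjective F L 1
    simp [h] at ha
  have hfd' : FiniteDimensional L (Fin d ⊕ Fin d → F) := Module.Finite.of_finite
  obtain ⟨f, hA, hf, hB⟩ := exists_extForm (K := L) (spB_nondegenerate (Fin d) F)
    (fun k u v => by
      obtain ⟨a, ha, h⟩ := hmem k
      simpa only [spB_eq_sympForm, h] using hKf a ha u v)
    (fun k v => by
      obtain ⟨a, ha, h⟩ := hmem k
      simpa only [spB_eq_sympForm, h] using hKalt a ha v) hl0
  obtain ⟨m, hm⟩ := even_finrank_of_alt f hA hf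
  have hdm : d = k * m := by
    rw [hm, Fintype.card_sum, Fintype.card_fin, mul_add] at hdim; omega
  have hk2 := hk.two_le
  have hkd : k ≤ d := Nat.le_of_dvd (by omega) ⟨m, hdm⟩
  have com : ∀ s : ℕ, s.Prime → s ≠ p → ∀ y ∈ Cfsg.spGL d F, y ^ s = 1 → (∀ x ∈ K, Commute x y) →
      2 * k ∣ rk (y : Matrix (Fin d ⊕ Fin d) (Fin d ⊕ Fin d) F) 1 := fun s hs hsp y hy h1 h2 => by
    haveI := Fact.mk hs
    have := ext_rank hsp hA hf hl0 hB (T := toLin' (y : Matrix (Fin d ⊕ Fin d) (Fin d ⊕ Fin d) F))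
      (fun c v => by
        obtain ⟨a, ha, h⟩ := hmem c
        rw [h, h, toLin'_apply, toLin'_apply, mulVec_mulVec, mulVec_mulVec, (h2 a ha).eq])
      ((mem_spGL_iff y).1 hy) (by rw [← toLin'_pow, ← Units.val_pow_eq_pow_val, h1]; simp [End.one_eq_id])
    rw [hrK, End.one_eq_id, ← toLin'_one, ← map_sub] at this
    rwa [rk_one]
  constructor
  · intro H
    by_cases hrp : r = p
    · subst hrp
      obtain ⟨x, hx, h3, h4⟩ := sp_transv (F := F) (p := r) (m := d) (by omega)
      have := rk_of_ci_field hK (H.ci hx h3) 1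
      rw [h4, Nat.dvd_one, Fintype.card_sum, Fintype.card_fin] at this
      omega
    have key : ∀ x ∈ Cfsg.spGL d F, PE r (x : Matrix (Fin d ⊕ Fin d) (Fin d ⊕ Fin d) F) → x ^ r = 1 →
        2 * k ∣ rk (x : Matrix (Fin d ⊕ Fin d) (Fin d ⊕ Fin d) F) 1 ∨
          (r = k ∧ d ≤ rk (x : Matrix (Fin d ⊕ Fin d) (Fin d ⊕ Fin d) F) 1) := fun x hx h3 h4 => by
      obtain ⟨g, hg, h6⟩ := H x hx (by simpa using h3.1) h3.2
      have h7 : (g⁻¹ * x * g) ^ r = 1 := by simpa [h4] using conj_pow (a := g⁻¹) (b := x) (i := r)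
      have h8 := com r hr hrp _ (mul_mem (mul_mem (inv_mem hg) hx) hg) h7
      rw [rk_of_isConj (isConj_conj g x)]
      by_cases h : r = k
      · refine (rk_of_mem_normalizer hK h6).imp (fun h => h8 h.1) fun h9 => ⟨h, ?_⟩
        have := h9 1
        rw [Fintype.card_sum, Fintype.card_fin] at this
        omega
      · exact Or.inl (h8 (commute_of_coprime hK h6 ((Nat.coprime_primes hr hk).2 h) (z := 1)
          (by simpa using congrArg Units.val h7)))
    by_cases hr2 : r = 2
    · subst hr2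
      obtain ⟨x, hx, h3, h4, h5⟩ := sp_invol ((two_ne_zero_iff (F := F)).2 hrp) hd
      have := key x hx h3 h4
      rw [h5] at this
      obtain h | h := this
      · have := Nat.le_of_dvd two_pos h
        omega
      · exact ⟨rfl, by omega, h.1.symm, odd_card_iff'.2 hrp⟩
    exfalso
    obtain ⟨x, hx, h3, h4, h5⟩ := sp_exists_ss hrp hr2 one_pos
      ((mul_one _).trans_le (cc_le_of_dvd hrp hr2 hΩ))
    have := key x hx h3 h4
    rw [rk_one, h5, mul_one] at this
    obtain h | h := this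
    · haveI := Fintype.ofFinite L
      have h1 := relIndex_mul_dvd (subalgebraNormalizer K) (Cfsg.spGL d F)
        (glEquiv.symm.toMonoidHom.comp ((resHom F L _).comp (ofAlt f hA).isom.subtype))
        (glEquiv.symm.injective.comp (resHom_injective.comp Subtype.val_injective))
        (fun t => (hN _ _ fun v => by rw [← glEquiv_apply]; simp; rfl).2 (semiK_restrict t.1))
        (fun t => (mem_spGL_iff _).2 fun u v => by
          simp only [hB]
          simp
          exact congrArg (Algebra.trace F L) (((ofAlt_isIso f hA _).1 t.2) u v))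
      obtain ⟨N, h6, h7⟩ := spo_split (q := Fintype.card F) hk.pos m
      have hq : 1 < Fintype.card F := Fintype.one_lt_card
      rw [← hdm] at h6
      rw [alt_card_isom rfl (ofAlt_nondeg f hA hf) (hm.trans (two_mul m).symm), card_spGL,
        Module.card_eq_pow_finrank (K := F) (V := L), hrK, h6] at h1
      have h8 : r ∣ Fintype.card F ^ d ^ 2 * N := by
        refine Nat.dvd_of_mul_dvd_mul_right (Nat.pos_of_ne_zero (spo_ne_zero (q := Fintype.card F ^ k)
          (Nat.one_lt_pow (by omega) hq) m)) ?_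
        refine (mul_dvd_mul hΩ (dvd_mul_left _ _)).trans (h1.trans (dvd_of_eq (by ring)))
      obtain ⟨i, h9, h10⟩ := h7 r hr ((hr.dvd_mul.1 h8).resolve_left fun h =>
        not_dvd_card hrp (hr.dvd_of_dvd_pow h))
      exact h9 (Nat.dvd_of_mul_dvd_mul_left two_pos (h.trans (c_dvd rfl ((dvd_pow_sub_one_iff (by omega) _).1 h10))))
    · have := Nat.le_of_dvd (by have := hr.two_le; omega) (c_le_sub_one (F := F) hrp hr2 rfl rfl)
      have := hr.two_le
      unfold CfsgLib.ElusF.cc at h
      omega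
  · rintro ⟨rfl, rfl, rfl, ho⟩ x hx ⟨z, hz⟩ hns
    have hp2 : 2 ≠ p := odd_card_iff'.1 ho
    have h2 : (2 : F) ≠ 0 := two_ne_zero_iff.2 hp2
    have hx' := mem_spGL_iff_sm.1 hx
    have mk : ∀ y ∈ spIso (spB (Fin 2) F), SemiK L y → (∀ Y ∈ Cfsg.spGL 2 F, glEquiv Y = y →
        IsConj (x : Matrix (Fin 2 ⊕ Fin 2) (Fin 2 ⊕ Fin 2) F) Y) →
        ∃ g ∈ Cfsg.spGL 2 F, g⁻¹ * x * g ∈ subalgebraNormalizer K := fun y hy h1 h => by
      obtain ⟨Y, rfl⟩ := glEquiv.surjective y
      have hY := (mem_spGL_iff Y).2 hy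
      refine sp_mem scalars_le_normalizer ((hN Y _ (glEquiv_apply Y)).2 h1) (mem_spGL_iff_sm.1 hY)
        one_ne_zero (by simpa using hx') (by simpa using h Y hY rfl) (k := 2 * 2)
        (by rw [Nat.cast_mul]; exact mul_ne_zero h2 h2) ?_
      rw [one_smul, pow_mul]
      rcases pow_cases_of_sm (det_J_ne 2) hx' (by simpa using hz) with h | h <;> simp [h]
    rcases pow_cases_of_sm (det_J_ne 2) hx' (by simpa using hz) with h | h
    · rw [sq] at h
      obtain ⟨y, h3, h4, h5, h6⟩ := exists_semi_invol hrK hA hf hB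
      refine mk y h3 h4 fun Y hY e => ?_
      subst e
      have h7 : (Y : Matrix (Fin 2 ⊕ Fin 2) (Fin 2 ⊕ Fin 2) F) * Y = 1 := by
        rw [← map_mul, glEquiv.map_eq_one_iff] at h5
        simpa using congrArg Units.val h5
      refine (rat_two hp2 h).isConj hp2 (rat_two hp2 h7) ?_
      rw [rank_invol_four hp2 hx' h (by simpa using hns 1) (by simpa using hns (-1)),
        rank_invol_four hp2 (mem_spGL_iff_sm.1 hY) h7 (fun e => h6 fun c v => ?_) fun e => h6 fun c v => ?_]
      all_goals simp [glEquiv_apply, e, neg_mulVec]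
    · obtain ⟨T, h3, h4⟩ := alt_exists_neg_one rfl (ofAlt_nondeg f hA hf)
      have h5 : ∀ v, T (T v) = -v := fun v => by simpa [sq] using LinearMap.congr_fun h4 v
      let t : _ ≃ₗ[L] _ := LinearEquiv.ofLinearMap T (-T) (by ext1 v; simp [h5]) (by ext1 v; simp [h5])
      refine mk (t.restrictScalars F) (fun u v => ?_) (semiK_restrict t) fun Y hY e =>
        isConj_of_sq_neg hp2 (det_J_ne 2) hx' (mem_spGL_iff_sm.1 hY) (by rw [← sq, h]) ?_
      · rw [hB, hB]
        exact congrArg _ ((ofAlt_isIso f hA _).1 h3 u v)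
      · refine toLin'.injective (LinearMap.ext fun v => ?_)
        rw [toLin'_apply, ← mulVec_mulVec, ← glEquiv_apply, ← glEquiv_apply, e]
        exact (h5 v).trans (by simp [neg_mulVec])

end Cfsg.Agent.S5975
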