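import Cfsg.Statements.S5976
import Cfsg.Agent.Lib.ElusF.SpUni

set_option autoImplicit false
open scoped MatrixGroups
open Cfsg

namespace Cfsg.Agent.S5976

/-- Elements of prime order of PSp_n(q), q odd, and the subgroups of type GU_{n/2}(q). Here `T = PSp_{2d}(F)` for a field `F` with `q` elements, `q` odd, `d ≥ 2`, realised through the matrices preserving the standard alternating form `f`; `K` is a subalgebra of the `2d × 2d` matrices that is a field of degree 2 over `F`, closed under taking adjoints for `f` but not consisting of self-adjoint elements (so `F^{2d}` becomes a `d`-dimensional space over `K ≅ F_{q²}` on which `f` is the trace of a multiple of a non-degenerate hermitian form); `H` is the subgroup of `T` normalizing `K` — the symplectic maps that are `K`-linear or `K`-semilinear, a subgroup of type GU_d(q) (maximality is not assumed). Ω is the set of cosets of `H` in `T`, so an element of `T` of prime order `r` (`x ∈ T` with `x^r` scalar, `x` not scalar) fixes a point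 of Ω exactly when some `T`-conjugate of `x` normalizes `K`. Let `r` be a prime dividing the index of `H`. Then every element of `T` of order `r` fixes a point of Ω if and only if `r = 2`. -/
theorem result {F : Type*} [Field F] [Fintype F] {p : ℕ} [Fact p.Prime] [CharP F p] {q : ℕ} (hq : Fintype.card F = q)
    (hodd : Odd q) (d : ℕ) (hd : 2 ≤ d)
    (K : Subalgebra F (Matrix (Fin d ⊕ Fin d) (Fin d ⊕ Fin d) F)) (hK : Cfsg.Geo.IsFieldSubalgebra 2 K)
    (hKf : Cfsg.Geo.IsAdjointClosedFor (Cfsg.sympForm d F) K) (hKns : ¬ Cfsg.Geo.IsSelfAdjointFor (Cfsg.sympForm d F) K)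
    (r : ℕ) [Fact r.Prime]
    (hΩ : r ∣ (Cfsg.Geo.subalgebraNormalizer K).relIndex (Cfsg.spGL d F)) :
    (∀ x ∈ Cfsg.spGL d F, (∃ z : F, ((x ^ r : GL (Fin d ⊕ Fin d) F) : Matrix (Fin d ⊕ Fin d) (Fin d ⊕ Fin d) F) = z • (1 : Matrix (Fin d ⊕ Fin d) (Fin d ⊕ Fin d) F)) →
      (∀ z : F, (x : Matrix (Fin d ⊕ Fin d) (Fin d ⊕ Fin d) F) ≠ z • (1 : Matrix (Fin d ⊕ Fin d) (Fin d ⊕ Fin d) F)) →
      ∃ g ∈ Cfsg.spGL d F, g⁻¹ * x * g ∈ Cfsg.Geo.subalgebraNormalizer K) ↔ r = 2 := by
  open CfsgLib.ElusH CfsgLib.Elusive CfsgLib.MatConj CfsgLib.ElusF CfsgLib.Asch CfsgLib.Forms CfsgLib.ClMax CfsgLib.Elus2 Matrix Polynomial Cfsg.Geo Module in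
  classical
  change Elu _ _ r ↔ _
  subst hq
  have hr : r.Prime := Fact.out
  have hp2 : 2 ≠ p := odd_card_iff'.1 hodd
  have h2 : (2 : F) ≠ 0 := two_ne_zero_iff.2 hp2
  haveI : Nonempty (Fin d) := ⟨⟨0, by omega⟩⟩
  refine with_ext_field hK fun L _ _ _ _ _ hrK hdim hmem hmem' hN => ?_
  have hfd' : FiniteDimensional L (Fin d ⊕ Fin d → F) := Module.Finite.of_finite
  have hdL : finrank L (Fin d ⊕ Fin d → F) = d := by
    rw [Fintype.card_sum, Fintype.card_fin] at hdim
    omega
  obtain ⟨σ, ω, ε, hdata⟩ := exists_GUData (K := L) (spB_isAlt (Fin d) F) (spB_nondegenerate (Fin d) F) h2 hrK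
    (fun k => by
      obtain ⟨a, ha, h⟩ := hmem k
      obtain ⟨a', ha', h'⟩ := hKf a ha
      obtain ⟨k', hk'⟩ := hmem' a' ha'
      exact ⟨k', fun u v => by simpa only [spB_eq_sympForm, h, hk'] using h' u v⟩)
    (fun h => hKns fun a ha u v => by
      obtain ⟨k, hk⟩ := hmem' a ha
      simpa only [spB_eq_sympForm, hk] using h k u v)
  have hG := hdata _ le_rfl fun g hg _ => hg
  constructor
  · intro H
    by_contra hr2
    by_cases hrp : r = p
    · subst hrp
      obtain ⟨x, hx, h3, h4⟩ := sp_transv (F := F) (p := r) (m := d) (by omega)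
      have := rk_of_ci_field hK (H.ci hx h3) 1
      rw [h4, Nat.dvd_one, Fintype.card_sum, Fintype.card_fin] at this
      omega
    obtain ⟨x, hx, h3, h4, h5⟩ := sp_exists_ss hrp hr2 one_pos
      ((mul_one _).trans_le (cc_le_of_dvd hrp hr2 hΩ))
    obtain ⟨g, hg, h6⟩ := H x hx (by simpa using h3.1) h3.2
    have h7 : (g⁻¹ * x * g) ^ r = 1 := by simpa [h4] using conj_pow (a := g⁻¹) (b := x) (i := r)
    have hy := mul_mem (mul_mem (inv_mem hg) hx) hg
    have e := rk_of_isConj (isConj_conj g x) 1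
    generalize g⁻¹ * x * g = y at h6 h7 hy e
    have h8 := commute_of_coprime hK h6 ((Nat.coprime_primes hr Nat.prime_two).2 hr2) (z := 1)
      (by simpa using congrArg Units.val h7)
    have h1 := relIndex_mul_dvd (subalgebraNormalizer K) (Cfsg.spGL d F)
      (glEquiv.symm.toMonoidHom.comp ((resHom F L _).comp hG.P.isom.subtype))
      (glEquiv.symm.injective.comp (resHom_injective.comp Subtype.val_injective))
      (fun t => (hN _ _ fun v => by rw [← glEquiv_apply]; simp; rfl).2 (semiK_restrict t.1))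
      (fun t => (mem_spGL_iff _).2 fun u v => by
        simp
        exact gu_spIso hG t.2 u v)
    have hq : 1 < Fintype.card F := Fintype.one_lt_card
    rw [gu_card hG hrK hdL, card_spGL, spo_eq_uo] at h1
    have h9 := Nat.dvd_of_mul_dvd_mul_right (Nat.pos_of_ne_zero (uo_ne_zero hq d))
      ((mul_dvd_mul hΩ (dvd_mul_left _ _)).trans (h1.trans (dvd_of_eq (by rw [mul_comm (uo _ _), ← mul_assoc]))))
    have h10 := gu_rank hG hrK hrp hr2 (ord_mod_four hr2 (by omega) ((hr.dvd_mul.1 h9).resolve_left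
        fun h => not_dvd_card hrp (hr.dvd_of_dvd_pow h)))
      (T := toLin' (y : Matrix (Fin d ⊕ Fin d) (Fin d ⊕ Fin d) F))
      (fun c v => by
        obtain ⟨a, ha, h⟩ := hmem c
        rw [h, h, toLin'_apply, toLin'_apply, mulVec_mulVec, mulVec_mulVec, (h8 a ha).eq])
      ((mem_spGL_iff y).1 hy)
      (by rw [← toLin'_pow, ← Units.val_pow_eq_pow_val, h7]; simp [End.one_eq_id])
    rw [End.one_eq_id, ← toLin'_one, ← map_sub] at h10
    have h11 : 2 * CfsgLib.ElusF.cc F r ∣ rk (x : Matrix (Fin d ⊕ Fin d) (Fin d ⊕ Fin d) F) 1 := by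
      rwa [e, rk_one]
    have := cc_pos (F := F) hrp hr2
    rw [rk_one, h5] at h11
    have := Nat.le_of_dvd (by omega) h11
    omega
  · rintro rfl x hx ⟨z, hz⟩ -
    have hx' := mem_spGL_iff_sm.1 hx
    have mk : ∀ y ∈ spIso (spB (Fin d) F), SemiK L y → (∀ Y ∈ Cfsg.spGL d F, glEquiv Y = y →
        IsConj (x : Matrix (Fin d ⊕ Fin d) (Fin d ⊕ Fin d) F) Y) →
        ∃ g ∈ Cfsg.spGL d F, g⁻¹ * x * g ∈ subalgebraNormalizer K := fun y hy h1 h => by
      obtain ⟨Y, rfl⟩ := glEquiv.surjective y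
      have hY := (mem_spGL_iff Y).2 hy
      refine sp_mem scalars_le_normalizer ((hN Y _ (glEquiv_apply Y)).2 h1) (mem_spGL_iff_sm.1 hY)
        one_ne_zero (by simpa using hx') (by simpa using h Y hY rfl) (k := 2 * 2)
        (by rw [Nat.cast_mul]; exact mul_ne_zero h2 h2) ?_
      rw [one_smul, pow_mul]
      rcases pow_cases_of_sm (det_J_ne d) hx' (by simpa using hz) with h | h <;> simp [h]
    rcases pow_cases_of_sm (det_J_ne d) hx' (by simpa using hz) with h | h
    · rw [sq] at h
      have h3 := det_of_sq hp2 h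
      rw [hx'.det_alt (det_J_ne d) (J_transpose _ _) (by rintro (i | i) <;> simp [J])] at h3
      obtain ⟨s, hs⟩ := (neg_one_pow_eq_one_iff_even (fun h => h2 (by linear_combination -h))).1 h3.symm
      have h4 := rank_le_card_height ((x : Matrix (Fin d ⊕ Fin d) (Fin d ⊕ Fin d) F) - 1)
      obtain ⟨y, h5, h6, h7, h8⟩ := gu_invol hG hrK (s := s) (by simp at h4; omega)
      refine mk y h5 h6 fun Y hY e => ?_
      subst e
      refine (rat_two hp2 h).isConj hp2 (rat_two hp2 ?_) ?_
      · rw [← map_mul, glEquiv.map_eq_one_iff] at h7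
        simpa using congrArg Units.val h7
      · rw [hs, ← two_mul, ← h8, End.one_eq_id, ← toLin'_one]
        exact congrArg (fun T => finrank F (LinearMap.range T)) (map_sub toLin' _ _).symm
    · obtain ⟨y, h3, h4, h5⟩ := gu_neg hG
      refine mk y h3 h4 fun Y hY e =>
        isConj_of_sq_neg hp2 (det_J_ne d) hx' (mem_spGL_iff_sm.1 hY) (by rw [← sq, h]) ?_
      refine toLin'.injective (LinearMap.ext fun v => ?_)
      rw [toLin'_apply, ← mulVec_mulVec, ← glEquiv_apply, ← glEquiv_apply, e]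
      exact (h5 v).trans (by simp)

end Cfsg.Agent.S5976
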