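import Cfsg.Statements.S5979
import Cfsg.Agent.Lib.ElusF.Tensor

set_option autoImplicit false
open scoped MatrixGroups
open Cfsg

namespace Cfsg.Agent.S5979

/-- Elements of prime order of PSL_n(q) and the stabilizers of tensor decompositions with factors of different dimensions. Here `T = PSL_n(F)` for a field `F` with `q` elements and `n = a·b` with `2 ≤ a < b`; a tensor decomposition `F^n ≅ F^a ⊗ F^b` is given by a bijection `e` of index sets and a change of basis `P`, and `H` is the subgroup of matrices of determinant 1 in its stabilizer (the conjugate by `P` of the group of Kronecker products `g₁ ⊗ g₂`) — a subgroup of type GL_a(q) ⊗ GL_b(q) (maximality is not assumed); Ω is the set of cosets of `H` in `T`, so an element of `T` of prime order `r` (a matrix `x` of determinant 1 with `x^r` scalar, `x` not scalar) fixes a point of Ω exactly when some conjugate of `x` by a matrix of determinant 1 lies in `H`. Let `r` be a prime dividing the index of `H`. Then every element of `T` of order `r` fixes a point of Ω if and only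 if `r = 2`, `a = 2`, `q` is odd and `(q − 1)_2 ≤ (n)_2` (2-parts). -/
theorem result {F : Type*} [Field F] [Fintype F] {p : ℕ} [Fact p.Prime] [CharP F p] {q : ℕ} (hq : Fintype.card F = q)
    (n a b : ℕ) (hab : n = a * b) (ha : 2 ≤ a) (hlt : a < b) (e : Fin n ≃ Fin a × Fin b) (P : GL (Fin n) F)
    (r : ℕ) [Fact r.Prime]
    (hΩ : r ∣ (Cfsg.Geo.tensorProductSubgroup a b e P).relIndex (Cfsg.Geo.specialLinear (Fin n) F)) :
    (∀ x ∈ Cfsg.Geo.specialLinear (Fin n) F, (∃ z : F, ((x ^ r : GL (Fin n) F) : Matrix (Fin n) (Fin n) F) = z • (1 : Matrix (Fin n) (Fin n) F)) →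
      (∀ z : F, (x : Matrix (Fin n) (Fin n) F) ≠ z • (1 : Matrix (Fin n) (Fin n) F)) →
      ∃ g ∈ Cfsg.Geo.specialLinear (Fin n) F, g⁻¹ * x * g ∈ Cfsg.Geo.tensorProductSubgroup a b e P) ↔
    (r = 2 ∧ a = 2 ∧ Odd q ∧ padicValNat 2 (q - 1) ≤ padicValNat 2 n) := by
  open CfsgLib.ElusH CfsgLib.Elusive CfsgLib.MatConj CfsgLib.ElusF CfsgLib.Asch Matrix Polynomial in
  open scoped Kronecker in
  classical
  have hn6 : 6 ≤ n := by nlinarith
  haveI : Nonempty (Fin n) := ⟨⟨0, by omega⟩⟩
  subst hq
  have hr' : r.Prime := Fact.out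
  change Elu _ _ r ↔ _
  constructor
  · intro H
    by_contra hne
    suffices H' : ∃ A : Matrix (Fin n) (Fin n) F, A.det = 1 ∧ PE r A ∧
        ¬ CI (Cfsg.Geo.tensorProductSubgroup a b e P) A by
      obtain ⟨A, h3, h4, h5⟩ := H'
      exact h5 (H.ci_of_det h3 h4)
    by_cases hrp : r = p
    · subst hrp
      obtain ⟨A, -, -, -, h6, h7, h8⟩ := exists_transv (F := F) (ι := Fin n) (p := r)
        (by simp; omega)
      refine ⟨A, h6, h7, fun hc => ?_⟩
      have := le_rk_of_ci_tensor hlt.le hc h7.2 1
      rw [rk_one] at this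
      omega
    by_cases hq : r ∣ Fintype.card F - 1
    · by_cases hv : padicValNat r (Fintype.card (Fin n)) < padicValNat r (Fintype.card F - 1)
      · obtain ⟨A, c, ω, -, -, -, h1, h2, -, h3, -⟩ := exists_refl hv (by simp; omega)
        refine ⟨A, h1, h2, fun hc => ?_⟩
        have := le_rk_of_ci_tensor hlt.le hc h2.2 c
        omega
      obtain ⟨ω, -, hω, hωr⟩ := exists_root hq
      obtain ⟨A, h1, h2, -, h3, h4⟩ := exists_pair_diag (ι := Fin n) hr'.ne_zero hω hωr
        (by simp; omega)
      refine ⟨A, h1, h2, fun hc => ?_⟩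
      by_cases hr2 : r = 2
      · subst hr2
        have := le_rk_of_ci_tensor hlt.le hc h2.2 1
        exact hne ⟨rfl, by omega, (odd_card_iff' (F := F)).2 hrp, by simpa using hv⟩
      · rcases ci_tensor_cases hc with ⟨h, hh⟩ | ⟨h5, -⟩
        · have h5 := h4 fun h => hω (eq_one_of_sq_of_odd (hr'.odd_of_ne_two hr2) h hωr)
          rw [rk_of_edM hh, rk_one_kronecker, Fintype.card_fin, Fintype.card_fin, hab] at h5
          have h6 : a ∣ 1 := (Nat.dvd_add_right (dvd_mul_right a _)).1 (h5 ▸ dvd_mul_right a b)
          have := Nat.le_of_dvd one_pos h6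
          omega
        · have := h5 1
          omega
    · obtain ⟨A, π, -, -, h3, h4, h5, h6⟩ := exists_one_block (F := F) (ι := Fin n) hrp hq
        (ord_le_of_dvd_card hrp (hΩ.trans (relIndex_dvd_card' _ _)))
      have hi := ord_pos (F := F) hrp
      rw [← rk_one] at h6
      refine ⟨A, h4, h5, fun hc => ?_⟩
      rcases ci_tensor_cases hc with ⟨h, hh⟩ | ⟨h7, g, h, hg, hh, hg', hE⟩
      · have h7 := pow_eq_of_edM hh (k := r) (z := 1) (by simpa using h3)
        have h8 : h ^ r = 1 := by
          have := rk_eq_zero_iff.2 h7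
          rw [kronecker_pow', one_pow, rk_one_kronecker, Fintype.card_fin, mul_eq_zero] at this
          simpa using rk_eq_zero_iff.1 (this.resolve_left (by omega))
        obtain ⟨k, hk⟩ := ord_dvd_rank hrp h8
        rw [rk_of_edM hh, rk_one_kronecker, rk_one, hk, Fintype.card_fin] at h6
        rcases Nat.eq_zero_or_pos k with rfl | hk0
        · simp at h6; omega
        · have := Nat.mul_le_mul ha (Nat.mul_le_mul_left
            (orderOf (Fintype.card F : ZMod r)) hk0)
          omega
      · have h8 := rk_eq_zero_iff.2 (pow_eq_of_edM hE (k := r) (z := 1) (by simpa using h3))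
        rw [kronecker_pow'] at h8
        have h9 : ∃ z : F, g ^ r = z • 1 := by
          by_contra h9
          push Not at h9
          have := card_le_rk_kronecker h9 (B := h ^ r) (by simp [hh]) 1
          rw [h8, Fintype.card_fin] at this
          omega
        obtain ⟨c, hc0, hc⟩ := PE.split ⟨h9, hg'⟩ hg hq
        have h10 := ord_dvd_rank hrp hc
        rw [← rk_one] at h10
        have h11 := Nat.le_of_dvd (Nat.pos_of_ne_zero fun h => (PE.smul ⟨h9, hg'⟩ hc0).2 1
          (rk_eq_zero_iff.1 h)) h10
        have h12 := rk_le (c • g) 1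
        have := h7 1
        rw [Fintype.card_fin] at h12
        omega
  · rintro ⟨rfl, rfl, ho, hv⟩
    have hp := (odd_card_iff' (F := F)).1 ho
    refine (elu_SL_iff (p := p) _ (Or.inr rfl)).2 fun A hA hP => ?_
    rcases invol_cases hp (by simpa using hv) hA hP with ⟨c, k, s, hc, h1, h⟩ | ⟨z, hz, hz'⟩
    · refine CI.of_smul scalars_le_tensor hc ?_
      have hv : Valid (Multiset.replicate k ((X - 1 : F[X]), 1) + Multiset.replicate s (X + 1, 1)) :=
        valid_of_le (h ▸ edM_valid _) (add_le_add ((Multiset.replicate_le_replicate _).2 (by omega))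
          ((Multiset.replicate_le_replicate _).2 (by omega)))
      have e1 : (X + 1 : F[X]).natDegree = 1 := by simpa using natDegree_X_add_C (1 : F)
      obtain ⟨B, hB⟩ := exists_edM_eq (n := Fin b) hv (by
        simp [natDegree_X_sub_one, e1] at h1 ⊢; omega)
      have hE : edM (c • A) = edM ((1 : Matrix (Fin 2) (Fin 2) F) ⊗ₖ B) := by
        rw [edM_one_kronecker, hB, h, Fintype.card_fin, smul_add, Multiset.nsmul_replicate,
          Multiset.nsmul_replicate]
      refine ci_tensor_iff.2 ⟨1, B, by simp, ?_, hE⟩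
      have h2 : IsUnit (c • A) := (isUnit_iff_isUnit_det _).2 (by simp [hA, hc])
      rw [isUnit_iff_edM, hE, ← isUnit_iff_edM, isUnit_iff_isUnit_det, det_kronecker] at h2
      simpa using h2
    · obtain ⟨m, hm, h⟩ := edM_eq_nsM hz hz'
      obtain rfl : m = b := by simp at hm; omega
      have hz0 : z ≠ 0 := fun h => hz' 0 (by simp [h])
      exact ci_tensor_iff.2 ⟨!![0, z; 1, 0], 1, by simp [hz0], by simp, by
        rw [h, kronecker_one]; rfl⟩

end Cfsg.Agent.S5979
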