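import Cfsg.Statements.S5980
import Cfsg.Agent.Lib.ElusF.SpTest
import Cfsg.Agent.Lib.ElusF.Orth

set_option autoImplicit false
open scoped MatrixGroups
open Cfsg

namespace Cfsg.Agent.S5980

/-- Elements of prime order of PSp_n(q), q odd, and the stabilizers of tensor decompositions Sp_a(q) ⊗ O_b(q). Here `T = PSp_{2d}(F)` for a field `F` with `q` elements, `q` odd, `d ≥ 2`, realised through the matrices preserving the standard alternating form `f`; `2d = a·b` with `a` even, `b ≥ 3`, and the bijection `e` and change of basis `P` exhibit `f` as a non-zero scalar multiple of the tensor product of a non-degenerate alternating form `f₁` on `F^a` and a non-degenerate symmetric bilinear form `f₂` on `F^b`; `H` is the subgroup of `T` stabilizing this tensor decomposition (the elements of `T` in the conjugate by `P` of the group of Kronecker products) — a subgroup of type Sp_a(q) ⊗ O^ε_b(q) (maximality is not assumed). Ω is the set of cosets of `H` in `T`, so an element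 of `T` of prime order `r` (`x ∈ T` with `x^r` scalar, `x` not scalar) fixes a point of Ω exactly when some `T`-conjugate of `x` lies in `H`. Let `r` be a prime dividing the index of `H`. Then every element of `T` of order `r` fixes a point of Ω if and only if `r = 2` and `a = 2`. -/
theorem result {F : Type*} [Field F] [Fintype F] {p : ℕ} [Fact p.Prime] [CharP F p] {q : ℕ} (hq : Fintype.card F = q)
    (hodd : Odd q) (d : ℕ) (hd : 2 ≤ d) (a b : ℕ) (hab : 2 * d = a * b) (ha : Even a) (ha2 : 2 ≤ a) (hb : 3 ≤ b)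
    (e : (Fin d ⊕ Fin d) ≃ Fin a × Fin b) (P : GL (Fin d ⊕ Fin d) F)
    (f₁ : (Fin a → F) → (Fin a → F) → F) (f₂ : (Fin b → F) → (Fin b → F) → F)
    (hf₁ : Cfsg.Geo.IsSymplecticForm f₁) (hf₂ : Cfsg.Geo.IsSymmetricForm f₂)
    (hS : Cfsg.Geo.IsTensorFormStructure id (Cfsg.sympForm d F) f₁ f₂ e P)
    (r : ℕ) [Fact r.Prime]
    (hΩ : r ∣ (Cfsg.Geo.tensorProductSubgroup a b e P).relIndex (Cfsg.spGL d F)) :
    (∀ x ∈ Cfsg.spGL d F, (∃ z : F, ((x ^ r : GL (Fin d ⊕ Fin d) F) : Matrix (Fin d ⊕ Fin d) (Fin d ⊕ Fin d) F) = z • (1 : Matrix (Fin d ⊕ Fin d) (Fin d ⊕ Fin d) F)) →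
      (∀ z : F, (x : Matrix (Fin d ⊕ Fin d) (Fin d ⊕ Fin d) F) ≠ z • (1 : Matrix (Fin d ⊕ Fin d) (Fin d ⊕ Fin d) F)) →
      ∃ g ∈ Cfsg.spGL d F, g⁻¹ * x * g ∈ Cfsg.Geo.tensorProductSubgroup a b e P) ↔ (r = 2 ∧ a = 2) := by
  open CfsgLib.ElusH CfsgLib.Elusive CfsgLib.MatConj CfsgLib.ElusF CfsgLib.Asch Matrix Polynomial Cfsg.Geo in
  classical
  change Elu _ _ r ↔ _
  subst hq
  have hr : r.Prime := Fact.out
  have hp2 : 2 ≠ p := (odd_card_iff' (F := F)).1 hodd
  have h2 : (2 : F) ≠ 0 := two_ne_zero_iff.2 hp2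
  obtain ⟨c, hc, hS⟩ := hS
  have key := fun M => sm_coord (G := J (Fin d) F) (e := e) (P := P) (M := M) hc
    fun x y => (hS x y).trans (by rw [← formOfGram_eq]; rfl)
  obtain ⟨g1, g2, g3⟩ := gram_symp hf₁
  obtain ⟨g4, g5⟩ := gram_symm hf₂
  have low : ∀ A, CI (tensorProductSubgroup a b e P) A → (∀ c : F, A ≠ c • 1) → min a b ≤ rk A 1 :=
    fun A h hA => by
      rcases le_total a b with h1 | h1
      · exact (min_le_left _ _).trans (le_rk_of_ci_tensor h1 h hA 1)
      · exact (min_le_right _ _).trans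
          (le_rk_of_ci_tensor h1 (tensorProductSubgroup_swap e P ▸ h) hA 1)
  haveI : Nonempty (Fin d) := ⟨⟨0, by omega⟩⟩
  haveI : Nonempty (Fin b) := ⟨⟨0, by omega⟩⟩
  constructor
  · intro H
    by_cases hrp : r = p
    · subst hrp
      obtain ⟨x, hx, h3, h4⟩ := sp_transv (F := F) (p := r) (m := d) (by omega)
      have := low _ (H.ci hx h3) h3.2
      omega
    by_cases hr2 : r = 2
    · subst hr2
      obtain ⟨x, hx, h3, -, h4⟩ := sp_invol h2 hd
      have := low _ (H.ci hx h3) h3.2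
      omega
    obtain ⟨x, hx, h3, h4, h5⟩ := sp_exists_ss hrp hr2 one_pos
      ((mul_one _).trans_le (cc_le_of_dvd hrp hr2 hΩ))
    obtain ⟨g, hg, h6⟩ := H x hx (by simpa using h3.1) h3.2
    obtain ⟨u, v, h7⟩ := mem_tensorProductSubgroup'.1 h6
    have h8 := mem_spGL_iff_sm.1 (mul_mem (mul_mem (inv_mem hg) hx) hg)
    have h9 : edM (x : Matrix (Fin d ⊕ Fin d) (Fin d ⊕ Fin d) F) = _ :=
      (isConj_iff_edM.1 (isConj_conj g x)).trans (h7 ▸ edM_coord _)
    refine (not_kron hrp hr2 g1 g4 (by simpa using ha2) (by simpa using hb) u.det_ne_zero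
      v.det_ne_zero ((key _).1 (h7 ▸ h8)) ?_ ?_).elim
    · simpa using pow_eq_of_edM h9 (k := r) (z := 1) (by simpa using congrArg Units.val h4)
    · rw [← rk_one, ← rk_of_edM h9, rk_one, h5, mul_one]
  · rintro ⟨rfl, rfl⟩ x hx ⟨z, hz⟩ -
    have hx' := mem_spGL_iff_sm.1 hx
    have mk : ∀ (u : Matrix (Fin 2) (Fin 2) F) (v : Matrix (Fin b) (Fin b) F),
        Sm (RingHom.id F) (gramMatrix f₁) u 1 → Sm (RingHom.id F) (gramMatrix f₂) v 1 →
        (Sm (RingHom.id F) (J (Fin d) F) (coord e P (kroneckerMap (· * ·) u v)) 1 →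
          IsConj (x : Matrix (Fin d ⊕ Fin d) (Fin d ⊕ Fin d) F) (coord e P (kroneckerMap (· * ·) u v))) →
        ∃ g ∈ Cfsg.spGL d F, g⁻¹ * x * g ∈ tensorProductSubgroup 2 b e P := fun u v hu hv h => by
      have h1 := (key _).2 (by simpa using hu.kron hv)
      obtain ⟨y, -, hy⟩ := exists_spGL h1
      obtain ⟨u, rfl⟩ := exists_GL (hu.det_ne_zero g1 one_ne_zero)
      obtain ⟨v, rfl⟩ := exists_GL (hv.det_ne_zero g4 one_ne_zero)
      refine sp_mem scalars_le_tensor (mem_tensorProductSubgroup'.2 ⟨u, v, hy⟩) (hy ▸ h1) one_ne_zero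
        (by simpa using hx') (by simpa [hy] using h h1) (k := 2 * 2) (by rw [Nat.cast_mul]; exact mul_ne_zero h2 h2) ?_
      rw [one_smul, pow_mul]
      rcases pow_cases_of_sm (det_J_ne d) hx' (by simpa using hz) with h | h <;> simp [h]
    rcases pow_cases_of_sm (det_J_ne d) hx' (by simpa using hz) with h | h
    · rw [sq] at h
      have h3 := det_of_sq hp2 h
      rw [hx'.det_alt (det_J_ne d) (J_transpose _ _) (by rintro (i | i) <;> simp [J])] at h3
      obtain ⟨s, hs⟩ := (neg_one_pow_eq_one_iff_even (fun h => h2 (by linear_combination -h))).1 h3.symm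
      have h4 := rank_le_card_height ((x : Matrix (Fin d ⊕ Fin d) (Fin d ⊕ Fin d) F) - 1)
      obtain ⟨v, h5, h6, h7⟩ := exists_orth_invol h2 g4 g5 (s := s) (by simp at h4 ⊢; omega)
      refine mk 1 v (Sm.one _) h5 fun _ => (rat_two hp2 h).isConj hp2 (rat_two hp2 ?_) ?_
      · rw [← map_mul, ← mul_kronecker_mul, h6]; simp
      · rw [← rk_one (coord _ _ _), rk_of_edM (edM_coord _), rk_one_kronecker, rk_one, h7, hs]
        simp [two_mul]
    · have h3 : gramMatrix f₁ 1 0 = -gramMatrix f₁ 0 1 := by simpa using congrFun (congrFun g2 0) 1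
      refine mk !![0, -1; 1, 0] 1 ?_ (Sm.one _) fun h1 =>
        isConj_of_sq_neg hp2 (det_J_ne d) hx' h1 (by rw [← sq, h]) ?_
      · rw [sm_id]
        ext i j
        fin_cases i <;> fin_cases j <;> simp [mul_apply, Fin.sum_univ_two, g3, h3]
      · rw [← map_mul, ← mul_kronecker_mul,
          show (!![0, -1; 1, 0] : Matrix (Fin 2) (Fin 2) F) * !![0, -1; 1, 0] = (-1 : F) • 1 by
            ext i j; fin_cases i <;> fin_cases j <;> simp, smul_kronecker]
        simp

end Cfsg.Agent.S5980
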