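import Cfsg.Statements.S5981
import Cfsg.Agent.Lib.ElusF.Orth

set_option autoImplicit false
open scoped MatrixGroups
open Cfsg

namespace Cfsg.Agent.S5981

/-- Elements of prime order of PSL_n(q), q odd, and the subgroups of orthogonal type. Here `T = PSL_n(F)` for a field `F` with `q` elements, `q` odd, `n ≥ 3`; `Q` is a non-degenerate quadratic form on `F^n` (of either type when `n` is even) and `H` is the subgroup of matrices of determinant 1 that preserve `Q` up to a scalar — a subgroup of type O^ε_n(q) (maximality is not assumed); Ω is the set of cosets of `H` in `T`, so an element of `T` of prime order `r` (a matrix `x` of determinant 1 with `x^r` scalar, `x` not scalar) fixes a point of Ω exactly when some conjugate of `x` by a matrix of determinant 1 preserves `Q` up to a scalar. Let `r` be a prime dividing the index of `H`, with `(n, r) ≠ (6, 3)`. Then every element of `T` of order `r` fixes a point of Ω if and only if `r = 2`, or `r ∈ {3, 5}`, `n = r` and `(q − 1)_r = r` (the `r`-part of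 `q − 1` is exactly `r`). The case `(n, r) = (6, 3)` is not covered by this statement. -/
theorem result {F : Type*} [Field F] [Fintype F] {p : ℕ} [Fact p.Prime] [CharP F p] {q : ℕ} (hq : Fintype.card F = q)
    (hodd : Odd q) (n : ℕ) (hn : 3 ≤ n) (Q : (Fin n → F) → F) (hQ : Cfsg.Geo.IsNondegenerateQuadraticForm Q)
    (r : ℕ) [Fact r.Prime] (hgap : ¬ (n = 6 ∧ r = 3))
    (hΩ : r ∣ (Cfsg.Geo.quadSimilarityGroup Q).relIndex (Cfsg.Geo.specialLinear (Fin n) F)) :
    (∀ x ∈ Cfsg.Geo.specialLinear (Fin n) F, (∃ z : F, ((x ^ r : GL (Fin n) F) : Matrix (Fin n) (Fin n) F) = z • (1 : Matrix (Fin n) (Fin n) F)) →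
      (∀ z : F, (x : Matrix (Fin n) (Fin n) F) ≠ z • (1 : Matrix (Fin n) (Fin n) F)) →
      ∃ g ∈ Cfsg.Geo.specialLinear (Fin n) F, g⁻¹ * x * g ∈ Cfsg.Geo.quadSimilarityGroup Q) ↔
    (r = 2 ∨ ((r = 3 ∨ r = 5) ∧ n = r ∧ padicValNat r (q - 1) = 1)) := by
  open CfsgLib.ElusH CfsgLib.Elusive CfsgLib.MatConj CfsgLib.ElusF CfsgLib.Asch Matrix Polynomial in
  classical
  haveI : Nonempty (Fin n) := ⟨⟨0, by omega⟩⟩
  subst hq
  have h2 : (2 : F) ≠ 0 := odd_card_iff.1 hodd
  have hp2 : 2 ≠ p := (two_ne_zero_iff (F := F)).1 h2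
  rw [quadSim_eq hQ h2] at hΩ ⊢
  have hf := symm_polar hQ
  generalize QuadraticMap.polar Q = f at hΩ hf
  have hs := isSesq0_of_bilin hf.bilinear
  obtain ⟨h0, h1⟩ := gram_symm hf
  have hr : r.Prime := Fact.out
  change Elu _ _ r ↔ _
  constructor
  · intro H
    by_contra hne
    obtain ⟨hr2, hex⟩ := not_or.1 hne
    suffices H' : ∃ A : Matrix (Fin n) (Fin n) F, A.det = 1 ∧ PE r A ∧
        ¬ CI (Cfsg.Geo.similarityGroup f) A by
      obtain ⟨A, h3, h4, h5⟩ := H'
      exact h5 (H.ci_of_det h3 h4)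
    by_cases hrp : r = p
    · subst hrp
      obtain ⟨A, h3, h4, h5, h6, h7, -⟩ := exists_transv (F := F) (ι := Fin n) (p := r)
        (by simp; omega)
      refine ⟨A, h6, h7, fun hc => ?_⟩
      obtain ⟨B, e, hB⟩ := exists_sm_one char_not_dvd_sub_one h5 hs hf.nondegenerate hc
      have := even_count_jt_of_symm h2 (nondeg_toBilin' h0) (fun u v => by
          rw [← gform_id, ← gform_id, ← hs.eq_gform, ← hs.eq_gform, hf.symm]) (A := B)
        (fun u v => by simpa [gform_id] using sm_iff.1 hB u v) (isNilpotent_sub_one_of_isConj e h3)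
        (j := 2) (by decide)
      rw [← jt_eq_of_isConj e, h4] at this
      simp [Multiset.count_replicate] at this
    · by_cases hq : r ∣ Fintype.card F - 1
      · exact not_ci_of_bad hr2 hq (by simpa using hn) (by simpa using hgap) (by simpa using hex) hs
          hf.nondegenerate fun _ _ => rfl
      · rcases Nat.even_or_odd n with he | ho
        · obtain ⟨k, hk⟩ : ∃ k, Fintype.card (Fin n) = 2 * k + 2 := by
            obtain ⟨m, hm⟩ := he
            exact ⟨m - 1, by simp; omega⟩
          have hm1 : (-1 : ZMod r) ≠ 1 := fun h => hr2 ((Nat.prime_dvd_prime_iff_eq hr Nat.prime_two).1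
            ((ZMod.natCast_eq_zero_iff 2 r).1 (by push_cast; linear_combination -h)))
          rcases index_symm_even hrp h2 hf hk hΩ with ⟨h3, h4⟩ | ⟨h3, h4⟩ | ⟨h3, h4⟩
          · exact not_ci_of_odd_ord hrp hr2 hq h3 h4 hf.bilinear hf.nondegenerate
          · obtain ⟨c, hc⟩ : orderOf (Fintype.card F : ZMod r) ∣ 2 * k + 2 := by
              rw [orderOf_dvd_iff_pow_eq_one, show 2 * k + 2 = (k + 1) * 2 by ring, pow_mul, h4]
              simp
            refine not_ci_symm_even hrp hr2 h2 hq hf hk (c := c) (by rw [hk, hc]) fun h => ?_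
            obtain ⟨c, rfl⟩ := h.1 h3
            have : k + 1 = orderOf (Fintype.card F : ZMod r) * c := by
              rw [mul_add] at hc; omega
            rw [this, pow_mul, pow_orderOf_eq_one, one_pow] at h4
            exact hm1 h4.symm
          · obtain ⟨c, hc⟩ := orderOf_dvd_of_pow_eq_one h4
            exact not_ci_symm_even hrp hr2 h2 hq hf hk (c := c + c) (by rw [hk, mul_add]; omega)
              fun h => h3 (h.2 ⟨c, rfl⟩)
        · obtain ⟨h3, h4⟩ := index_symm_odd hrp h2 hf (by simpa using ho) hΩ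
          exact not_ci_of_odd_ord hrp hr2 hq h3 h4 hf.bilinear hf.nondegenerate
  · rintro (rfl | ⟨h35, rfl, hv⟩)
    · exact (elu_SL_iff (p := p) _ (Or.inr rfl)).2 fun A hA hP =>
        ci_symm_two hp2 hf (by rw [hA]; exact one_ne_zero) hP
    · have hq : n ∣ Fintype.card F - 1 := dvd_of_one_le_padicValNat hv.ge
      have hrp : n ≠ p := by rintro rfl; exact char_not_dvd_sub_one hq
      have hr2 : n ≠ 2 := by omega
      refine (elu_SL_iff (p := p) _ (Or.inl hrp)).2 fun A hA hP => ?_
      obtain ⟨c, d, hc, hd, e, hsym⟩ := exc_symm hrp h35 hv hA hP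
      obtain ⟨k, t, ht, hE, htt⟩ := recip_of_diag hrp hd hsym
      refine (ci_symm_of_quadReal h2 hf (by simpa using hr.odd_of_ne_two hr2) ?_).of_smul
        (scalars_le_sim hs) hc
      rw [isConj_iff_edM.1 e, hE]
      exact quadReal_edOf_odd hr hrp hr2 h2 ht htt k

end Cfsg.Agent.S5981
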