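import Cfsg.Statements.S5982
import Cfsg.Agent.Lib.ElusF.Herm

set_option autoImplicit false
open scoped MatrixGroups
open Cfsg

namespace Cfsg.Agent.S5982

/-- Elements of prime order of PSL_n(q), q = q₀², and the subgroups of unitary type. Here `T = PSL_n(F)` for a field `F` with `q = q₀²` elements (`n ≥ 3`), `f` is a non-degenerate unitary form on `F^n` for the involutory automorphism `x ↦ x^{q₀}`, and `H` is the subgroup of matrices of determinant 1 that preserve `f` up to a scalar — a subgroup of type GU_n(q₀) (maximality is not assumed); Ω is the set of cosets of `H` in `T`, so an element of `T` of prime order `r` (a matrix `x` of determinant 1 with `x^r` scalar, `x` not scalar) fixes a point of Ω exactly when some conjugate of `x` by a matrix of determinant 1 preserves `f` up to a scalar. Let `r` be a prime dividing the index of `H`, with `r = 2` or `r` different from the characteristic `p`, and with `(n, r) ≠ (6, 3)`. Then every element of `T` of order `r` fixes a point of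 Ω if and only if either `r = 2` and (`p = 2` or `(n)_2 ≤ (q − 1)_2`), or `r ∈ {3, 5}`, `n = r` and `(q₀ − 1)_r = r`. (Odd `r = p` and the case `(n, r) = (6, 3)` are not covered by this statement.) -/
theorem result {F : Type*} [Field F] [Fintype F] {p : ℕ} [Fact p.Prime] [CharP F p] {q : ℕ} (hq : Fintype.card F = q)
    (q₀ : ℕ) (hq₀ : q = q₀ ^ 2) (n : ℕ) (hn : 3 ≤ n) (f : (Fin n → F) → (Fin n → F) → F) (hf : Cfsg.Geo.IsUnitaryFormPow q₀ f)
    (r : ℕ) [Fact r.Prime] (hr : r = 2 ∨ r ≠ p) (hgap : ¬ (n = 6 ∧ r = 3))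
    (hΩ : r ∣ (Cfsg.Geo.similarityGroup f).relIndex (Cfsg.Geo.specialLinear (Fin n) F)) :
    (∀ x ∈ Cfsg.Geo.specialLinear (Fin n) F, (∃ z : F, ((x ^ r : GL (Fin n) F) : Matrix (Fin n) (Fin n) F) = z • (1 : Matrix (Fin n) (Fin n) F)) →
      (∀ z : F, (x : Matrix (Fin n) (Fin n) F) ≠ z • (1 : Matrix (Fin n) (Fin n) F)) →
      ∃ g ∈ Cfsg.Geo.specialLinear (Fin n) F, g⁻¹ * x * g ∈ Cfsg.Geo.similarityGroup f) ↔
    ((r = 2 ∧ (p = 2 ∨ padicValNat 2 n ≤ padicValNat 2 (q - 1))) ∨ ((r = 3 ∨ r = 5) ∧ n = r ∧ padicValNat r (q₀ - 1) = 1)) := by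
  open CfsgLib.ElusH CfsgLib.Elusive CfsgLib.MatConj CfsgLib.ElusF CfsgLib.Asch Matrix Polynomial in
  classical
  haveI : Nonempty (Fin n) := ⟨⟨0, by omega⟩⟩
  subst hq
  have hF := hq₀
  obtain ⟨hs, h0, h1⟩ := gram_herm hF hf
  have hr' : r.Prime := Fact.out
  have hq2 := CfsgLib.Unitary.two_le_q hF
  have hfac := CfsgLib.Unitary.sq_sub_one_eq q₀ (by omega)
  have hodd : 2 ≠ p → Odd q₀ := fun h => by
    have := (odd_card_iff' (F := F)).2 h
    rw [hF] at this
    exact (Nat.odd_pow_iff two_ne_zero).1 this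
  have hfix : r ∣ q₀ - 1 → ∀ ω : F, ω ^ r = 1 → ω ^ q₀ = ω := by
    rintro ⟨k, hk⟩ ω hω
    rw [show q₀ = r * k + 1 by omega, pow_succ, pow_mul, hω, one_pow, one_mul]
  have hval : r ≠ 2 → r ∣ q₀ - 1 →
      padicValNat r (Fintype.card F - 1) = padicValNat r (q₀ - 1) := fun h2 h => by
    rw [hF, hfac, padicValNat.mul (by omega) (by omega), padicValNat.eq_zero_of_not_dvd, zero_add]
    intro h3
    have := Nat.dvd_sub h3 h
    rw [show q₀ + 1 - (q₀ - 1) = 2 by omega] at this
    exact h2 ((Nat.prime_dvd_prime_iff_eq hr' Nat.prime_two).1 this)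
  change Elu _ _ r ↔ _
  rw [elu_SL_iff (p := p) _ hr.symm]
  constructor
  · intro H
    by_contra hne
    obtain ⟨hr2, hex⟩ := not_or.1 hne
    suffices H' : ∃ A : Matrix (Fin n) (Fin n) F, A.det = 1 ∧ PE r A ∧
        ¬ CI (Cfsg.Geo.similarityGroup f) A by
      obtain ⟨A, h3, h4, h5⟩ := H'
      exact h5 (H A h3 h4)
    by_cases hr2' : r = 2
    · subst hr2'
      have hp : 2 ≠ p := fun h => hr2 ⟨rfl, Or.inl h.symm⟩
      obtain ⟨A, z, h3, h4, h5, h6⟩ := exists_nonsplit_mat (F := F) (ι := Fin n) (r := 2)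
        (two_dvd_of_odd ((odd_card_iff' (F := F)).2 hp))
        fun h => hr2 ⟨rfl, Or.inr (by simpa using h.1)⟩
      exact ⟨A, h3, h4, not_ci_herm_nonsplit hF (hodd hp) hf h5 h6⟩
    · have hrp := hr.resolve_left hr2'
      have hm1 : (-1 : ZMod r) ≠ 1 := fun h => hr2' ((Nat.prime_dvd_prime_iff_eq hr' Nat.prime_two).1
        ((ZMod.natCast_eq_zero_iff 2 r).1 (by push_cast; linear_combination -h)))
      obtain ⟨j, hj1, hj2, hj⟩ := index_herm hrp hF hf hΩ
      have hqj : (Fintype.card F : ZMod r) ^ j = 1 := by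
        rw [hF, Nat.cast_pow, ← neg_sq, ← pow_mul, mul_comm, pow_mul, hj]; simp
      by_cases hq : r ∣ Fintype.card F - 1
      · have h3 : r ∣ q₀ - 1 := by
          rw [hF, hfac] at hq
          refine ((Nat.Prime.dvd_mul hr').1 hq).resolve_left fun h => hm1 ?_
          have := (dvd_pow_add_one_iff (r := r) (q := q₀) 1).1 (by simpa using h)
          rw [pow_one] at this
          rw [← hj, this]; simp
        exact not_ci_of_bad hr2' hq (by simpa using hn) (by simpa using hgap)
          (by rw [hval hr2' h3]; simpa using hex) hs hf.nondegenerate (hfix h3)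
      · obtain ⟨A, π, h3, h4, h5, h6, h7, -⟩ := exists_one_block (F := F) (ι := Fin n) hrp hq
          ((Nat.le_of_dvd (by omega) (orderOf_dvd_of_pow_eq_one hqj)).trans hj2)
        refine ⟨A, h6, h7, fun hc => ?_⟩
        have := tilde_eq_of_ci hq (CfsgLib.Unitary.conj_conj hF) h5 h4 hs hf.nondegenerate hc
        obtain ⟨p', k, -, hp', -, hk⟩ := CfsgLib.Unitary.exists_char hF
        have hpp : p' = p := CharP.eq F hp' ‹CharP F p›
        clear hp'
        rw [hpp] at hk
        obtain ⟨t, ht⟩ := (tilde_eq_self_iff hr' hrp (CfsgLib.Unitary.conj_conj hF) (k := k)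
          (fun x => by rw [CfsgLib.Unitary.conj_apply, hk]) (mem_cyc_iff_cycFac.1 h3)).1 this
        rw [← Nat.cast_pow, ← Nat.cast_pow, ← hk, Nat.cast_pow] at ht
        rw [← ht, ← pow_mul, mul_comm, pow_mul, hqj, one_pow] at hj
        exact hm1 hj.symm
  · rintro (⟨rfl, h2⟩ | ⟨h35, rfl, hv⟩) A hA hP
    · by_cases hp : 2 = p
      · subst hp
        obtain ⟨b, hb, h⟩ := hP.split (by rw [hA]; exact one_ne_zero) char_not_dvd_sub_one
        exact (ci_herm_unip hF hf (isNilpotent_of_pow_char h)).of_smul (scalars_le_sim hs) hb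
      · obtain ⟨k, hk⟩ := hodd hp
        obtain ⟨b, hb, h⟩ := noNS_split hP hA ⟨by simpa using h2.resolve_left (Ne.symm hp),
          fun _ _ => by
            have : Fintype.card F = 4 * (k * (k + 1)) + 1 := by rw [hF, hk]; ring
            omega⟩
        obtain ⟨d, hd1, hd2⟩ := exists_isConj_diagonal hp
          (two_dvd_of_odd ((odd_card_iff' (F := F)).2 hp)) h
        refine ((ci_herm_diag hF hf (d := d) (fun i h => by simpa [h] using hd1 i) ?_).of_isConj
          hd2).of_smul (scalars_le_sim hs) hb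
        refine Multiset.map_congr rfl fun i _ => ?_
        rw [hfix ⟨k, by omega⟩ _ (hd1 i)]
        exact eq_inv_of_mul_eq_one_left (by rw [← sq, hd1])
    · have hq0 : n ∣ q₀ - 1 := dvd_of_one_le_padicValNat hv.ge
      have hr2 : n ≠ 2 := by omega
      have hrp := hr.resolve_left hr2
      obtain ⟨c, d, hc, hd, e, hsym⟩ := exc_symm hrp h35 ((hval hr2 hq0).trans hv) hA hP
      refine ((ci_herm_diag hF hf (d := d) (fun i h => ?_) ?_).of_isConj e).of_smul
        (scalars_le_sim hs) hc
      · have := hd i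
        rw [h, zero_pow hr'.ne_zero] at this
        exact zero_ne_one this
      · rw [hsym]
        exact Multiset.map_congr rfl fun i _ => by rw [hfix hq0 _ (hd i)]

end Cfsg.Agent.S5982
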