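import Cfsg.Statements.S5983
import Cfsg.Agent.Lib.ElusF.SpO

set_option autoImplicit false
open scoped MatrixGroups
open Cfsg

namespace Cfsg.Agent.S5983

/-- Elements of prime order of PSp_n(q), q even, and the subgroups of orthogonal type. Here `T = Sp_{2d}(F)` for a field `F` of characteristic 2 with `q` elements (`d ≥ 2`, `(d, q) ≠ (2, 2)`), realised as the invertible matrices preserving the standard alternating form; `Q` is a non-degenerate quadratic form on `F^{2d}` whose polar form is that alternating form, and `H` is the subgroup of `T` preserving `Q` up to a scalar (equivalently preserving `Q`) — a subgroup of type O^±_{2d}(q) (maximality is not assumed); `Q` is of plus type when `F^{2d}` contains a `d`-dimensional subspace on which `Q` vanishes, of minus type otherwise. Ω is the set of cosets of `H` in `T`, so an element of `T` of prime order `r` (`x ∈ T` with `x^r` scalar, `x` not scalar) fixes a point of Ω exactly when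 some `T`-conjugate of `x` preserves `Q`. Let `r` be a prime dividing the index of `H`. Then every element of `T` of order `r` fixes a point of Ω if and only if `r = 2` and either `Q` is of plus type or `d` is odd. -/
theorem result {F : Type*} [Field F] [Fintype F] {p : ℕ} [Fact p.Prime] [CharP F p] {q : ℕ} (hq : Fintype.card F = q)
    (hp : p = 2) (d : ℕ) (hd : 2 ≤ d) (hT : (d, q) ≠ (2, 2)) (Q : (Fin d ⊕ Fin d → F) → F) (hQ : Cfsg.Geo.IsNondegenerateQuadraticForm Q)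
    (hQf : ∀ u v, QuadraticMap.polar Q u v = Cfsg.sympForm d F u v)
    (r : ℕ) [Fact r.Prime]
    (hΩ : r ∣ (Cfsg.Geo.quadSimilarityGroup Q).relIndex (Cfsg.spGL d F)) :
    (∀ x ∈ Cfsg.spGL d F, (∃ z : F, ((x ^ r : GL (Fin d ⊕ Fin d) F) : Matrix (Fin d ⊕ Fin d) (Fin d ⊕ Fin d) F) = z • (1 : Matrix (Fin d ⊕ Fin d) (Fin d ⊕ Fin d) F)) →
      (∀ z : F, (x : Matrix (Fin d ⊕ Fin d) (Fin d ⊕ Fin d) F) ≠ z • (1 : Matrix (Fin d ⊕ Fin d) (Fin d ⊕ Fin d) F)) →
      ∃ g ∈ Cfsg.spGL d F, g⁻¹ * x * g ∈ Cfsg.Geo.quadSimilarityGroup Q) ↔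
    (r = 2 ∧ (Cfsg.Geo.IsPlusTypeOn Q ⊤ ∨ Odd d)) := by
  open CfsgLib.ElusH CfsgLib.Elusive CfsgLib.MatConj CfsgLib.ElusF CfsgLib.Asch CfsgLib.Forms CfsgLib.ClMax Matrix Polynomial Cfsg.Geo in
  classical
  change Elu _ _ r ↔ _
  subst hq hp
  have hr : r.Prime := Fact.out
  have hA := spB_isAlt (Fin d) F
  have hB := spB_nondegenerate (Fin d) F
  have h : QB (spB (Fin d) F) Q :=
    ⟨fun u v => by rw [spB_eq_sympForm, ← hQf, QuadraticMap.polar]; ring, hQ.smul⟩
  have hS : ∀ g : GL (Fin d ⊕ Fin d) F, g ∈ spGL d F ↔ ∀ u v,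
      spB (Fin d) F (g.1 *ᵥ u) (g.1 *ᵥ v) = spB (Fin d) F u v := fun g => mem_spGL_iff g
  have hV : Module.finrank F (Fin d ⊕ Fin d → F) = 2 * d := by simp [two_mul]
  haveI : Nonempty (Fin d) := ⟨⟨0, by omega⟩⟩
  have hH : ∀ g ∈ spGL d F, g ∈ quadSimilarityGroup Q → ∀ v, Q (g.1 *ᵥ v) = Q v := by
    rintro g hg ⟨c, hc⟩ v
    obtain ⟨a, ha⟩ := exists_ne (0 : Fin d ⊕ Fin d → F)
    obtain ⟨b, hb⟩ := exists_B_eq_one hA hB ha
    have h1 := h.add (g.1 *ᵥ b) (g.1 *ᵥ a)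
    rw [← mulVec_add, hc, hc, hc, (hS g).1 hg, h.add, hb] at h1
    rw [hc, show (c : F) = 1 by linear_combination h1, one_mul]
  have mk : ∀ x : GL (Fin d ⊕ Fin d) F, ∀ g ∈ spIso (spB (Fin d) F),
      (∀ v, Q (g (x.1 *ᵥ v)) = Q (g v)) → (glEquiv.symm g)⁻¹ ∈ spGL d F ∧
        (glEquiv.symm g)⁻¹⁻¹ * x * (glEquiv.symm g)⁻¹ ∈ quadSimilarityGroup Q := fun x g hg h => by
    obtain ⟨g, rfl⟩ := glEquiv.surjective g
    simp only [glEquiv_apply, MulEquiv.symm_apply_apply, inv_inv] at h ⊢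
    refine ⟨inv_mem ((mem_spGL_iff g).2 hg), 1, fun v => ?_⟩
    simp only [Units.val_mul, ← mulVec_mulVec, h]
    simp [mulVec_mulVec]
  have inv : ∀ x ∈ spGL d F, ∀ g ∈ spGL d F, g⁻¹ * x * g ∈ quadSimilarityGroup Q →
      ∀ v, Q (g⁻¹.1 *ᵥ x.1 *ᵥ v) = Q (g⁻¹.1 *ᵥ v) := fun x hx g hg h v => by
    rw [← hH _ (mul_mem (mul_mem (inv_mem hg) hx) hg) h (g⁻¹.1 *ᵥ v)]
    simp only [mulVec_mulVec, ← Units.val_mul]
    simp
  constructor
  · intro H
    by_cases hr2 : r = 2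
    · subst hr2
      refine ⟨rfl, or_iff_not_imp_right.2 fun ho => ?_⟩
      obtain ⟨N, h1, h2, h3, h4, h5⟩ := sp_exists_alt_invol (F := F) (Nat.not_odd_iff_even.1 ho)
        (by omega)
      obtain ⟨x, hx, e⟩ := exists_spGL h3
      have h6 := (e ▸ pe_one_add (p := 2) h1 h2).2
      obtain ⟨g, hg, h7⟩ := H x hx (by simpa using h6.1) h6.2
      refine ⟨LinearMap.range (g⁻¹.1 * N).mulVecLin, le_top, ?_, ?_⟩
      · rintro _ ⟨v, rfl⟩
        have := inv x hx g hg h7 v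
        rw [e, add_mulVec, one_mulVec, mulVec_add, h.add, (hS _).1 (inv_mem hg), h4] at this
        simpa using this
      · change 2 * (g⁻¹.1 * N).rank = _
        rw [rank_mul_eq_right_of_isUnit_det _ _ (isUnit_det_of_left_inverse g.mul_inv), h5,
          finrank_top, hV]
    exfalso
    obtain ⟨R, hR, hc⟩ := exists_sylow_le (spGL d F) r
    by_cases h1 : r ∣ Fintype.card F ^ Fintype.card (Fin d ⊕ Fin d) - 1
    · rw [dvd_pow_sub_one_iff Fintype.card_pos, Fintype.card_sum, Fintype.card_fin, ← two_mul] at h1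
      obtain ⟨k, hk⟩ : cc F r ∣ 2 * d := CfsgLib.Elus2.c_dvd rfl h1
      obtain ⟨x, hx, h3, h4, h5⟩ := sp_exists_ss hr2 hr2 (k := k) (Nat.pos_of_ne_zero (by
        rintro rfl; omega)) hk.ge
      obtain ⟨g, hg, h6⟩ := H x hx (by simpa using h3.1) h3.2
      obtain ⟨g', hg', h7, h8⟩ := exists_other_fixed hΩ hx h4 hg h6
      refine h8 ⟨1, fun v => ?_⟩
      have := (h.comp (T := g'⁻¹.1.mulVecLin) ((hS _).1 (inv_mem hg'))).eq_of_surj hA hB
        (h.comp (T := g⁻¹.1.mulVecLin) ((hS _).1 (inv_mem hg))) (T := x.1.mulVecLin)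
        (inv x hx g' hg' h7) (inv x hx g hg h6) (by
          rw [← LinearMap.range_eq_top, show (x.1.mulVecLin - 1 : Module.End F _) =
            (x.1 - 1).mulVecLin from LinearMap.ext fun v => by simp]
          exact Submodule.eq_top_of_finrank_eq (by rw [hV, hk, ← h5, Matrix.rank])) (g'.1 *ᵥ v)
      simpa [mulVec_mulVec] using this
    · obtain ⟨u, hu, hf⟩ := exists_fixed_vec hc h1
      obtain ⟨g, hg, h2⟩ := h.exists_odd hA hB (R := R) (hc ▸ (hr.odd_of_ne_two hr2).pow)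
        (glEquiv.toMonoidHom.comp R.subtype) (fun a => (mem_spGL_iff _).1 (hR a.2)) hu
        fun a => hf a a.2
      refine not_dvd_relIndex (R := R.map (MulAut.conj (glEquiv.symm g)).toMonoidHom) ?_ ?_
        (by rw [Subgroup.card_map_of_injective (MulEquiv.injective _), hc]) hΩ
      · rintro _ ⟨a, ha, rfl⟩
        simpa using (mk a g hg (h2 ⟨a, ha⟩)).2
      · rintro _ ⟨a, ha, rfl⟩
        have := (mk a g hg (h2 ⟨a, ha⟩)).1
        simpa using mul_mem (mul_mem (inv_mem this) (hR ha)) this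
  · rintro ⟨rfl, hp⟩ x hx ⟨z, hz⟩ -
    have h1 : ∀ v, x.1 *ᵥ x.1 *ᵥ v = v := fun v => by
      rcases pow_cases_of_sm (det_J_ne d) (mem_spGL_iff_sm.1 hx) (by simpa using hz) with h | h <;>
        rw [mulVec_mulVec, ← sq, h]
      · simp
      · ext; simp [CharTwo.neg_eq]
    obtain ⟨Q', h2, h3⟩ := h.exists_fixed hA hB (T := x.1.mulVecLin) ((hS x).1 hx)
    simp only [mulVecLin_apply] at h3
    by_cases h0 : ∀ v, x.1 *ᵥ v = v → Q' v = 0
    · obtain ⟨U, h4, h5, h6⟩ := h2.invol hA hB (T := x.1.mulVecLin) ((hS x).1 hx) h1 h3 h0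
      obtain ⟨U', -, h7, h8⟩ := hp.resolve_right (by
        rwa [Nat.not_odd_iff_even, ← show Module.finrank F U = d by omega])
      obtain ⟨g, hg, e⟩ := h.conj_of_plus hA hB h2 h7 h4 (by simpa using h8) h5
      exact ⟨_, mk x g hg fun v => by rw [e, e, h3]⟩
    · push Not at h0
      obtain ⟨u, h4, h5⟩ := h0
      obtain ⟨c, g, hg, e⟩ := h.exists_conj hA hB h2 h5
      exact ⟨_, mk x g hg fun v => by rw [e, e, h3, ← (hS x).1 hx u v, h4]⟩

end Cfsg.Agent.S5983
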