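import Cfsg.Statements.S5984
import Cfsg.Agent.Lib.Elus2.Uni2
import Cfsg.Agent.Lib.Elus2.Polar
import Cfsg.Agent.Lib.Unitary.Simple
import Cfsg.Agent.Lib.ElusH.Basic

set_option autoImplicit false
open scoped MatrixGroups
open Cfsg

namespace Cfsg.Agent.S5984

open CfsgLib.Elusive CfsgLib.Elus2 CfsgLib.Forms CfsgLib.MatConj CfsgLib.Unitary Polynomial Module

theorem index_dvd_card {G α : Type*} [Group G] (act : G → α → α) (h1 : ∀ a, act 1 a = a)
    (hmul : ∀ g h a, act (g * h) a = act g (act h a)) (Φ : α → Prop)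
    (hΦ : ∀ g a, Φ a → Φ (act g a)) (a₀ : α) (h₀ : Φ a₀) (htr : ∀ a, Φ a → ∃ g, act g a₀ = a)
    (H : Subgroup G) (hH : ∀ g, act g a₀ = a₀ → g ∈ H) : H.index ∣ Nat.card {a // Φ a} := by
  letI := subAct act h1 hmul Φ hΦ
  have : MulAction.IsPretransitive G {a // Φ a} := by
    refine ⟨fun a b => ?_⟩
    obtain ⟨g, hg⟩ := htr a.1 a.2
    obtain ⟨h, hh⟩ := htr b.1 b.2
    refine ⟨h * g⁻¹, Subtype.ext ?_⟩
    change act (h * g⁻¹) a.1 = b.1
    rw [← hg, ← hmul, inv_mul_cancel_right, hh]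
  rw [← MulAction.index_stabilizer_of_transitive G (⟨a₀, h₀⟩ : {a // Φ a})]
  exact Subgroup.index_dvd_of_le fun g hg => hH g (congrArg Subtype.val hg)

section

variable {F : Type*} [Field F] {V : Type*} [AddCommGroup V] [Module F V] [FiniteDimensional F V]
  {σ : F →+* F} {P : PQ σ V}

/-- `T` fixes or interchanges the members of a pair of complementary totally singular spaces. -/
def FP (P : PQ σ V) (T : End F V) : Prop := ∃ U W, IsCompl U W ∧ P.TS U ∧ P.TS W ∧
  ((U.map T = U ∧ W.map T = W) ∨ (U.map T = W ∧ W.map T = U))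

omit [FiniteDimensional F V] in
theorem FP.of_smul (T : End F V) (c : F) (hc : c ≠ 0) (h : FP P (c • T)) : FP P T := by
  simpa only [FP, Submodule.map_smul _ _ _ hc] using h

theorem fp_of_inv (hP : P.Nondeg) {T : End F V} (hT : Isom P T)
    (h : ∃ U W, IsCompl U W ∧ P.TS U ∧ P.TS W ∧ Inv T U ∧ Inv T W) : FP P T :=
  let ⟨U, W, h1, h2, h3, h4, h5⟩ := h
  ⟨U, W, h1, h2, h3, Or.inl ⟨h4.map_eq (hT.injective hP), h5.map_eq (hT.injective hP)⟩⟩

theorem FP.cases (hP : P.Nondeg) {T : End F V} (h : FP P T)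
    (hf : finrank F V < 2 * finrank F (fix T)) :
    ∃ U W, IsCompl U W ∧ P.TS U ∧ P.TS W ∧ Inv T U ∧ Inv T W := by
  obtain ⟨U, W, h1, h2, h3, ⟨h4, h5⟩ | ⟨h4, -⟩⟩ := h
  · exact ⟨U, W, h1, h2, h3, inv_iff_map_le.2 h4.le, inv_iff_map_le.2 h5.le⟩
  · have h6 : Disjoint U (fix T) := Submodule.disjoint_def.2 fun v hv hv' =>
      Submodule.disjoint_def.1 h1.disjoint v hv (h4 ▸ ⟨v, hv, mem_fix.1 hv'⟩)
    have h7 := Submodule.finrank_le (U ⊔ fix T)
    rw [finrank_sup_of_disjoint h6] at h7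
    have := finrank_of_pair hP h1 h2 h3
    omega

theorem su_pair_trans (hH : P.IsHerm) (hP : P.Nondeg) (hn : finrank F V ≠ 0)
    {U W U' W' : Submodule F V} (h : IsCompl U W) (h' : IsCompl U' W') (hU : P.TS U) (hW : P.TS W)
    (hU' : P.TS U') (hW' : P.TS W') : ∃ g : V ≃ₗ[F] V, P.IsIso g ∧
      LinearMap.det g.toLinearMap = 1 ∧ U.map g.toLinearMap = U' ∧ W.map g.toLinearMap = W' := by
  have h1 := finrank_of_pair hP h hU hW
  have h2 := finrank_of_pair hP h' hU' hW'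
  obtain ⟨g, g1, g2, g3⟩ := exists_isom_pair hP h h' hU hW hU' hW'
    (LinearEquiv.ofFinrankEq _ _ (by omega))
  have h3 := conj_det_mul_det hP g1
  have h4 : LinearMap.det g.toLinearMap ≠ 0 := fun h => by simp [h] at h3
  obtain ⟨s, hs, h5⟩ := exists_div_conj_eq hH (δ := (LinearMap.det g.toLinearMap)⁻¹)
    (by rw [map_inv₀, ← mul_inv, h3, inv_one])
  obtain ⟨S, hS⟩ := exists_ed_eq' (V := U)
    (s := (X - C s, 1) ::ₘ Multiset.replicate (finrank F U - 1) (X - C 1, 1)) (fun x hx => by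
      rcases Multiset.mem_cons.1 hx with rfl | hx
      · exact ⟨irreducible_X_sub_C _, monic_X_sub_C _, one_pos⟩
      · rw [Multiset.eq_of_mem_replicate hx]; exact ⟨irreducible_X_sub_C _, monic_X_sub_C _, one_pos⟩)
    (by rw [mdeg_cons, mdeg_replicate, natDegree_X_sub_C, natDegree_X_sub_C]; omega)
  have h6 : LinearMap.det S = s := by simp [det_eq_prod_ed, hS, natDegree_X_sub_one]
  obtain ⟨k, k1, k2, k3⟩ := exists_isom_pair hP h h hU hW hU hW
    (LinearMap.equivOfDetNeZero S (h6 ▸ hs))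
  have k4 := map_eq_of_equiv _ k2
  have h7 := ed_of_pair hP k1 h hU hW (inv_iff_map_le.2 k4.le) (inv_iff_map_le.2 k3.le)
  rw [edOn_eq (inv_iff_map_le.2 k4.le), show k.toLinearMap.restrict (inv_iff_map_le.2 k4.le) = S from
    LinearMap.ext fun u => Subtype.ext (k2 u), hS, dl_cons, dl_replicate, tilde_X_sub_C hs,
    tilde_X_sub_C one_ne_zero] at h7
  refine ⟨g * k, g1.comp k1, ?_, by rw [map_mul_equiv, k4, map_eq_of_equiv _ g2],
    by rw [map_mul_equiv, k3, g3]⟩
  have h8 : LinearMap.det k.toLinearMap = s * (σ s)⁻¹ := by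
    simp [det_eq_prod_ed, h7, natDegree_X_sub_one, mul_comm]
  rw [LinearEquiv.coe_toLinearMap_mul, map_mul, h8, h5, mul_inv_cancel₀ h4]

theorem not_fp_ss [Fintype F] {p r : ℕ} [Fact p.Prime] [CharP F p] [hr : Fact r.Prime]
    (hP : P.Nondeg) (hrp : r ≠ p) (h2 : r ≠ 2) (hsd : ∀ f ∈ cyc F r, tilde σ f = f) {T : End F V}
    (hT : Isom P T) (h : T ^ r = 1) {e : ℕ} {t : Multiset F[X]} (h1 : ∀ f ∈ t, f ∈ cyc F r)
    (h3 : t.Nodup) (h4 : t ≠ 0) (h5 : ed T = ssEd e t) : ¬ FP P T := by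
  rintro ⟨U, W, c1, c2, c3, ⟨c4, c5⟩ | ⟨c4, c5⟩⟩
  · have h7 := ed_of_pair hP hT c1 c2 c3 (inv_iff_map_le.2 c4.le) (inv_iff_map_le.2 c5.le)
    obtain ⟨e, t', h8, h9⟩ := edOn_ssEd hrp h U
    rw [h5, h9, dl_ssEd, ← ssEd_add, Multiset.map_congr rfl fun f hf => hsd f (h8 f hf),
      Multiset.map_id'] at h7
    obtain ⟨-, rfl⟩ := ssEd_inj hrp h1 (fun g hg => h8 g (by simpa using hg)) h7
    obtain ⟨f, hf⟩ := Multiset.exists_mem_of_ne_zero h4
    have hf' : f ∈ t' := by simpa using hf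
    exact Multiset.disjoint_left.1 (Multiset.nodup_add.1 h3).2.2 hf' hf'
  · obtain rfl := eq_of_swap_odd (hr.out.odd_of_ne_two h2) one_ne_zero
      (h.trans (one_smul _ _).symm) c4 c5
    have h6 := Submodule.finrank_add_eq_of_isCompl c1
    rw [disjoint_self.1 c1.disjoint, finrank_bot, finrank_eq_mdeg_ed T, h5, mdeg_ssEd hrp _ h1] at h6
    have := Nat.mul_pos (ord_pos (F := F) hrp) (Multiset.card_pos.2 h4)
    omega

end

theorem main {F : Type*} [Field F] {V : Type*} [AddCommGroup V] [Module F V] [FiniteDimensional F V]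
    [Fintype F] {q : ℕ} (hF : Fintype.card F = q ^ 2) {p r : ℕ} [hp : Fact p.Prime] [CharP F p]
    [hr : Fact r.Prime] {P : PQ (conj hF) V} (hH : P.IsHerm) (hP : P.Nondeg) {d : ℕ} (hd : 2 ≤ d)
    (hn : finrank F V = 2 * d)
    (hΩ : r ∣ Nat.card {Z : Submodule F V × Submodule F V // IsCompl Z.1 Z.2 ∧ P.TS Z.1 ∧ P.TS Z.2}) :
    (∀ T, Isom P T → LinearMap.det T = 1 → IsPE r T → FP P T) ↔
      (r = 2 ∧ Odd q ∧ padicValNat 2 (q + 1) ≤ padicValNat 2 (finrank F V)) := by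
  by_cases hrp : r = p
  · subst hrp
    refine iff_of_false (fun h => ?_) ?_
    · obtain ⟨T, h1, h2⟩ := herm_exists_unip hF hH hP (μ := 2 ::ₘ Multiset.replicate (2 * d - 2) 1)
        (fun a ha => by
          rcases Multiset.mem_cons.1 ha with rfl | ha
          · exact two_pos
          · rw [Multiset.eq_of_mem_replicate ha]; exact one_pos) (by simp; omega)
      obtain ⟨h3, h4⟩ := isPE_of_unEd (p := r) h2 (fun a ha => by
          rcases Multiset.mem_cons.1 ha with rfl | ha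
          · exact hr.out.two_le
          · rw [Multiset.eq_of_mem_replicate ha]; exact hr.out.one_le) ⟨2, by simp, by simp⟩
      have h5 := finrank_inf_ker_pow (inv_top T) ((edOn_top T).trans h2) 1
      rw [top_inf_eq, pow_one] at h5
      have h6 : finrank F (fix T) = 2 * d - 1 := by
        rw [show fix T = LinearMap.ker (T - 1) from Submodule.ext fun v => by
          simp [mem_fix, sub_eq_zero], h5]
        simp
        omega
      obtain ⟨U, W, a1, a2, a3, a4, a5⟩ := (h T h1 (det_eq_one_of_pow_eq_one char_not_dvd_sub_one h3)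
        h4).cases hP (by omega)
      have h7 := ed_of_pair hP h1 a1 a2 a3 a4 a5
      obtain ⟨ν, -, h8⟩ := edOn_unEd h3 U
      rw [h2, h8, dl_unEd, ← unEd_add] at h7
      have h9 := congrArg (Multiset.count 2) (unEd_injective h7)
      simp [Multiset.count_replicate] at h9
      omega
    · rintro ⟨rfl, h1, -⟩
      exact h1.not_two_dvd_nat (char_dvd_q hF)
  by_cases h2 : r = 2
  · subst h2
    have h2' := two_ne_zero_of_ne (F := F) hrp
    have hrq := two_dvd_q_add_one hF hrp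
    simp only [true_and, show Odd q from Nat.odd_iff.2 (by omega)]
    constructor
    · intro h
      by_contra h3
      obtain ⟨A, -, a1, a2⟩ := herm_exists_nd hH hP (nd_top hP) (m := 1) (by rw [finrank_top]; omega)
      obtain ⟨T, b, b1, b2, b3, b4, b5, b6, b7, b8⟩ := exists_odd_invol hF hP hrp a1
        (by rw [a2]; exact odd_one) (by omega) (not_le.1 h3)
      have c7 := PQ.finrank_perp _ hP A
      obtain ⟨W, W', c0, c2, c1, c3, -⟩ := ((h _ b6 b7 b8).of_smul T b b1).cases hP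
        (by rw [b4]; omega)
      have c4 := Submodule.finrank_add_le_finrank_add_finrank (W ⊓ fix T) (W ⊓ fix (-T))
      rw [Inv.eq_sup_invol h2' b3 c3, b4, b5] at c4
      have c5 := ts_two_mul_le (a1.perp hP) (c2.mono inf_le_left) (inf_le_right (a := W))
      have c6 := ts_two_mul_le a1 (c2.mono inf_le_left) (inf_le_right (a := W))
      have := finrank_of_pair hP c0 c2 c1
      omega
    · intro h
      refine forall_su_dvd hF hP _ FP.of_smul (fun T b c1 c2 c3 h3 h5 _ => ?_)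
        fun T z b1 b2 b3 b4 b5 => fp_of_inv hP b1 (ns_pair hF hP hrp b1 b3 b4 b5)
      obtain ⟨a1, a2⟩ := nd_fix_invol hP h2' h3 h5
      have a3 := finrank_fix_invol hP h2' h3 h5
      have a4 := even_of_det_invol hF hrp c2 c3 h5 (by omega) h
      refine fp_of_inv hP h3 (pair_of_invol hP h2' h3 h5 (herm_plus hH hP a1 ?_)
        (herm_plus hH hP a2 a4))
      rw [Nat.even_iff] at a4 ⊢
      omega
  refine iff_of_false (fun h => ?_) fun h => h2 h.1
  by_cases hrq : r ∣ q + 1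
  · have h3 := two_lt_of_ne_two hr.out h2
    obtain ⟨T, t, b1, b2, b3, b4, b5, b6, b7, b8⟩ := exists_split_nodup hF hH hP hrp h2 hrq
      (a := 1) le_rfl (by omega) (by omega)
    exact not_fp_ss hP hrp h2 (fun f hf => ((sdData_u_one hF hrp hrq).sd_iff f hf).2 trivial) b1 b4
      b5 b6 (by rintro rfl; simp at b7) b8 (h T b1 b2 b3)
  · obtain ⟨U, W, a1, a2, a3, a4, a5⟩ := Plus.exists_pair hP (nd_top hP)
      (herm_plus hH hP (nd_top hP) (by rw [finrank_top, hn]; exact even_two_mul d))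
    rw [finrank_top] at a4 a5
    have h3 := card_pairs_mul_dvd hP (isCompl_of_sup a3 (by omega)) a1 a2
    rw [CfsgLib.Elusive.card_linearEquiv, herm_card_isom hF hH hP hn, uo_two_mul, hF, ← pow_mul,
      show finrank F U = d by omega] at h3
    have hq := two_le_q hF
    obtain ⟨j, h4, h5⟩ := (Prime.dvd_finsetProd_iff hr.out.prime _).1
      (prime_dvd_of_mul_dvd hr.out (not_dvd_q hF hrp) (glo_ne_zero (by nlinarith) _) h3 hΩ)
    rw [Finset.mem_range] at h4
    obtain ⟨h6, h7⟩ := uc_dvd (j := 2 * j) h2 (by omega) (orderOf_pos_of_not_dvd (not_dvd_q hF hrp))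
      rfl rfl (by rwa [if_pos (even_two_mul j)])
    have hsd := sdData_u hF hrp h2 rfl rfl rfl
    have h8 := h7 (even_two_mul j)
    have h9 := Nat.le_of_dvd (by omega) h6
    obtain ⟨f, hf⟩ := exists_mem_cyc (F := F) hrp
    have h10 : ∀ g ∈ ({f} : Multiset F[X]), g ∈ cyc F r := by simpa using hf
    obtain ⟨T, b1, b2⟩ := herm_exists_ss hF hH hP hrp hsd 1 {f} (by omega) h10
      (by simp [(hsd.sd_iff f hf).2 h8]) (by rw [hsd.c_sd h8, Multiset.card_singleton])
    obtain ⟨b3, b4, -⟩ := exists_of_ed hP hrp hsd b1 h10 le_rfl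
      (by rw [hsd.c_sd h8, Multiset.card_singleton]) b2
    exact not_fp_ss hP hrp h2 (fun f hf => (hsd.sd_iff f hf).2 h8) b1 b3 h10
      (Multiset.nodup_singleton f) (by simp) b2
      ((forall_su_coprime hF hH hP hrq _ FP.of_smul).1 h T b1 b3 b4)


/-- Elements of prime order of PSU_n(q) and the stabilizers of pairs of complementary totally singular subspaces. Here `T = PSU_n(q)` is realised through `SU_n(q)`, the matrices of determinant 1 over the field `F` with `q²` elements preserving the hermitian form `Σ uᵢ vᵢ^q`, with `n ≥ 4` even; `D` is a pair of complementary subspaces of dimension `n/2` on each of which the form vanishes identically, and `H` is the subgroup of `SU_n(q)` fixing or interchanging the two members — a subgroup of type GL_{n/2}(q²).2 (maximality is not assumed). Ω is the set of cosets of `H`, so an element of `T` of prime order `r` (`x ∈ SU_n(q)` with `x^r` scalar, `x` not scalar) fixes a point of Ω exactly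 when some `SU_n(q)`-conjugate of `x` lies in `H`. Let `r` be a prime dividing the index of `H`. Then every element of `T` of order `r` fixes a point of Ω if and only if `r = 2`, `q` is odd and `(q + 1)_2 ≤ (n)_2` (2-parts). -/
theorem result {F : Type*} [Field F] [Fintype F] {p : ℕ} [Fact p.Prime] [CharP F p] {q : ℕ} (hq : Fintype.card F = q ^ 2)
    (n : ℕ) (hn : 4 ≤ n) (he : Even n) (D : Fin 2 → Submodule F (Fin n → F)) (hD : Cfsg.Geo.IsMDecomposition (n / 2) D)
    (hDs : ∀ i, Cfsg.Geo.IsTotallySingularFor (Cfsg.hermForm n F q) (D i))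
    (r : ℕ) [Fact r.Prime]
    (hΩ : r ∣ (Cfsg.Geo.decompositionStabilizer D).relIndex (Cfsg.GU n F q ⊓ Cfsg.Geo.specialLinear (Fin n) F)) :
    (∀ x ∈ Cfsg.GU n F q ⊓ Cfsg.Geo.specialLinear (Fin n) F, (∃ z : F, ((x ^ r : GL (Fin n) F) : Matrix (Fin n) (Fin n) F) = z • (1 : Matrix (Fin n) (Fin n) F)) →
      (∀ z : F, (x : Matrix (Fin n) (Fin n) F) ≠ z • (1 : Matrix (Fin n) (Fin n) F)) →
      ∃ g ∈ Cfsg.GU n F q ⊓ Cfsg.Geo.specialLinear (Fin n) F, g⁻¹ * x * g ∈ Cfsg.Geo.decompositionStabilizer D) ↔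
    (r = 2 ∧ Odd q ∧ padicValNat 2 (q + 1) ≤ padicValNat 2 n) := by
  have hP := uPQ_nondeg hq n
  have hH := uPQ_isHerm hq n
  have hd : Module.finrank F (Fin n → F) = n := Module.finrank_fin_fun F
  obtain ⟨d, rfl⟩ := he.two_dvd
  have hc : IsCompl (D 0) (D 1) := ⟨(iSupIndep_pair (by decide) (by decide)).1 hD.indep,
    codisjoint_iff.2 (top_unique (hD.iSup_eq_top ▸ iSup_le
      (Fin.forall_fin_two.2 ⟨le_sup_left, le_sup_right⟩)))⟩
  have h0 := (uPQ_ts hq).2 (hDs 0)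
  have h1 := (uPQ_ts hq).2 (hDs 1)
  have hmem : ∀ x : GL (Fin (2 * d)) F, x ∈ Cfsg.GU (2 * d) F q ⊓ Cfsg.Geo.specialLinear (Fin (2 * d)) F ↔
      Isom (uPQ hq (2 * d)) (Matrix.toLin' x.1) ∧ LinearMap.det (Matrix.toLin' x.1) = 1 := fun x => by
    rw [Subgroup.mem_inf, CfsgLib.ElusH.mem_SL, LinearMap.det_toLin', Isom, uPQ_isIso]
    rfl
  have htr : ∀ U W, IsCompl U W → (uPQ hq (2 * d)).TS U → (uPQ hq (2 * d)).TS W →
      ∃ g ∈ Cfsg.GU (2 * d) F q ⊓ Cfsg.Geo.specialLinear (Fin (2 * d)) F,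
        (D 0).map (Matrix.toLin' g.1) = U ∧ (D 1).map (Matrix.toLin' g.1) = W := fun U W a b c => by
    obtain ⟨g, g1, g2, g3, g4⟩ := su_pair_trans hH hP (by omega) hc a h0 h1 b c
    have : Matrix.toLin' (glOfEquiv g).1 = g.toLinearMap := Matrix.toLin'_toMatrix' _
    exact ⟨glOfEquiv g, (hmem _).2 (by rw [this]; exact ⟨g1, g2⟩), by rw [this, g3], by rw [this, g4]⟩
  have hmul : ∀ (g h : GL (Fin (2 * d)) F) (U : Submodule F (Fin (2 * d) → F)),
      U.map (Matrix.toLin' (g * h).1) = (U.map (Matrix.toLin' h.1)).map (Matrix.toLin' g.1) :=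
    fun g h U => by rw [Units.val_mul, Matrix.toLin'_mul, Submodule.map_comp]
  have hone : ∀ U : Submodule F (Fin (2 * d) → F),
      U.map (Matrix.toLin' (1 : GL (Fin (2 * d)) F).1) = U := fun U => by simp
  have hcm : ∀ (g : GL (Fin (2 * d)) F) (U W : Submodule F (Fin (2 * d) → F)), IsCompl U W →
      IsCompl (U.map (Matrix.toLin' g.1)) (W.map (Matrix.toLin' g.1)) :=
    fun g U W h => isCompl_map_equiv h (Matrix.GeneralLinearGroup.toLin g).toLinearEquiv
  have hΩ' := hΩ.trans (index_dvd_card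
    (fun (g : ↥(Cfsg.GU (2 * d) F q ⊓ Cfsg.Geo.specialLinear (Fin (2 * d)) F))
      (Z : Submodule F (Fin (2 * d) → F) × Submodule F (Fin (2 * d) → F)) =>
      (Z.1.map (Matrix.toLin' g.1.1), Z.2.map (Matrix.toLin' g.1.1)))
    (fun Z => Prod.ext (hone _) (hone _)) (fun g h Z => Prod.ext (hmul _ _ _) (hmul _ _ _))
    (fun Z => IsCompl Z.1 Z.2 ∧ (uPQ hq (2 * d)).TS Z.1 ∧ (uPQ hq (2 * d)).TS Z.2)
    (fun g Z hZ => ⟨hcm _ _ _ hZ.1, hZ.2.1.map ((hmem _).1 g.2).1, hZ.2.2.map ((hmem _).1 g.2).1⟩)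
    (D 0, D 1) ⟨hc, h0, h1⟩ (fun Z hZ => by
      obtain ⟨g, g1, g2, g3⟩ := htr _ _ hZ.1 hZ.2.1 hZ.2.2
      exact ⟨⟨g, g1⟩, Prod.ext g2 g3⟩) _ fun g hg => ⟨1, Fin.forall_fin_two.2
        ⟨congrArg Prod.fst hg, congrArg Prod.snd hg⟩⟩)
  have key := main (p := p) hq hH hP (d := d) (by omega) hd hΩ'
  rw [hd] at key
  rw [← key]
  have hfp : ∀ x : GL (Fin (2 * d)) F,
      (∃ g ∈ Cfsg.GU (2 * d) F q ⊓ Cfsg.Geo.specialLinear (Fin (2 * d)) F,
        g⁻¹ * x * g ∈ Cfsg.Geo.decompositionStabilizer D) ↔ FP (uPQ hq (2 * d)) (Matrix.toLin' x.1) := by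
    intro x
    have e : ∀ (g : GL (Fin (2 * d)) F) i j, (D i).map (Matrix.toLin' (g⁻¹ * x * g).1) = D j ↔
        ((D i).map (Matrix.toLin' g.1)).map (Matrix.toLin' x.1) = (D j).map (Matrix.toLin' g.1) :=
      fun g i j => ⟨fun h => by rw [← h, ← hmul, ← hmul, mul_assoc, mul_inv_cancel_left],
        fun h => by rw [hmul, hmul, h, ← hmul, inv_mul_cancel, hone]⟩
    constructor
    · rintro ⟨g, hg, σ, hσ⟩
      refine ⟨_, _, hcm g _ _ hc, h0.map ((hmem _).1 hg).1, h1.map ((hmem _).1 hg).1, ?_⟩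
      simp only [← e]
      rcases (by decide : ∀ σ : Equiv.Perm (Fin 2), (σ 0 = 0 ∧ σ 1 = 1) ∨ (σ 0 = 1 ∧ σ 1 = 0)) σ with
        ⟨a, b⟩ | ⟨a, b⟩
      · exact Or.inl ⟨by rw [hσ 0, a], by rw [hσ 1, b]⟩
      · exact Or.inr ⟨by rw [hσ 0, a], by rw [hσ 1, b]⟩
    · rintro ⟨U, W, a, b, c, h⟩
      obtain ⟨g, g1, rfl, rfl⟩ := htr U W a b c
      simp only [← e] at h
      rcases h with h | h
      · exact ⟨g, g1, 1, Fin.forall_fin_two.2 h⟩
      · exact ⟨g, g1, Equiv.swap 0 1, Fin.forall_fin_two.2 h⟩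
  simp only [hfp]
  constructor
  · intro h T a b c
    obtain ⟨A, rfl⟩ := Matrix.toLin'.surjective T
    obtain ⟨x, rfl⟩ := CfsgLib.ElusH.exists_GL (A := A)
      (by rw [← LinearMap.det_toLin', b]; exact one_ne_zero)
    rw [isPE_toLin'_iff] at c
    exact h x ((hmem x).2 ⟨a, b⟩) c.1 c.2
  · intro h x a b c
    exact h _ ((hmem x).1 a).1 ((hmem x).1 a).2 ((isPE_toLin'_iff _ r).2 ⟨b, c⟩)

end Cfsg.Agent.S5984
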