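import Cfsg.Statements.S5985
import Cfsg.Agent.Lib.Elus2.Orth5

set_option autoImplicit false
open scoped MatrixGroups
open Cfsg

namespace Cfsg.Agent.S5985

open CfsgLib.Elusive CfsgLib.Elus2 CfsgLib.Forms CfsgLib.MatConj CfsgLib.Orth Polynomial


/-- Elements of prime order of Ω⁺_n(q), q even, with no fixed nonsingular 1-space. Here `T = PΩ⁺_n(F)`, `n = 2d ≥ 8`, realised through `Ω⁺_n(q)`, the commutator subgroup of the isometry group of `Q = Σ xᵢyᵢ` over the field `F` with `q` elements; an element of `T` of prime order `r` is an element `x` of `Ω⁺_n(q)` with `x^r` scalar and `x` not scalar; `q` is even (so the centre is trivial). Let Ω be the set of 1-dimensional subspaces spanned by a vector `v` with `Q(v) ≠ 0`, and let `r` be a prime dividing their number. Then every element of `T` of order `r` fixes some nonsingular 1-space if and only if `r = 2` and `n ≡ 2 (mod 4)` (that is, `d` is odd). -/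
theorem result {F : Type*} [Field F] [Fintype F] {p : ℕ} [Fact p.Prime] [CharP F p] {q : ℕ} (hq : Fintype.card F = q)
    (hp : p = 2) (d : ℕ) (hd : 4 ≤ d) (r : ℕ) [Fact r.Prime]
    (hrΩ : r ∣ Nat.card {W : Submodule F (Fin d ⊕ Fin d → F) // Module.finrank F ↥W = 1 ∧ ∃ v ∈ W, Cfsg.quadFormPlus d F v ≠ 0}) :
    (∀ x : GL (Fin d ⊕ Fin d) F, x ∈ Cfsg.Geo.omegaGL (Cfsg.quadFormPlus d F) →
      (∃ z : F, ((x ^ r : GL (Fin d ⊕ Fin d) F) : Matrix (Fin d ⊕ Fin d) (Fin d ⊕ Fin d) F) = z • (1 : Matrix (Fin d ⊕ Fin d) (Fin d ⊕ Fin d) F)) →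
      (∀ z : F, (x : Matrix (Fin d ⊕ Fin d) (Fin d ⊕ Fin d) F) ≠ z • (1 : Matrix (Fin d ⊕ Fin d) (Fin d ⊕ Fin d) F)) →
      ∃ W : Submodule F (Fin d ⊕ Fin d → F), (Module.finrank F ↥W = 1 ∧ ∃ v ∈ W, Cfsg.quadFormPlus d F v ≠ 0) ∧ W.map (Matrix.toLin' (x : Matrix (Fin d ⊕ Fin d) (Fin d ⊕ Fin d) F)) ≤ W) ↔ (r = 2 ∧ Odd d) := by
  subst hq hp
  have hP : (ofQuad (qPlus d F)).Nondeg := ofQuad_nondeg _ (qPlus_nondegenerate d)
  have hn := finrank_sum_fun F d
  have h24 : Nat.card F ≠ 2 ∨ Module.finrank F (Fin d ⊕ Fin d → F) ≠ 4 := Or.inr (by omega)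
  have h2 : (2 : F) = 0 := CharTwo.two_eq_zero
  rw [← coe_qPlus] at hrΩ ⊢
  rw [forall_omega_iff r fun T => ∃ W : Submodule F (Fin d ⊕ Fin d → F),
    (Module.finrank F W = 1 ∧ ∃ v ∈ W, qPlus d F v ≠ 0) ∧ W.map T ≤ W]
  simp only [← inv_iff_map_le]
  constructor
  · intro h
    by_cases hr : r = 2
    · subst hr
      refine ⟨rfl, Nat.not_even_iff_odd.1 fun ⟨k, hk⟩ => ?_⟩
      obtain ⟨T, a1, a2, a3, a4, a5⟩ := exists_siegel_omega (p := 2) hP h24 (k := k) (by omega)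
        (Or.inr ⟨by omega, plus_qPlus d⟩)
      obtain ⟨W, ⟨b1, v, b2, b3⟩, b4⟩ := h T a1 a2 a3
      have := mem_fix_of_line h2 a1 b1 b4 b2 b3
      rw [← PQ.perp_perp _ hP (fix T), perp_fix_eq_range hP a1,
        perp_eq_of_lag hP a4 (by omega)] at this
      exact b3 (ts_ofQuad_iff.1 a4 v this)
    · exfalso
      have ho := (Fact.out : r.Prime).odd_of_ne_two hr
      obtain ⟨T, a1, a2, a3, a4⟩ := exists_fix_eq_bot hP hr (by omega) hrΩ
      obtain ⟨W, ⟨b1, v, b2, b3⟩, b4⟩ := h T a1 (inO_of_odd hP h24 ho a1 a2)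
        (isPE_of_odd hP a1 ho a2 a3)
      have := mem_fix_of_line h2 a1 b1 b4 b2 b3
      rw [a4, Submodule.mem_bot] at this
      exact b3 (this ▸ map_zero _)
  · rintro ⟨rfl, hd'⟩ T a1 a2 a3
    rcases exists_fix_ne_or hP (isPE_two_char_two hP a1 a3) with ⟨v, b1, b2⟩ | ⟨-, b⟩
    · exact ⟨_, ⟨quad_finrank_line (P := ofQuad (qPlus d F)) rfl b2, v,
        Submodule.mem_span_singleton_self v, b2⟩,
        inv_of_le_fix ((Submodule.span_singleton_le_iff_mem _ _).2 b1)⟩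
    · have := (inO_iff_two hP h24 h2 a1).1 a2
      rw [Nat.even_iff] at this
      rw [Nat.odd_iff] at hd'
      omega

end Cfsg.Agent.S5985
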