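import Cfsg.Statements.S5986
import Cfsg.Agent.Lib.Elus2.Orth5

set_option autoImplicit false
open scoped MatrixGroups
open Cfsg

namespace Cfsg.Agent.S5986

open CfsgLib.Elusive CfsgLib.Elus2 CfsgLib.Forms CfsgLib.MatConj CfsgLib.Orth Polynomial


/-- Elements of prime order of Ω⁻_n(q), q even, with no fixed nonsingular 1-space. Here `T = PΩ⁻_n(F)`, `n = 2d ≥ 8`, realised through `Ω⁻_n(q)`, the commutator subgroup of the isometry group of `Q = Σ_{i<d−1} xᵢyᵢ + z₁² + a z₁z₂ + b z₂²` with `z₁² + a z₁z₂ + b z₂²` anisotropic, over the field `F` with `q` elements; an element of `T` of prime order `r` is an element `x` of `Ω⁻_n(q)` with `x^r` scalar and `x` not scalar; `q` is even (so the centre is trivial). Let Ω be the set of 1-dimensional subspaces spanned by a vector `v` with `Q(v) ≠ 0`, and let `r` be a prime dividing their number. Then every element of `T` of order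 `r` fixes some nonsingular 1-space if and only if `r = 2`. -/
theorem result {F : Type*} [Field F] [Fintype F] {p : ℕ} [Fact p.Prime] [CharP F p] {q : ℕ} (hq : Fintype.card F = q)
    (hp : p = 2) (d : ℕ) (hd : 4 ≤ d) (a b : F) (hab : ∀ x y : F, x ^ 2 + a * x * y + b * y ^ 2 = 0 → x = 0 ∧ y = 0) (r : ℕ) [Fact r.Prime]
    (hrΩ : r ∣ Nat.card {W : Submodule F ((Fin (d - 1) ⊕ Fin (d - 1)) ⊕ Fin 2 → F) // Module.finrank F ↥W = 1 ∧ ∃ v ∈ W, Cfsg.quadFormMinus (d - 1) F a b v ≠ 0}) :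
    (∀ x : GL ((Fin (d - 1) ⊕ Fin (d - 1)) ⊕ Fin 2) F, x ∈ Cfsg.Geo.omegaGL (Cfsg.quadFormMinus (d - 1) F a b) →
      (∃ z : F, ((x ^ r : GL ((Fin (d - 1) ⊕ Fin (d - 1)) ⊕ Fin 2) F) : Matrix ((Fin (d - 1) ⊕ Fin (d - 1)) ⊕ Fin 2) ((Fin (d - 1) ⊕ Fin (d - 1)) ⊕ Fin 2) F) = z • (1 : Matrix ((Fin (d - 1) ⊕ Fin (d - 1)) ⊕ Fin 2) ((Fin (d - 1) ⊕ Fin (d - 1)) ⊕ Fin 2) F)) →
      (∀ z : F, (x : Matrix ((Fin (d - 1) ⊕ Fin (d - 1)) ⊕ Fin 2) ((Fin (d - 1) ⊕ Fin (d - 1)) ⊕ Fin 2) F) ≠ z • (1 : Matrix ((Fin (d - 1) ⊕ Fin (d - 1)) ⊕ Fin 2) ((Fin (d - 1) ⊕ Fin (d - 1)) ⊕ Fin 2) F)) →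
      ∃ W : Submodule F ((Fin (d - 1) ⊕ Fin (d - 1)) ⊕ Fin 2 → F), (Module.finrank F ↥W = 1 ∧ ∃ v ∈ W, Cfsg.quadFormMinus (d - 1) F a b v ≠ 0) ∧ W.map (Matrix.toLin' (x : Matrix ((Fin (d - 1) ⊕ Fin (d - 1)) ⊕ Fin 2) ((Fin (d - 1) ⊕ Fin (d - 1)) ⊕ Fin 2) F)) ≤ W) ↔ r = 2 := by
  subst hq hp
  have hP : (ofQuad (qMinus (d - 1) a b)).Nondeg := ofQuad_nondeg _ (qMinus_nondegenerate _ hab)
  have hn := finrank_minus F (d := d) (by omega)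
  have h24 : Nat.card F ≠ 2 ∨ Module.finrank F ((Fin (d - 1) ⊕ Fin (d - 1)) ⊕ Fin 2 → F) ≠ 4 :=
    Or.inr (by omega)
  have h2 : (2 : F) = 0 := CharTwo.two_eq_zero
  rw [← coe_qMinus] at hrΩ ⊢
  rw [forall_omega_iff r fun T => ∃ W : Submodule F ((Fin (d - 1) ⊕ Fin (d - 1)) ⊕ Fin 2 → F),
    (Module.finrank F W = 1 ∧ ∃ v ∈ W, qMinus (d - 1) a b v ≠ 0) ∧ W.map T ≤ W]
  simp only [← inv_iff_map_le]
  constructor
  · intro h
    by_contra hr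
    have ho := (Fact.out : r.Prime).odd_of_ne_two hr
    obtain ⟨T, a1, a2, a3, a4⟩ := exists_fix_eq_bot hP hr (by omega) hrΩ
    obtain ⟨W, ⟨b1, v, b2, b3⟩, b4⟩ := h T a1 (inO_of_odd hP h24 ho a1 a2)
      (isPE_of_odd hP a1 ho a2 a3)
    have := mem_fix_of_line h2 a1 b1 b4 b2 b3
    rw [a4, Submodule.mem_bot] at this
    exact b3 (this ▸ map_zero _)
  · rintro rfl T a1 a2 a3
    rcases exists_fix_ne_or hP (isPE_two_char_two hP a1 a3) with ⟨v, b1, b2⟩ | ⟨b, -⟩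
    · exact ⟨_, ⟨quad_finrank_line (P := ofQuad (qMinus (d - 1) a b)) rfl b2, v,
        Submodule.mem_span_singleton_self v, b2⟩,
        inv_of_le_fix ((Submodule.span_singleton_le_iff_mem _ _).2 b1)⟩
    · exact absurd b (not_plus_qMinus _ hab)

end Cfsg.Agent.S5986
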