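import Cfsg.Statements.S5987
import Cfsg.Agent.Lib.Elus2.Orth5

set_option autoImplicit false
open scoped MatrixGroups
open Cfsg

namespace Cfsg.Agent.S5987

open CfsgLib.Elusive CfsgLib.Elus2 CfsgLib.Forms CfsgLib.MatConj CfsgLib.Orth Polynomial

theorem arith_even {N a M' b' M b i t k₀ : ℕ} (ha : a < i) (hb' : b' < i)
    (hi : i % 2 = 0) (ha2 : a % 2 = 0) (ht : 0 < t)
    (h : (M' = 2 * M ∧ b' = 2 * b) ∨ (M' = 2 * M + 1 ∧ b' + i = 2 * b)) (hm : 0 < M ∨ 0 < b)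
    (hlt : M' < N ∨ (M' = N ∧ b' < a)) (hΩ : OOm N a M' b' False True True k₀) :
    (∀ k, OAdm N a False True k → ∃ j, OTs N a M' b' M 2 t False True k j) ↔
      1 ≤ M ∧ t + 2 * M ≤ N ∧ ((2 * b ≤ i ∧ a = 0 ∧ Even N ∧ t + 2 * M < N) ∨
        (2 * b ≤ a ∧ Odd N) ∨ (2 * b < a ∧ Even N)) := by
  refine forall_exists_elim N (N - 1) (N - 2) (fun _ => 0) (fun k => min M ((k + 1 - t) / 2)) ?_ ?_
  all_goals simp only [OOm, OAdm, ONd, OTs, Nat.even_iff, Nat.odd_iff, true_iff, false_iff, iff_true,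
    iff_false, forall_const, iff_self, and_true, true_and, implies_true, not_true_eq_false,
    false_imp_iff, not_false_eq_true, and_false, or_false, false_and, false_or, not_not, imp_false] at *
  · intro j₁ j₂ j₃ h1 h2 h3
    have hM : 1 ≤ M := by
      by_contra hM
      obtain rfl : M = 0 := by omega
      clear h3
      omega
    clear hΩ hm
    have hN : 2 ≤ N := by omega
    by_cases h0 : a = 0 ∧ N % 2 = 0
    · obtain ⟨rfl, h0⟩ := h0
      clear h1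
      have h2 := h2 (by omega)
      have h3 := h3 (by omega)
      rcases h with ⟨rfl, rfl⟩ | ⟨rfl, h⟩ <;> omega
    · clear h3
      have h1 := h1 (by omega)
      have h2 := h2 (by omega)
      refine ⟨hM, ?_⟩
      rcases h with ⟨rfl, rfl⟩ | ⟨rfl, h⟩ <;> omega
  · intro h1 k h2
    clear hΩ hm hlt
    omega

theorem arith_odd {N a M b t k₀ : ℕ} (ha2 : a % 2 = 0) (hm : 0 < M ∨ 0 < b)
    (hlt : M < N ∨ (M = N ∧ 2 * b < a)) (hΩ : OOm N a M (2 * b) False True False k₀) :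
    (∀ k, OAdm N a False False k → ∃ j, OTs N a M (2 * b) M 1 t False False k j) ↔
      1 ≤ M ∧ (a = 0 ∨ 2 * b < a) := by
  refine forall_exists_elim N (N - 1) (N - 2) (fun k => min k M) (fun k => min k M) ?_ ?_
  all_goals simp only [OOm, OAdm, ONd, OTs, Nat.even_iff, Nat.odd_iff, true_iff, false_iff, iff_true,
    iff_false, forall_const, iff_self, and_true, true_and, implies_true, not_true_eq_false,
    false_imp_iff, not_false_eq_true, and_false, or_false, false_and, false_or, not_not, imp_false] at *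
  · intro j₁ j₂ j₃ h1 h2 h3
    omega
  · intro h1 k h2
    omega


/-- Elements of prime order of PΩ⁻_n(q) with no fixed totally singular `m`-space. Here `T = PΩ⁻_n(F)`, `n = 2d ≥ 8`, realised through `Ω⁻_n(q)`, the commutator subgroup of the isometry group of `Q = Σ_{i<d−1} xᵢyᵢ + z₁² + a z₁z₂ + b z₂²` with `z₁² + a z₁z₂ + b z₂²` anisotropic, over the field `F` with `q` elements; an element of `T` of prime order `r` is an element `x` of `Ω⁻_n(q)` with `x^r` scalar and `x` not scalar. Let `1 ≤ m ≤ d − 1` and let `r` be a prime dividing the number of totally singular `m`-spaces (subspaces of dimension `m` on which `Q` vanishes); for `r ≠ p` let `i` be the multiplicative order of `q` modulo `r`, `c = i` for `i` even and `c = 2i` for `i` odd, and write `k = n mod c`, `ℓ = m mod i`, `n' = ⌊n/i⌋`, `m' = ⌊m/i⌋`, `t = (r−1)/i`. Then every element of `T` of order `r` fixes some totally singular `m`-space if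 and only if one of: (i) `r = 2 ≠ p` and (`n ≡ 0 (mod 4)`, or `m` is even, or `q ≢ 7 (mod 8)`); (ii) `r ≠ p` odd, `i` odd, `i ≤ m` and (`k = 0` or `k > 2ℓ`); (iii) `r ≠ p` odd, `i` even, `i ≤ m`, `n' − 2m' ≥ t`, and one of: (a) `i ≥ 2ℓ`, `k = 0`, `n/i` even and `n' − 2m' > t` (all four); (b) `k ≥ 2ℓ` and `n'` odd; (c) `k > 2ℓ` and `n'` even. -/
theorem result {F : Type*} [Field F] [Fintype F] {p : ℕ} [Fact p.Prime] [CharP F p] {q : ℕ} (hq : Fintype.card F = q)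
    (d m : ℕ) (hd : 4 ≤ d) (hm : 1 ≤ m) (hmd : m + 1 ≤ d) (a b : F) (hab : ∀ x y : F, x ^ 2 + a * x * y + b * y ^ 2 = 0 → x = 0 ∧ y = 0)
    (r : ℕ) [Fact r.Prime]
    (hrΩ : r ∣ Nat.card {W : Submodule F ((Fin (d - 1) ⊕ Fin (d - 1)) ⊕ Fin 2 → F) // Module.finrank F ↥W = m ∧ Cfsg.Geo.IsTotallySingularQuad (Cfsg.quadFormMinus (d - 1) F a b) W})
    (i c : ℕ) (hi : i = orderOf (q : ZMod r)) (hc : c = if Even i then i else 2 * i) :
    (∀ x : GL ((Fin (d - 1) ⊕ Fin (d - 1)) ⊕ Fin 2) F, x ∈ Cfsg.Geo.omegaGL (Cfsg.quadFormMinus (d - 1) F a b) →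
      (∃ z : F, ((x ^ r : GL ((Fin (d - 1) ⊕ Fin (d - 1)) ⊕ Fin 2) F) : Matrix ((Fin (d - 1) ⊕ Fin (d - 1)) ⊕ Fin 2) ((Fin (d - 1) ⊕ Fin (d - 1)) ⊕ Fin 2) F) = z • (1 : Matrix ((Fin (d - 1) ⊕ Fin (d - 1)) ⊕ Fin 2) ((Fin (d - 1) ⊕ Fin (d - 1)) ⊕ Fin 2) F)) →
      (∀ z : F, (x : Matrix ((Fin (d - 1) ⊕ Fin (d - 1)) ⊕ Fin 2) ((Fin (d - 1) ⊕ Fin (d - 1)) ⊕ Fin 2) F) ≠ z • (1 : Matrix ((Fin (d - 1) ⊕ Fin (d - 1)) ⊕ Fin 2) ((Fin (d - 1) ⊕ Fin (d - 1)) ⊕ Fin 2) F)) →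
      ∃ W : Submodule F ((Fin (d - 1) ⊕ Fin (d - 1)) ⊕ Fin 2 → F), (Module.finrank F ↥W = m ∧ Cfsg.Geo.IsTotallySingularQuad (Cfsg.quadFormMinus (d - 1) F a b) W) ∧ W.map (Matrix.toLin' (x : Matrix ((Fin (d - 1) ⊕ Fin (d - 1)) ⊕ Fin 2) ((Fin (d - 1) ⊕ Fin (d - 1)) ⊕ Fin 2) F)) ≤ W) ↔
    ((r = 2 ∧ p ≠ 2 ∧ (Even d ∨ Even m ∨ q % 8 ≠ 7)) ∨
     (r ≠ p ∧ 2 < r ∧ Odd i ∧ i ≤ m ∧ ((2 * d) % c = 0 ∨ 2 * (m % i) < (2 * d) % c)) ∨
     (r ≠ p ∧ 2 < r ∧ Even i ∧ i ≤ m ∧ (r - 1) / i + 2 * (m / i) ≤ (2 * d) / i ∧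
       ((2 * (m % i) ≤ i ∧ (2 * d) % c = 0 ∧ Even ((2 * d) / i) ∧ (r - 1) / i + 2 * (m / i) < (2 * d) / i) ∨
        (2 * (m % i) ≤ (2 * d) % c ∧ Odd ((2 * d) / i)) ∨
        (2 * (m % i) < (2 * d) % c ∧ Even ((2 * d) / i))))) := by
  subst hq
  have hP : (ofQuad (qMinus (d - 1) a b)).Nondeg := ofQuad_nondeg _ (qMinus_nondegenerate _ hab)
  have hn := finrank_minus F (d := d) (by omega)
  have hτ : Plus (ofQuad (qMinus (d - 1) a b)) ⊤ ↔ False := iff_false_intro (not_plus_qMinus _ hab)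
  have h24 : Nat.card F ≠ 2 ∨ Module.finrank F ((Fin (d - 1) ⊕ Fin (d - 1)) ⊕ Fin 2 → F) ≠ 4 := Or.inr (by omega)
  have hr' : r.Prime := Fact.out
  rw [← coe_qMinus] at *
  simp only [Cfsg.Geo.IsTotallySingularQuad, ← ts_ofQuad_iff] at hrΩ ⊢
  rw [forall_omega_iff r fun T => ∃ W : Submodule F ((Fin (d - 1) ⊕ Fin (d - 1)) ⊕ Fin 2 → F),
    (Module.finrank F W = m ∧ (ofQuad (qMinus (d - 1) a b)).TS W) ∧ W.map T ≤ W]
  simp only [← inv_iff_map_le, and_assoc]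
  by_cases hrp : r = p
  · subst hrp
    exact absurd hrΩ (quad_not_dvd_card_ts rfl hP (by omega))
  by_cases hr2 : r = 2
  · subst hr2
    have h4 := card_mod_four (F := F) hrp
    have h2 := two_ne_zero_of_ne (F := F) hrp
    rw [forall_two_ts hP h2 (by omega), forall_invol_ts hP h2, hasJ_iff hP h2 hn, hn, hτ,
      forall_exists_elim (R := True) 1 1 1 (fun b => min m (d - b)) (fun b => min m (d - b - 1)) ?_ ?_]
    all_goals simp only [true_and, lt_self_iff_false, false_and, and_false, or_false, ne_eq,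
      Ne.symm hrp, not_false_eq_true, false_iff, Nat.even_iff, implies_true]
    · omega
    · intro h b h'
      omega
  have ho := hr'.odd_of_ne_two hr2
  rw [forall_inO_odd hP h24 ho _ fun T ⟨W, h1, h3, h4⟩ => ⟨W, h1, h3, inv_neg_iff.1 h4⟩,
    quad_forall_ts rfl hP hrp hr2 hi hc, hn, hτ]
  obtain ⟨k₀, hΩ⟩ := quad_om_ts rfl hP hrp hr2 hi hc hm (by omega) hrΩ
  rw [hn, hτ] at hΩ
  have hi0 := (sdData_id hrp hr2 hi hc).b_pos hrp
  have hc0 := (sdData_id hrp hr2 hi hc).c_pos hrp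
  have hc2 := c_even hc
  have h3 := mod_mod_two hc2 (2 * d)
  have h5 := Nat.even_iff.1 hc2
  have h6 := nf_lt0 hc0 (show 2 * m < 2 * d by omega)
  have ht := div_ord_pos (F := F) hrp
  rw [← hi] at ht
  simp only [hr2, false_and, false_or, ne_eq, hrp, not_false_eq_true, true_and,
    two_lt_of_ne_two hr' hr2, le_iff_one_le_div hi0]
  by_cases he : Even i
  · rw [if_pos he] at hc
    subst hc
    simp only [he, Nat.not_odd_iff_even.2 he, false_and, false_or, true_and, if_true] at hΩ ⊢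
    exact arith_even (Nat.mod_lt _ hc0) (Nat.mod_lt _ hc0) h5 (by omega) ht
      (two_mul_div_mod hc0 m) (nf_pos m hm) h6 hΩ
  · rw [if_neg he] at hc
    subst hc
    rw [Nat.mul_div_mul_left m i two_pos, Nat.mul_mod_mul_left 2 m i] at hΩ h6 ⊢
    simp only [he, Nat.not_even_iff_odd.1 he, false_and, or_false, true_and, true_or, and_true,
      if_false] at hΩ ⊢
    exact arith_odd (by omega) (nf_pos m hm) h6 hΩ

end Cfsg.Agent.S5987
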