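import Cfsg.Statements.S5988
import Cfsg.Agent.Lib.Elus2.Orth5

set_option autoImplicit false
open scoped MatrixGroups
open Cfsg

namespace Cfsg.Agent.S5988

open CfsgLib.Elusive CfsgLib.Elus2 CfsgLib.Forms CfsgLib.MatConj CfsgLib.Orth Polynomial

theorem arith_even {N a M b c k₀ : ℕ} {s : ℕ} (hs : b = a → s = N + M) (ha : a < c) (hb : b < c) (hc : c % 2 = 0)
    (ha2 : a % 2 = 0) (hb2 : b % 2 = 0) (hm : 0 < M ∨ 0 < b) (hlt : M < N ∨ (M = N ∧ b < a))
    (hΩ : OOm N a M b True False True k₀) :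
    (∀ k, OAdm N a True True k → ∃ j, ONd N a M b True False True k j) ↔
      ((a = 0 ∧ (Odd N ∨ (b = 0 ∧ Odd M))) ∨ (1 ≤ M ∧ ((0 < b ∧ b < a) ∨
        (0 < b ∧ b = a ∧ Odd s) ∨ (b = 0 ∧ 0 < a ∧ Odd M)))) := by
  refine forall_exists_elim N (N - 1) 0 (fun k => min k M) (fun k => min k M - 1) ?_ ?_
  all_goals simp only [OOm, OAdm, ONd, OTs, Nat.even_iff, Nat.odd_iff, true_iff, false_iff, iff_true,
    iff_false, forall_const, iff_self, and_true, true_and, implies_true, not_true_eq_false,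
    false_imp_iff, not_false_eq_true, and_false, or_false, false_and, false_or, not_not, imp_false] at *
  · intro j₁ j₂ _ h1 h2 _
    rcases (by omega : M = 0 ∨ (M = 1 ∧ a = 0) ∨ (1 ≤ M ∧ 2 ≤ M + a)) with rfl | ⟨rfl, rfl⟩ | h
    · omega
    · omega
    · clear hΩ hm
      have h3 : 1 ≤ N := by omega
      rcases Nat.eq_zero_or_pos a with rfl | h4 <;> omega
  · intro h1 k h2
    rcases (by omega : M = 0 ∨ (M = 1 ∧ a = 0) ∨ (1 ≤ M ∧ 2 ≤ M + a)) with rfl | ⟨rfl, rfl⟩ | h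
    · rw [Nat.min_zero]
      omega
    · rw [min_eq_right h2.1]
      omega
    · clear hΩ hm
      rcases le_total k M with h3 | h3
      · rw [min_eq_left h3]
        omega
      · rw [min_eq_right h3]
        omega

theorem arith_odd {N a M b c k₀ : ℕ} (ha : a < c) (hb : b < c) (hc : c % 2 = 0)
    (ha2 : a % 2 = 0) (hb2 : b % 2 = 0) (hm : 0 < M ∨ 0 < b) (hlt : M < N ∨ (M = N ∧ b < a))
    (hΩ : OOm N a M b True False False k₀) :
    (∀ k, OAdm N a True False k → ∃ j, ONd N a M b True False False k j) ↔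
      1 ≤ M ∧ 0 < b ∧ b < a := by
  refine forall_exists_elim N (N - 1) 0 (fun k => min k M) (fun k => min k M - 1) ?_ ?_
  all_goals simp only [OOm, OAdm, ONd, OTs, Nat.even_iff, Nat.odd_iff, true_iff, false_iff, iff_true,
    iff_false, forall_const, iff_self, and_true, true_and, implies_true, not_true_eq_false,
    false_imp_iff, not_false_eq_true, and_false, or_false, false_and, false_or, not_not, imp_false] at *
  · intro j₁ j₂ _ h1 h2 _
    rcases (by omega : M = 0 ∨ (M = 1 ∧ a = 0) ∨ (1 ≤ M ∧ 2 ≤ M + a)) with rfl | ⟨rfl, rfl⟩ | h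
    · omega
    · omega
    · clear hΩ hm
      have h3 : 1 ≤ N := by omega
      rcases Nat.eq_zero_or_pos a with rfl | h4 <;> omega
  · intro h1 k h2
    rcases (by omega : M = 0 ∨ (M = 1 ∧ a = 0) ∨ (1 ≤ M ∧ 2 ≤ M + a)) with rfl | ⟨rfl, rfl⟩ | h
    · rw [Nat.min_zero]
      omega
    · rw [min_eq_right h2.1]
      omega
    · clear hΩ hm
      rcases le_total k M with h3 | h3
      · rw [min_eq_left h3]
        omega
      · rw [min_eq_right h3]
        omega


/-- Elements of prime order of PΩ⁺_n(q) with no fixed elliptic `m`-space. Here `T = PΩ⁺_n(F)`, `n = 2d ≥ 8`, realised through `Ω⁺_n(q)`, the commutator subgroup of the isometry group of `Q = Σ xᵢyᵢ` over the field `F` with `q` elements; an element of `T` of prime order `r` is an element `x` of `Ω⁺_n(q)` with `x^r` scalar and `x` not scalar; a nondegenerate `m`-space (even `m`) is a subspace on which the polar form of `Q` is nondegenerate; it is hyperbolic if it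 contains an `m/2`-dimensional subspace on which `Q` vanishes, elliptic otherwise. Let `m` be even with `2 ≤ m < n/2` and let `r` be a prime dividing the number of elliptic `m`-spaces; for `r ≠ p` let `i` be the multiplicative order of `q` modulo `r`, `c = i` for `i` even and `c = 2i` for `i` odd, and write `k = n mod c`, `ℓ = m mod i`, `ℓ' = m mod c`, `n' = ⌊n/i⌋`, `m' = ⌊m/i⌋`, `t = (r−1)/i`. Then every element of `T` of order `r` fixes some elliptic `m`-space if and only if one of: (i) `r = 2 ≠ p` and either `n ≡ 0 (mod 4)`, `q ≡ 3 (mod 4)` and `m ≡ 2 (mod 4)`, or `n ≡ 2 (mod 4)` and `q ≢ 1 (mod 8)`; (ii) `r ≠ p` odd, `i` odd, `c ≤ m` and `k > ℓ' > 0`; (iii) `r ≠ p` odd, `i` even, and either `k = 0` and (`n/i` odd, or `ℓ' = 0` and `m/i` odd), or `i ≤ m` and (`k > ℓ' > 0`, or `k = ℓ' > 0` and `(n + m − 2k)/i` odd, or `k > ℓ' = 0` and `m/i` odd). (For `r = p` there is always an element of order `p` fixing no elliptic `m`-space.)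 -/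
theorem result {F : Type*} [Field F] [Fintype F] {p : ℕ} [Fact p.Prime] [CharP F p] {q : ℕ} (hq : Fintype.card F = q)
    (d m : ℕ) (hd : 4 ≤ d) (hm : 2 ≤ m) (hme : Even m) (hmd : m < d)
    (r : ℕ) [Fact r.Prime]
    (hrΩ : r ∣ Nat.card {W : Submodule F (Fin d ⊕ Fin d → F) // Module.finrank F ↥W = m ∧ Cfsg.Geo.IsNondegenerateOn (QuadraticMap.polar (Cfsg.quadFormPlus d F)) W ∧ ¬ Cfsg.Geo.IsPlusTypeOn (Cfsg.quadFormPlus d F) W})
    (i c : ℕ) (hi : i = orderOf (q : ZMod r)) (hc : c = if Even i then i else 2 * i) :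
    (∀ x : GL (Fin d ⊕ Fin d) F, x ∈ Cfsg.Geo.omegaGL (Cfsg.quadFormPlus d F) →
      (∃ z : F, ((x ^ r : GL (Fin d ⊕ Fin d) F) : Matrix (Fin d ⊕ Fin d) (Fin d ⊕ Fin d) F) = z • (1 : Matrix (Fin d ⊕ Fin d) (Fin d ⊕ Fin d) F)) →
      (∀ z : F, (x : Matrix (Fin d ⊕ Fin d) (Fin d ⊕ Fin d) F) ≠ z • (1 : Matrix (Fin d ⊕ Fin d) (Fin d ⊕ Fin d) F)) →
      ∃ W : Submodule F (Fin d ⊕ Fin d → F), (Module.finrank F ↥W = m ∧ Cfsg.Geo.IsNondegenerateOn (QuadraticMap.polar (Cfsg.quadFormPlus d F)) W ∧ ¬ Cfsg.Geo.IsPlusTypeOn (Cfsg.quadFormPlus d F) W) ∧ W.map (Matrix.toLin' (x : Matrix (Fin d ⊕ Fin d) (Fin d ⊕ Fin d) F)) ≤ W) ↔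
    ((r = 2 ∧ p ≠ 2 ∧ ((Even d ∧ q % 4 = 3 ∧ m % 4 = 2) ∨ (Odd d ∧ q % 8 ≠ 1))) ∨
     (r ≠ p ∧ 2 < r ∧ Odd i ∧ c ≤ m ∧ 0 < m % c ∧ m % c < (2 * d) % c) ∨
     (r ≠ p ∧ 2 < r ∧ Even i ∧
       (((2 * d) % c = 0 ∧ (Odd ((2 * d) / i) ∨ (m % c = 0 ∧ Odd (m / i)))) ∨
        (i ≤ m ∧ ((0 < m % c ∧ m % c < (2 * d) % c) ∨
                  (0 < m % c ∧ m % c = (2 * d) % c ∧ Odd ((2 * d + m - 2 * ((2 * d) % c)) / i)) ∨
                  (m % c = 0 ∧ 0 < (2 * d) % c ∧ Odd (m / i))))))) := by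
  subst hq
  have hP : (ofQuad (qPlus d F)).Nondeg := ofQuad_nondeg _ (qPlus_nondegenerate d)
  have hn := finrank_sum_fun F d
  have hτ : Plus (ofQuad (qPlus d F)) ⊤ ↔ True := iff_true_intro (plus_qPlus d)
  have h24 : Nat.card F ≠ 2 ∨ Module.finrank F (Fin d ⊕ Fin d → F) ≠ 4 := Or.inr (by omega)
  have hr' : r.Prime := Fact.out
  rw [← coe_qPlus] at *
  have key : ∀ W, ¬ Cfsg.Geo.IsPlusTypeOn (qPlus d F) W ↔ (Plus (ofQuad (qPlus d F)) W ↔ False) :=
    fun W => by rw [plusOn_iff_plus, iff_false]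
  simp only [nondegOn_iff_nd, key] at hrΩ ⊢
  rw [forall_omega_iff r fun T => ∃ W : Submodule F (Fin d ⊕ Fin d → F),
    (Module.finrank F W = m ∧ ND (ofQuad (qPlus d F)) W ∧ (Plus (ofQuad (qPlus d F)) W ↔ False)) ∧ W.map T ≤ W]
  simp only [← inv_iff_map_le]
  by_cases hrp : r = p
  · subst hrp
    refine iff_of_false (fun h => ?_) (by
      simp only [ne_eq, not_true_eq_false, false_and, or_false]
      exact fun h => h.2.1 h.1)
    obtain ⟨T, a1, a2, a3, a4, a5⟩ := exists_siegel_omega (p := r) hP h24 (k := d / 2)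
      (by omega) (Or.inr ⟨by omega, plus_qPlus d⟩)
    obtain ⟨W, ⟨b1, b2, b4⟩, b3⟩ := h T a1 a2 a3
    exact b4.1 (siegel_plus hP a1 a4 (plus_qPlus d) (by omega) b2 b3 (b1 ▸ hme))
  by_cases hr2 : r = 2
  · subst hr2
    have h2 := two_ne_zero_of_ne (F := F) hrp
    have h4 := card_mod_four (F := F) hrp
    rw [forall_two_nd hP h2 (by omega) (by omega) (by omega) _ _ fun W h1 h3 =>
      h1 ▸ plus_iff_dsq' hP h2 h3 (h1 ▸ hme) _, hasJ_iff hP h2 hn, hτ]
    simp only [hme, true_and, lt_self_iff_false, false_and, and_false, or_false, ne_eq,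
      Ne.symm hrp, not_false_eq_true, true_iff, false_iff, false_or]
    simp only [Nat.even_iff, Nat.odd_iff] at hme ⊢
    omega
  have ho := hr'.odd_of_ne_two hr2
  rw [forall_inO_odd hP h24 ho _ fun T ⟨W, h1, h3⟩ => ⟨W, h1, inv_neg_iff.1 h3⟩,
    quad_forall_type rfl hP hrp hr2 hi hc hme, hn, hτ]
  obtain ⟨k₀, hΩ⟩ := quad_om_nd rfl hP hrp hr2 hi hc hme (by omega) (by omega) _ hrΩ
  rw [hn, hτ] at hΩ
  have hc0 := (sdData_id hrp hr2 hi hc).c_pos hrp
  have hc2 := c_even hc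
  have h3 := mod_mod_two hc2 (2 * d)
  have h4 := mod_mod_two hc2 m
  have h5 := Nat.even_iff.1 hc2
  have h6 := Nat.even_iff.1 hme
  simp only [hr2, false_and, false_or, ne_eq, hrp, not_false_eq_true, true_and,
    two_lt_of_ne_two hr' hr2]
  by_cases he : Even i
  · rw [if_pos he] at hc
    subst hc
    simp only [he, Nat.not_odd_iff_even.2 he, false_and, false_or, true_and,
      le_iff_one_le_div hc0] at hΩ ⊢
    exact arith_even (div_sum hc0) (Nat.mod_lt _ hc0) (Nat.mod_lt _ hc0) h5 (by omega) (by omega)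
      (nf_pos m (by omega)) (nf_lt0 hc0 (by omega)) hΩ
  · simp only [he, Nat.not_even_iff_odd.1 he, false_and, or_false, true_and,
      le_iff_one_le_div hc0] at hΩ ⊢
    exact arith_odd (Nat.mod_lt _ hc0) (Nat.mod_lt _ hc0) h5 (by omega) (by omega)
      (nf_pos m (by omega)) (nf_lt0 hc0 (by omega)) hΩ

end Cfsg.Agent.S5988
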