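import Cfsg.Statements.S5991
import Cfsg.Agent.Lib.Elus2.Orth5

set_option autoImplicit false
open scoped MatrixGroups
open Cfsg

namespace Cfsg.Agent.S5991

open CfsgLib.Elusive CfsgLib.Elus2 CfsgLib.Forms CfsgLib.MatConj CfsgLib.Orth Polynomial

theorem arith_even {N a M b c k₀ : ℕ} (ha : a < c) (hb : b < c) (hc : c % 2 = 0)
    (ha2 : a % 2 = 0) (hb2 : b % 2 = 1) (hm : 0 < M ∨ 0 < b) (hlt : M < N ∨ (M = N ∧ b < a))
    (hΩ : OOm N a M b False True True k₀) :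
    (∀ k, OAdm N a False True k → ∃ j, ONd N a M b False True True k j) ↔
      ((a = 0 ∧ Even N) ∨ (0 < a ∧ 1 ≤ M ∧ 0 < b ∧ b < a)) := by
  refine forall_exists_elim N (N - 1) 0 (fun k => min k M) (fun k => min k M - 1) ?_ ?_
  all_goals simp only [OOm, OAdm, ONd, OTs, Nat.even_iff, Nat.odd_iff, true_iff, false_iff, iff_true,
    iff_false, forall_const, iff_self, and_true, true_and, implies_true, not_true_eq_false,
    false_imp_iff, not_false_eq_true, and_false, or_false, false_and, false_or, not_not, imp_false] at *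
  · intro j₁ j₂ _ h1 h2 _
    rcases (by omega : M = 0 ∨ (M = 1 ∧ a = 0) ∨ (1 ≤ M ∧ 2 ≤ M + a)) with rfl | ⟨rfl, rfl⟩ | h
    · omega
    · omega
    · clear hΩ hm
      have h3 : 1 ≤ N := by omega
      rcases Nat.eq_zero_or_pos a with rfl | h4 <;> omega
  · intro h1 k h2
    rcases (by omega : M = 0 ∨ (M = 1 ∧ a = 0) ∨ (1 ≤ M ∧ 2 ≤ M + a)) with rfl | ⟨rfl, rfl⟩ | h
    · rw [Nat.min_zero]
      omega
    · rw [min_eq_right h2.1]
      omega
    · clear hΩ hm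
      rcases le_total k M with h3 | h3
      · rw [min_eq_left h3]
        omega
      · rw [min_eq_right h3]
        omega

theorem arith_odd {N a M b c k₀ : ℕ} (ha : a < c) (hb : b < c) (hc : c % 2 = 0)
    (ha2 : a % 2 = 0) (hb2 : b % 2 = 1) (hm : 0 < M ∨ 0 < b) (hlt : M < N ∨ (M = N ∧ b < a))
    (hΩ : OOm N a M b False True False k₀) :
    (∀ k, OAdm N a False False k → ∃ j, ONd N a M b False True False k j) ↔
      (a = 0 ∨ (1 ≤ M ∧ 0 < b ∧ b < a)) := by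
  refine forall_exists_elim N (N - 1) 0 (fun k => min k M) (fun k => min k M - 1) ?_ ?_
  all_goals simp only [OOm, OAdm, ONd, OTs, Nat.even_iff, Nat.odd_iff, true_iff, false_iff, iff_true,
    iff_false, forall_const, iff_self, and_true, true_and, implies_true, not_true_eq_false,
    false_imp_iff, not_false_eq_true, and_false, or_false, false_and, false_or, not_not, imp_false] at *
  · intro j₁ j₂ _ h1 h2 _
    rcases (by omega : M = 0 ∨ (M = 1 ∧ a = 0) ∨ (1 ≤ M ∧ 2 ≤ M + a)) with rfl | ⟨rfl, rfl⟩ | h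
    · omega
    · omega
    · clear hΩ hm
      have h3 : 1 ≤ N := by omega
      rcases Nat.eq_zero_or_pos a with rfl | h4 <;> omega
  · intro h1 k h2
    rcases (by omega : M = 0 ∨ (M = 1 ∧ a = 0) ∨ (1 ≤ M ∧ 2 ≤ M + a)) with rfl | ⟨rfl, rfl⟩ | h
    · rw [Nat.min_zero]
      omega
    · rw [min_eq_right h2.1]
      omega
    · clear hΩ hm
      rcases le_total k M with h3 | h3
      · rw [min_eq_left h3]
        omega
      · rw [min_eq_right h3]
        omega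


/-- Elements of prime order of PΩ⁻_n(q), q odd, with no fixed nondegenerate `m`-space of odd dimension. Here `T = PΩ⁻_n(F)`, `n = 2d ≥ 8`, realised through `Ω⁻_n(q)`, the commutator subgroup of the isometry group of `Q = Σ_{i<d−1} xᵢyᵢ + z₁² + a z₁z₂ + b z₂²` with `z₁² + a z₁z₂ + b z₂²` anisotropic, over the field `F` with `q` elements; an element of `T` of prime order `r` is an element `x` of `Ω⁻_n(q)` with `x^r` scalar and `x` not scalar; `q` and `m` are odd, `1 ≤ m < n/2`. The nondegenerate `m`-spaces fall into two isometry classes, each an orbit of `T`, with equivalent actions; fix one such space `W₀` and let Ω be the set of nondegenerate `m`-spaces isometric to `W₀`. Let `r` be a prime dividing the size of Ω; for `r ≠ p` let `i` be the multiplicative order of `q` modulo `r`, `c = i` for `i` even and `c = 2i` for `i` odd, and write `k = n mod c`, `ℓ = m mod i`, `ℓ' = m mod c`, `n' = ⌊n/i⌋`, `m' = ⌊m/i⌋`,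 `t = (r−1)/i`. Then every element of `T` of order `r` fixes a member of Ω if and only if one of: (i) `r = 2` and (`n ≡ 0 (mod 4)` or `q ≢ 7 (mod 8)`); (ii) `r ≠ p` odd, `i` odd, and `k = 0` or (`c ≤ m` and `k > ℓ' > 0`); (iii) `r ≠ p` odd, `i` even, and either `k = 0` and `n/i` even, or `k > 0`, `i ≤ m` and `k > ℓ' > 0`. (For `r = p` there is always an element of order `p` fixing no member of Ω.) -/
theorem result {F : Type*} [Field F] [Fintype F] {p : ℕ} [Fact p.Prime] [CharP F p] {q : ℕ} (hq : Fintype.card F = q)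
    (hodd : Odd q) (d m : ℕ) (hd : 4 ≤ d) (hm : Odd m) (hmd : m < d) (a b : F) (hab : ∀ x y : F, x ^ 2 + a * x * y + b * y ^ 2 = 0 → x = 0 ∧ y = 0)
    (W₀ : Submodule F ((Fin (d - 1) ⊕ Fin (d - 1)) ⊕ Fin 2 → F)) (hW₀ : Module.finrank F ↥W₀ = m ∧ Cfsg.Geo.IsNondegenerateOn (QuadraticMap.polar (Cfsg.quadFormMinus (d - 1) F a b)) W₀)
    (r : ℕ) [Fact r.Prime]
    (hrΩ : r ∣ Nat.card {W : Submodule F ((Fin (d - 1) ⊕ Fin (d - 1)) ⊕ Fin 2 → F) // Module.finrank F ↥W = m ∧ Cfsg.Geo.IsNondegenerateOn (QuadraticMap.polar (Cfsg.quadFormMinus (d - 1) F a b)) W ∧ Cfsg.Geo.AreIsometricFor (Cfsg.quadFormMinus (d - 1) F a b) W W₀})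
    (i c : ℕ) (hi : i = orderOf (q : ZMod r)) (hc : c = if Even i then i else 2 * i) :
    (∀ x : GL ((Fin (d - 1) ⊕ Fin (d - 1)) ⊕ Fin 2) F, x ∈ Cfsg.Geo.omegaGL (Cfsg.quadFormMinus (d - 1) F a b) →
      (∃ z : F, ((x ^ r : GL ((Fin (d - 1) ⊕ Fin (d - 1)) ⊕ Fin 2) F) : Matrix ((Fin (d - 1) ⊕ Fin (d - 1)) ⊕ Fin 2) ((Fin (d - 1) ⊕ Fin (d - 1)) ⊕ Fin 2) F) = z • (1 : Matrix ((Fin (d - 1) ⊕ Fin (d - 1)) ⊕ Fin 2) ((Fin (d - 1) ⊕ Fin (d - 1)) ⊕ Fin 2) F)) →
      (∀ z : F, (x : Matrix ((Fin (d - 1) ⊕ Fin (d - 1)) ⊕ Fin 2) ((Fin (d - 1) ⊕ Fin (d - 1)) ⊕ Fin 2) F) ≠ z • (1 : Matrix ((Fin (d - 1) ⊕ Fin (d - 1)) ⊕ Fin 2) ((Fin (d - 1) ⊕ Fin (d - 1)) ⊕ Fin 2) F)) →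
      ∃ W : Submodule F ((Fin (d - 1) ⊕ Fin (d - 1)) ⊕ Fin 2 → F), (Module.finrank F ↥W = m ∧ Cfsg.Geo.IsNondegenerateOn (QuadraticMap.polar (Cfsg.quadFormMinus (d - 1) F a b)) W ∧ Cfsg.Geo.AreIsometricFor (Cfsg.quadFormMinus (d - 1) F a b) W W₀) ∧ W.map (Matrix.toLin' (x : Matrix ((Fin (d - 1) ⊕ Fin (d - 1)) ⊕ Fin 2) ((Fin (d - 1) ⊕ Fin (d - 1)) ⊕ Fin 2) F)) ≤ W) ↔
    ((r = 2 ∧ (Even d ∨ q % 8 ≠ 7)) ∨
     (r ≠ p ∧ 2 < r ∧ Odd i ∧ ((2 * d) % c = 0 ∨ (c ≤ m ∧ 0 < m % c ∧ m % c < (2 * d) % c))) ∨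
     (r ≠ p ∧ 2 < r ∧ Even i ∧ (((2 * d) % c = 0 ∧ Even ((2 * d) / i)) ∨ (0 < (2 * d) % c ∧ i ≤ m ∧ 0 < m % c ∧ m % c < (2 * d) % c)))) := by
  subst hq
  have hP : (ofQuad (qMinus (d - 1) a b)).Nondeg := ofQuad_nondeg _ (qMinus_nondegenerate _ hab)
  have hn := finrank_minus F (d := d) (by omega)
  have hτ : Plus (ofQuad (qMinus (d - 1) a b)) ⊤ ↔ False := iff_false_intro (not_plus_qMinus _ hab)
  have h24 : Nat.card F ≠ 2 ∨ Module.finrank F ((Fin (d - 1) ⊕ Fin (d - 1)) ⊕ Fin 2 → F) ≠ 4 := Or.inr (by omega)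
  have hr' : r.Prime := Fact.out
  rw [← coe_qMinus] at *
  have h2 := two_ne_zero_of_odd_card hodd
  rw [nondegOn_iff_nd] at hW₀
  obtain ⟨rfl, hW₀⟩ := hW₀
  have key : ∀ W : Submodule F ((Fin (d - 1) ⊕ Fin (d - 1)) ⊕ Fin 2 → F), (Module.finrank F W = Module.finrank F W₀ ∧
      Cfsg.Geo.IsNondegenerateOn (QuadraticMap.polar (qMinus (d - 1) a b)) W ∧ Cfsg.Geo.AreIsometricFor (qMinus (d - 1) a b) W W₀) ↔
      (Module.finrank F W = Module.finrank F W₀ ∧ ND (ofQuad (qMinus (d - 1) a b)) W ∧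
        (Dsq (qMinus (d - 1) a b) W ↔ Dsq (qMinus (d - 1) a b) W₀)) := fun W => and_congr_right fun h => by
    rw [nondegOn_iff_nd]
    exact and_congr_right fun h' => isometric_iff_dsq hP h2 h' hW₀ h
  simp only [key] at hrΩ ⊢
  generalize hm' : Module.finrank F W₀ = m at hm hmd ⊢
  rw [forall_omega_iff r fun T => ∃ W : Submodule F ((Fin (d - 1) ⊕ Fin (d - 1)) ⊕ Fin 2 → F),
    (Module.finrank F W = m ∧ ND (ofQuad (qMinus (d - 1) a b)) W ∧ (Dsq (qMinus (d - 1) a b) W ↔ Dsq (qMinus (d - 1) a b) W₀)) ∧ W.map T ≤ W]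
  simp only [← inv_iff_map_le]
  by_cases hr2 : r = 2
  · subst hr2
    rw [forall_two_nd hP h2 hm.pos (by omega) (by omega) _ _ fun W _ _ => Iff.rfl,
      hasJ_iff hP h2 hn, hτ]
    simp only [Nat.not_even_iff_odd.2 hm, true_and, lt_self_iff_false, false_and, and_false,
      or_false, true_iff, false_iff]
    simp only [Nat.even_iff, Nat.odd_iff] at *
    omega
  by_cases hrp : r = p
  · subst hrp
    refine iff_of_false (fun h => ?_) (by simp [hr2])
    have ho := hr'.odd_of_ne_two hr2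
    have hw : ∀ x y z, x + 4 * y + 3 * z = 2 * d → (x = 0 → z = 0 → Plus (ofQuad (qMinus (d - 1) a b)) ⊤) →
        y ≠ 0 ∨ z ≠ 0 → ∃ x' ≤ x, ∃ y', ∃ z' ≤ z, m = x' + 4 * y' + 3 * z' := by
      intro x y z h1 h3 h4
      obtain ⟨T, b1, b2, b3, b4⟩ := exists_m123 (p := r) hP h2 (h1.trans hn.symm) h3 h4
      obtain ⟨W, ⟨c1, c2, -⟩, c3⟩ := h T b1 (inO_of_odd hP h24 ho b1 b2) (isPE_of_odd hP b1 ho b2 b3)
      obtain ⟨x, d1, y, z, d2, d3, -⟩ := b4 W c2 c3
      exact ⟨x, d1, y, z, d2, c1 ▸ d3⟩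
    rw [Nat.odd_iff] at hm
    by_cases h3 : d % 2 = 1
    · by_cases h4 : m % 4 = 1
      · obtain ⟨x, d1, y, z, d2, d3⟩ := hw 0 ((d - 3) / 2) 2 (by omega) (by omega) (by omega)
        interval_cases z <;> omega
      · obtain ⟨x, d1, y, z, d2, d3⟩ := hw 2 (d / 2) 0 (by omega) (by omega) (by omega)
        interval_cases x <;> omega
    · obtain ⟨U, -, a1, a2, a3⟩ := exists_dsq hP h2 (nd_top hP) one_pos (by rw [finrank_top]; omega)
        (¬ Dsq _ (if m % 4 = 1 then W₀ else (ofQuad (qMinus (d - 1) a b)).perp W₀))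
      obtain ⟨v, a4, a5⟩ := quad_exists_ne rfl a1 (by rintro rfl; simp at a2)
      obtain rfl := Submodule.eq_of_le_of_finrank_eq
        ((Submodule.span_singleton_le_iff_mem _ _).2 a4) ((quad_finrank_line rfl a5).trans a2.symm)
      rw [dsq_line hP h2 a5] at a3
      obtain ⟨T, b1, b2, b3, b4⟩ := exists_unip_line (p := r) hP h2 (k := d / 2 - 1) (by omega) a5
      obtain ⟨W, ⟨c1, c2, c4⟩, c3⟩ := h T b1 (inO_of_odd hP h24 ho b1 b2) (isPE_of_odd hP b1 ho b2 b3)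
      split_ifs at a3 with h4
      · exact iff_not_self (c4.symm.trans ((b4 W c2 c3 (by omega)).trans a3))
      · have c5 := PQ.finrank_perp _ hP W
        have c6 := (b4 _ (c2.perp hP) (c3.perp hP b1) (by omega)).trans a3
        have c7 := dsq_inf_perp hP h2 c2 (nd_top hP) le_top
        rw [dsq_inf_perp hP h2 hW₀ (nd_top hP) le_top, top_inf_eq, top_inf_eq, c4, c6] at c7
        exact iff_not_self (by clear * - c7; tauto)
  have ho := hr'.odd_of_ne_two hr2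
  rw [forall_inO_odd hP h24 ho _ fun T ⟨W, h1, h3⟩ => ⟨W, h1, inv_neg_iff.1 h3⟩,
    quad_forall_dsq hP h2 hrp hr2 hi hc hm (hn ▸ even_two_mul d), hn, hτ]
  obtain ⟨k₀, hΩ⟩ := quad_om_dsq hP h2 hrp hr2 hi hc hW₀ (hm' ▸ hm) (hn ▸ even_two_mul d) hrΩ
  rw [hn, hτ] at hΩ
  rw [hm'] at hΩ
  have hc0 := (sdData_id hrp hr2 hi hc).c_pos hrp
  have hc2 := c_even hc
  have h3 := mod_mod_two hc2 (2 * d)
  have h4 := mod_mod_two hc2 m
  have h5 := Nat.even_iff.1 hc2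
  have h6 := Nat.odd_iff.1 hm
  simp only [hr2, false_and, false_or, ne_eq, hrp, not_false_eq_true, true_and,
    two_lt_of_ne_two hr' hr2]
  by_cases he : Even i
  · rw [if_pos he] at hc
    subst hc
    simp only [he, Nat.not_odd_iff_even.2 he, false_and, false_or, true_and,
      le_iff_one_le_div hc0] at hΩ ⊢
    exact arith_even (Nat.mod_lt _ hc0) (Nat.mod_lt _ hc0) h5 (by omega) (by omega)
      (nf_pos m (by omega)) (nf_lt0 hc0 (by omega)) hΩ
  · simp only [he, Nat.not_even_iff_odd.1 he, false_and, or_false, true_and,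
      le_iff_one_le_div hc0] at hΩ ⊢
    exact arith_odd (Nat.mod_lt _ hc0) (Nat.mod_lt _ hc0) h5 (by omega) (by omega)
      (nf_pos m (by omega)) (nf_lt0 hc0 (by omega)) hΩ

end Cfsg.Agent.S5991
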