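import Cfsg.Statements.S5993
import Cfsg.Agent.Lib.Elus2.Orth5

set_option autoImplicit false
open scoped MatrixGroups
open Cfsg

namespace Cfsg.Agent.S5993

open CfsgLib.Elusive CfsgLib.Elus2 CfsgLib.Forms CfsgLib.MatConj CfsgLib.Orth Polynomial

theorem arith_even {N a M b c k₀ : ℕ} {τ : Prop} (ha : a < c) (hb : b < c) (hc : c % 2 = 0)
    (ha2 : a % 2 = 1) (hb2 : b % 2 = 0) (hm : 0 < M ∨ 0 < b) (hlt : M < N ∨ (M = N ∧ b < a))
    (hΩ : OOm N a M b τ False True k₀) :
    (∀ k, OAdm N a τ True k → ∃ j, ONd N a M b τ False True k j) ↔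
      1 ≤ M ∧ b < a ∧ (0 < b ∨ Odd M) := by
  have h0 : a ≠ 0 := by omega
  have h0' : b ≠ a := by omega
  refine forall_exists_elim N (N - 1) 0 (fun k => min k M) (fun k => min k M - 1) ?_ ?_
  all_goals simp only [h0, h0', h0'.symm, OOm, OAdm, ONd, OTs, Nat.even_iff, Nat.odd_iff, true_iff, false_iff, iff_true,
    iff_false, forall_const, iff_self, and_true, true_and, implies_true, not_true_eq_false,
    false_imp_iff, not_false_eq_true, and_false, or_false, false_and, false_or, not_not, imp_false] at *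
  · intro j₁ j₂ _ h1 h2 _
    rcases (by omega : M = 0 ∨ (M = 1 ∧ a = 0) ∨ (1 ≤ M ∧ 2 ≤ M + a)) with rfl | ⟨rfl, rfl⟩ | h
    · omega
    · omega
    · clear hΩ hm
      have h3 : 1 ≤ N := by omega
      rcases Nat.eq_zero_or_pos a with rfl | h4 <;> omega
  · intro h1 k h2
    rcases (by omega : M = 0 ∨ (M = 1 ∧ a = 0) ∨ (1 ≤ M ∧ 2 ≤ M + a)) with rfl | ⟨rfl, rfl⟩ | h
    · rw [Nat.min_zero]
      omega
    · rw [min_eq_right h2.1]
      omega
    · clear hΩ hm
      rcases le_total k M with h3 | h3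
      · rw [min_eq_left h3]
        omega
      · rw [min_eq_right h3]
        omega

theorem arith_odd {N a M b c k₀ : ℕ} {τ : Prop} (ha : a < c) (hb : b < c) (hc : c % 2 = 0)
    (ha2 : a % 2 = 1) (hb2 : b % 2 = 0) (hm : 0 < M ∨ 0 < b) (hlt : M < N ∨ (M = N ∧ b < a))
    (hΩ : OOm N a M b τ False False k₀) :
    (∀ k, OAdm N a τ False k → ∃ j, ONd N a M b τ False False k j) ↔
      1 ≤ M ∧ 0 < b ∧ b < a := by
  have h0 : a ≠ 0 := by omega
  have h0' : b ≠ a := by omega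
  refine forall_exists_elim N (N - 1) 0 (fun k => min k M) (fun k => min k M - 1) ?_ ?_
  all_goals simp only [h0, h0', h0'.symm, OOm, OAdm, ONd, OTs, Nat.even_iff, Nat.odd_iff, true_iff, false_iff, iff_true,
    iff_false, forall_const, iff_self, and_true, true_and, implies_true, not_true_eq_false,
    false_imp_iff, not_false_eq_true, and_false, or_false, false_and, false_or, not_not, imp_false] at *
  · intro j₁ j₂ _ h1 h2 _
    rcases (by omega : M = 0 ∨ (M = 1 ∧ a = 0) ∨ (1 ≤ M ∧ 2 ≤ M + a)) with rfl | ⟨rfl, rfl⟩ | h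
    · omega
    · omega
    · clear hΩ hm
      have h3 : 1 ≤ N := by omega
      rcases Nat.eq_zero_or_pos a with rfl | h4 <;> omega
  · intro h1 k h2
    rcases (by omega : M = 0 ∨ (M = 1 ∧ a = 0) ∨ (1 ≤ M ∧ 2 ≤ M + a)) with rfl | ⟨rfl, rfl⟩ | h
    · rw [Nat.min_zero]
      omega
    · rw [min_eq_right h2.1]
      omega
    · clear hΩ hm
      rcases le_total k M with h3 | h3
      · rw [min_eq_left h3]
        omega
      · rw [min_eq_right h3]
        omega


/-- Elements of prime order of Ω_n(q), nq odd, with no fixed elliptic `m`-space. Here `T = Ω_n(F)`, `n = 2d+1 ≥ 7`, `q` odd, realised as the commutator subgroup of the isometry group of `Q = x₀² + Σ xᵢyᵢ` over the field `F` with `q` elements (trivial centre, so its elements of prime order `r` are used directly); a nondegenerate `m`-space (even `m`) is a subspace on which the polar form of `Q` is nondegenerate; it is hyperbolic if it contains an `m/2`-dimensional subspace on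 which `Q` vanishes, elliptic otherwise. Let `m` be even with `2 ≤ m ≤ n − 1` (no restriction `m < n/2`) and let `r` be a prime dividing the number of elliptic `m`-spaces; for `r ≠ p` let `i` be the multiplicative order of `q` modulo `r`, `c = i` for `i` even and `c = 2i` for `i` odd, and write `k = n mod c`, `ℓ' = m mod c`. Then every element of `T` of order `r` fixes some elliptic `m`-space if and only if `r = 2`, or `r ≠ p` is odd and one of: (i) `i` odd, `c ≤ m` and `k > ℓ' > 0`; (ii) `i` even, `i ≤ m`, `k > ℓ'`, and `m/i` odd whenever `ℓ' = 0`. (For `r = p` there is always an element of order `p` fixing no elliptic `m`-space.) -/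
theorem result {F : Type*} [Field F] [Fintype F] {p : ℕ} [Fact p.Prime] [CharP F p] {q : ℕ} (hq : Fintype.card F = q) (hqodd : Odd q)
    (d m : ℕ) (hd : 3 ≤ d) (hm : 2 ≤ m) (hme : Even m) (hmn : m ≤ 2 * d)
    (r : ℕ) [Fact r.Prime]
    (hrΩ : r ∣ Nat.card {W : Submodule F (Unit ⊕ (Fin d ⊕ Fin d) → F) // Module.finrank F ↥W = m ∧ Cfsg.Geo.IsNondegenerateOn (QuadraticMap.polar (Cfsg.quadFormOdd d F)) W ∧ ¬ Cfsg.Geo.IsPlusTypeOn (Cfsg.quadFormOdd d F) W})
    (i c : ℕ) (hi : i = orderOf (q : ZMod r)) (hc : c = if Even i then i else 2 * i) :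
    (∀ x : GL (Unit ⊕ (Fin d ⊕ Fin d)) F, x ∈ Cfsg.Geo.omegaGL (Cfsg.quadFormOdd d F) → orderOf x = r →
      ∃ W : Submodule F (Unit ⊕ (Fin d ⊕ Fin d) → F), (Module.finrank F ↥W = m ∧ Cfsg.Geo.IsNondegenerateOn (QuadraticMap.polar (Cfsg.quadFormOdd d F)) W ∧ ¬ Cfsg.Geo.IsPlusTypeOn (Cfsg.quadFormOdd d F) W) ∧ W.map (Matrix.toLin' (x : Matrix (Unit ⊕ (Fin d ⊕ Fin d)) (Unit ⊕ (Fin d ⊕ Fin d)) F)) ≤ W) ↔
    (r = 2 ∨
     (r ≠ p ∧ 2 < r ∧ Odd i ∧ c ≤ m ∧ 0 < m % c ∧ m % c < (2 * d + 1) % c) ∨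
     (r ≠ p ∧ 2 < r ∧ Even i ∧ i ≤ m ∧ m % c < (2 * d + 1) % c ∧ (0 < m % c ∨ Odd (m / i)))) := by
  subst hq
  have h2 := two_ne_zero_of_odd_card hqodd
  have hP : (ofQuad (qOdd d F)).Nondeg := ofQuad_nondeg _ (qOdd_nondegenerate h2 d)
  have hn := finrank_odd F d
  have h24 : Nat.card F ≠ 2 ∨ Module.finrank F (Unit ⊕ (Fin d ⊕ Fin d) → F) ≠ 4 := Or.inr (by omega)
  have hr' : r.Prime := Fact.out
  rw [← coe_qOdd] at *
  have key : ∀ W, ¬ Cfsg.Geo.IsPlusTypeOn (qOdd d F) W ↔ (Plus (ofQuad (qOdd d F)) W ↔ False) :=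
    fun W => by rw [plusOn_iff_plus, iff_false]
  simp only [nondegOn_iff_nd, key] at hrΩ ⊢
  rw [forall_omega_order_iff r fun T => ∃ W : Submodule F (Unit ⊕ (Fin d ⊕ Fin d) → F),
    (Module.finrank F W = m ∧ ND (ofQuad (qOdd d F)) W ∧ (Plus (ofQuad (qOdd d F)) W ↔ False)) ∧ W.map T ≤ W]
  simp only [← inv_iff_map_le]
  by_cases hr2 : r = 2
  · subst hr2
    refine iff_of_true (fun T a1 _ a2 _ => ?_) (Or.inl rfl)
    obtain ⟨W, ⟨b1, b2, b3⟩, b4⟩ := invol_exists_dsq hP h2 a1 a2 (m := m) (by omega) (by omega)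
      (by omega) (False ↔ (m % 4 = 0 ∨ Fintype.card F % 4 ≠ 3))
    exact ⟨W, ⟨b1, b2, (plus_iff_dsq' hP h2 b2 (b1 ▸ hme) _).2 (b1 ▸ b3)⟩, b4⟩
  by_cases hrp : r = p
  · subst hrp
    refine iff_of_false (fun h => ?_) (by simp [hr2])
    obtain ⟨T, b1, b2, b3, b4⟩ := exists_m123 (p := r) hP h2 (x := 1 - d % 2) (y := d / 2)
      (z := d % 2) (by omega) (by omega) (by omega)
    obtain ⟨W, ⟨c1, c2, c4⟩, c3⟩ := h T b1 (inO_of_odd hP h24 (hr'.odd_of_ne_two hr2) b1 b2) b2 b3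
    obtain ⟨x, d1, y, z, d2, d3, d4⟩ := b4 W c2 c3
    rw [Nat.even_iff] at hme
    exact c4.1 (d4 (by omega) (by omega))
  have ho := hr'.odd_of_ne_two hr2
  rw [forall_inO_odd' hP h24 ho, quad_forall_type rfl hP hrp hr2 hi hc hme, hn]
  obtain ⟨k₀, hΩ⟩ := quad_om_nd rfl hP hrp hr2 hi hc hme (by omega) (by omega) _ hrΩ
  rw [hn] at hΩ
  have hc0 := (sdData_id hrp hr2 hi hc).c_pos hrp
  have hc2 := c_even hc
  have h3 := mod_mod_two hc2 (2 * d + 1)
  have h4 := mod_mod_two hc2 m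
  have h5 := Nat.even_iff.1 hc2
  have h6 := Nat.even_iff.1 hme
  simp only [hr2, false_and, false_or, ne_eq, hrp, not_false_eq_true, true_and,
    two_lt_of_ne_two hr' hr2]
  by_cases he : Even i
  · rw [if_pos he] at hc
    subst hc
    simp only [he, Nat.not_odd_iff_even.2 he, false_and, false_or, true_and,
      le_iff_one_le_div hc0] at hΩ ⊢
    exact arith_even (Nat.mod_lt _ hc0) (Nat.mod_lt _ hc0) h5 (by omega) (by omega)
      (nf_pos m (by omega)) (nf_lt0 hc0 (by omega)) hΩ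
  · simp only [he, Nat.not_even_iff_odd.1 he, false_and, or_false, true_and,
      le_iff_one_le_div hc0] at hΩ ⊢
    exact arith_odd (Nat.mod_lt _ hc0) (Nat.mod_lt _ hc0) h5 (by omega) (by omega)
      (nf_pos m (by omega)) (nf_lt0 hc0 (by omega)) hΩ

end Cfsg.Agent.S5993
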