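import Cfsg.Statements.S5994
import Cfsg.Agent.Lib.Elus2.Orth5

set_option autoImplicit false
open scoped MatrixGroups
open Cfsg

namespace Cfsg.Agent.S5994

open CfsgLib.Elusive CfsgLib.Elus2 CfsgLib.Forms CfsgLib.MatConj CfsgLib.Orth Polynomial

theorem replace {s p m : ℕ} {μ : Multiset ℕ} (hs : Even s) (hp : Odd p)
    (h1 : ∀ e ∈ s ::ₘ s ::ₘ μ, 0 < e ∧ e ≤ p) (h3 : ∀ e, Even e → Even ((s ::ₘ s ::ₘ μ).count e))
    (h5 : ∀ e ∈ s ::ₘ s ::ₘ μ, Even e)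
    (key : ∀ ν : Multiset ℕ, (∀ e ∈ ν, 0 < e ∧ e ≤ p) → (∀ e, Even e → Even (ν.count e)) →
      ν.sum = (s ::ₘ s ::ₘ μ).sum → ¬ (∀ e ∈ ν, Even e) →
      ∃ ν' ≤ ν, ν'.sum = m ∧ ∀ e, Even e → Even (ν'.count e)) (hm : m % 2 = 0) :
    ∃ ν ≤ s ::ₘ s ::ₘ μ, ν.sum = m ∧ ∀ e, Even e → Even (ν.count e) := by
  have h6 := h1 s (by simp)
  rw [Nat.even_iff] at hs
  rw [Nat.odd_iff] at hp
  have h7 : ∀ e, Even e → e ≠ s + 1 ∧ e ≠ s - 1 := fun e he => by rw [Nat.even_iff] at he; omega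
  have h8 : ∀ (ν : Multiset ℕ) e, Even ((s ::ₘ s ::ₘ ν).count e) ↔ Even (ν.count e) := fun ν e => by
    simp only [Multiset.count_cons, Nat.even_iff]
    omega
  obtain ⟨ν, a1, a2, a3⟩ := key ({s + 1} + ({s - 1} + μ))
    (by
      simp only [Multiset.singleton_add, Multiset.mem_cons, forall_eq_or_imp] at h1 ⊢
      exact ⟨by omega, by omega, h1.2.2⟩)
    (fun e he => by simpa [(h7 e he).1, (h7 e he).2] using (h8 μ e).1 (h3 e he))
    (by simp; omega) fun h => (h7 _ (h (s + 1) (by simp))).1 rfl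
  obtain ⟨ν₁, b1, ν', b2, rfl⟩ := exists_add_of_le_add a1
  obtain ⟨ν₂, b3, ν, b4, rfl⟩ := exists_add_of_le_add b2
  have h9 : ν.sum % 2 = 0 := Nat.even_iff.1 (even_iff_two_dvd.2 (Multiset.dvd_sum fun e he =>
    (h5 e (by simp [Multiset.mem_of_le b4 he])).two_dvd))
  rcases Multiset.le_singleton.1 b1 with rfl | rfl <;>
    rcases Multiset.le_singleton.1 b3 with rfl | rfl <;>
    simp only [zero_add, Multiset.singleton_add, Multiset.sum_cons] at a2 a3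
  · exact ⟨ν, b4.trans ((Multiset.le_cons_self _ _).trans (Multiset.le_cons_self _ _)), a2, a3⟩
  · omega
  · omega
  · exact ⟨s ::ₘ s ::ₘ ν, Multiset.cons_le_cons _ (Multiset.cons_le_cons _ b4), by simp; omega,
      fun e he => (h8 ν e).2 (by simpa [(h7 e he).1, (h7 e he).2] using a3 e he)⟩


/-- A necessary condition for every element of order p of PΩ⁻_n(q), q odd, to fix an elliptic `m`-space. Here `T = PΩ⁻_n(F)`, `n = 2d ≥ 8`, realised through `Ω⁻_n(q)`, the commutator subgroup of the isometry group of `Q = Σ_{i<d−1} xᵢyᵢ + z₁² + a z₁z₂ + b z₂²` with `z₁² + a z₁z₂ + b z₂²` anisotropic, over the field `F` with `q` elements; an element of `T` of prime order `r` is an element `x` of `Ω⁻_n(q)` with `x^r` scalar and `x` not scalar; `q` is odd; a nondegenerate `m`-space (even `m`) is a subspace on which the polar form of `Q` is nondegenerate; it is hyperbolic if it contains an `m/2`-dimensional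 subspace on which `Q` vanishes, elliptic otherwise. Let `m` be even with `2 ≤ m ≤ n − 2` and suppose `p` divides the number of elliptic `m`-spaces. If every element of `T` of order `p` fixes some elliptic `m`-space, then `n ≡ m (mod 4)` and every partition of `n` into parts of size at most `p` in which every even part has even multiplicity contains (as a sub-multiset) a partition of `m` in which every even part has even multiplicity. -/
theorem result {F : Type*} [Field F] [Fintype F] {p : ℕ} [Fact p.Prime] [CharP F p] {q : ℕ} (hq : Fintype.card F = q) (hqodd : Odd q)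
    (d m : ℕ) (hd : 4 ≤ d) (hm : 2 ≤ m) (hme : Even m) (hmn : m + 2 ≤ 2 * d) (a b : F) (hab : ∀ x y : F, x ^ 2 + a * x * y + b * y ^ 2 = 0 → x = 0 ∧ y = 0)
    (hpΩ : p ∣ Nat.card {W : Submodule F ((Fin (d - 1) ⊕ Fin (d - 1)) ⊕ Fin 2 → F) // Module.finrank F ↥W = m ∧ Cfsg.Geo.IsNondegenerateOn (QuadraticMap.polar (Cfsg.quadFormMinus (d - 1) F a b)) W ∧ ¬ Cfsg.Geo.IsPlusTypeOn (Cfsg.quadFormMinus (d - 1) F a b) W}) :
    (∀ x : GL ((Fin (d - 1) ⊕ Fin (d - 1)) ⊕ Fin 2) F, x ∈ Cfsg.Geo.omegaGL (Cfsg.quadFormMinus (d - 1) F a b) →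
      (∃ z : F, ((x ^ p : GL ((Fin (d - 1) ⊕ Fin (d - 1)) ⊕ Fin 2) F) : Matrix ((Fin (d - 1) ⊕ Fin (d - 1)) ⊕ Fin 2) ((Fin (d - 1) ⊕ Fin (d - 1)) ⊕ Fin 2) F) = z • (1 : Matrix ((Fin (d - 1) ⊕ Fin (d - 1)) ⊕ Fin 2) ((Fin (d - 1) ⊕ Fin (d - 1)) ⊕ Fin 2) F)) →
      (∀ z : F, (x : Matrix ((Fin (d - 1) ⊕ Fin (d - 1)) ⊕ Fin 2) ((Fin (d - 1) ⊕ Fin (d - 1)) ⊕ Fin 2) F) ≠ z • (1 : Matrix ((Fin (d - 1) ⊕ Fin (d - 1)) ⊕ Fin 2) ((Fin (d - 1) ⊕ Fin (d - 1)) ⊕ Fin 2) F)) →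
      ∃ W : Submodule F ((Fin (d - 1) ⊕ Fin (d - 1)) ⊕ Fin 2 → F), (Module.finrank F ↥W = m ∧ Cfsg.Geo.IsNondegenerateOn (QuadraticMap.polar (Cfsg.quadFormMinus (d - 1) F a b)) W ∧ ¬ Cfsg.Geo.IsPlusTypeOn (Cfsg.quadFormMinus (d - 1) F a b) W) ∧ W.map (Matrix.toLin' (x : Matrix ((Fin (d - 1) ⊕ Fin (d - 1)) ⊕ Fin 2) ((Fin (d - 1) ⊕ Fin (d - 1)) ⊕ Fin 2) F)) ≤ W) →
    ((2 * d) % 4 = m % 4 ∧ (∀ μ : Multiset ℕ, (∀ e ∈ μ, 0 < e ∧ e ≤ p) → (∀ e : ℕ, Even e → Even (μ.count e)) → μ.sum = 2 * d →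
        ∃ ν : Multiset ℕ, ν ≤ μ ∧ ν.sum = m ∧ ∀ e : ℕ, Even e → Even (ν.count e))) := by
  subst hq
  have hP : (ofQuad (qMinus (d - 1) a b)).Nondeg := ofQuad_nondeg _ (qMinus_nondegenerate _ hab)
  have hn := finrank_minus F (d := d) (by omega)
  have h2 := two_ne_zero_of_odd_card hqodd
  have ho : Odd p := (Fact.out : p.Prime).odd_of_ne_two (by have := three_le_char (p := p) h2; omega)
  rw [← coe_qMinus]
  simp only [nondegOn_iff_nd, plusOn_iff_plus]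
  rw [forall_omega_iff p fun T => ∃ W : Submodule F ((Fin (d - 1) ⊕ Fin (d - 1)) ⊕ Fin 2 → F),
    (Module.finrank F W = m ∧ ND (ofQuad (qMinus (d - 1) a b)) W ∧
      ¬ Plus (ofQuad (qMinus (d - 1) a b)) W) ∧ W.map T ≤ W]
  simp only [← inv_iff_map_le]
  rw [forall_inO_odd hP (Or.inr (by omega)) ho _ fun T ⟨W, h1, h3⟩ => ⟨W, h1, inv_neg_iff.1 h3⟩]
  intro h
  have key : ∀ μ : Multiset ℕ, (∀ e ∈ μ, 0 < e ∧ e ≤ p) → (∀ e, Even e → Even (μ.count e)) →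
      μ.sum = 2 * d → ¬ (∀ e ∈ μ, Even e) →
      ∃ ν ≤ μ, ν.sum = m ∧ ∀ e, Even e → Even (ν.count e) := by
    intro μ h1 h3 h4 h5
    by_cases h6 : ∀ e ∈ μ, e = 1
    · obtain ⟨ν, a1, a2⟩ := exists_le_of_all_one h6 (m := m) (by omega)
      refine ⟨ν, a1, a2, fun e he => ?_⟩
      rw [Multiset.count_eq_zero_of_notMem fun h => by
        simp [h6 e (Multiset.mem_of_le a1 h)] at he]
      exact Even.zero
    push Not at h6
    obtain ⟨T, a1, a2⟩ := quad_exists_unip rfl hP h2 (fun a ha => (h1 a ha).1) h3 (h4.trans hn.symm)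
      fun h => absurd h h5
    obtain ⟨a3, a4⟩ := isPE_of_unEd (p := p) a2 (fun a ha => (h1 a ha).2) h6
    obtain ⟨W, ⟨c1, c2, -⟩, c3⟩ := h T a1 a3 (by simpa using a4.2 1)
    obtain ⟨ν, d1, d2⟩ := ND.exists_unEd hP a1 (inv_top T) ((edOn_top T).trans a2) c2 c3 le_top
    exact ⟨ν, d1, by rw [← c1, c3.finrank_eq, d2, mdeg_unEd],
      ((quad_badData rfl h2).main hP a1 c2 c3 d2).1⟩
  rw [Nat.even_iff] at hme
  refine ⟨?_, fun μ h1 h3 h4 => ?_⟩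
  · obtain ⟨T, b1, b2, b3, b4⟩ := exists_m123 (p := p) hP h2 (x := 1 + d % 2) (y := (d - 1) / 2)
      (z := 1 - d % 2) (by omega) (by omega) (by omega)
    obtain ⟨W, ⟨c1, c2, c4⟩, c3⟩ := h T b1 b2 b3
    obtain ⟨x, d1, y, z, d2, d3, d4⟩ := b4 W c2 c3
    have : ¬ (x = 0 ∧ z = 0) := fun h => c4 (d4 h.1 h.2)
    obtain ⟨rfl, rfl⟩ : x = 1 + d % 2 ∧ z = 1 - d % 2 := by omega
    omega
  by_cases h5 : ∀ e ∈ μ, Even e
  swap
  · exact key μ h1 h3 h4 h5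
  obtain ⟨s, hs⟩ := Multiset.exists_mem_of_ne_zero (s := μ) (by rintro rfl; simp at h4; omega)
  obtain ⟨μ', rfl⟩ := Multiset.exists_cons_of_mem hs
  obtain ⟨μ', rfl⟩ := Multiset.exists_cons_of_mem (s := μ') (a := s) (by_contra fun h => by
    simpa [Multiset.count_eq_zero_of_notMem h] using h3 s (h5 s hs))
  exact replace (h5 s hs) ho h1 h3 h5 (fun ν a1 a2 a3 a4 => key ν a1 a2 (a3.trans h4) a4) hme

end Cfsg.Agent.S5994
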