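import Cfsg.Statements.S5995
import Cfsg.Agent.Lib.Elus2.Orth5

set_option autoImplicit false
open scoped MatrixGroups
open Cfsg

namespace Cfsg.Agent.S5995

open CfsgLib.Elusive CfsgLib.Elus2 CfsgLib.Forms CfsgLib.MatConj CfsgLib.Orth Polynomial


/-- A necessary condition for every element of order p of Ω_n(q), nq odd, to fix a hyperbolic `m`-space. Here `T = Ω_n(F)`, `n = 2d+1 ≥ 7`, `q` odd, realised as the commutator subgroup of the isometry group of `Q = x₀² + Σ xᵢyᵢ` over the field `F` with `q` elements (trivial centre, so its elements of prime order `r` are used directly); a nondegenerate `m`-space (even `m`) is a subspace on which the polar form of `Q` is nondegenerate; it is hyperbolic if it contains an `m/2`-dimensional subspace on which `Q` vanishes, elliptic otherwise. Let `m` be even with `2 ≤ m ≤ n − 1` and suppose `p` divides the number of hyperbolic `m`-spaces. If every element of `T` of order `p` fixes some hyperbolic `m`-space,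 then `m ≡ 0 (mod 4)` and every partition of `n` into parts of size at most `p` in which every even part has even multiplicity contains (as a sub-multiset) a partition of `m` in which every even part has even multiplicity. -/
theorem result {F : Type*} [Field F] [Fintype F] {p : ℕ} [Fact p.Prime] [CharP F p] {q : ℕ} (hq : Fintype.card F = q) (hqodd : Odd q)
    (d m : ℕ) (hd : 3 ≤ d) (hm : 2 ≤ m) (hme : Even m) (hmn : m ≤ 2 * d)
    (hpΩ : p ∣ Nat.card {W : Submodule F (Unit ⊕ (Fin d ⊕ Fin d) → F) // Module.finrank F ↥W = m ∧ Cfsg.Geo.IsNondegenerateOn (QuadraticMap.polar (Cfsg.quadFormOdd d F)) W ∧ Cfsg.Geo.IsPlusTypeOn (Cfsg.quadFormOdd d F) W}) :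
    (∀ x : GL (Unit ⊕ (Fin d ⊕ Fin d)) F, x ∈ Cfsg.Geo.omegaGL (Cfsg.quadFormOdd d F) → orderOf x = p →
      ∃ W : Submodule F (Unit ⊕ (Fin d ⊕ Fin d) → F), (Module.finrank F ↥W = m ∧ Cfsg.Geo.IsNondegenerateOn (QuadraticMap.polar (Cfsg.quadFormOdd d F)) W ∧ Cfsg.Geo.IsPlusTypeOn (Cfsg.quadFormOdd d F) W) ∧ W.map (Matrix.toLin' (x : Matrix (Unit ⊕ (Fin d ⊕ Fin d)) (Unit ⊕ (Fin d ⊕ Fin d)) F)) ≤ W) →
    (m % 4 = 0 ∧ (∀ μ : Multiset ℕ, (∀ e ∈ μ, 0 < e ∧ e ≤ p) → (∀ e : ℕ, Even e → Even (μ.count e)) → μ.sum = 2 * d + 1 →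
        ∃ ν : Multiset ℕ, ν ≤ μ ∧ ν.sum = m ∧ ∀ e : ℕ, Even e → Even (ν.count e))) := by
  subst hq
  have h2 := two_ne_zero_of_odd_card hqodd
  have hP : (ofQuad (qOdd d F)).Nondeg := ofQuad_nondeg _ (qOdd_nondegenerate h2 d)
  have hn := finrank_odd F d
  have ho : Odd p := (Fact.out : p.Prime).odd_of_ne_two (by have := three_le_char (p := p) h2; omega)
  rw [← coe_qOdd]
  simp only [nondegOn_iff_nd, plusOn_iff_plus]
  rw [forall_omega_order_iff p fun T => ∃ W : Submodule F (Unit ⊕ (Fin d ⊕ Fin d) → F),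
    (Module.finrank F W = m ∧ ND (ofQuad (qOdd d F)) W ∧ Plus (ofQuad (qOdd d F)) W) ∧
      W.map T ≤ W]
  simp only [← inv_iff_map_le]
  rw [forall_inO_odd' hP (Or.inr (by omega)) ho, ← hn]
  intro h
  obtain ⟨W, -, a1, a2⟩ := quad_exists_nd rfl hP h2 (nd_top hP) (m := m) (by rw [finrank_top]; omega)
  refine ⟨?_, ((quad_badData rfl h2).forall_iff hP m (fun μ h1 h3 h4 => quad_exists_unip_odd rfl hP h2
    (fun a ha => (h1 a ha).1) h3 h4 (hn ▸ odd_two_mul_add_one d)) ⟨W, a2, a1⟩).1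
      fun T b1 b2 b3 => ?_⟩
  · obtain ⟨T, b1, b2, b3, b4⟩ := exists_m123 (p := p) hP h2 (x := 1 - d % 2) (y := d / 2)
      (z := d % 2) (by omega) (by omega) (by omega)
    obtain ⟨W, ⟨c1, c2, -⟩, c3⟩ := h T b1 b2 b3
    obtain ⟨x, d1, y, z, d2, d3, -⟩ := b4 W c2 c3
    rw [Nat.even_iff] at hme
    obtain ⟨rfl, rfl⟩ : x = 0 ∧ z = 0 := by omega
    omega
  · obtain ⟨W, ⟨c1, c2, -⟩, c3⟩ := h T b1 b2 b3
    exact ⟨W, ⟨c1, c2⟩, c3⟩

end Cfsg.Agent.S5995
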