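import Cfsg.Statements.S5997
import Cfsg.Agent.Lib.ElusF.Extra
import Cfsg.Agent.Lib.PStab.GL2

set_option autoImplicit false
open scoped MatrixGroups
open Cfsg

namespace Cfsg.Agent.S5997

/-- Elements of prime order of PSL_2(p) and the normalizer of a quaternion subgroup. Here `T = PSL_2(F)` for the field `F` with `p` elements, `p ≥ 5` prime; `R` is a subgroup of GL_2(F) isomorphic to the quaternion group of order 8 (an absolutely irreducible 2-group of symplectic type), and `H` is the subgroup of matrices of determinant 1 normalizing `R` — a subgroup of type 2^{1+2}.O₂⁻(2), isomorphic modulo scalars to A₄ or S₄ (maximality is not assumed). Ω is the set of cosets of `H` in `T`, so an element of `T` of prime order `r` (a matrix `x` of determinant 1 with `x^r` scalar, `x` not scalar) fixes a point of Ω exactly when some conjugate of `x` by a matrix of determinant 1 normalizes `R`. Let `r` be a prime dividing the index of `H`. Then every element of `T` of order `r` fixes a point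 of Ω if and only if `r = 2` or `r = 3`. -/
theorem result {F : Type*} [Field F] [Fintype F] {p : ℕ} [Fact p.Prime] [CharP F p] (hF : Fintype.card F = p) (hp : 5 ≤ p)
    (R : Subgroup (GL (Fin 2) F)) (hR : Nonempty (↥R ≃* QuaternionGroup 2))
    (r : ℕ) [Fact r.Prime]
    (hΩ : r ∣ (Cfsg.Geo.subgroupNormalizer R).relIndex (Cfsg.Geo.specialLinear (Fin 2) F)) :
    (∀ x ∈ Cfsg.Geo.specialLinear (Fin 2) F, (∃ z : F, ((x ^ r : GL (Fin 2) F) : Matrix (Fin 2) (Fin 2) F) = z • (1 : Matrix (Fin 2) (Fin 2) F)) →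
      (∀ z : F, (x : Matrix (Fin 2) (Fin 2) F) ≠ z • (1 : Matrix (Fin 2) (Fin 2) F)) →
      ∃ g ∈ Cfsg.Geo.specialLinear (Fin 2) F, g⁻¹ * x * g ∈ Cfsg.Geo.subgroupNormalizer R) ↔ (r = 2 ∨ r = 3) := by
  open CfsgLib.ElusH CfsgLib.Elusive CfsgLib.MatConj CfsgLib.ElusF CfsgLib.Asch Matrix Polynomial Cfsg.Geo in
  classical
  change Elu _ _ r ↔ _
  obtain ⟨e⟩ := hR
  have hne : ∀ k : ℕ, 0 < k → k < 5 → (k : F) ≠ 0 := fun k h1 h2 h => by
    have := Nat.le_of_dvd h1 ((CharP.cast_eq_zero_iff F p k).1 h); omega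
  have h2 : (2 : F) ≠ 0 := by simpa using hne 2 (by omega) (by omega)
  let φ : QuaternionGroup 2 →* GL (Fin 2) F := R.subtype.comp e.symm.toMonoidHom
  have hφ : Function.Injective φ := R.subtype_injective.comp e.symm.injective
  have hφR : ∀ q, φ q ∈ R := fun q => (e.symm q).2
  have hsurj : ∀ g ∈ R, ∃ q, φ q = g := fun g hg => ⟨e ⟨g, hg⟩, by simp [φ]⟩
  have hcard : Nat.card R = 8 := by
    rw [Nat.card_congr e.toEquiv, Nat.card_eq_fintype_card, QuaternionGroup.card]
  have hc : ∀ M : Matrix (Fin 2) (Fin 2) F, (∀ a ∈ R, M * a = a * M) → ∃ c : F, M = c • 1 := by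
    intro M hM
    by_cases h : M 0 1 = 0 ∧ M 1 0 = 0 ∧ M 0 0 = M 1 1
    · exact ⟨M 0 0, by ext i j; fin_cases i <;> fin_cases j <;> simp [h.1, h.2.1, h.2.2]⟩
    · have := CfsgLib.PStab.mat2_comm_of_comm h (hM _ (hφR (.a 1))).symm (hM _ (hφR (.xa 0))).symm
      rw [← Units.val_mul, ← Units.val_mul, Units.val_inj, ← map_mul, ← map_mul] at this
      exact absurd (hφ this) (by decide)
  have hz : φ (.a 2) = -1 := by
    obtain ⟨c, h⟩ := hc (φ (.a 2)) fun a ha => by
      obtain ⟨q, rfl⟩ := hsurj a ha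
      rw [← Units.val_mul, ← Units.val_mul, ← map_mul, ← map_mul,
        (by decide : ∀ q : QuaternionGroup 2, .a 2 * q = q * .a 2)]
    have h1 : (φ (.a 2) : Matrix (Fin 2) (Fin 2) F) * φ (.a 2) = 1 := by
      rw [← Units.val_mul, ← map_mul, (by decide : (.a 2 * .a 2 : QuaternionGroup 2) = 1), map_one,
        Units.val_one]
    rw [h, smul_mul_smul_comm, one_mul] at h1
    rcases mul_self_eq_one_iff.1 (show c * c = 1 by simpa using congrFun (congrFun h1 0) 0) with
      rfl | rfl
    · exact absurd (hφ ((Units.ext (by simp [h])).trans (map_one φ).symm)) (by decide :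
        (.a 2 : QuaternionGroup 2) ≠ 1)
    · exact Units.ext (by simp [h])
  have hP : P2 R := ⟨h2, hc, fun a ha b hb => by
      obtain ⟨x, rfl⟩ := hsurj a ha
      obtain ⟨y, rfl⟩ := hsurj b hb
      rcases (by decide : ∀ x y : QuaternionGroup 2, x * y = y * x ∨ x * y = .a 2 * (y * x)) x y
        with h | h
      · left; rw [← Units.val_mul, ← Units.val_mul, ← map_mul, h, map_mul]
      · right; rw [← Units.val_mul, ← Units.val_mul, ← map_mul, h, map_mul, hz, map_mul]; simp,
    hz ▸ hφR _, fun a ha => by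
      obtain ⟨x, rfl⟩ := hsurj a ha
      rcases (by decide : ∀ x : QuaternionGroup 2, x * x = 1 ∨ x * x = .a 2) x with h | h
      · left; rw [← Units.val_mul, ← map_mul, h, map_one, Units.val_one]
      · right; rw [← Units.val_mul, ← map_mul, h, hz]; simp⟩
  have quad : ∀ (A : Matrix (Fin 2) (Fin 2) F) (t d : F), (∀ c : F, A ≠ c • 1) →
      A * A = t • A - d • 1 → A.trace = t ∧ A.det = d := fun A t d hA h => by
    rw [CfsgLib.PStab.mat2_sq] at h
    have h1 : (A.trace - t) • A = (A.det - d) • 1 := by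
      rw [sub_smul, sub_smul]; linear_combination (norm := abel) h
    by_cases h3 : A.trace - t = 0
    · rw [h3, zero_smul] at h1
      exact ⟨sub_eq_zero.1 h3, sub_eq_zero.1 (by simpa using congrFun (congrFun h1.symm 0) 0)⟩
    · exact absurd (by rw [mul_smul, ← h1, inv_smul_smul₀ h3]) (hA ((A.trace - t)⁻¹ * (A.det - d)))
  have key : ∀ (A B : Matrix (Fin 2) (Fin 2) F) (t : F) (k : ℕ), (k : F) ≠ 0 →
      (∀ c : F, A ≠ c • 1) → (∀ c : F, B ≠ c • 1) → A * A = t • A - (1 : F) • 1 →
      B * B = t • B - (1 : F) • 1 → A ^ k = 1 → B ^ k = 1 → IsConj A B :=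
    fun A B t k hk hA hB h1 h2 h3 h4 => isConj_of_charpoly_eq_of_pow_eq_one hk hk h3 h4 (by
      rw [charpoly_fin_two, charpoly_fin_two, (quad A _ _ hA h1).1, (quad A _ _ hA h1).2,
        (quad B _ _ hB h2).1, (quad B _ _ hB h2).2])
  set i := φ (.a 1) with hi
  set j := φ (.xa 0) with hj
  have hii : (i : Matrix (Fin 2) (Fin 2) F) * i = -1 := by
    rw [← Units.val_mul, ← map_mul, (by decide : (.a 1 * .a 1 : QuaternionGroup 2) = .a 2), hz]; simp
  have hjj : (j : Matrix (Fin 2) (Fin 2) F) * j = -1 := by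
    rw [← Units.val_mul, ← map_mul, (by decide : (.xa 0 * .xa 0 : QuaternionGroup 2) = .a 2), hz]
    simp
  have hji : (j : Matrix (Fin 2) (Fin 2) F) * i = -(i * j) := by
    rw [← Units.val_mul, ← Units.val_mul, ← map_mul,
      (by decide : (.xa 0 * .a 1 : QuaternionGroup 2) = .a 2 * (.a 1 * .xa 0)), map_mul, hz, map_mul]
    simp [hi, hj]
  have hanti : ∀ (A : Matrix (Fin 2) (Fin 2) F) (b : GL (Fin 2) F), A * b = -(b * A) → A.det ≠ 0 →
      ∀ c : F, A ≠ c • 1 := fun A b h hd c hc => by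
    have := trace_eq_zero_of_anti h2 h
    rw [hc] at this hd
    simp [h2] at this
    simp [this] at hd
  constructor
  · intro h
    by_contra hr
    push Not at hr
    have hr' : r.Prime := Fact.out
    obtain ⟨x, hx, h1, h3⟩ := exists_orderOf_of_dvd_index hΩ
    have hpe := pe_of_orderOf (m := 2) ((Nat.coprime_primes hr' Nat.prime_two).2 hr.1) h1 h3
      fun c hc => by simpa [hc] using mem_SL.1 hx
    obtain ⟨y, hy, e⟩ := h.ci hx hpe
    obtain ⟨⟨z, hz'⟩, hs⟩ := hpe.of_isConj e
    have h4 := card_modEq_cent hy fun a _ => commute_of_pow_eq hz' a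
    set C := R ⊓ Subgroup.centralizer {y}
    have h5 : Nat.card C ∣ 2 ^ 3 := by
      rw [show 2 ^ 3 = 8 by rfl, ← hcard]; exact Subgroup.card_dvd_of_le inf_le_left
    have h6 : Nat.card C ≠ 1 := fun h => by
      have : (-1 : GL (Fin 2) F) ∈ C := ⟨hP.neg, Subgroup.mem_centralizer_singleton_iff.2 (by simp)⟩
      rw [Subgroup.card_eq_one.1 h, Subgroup.mem_bot, ← hz, ← map_one φ] at this
      exact absurd (hφ this) (by decide)
    have h7 : Nat.card C ≠ 8 := fun h => by
      have : C = R := Subgroup.eq_of_le_of_card_ge inf_le_left (by omega)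
      obtain ⟨c, hc⟩ := hc y fun a ha => congrArg Units.val
        (Subgroup.mem_centralizer_singleton_iff.1 (this ▸ ha : a ∈ C).2).symm
      exact hs c hc
    obtain ⟨k, hk, h8⟩ := (Nat.dvd_prime_pow Nat.prime_two).1 h5
    rw [hcard, h8] at h4
    have h9 : ∀ m, r ∣ 2 ^ m * 3 → False := fun m h => by
      rcases (Nat.Prime.dvd_mul hr').1 h with h | h
      · exact hr.1 ((Nat.prime_dvd_prime_iff_eq hr' Nat.prime_two).1 (hr'.dvd_of_dvd_pow h))
      · exact hr.2 ((Nat.prime_dvd_prime_iff_eq hr' Nat.prime_three).1 h)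
    interval_cases k
    · exact h6 h8
    · exact h9 1 ((Nat.modEq_iff_dvd' (by norm_num)).1 h4.symm)
    · exact h9 2 (((Nat.modEq_iff_dvd' (by norm_num)).1 h4.symm).trans (by norm_num))
    · exact h7 h8
  · intro h
    rw [elu_SL_iff (p := p) _ (by omega)]
    rintro A hd ⟨⟨z, hz'⟩, hs⟩
    have hA := CfsgLib.PStab.mat2_sq A
    rw [hd] at hA
    rcases h with rfl | rfl
    · obtain ⟨h3, -⟩ := quad A 0 (-z) hs (by rw [← pow_two, hz']; simp)
      rw [h3] at hA
      refine ⟨i, Subgroup.le_normalizer (hφR _), key A i 0 4 (hne 4 (by omega) (by omega)) hs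
        (hanti _ j (by rw [hji, neg_neg]) (Units.isUnit i |>.map detMonoidHom).ne_zero) hA
        (by simp [hii]) ?_ ?_⟩
      · rw [show 4 = 2 * 2 by rfl, pow_mul, pow_two A, hA]; simp
      · rw [show 4 = 2 * 2 by rfl, pow_mul, pow_two (i : Matrix (Fin 2) (Fin 2) F), hii]; simp
    · obtain ⟨T, hT, eT⟩ := hP.exists_T (a := i) (hφR _) hii
      obtain ⟨U, hU, eU⟩ := hP.exists_T (a := j) (hφR _) hjj
      have h6 : ((6 : ℕ) : F) ≠ 0 := by
        simpa using (by norm_num : (2 : F) * 3 = 6) ▸ mul_ne_zero h2 (by simpa using hne 3 (by omega) (by omega))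
      set t := A.trace
      have ht : t * t = 1 := by
        by_contra hn
        refine hs ((t * t - 1)⁻¹ * (z + t)) ?_
        rw [pow_succ, pow_two, hA, sub_mul, smul_mul_assoc, hA] at hz'
        rw [mul_smul, add_smul, ← hz', eq_inv_smul_iff₀ (sub_ne_zero.2 hn)]
        simp only [smul_sub, sub_smul, mul_smul, one_smul, one_mul]; abel
      have ht0 : t ≠ 0 := left_ne_zero_of_mul_eq_one ht
      have cube : ∀ B : Matrix (Fin 2) (Fin 2) F, B * B = t • B - (1 : F) • 1 → B ^ 6 = 1 :=
        fun B hB => by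
          rw [show 6 = (2 + 1) * 2 by rfl, pow_mul, pow_succ _ 2, pow_two B, hB, sub_mul,
            smul_mul_assoc, hB, smul_sub, smul_smul, ht]
          simp [pow_two, smul_smul, ht]
      have hw : ((t * 2⁻¹) • ((T * U : GL (Fin 2) F) : Matrix (Fin 2) (Fin 2) F)) *
          ((t * 2⁻¹) • ((T * U : GL (Fin 2) F) : Matrix (Fin 2) (Fin 2) F)) =
          t • ((t * 2⁻¹) • ((T * U : GL (Fin 2) F) : Matrix (Fin 2) (Fin 2) F)) - (1 : F) • 1 := by
        have h1 : (1 + (i : Matrix (Fin 2) (Fin 2) F)) * (1 + j) * ((1 + i) * (1 + j)) =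
            (2 : F) • ((1 + (i : Matrix (Fin 2) (Fin 2) F)) * (1 + j)) - (4 : F) • 1 := by
          have h3 : ∀ X, (j : Matrix (Fin 2) (Fin 2) F) * (i * X) = -(i * (j * X)) := fun X => by
            rw [← mul_assoc, hji, neg_mul, mul_assoc]
          have h4 : ∀ X, (i : Matrix (Fin 2) (Fin 2) F) * (i * X) = -X := fun X => by
            rw [← mul_assoc, hii, neg_mul, one_mul]
          simp only [mul_add, add_mul, one_mul, mul_one, mul_assoc, hii, hjj, hji, h3, h4, mul_neg,
            neg_neg, show (4 : F) = 2 + 2 by norm_num, add_smul, two_smul]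
          abel
        rw [smul_mul_smul_comm, Units.val_mul, eT, eU, h1, smul_sub, smul_smul, smul_smul, smul_smul]
        congr 2 <;> field_simp
        linear_combination 4 * ht
      refine CI.of_isConj (key A _ t 6 h6 hs (fun c hc => ?_) hA hw (cube _ hA) (cube _ hw))
        (CI.smul scalars_le_subgroupNormalizer ⟨_, mul_mem hT hU, IsConj.refl _⟩
          (mul_ne_zero ht0 (inv_ne_zero h2)))
      have h1 : ((T * U : GL (Fin 2) F) : Matrix (Fin 2) (Fin 2) F) * i = i * (T * U : GL (Fin 2) F) := by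
        rw [← inv_smul_smul₀ (mul_ne_zero ht0 (inv_ne_zero h2))
          ((T * U : GL (Fin 2) F) : Matrix (Fin 2) (Fin 2) F), hc]; simp
      refine smul_ne_zero h2 (T * i * j).ne_zero ?_
      rw [Units.val_mul, eT, eU] at h1
      rw [Units.val_mul, Units.val_mul, eT, two_smul, ← sub_eq_zero.2 h1.symm]
      have h3 : ∀ X, (i : Matrix (Fin 2) (Fin 2) F) * (i * X) = -X := fun X => by
        rw [← mul_assoc, hii, neg_mul, one_mul]
      simp only [mul_add, add_mul, one_mul, mul_one, mul_assoc, hii, hji, h3, mul_neg, neg_mul]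
      abel

end Cfsg.Agent.S5997
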