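import Cfsg.Statements.S5998
import Cfsg.Agent.Lib.ElusF.Hess

set_option autoImplicit false
open scoped MatrixGroups
open Cfsg

namespace Cfsg.Agent.S5998

/-- Elements of prime order of PSL_3(p), p ≡ 1 (mod 3), and the normalizer of an extraspecial subgroup of order 27. Here `T = PSL_3(F)` for the field `F` with `p` elements, `p` a prime with `p ≡ 1 (mod 3)`; `R` is a non-abelian subgroup of GL_3(F) of order 27 and exponent 3 (an extraspecial group 3^{1+2}, acting absolutely irreducibly), and `H` is the subgroup of matrices of determinant 1 normalizing `R` — a subgroup of type 3^{1+2}.Sp₂(3) (maximality is not assumed). Ω is the set of cosets of `H` in `T`, so an element of `T` of prime order `r` (a matrix `x` of determinant 1 with `x^r` scalar, `x` not scalar) fixes a point of Ω exactly when some conjugate of `x` by a matrix of determinant 1 normalizes `R`. Let `r` be a prime dividing the index of `H`. Then every element of `T` of order `r` fixes a point of Ω if and only if `r = 2`, or `r = 3` and `p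 ≡ 1 (mod 9)`. -/
theorem result {F : Type*} [Field F] [Fintype F] {p : ℕ} [Fact p.Prime] [CharP F p] (hF : Fintype.card F = p) (hp3 : p % 3 = 1)
    (R : Subgroup (GL (Fin 3) F)) (hR : Nat.card R = 27) (hRe : Monoid.exponent R = 3) (hRna : ¬ IsMulCommutative R)
    (r : ℕ) [Fact r.Prime]
    (hΩ : r ∣ (Cfsg.Geo.subgroupNormalizer R).relIndex (Cfsg.Geo.specialLinear (Fin 3) F)) :
    (∀ x ∈ Cfsg.Geo.specialLinear (Fin 3) F, (∃ z : F, ((x ^ r : GL (Fin 3) F) : Matrix (Fin 3) (Fin 3) F) = z • (1 : Matrix (Fin 3) (Fin 3) F)) →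
      (∀ z : F, (x : Matrix (Fin 3) (Fin 3) F) ≠ z • (1 : Matrix (Fin 3) (Fin 3) F)) →
      ∃ g ∈ Cfsg.Geo.specialLinear (Fin 3) F, g⁻¹ * x * g ∈ Cfsg.Geo.subgroupNormalizer R) ↔ (r = 2 ∨ (r = 3 ∧ p % 9 = 1)) := by
  open CfsgLib.ElusH CfsgLib.Elusive CfsgLib.MatConj CfsgLib.ElusF CfsgLib.Asch Matrix Polynomial Cfsg.Geo CfsgLib.Mit.Gm in
  classical
  change Elu _ _ r ↔ _
  have hp : p.Prime := Fact.out
  have hr : r.Prime := Fact.out
  have hp2 : 2 ≠ p := by omega
  have hq : 3 ∣ Fintype.card F - 1 := by rw [hF]; omega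
  obtain ⟨ω, hω⟩ := exists_om hq
  have h := hess_of (σ := RingHom.id F) (G := 0) (two_ne_zero_iff.2 hp2) hω hR hRe hRna (Or.inl rfl)
    fun _ _ => by simp [Sm]
  constructor
  · intro he
    by_contra hn
    push Not at hn
    by_cases h3 : r = 3
    · subst h3
      have h1 := relIndex_mul_dvd_of_le _ _ R Subgroup.le_normalizer h.le
      have h2 := card_SL_mul (F := F) (ι := Fin 3)
      rw [hF, Fintype.card_fin, glo, Finset.prod_range_succ', Finset.prod_range_succ,
        Finset.prod_range_one, ← mul_assoc, mul_comm, zero_add, pow_one,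
        Nat.mul_left_inj (by have := hp.two_le; omega)] at h2
      rw [h2, hR] at h1
      exact not_dvd_sl3 (by have := hn.2 rfl; omega) ((mul_dvd_mul_right hΩ 27).trans h1)
    · obtain ⟨x, hx, h1, h2⟩ := exists_orderOf_of_dvd_index hΩ
      exact (h.eq_of_ci hr (mem_SL.1 hx) h1 h2 (he.ci hx (pe_of_orderOf (m := 3)
        ((Nat.coprime_primes hr Nat.prime_three).2 h3) h1 h2
        fun c hc => by simpa [hc] using mem_SL.1 hx))).elim hn.1 h3
  · intro hh
    rw [elu_SL_iff (p := p) _ (by omega)]
    intro A hd hA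
    rcases hh with rfl | ⟨rfl, h9⟩
    · obtain ⟨b, b1, -, M, m1, m2⟩ := h.conj_invol hp2 hd hA
      exact (m1.ci m2).of_smul scalars_le_subgroupNormalizer (by rintro rfl; simp at b1)
    · obtain ⟨⟨z, hz⟩, -⟩ := hA
      obtain ⟨b, b1, b2⟩ := exists_cube_root (z := z) (by rw [hF]; omega)
        (by simpa [hd] using (congrArg det hz).symm)
      obtain ⟨M, m1, m2⟩ := h.conj_three (p := p) (by omega) hq (Or.inl rfl) (A := b • A)
        (by rw [_root_.smul_pow, hz, smul_smul, b2, one_smul])
      exact (m1.ci m2).of_smul scalars_le_subgroupNormalizer (by rintro rfl; simp at b1)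

end Cfsg.Agent.S5998
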