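import Cfsg.Statements.S5999
import Cfsg.Agent.Lib.ElusF.Hess

set_option autoImplicit false
open scoped MatrixGroups
open Cfsg

namespace Cfsg.Agent.S5999

/-- Elements of prime order of PSU_3(p), p ≡ 2 (mod 3), and the normalizer of an extraspecial subgroup of order 27. Here `T = PSU_3(p)` for a prime `p ≥ 5` with `p ≡ 2 (mod 3)`, realised through `SU_3(p)`, the matrices of determinant 1 over the field `F` with `p²` elements preserving the hermitian form `Σ uᵢvᵢ^p`; `R` is a non-abelian subgroup of order 27 and exponent 3 of the full unitary group of that form (an extraspecial group 3^{1+2}, acting absolutely irreducibly), and `H` is the subgroup of `SU_3(p)` normalizing `R` — a subgroup of type 3^{1+2}.Sp₂(3) (maximality is not assumed). Ω is the set of cosets of `H`, so an element of `T` of prime order `r` (`x ∈ SU_3(p)` with `x^r` scalar, `x` not scalar) fixes a point of Ω exactly when some `SU_3(p)`-conjugate of `x` normalizes `R`. Let `r` be a prime dividing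 the index of `H`. Then every element of `T` of order `r` fixes a point of Ω if and only if `r = 2`, or `r = 3` and `p ≡ 8 (mod 9)`. -/
theorem result {F : Type*} [Field F] [Fintype F] {p : ℕ} [Fact p.Prime] [CharP F p] (hF : Fintype.card F = p ^ 2) (hp : 5 ≤ p) (hp3 : p % 3 = 2)
    (R : Subgroup (GL (Fin 3) F)) (hRU : R ≤ Cfsg.GU 3 F p) (hR : Nat.card R = 27) (hRe : Monoid.exponent R = 3) (hRna : ¬ IsMulCommutative R)
    (r : ℕ) [Fact r.Prime]
    (hΩ : r ∣ (Cfsg.Geo.subgroupNormalizer R).relIndex (Cfsg.GU 3 F p ⊓ Cfsg.Geo.specialLinear (Fin 3) F)) :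
    (∀ x ∈ Cfsg.GU 3 F p ⊓ Cfsg.Geo.specialLinear (Fin 3) F, (∃ z : F, ((x ^ r : GL (Fin 3) F) : Matrix (Fin 3) (Fin 3) F) = z • (1 : Matrix (Fin 3) (Fin 3) F)) →
      (∀ z : F, (x : Matrix (Fin 3) (Fin 3) F) ≠ z • (1 : Matrix (Fin 3) (Fin 3) F)) →
      ∃ g ∈ Cfsg.GU 3 F p ⊓ Cfsg.Geo.specialLinear (Fin 3) F, g⁻¹ * x * g ∈ Cfsg.Geo.subgroupNormalizer R) ↔ (r = 2 ∨ (r = 3 ∧ p % 9 = 8)) := by
  open CfsgLib.ElusH CfsgLib.Elusive CfsgLib.MatConj CfsgLib.ElusF CfsgLib.Asch Matrix Polynomial Cfsg.Geo CfsgLib.Mit.Gm in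
  classical
  change Elu _ _ r ↔ _
  have hp' : p.Prime := Fact.out
  have hr : r.Prime := Fact.out
  have hp2 : 2 ≠ p := by omega
  have hd : ∀ k, k ∣ p + 1 → k ∣ Fintype.card F - 1 := fun k hk => by
    rw [hF, CfsgLib.Unitary.sq_sub_one_eq p hp'.one_le]; exact hk.mul_right _
  have hq := hd 3 (by omega)
  obtain ⟨ω, hω⟩ := exists_om hq
  set σ := CfsgLib.Unitary.conj hF with hσ
  have hσa : ∀ x, σ x = x ^ p := fun x => rfl
  have hσω : σ ω = ω ^ 2 := by rw [hσa, pow_eq_pow_mod _ hω.cube, hp3]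
  have h := hess_of (σ := σ) (G := 1) (two_ne_zero_iff.2 hp2) hω hR hRe hRna (Or.inr hσω)
    fun a ha => (mem_GU_iff_sm hF).1 (hRU ha)
  have norm : ∀ (b : F) (k : ℕ), b ^ k = 1 → (p + 1) % k = 0 → b * σ b * 1 = 1 := fun b k h1 h2 => by
    rw [hσa, mul_one, ← pow_succ', pow_eq_pow_mod _ h1, h2, pow_zero]
  constructor
  · intro he
    by_contra hn
    push Not at hn
    by_cases h3 : r = 3
    · subst h3
      have h1 := relIndex_mul_dvd_of_le _ _ R Subgroup.le_normalizer (le_inf hRU h.le)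
      have h2 := CfsgLib.Unitary.card_SU hF (n := 3) (by norm_num)
      rw [Finset.prod_range_succ', Finset.prod_range_succ, Finset.prod_range_one, ← mul_assoc,
        mul_comm, if_pos (by decide : Even 0), zero_add, pow_one, Nat.mul_left_inj (by omega),
        if_neg (by decide), if_pos (by decide)] at h2
      rw [card_GU_inf_SL, h2, hR] at h1
      exact not_dvd_su3 (by have := hn.2 rfl; omega) ((mul_dvd_mul_right hΩ 27).trans h1)
    · obtain ⟨x, hx, h1, h2⟩ := exists_orderOf_of_dvd_index hΩ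
      exact (h.eq_of_ci hr (mem_SL.1 hx.2) h1 h2 (he.ci hx (pe_of_orderOf (m := 3)
        ((Nat.coprime_primes hr Nat.prime_three).2 h3) h1 h2
        fun c hc => by simpa [hc] using mem_SL.1 hx.2))).elim hn.1 h3
  · rintro hh x hx h1 h3
    rw [Units.val_pow_eq_pow_val] at h1
    have hx' := (mem_GU_iff_sm hF).1 hx.1
    have hdx := mem_SL.1 hx.2
    rcases hh with rfl | ⟨rfl, h9⟩
    · obtain ⟨b, b1, b2, M, m1, m2⟩ := h.conj_invol hp2 hdx ⟨h1, h3⟩
      exact m1.su_mem hF (by rintro rfl; simp at b1) (norm b 3 b1 (by omega) ▸ hx'.smul b) m2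
        (cast_ne_zero hp2) b2
    · obtain ⟨z, hz⟩ := h1
      obtain ⟨b, b1, b2⟩ := exists_cube_root (z := z) (hd 9 (by omega))
        (by simpa [hdx] using (congrArg det hz).symm)
      have b3 : (b • (x : Matrix (Fin 3) (Fin 3) F)) ^ 3 = 1 := by
        rw [_root_.smul_pow, hz, smul_smul, b2, one_smul]
      obtain ⟨M, m1, m2⟩ := h.conj_three (p := p) (by omega) hq (Or.inr hσω) b3
      exact m1.su_mem hF (by rintro rfl; simp at b1) (norm b 9 b1 (by omega) ▸ hx'.smul b) m2
        (cast_ne_zero (p := p) (by omega)) b3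

end Cfsg.Agent.S5999
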