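import Cfsg.Statements.S6000
import Cfsg.Agent.Lib.ElusF.C6

set_option autoImplicit false
open scoped MatrixGroups
open Cfsg

namespace Cfsg.Agent.S6000

/-- Elements of prime order of PSL_4(p), p ≡ 1 (mod 4), and the normalizer of a 2-group of symplectic type of order 2⁶. Here `T = PSL_4(F)` for the field `F` with `p` elements, `p` a prime with `p ≡ 1 (mod 4)`; `R` is an absolutely irreducible subgroup of GL_4(F) of order 2⁶ that is a 2-group of symplectic type of exponent 4 with centre of order 4 (the central product of the scalars of order 4 with an extraspecial group 2^{1+4}), and `H` is the subgroup of matrices of determinant 1 normalizing `R` — a subgroup of type 2⁴.Sp₄(2) (maximality is not assumed). Ω is the set of cosets of `H` in `T`, so an element of `T` of prime order `r` (a matrix `x` of determinant 1 with `x^r` scalar, `x` not scalar) fixes a point of Ω exactly when some conjugate of `x` by a matrix of determinant 1 normalizes `R`. Let `r` be a prime dividing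 the index of `H`. Then every element of `T` of order `r` fixes a point of Ω if and only if `r = 2`, or `r = 3` and `p ≡ 2 (mod 3)`, or `r = 5` and `p ≡ ±2 (mod 5)` (`p` has multiplicative order 4 modulo 5). -/
theorem result {F : Type*} [Field F] [Fintype F] {p : ℕ} [Fact p.Prime] [CharP F p] (hF : Fintype.card F = p) (hp4 : p % 4 = 1)
    (R : Subgroup (GL (Fin 4) F)) (hR : Cfsg.Geo.IsLinearSymplecticTypeData 2 R) (hR6 : Nat.card R = 2 ^ 6)
    (r : ℕ) [Fact r.Prime]
    (hΩ : r ∣ (Cfsg.Geo.subgroupNormalizer R).relIndex (Cfsg.Geo.specialLinear (Fin 4) F)) :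
    (∀ x ∈ Cfsg.Geo.specialLinear (Fin 4) F, (∃ z : F, ((x ^ r : GL (Fin 4) F) : Matrix (Fin 4) (Fin 4) F) = z • (1 : Matrix (Fin 4) (Fin 4) F)) →
      (∀ z : F, (x : Matrix (Fin 4) (Fin 4) F) ≠ z • (1 : Matrix (Fin 4) (Fin 4) F)) →
      ∃ g ∈ Cfsg.Geo.specialLinear (Fin 4) F, g⁻¹ * x * g ∈ Cfsg.Geo.subgroupNormalizer R) ↔ (r = 2 ∨ (r = 3 ∧ p % 3 = 2) ∨ (r = 5 ∧ orderOf (p : ZMod 5) = 4)) := by
  open CfsgLib.ElusH CfsgLib.Elusive CfsgLib.MatConj CfsgLib.ElusF CfsgLib.Asch Matrix Polynomial Cfsg.Geo in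
  classical
  change Elu _ _ r ↔ _
  have hp : p.Prime := Fact.out
  have hr : r.Prime := Fact.out
  have h2 : (2 : F) ≠ 0 := (two_ne_zero_iff (p := p)).2 (by omega)
  have hZ : Nat.card (Subgroup.center R) = 4 := by
    obtain ⟨_, _, -, -, ⟨h, -⟩ | ⟨-, -, h, -⟩ | ⟨-, -, h, -⟩⟩ := hR.field
    exacts [absurd h (by decide), h, absurd h (by simp)]
  obtain ⟨hP, z, hz, hzz⟩ := p2_of_center_four h2 hR.symplecticType hR.absIrred hZ
  have hc := (card_inf_scalars hR.absIrred).trans hZ
  obtain ⟨g, hg⟩ := hP.exists_gam_of_four (by rw [hc, hR6]; rfl) hz hzz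
  have h4 : Fintype.card (Fin 4) = 4 := Fintype.card_fin 4
  have hS : ∀ (B : Matrix (Fin 4) (Fin 4) F) (μ : F), Sm (RingHom.id F) 0 B μ := fun B μ => by simp [Sm]
  constructor
  · intro h
    by_contra hn
    push Not at hn
    have cases := fun x => hP.ci_cases h4 hc (by rw [hR6]; rfl) (Or.inr rfl) hn.1 (x := x)
    obtain ⟨x, hx, h1, h3⟩ := exists_orderOf_of_dvd_index hΩ
    have hpe := pe_of_orderOf (m := 2 ^ 2) (((Nat.coprime_primes hr Nat.prime_two).2 hn.1).pow_right 2)
      h1 h3 fun c hc => by simpa [hc] using mem_SL.1 hx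
    obtain rfl | rfl : r = 3 ∨ r = 5 := (cases x (h.ci hx hpe) hpe).elim (fun h => h.2.1)
      fun h => Or.inl h.2
    · have h5 : ¬ 3 ∣ p := fun e => by
        have := (Nat.prime_dvd_prime_iff_eq Nat.prime_three hp).1 e; omega
      have h6 := hn.2.1 rfl
      obtain ⟨ω, -, e1, e2⟩ := exists_root (F := F) (r := 3) (by rw [hF]; omega)
      obtain ⟨y, -, y1, y2, y3⟩ := exists_diag_three (n := 3) e1 e2 rfl (by omega)
      exact hP.not_ci_of_rk h4.ge (by decide) y2 (by rintro rfl; simp at e2) y3 (h.ci_of_det y1 y2)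
    · by_cases h5 : p = 5
      · subst h5
        obtain ⟨A, -, -, -, a1, a2, a3⟩ := exists_transv (F := F) (p := 5) (ι := Fin 4) (by simp)
        exact hP.not_ci_of_rk h4.ge (by decide) a2 one_ne_zero (by rw [rk_one, a3])
          (h.ci_of_det a1 a2)
      · obtain ⟨t, ht⟩ := exists_golden (F := F) (by omega) h5 (hn.2.2 rfl)
        obtain ⟨b1, b2, b3, b4⟩ := comp_facts (t : F)
        obtain ⟨y, -, y1, y2, y3, -⟩ := exists_blk (finSumFinEquiv (m := 2) (n := 2)) b1
          (pow_five_of_golden ht b2) b3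
        rcases cases y (h.ci_of_det y1 y2) y2 with e | e
        · exact golden_ne ht (by simpa using cast_ne_zero (F := F) (r := 5) (Ne.symm h5))
            (by rw [← e.1, y3, b4])
        · omega
  · intro h
    have hrp : r ≠ p := by
      rcases h with rfl | ⟨rfl, h⟩ | ⟨rfl, h⟩
      · omega
      · omega
      · rintro rfl
        rw [show ((5 : ℕ) : ZMod 5) = 0 from rfl, orderOf_zero] at h
        omega
    rw [elu_SL_iff _ (Or.inl hrp)]
    intro A hd hA
    suffices ∃ b : F, b ≠ 0 ∧ ∃ M, NS R (RingHom.id F) 0 1 M ∧ IsConj (b • A) M by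
      obtain ⟨b, hb, M, m1, m2⟩ := this
      exact (m1.ci m2).of_smul scalars_le_subgroupNormalizer hb
    have split : ∀ M : Matrix (Fin 4) (Fin 4) F, orderOf (Fintype.card F : ZMod r) ≠ 1 →
        M.det ≠ 0 → PE r M → ∃ b : F, b ≠ 0 ∧
        Sm (RingHom.id F) 0 (b • M) 1 ∧ (b • M) ^ r = 1 ∧ b • M ≠ 1 := fun M e hd hM => by
      obtain ⟨b, hb, h⟩ := hM.split hd fun h => e (ord_eq_one_iff.2 h)
      exact ⟨b, hb, hS _ _, h, by simpa using (hM.smul hb).2 1⟩
    rcases h with rfl | ⟨rfl, h⟩ | ⟨rfl, h⟩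
    · obtain ⟨b, hb, h⟩ := noNS_split hA hd ⟨by
        rw [h4, hF, show 4 = 2 ^ 2 by rfl, padicValNat.prime_pow, ← padicValNat_dvd_iff_le
          (by have := hp.two_le; omega)]; omega, fun _ _ => hF ▸ hp4⟩
      exact ⟨b, hb, hg.conj_invol (fun _ _ => hS _ _) h4 hz hzz h (hA.smul hb).2⟩
    · have ho : orderOf (Fintype.card F : ZMod 3) = 3 - 1 := by
        rw [hF, ← ZMod.natCast_mod, h]
        exact ord_two_three
      obtain ⟨b, hb, -, b1, b2⟩ := split A (by omega) (by simp [hd]) hA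
      exact ⟨b, hb, hg.conj_three (fun _ _ => hS _ _) h4 hz hzz hrp
        (fun B _ => rat_of_ord hrp ho) (hS _ _) b1 b2⟩
    · rw [← hF] at h
      obtain ⟨b, hb, -, b1, b2⟩ := split A (by omega) (by simp [hd]) hA
      exact ⟨b, hb, hg.conj_five (fun _ _ => hS _ _) h4 hrp (fun B _ => rat_of_ord hrp h)
        (fun M _ => split M (by omega)) (hS _ _) b1 b2⟩

end Cfsg.Agent.S6000
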