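import Cfsg.Statements.S6001
import Cfsg.Agent.Lib.ElusF.C6

set_option autoImplicit false
open scoped MatrixGroups
open Cfsg

namespace Cfsg.Agent.S6001

/-- Elements of prime order of PSU_4(p), p ≡ 3 (mod 4), and the normalizer of a 2-group of symplectic type of order 2⁶. Here `T = PSU_4(p)` for a prime `p ≡ 3 (mod 4)`, realised through `SU_4(p)`, the matrices of determinant 1 over the field `F` with `p²` elements preserving the hermitian form `f = Σ uᵢvᵢ^p`; `R` is an absolutely irreducible subgroup of the full unitary group of `f` of order 2⁶ that is a 2-group of symplectic type of exponent 4 with centre of order 4, and `H` is the subgroup of `SU_4(p)` normalizing `R` — a subgroup of type 2⁴.Sp₄(2) (maximality is not assumed). Ω is the set of cosets of `H`, so an element of `T` of prime order `r` (`x ∈ SU_4(p)` with `x^r` scalar, `x` not scalar) fixes a point of Ω exactly when some `SU_4(p)`-conjugate of `x` normalizes `R`. Let `r` be a prime dividing the index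 of `H`. Then every element of `T` of order `r` fixes a point of Ω if and only if `r = 2`, or `r = 3` and `p ≡ 1 (mod 3)`, or `r = 5` and `p ≡ ±2 (mod 5)` (`p` has multiplicative order 4 modulo 5). -/
theorem result {F : Type*} [Field F] [Fintype F] {p : ℕ} [Fact p.Prime] [CharP F p] (hF : Fintype.card F = p ^ 2) (hp4 : p % 4 = 3)
    (R : Subgroup (GL (Fin 4) F)) (hRs : Cfsg.Geo.IsSymplecticTypeGroup 2 R) (hRi : Cfsg.Geo.ActsAbsolutelyIrreducibly (Cfsg.Geo.matrixSet R))
    (hRU : R ≤ Cfsg.GU 4 F p) (hR6 : Nat.card R = 2 ^ 6) (hRZ : Nat.card (Subgroup.center R) = 4)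
    (r : ℕ) [Fact r.Prime]
    (hΩ : r ∣ (Cfsg.Geo.subgroupNormalizer R).relIndex (Cfsg.GU 4 F p ⊓ Cfsg.Geo.specialLinear (Fin 4) F)) :
    (∀ x ∈ Cfsg.GU 4 F p ⊓ Cfsg.Geo.specialLinear (Fin 4) F, (∃ z : F, ((x ^ r : GL (Fin 4) F) : Matrix (Fin 4) (Fin 4) F) = z • (1 : Matrix (Fin 4) (Fin 4) F)) →
      (∀ z : F, (x : Matrix (Fin 4) (Fin 4) F) ≠ z • (1 : Matrix (Fin 4) (Fin 4) F)) →
      ∃ g ∈ Cfsg.GU 4 F p ⊓ Cfsg.Geo.specialLinear (Fin 4) F, g⁻¹ * x * g ∈ Cfsg.Geo.subgroupNormalizer R) ↔ (r = 2 ∨ (r = 3 ∧ p % 3 = 1) ∨ (r = 5 ∧ orderOf (p : ZMod 5) = 4)) := by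
  open CfsgLib.ElusH CfsgLib.Elusive CfsgLib.MatConj CfsgLib.ElusF CfsgLib.Asch Matrix Polynomial Cfsg.Geo in
  classical
  change Elu _ _ r ↔ _
  have z3 : (1 : ZMod 3) ≠ -1 := by decide
  have z5 : ∀ x : ZMod 5, x ^ 4 = 1 → x ^ 2 ≠ 1 → x ^ 2 = -1 ∧ 1 * x ≠ -1 ∧ -1 * x ≠ -1 := by decide
  have hp : p.Prime := Fact.out
  have hr : r.Prime := Fact.out
  have hp2 : 2 ≠ p := by omega
  have h2 : (2 : F) ≠ 0 := two_ne_zero_iff.2 hp2
  obtain ⟨hP, z, hz, hzz⟩ := p2_of_center_four h2 hRs hRi hRZ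
  have hc := (card_inf_scalars hRi).trans hRZ
  obtain ⟨g, hg⟩ := hP.exists_gam_of_four (by rw [hc, hR6]; rfl) hz hzz
  have h4 : Fintype.card (Fin 4) = 4 := Fintype.card_fin 4
  set σ := CfsgLib.Unitary.conj hF with hσ
  have hσa : ∀ x, σ x = x ^ p := fun x => rfl
  have hσσ : ∀ x, σ (σ x) = x := CfsgLib.Unitary.conj_conj hF
  have hR : ∀ a ∈ R, Sm σ 1 (a : Matrix (Fin 4) (Fin 4) F) 1 := fun a ha => (mem_GU_iff_sm hF).1 (hRU ha)
  have hG : (1 : Matrix (Fin 4) (Fin 4) F).det ≠ 0 := by simp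
  have four : ∀ c : F, c ^ 4 = 1 → c * σ c = 1 := fun c h => by
    rw [hσa, ← pow_succ', pow_eq_pow_mod _ h, show (p + 1) % 4 = 0 by omega, pow_zero]
  constructor
  · intro h
    by_contra hn
    push Not at hn
    have cases := fun x => hP.ci_cases h4 hc (by rw [hR6]; rfl) (Or.inr rfl) hn.1 (x := x)
    have test : ∀ B : Matrix (Fin 2) (Fin 2) F, B.det = 1 → Sm σ 1 B 1 → B ^ r = 1 → B ≠ 1 →
        ∃ x : GL (Fin 4) F, CI (subgroupNormalizer R) x ∧ PE r (x : Matrix (Fin 4) (Fin 4) F) ∧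
          tau x = (B.trace + 2) ^ 2 ∧ ((B - 1) * (B - 1) = 0 → rk (x : Matrix (Fin 4) (Fin 4) F) 1 ≤ 1) := by
      intro B b1 b0 b2 b3
      obtain ⟨x, x1, x0, x2, x3⟩ := exists_blk (finSumFinEquiv (m := 2) (n := 2)) b1 b2 b3
      exact ⟨x, h.ci ⟨(mem_GU_iff_sm hF).2 (x1 ▸ sm_blk _ b0), mem_SL.2 x0⟩ x2, x2, x3⟩
    obtain ⟨x, hx, h1, h3⟩ := exists_orderOf_of_dvd_index hΩ
    have hpe := pe_of_orderOf (m := 2 ^ 2) (((Nat.coprime_primes hr Nat.prime_two).2 hn.1).pow_right 2)
      h1 h3 fun c hc => by simpa [hc] using mem_SL.1 hx.2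
    obtain rfl | rfl : r = 3 ∨ r = 5 := (cases x (h.ci hx hpe) hpe).elim (fun h => h.2.1)
      fun h => Or.inl h.2
    · by_cases h5 : p = 3
      · subst h5
        have h0 : (3 : F) = 0 := by simpa using CharP.cast_eq_zero F 3
        have hz3 : σ z = -z := by rw [hσa]; linear_combination (z : F) * hzz
        have hz0 := z.ne_zero
        generalize (z : F) = z at hzz hz3 hz0
        have hB : ((!![1 + z, 1 + z; z - 1, 1 - z] : Matrix (Fin 2) (Fin 2) F) - 1) *
            (!![1 + z, 1 + z; z - 1, 1 - z] - 1) = 0 := by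
          ext i j
          fin_cases i <;> fin_cases j <;> simp [mul_apply, one_apply] <;>
            first | ring1 | linear_combination 2 * hzz - h0
        obtain ⟨y, y1, y2, -, y3⟩ := test !![1 + z, 1 + z; z - 1, 1 - z]
          (by simp; linear_combination -2 * hzz + h0) (by
            rw [Sm, mul_one, one_smul]
            ext i j
            fin_cases i <;> fin_cases j <;> simp [mul_apply, hz3] <;>
              first | ring1 | linear_combination -2 * hzz + h0)
          (by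
            have := sub_one_pow_char_pow (F := F) 3
              (!![1 + z, 1 + z; z - 1, 1 - z] : Matrix (Fin 2) (Fin 2) F) 1
            rw [pow_one, pow_succ, pow_two, hB, zero_mul] at this
            exact sub_eq_zero.1 this.symm)
          fun e => hz0 (by simpa using congrFun (congrFun e 0) 0)
        exact hP.not_ci_of_rk h4.ge (by decide) y2 one_ne_zero (y3 hB) y1
      · have h6 : ¬ 3 ∣ p := fun e => h5 ((Nat.prime_dvd_prime_iff_eq Nat.prime_three hp).1 e).symm
        have h7 := hn.2.1 rfl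
        obtain ⟨ω, -, e1, e2⟩ := exists_root (F := F) (r := 3) (by
          rw [hF, CfsgLib.Unitary.sq_sub_one_eq p hp.one_le]; exact Dvd.dvd.mul_right (by omega) _)
        obtain ⟨y, y0, y1, y2, y3⟩ := exists_diag_three (n := 3) e1 e2 rfl (by omega)
        refine hP.not_ci_of_rk h4.ge (by decide) y2 (by rintro rfl; simp at e2) y3
          (h.ci ⟨(mem_GU_iff_sm hF).2 (y0 ▸ sm_diagonal fun i => ?_), mem_SL.2 y1⟩ y2)
        induction i using Fin.cases
        · simp
        · rw [Fin.cons_succ, ← hσ, hσa, ← pow_succ', pow_eq_pow_mod _ e2,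
            show (p + 1) % 3 = 0 by omega, pow_zero]
    · have h5 : 5 ≠ p := by omega
      have h5' : (5 : F) ≠ 0 := by simpa using cast_ne_zero (F := F) h5
      obtain ⟨t, ht⟩ := exists_golden (F := F) hp2.symm h5.symm (hn.2.2 rfl)
      obtain ⟨a, ha⟩ : ∃ a : F, a = t / 2 := ⟨_, rfl⟩
      have ha' : σ a = a := by rw [ha, map_div₀, map_natCast, map_ofNat]
      have ha2 : (t : F) = a + a := by rw [ha]; field_simp; norm_num
      obtain ⟨b, hb⟩ := CfsgLib.Unitary.exists_norm_eq hF (μ := 1 - a * a) (by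
        rw [← hσa, map_sub, map_mul, map_one, ha'])
      rw [pow_succ, ← hσa] at hb
      obtain ⟨y, y1, y2, y3, -⟩ := test !![a, b; -σ b, a] (by simp; linear_combination hb) (by
          rw [Sm, mul_one, one_smul]
          ext i j
          fin_cases i <;> fin_cases j <;> simp [mul_apply, ha', hσσ] <;>
            first | ring1 | linear_combination hb)
        (pow_five_of_golden ht (by
          ext i j
          fin_cases i <;> fin_cases j <;> simp [mul_apply, ha2] <;>
            first | ring1 | linear_combination -hb))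
        fun e => h5' (by
          have : a = 1 := by simpa using congrFun (congrFun e 0) 0
          rw [ha2, this] at ht
          linear_combination ht)
      rcases cases y y1 y2 with e | e
      · exact golden_ne ht h5' (by rw [← e.1, y3, ha2]; simp)
      · omega
  · rintro h x hx h1 h3
    rw [Units.val_pow_eq_pow_val] at h1
    have hx' := (mem_GU_iff_sm hF).1 hx.1
    suffices ∃ b : F, b ≠ 0 ∧ Sm σ 1 (b • (x : Matrix (Fin 4) (Fin 4) F)) 1 ∧ r ≠ p ∧
        (b • (x : Matrix (Fin 4) (Fin 4) F)) ^ r = 1 ∧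
        ∃ M, NS R σ 1 1 M ∧ IsConj (b • (x : Matrix (Fin 4) (Fin 4) F)) M by
      obtain ⟨b, hb, b1, b2, b3, M, m1, m2⟩ := this
      exact m1.su_mem hF hb b1 m2 (cast_ne_zero b2) b3
    have split := fun (hc : r.Coprime (p + 1)) M (hM : Sm σ 1 M 1) => hM.exists_split hG (r := r)
      (Nat.succ_ne_zero p) hc fun z hz => by rwa [pow_succ', ← hσa]
    have nf : r ≠ p → (∀ j, ((p : ZMod r) ^ 2) ^ j * p ≠ -1) → ∀ f ∈ cyc F r, tilde σ f ≠ f :=
      fun hrp h f hf e => by
        obtain ⟨j, hj⟩ := (tilde_eq_iff hrp (a := 1) (by simpa using hσa) hf).1 e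
        exact h j (by simpa [hF] using hj)
    rcases h with rfl | ⟨rfl, h⟩ | ⟨rfl, h⟩
    · obtain ⟨w, hw⟩ := h1
      have h5 := hx'.pow_eq hG hw
      rw [one_pow] at h5
      obtain ⟨c, rfl⟩ : IsSquare w := (FiniteField.isSquare_iff (ringChar.eq F p ▸ hp2.symm)
        (left_ne_zero_of_mul_eq_one h5.symm)).2 (by
          obtain ⟨k, rfl⟩ : ∃ k, p = 2 * k + 1 := ⟨p / 2, by omega⟩
          rw [hF, show (2 * k + 1) ^ 2 / 2 = (2 * k + 1 + 1) * k by
            rw [show (2 * k + 1) ^ 2 = 2 * ((2 * k + 1 + 1) * k) + 1 by ring]; omega,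
            pow_mul, pow_succ', ← hσa, ← h5, one_pow])
      have hc0 : c ≠ 0 := by rintro rfl; simp at h5
      have h6 : (c⁻¹ • (x : Matrix (Fin 4) (Fin 4) F)) ^ 2 = 1 := by
        rw [_root_.smul_pow, hw, smul_smul, show c⁻¹ ^ 2 * (c * c) = 1 by field_simp, one_smul]
      have h7 := hx'.smul c⁻¹
      refine ⟨c⁻¹, inv_ne_zero hc0, ?_, hp2, h6, hg.conj_invol hR h4 hz hzz h6
        (PE.smul ⟨⟨_, hw⟩, h3⟩ (inv_ne_zero hc0)).2⟩
      rcases mul_self_eq_one_iff.1 (show c⁻¹ * σ c⁻¹ * 1 * (c⁻¹ * σ c⁻¹ * 1) = 1 by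
        rw [map_inv₀, mul_one, ← mul_inv, ← mul_inv, inv_eq_one, h5, map_mul]; ring) with e | e
      · rwa [e] at h7
      · exfalso
        rw [pow_two] at h6
        have a4 := rank_add_of_sq h2 h6
        have a5 := (e ▸ h7).rk hG (a := 1) (by simp) one_ne_zero
        rw [← rk_smul _ (neg_ne_zero.2 (one_ne_zero (α := F)))] at a5
        simp only [map_one, inv_one, mul_one, neg_mul, neg_neg, one_mul, rk_one, neg_one_smul] at a5
        have a6 := det_of_sq hp2 h6
        rw [show (c⁻¹ • (x : Matrix (Fin 4) (Fin 4) F) - 1).rank = 2 by omega, det_smul,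
          mem_SL.1 hx.2, h4, mul_one, neg_one_sq] at a6
        rw [four _ a6] at e
        exact h2 (by linear_combination e)
    · have hrp : 3 ≠ p := by omega
      have e : (p : ZMod 3) = 1 := by rw [← ZMod.natCast_mod, h, Nat.cast_one]
      obtain ⟨b, hb, b1, b2, b3⟩ := split ((Nat.Prime.coprime_iff_not_dvd hr).2 (by omega)) _ hx' ⟨h1, h3⟩
      exact ⟨b, hb, b1, hrp, b2, hg.conj_three hR h4 hz hzz hrp (fun B => rat_of_two hrp
        (by simp [hF, e]) hσσ (nf hrp fun j => by
          simp only [e, one_pow, mul_one]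
          exact z3) hG) b1 b2 b3⟩
    · have hrp : 5 ≠ p := by omega
      obtain ⟨e1, e2, e3⟩ := z5 p (h ▸ pow_orderOf_eq_one _) fun e => by
        have := orderOf_dvd_of_pow_eq_one e
        rw [h] at this; omega
      have hco : Nat.Coprime 5 (p + 1) := (Nat.Prime.coprime_iff_not_dvd hr).2 fun e => e2 (by
        have := (ZMod.natCast_eq_zero_iff _ 5).2 e
        push_cast at this; linear_combination this)
      obtain ⟨b, hb, b1, b2, b3⟩ := split hco _ hx' ⟨h1, h3⟩
      exact ⟨b, hb, b1, hrp, b2, hg.conj_five hR h4 hrp (fun B => rat_of_two hrp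
        (by rw [hF, Nat.cast_pow, orderOf_pow' _ two_ne_zero, h]; rfl) hσσ (nf hrp fun j => by
          rw [e1]
          rcases neg_one_pow_eq_or (ZMod 5) j with e | e <;> rw [e] <;> assumption) hG)
        (fun M hM _ => split hco M hM) b1 b2 b3⟩

end Cfsg.Agent.S6001
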