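import Cfsg.Statements.S6002
import Cfsg.Agent.Lib.ElusF.C6

set_option autoImplicit false
open scoped MatrixGroups
open Cfsg

namespace Cfsg.Agent.S6002

/-- Elements of prime order of PSp_4(p), p odd, and the normalizer of an extraspecial 2-group of order 2⁵ of minus type. Here `T = PSp_4(F)` for the field `F` with `p` elements, `p` an odd prime, realised through the matrices preserving the standard alternating form `f`; `R` is an absolutely irreducible subgroup of `T` (it preserves `f`) that is a 2-group of symplectic type of exponent 4, order 2⁵ and centre of order 2, of minus type (no elementary abelian subgroup of order 2³), and `H` is the subgroup of `T` normalizing `R` — a subgroup of type 2^{1+4}.O₄⁻(2) (maximality is not assumed). Ω is the set of cosets of `H` in `T`, so an element of `T` of prime order `r` (`x ∈ T` with `x^r` scalar, `x` not scalar) fixes a point of Ω exactly when some `T`-conjugate of `x` normalizes `R`. Let `r` be a prime dividing the index of `H`. Then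 every element of `T` of order `r` fixes a point of Ω if and only if `r = 2`, or `r = 5` and `p` has multiplicative order 4 modulo 5. -/
theorem result {F : Type*} [Field F] [Fintype F] {p : ℕ} [Fact p.Prime] [CharP F p] (hF : Fintype.card F = p) (hodd : Odd p)
    (R : Subgroup (GL (Fin 2 ⊕ Fin 2) F)) (hRs : Cfsg.Geo.IsSymplecticTypeGroup 2 R) (hRi : Cfsg.Geo.ActsAbsolutelyIrreducibly (Cfsg.Geo.matrixSet R))
    (hRf : R ≤ Cfsg.spGL 2 F) (hR5 : Nat.card R = 2 ^ 5) (hRZ : Nat.card (Subgroup.center R) = 2) (hRm : Cfsg.Geo.IsOfMinusType 2 R)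
    (r : ℕ) [Fact r.Prime]
    (hΩ : r ∣ (Cfsg.Geo.subgroupNormalizer R).relIndex (Cfsg.spGL 2 F)) :
    (∀ x ∈ Cfsg.spGL 2 F, (∃ z : F, ((x ^ r : GL (Fin 2 ⊕ Fin 2) F) : Matrix (Fin 2 ⊕ Fin 2) (Fin 2 ⊕ Fin 2) F) = z • (1 : Matrix (Fin 2 ⊕ Fin 2) (Fin 2 ⊕ Fin 2) F)) →
      (∀ z : F, (x : Matrix (Fin 2 ⊕ Fin 2) (Fin 2 ⊕ Fin 2) F) ≠ z • (1 : Matrix (Fin 2 ⊕ Fin 2) (Fin 2 ⊕ Fin 2) F)) →
      ∃ g ∈ Cfsg.spGL 2 F, g⁻¹ * x * g ∈ Cfsg.Geo.subgroupNormalizer R) ↔ (r = 2 ∨ (r = 5 ∧ orderOf (p : ZMod 5) = 4)) := by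
  open CfsgLib.ElusH CfsgLib.Elusive CfsgLib.MatConj CfsgLib.ElusF CfsgLib.Asch Matrix Polynomial Cfsg.Geo in
  classical
  change Elu _ _ r ↔ _
  have hp : p.Prime := Fact.out
  have hr : r.Prime := Fact.out
  have hp2 : 2 ≠ p := by rintro rfl; exact absurd hodd (by decide)
  have h2 : (2 : F) ≠ 0 := two_ne_zero_iff.2 hp2
  have hP := p2_of_center_two h2 hRs hRi hRZ
  have hc := (card_inf_scalars hRi).trans hRZ
  obtain ⟨g, hg⟩ := hP.exists_gam_of_minus (by rw [hc, hR5]; rfl) hRm hR5
  have h4 : Fintype.card (Fin 2 ⊕ Fin 2) = 4 := by simp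
  have hR : ∀ a ∈ R, Sm (RingHom.id F) (J (Fin 2) F) a 1 := fun a ha => mem_spGL_iff_sm.1 (hRf ha)
  have hJ := det_J_ne (F := F) 2
  constructor
  · intro h
    by_contra hn
    push Not at hn
    have cases := fun x => hP.ci_cases h4 hc (by rw [hR5]; rfl) (Or.inl rfl) hn.1 (x := x)
    have test : ∀ B : Matrix (Fin 2) (Fin 2) F, B.det = 1 → B ^ r = 1 → B ≠ 1 →
        ∃ x : GL (Fin 2 ⊕ Fin 2) F, CI (subgroupNormalizer R) x ∧ PE r (x : Matrix (Fin 2 ⊕ Fin 2) (Fin 2 ⊕ Fin 2) F) ∧
          tau x = (B.trace + 2) ^ 2 ∧ ((B - 1) * (B - 1) = 0 → rk (x : Matrix (Fin 2 ⊕ Fin 2) (Fin 2 ⊕ Fin 2) F) 1 ≤ 1) := by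
      intro B b1 b2 b3
      obtain ⟨x, x1, -, x2, x3⟩ := exists_blk (Equiv.swap (Sum.inl 1) (Sum.inr 0)) b1 b2 b3
      refine ⟨x, h.ci (mem_spGL_iff_sm.2 ?_) x2, x2, x3⟩
      rw [det_fin_two] at b1
      rw [sm_id, x1]
      ext i j
      rcases i with i | i <;> rcases j with j | j <;> fin_cases i <;> fin_cases j <;>
        simp [blk_apply, mul_apply, J, Equiv.swap_apply_def] <;>
        first | ring1 | linear_combination b1 | linear_combination -b1
    have unip : r ≠ p := by
      rintro rfl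
      obtain ⟨x, x1, x2, -, x3⟩ := test !![1, 1; 0, 1] (by simp) (by
        have : ∀ k : ℕ, (!![1, 1; 0, 1] : Matrix (Fin 2) (Fin 2) F) ^ k = !![1, (k : F); 0, 1] := by
          intro k
          induction k with
          | zero => simp [one_fin_two]
          | succ k ih => rw [pow_succ, ih]; simp [add_comm]
        rw [this, CharP.cast_eq_zero, one_fin_two]) fun e => by simpa using congrFun (congrFun e 0) 1
      exact hP.not_ci_of_rk h4.ge hodd x2 one_ne_zero (x3 (by
        ext i j; fin_cases i <;> fin_cases j <;> simp [mul_apply, one_apply])) x1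
    obtain ⟨x, hx, h1, h3⟩ := exists_orderOf_of_dvd_index hΩ
    have hpe := pe_of_orderOf (m := 2) ((Nat.coprime_primes hr Nat.prime_two).2 hn.1)
      h1 h3 fun c hc => by
        have := ((Sm.one _).smul c).unique hJ (hc ▸ mem_spGL_iff_sm.1 hx)
        rwa [RingHom.id_apply, mul_one, ← pow_two] at this
    obtain rfl | rfl : r = 3 ∨ r = 5 := (cases x (h.ci hx hpe) hpe).elim (fun h => h.2.1)
      fun h => Or.inl h.2
    · obtain ⟨b1, b2, b3, b4⟩ := comp_facts (-1 : F)
      obtain ⟨y, y1, y2, y3, -⟩ := test _ b1 (cube_of_sq (by rw [b2, neg_one_smul])) b3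
      rcases cases y y1 y2 with ⟨-, -, w, w1, w2, w3⟩ | e
      · exact hg.not_fpf hRm hR5 w1 w2 w3
      · refine cast_ne_zero (F := F) unip ?_
        rw [b4, e.1] at y3
        push_cast; linear_combination y3
    · obtain ⟨t, ht⟩ := exists_golden (F := F) hp2.symm unip.symm (hn.2 rfl)
      obtain ⟨b1, b2, b3, b4⟩ := comp_facts (t : F)
      obtain ⟨y, y1, y2, y3, -⟩ := test _ b1 (pow_five_of_golden ht b2) b3
      rcases cases y y1 y2 with e | e
      · exact golden_ne ht (by simpa using cast_ne_zero (F := F) unip) (by rw [← e.1, y3, b4])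
      · omega
  · rintro h x hx h1 h3
    rw [Units.val_pow_eq_pow_val] at h1
    have hx' := mem_spGL_iff_sm.1 hx
    rcases h with rfl | ⟨rfl, h⟩
    · obtain ⟨z, hz⟩ := h1
      have hz1 := hx'.pow_eq hJ hz
      have h0 := Subgroup.le_normalizer (hg.mem 0)
      have h01 := R.mul_mem (hg.mem 0) (hg.mem 1)
      have hk : ((2 ^ 2 : ℕ) : F) ≠ 0 := by rw [Nat.cast_pow]; exact pow_ne_zero 2 h2
      rcases mul_self_eq_one_iff.1 (show z * z = 1 by simpa using hz1.symm) with rfl | rfl
      · have t : ∀ A : Matrix (Fin 2 ⊕ Fin 2) (Fin 2 ⊕ Fin 2) F, A ^ 2 = 1 →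
            Sm (RingHom.id F) (J (Fin 2) F) A 1 → (∀ c : F, A ≠ c • 1) →
            edM A = Multiset.replicate 2 (X - 1, 1) + Multiset.replicate 2 (X + 1, 1) := by
          intro A a1 a2 a3
          obtain ⟨e, s, e1, e2, e3⟩ := edM_of_sq hp2 a1
          rw [a2.det_alt hJ (J_transpose _ _) fun i => by rcases i with i | i <;> simp [J]] at e3
          have n : ∀ c : F, ¬ ∀ y ∈ edM A, y = (X - C c, 1) := fun c hy => a3 c (by
            have := (aeval_eq_zero_iff_edM A (X - C c)).2 fun y e => by rw [hy y e]; simp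
            simpa [sub_eq_zero, Algebra.algebraMap_eq_smul_one] using this)
          have n1 : s ≠ 0 := by
            rintro rfl
            exact n 1 fun y hy => by simpa [e1] using Multiset.eq_of_mem_replicate (by simpa [e1] using hy)
          have n2 : e ≠ 0 := by
            rintro rfl
            exact n (-1) fun y hy => by simpa [e1] using Multiset.eq_of_mem_replicate (by simpa [e1] using hy)
          have n3 : Even s := (neg_one_pow_eq_one_iff_even fun e => h2 (by linear_combination -e)).1 e3.symm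
          obtain ⟨k, rfl⟩ := n3
          rw [e1, show k + k = 2 by omega, show e = 2 by omega]
        rw [one_smul] at hz
        refine sp_mem scalars_le_subgroupNormalizer h0 (hR _ (hg.mem 0)) one_ne_zero
          (by rwa [one_smul]) ?_ h2 (by rwa [one_smul])
        rw [one_smul, isConj_iff_edM, t _ hz hx' h3, t _ (by rw [pow_two, hg.sq]) (hR _ (hg.mem 0))
          (not_scalar_of_anti h2 (Units.ne_zero _) (hg.anti 0 1 (by decide)))]
      · have hy : ((g 0 * g 1 : GL (Fin 2 ⊕ Fin 2) F) : Matrix (Fin 2 ⊕ Fin 2) (Fin 2 ⊕ Fin 2) F) ^ 2 =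
            (-1 : F) • 1 := by rw [pow_two, hg.mul_sq (by decide), neg_one_smul]
        refine sp_mem scalars_le_subgroupNormalizer (Subgroup.le_normalizer h01) (hR _ h01) one_ne_zero
          (by rwa [one_smul]) ?_ hk (by rw [one_smul, pow_two, pow_mul, hz]; simp)
        rw [one_smul]
        by_cases hb : ∀ b : F, b ^ 2 ≠ -1
        · exact isConj_iff_edM.2 (edM_eq_of_irreducible (irreducible_nonsplit hb)
            (monic_X_pow_sub_C _ two_ne_zero) (aeval_X_pow_sub_C.2 hz) (aeval_X_pow_sub_C.2 hy) rfl)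
        · push Not at hb
          obtain ⟨b, hb⟩ := hb
          have hb0 : b ≠ 0 := by rintro rfl; simp at hb
          have t : ∀ A : Matrix (Fin 2 ⊕ Fin 2) (Fin 2 ⊕ Fin 2) F, A ^ 2 = (-1 : F) • 1 →
              Sm (RingHom.id F) (J (Fin 2) F) A 1 → (b • A) * (b • A) = 1 ∧ (b • A - 1).rank = 2 := by
            intro A a1 a2
            have a3 : (b • A) * (b • A) = 1 := by
              rw [← pow_two, _root_.smul_pow, a1, hb]; simp
            have a4 := rank_add_of_sq h2 a3
            have a5 := (a2.smul b).rk hJ (a := 1) (by simpa using hb0) one_ne_zero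
            rw [← rk_smul _ (neg_ne_zero.2 (one_ne_zero (α := F))), RingHom.id_apply, ← pow_two, hb] at a5
            simp only [map_one, inv_one, mul_one, neg_mul, neg_neg, one_mul, rk_one, neg_one_smul] at a5
            exact ⟨a3, by omega⟩
          obtain ⟨a1, a2⟩ := t _ hz hx'
          obtain ⟨a3, a4⟩ := t _ hy (hR _ h01)
          simpa [smul_smul, hb0] using isConj_smul ((rat_two hp2 a1).isConj hp2 (rat_two hp2 a3)
            (a2.trans a4.symm)) b⁻¹
    · have hrp : 5 ≠ p := by
        rintro rfl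
        rw [show ((5 : ℕ) : ZMod 5) = 0 from rfl, orderOf_zero] at h
        omega
      rw [← hF] at h
      have split := fun M (hM : Sm (RingHom.id F) (J (Fin 2) F) M 1) => hM.exists_split hJ (r := 5)
        two_ne_zero (by decide) fun z hz => by simpa [pow_two] using hz
      obtain ⟨b, hb, b1, b2, b3⟩ := split _ hx' ⟨h1, h3⟩
      obtain ⟨M, ⟨⟨y, hy, rfl⟩, m1⟩, m2⟩ := hg.conj_five hR h4 hrp (fun B _ => rat_of_ord hrp h)
        (fun M hM _ => split M hM) b1 b2 b3
      exact sp_mem scalars_le_subgroupNormalizer hy m1 hb b1 m2 (cast_ne_zero hrp) b2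

end Cfsg.Agent.S6002
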